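import Mathlib
import Cfsg.Statements.S0161
import Cfsg.Agent.Lib.Helper3.CharArith
import Cfsg.Agent.Lib.Helper3.CharInt

set_option autoImplicit false
open Cfsg
open scoped ComplexConjugate
open Cfsg.Agent.Lib.Helper3.Char Cfsg.Agent.Lib.Helper3.CharArith Cfsg.Agent.Lib.Helper3.CharCore Cfsg.Agent.Lib.Helper3.CharInt

namespace Cfsg.Agent.S0161

theorem exists_half {G : Type*} [Group G] [DecidableEq G] (f : G → ℂ)
    (hf : ∀ g, f g⁻¹ = f g) : ∀ s : Finset G, (∀ g ∈ s, g⁻¹ ∈ s) → (∀ g ∈ s, g⁻¹ ≠ g) →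
    ∃ t : Finset G, t ⊆ s ∧ ∑ g ∈ s, f g = 2 * ∑ g ∈ t, f g := by
  intro s
  induction s using Finset.strongInduction with
  | H s ih =>
    intro hcl hne
    by_cases hs : s = ∅
    · subst hs
      exact ⟨∅, Finset.Subset.refl _, by simp⟩
    · obtain ⟨g, hg⟩ := Finset.nonempty_iff_ne_empty.mpr hs
      have hg' : g⁻¹ ∈ s.erase g := Finset.mem_erase.mpr ⟨hne g hg, hcl g hg⟩
      have hsub : (s.erase g).erase g⁻¹ ⊂ s :=
        lt_of_le_of_lt (Finset.erase_subset _ _) (Finset.erase_ssubset hg)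
      obtain ⟨t', ht', hsum⟩ := ih ((s.erase g).erase g⁻¹) hsub
        (by
          intro h hh
          rw [Finset.mem_erase, Finset.mem_erase] at hh ⊢
          refine ⟨?_, ?_, hcl h hh.2.2⟩
          · intro h1
            exact hh.2.1 (inv_injective h1)
          · intro h1
            apply hh.1
            rw [← h1, inv_inv])
        (by
          intro h hh
          rw [Finset.mem_erase, Finset.mem_erase] at hh
          exact hne h hh.2.2)
      have hgt : g ∉ t' := by
        intro h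
        have := ht' h
        rw [Finset.mem_erase, Finset.mem_erase] at this
        exact this.2.1 rfl
      refine ⟨insert g t', ?_, ?_⟩
      · intro x hx
        rcases Finset.mem_insert.mp hx with rfl | hx
        · exact hg
        · exact Finset.mem_of_mem_erase (Finset.mem_of_mem_erase (ht' hx))
      · rw [← Finset.add_sum_erase s f hg, ← Finset.add_sum_erase (s.erase g) f hg', hsum,
          Finset.sum_insert hgt, hf g]
        ring

theorem result {G : Type*} [Group G] [Finite G] (hodd : Odd (Nat.card G)) (χ : Cfsg.IrrCharacter G) (hreal : ∀ g : G, ((χ : G → ℂ) g).im = 0) : (χ : G → ℂ) = fun _ => 1 := by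
  classical
  have _i : Fintype G := Fintype.ofFinite G
  by_contra hne
  have hcard : (Nat.card G : ℂ) ≠ 0 := by exact_mod_cast Nat.card_pos.ne'
  have h0 := irr_inner_ne χ.2 (isIrr_one G) hne
  unfold Cfsg.classInner at h0
  have h1 : ∑ g : G, (χ : G → ℂ) g = 0 := by
    rcases mul_eq_zero.mp h0 with h | h
    · exact absurd (inv_eq_zero.mp h) hcard
    · simpa using h
  have hsq : ∀ g : G, g⁻¹ = g → g = 1 := by
    intro g hg
    have h2 : g ^ 2 = 1 := by
      rw [pow_two]
      nth_rewrite 1 [← hg]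
      exact inv_mul_cancel g
    have h3 : orderOf g ∣ 2 := orderOf_dvd_of_pow_eq_one h2
    have h4 : orderOf g ∣ Nat.card G := orderOf_dvd_natCard g
    have h5 : orderOf g ∣ Nat.gcd 2 (Nat.card G) := Nat.dvd_gcd h3 h4
    have h6 : Nat.gcd 2 (Nat.card G) = 1 := Nat.coprime_two_left.mpr hodd
    rw [h6, Nat.dvd_one, orderOf_eq_one_iff] at h5
    exact h5
  have hf : ∀ g : G, (χ : G → ℂ) g⁻¹ = (χ : G → ℂ) g := by
    intro g
    rw [char_inv (isCharacter_of_irr χ.2)]
    exact Complex.conj_eq_iff_im.mpr (hreal g)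
  obtain ⟨t, -, ht⟩ := exists_half (χ : G → ℂ) hf ((Finset.univ : Finset G).erase 1)
    (by
      intro g hg
      rw [Finset.mem_erase] at hg ⊢
      exact ⟨fun h => hg.1 (inv_eq_one.mp h), Finset.mem_univ _⟩)
    (by
      intro g hg h
      rw [Finset.mem_erase] at hg
      exact hg.1 (hsq g h))
  rw [← Finset.add_sum_erase Finset.univ _ (Finset.mem_univ (1 : G)), ht] at h1
  obtain ⟨n, hn, hn1, hdvd⟩ := irr_degree_dvd_card χ.2
  rw [hn1] at h1
  have h2 : IsIntegral ℤ ((n : ℂ) / ((2 : ℕ) : ℂ)) := by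
    have h3 : (n : ℂ) / ((2 : ℕ) : ℂ) = - ∑ g ∈ t, (χ : G → ℂ) g := by
      have : (n : ℂ) = -(2 * ∑ g ∈ t, (χ : G → ℂ) g) := eq_neg_of_add_eq_zero_left h1
      rw [this]
      push_cast
      ring
    rw [h3]
    exact (IsIntegral.sum _ (fun g _ => char_isIntegral (isCharacter_of_irr χ.2) g)).neg
  have h4 := nat_dvd_of_isIntegral_div n 2 (by norm_num) h2
  have h5 : 2 ∣ Nat.card G := h4.trans hdvd
  rcases hodd with ⟨k, hk⟩
  omega

end Cfsg.Agent.S0161
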