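import Mathlib
import Cfsg.Agent.Lib.Helper1.GolayCoset
import Cfsg.Statements.S1635

set_option autoImplicit false
open Cfsg

namespace Cfsg.Agent.S1635

theorem c12951 : ∑ j ∈ Finset.range (4 + 1), (24).choose j = 12951 := by decide

theorem c2325 : ∑ j ∈ Finset.range (3 + 1), (24).choose j = 2325 := by decide

/-- Coset leaders of the length-24 code: a coset contains a unique word of weight ≤ 3, or else exactly six words of weight 4 and none lighter. -/
theorem result (w : Cfsg.GolayPt → ZMod 2) : ({v : Cfsg.GolayPt → ZMod 2 | hammingNorm v ≤ 4 ∧ w - v ∈ Cfsg.golayCode}.ncard = 1 ∧ ∃ v : Cfsg.GolayPt → ZMod 2, hammingNorm v ≤ 3 ∧ w - v ∈ Cfsg.golayCode) ∨ ({v : Cfsg.GolayPt → ZMod 2 | hammingNorm v ≤ 4 ∧ w - v ∈ Cfsg.golayCode}.ncard = 6 ∧ ∀ v : Cfsg.GolayPt → ZMod 2, w - v ∈ Cfsg.golayCode → hammingNorm v ≤ 4 → hammingNorm v = 4) := by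
  haveI : Finite ((Cfsg.GolayPt → ZMod 2) ⧸ Cfsg.golayCode) :=
    Nat.finite_of_card_ne_zero (by rw [Cfsg.Agent.Lib.Helper1.GCos.card_quot]; norm_num)
  letI : Fintype ((Cfsg.GolayPt → ZMod 2) ⧸ Cfsg.golayCode) := Fintype.ofFinite _
  letI : DecidableEq ((Cfsg.GolayPt → ZMod 2) ⧸ Cfsg.golayCode) := Classical.decEq _
  have hQ : Fintype.card ((Cfsg.GolayPt → ZMod 2) ⧸ Cfsg.golayCode) = 4096 := by
    rw [← Nat.card_eq_fintype_card, Cfsg.Agent.Lib.Helper1.GCos.card_quot]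
  obtain ⟨W, hW⟩ : ∃ W : Finset (Cfsg.GolayPt → ZMod 2),
    W = Finset.univ.filter (fun v : Cfsg.GolayPt → ZMod 2 => hammingNorm v ≤ 4) := ⟨_, rfl⟩
  obtain ⟨W3, hW3⟩ : ∃ W3 : Finset (Cfsg.GolayPt → ZMod 2),
    W3 = Finset.univ.filter (fun v : Cfsg.GolayPt → ZMod 2 => hammingNorm v ≤ 3) := ⟨_, rfl⟩
  have hWm : ∀ v, v ∈ W ↔ hammingNorm v ≤ 4 := by
    intro v
    rw [hW, Finset.mem_filter]
    exact ⟨fun h => h.2, fun h => ⟨Finset.mem_univ _, h⟩⟩
  have hW3m : ∀ v, v ∈ W3 ↔ hammingNorm v ≤ 3 := by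
    intro v
    rw [hW3, Finset.mem_filter]
    exact ⟨fun h => h.2, fun h => ⟨Finset.mem_univ _, h⟩⟩
  have hsub : W3 ⊆ W := fun v hv => (hWm v).mpr (by have := (hW3m v).mp hv; omega)
  have hWc : W.card = 12951 := by
    rw [hW, Cfsg.Agent.Lib.Helper1.HamC.card_ham_le 4, Cfsg.Agent.Lib.Helper1.GCos.card_pt]
    exact c12951
  have hW3c : W3.card = 2325 := by
    rw [hW3, Cfsg.Agent.Lib.Helper1.HamC.card_ham_le 3, Cfsg.Agent.Lib.Helper1.GCos.card_pt]
    exact c2325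
  have hker : ∀ v v' : Cfsg.GolayPt → ZMod 2,
      (Submodule.Quotient.mk v : (Cfsg.GolayPt → ZMod 2) ⧸ Cfsg.golayCode)
        = Submodule.Quotient.mk v' ↔ v - v' ∈ Cfsg.golayCode :=
    fun v v' => Submodule.Quotient.eq _
  have hinj : ∀ v ∈ W3, ∀ v' ∈ W,
      (Submodule.Quotient.mk v : (Cfsg.GolayPt → ZMod 2) ⧸ Cfsg.golayCode)
        = Submodule.Quotient.mk v' → v = v' := by
    intro v hv v' hv' h
    by_contra hne
    have h1 := Cfsg.Agent.Lib.Helper1.GCos.golay_min (v - v') ((hker v v').mp h)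
      (sub_ne_zero.mpr hne)
    have h2 := Cfsg.Agent.Lib.Helper1.GCos.wt_sub_le v v'
    have h3 := (hW3m v).mp hv
    have h4 := (hWm v').mp hv'
    omega
  have h6 : ∀ q : (Cfsg.GolayPt → ZMod 2) ⧸ Cfsg.golayCode,
      (∀ v ∈ W3, Submodule.Quotient.mk v ≠ q) →
      (W.filter (fun v => Submodule.Quotient.mk v = q)).card ≤ 6 := by
    intro q hq
    have h4 : ∀ v ∈ W.filter (fun v => Submodule.Quotient.mk v = q), hammingNorm v = 4 := by
      intro v hv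
      rw [Finset.mem_filter] at hv
      have h1 := (hWm v).mp hv.1
      have h2 : ¬ hammingNorm v ≤ 3 := fun h => hq v ((hW3m v).mpr h) hv.2
      omega
    apply Cfsg.Agent.Lib.Helper1.GCos.fib_le_six _ h4
    intro v hv v' hv' hne
    apply Cfsg.Agent.Lib.Helper1.GCos.supp_disj v v' (h4 v hv) (h4 v' hv')
    rw [Finset.mem_filter] at hv hv'
    exact Cfsg.Agent.Lib.Helper1.GCos.golay_min (v - v')
      ((hker v v').mp (hv.2.trans hv'.2.symm)) (sub_ne_zero.mpr hne)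
  have hmain := Cfsg.Agent.Lib.Helper1.GCos.count_lemma W W3
    (fun v => (Submodule.Quotient.mk v : (Cfsg.GolayPt → ZMod 2) ⧸ Cfsg.golayCode))
    hsub hinj h6 (by rw [hWc, hW3c, hQ])
  have hset : {v : Cfsg.GolayPt → ZMod 2 | hammingNorm v ≤ 4 ∧ w - v ∈ Cfsg.golayCode}
      = ↑(W.filter (fun v => (Submodule.Quotient.mk v : (Cfsg.GolayPt → ZMod 2) ⧸ Cfsg.golayCode)
          = Submodule.Quotient.mk w)) := by
    ext v
    rw [Finset.mem_coe, Finset.mem_filter, hWm, hker, Set.mem_setOf_eq]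
    constructor
    · rintro ⟨h1, h2⟩
      exact ⟨h1, by have := Cfsg.golayCode.neg_mem h2; rwa [neg_sub] at this⟩
    · rintro ⟨h1, h2⟩
      exact ⟨h1, by have := Cfsg.golayCode.neg_mem h2; rwa [neg_sub] at this⟩
  by_cases hex : ∃ v ∈ W3, (Submodule.Quotient.mk v : (Cfsg.GolayPt → ZMod 2) ⧸ Cfsg.golayCode)
      = Submodule.Quotient.mk w
  · left
    obtain ⟨v₀, hv₀, hq⟩ := hex
    refine ⟨?_, v₀, (hW3m v₀).mp hv₀, ?_⟩
    · rw [hset, Set.ncard_coe_finset]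
      exact Cfsg.Agent.Lib.Helper1.GCos.fiber_one W W3 _ hsub hinj _ v₀ hv₀ hq
    · have h1 := (hker v₀ w).mp hq
      have h2 := Cfsg.golayCode.neg_mem h1
      rwa [neg_sub] at h2
  · right
    push_neg at hex
    refine ⟨?_, ?_⟩
    · rw [hset, Set.ncard_coe_finset]
      exact hmain _ hex
    · intro v hv h4
      by_contra hne
      have h3 : hammingNorm v ≤ 3 := by omega
      apply hex v ((hW3m v).mpr h3)
      rw [hker]
      have h2 := Cfsg.golayCode.neg_mem hv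
      rwa [neg_sub] at h2

end Cfsg.Agent.S1635
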