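import Mathlib
import Cfsg.Agent.Lib.Helper1.SympP
import Cfsg.Statements.S0269

set_option autoImplicit false
open Cfsg

namespace Cfsg.Agent.S0269

/-- Sp_{2m}(q) is perfect except for Sp_2(2), Sp_2(3) and Sp_4(2): stated as m at least 3, or m = 2 and q at least 3, or q at least 4. -/
theorem result {F : Type*} [Field F] [Fintype F] (m : ℕ) (h : 3 ≤ m ∨ (m = 2 ∧ 3 ≤ Fintype.card F) ∨ 4 ≤ Fintype.card F) : commutator (Matrix.symplecticGroup (Fin m) F) = ⊤ := by
  have hall : ∀ (u : Fin m ⊕ Fin m → F) (a : F), Cfsg.Agent.Lib.Helper1.Symp.tvS u a ∈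
      commutator (Matrix.symplecticGroup (Fin m) F) := by
    by_cases h4 : 4 ≤ Fintype.card F
    · obtain ⟨c, hc0, hc1⟩ : ∃ c : F, c ≠ 0 ∧ c ^ 2 ≠ 1 := by
        classical
        by_contra hcon
        simp only [not_exists, not_and, not_not] at hcon
        have hsub : (Finset.univ : Finset F) ⊆ {0, 1, -1} := by
          intro c _
          by_cases hc : c = 0
          · simp [hc]
          · have h0 := hcon c hc
            have h1 : (c - 1) * (c + 1) = 0 := by linear_combination h0
            rcases mul_eq_zero.mp h1 with h | h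
            · simp [sub_eq_zero.mp h]
            · have h5 : c = -1 := by linear_combination h
              simp [h5]
        have h1 := Finset.card_le_card hsub
        have h2 : ({0, 1, -1} : Finset F).card ≤ 3 := Finset.card_le_three
        rw [Finset.card_univ] at h1
        omega
      exact fun u a => Cfsg.Agent.Lib.Helper1.Symp.caseA c hc0 hc1 u a
    · rcases h with h3 | ⟨h2, h3⟩ | h4'
      · exact fun u a => Cfsg.Agent.Lib.Helper1.Symp.caseC (⟨0, by omega⟩ : Fin m)
          ⟨1, by omega⟩ ⟨2, by omega⟩ (by simp [Fin.ext_iff]) (by simp [Fin.ext_iff])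
          (by simp [Fin.ext_iff]) u a
      · subst h2
        have hq : Fintype.card F = 3 := by omega
        have h2ne : (2 : F) ≠ 0 := by
          intro h2
          have h3' : ((Fintype.card F : ℕ) : F) = 0 := Nat.cast_card_eq_zero F
          rw [hq] at h3'
          push_cast at h3'
          have h6 : (1 : F) = 0 := by linear_combination h3' - h2
          exact one_ne_zero h6
        exact fun u a => Cfsg.Agent.Lib.Helper1.Symp.caseB h2ne (0 : Fin 2) 1 (by decide) u a
      · exact absurd h4' h4
  rw [eq_top_iff, ← Cfsg.Agent.Lib.Helper1.Symp.closure_tv m, Subgroup.closure_le]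
  rintro _ ⟨u, a, rfl⟩
  exact hall u a

end Cfsg.Agent.S0269
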