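import Mathlib
import Cfsg.Agent.Lib.Helper1.Steiner
import Cfsg.Statements.S0356

set_option autoImplicit false
open Cfsg

namespace Cfsg.Agent.S0356

/-- In a Steiner system S(3, 6, 22), two distinct blocks intersect in 0 or 2 points. -/
theorem result {α : Type*} [Fintype α] [DecidableEq α] (hα : Fintype.card α = 22) {B : Set (Finset α)} (hB : Cfsg.IsSteinerSystem 3 6 B) {b c : Finset α} (hb : b ∈ B) (hc : c ∈ B) (hbc : b ≠ c) : (b ∩ c).card = 0 ∨ (b ∩ c).card = 2 := by
  have m1 := Lib.Helper1.steiner_moment_erase hB hb 1 (by norm_num)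
  have m2 := Lib.Helper1.steiner_moment_erase hB hb 2 (by norm_num)
  rw [hα] at m1 m2
  obtain ⟨S, hS⟩ : ∃ S, S = (Lib.Helper1.blocks B).erase b := ⟨_, rfl⟩
  rw [← hS] at m1 m2
  have e1 : ∑ c ∈ S, (b ∩ c).card.choose 1 = 120 := by
    have h : (∑ c ∈ S, (b ∩ c).card.choose 1 + 6) * 10 = 6 * 210 := by
      have c1 : Nat.choose 6 1 = 6 := by decide
      have c2 : Nat.choose (6 - 1) (3 - 1) = 10 := by decide
      have c3 : Nat.choose (22 - 1) (3 - 1) = 210 := by decide
      rw [c1, c2, c3] at m1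
      exact m1
    omega
  have e2 : ∑ c ∈ S, (b ∩ c).card.choose 2 = 60 := by
    have h : (∑ c ∈ S, (b ∩ c).card.choose 2 + 15) * 4 = 15 * 20 := by
      have c1 : Nat.choose 6 2 = 15 := by decide
      have c2 : Nat.choose (6 - 2) (3 - 2) = 4 := by decide
      have c3 : Nat.choose (22 - 2) (3 - 2) = 20 := by decide
      rw [c1, c2, c3] at m2
      exact m2
    omega
  have hle : ∀ c ∈ S, 2 * (b ∩ c).card.choose 2 ≤ (b ∩ c).card.choose 1 := by
    intro c hc
    rw [hS] at hc
    have hcB : c ∈ B := Lib.Helper1.mem_blocks.mp (Finset.mem_of_mem_erase hc)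
    have hne : b ≠ c := (Finset.ne_of_mem_erase hc).symm
    have hlt := Lib.Helper1.steiner_inter_lt hB hb hcB hne
    generalize (b ∩ c).card = f at hlt
    interval_cases f <;> decide
  have hsum : ∑ c ∈ S, (2 * (b ∩ c).card.choose 2) = ∑ c ∈ S, (b ∩ c).card.choose 1 := by
    rw [← Finset.mul_sum, e1, e2]
    norm_num
  have hcS : c ∈ S := by
    rw [hS]
    exact Finset.mem_erase.mpr ⟨Ne.symm hbc, Lib.Helper1.mem_blocks.mpr hc⟩
  have heq := (Finset.sum_eq_sum_iff_of_le hle).mp hsum c hcS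
  have hlt := Lib.Helper1.steiner_inter_lt hB hb hc hbc
  generalize (b ∩ c).card = f at hlt heq ⊢
  interval_cases f
  · left; rfl
  · exact absurd heq (by decide)
  · right; rfl

end Cfsg.Agent.S0356
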