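import Mathlib
import Cfsg.Agent.Lib.Helper1.Steiner
import Cfsg.Statements.S0352

set_option autoImplicit false
open Cfsg

namespace Cfsg.Agent.S0352

/-- In a Steiner system S(5, 8, 24), two distinct blocks intersect in 0, 2 or 4 points. -/
theorem result {α : Type*} [Fintype α] [DecidableEq α] (hα : Fintype.card α = 24) {B : Set (Finset α)} (hB : Cfsg.IsSteinerSystem 5 8 B) {b c : Finset α} (hb : b ∈ B) (hc : c ∈ B) (hbc : b ≠ c) : (b ∩ c).card = 0 ∨ (b ∩ c).card = 2 ∨ (b ∩ c).card = 4 := by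
  have m1 := Lib.Helper1.steiner_moment_erase hB hb 1 (by norm_num)
  have m2 := Lib.Helper1.steiner_moment_erase hB hb 2 (by norm_num)
  have m3 := Lib.Helper1.steiner_moment_erase hB hb 3 (by norm_num)
  have m4 := Lib.Helper1.steiner_moment_erase hB hb 4 (by norm_num)
  rw [hα] at m1 m2 m3 m4
  obtain ⟨S, hS⟩ : ∃ S, S = (Lib.Helper1.blocks B).erase b := ⟨_, rfl⟩
  rw [← hS] at m1 m2 m3 m4
  have e1 : ∑ c ∈ S, (b ∩ c).card.choose 1 = 2016 := by
    have h : (∑ c ∈ S, (b ∩ c).card.choose 1 + 8) * 35 = 8 * 8855 := by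
      have c1 : Nat.choose 8 1 = 8 := by decide
      have c2 : Nat.choose (8 - 1) (5 - 1) = 35 := by decide
      have c3 : Nat.choose (24 - 1) (5 - 1) = 8855 := by decide
      rw [c1, c2, c3] at m1
      exact m1
    omega
  have e2 : ∑ c ∈ S, (b ∩ c).card.choose 2 = 2128 := by
    have h : (∑ c ∈ S, (b ∩ c).card.choose 2 + 28) * 20 = 28 * 1540 := by
      have c1 : Nat.choose 8 2 = 28 := by decide
      have c2 : Nat.choose (8 - 2) (5 - 2) = 20 := by decide
      have c3 : Nat.choose (24 - 2) (5 - 2) = 1540 := by decide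
      rw [c1, c2, c3] at m2
      exact m2
    omega
  have e3 : ∑ c ∈ S, (b ∩ c).card.choose 3 = 1120 := by
    have h : (∑ c ∈ S, (b ∩ c).card.choose 3 + 56) * 10 = 56 * 210 := by
      have c1 : Nat.choose 8 3 = 56 := by decide
      have c2 : Nat.choose (8 - 3) (5 - 3) = 10 := by decide
      have c3 : Nat.choose (24 - 3) (5 - 3) = 210 := by decide
      rw [c1, c2, c3] at m3
      exact m3
    omega
  have e4 : ∑ c ∈ S, (b ∩ c).card.choose 4 = 280 := by
    have h : (∑ c ∈ S, (b ∩ c).card.choose 4 + 70) * 4 = 70 * 20 := by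
      have c1 : Nat.choose 8 4 = 70 := by decide
      have c2 : Nat.choose (8 - 4) (5 - 4) = 4 := by decide
      have c3 : Nat.choose (24 - 4) (5 - 4) = 20 := by decide
      rw [c1, c2, c3] at m4
      exact m4
    omega
  have hle : ∀ c ∈ S, 6 * (b ∩ c).card.choose 2 + 24 * (b ∩ c).card.choose 4
      ≤ 3 * (b ∩ c).card.choose 1 + 12 * (b ∩ c).card.choose 3 := by
    intro c hc
    rw [hS] at hc
    have hcB : c ∈ B := Lib.Helper1.mem_blocks.mp (Finset.mem_of_mem_erase hc)
    have hne : b ≠ c := (Finset.ne_of_mem_erase hc).symm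
    have hlt := Lib.Helper1.steiner_inter_lt hB hb hcB hne
    generalize (b ∩ c).card = f at hlt
    interval_cases f <;> decide
  have hsum : ∑ c ∈ S, (6 * (b ∩ c).card.choose 2 + 24 * (b ∩ c).card.choose 4)
      = ∑ c ∈ S, (3 * (b ∩ c).card.choose 1 + 12 * (b ∩ c).card.choose 3) := by
    rw [Finset.sum_add_distrib, Finset.sum_add_distrib, ← Finset.mul_sum, ← Finset.mul_sum,
      ← Finset.mul_sum, ← Finset.mul_sum, e1, e2, e3, e4]
    norm_num
  have hcS : c ∈ S := by
    rw [hS]
    exact Finset.mem_erase.mpr ⟨Ne.symm hbc, Lib.Helper1.mem_blocks.mpr hc⟩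
  have heq := (Finset.sum_eq_sum_iff_of_le hle).mp hsum c hcS
  have hlt := Lib.Helper1.steiner_inter_lt hB hb hc hbc
  generalize (b ∩ c).card = f at hlt heq ⊢
  interval_cases f
  · left; rfl
  · exact absurd heq (by decide)
  · right; left; rfl
  · exact absurd heq (by decide)
  · right; right; rfl

end Cfsg.Agent.S0352
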