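import Mathlib
import Cfsg.Statements.S0764

set_option autoImplicit false
open Cfsg
open Matrix

namespace Cfsg.Agent.S0764

/-- Symplectic transvections are isometries: for every vector v and scalar c the matrix of x ↦ x + c f(x, v) v lies in the symplectic group. -/
theorem result {F : Type*} [Field F] (m : ℕ) (v : Fin m ⊕ Fin m → F) (c : F) : Cfsg.sympTransvection m v c ∈ Matrix.symplecticGroup (Fin m) F := by
  have F1 : Matrix.J (Fin m) F *ᵥ (Matrix.J (Fin m) F *ᵥ v) = -v := by
    rw [Matrix.mulVec_mulVec, Matrix.J_squared, Matrix.neg_mulVec, Matrix.one_mulVec]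
  have F2 : (Matrix.J (Fin m) F *ᵥ v) ᵥ* Matrix.J (Fin m) F = v := by
    have h1 : Matrix.J (Fin m) F *ᵥ v = v ᵥ* (-Matrix.J (Fin m) F) := by
      rw [← Matrix.J_transpose, Matrix.vecMul_transpose]
    rw [h1, Matrix.vecMul_vecMul, Matrix.neg_mul, Matrix.J_squared, neg_neg, Matrix.vecMul_one]
  have F3 : v ⬝ᵥ (Matrix.J (Fin m) F *ᵥ v) = 0 := by
    simp only [Matrix.J, Matrix.fromBlocks_mulVec, dotProduct, Fintype.sum_sum_type, Sum.elim_inl,
      Sum.elim_inr, Matrix.zero_mulVec, Matrix.neg_mulVec, Matrix.one_mulVec, zero_add, add_zero,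
      Pi.neg_apply, Function.comp_apply]
    rw [← Finset.sum_add_distrib]
    apply Finset.sum_eq_zero
    intro i _
    ring
  rw [SymplecticGroup.mem_iff]
  unfold Cfsg.sympTransvection
  generalize hw : Matrix.J (Fin m) F *ᵥ v = w at F1 F2 F3
  rw [Matrix.transpose_add, Matrix.transpose_one, Matrix.transpose_smul, Matrix.transpose_vecMulVec]
  rw [Matrix.add_mul, Matrix.one_mul, Matrix.smul_mul, Matrix.vecMulVec_mul, F2]
  rw [Matrix.mul_add, Matrix.mul_one, Matrix.add_mul, Matrix.mul_smul, Matrix.mul_vecMulVec, F1,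
    Matrix.smul_mul, Matrix.mul_smul, Matrix.vecMulVec_mul_vecMulVec, F3, zero_smul,
    Matrix.vecMulVec_zero, smul_zero, smul_zero, add_zero, Matrix.neg_vecMulVec, smul_neg]
  abel

end Cfsg.Agent.S0764
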