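import Mathlib
import Cfsg.Statements.S0190
import Cfsg.Agent.Lib.Helper3.CharInd

set_option autoImplicit false
open Cfsg
open scoped ComplexConjugate
open Cfsg.Agent.Lib.Helper3.Char Cfsg.Agent.Lib.Helper3.CharInd

namespace Cfsg.Agent.S0190

theorem fiber_card {G : Type*} [Group G] (X : Type*) [MulAction G X]
    [MulAction.IsPretransitive G X] (x z : X) :
    Nat.card {y : G // y • x = z} = Nat.card (MulAction.stabilizer G x) := by
  obtain ⟨y₀, hy₀⟩ := MulAction.exists_smul_eq G x z
  apply Nat.card_congr
  refine ⟨fun y => ⟨y₀⁻¹ * y.1, ?_⟩, fun s => ⟨y₀ * s.1, ?_⟩, ?_, ?_⟩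
  · rw [MulAction.mem_stabilizer_iff, mul_smul, y.2, ← hy₀, inv_smul_smul]
  · rw [mul_smul, MulAction.mem_stabilizer_iff.mp s.2, hy₀]
  · intro y
    simp
  · intro s
    simp

theorem result {G : Type*} [Group G] [Fintype G] (X : Type*) [MulAction G X] [Finite X] [MulAction.IsPretransitive G X] (x : X) : (fun g : G => (Nat.card (MulAction.fixedBy X g) : ℂ)) = Cfsg.indFun (MulAction.stabilizer G x) (fun _ => 1) := by
  classical
  have _i : Fintype X := Fintype.ofFinite X
  have hcard : (Nat.card (MulAction.stabilizer G x) : ℂ) ≠ 0 := by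
    exact_mod_cast Nat.card_pos.ne'
  funext g
  unfold Cfsg.indFun
  have h1 : ∀ y : G, Cfsg.extendByZero (MulAction.stabilizer G x) (fun _ => (1 : ℂ))
      (y⁻¹ * g * y) = if g • (y • x) = y • x then 1 else 0 := by
    intro y
    by_cases hy : g • (y • x) = y • x
    · have hmem : y⁻¹ * g * y ∈ MulAction.stabilizer G x := by
        rw [MulAction.mem_stabilizer_iff, mul_smul, mul_smul, hy, inv_smul_smul]
      rw [extendByZero_mem _ _ hmem, if_pos hy]
    · have hmem : y⁻¹ * g * y ∉ MulAction.stabilizer G x := by
        intro h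
        apply hy
        rw [MulAction.mem_stabilizer_iff, mul_smul, mul_smul] at h
        have := congrArg (fun t => y • t) h
        simpa using this
      rw [extendByZero_not_mem _ _ hmem, if_neg hy]
  rw [Finset.sum_congr rfl (fun y _ => h1 y)]
  have h2 := Finset.sum_comp (s := (Finset.univ : Finset G))
    (fun z : X => if g • z = z then (1 : ℂ) else 0) (fun y : G => y • x)
  rw [h2]
  have h3 : (Finset.univ : Finset G).image (fun y : G => y • x) = Finset.univ := by
    ext z
    simp only [Finset.mem_image, Finset.mem_univ, true_and, iff_true]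
    exact MulAction.exists_smul_eq G x z
  have h4 : ∀ z : X, (Finset.univ.filter (fun y : G => y • x = z)).card =
      Nat.card (MulAction.stabilizer G x) := by
    intro z
    rw [← fiber_card X x z, Nat.card_eq_fintype_card, Fintype.card_subtype]
  rw [h3]
  simp only [h4, nsmul_eq_mul, mul_ite, mul_one, mul_zero]
  rw [Finset.sum_ite, Finset.sum_const, Finset.sum_const_zero, add_zero, nsmul_eq_mul,
    ← mul_assoc, mul_comm _ ((Finset.univ.filter (fun z : X => g • z = z)).card : ℂ),
    mul_assoc, inv_mul_cancel₀ hcard, mul_one]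
  congr 1
  rw [Nat.card_eq_fintype_card]
  apply Fintype.card_of_subtype
  intro z
  simp [MulAction.mem_fixedBy]

end Cfsg.Agent.S0190
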