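import Mathlib
import Cfsg.Statements.S0176
import Cfsg.Agent.Lib.Helper3.Char
import Cfsg.Agent.Lib.Helper3.CharCore
import Cfsg.Agent.Lib.Helper3.CharInd
import Cfsg.Agent.Lib.Helper3.CharArith
import Cfsg.Agent.Lib.Helper3.CharNormal
import Cfsg.Agent.Lib.Helper3.CharAb
import Cfsg.Agent.Lib.Helper3.CharProj
import Cfsg.Agent.Lib.Helper3.CharCliff
import Cfsg.Agent.Lib.Helper3.CharTrans
import Cfsg.Agent.Lib.Helper3.CharMono

set_option autoImplicit false
open Cfsg
open Cfsg.Agent.Lib.Helper3.Char Cfsg.Agent.Lib.Helper3.CharCore Cfsg.Agent.Lib.Helper3.CharInd Cfsg.Agent.Lib.Helper3.CharArith Cfsg.Agent.Lib.Helper3.CharNormal Cfsg.Agent.Lib.Helper3.CharAb Cfsg.Agent.Lib.Helper3.CharProj Cfsg.Agent.Lib.Helper3.CharCliff Cfsg.Agent.Lib.Helper3.CharTrans Cfsg.Agent.Lib.Helper3.CharMono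
open scoped ComplexConjugate
universe u

namespace Cfsg.Agent.S0176

theorem nilp_mono : ∀ (n : ℕ) (G : Type u) [Group G] [Fintype G] [Group.IsNilpotent G],
    Nat.card G = n → ∀ χ : G → ℂ, Cfsg.IsIrrCharacter G χ → IsMono G χ := by
  intro n
  induction n using Nat.strong_induction_on with
  | _ n ih =>
    intro G _ _ _ hn χ hχ
    classical
    have hχc := isCharacter_of_irr hχ
    obtain ⟨K, hKn, hK⟩ := exists_ker hχc
    by_cases hKbot : K = ⊥
    · have hfaith : ∀ g, χ g = χ 1 → g = 1 := fun g hg => by
        have h1 := (hK g).mpr hg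
        rw [hKbot] at h1
        exact Subgroup.mem_bot.mp h1
      by_cases hab : ∀ a b : G, a * b = b * a
      · exact mono_of_linear hχc (abelian_linear hab hχ)
      · have hZ : Subgroup.center G ≠ ⊤ := by
          intro h
          apply hab
          intro a b
          have h1 : a ∈ Subgroup.center G := h ▸ Subgroup.mem_top a
          exact (Subgroup.mem_center_iff.mp h1 b).symm
        have hZ2 : Subgroup.upperCentralSeries G 2 ≠ Subgroup.upperCentralSeries G 1 := by
          intro h2
          obtain ⟨m, hm⟩ := Group.IsNilpotent.nilpotent G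
          have hall : ∀ k, Subgroup.upperCentralSeries G (k + 1) =
              Subgroup.upperCentralSeries G 1 := by
            intro k
            induction k with
            | zero => rfl
            | succ k ihk =>
              ext x
              rw [Subgroup.mem_upperCentralSeries_succ_iff, ihk]
              constructor
              · intro h
                rw [← h2]
                exact Subgroup.mem_upperCentralSeries_succ_iff.mpr h
              · intro h
                rw [← h2] at h
                exact Subgroup.mem_upperCentralSeries_succ_iff.mp h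
          have h3 : Subgroup.upperCentralSeries G 1 = ⊤ := by
            rw [← hall m]
            exact top_le_iff.mp (hm ▸ Subgroup.upperCentralSeries_mono G (Nat.le_succ m))
          rw [Subgroup.upperCentralSeries_one] at h3
          exact hZ h3
        obtain ⟨x, hx2, hx1⟩ : ∃ x, x ∈ Subgroup.upperCentralSeries G 2 ∧
            x ∉ Subgroup.upperCentralSeries G 1 := by
          by_contra hcon
          push Not at hcon
          exact hZ2 (le_antisymm hcon (Subgroup.upperCentralSeries_mono G (by norm_num)))
        have hxc : ∀ g : G, g * x * g⁻¹ * x⁻¹ ∈ Subgroup.center G := by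
          intro g
          have h1 := Subgroup.mem_upperCentralSeries_succ_iff.mp hx2 g
          rw [Subgroup.upperCentralSeries_one, commutatorElement_def] at h1
          have h2 := inv_mem h1
          have e : (x * g * x⁻¹ * g⁻¹)⁻¹ = g * x * g⁻¹ * x⁻¹ := by group
          rw [e] at h2
          exact h2
        let A : Subgroup G :=
          { carrier := {a | ∃ i : ℤ, ∃ z ∈ Subgroup.center G, a = x ^ i * z}
            mul_mem' := by
              rintro a b ⟨i, z, hz, rfl⟩ ⟨j, z', hz', rfl⟩
              refine ⟨i + j, z * z', mul_mem hz hz', ?_⟩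
              have hc : x ^ j * z = z * x ^ j := Subgroup.mem_center_iff.mp hz (x ^ j)
              calc x ^ i * z * (x ^ j * z') = x ^ i * (z * x ^ j) * z' := by group
                _ = x ^ i * (x ^ j * z) * z' := by rw [hc]
                _ = x ^ (i + j) * (z * z') := by rw [zpow_add]; group
            one_mem' := ⟨0, 1, one_mem _, by simp⟩
            inv_mem' := by
              rintro a ⟨i, z, hz, rfl⟩
              refine ⟨-i, z⁻¹, inv_mem hz, ?_⟩
              have hc : (x ^ i)⁻¹ * z⁻¹ = z⁻¹ * (x ^ i)⁻¹ :=
                Subgroup.mem_center_iff.mp (inv_mem hz) ((x ^ i)⁻¹)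
              rw [mul_inv_rev, zpow_neg, hc] }
        have hAn : A.Normal := by
          constructor
          rintro a ⟨i, z, hz, rfl⟩ g
          have hc := hxc g
          refine ⟨i, (g * x * g⁻¹ * x⁻¹) ^ i * z, mul_mem (zpow_mem hc i) hz, ?_⟩
          have h1 : g * z = z * g := Subgroup.mem_center_iff.mp hz g
          have h2 : Commute (g * x * g⁻¹ * x⁻¹) x :=
            (Subgroup.mem_center_iff.mp hc x).symm
          have h3 : (g * x * g⁻¹) ^ i = (g * x * g⁻¹ * x⁻¹) ^ i * x ^ i := by
            rw [← h2.mul_zpow]
            congr 1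
            group
          have h4 : x ^ i * (g * x * g⁻¹ * x⁻¹) ^ i = (g * x * g⁻¹ * x⁻¹) ^ i * x ^ i :=
            Subgroup.mem_center_iff.mp (zpow_mem hc i) (x ^ i)
          calc g * (x ^ i * z) * g⁻¹ = g * x ^ i * g⁻¹ * (g * z * g⁻¹) := by group
            _ = (g * x * g⁻¹) ^ i * z := by rw [conj_zpow, h1, mul_inv_cancel_right]
            _ = x ^ i * ((g * x * g⁻¹ * x⁻¹) ^ i * z) := by rw [h3, ← mul_assoc, h4]
        have hAab : ∀ a b : A, a * b = b * a := by
          rintro ⟨a, i, z, hz, rfl⟩ ⟨b, j, z', hz', rfl⟩
          apply Subtype.ext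
          show x ^ i * z * (x ^ j * z') = x ^ j * z' * (x ^ i * z)
          have hzc : ∀ w : G, Commute z w := fun w => (Subgroup.mem_center_iff.mp hz w).symm
          have hzc' : ∀ w : G, Commute w z' := fun w => Subgroup.mem_center_iff.mp hz' w
          exact (((Commute.zpow_zpow_self x i j).mul_right (hzc' _)).mul_left
            ((hzc _).mul_right (hzc _))).eq
        have hxA : x ∈ A := ⟨1, 1, one_mem _, by simp⟩
        have _a : Fintype A := Fintype.ofFinite _
        have hresc : Cfsg.IsCharacter A (fun a : A => χ a) := comp_isCharacter A.subtype hχc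
        have hres1 : (fun a : A => χ a) 1 ≠ 0 := irr_one_ne_zero hχ
        obtain ⟨lam, hlam, hcon'⟩ := exists_constituent hresc hres1
        have hcon : Cfsg.classInner (fun a : A => χ a) lam ≠ 0 := by
          rw [classInner_conj_symm]
          exact (map_ne_zero _).mpr hcon'
        have hl1 : lam 1 = 1 := abelian_linear hAab hlam
        by_cases hinv : ∀ (g : G) (a : A), lam ⟨g * a * g⁻¹, hAn.conj_mem a a.2 g⟩ = lam a
        · exfalso
          apply hx1
          rw [Subgroup.upperCentralSeries_one, Subgroup.mem_center_iff]
          intro g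
          have h1 := central_of_inv A hAn χ hχ lam hlam hl1 hcon hinv ⟨x, hxA⟩ g
          have h2 := hfaith _ h1
          have h3 : x * g = g * x := by
            have e : x * g = (x * g * x⁻¹ * g⁻¹) * (g * x) := by group
            rw [e, h2, one_mul]
          exact h3.symm
        · obtain ⟨T, hAT, hTtop, hT, η, hη, hind, -⟩ :=
            clifford_proper A hAn χ hχ lam hlam hcon hinv
          have _t : Fintype T := Fintype.ofFinite _
          have hcardT : Nat.card T < n := by
            rw [← hn]
            have h1 := T.card_mul_index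
            have h2 : T.index ≠ 1 := fun h => hTtop (Subgroup.index_eq_one.mp h)
            have h3 : T.index ≠ 0 := Subgroup.index_ne_zero_of_finite
            have h4 : 0 < Nat.card T := Nat.card_pos
            have h5 : 2 ≤ T.index := by omega
            nlinarith
          have h6 := ih (Nat.card T) hcardT T rfl η hη
          rw [← hind]
          exact mono_ind T h6
    · have _hKn := hKn
      obtain ⟨χ', hχ', hcomp, -⟩ := faithful_quot hχ K hK
      have _q : Fintype (G ⧸ K) := Fintype.ofFinite _
      have hlt : Nat.card (G ⧸ K) < n := by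
        rw [← hn, ← K.card_mul_index]
        have h1 : 1 < Nat.card K := (Subgroup.one_lt_card_iff_ne_bot K).mpr hKbot
        have h0 : 0 < K.index := Nat.pos_of_ne_zero Subgroup.index_ne_zero_of_finite
        show K.index < _
        nlinarith
      have h7 := ih (Nat.card (G ⧸ K)) hlt (G ⧸ K) rfl χ' hχ'
      rw [← hcomp]
      exact mono_infl (QuotientGroup.mk' K) (QuotientGroup.mk'_surjective K) h7

theorem result {G : Type*} [Group G] [Fintype G] [Group.IsNilpotent G] (χ : G → ℂ) (hχ : Cfsg.IsIrrCharacter G χ) : ∃ (H : Subgroup G) (lam : H →* ℂˣ), χ = Cfsg.indFun H (fun h => (lam h : ℂ)) := by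
  exact nilp_mono (Nat.card G) G rfl χ hχ

end Cfsg.Agent.S0176
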