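import Mathlib
import Cfsg.Statements.S0873
import Cfsg.Agent.Lib.Helper3.Char
import Cfsg.Agent.Lib.Helper3.CharLinear

set_option autoImplicit false
open Cfsg
open Cfsg.Agent.Lib.Helper3.Char Cfsg.Agent.Lib.Helper3.CharLinear
open scoped ComplexConjugate

namespace Cfsg.Agent.S0873

theorem result {G : Type*} [Group G] [Finite G] (p : ℕ) [Fact p.Prime] (C P : Subgroup G) [hC : C.Normal] (hP : IsPGroup p P) (hcop : Nat.Coprime (Nat.card C) p) (hCP : C ⊔ P = ⊤) (lam : C → ℂ) (hlam : Cfsg.IsCharacter C lam ∧ lam 1 = 1) (hinv : ∀ (g : G) (c : C), lam ⟨g * c * g⁻¹, hC.conj_mem (c : G) c.2 g⟩ = lam c) (hker : ∀ c : C, (c : G) ∈ Subgroup.centralizer (P : Set G) → lam c = 1) : lam = fun _ => 1 := by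
  classical
  obtain ⟨hlamc, hl1⟩ := hlam
  obtain ⟨μ, hμ⟩ := hom_of_deg_one hlamc hl1
  funext x
  have hp : p.Prime := Fact.out
  have hμinv : ∀ (g : G) (c : C), μ ⟨g * c * g⁻¹, hC.conj_mem (c : G) c.2 g⟩ = μ c := by
    intro g c
    have h1 := hinv g c
    rw [hμ] at h1
    exact Units.ext h1
  letI act : MulAction P {y : C // μ y = μ x} :=
    { smul := fun g y => ⟨⟨(g : G) * (y.1 : G) * (g : G)⁻¹, hC.conj_mem _ y.1.2 _⟩, by
        rw [hμinv (g : G) y.1]
        exact y.2⟩
      one_smul := fun y => by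
        apply Subtype.ext
        apply Subtype.ext
        show ((1 : P) : G) * (y.1 : G) * ((1 : P) : G)⁻¹ = y.1
        simp
      mul_smul := fun g h y => by
        apply Subtype.ext
        apply Subtype.ext
        show ((g * h : P) : G) * (y.1 : G) * ((g * h : P) : G)⁻¹ =
          (g : G) * ((h : G) * (y.1 : G) * (h : G)⁻¹) * (g : G)⁻¹
        simp [mul_assoc] }
  have hcardF : Nat.card {y : C // μ y = μ x} = Nat.card μ.ker := by
    apply Nat.card_congr
    exact
      { toFun := fun y => ⟨x⁻¹ * y.1, by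
          rw [MonoidHom.mem_ker, map_mul, map_inv, y.2, inv_mul_cancel]⟩
        invFun := fun k => ⟨x * k.1, by rw [map_mul, MonoidHom.mem_ker.mp k.2, mul_one]⟩
        left_inv := fun y => by
          apply Subtype.ext
          simp
        right_inv := fun k => by
          apply Subtype.ext
          simp }
  have hnd : ¬ p ∣ Nat.card {y : C // μ y = μ x} := by
    rw [hcardF]
    intro hd
    have h1 := dvd_trans hd (Subgroup.card_subgroup_dvd_card μ.ker)
    exact (Nat.Prime.coprime_iff_not_dvd hp).mp hcop.symm h1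
  obtain ⟨y, hy⟩ := hP.nonempty_fixed_point_of_prime_not_dvd_card {y : C // μ y = μ x} hnd
  have hyc : ((y.1 : C) : G) ∈ Subgroup.centralizer (P : Set G) := by
    rw [Subgroup.mem_centralizer_iff]
    intro g hg
    have h1 := hy ⟨g, hg⟩
    have h2 : g * ((y.1 : C) : G) * g⁻¹ = ((y.1 : C) : G) :=
      congrArg (fun z : {y : C // μ y = μ x} => ((z.1 : C) : G)) h1
    calc g * ((y.1 : C) : G) = g * ((y.1 : C) : G) * g⁻¹ * g := by group
      _ = ((y.1 : C) : G) * g := by rw [h2]
  have h3 := hker y.1 hyc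
  rw [hμ] at h3 ⊢
  show ((μ x : ℂˣ) : ℂ) = 1
  rw [← y.2]
  exact h3

end Cfsg.Agent.S0873
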