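import Mathlib
import Cfsg.Statements.S0871
import Cfsg.Agent.Lib.Helper3.Char
import Cfsg.Agent.Lib.Helper3.CharInd
import Cfsg.Agent.Lib.Helper3.CharMono
import Cfsg.Agent.S0190

set_option autoImplicit false
open Cfsg
open Cfsg.Agent.Lib.Helper3.Char Cfsg.Agent.Lib.Helper3.CharInd Cfsg.Agent.Lib.Helper3.CharMono
open scoped ComplexConjugate

namespace Cfsg.Agent.S0871

theorem ind_one_congr {Q : Type*} [Group Q] [Fintype Q] (U V : Subgroup Q) (h : U = V) :
    Cfsg.indFun U (fun _ => 1) = Cfsg.indFun V (fun _ => 1) := by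
  subst h
  rfl

theorem result {G : Type*} [Group G] [Fintype G] (x : G) (p : ℕ) (hp : p.Prime) : ∃ H : Subgroup G, (∃ C : Subgroup G, C ≤ H ∧ H ≤ Subgroup.normalizer (C : Set G) ∧ IsCyclic C ∧ Nat.Coprime (Nat.card C) p ∧ ∃ k : ℕ, C.relIndex H = p ^ k) ∧ ∃ n : ℕ, Cfsg.indFun H (fun _ => 1) x = (n : ℂ) ∧ ¬ p ∣ n := by
  classical
  have _hf : Fact p.Prime := ⟨hp⟩
  have hox : orderOf x ≠ 0 := (orderOf_pos x).ne'
  obtain ⟨a, m', hm', hxm⟩ := Nat.exists_eq_pow_mul_and_not_dvd hox p hp.ne_one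
  have hoc : orderOf (x ^ (p ^ a)) = m' := by
    rw [orderOf_pow_of_dvd (pow_ne_zero _ hp.ne_zero) (by rw [hxm]; exact dvd_mul_right _ _),
      hxm, Nat.mul_div_cancel_left _ (pow_pos hp.pos a)]
  let C : Subgroup G := Subgroup.zpowers (x ^ (p ^ a))
  have hCcard : Nat.card C = m' := by rw [Nat.card_zpowers, hoc]
  have hCcop : Nat.Coprime (Nat.card C) p := by
    rw [hCcard]
    exact ((Nat.Prime.coprime_iff_not_dvd hp).mpr hm').symm
  let N : Subgroup G := Subgroup.normalizer (C : Set G)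
  have hCN : C ≤ N := Subgroup.le_normalizer
  have hxc : ∀ h ∈ C, x * h * x⁻¹ = h := by
    intro h hh
    obtain ⟨k, rfl⟩ := Subgroup.mem_zpowers_iff.mp hh
    have h1 : Commute x ((x ^ (p ^ a)) ^ k) := ((Commute.refl x).pow_right (p ^ a)).zpow_right k
    rw [h1.eq, mul_inv_cancel_right]
  have hxN : x ∈ N := by
    rw [Subgroup.mem_normalizer_iff]
    intro h
    constructor
    · intro hh
      rw [hxc h hh]
      exact hh
    · intro hh
      have h1 := hxc _ hh
      have h2 : x * h * x⁻¹ = h := by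
        have h3 : x⁻¹ * (x * (x * h * x⁻¹) * x⁻¹) * x = x⁻¹ * (x * h * x⁻¹) * x := by rw [h1]
        have e1 : x⁻¹ * (x * (x * h * x⁻¹) * x⁻¹) * x = x * h * x⁻¹ := by group
        have e2 : x⁻¹ * (x * h * x⁻¹) * x = h := by group
        rw [e1, e2] at h3
        exact h3
      rw [← h2]
      exact hh
  let CN : Subgroup N := C.subgroupOf N
  have hCNn : CN.Normal := Subgroup.normal_in_normalizer
  have _n : Fintype N := Fintype.ofFinite _
  have _q : Fintype (N ⧸ CN) := Fintype.ofFinite _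
  let π : N →* N ⧸ CN := QuotientGroup.mk' CN
  have hπ : Function.Surjective π := QuotientGroup.mk'_surjective CN
  let xN : N := ⟨x, hxN⟩
  have hxbar : (π xN) ^ (p ^ a) = 1 := by
    rw [← map_pow]
    apply (QuotientGroup.eq_one_iff _).mpr
    show (xN ^ (p ^ a) : N) ∈ C.subgroupOf N
    rw [Subgroup.mem_subgroupOf]
    exact Subgroup.mem_zpowers (x ^ (p ^ a))
  have hD : IsPGroup p (Subgroup.zpowers (π xN)) := by
    rintro ⟨g, hg⟩
    obtain ⟨k, rfl⟩ := Subgroup.mem_zpowers_iff.mp hg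
    refine ⟨a, ?_⟩
    apply Subtype.ext
    show ((π xN) ^ k) ^ (p ^ a) = 1
    rw [← zpow_natCast, ← zpow_mul, mul_comm, zpow_mul, zpow_natCast, hxbar, one_zpow]
  obtain ⟨S, hDS⟩ := hD.exists_le_sylow
  let HN : Subgroup N := (S : Subgroup (N ⧸ CN)).comap π
  let H : Subgroup G := HN.map N.subtype
  have hCH : C ≤ H := by
    intro z hz
    refine ⟨⟨z, hCN hz⟩, ?_, rfl⟩
    show π ⟨z, hCN hz⟩ ∈ (S : Subgroup (N ⧸ CN))
    have h1 : π ⟨z, hCN hz⟩ = 1 :=
      (QuotientGroup.eq_one_iff _).mpr (Subgroup.mem_subgroupOf.mpr hz)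
    rw [h1]
    exact one_mem _
  have hHN : H ≤ N := by
    rintro _ ⟨z, -, rfl⟩
    exact z.2
  have hmemH : ∀ w : N, (w : G) ∈ H ↔ w ∈ HN := by
    intro w
    constructor
    · rintro ⟨w', hw', he⟩
      have h1 : w' = w := Subtype.ext he
      rw [← h1]
      exact hw'
    · intro hw
      exact ⟨w, hw, rfl⟩
  have hrel : ∃ k : ℕ, C.relIndex H = p ^ k := by
    obtain ⟨k, hk⟩ := IsPGroup.exists_card_eq S.isPGroup'
    refine ⟨k, ?_⟩
    have h1 : CN.map N.subtype = C := Subgroup.map_subgroupOf_eq_of_le hCN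
    have h3 : CN.relIndex HN = Nat.card S := by
      have h4 : CN = (⊥ : Subgroup (N ⧸ CN)).comap π := by
        rw [MonoidHom.comap_bot, QuotientGroup.ker_mk']
      have h5 : HN.map π = (S : Subgroup (N ⧸ CN)) :=
        Subgroup.map_comap_eq_self_of_surjective hπ _
      calc CN.relIndex HN = ((⊥ : Subgroup (N ⧸ CN)).comap π).relIndex HN :=
            congrArg (fun K : Subgroup N => K.relIndex HN) h4
        _ = (⊥ : Subgroup (N ⧸ CN)).relIndex (HN.map π) := Subgroup.relIndex_comap ⊥ π HN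
        _ = Nat.card (HN.map π) := Subgroup.relIndex_bot_left _
        _ = Nat.card S := by rw [h5]
    calc C.relIndex H = (CN.map N.subtype).relIndex (HN.map N.subtype) := by rw [h1]
      _ = CN.relIndex HN := Subgroup.relIndex_map_map_of_injective _ _ N.subtype_injective
      _ = p ^ k := by rw [h3, hk]
  refine ⟨H, ⟨C, hCH, hHN, inferInstance, hCcop, hrel⟩,
    Nat.card (MulAction.fixedBy ((N ⧸ CN) ⧸ (S : Subgroup (N ⧸ CN))) (π xN)), ?_, ?_⟩
  · have hkey : ∀ y : G, y⁻¹ * x * y ∈ H → y ∈ N := by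
      intro y hy
      have hz : y⁻¹ * x ^ (p ^ a) * y ∈ H := by
        have h1 := pow_mem hy (p ^ a)
        have e : (y⁻¹ * x * y) ^ (p ^ a) = y⁻¹ * x ^ (p ^ a) * y := by
          have := @conj_pow G _ (p ^ a) y⁻¹ x
          rw [inv_inv] at this
          exact this
        rw [e] at h1
        exact h1
      have hzN : y⁻¹ * x ^ (p ^ a) * y ∈ N := hHN hz
      have hzHN : (⟨y⁻¹ * x ^ (p ^ a) * y, hzN⟩ : N) ∈ HN := (hmemH _).mp hz
      have hzS : π ⟨y⁻¹ * x ^ (p ^ a) * y, hzN⟩ ∈ (S : Subgroup (N ⧸ CN)) := hzHN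
      obtain ⟨j, hj⟩ := S.isPGroup' ⟨_, hzS⟩
      have hj' : (π ⟨y⁻¹ * x ^ (p ^ a) * y, hzN⟩) ^ (p ^ j) = 1 := congrArg Subtype.val hj
      have hm1 : (π ⟨y⁻¹ * x ^ (p ^ a) * y, hzN⟩) ^ m' = 1 := by
        rw [← map_pow]
        have e : (⟨y⁻¹ * x ^ (p ^ a) * y, hzN⟩ : N) ^ m' = 1 := by
          apply Subtype.ext
          show (y⁻¹ * x ^ (p ^ a) * y) ^ m' = 1
          have := @conj_pow G _ m' y⁻¹ (x ^ (p ^ a))
          rw [inv_inv] at this
          rw [this, ← hoc, pow_orderOf_eq_one]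
          group
        rw [e, map_one]
      have hone : π ⟨y⁻¹ * x ^ (p ^ a) * y, hzN⟩ = 1 := by
        rw [← orderOf_eq_one_iff]
        have d1 := orderOf_dvd_of_pow_eq_one hj'
        have d2 := orderOf_dvd_of_pow_eq_one hm1
        have hcop : Nat.Coprime (p ^ j) m' :=
          Nat.Coprime.pow_left j ((Nat.Prime.coprime_iff_not_dvd hp).mpr hm')
        exact Nat.Coprime.eq_one_of_dvd (Nat.Coprime.coprime_dvd_left d1 hcop) d2
      have hzC : y⁻¹ * x ^ (p ^ a) * y ∈ C := by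
        have h1 := (QuotientGroup.eq_one_iff _).mp hone
        exact Subgroup.mem_subgroupOf.mp h1
      have hzp : Subgroup.zpowers (y⁻¹ * x ^ (p ^ a) * y) = C := by
        apply Subgroup.eq_of_le_of_card_ge
        · exact (Subgroup.zpowers_le).mpr hzC
        · rw [Nat.card_zpowers, Nat.card_zpowers]
          have h1 : orderOf (y⁻¹ * x ^ (p ^ a) * y) = orderOf (x ^ (p ^ a)) := by
            have h := orderOf_injective (MulAut.conj y⁻¹).toMonoidHom (MulAut.conj y⁻¹).injective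
              (x ^ (p ^ a))
            have e : (MulAut.conj y⁻¹).toMonoidHom (x ^ (p ^ a)) = y⁻¹ * x ^ (p ^ a) * y := by
              show y⁻¹ * x ^ (p ^ a) * y⁻¹⁻¹ = _
              rw [inv_inv]
            rw [e] at h
            exact h
          rw [h1]
      have hyinv : y⁻¹ ∈ N := by
        rw [Subgroup.mem_normalizer_iff]
        intro h
        rw [inv_inv]
        constructor
        · intro hh
          obtain ⟨k, rfl⟩ := Subgroup.mem_zpowers_iff.mp hh
          rw [← hzp]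
          have e : y⁻¹ * (x ^ (p ^ a)) ^ k * y = (y⁻¹ * x ^ (p ^ a) * y) ^ k := by
            have := @conj_zpow G _ k y⁻¹ (x ^ (p ^ a))
            rw [inv_inv] at this
            exact this.symm
          rw [e]
          exact Subgroup.zpow_mem_zpowers _ k
        · intro hh
          rw [← hzp] at hh
          obtain ⟨k, hk⟩ := Subgroup.mem_zpowers_iff.mp hh
          have e : (y⁻¹ * x ^ (p ^ a) * y) ^ k = y⁻¹ * (x ^ (p ^ a)) ^ k * y := by
            have := @conj_zpow G _ k y⁻¹ (x ^ (p ^ a))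
            rw [inv_inv] at this
            exact this
          rw [e] at hk
          have h1 : h = (x ^ (p ^ a)) ^ k := by
            have h2 : y * (y⁻¹ * (x ^ (p ^ a)) ^ k * y) * y⁻¹ = y * (y⁻¹ * h * y) * y⁻¹ := by
              rw [hk]
            have e1 : y * (y⁻¹ * (x ^ (p ^ a)) ^ k * y) * y⁻¹ = (x ^ (p ^ a)) ^ k := by group
            have e2 : y * (y⁻¹ * h * y) * y⁻¹ = h := by group
            rw [e1, e2] at h2
            exact h2.symm
          rw [h1]
          exact Subgroup.zpow_mem_zpowers _ k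
      exact inv_mem_iff.mp hyinv
    have hstep1 : Cfsg.indFun H (fun _ => 1) x = Cfsg.indFun HN (fun _ => 1) xN := by
      unfold Cfsg.indFun
      have hcard : Nat.card H = Nat.card HN := Subgroup.card_map_of_injective N.subtype_injective
      rw [hcard]
      congr 1
      rw [sum_subgroup N (fun y => Cfsg.extendByZero H (fun _ => 1) (y⁻¹ * x * y))
        (fun y hy => extendByZero_not_mem H _ (fun h => hy (hkey y h)))]
      apply Finset.sum_congr rfl
      intro y _
      by_cases hm : y⁻¹ * xN * y ∈ HN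
      · have hm' : (y : G)⁻¹ * x * (y : G) ∈ H := (hmemH (y⁻¹ * xN * y)).mpr hm
        rw [extendByZero_mem HN _ hm, extendByZero_mem H _ hm']
      · have hm' : (y : G)⁻¹ * x * (y : G) ∉ H := fun h => hm ((hmemH (y⁻¹ * xN * y)).mp h)
        rw [extendByZero_not_mem HN _ hm, extendByZero_not_mem H _ hm']
    have hstep2 : Cfsg.indFun HN (fun _ => 1) xN =
        Cfsg.indFun (S : Subgroup (N ⧸ CN)) (fun _ => 1) (π xN) :=
      congrFun (ind_infl π hπ (S : Subgroup (N ⧸ CN)) (fun _ => 1)) xN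
    have hstep3 := Cfsg.Agent.S0190.result (G := N ⧸ CN)
      ((N ⧸ CN) ⧸ (S : Subgroup (N ⧸ CN))) (((1 : N ⧸ CN) : (N ⧸ CN) ⧸ (S : Subgroup (N ⧸ CN))))
    rw [ind_one_congr _ _ (MulAction.stabilizer_quotient (S : Subgroup (N ⧸ CN)))] at hstep3
    rw [hstep1, hstep2, ← hstep3]
  · intro hdvd
    have hmod := hD.card_modEq_card_fixedPoints ((N ⧸ CN) ⧸ (S : Subgroup (N ⧸ CN)))
    have hset : MulAction.fixedPoints (Subgroup.zpowers (π xN))
        ((N ⧸ CN) ⧸ (S : Subgroup (N ⧸ CN))) =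
        MulAction.fixedBy ((N ⧸ CN) ⧸ (S : Subgroup (N ⧸ CN))) (π xN) := by
      ext q
      constructor
      · intro h
        exact h ⟨π xN, Subgroup.mem_zpowers _⟩
      · rintro h ⟨d, hd⟩
        obtain ⟨k, rfl⟩ := Subgroup.mem_zpowers_iff.mp hd
        exact MulAction.fixedBy_subset_fixedBy_zpow _ (π xN) k h
    rw [hset] at hmod
    have h1 := (Nat.ModEq.dvd_iff hmod (dvd_refl p)).mpr hdvd
    exact S.not_dvd_index h1

end Cfsg.Agent.S0871
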