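import Mathlib
import Cfsg.Statements.S0872
import Cfsg.Agent.Lib.Helper3.Char
import Cfsg.Agent.Lib.Helper3.CharInd
import Cfsg.Agent.Lib.Helper3.CharPermInd
import Cfsg.Agent.Lib.Helper3.CharBrauer
import Cfsg.Agent.S0871

set_option autoImplicit false
open Cfsg
open Cfsg.Agent.Lib.Helper3.Char Cfsg.Agent.Lib.Helper3.CharInd Cfsg.Agent.Lib.Helper3.CharPermInd Cfsg.Agent.Lib.Helper3.CharBrauer
open scoped ComplexConjugate

namespace Cfsg.Agent.S0872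

theorem result {G : Type*} [Group G] [Fintype G] (p : ℕ) (hp : p.Prime) : ∃ (m : ℤ) (a : Subgroup G → ℤ), ¬ (p : ℤ) ∣ m ∧ (∀ H, a H ≠ 0 → (∃ C : Subgroup G, C ≤ H ∧ H ≤ Subgroup.normalizer (C : Set G) ∧ IsCyclic C ∧ Nat.Coprime (Nat.card C) p ∧ ∃ k : ℕ, C.relIndex H = p ^ k)) ∧ (fun _ : G => (m : ℂ)) = ∑ H : Subgroup G, (a H : ℂ) • Cfsg.indFun H (fun _ => 1) := by
  classical
  have hex : ∀ x : G, ∃ H : Subgroup G, QE p H ∧ ∃ n : ℕ,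
      Cfsg.indFun H (fun _ => 1) x = (n : ℂ) ∧ ¬ p ∣ n :=
    fun x => Cfsg.Agent.S0871.result x p hp
  obtain ⟨m, hm, hR⟩ := solomon_local hp hex
  obtain ⟨a, ha1, ha2⟩ := InR_coeff hR
  exact ⟨m, a, hm, ha1, ha2⟩

end Cfsg.Agent.S0872
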