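import Mathlib
import Cfsg.Statements.S0874
import Cfsg.Agent.Lib.Helper3.Char
import Cfsg.Agent.Lib.Helper3.CharInd
import Cfsg.Agent.Lib.Helper3.CharPermInd
import Cfsg.Agent.Lib.Helper3.CharBrauer
import Cfsg.Agent.Lib.Helper3.CharBrauer2
import Cfsg.Agent.S0872

set_option autoImplicit false
open Cfsg
open Cfsg.Agent.Lib.Helper3.Char Cfsg.Agent.Lib.Helper3.CharInd Cfsg.Agent.Lib.Helper3.CharPermInd Cfsg.Agent.Lib.Helper3.CharBrauer Cfsg.Agent.Lib.Helper3.CharBrauer2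
open scoped ComplexConjugate

namespace Cfsg.Agent.S0874

theorem result {G : Type*} [Group G] [Fintype G] (p : ℕ) (hp : p.Prime) : ∃ (m : ℤ) (l : List ((E : Subgroup G) × ((E → ℂ) × ℤ))), ¬ (p : ℤ) ∣ m ∧ (∀ t ∈ l, Cfsg.IsElementary p t.1 ∧ Cfsg.IsCharacter t.1 t.2.1) ∧ (fun _ : G => (m : ℂ)) = (l.map fun t => (t.2.2 : ℂ) • Cfsg.indFun t.1 t.2.1).sum := by
  classical
  have _hf : Fact p.Prime := ⟨hp⟩
  obtain ⟨m, a, hm, ha, hconst⟩ := Cfsg.Agent.S0872.result (G := G) p hp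
  have h1 : InE p (fun _ : G => (m : ℂ)) := by
    rw [hconst]
    apply InE_finset_sum
    intro H _
    by_cases h0 : a H = 0
    · rw [h0]
      simp only [Int.cast_zero, zero_smul]
      exact InE_zero p
    · exact InE_zsmul (a H) (InE_of_QE H (ha H h0))
  obtain ⟨l, hl, hsum⟩ := h1
  exact ⟨m, l, hm, hl, hsum⟩

end Cfsg.Agent.S0874
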