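import Mathlib
import Cfsg.Statements.S0908
import Cfsg.Agent.Lib.Helper3.Char
import Cfsg.Agent.Lib.Helper3.CharCore
import Cfsg.Agent.Lib.Helper3.BlkLocal
import Cfsg.Agent.Lib.Helper3.BlkOsima
import Cfsg.Agent.Lib.Helper3.BlkOrth
import Cfsg.Agent.Lib.Helper3.BlkOrth2
import Cfsg.Agent.Lib.Helper3.BlkOrth4
import Cfsg.Agent.Lib.Helper3.BlkDef

set_option autoImplicit false
open Cfsg
open Cfsg.Agent.Lib.Helper3.Char Cfsg.Agent.Lib.Helper3.CharCore Cfsg.Agent.Lib.Helper3.BlkLocal Cfsg.Agent.Lib.Helper3.BlkOsima Cfsg.Agent.Lib.Helper3.BlkOrth Cfsg.Agent.Lib.Helper3.BlkOrth2 Cfsg.Agent.Lib.Helper3.BlkOrth4 Cfsg.Agent.Lib.Helper3.BlkDef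

namespace Cfsg.Agent.S0908

theorem result {G : Type*} [Group G] [Finite G] (p : ℕ) [Fact p.Prime] (M : Ideal Cfsg.AlgInt) (hM : Cfsg.IsPModular p M) (B : Set (Cfsg.IrrCharacter G)) (hB : Cfsg.IsPBlock M B) (D : Subgroup G) (hD : Cfsg.IsDefectGroup p M B D) : Nat.card D = p ^ Cfsg.blockDefect p B := by
  classical
  have _fg : Fintype G := Fintype.ofFinite G
  have hp := hM.1
  have hMp := hM.2.1.isPrime
  obtain ⟨g, ⟨hg1, hg2, hg3⟩, P, hDP⟩ := hD
  have hgreg : ¬ p ∣ orderOf g := by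
    intro h
    apply hg2
    rw [blockCoeff_sing hM B hB g h]
    exact li_zero hMp
  have hcardD : Nat.card D =
      p ^ (Nat.card (Subgroup.centralizer ({g} : Set G))).factorization p := by
    rw [hDP, Subgroup.card_map_of_injective (Subgroup.subtype_injective _)]
    exact Sylow.card_eq_multiplicity P
  have hDp : IsPGroup p D := by
    rw [hDP]
    exact P.isPGroup'.map _
  have hDc : ∀ x ∈ D, x * g = g * x := by
    intro x hx
    rw [hDP] at hx
    obtain ⟨y, _, rfl⟩ := hx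
    have h1 := y.2
    rw [Subgroup.mem_centralizer_iff] at h1
    exact (h1 g rfl).symm
  obtain ⟨a, ha⟩ : ∃ a, a = (Nat.card G).factorization p := ⟨_, rfl⟩
  obtain ⟨c, hc⟩ : ∃ c, c = (Nat.card (Subgroup.centralizer ({g} : Set G))).factorization p :=
    ⟨_, rfl⟩
  have hB' := hB
  obtain ⟨χ0, hχ0⟩ := hB
  have hχ0B : χ0 ∈ B := by
    rw [hχ0]
    exact sb_refl hMp _
  obtain ⟨S, hS⟩ : ∃ S : Set ℕ, S = (fun χ : Cfsg.IrrCharacter G =>
      (Cfsg.charDegree (χ : G → ℂ)).factorization p) '' B := ⟨_, rfl⟩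
  have hSne : S.Nonempty := by
    rw [hS]
    exact ⟨_, ⟨χ0, hχ0B, rfl⟩⟩
  have hmem := Nat.sInf_mem hSne
  rw [hS] at hmem
  obtain ⟨χ1, hχ1B, hχ1⟩ := hmem
  rw [← hS] at hχ1
  have h2 : ∃ χ ∈ B, (Cfsg.charDegree (χ : G → ℂ) * Nat.card D).factorization p ≤
      (Nat.card G).factorization p := by
    by_contra hcon
    push Not at hcon
    exact hg2 (coeff_li_of_large hM B hB' g hgreg D hDp hDc hcon)
  obtain ⟨χ2, hχ2B, hχ2⟩ := h2
  have hfac : ∀ χ : Cfsg.IrrCharacter G,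
      (Cfsg.charDegree (χ : G → ℂ) * Nat.card D).factorization p =
        (Cfsg.charDegree (χ : G → ℂ)).factorization p + c := by
    intro χ
    obtain ⟨n, hn0, hn⟩ := irr_one_pos χ.2
    rw [charDegree_eq hn, Nat.factorization_mul hn0.ne' Nat.card_pos.ne', hcardD, ← hc]
    simp [hp.factorization_pow]
  have h2' : sInf S + c ≤ a := by
    have h4 : (Cfsg.charDegree (χ2 : G → ℂ)).factorization p ∈ S := by
      rw [hS]
      exact ⟨χ2, hχ2B, rfl⟩
    have h5 := Nat.sInf_le h4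
    rw [hfac, ← ha] at hχ2
    omega
  have hidx : (Subgroup.centralizer ({g} : Set G)).index.factorization p + c = a := by
    have h4 := Subgroup.card_mul_index (Subgroup.centralizer ({g} : Set G))
    have h5 : (Subgroup.centralizer ({g} : Set G)).index ≠ 0 := by
      intro h0
      rw [h0, mul_zero] at h4
      exact Nat.card_pos.ne' h4.symm
    have h6 := congrArg (fun n : ℕ => n.factorization p) h4
    rw [Nat.factorization_mul Nat.card_pos.ne' h5, ← ha] at h6
    simp only [Finsupp.coe_add, Pi.add_apply] at h6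
    rw [← hc] at h6
    omega
  have h3 : a ≤ sInf S + c := by
    by_contra hcon
    push Not at hcon
    apply hg3 χ1 hχ1B
    apply central_li_of_small hM χ1 g
    have hχ1' : (Cfsg.charDegree (χ1 : G → ℂ)).factorization p = sInf S := hχ1
    rw [hχ1']
    omega
  unfold Cfsg.blockDefect
  rw [hcardD, ← hc, ← hS, ← ha]
  congr 1
  omega

end Cfsg.Agent.S0908
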