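import Mathlib
import Cfsg.Statements.S0912
import Cfsg.Agent.Lib.Helper3.Char
import Cfsg.Agent.Lib.Helper3.CharCore
import Cfsg.Agent.Lib.Helper3.Core
import Cfsg.Agent.Lib.Helper3.BlkLocal
import Cfsg.Agent.Lib.Helper3.BlkOsima
import Cfsg.Agent.Lib.Helper3.BlkOrth
import Cfsg.Agent.Lib.Helper3.BlkOrth2
import Cfsg.Agent.Lib.Helper3.BlkCore

set_option autoImplicit false
open Cfsg
open Cfsg.Agent.Lib.Helper3.Char Cfsg.Agent.Lib.Helper3.CharCore Cfsg.Agent.Lib.Helper3.Core Cfsg.Agent.Lib.Helper3.BlkLocal Cfsg.Agent.Lib.Helper3.BlkOsima Cfsg.Agent.Lib.Helper3.BlkOrth Cfsg.Agent.Lib.Helper3.BlkOrth2 Cfsg.Agent.Lib.Helper3.BlkCore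

namespace Cfsg.Agent.S0912

theorem result {G : Type*} [Group G] [Finite G] (p : ℕ) [Fact p.Prime] (M : Ideal Cfsg.AlgInt) (hM : Cfsg.IsPModular p M) (B : Set (Cfsg.IrrCharacter G)) (hB : Cfsg.IsPBlock M B) (D : Subgroup G) (hD : Cfsg.IsDefectGroup p M B D) : Cfsg.pCore p G ≤ D := by
  classical
  have _fg : Fintype G := Fintype.ofFinite G
  have hp := hM.1
  have hMp := hM.2.1.isPrime
  obtain ⟨g, ⟨hg1, hg2, hg3⟩, S, hDS⟩ := hD
  have hnorm : (Cfsg.pCore p G).Normal := pCore_normal p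
  obtain ⟨χ, hχ, hker⟩ := exists_ker hM (Cfsg.pCore p G) (pCore_isPGroup p) B hB
  have hcent : ∀ u ∈ Cfsg.pCore p G, u * g = g * u := by
    by_contra hcon
    push Not at hcon
    exact hg3 χ hχ (central_li_of_ker hM (Cfsg.pCore p G) (pCore_isPGroup p) χ hker g hcon)
  intro u hu
  rw [hDS, Subgroup.mem_map]
  have huC : u ∈ Subgroup.centralizer ({g} : Set G) := by
    rw [Subgroup.mem_centralizer_iff]
    intro h hh
    rw [Set.mem_singleton_iff.mp hh]
    exact (hcent u hu).symm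
  refine ⟨⟨u, huC⟩, ?_, rfl⟩
  have hN : ((Cfsg.pCore p G).subgroupOf (Subgroup.centralizer ({g} : Set G))).Normal :=
    inferInstance
  have hPg : IsPGroup p ((Cfsg.pCore p G).subgroupOf (Subgroup.centralizer ({g} : Set G))) :=
    (pCore_isPGroup p).comap_subtype
  exact pCore_le_sylow S (le_pCore _ hN hPg (Subgroup.mem_subgroupOf.mpr hu))

end Cfsg.Agent.S0912
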