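import Mathlib
import Cfsg.Statements.S0911
import Cfsg.Agent.Lib.Helper3.Char
import Cfsg.Agent.Lib.Helper3.CharCore
import Cfsg.Agent.Lib.Helper3.BlkLocal
import Cfsg.Agent.Lib.Helper3.BlkOsima
import Cfsg.Agent.Lib.Helper3.BlkOrth
import Cfsg.Agent.Lib.Helper3.BlkOrth2
import Cfsg.Agent.Lib.Helper3.BlkMinMax

set_option autoImplicit false
open Cfsg
open Cfsg.Agent.Lib.Helper3.Char Cfsg.Agent.Lib.Helper3.CharCore Cfsg.Agent.Lib.Helper3.BlkLocal Cfsg.Agent.Lib.Helper3.BlkOsima Cfsg.Agent.Lib.Helper3.BlkOrth Cfsg.Agent.Lib.Helper3.BlkOrth2 Cfsg.Agent.Lib.Helper3.BlkMinMax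

namespace Cfsg.Agent.S0911

theorem result {G : Type*} [Group G] [Finite G] (p : ℕ) [Fact p.Prime] (M : Ideal Cfsg.AlgInt) (hM : Cfsg.IsPModular p M) (B : Set (Cfsg.IrrCharacter G)) (hB : Cfsg.IsPBlock M B) (g : G) (hg : Cfsg.IsDefectClass M B g) (D : Sylow p (Subgroup.centralizer ({g} : Set G))) (h : G) : (Cfsg.MemLocalRing M (Cfsg.blockCoeff B h) → ¬ Cfsg.MemLocalIdeal M (Cfsg.blockCoeff B h) → ∃ (x : G) (Q : Sylow p (Subgroup.centralizer ({h} : Set G))), (Q : Subgroup (Subgroup.centralizer ({h} : Set G))).map (Subgroup.centralizer ({h} : Set G)).subtype ≤ ((D : Subgroup (Subgroup.centralizer ({g} : Set G))).map (Subgroup.centralizer ({g} : Set G)).subtype).map (MulAut.conj x).toMonoidHom) ∧ ((∃ χ ∈ B, ¬ Cfsg.MemLocalIdeal M (Cfsg.centralChar (χ : G → ℂ) h)) → ∃ (x : G) (Q : Sylow p (Subgroup.centralizer ({h} : Set G))), ((D : Subgroup (Subgroup.centralizer ({g} : Set G))).map (Subgroup.centralizer ({g} : Set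 G)).subtype).map (MulAut.conj x).toMonoidHom ≤ (Q : Subgroup (Subgroup.centralizer ({h} : Set G))).map (Subgroup.centralizer ({h} : Set G)).subtype) := by
  classical
  have _fg : Fintype G := Fintype.ofFinite G
  have hMp := hM.2.1.isPrime
  obtain ⟨hg1, hg2, hg3⟩ := hg
  obtain ⟨χ0, hχ0⟩ := id hB
  have hχ0B : χ0 ∈ B := by
    rw [hχ0]
    exact sb_refl hMp _
  have hcent : ∀ (z : G) (Q : Sylow p (Subgroup.centralizer ({z} : Set G))),
      ∀ r ∈ (Q : Subgroup (Subgroup.centralizer ({z} : Set G))).map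
        (Subgroup.centralizer ({z} : Set G)).subtype, r * z = z * r := by
    intro z Q r hr
    obtain ⟨y, _, rfl⟩ := hr
    have h1 := y.2
    rw [Subgroup.mem_centralizer_iff] at h1
    exact (h1 z rfl).symm
  constructor
  · intro _ hnot
    have h1 := idem_in_ideal hM B hB g D χ0 hχ0B (hg3 χ0 hχ0B)
    have h2 := InI_blockCoeff _ B h1 h hnot
    obtain ⟨Q⟩ : Nonempty (Sylow p (Subgroup.centralizer ({h} : Set G))) := inferInstance
    obtain ⟨y, hy⟩ := h2 _ (Q.isPGroup'.map _) (hcent h Q)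
    exact ⟨y, Q, hy⟩
  · rintro ⟨χ, hχ, hnot⟩
    obtain ⟨Q⟩ : Nonempty (Sylow p (Subgroup.centralizer ({h} : Set G))) := inferInstance
    have h1 := idem_in_ideal hM B hB h Q χ hχ hnot
    have h2 := InI_blockCoeff _ B h1 g hg2
    obtain ⟨y, hy⟩ := h2 _ (D.isPGroup'.map _) (hcent g D)
    refine ⟨y⁻¹, Q, ?_⟩
    intro r hr
    rw [Subgroup.mem_map] at hr
    obtain ⟨d, hd, rfl⟩ := hr
    have h3 := hy hd
    rw [Subgroup.mem_map] at h3
    obtain ⟨q, hq, hq'⟩ := h3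
    simp only [MulEquiv.coe_toMonoidHom, MulAut.conj_apply] at hq' ⊢
    rw [← hq']
    have e : y⁻¹ * (y * q * y⁻¹) * y⁻¹⁻¹ = q := by group
    rw [e]
    exact hq

end Cfsg.Agent.S0911
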