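import Mathlib
import Cfsg.Statements.S0917
import Cfsg.Agent.Lib.Helper3.Char
import Cfsg.Agent.Lib.Helper3.CharCore
import Cfsg.Agent.Lib.Helper3.BlkLocal
import Cfsg.Agent.Lib.Helper3.BlkOsima
import Cfsg.Agent.Lib.Helper3.BlkOrth
import Cfsg.Agent.Lib.Helper3.BlkOrth2
import Cfsg.Agent.Lib.Helper3.BlkMinMax
import Cfsg.Agent.Lib.Helper3.BlkMinMax2
import Cfsg.Agent.S0934
import Cfsg.Agent.S0911

set_option autoImplicit false
open Cfsg
open Cfsg.Agent.Lib.Helper3.Char Cfsg.Agent.Lib.Helper3.CharCore Cfsg.Agent.Lib.Helper3.BlkLocal Cfsg.Agent.Lib.Helper3.BlkOsima Cfsg.Agent.Lib.Helper3.BlkOrth Cfsg.Agent.Lib.Helper3.BlkOrth2 Cfsg.Agent.Lib.Helper3.BlkMinMax Cfsg.Agent.Lib.Helper3.BlkMinMax2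

namespace Cfsg.Agent.S0917

theorem result {G : Type*} [Group G] [Finite G] (p : ℕ) [Fact p.Prime] (M : Ideal Cfsg.AlgInt) (hM : Cfsg.IsPModular p M) (H : Subgroup G) (b : Set (Cfsg.IrrCharacter H)) (hb : Cfsg.IsPBlock M b) (B : Set (Cfsg.IrrCharacter G)) (hB : Cfsg.IsPBlock M B) (hind : Cfsg.IsInducedBlock M H b B) (D : Subgroup H) (hD : Cfsg.IsDefectGroup p M b D) : ∃ E : Subgroup G, Cfsg.IsDefectGroup p M B E ∧ D.map H.subtype ≤ E := by
  classical
  have _fg : Fintype G := Fintype.ofFinite G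
  have _fh : Fintype H := Fintype.ofFinite H
  have _kG : Fintype (ConjClasses G) := Fintype.ofFinite _
  have _kH : Fintype (ConjClasses H) := Fintype.ofFinite _
  have hMp := hM.2.1.isPrime
  obtain ⟨_, _, hcong⟩ := hind
  obtain ⟨χ0, hχ0⟩ := id hB
  have hχ0B : χ0 ∈ B := by
    rw [hχ0]
    exact sb_refl hMp _
  obtain ⟨ξ0, hξ0⟩ := id hb
  have hξ0b : ξ0 ∈ b := by
    rw [hξ0]
    exact sb_refl hMp _
  have hcf := blockCoeff_classFun B
  have hR := osima_fun hMp B hB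
  have h1 := blockCoeff_om B χ0
  rw [if_pos hχ0B] at h1
  have h3 := om_classes (Cfsg.blockCoeff B) hcf (χ0 : G → ℂ)
    (char_classFun (isCharacter_of_irr χ0.2))
  rw [h1, div_self (irr_one_ne_zero χ0.2)] at h3
  have h4 := Cfsg.Agent.S0934.ind_classes H (Cfsg.blockCoeff B) hcf (ξ0 : H → ℂ)
  have hcfH : Cfsg.IsClassFunction H (fun h : H => Cfsg.blockCoeff B (h : G)) := by
    intro h k
    exact hcf (h : G) (k : G)
  have h5 := om_classes (fun h : H => Cfsg.blockCoeff B (h : G)) hcfH (ξ0 : H → ℂ)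
    (char_classFun (isCharacter_of_irr ξ0.2))
  have h6 : MemLocalIdeal M ((∑ C : ConjClasses G, Cfsg.blockCoeff B (Quotient.out C) *
      Cfsg.inducedCentralChar H (ξ0 : H → ℂ) (Quotient.out C)) -
      ∑ C : ConjClasses G, Cfsg.blockCoeff B (Quotient.out C) *
        Cfsg.centralChar (χ0 : G → ℂ) (Quotient.out C)) := by
    rw [← Finset.sum_sub_distrib]
    apply li_sum hMp
    intro C _
    rw [← mul_sub]
    exact li_mul_left hMp (hR _) (hcong ξ0 hξ0b χ0 hχ0B _)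
  rw [← h4, ← h3, h5] at h6
  have h7 : ∃ L : ConjClasses H, ¬ MemLocalIdeal M
      (Cfsg.blockCoeff B ((Quotient.out L : H) : G) *
        Cfsg.centralChar (ξ0 : H → ℂ) (Quotient.out L)) := by
    by_contra hcon
    push Not at hcon
    have h8 := li_sum hMp Finset.univ _ (fun L _ => hcon L)
    have h9 := li_sub hMp h8 h6
    rw [sub_sub_cancel] at h9
    exact not_li_one hMp h9
  obtain ⟨L, hL⟩ := h7
  obtain ⟨y, hy⟩ : ∃ y : H, y = Quotient.out L := ⟨_, rfl⟩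
  rw [← hy] at hL
  have hy1 : ¬ MemLocalIdeal M (Cfsg.blockCoeff B (y : G)) := fun h =>
    hL (li_mul_right hMp h (lr_of_isIntegral hMp (cc_integral _ ξ0.2 _)))
  have hy2 : ¬ MemLocalIdeal M (Cfsg.centralChar (ξ0 : H → ℂ) y) := fun h =>
    hL (li_mul_left hMp (hR _) h)
  obtain ⟨y0, hy0, P, hDP⟩ := hD
  obtain ⟨x, Q, hxQ⟩ := (Cfsg.Agent.S0911.result p M hM b hb y0 hy0 P y).2 ⟨ξ0, hξ0b, hy2⟩
  obtain ⟨g0, hg0⟩ := defect_class hMp B hB
  obtain ⟨E0⟩ : Nonempty (Sylow p (Subgroup.centralizer ({g0} : Set G))) := inferInstance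
  have h10 := idem_in_ideal hM B hB g0 E0 χ0 hχ0B (hg0.2.2 χ0 hχ0B)
  have h11 := InI_blockCoeff _ B h10 (y : G) hy1
  have hRc : ∀ r ∈ ((Q : Subgroup (Subgroup.centralizer ({y} : Set H))).map
      (Subgroup.centralizer ({y} : Set H)).subtype).map H.subtype, r * (y : G) = (y : G) * r := by
    intro r hr
    obtain ⟨q, hq, rfl⟩ := hr
    obtain ⟨q', _, rfl⟩ := hq
    have h12 := q'.2
    rw [Subgroup.mem_centralizer_iff] at h12
    have h13 := (h12 y rfl).symm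
    exact congrArg Subtype.val h13
  obtain ⟨k, hk⟩ := h11 _ ((Q.isPGroup'.map _).map _) hRc
  refine ⟨((E0 : Subgroup (Subgroup.centralizer ({g0} : Set G))).map
    (Subgroup.centralizer ({g0} : Set G)).subtype).map (MulAut.conj ((x : G)⁻¹ * k)).toMonoidHom,
    defectGroup_conj B _ ⟨g0, hg0, E0, rfl⟩ _, ?_⟩
  intro r hr
  obtain ⟨d, hd, rfl⟩ := hr
  rw [hDP] at hd
  have h12 : x * d * x⁻¹ ∈ (Q : Subgroup (Subgroup.centralizer ({y} : Set H))).map
      (Subgroup.centralizer ({y} : Set H)).subtype := by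
    apply hxQ
    rw [Subgroup.mem_map]
    exact ⟨d, hd, by simp⟩
  have h13 : ((x * d * x⁻¹ : H) : G) ∈ ((Q : Subgroup (Subgroup.centralizer ({y} : Set H))).map
      (Subgroup.centralizer ({y} : Set H)).subtype).map H.subtype :=
    Subgroup.mem_map.mpr ⟨_, h12, rfl⟩
  have h14 := hk h13
  rw [Subgroup.mem_map] at h14 ⊢
  obtain ⟨e, he, he'⟩ := h14
  refine ⟨e, he, ?_⟩
  simp only [MulEquiv.coe_toMonoidHom, MulAut.conj_apply, Subgroup.coe_mul,
    Subgroup.coe_inv, Subgroup.coe_subtype] at he' ⊢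
  have h15 : (d : G) = (x : G)⁻¹ * ((x : G) * (d : G) * (x : G)⁻¹) * (x : G) := by group
  rw [h15, ← he']
  group

end Cfsg.Agent.S0917
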