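import Mathlib
import Cfsg.Statements.S0965
import Cfsg.Agent.Lib.Helper3.Char
import Cfsg.Agent.Lib.Helper3.CharCore
import Cfsg.Agent.Lib.Helper3.CharInd
import Cfsg.Agent.Lib.Helper3.CharProj
import Cfsg.Agent.Lib.Helper3.CharNormal
import Cfsg.Agent.Lib.Helper3.BlkLocal
import Cfsg.Agent.Lib.Helper3.BlkOsima
import Cfsg.Agent.Lib.Helper3.BlkBr
import Cfsg.Agent.Lib.Helper3.BlkClif
import Cfsg.Agent.Lib.Helper3.BlkClif2

set_option autoImplicit false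
open Cfsg
open Cfsg.Agent.Lib.Helper3.Char Cfsg.Agent.Lib.Helper3.CharCore Cfsg.Agent.Lib.Helper3.CharInd Cfsg.Agent.Lib.Helper3.CharProj Cfsg.Agent.Lib.Helper3.CharNormal Cfsg.Agent.Lib.Helper3.BlkLocal Cfsg.Agent.Lib.Helper3.BlkOsima Cfsg.Agent.Lib.Helper3.BlkBr Cfsg.Agent.Lib.Helper3.BlkClif Cfsg.Agent.Lib.Helper3.BlkClif2
open scoped ComplexConjugate

namespace Cfsg.Agent.S0965

theorem result {G : Type*} [Group G] [Fintype G] (p : ℕ) [Fact p.Prime] (M : Ideal Cfsg.AlgInt) (hM : Cfsg.IsPModular p M) (N : Subgroup G) [N.Normal] [Fintype N] (B : Set (Cfsg.IrrCharacter G)) (hB : Cfsg.IsPBlock M B) (b : Set (Cfsg.IrrCharacter N)) (hb : Cfsg.IsPBlock M b) : (∃ χ ∈ B, ∃ θ ∈ b, Cfsg.classInner (fun n : N => (χ : G → ℂ) n) (θ : N → ℂ) ≠ 0) ↔ ∀ χ ∈ B, ∀ θ ∈ b, ∀ n : N, Cfsg.MemLocalIdeal M (Cfsg.centralChar (χ : G → ℂ) (n : G) - Cfsg.inducedCentralChar N (θ : N → ℂ) (n : G)) := by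
  classical
  have hMp := hM.2.1.isPrime
  have hN : N.Normal := inferInstance
  constructor
  · rintro ⟨χ₀, hχ₀, θ₀, hθ₀, hcon⟩ χ hχ θ hθ n
    have h1 := lying_cc N χ₀ θ₀ hcon n
    have h2 : MemLocalIdeal M (Cfsg.centralChar (χ : G → ℂ) (n : G) -
        Cfsg.centralChar (χ₀ : G → ℂ) (n : G)) := by
      obtain ⟨χ₁, rfl⟩ := hB
      exact (sb_trans hMp (sb_symm hχ) hχ₀) n
    have h3 : Cfsg.SameBlock M (θ₀ : N → ℂ) (θ : N → ℂ) := by
      obtain ⟨θ₁, rfl⟩ := hb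
      exact sb_trans hMp (sb_symm hθ₀) hθ
    have h4 := ind_sameBlock hMp N θ₀ θ h3 (n : G)
    have h5 := li_add hMp h2 h4
    rw [h1] at h5
    convert h5 using 1
    ring
  · intro hall
    obtain ⟨χ, hχ⟩ : ∃ χ : Cfsg.IrrCharacter G, χ ∈ B := by
      obtain ⟨χ0, h0⟩ := hB
      exact ⟨χ0, by rw [h0]; exact sb_refl hMp _⟩
    obtain ⟨θ, hθ⟩ : ∃ θ : Cfsg.IrrCharacter N, θ ∈ b := by
      obtain ⟨θ0, h0⟩ := hb
      exact ⟨θ0, by rw [h0]; exact sb_refl hMp _⟩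
    have hres : Cfsg.IsCharacter N (fun n : N => (χ : G → ℂ) n) :=
      comp_isCharacter N.subtype (isCharacter_of_irr χ.2)
    obtain ⟨Χ, hΧ, hΧne⟩ := exists_constituent hres (irr_one_ne_zero χ.2)
    have hne : Cfsg.classInner (fun n : N => (χ : G → ℂ) n) Χ ≠ 0 := by
      rw [classInner_conj_symm Χ (fun n : N => (χ : G → ℂ) n)]
      intro h0
      apply hΧne
      have h1 := congrArg (starRingEnd ℂ) h0
      rw [Complex.conj_conj, map_zero] at h1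
      exact h1
    have h1 : ∀ n : N, MemLocalIdeal M (Cfsg.inducedCentralChar N Χ (n : G) -
        Cfsg.inducedCentralChar N (θ : N → ℂ) (n : G)) := by
      intro n
      have h2 := lying_cc N χ ⟨Χ, hΧ⟩ hne n
      have h3 := hall χ hχ θ hθ n
      rw [h2] at h3
      exact h3
    obtain ⟨g, hg⟩ := exists_cj_sameBlock hMp N ⟨Χ, hΧ⟩ θ h1
    have hθ' : cjI N hN g ⟨Χ, hΧ⟩ ∈ b := by
      obtain ⟨θ₀, rfl⟩ := hb
      exact sb_trans hMp hθ (sb_symm hg)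
    refine ⟨χ, hχ, cjI N hN g ⟨Χ, hΧ⟩, hθ', ?_⟩
    rw [cjI_val, inner_cj_invariant N hN]
    · exact hne
    · funext n
      rw [cj_apply]
      exact char_classFun (isCharacter_of_irr χ.2) (n : G) g

end Cfsg.Agent.S0965
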