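import Mathlib
import Cfsg.Statements.S0936
import Cfsg.Agent.Lib.Helper3.Char
import Cfsg.Agent.Lib.Helper3.CharCore
import Cfsg.Agent.Lib.Helper3.CharInd
import Cfsg.Agent.Lib.Helper3.CharArith
import Cfsg.Agent.Lib.Helper3.CharInt
import Cfsg.Agent.Lib.Helper3.BlkLocal
import Cfsg.Agent.Lib.Helper3.BlkOsima
import Cfsg.Agent.Lib.Helper3.BlkOrth
import Cfsg.Agent.Lib.Helper3.BlkOrth2
import Cfsg.Agent.Lib.Helper3.BlkOrth3
import Cfsg.Agent.Lib.Helper3.BlkOrth4
import Cfsg.Agent.Lib.Helper3.BlkTr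
import Cfsg.Agent.Lib.Helper3.GrpPReg

set_option autoImplicit false
open Cfsg
open Cfsg.Agent.Lib.Helper3.Char Cfsg.Agent.Lib.Helper3.CharCore Cfsg.Agent.Lib.Helper3.CharInd Cfsg.Agent.Lib.Helper3.CharArith Cfsg.Agent.Lib.Helper3.CharInt Cfsg.Agent.Lib.Helper3.BlkLocal Cfsg.Agent.Lib.Helper3.BlkOsima Cfsg.Agent.Lib.Helper3.BlkOrth Cfsg.Agent.Lib.Helper3.BlkOrth2 Cfsg.Agent.Lib.Helper3.BlkOrth3 Cfsg.Agent.Lib.Helper3.BlkOrth4 Cfsg.Agent.Lib.Helper3.BlkTr Cfsg.Agent.Lib.Helper3.GrpPReg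
open scoped ComplexConjugate

namespace Cfsg.Agent.S0936

theorem om_ind {G : Type*} [Group G] [Fintype G] [Fintype (ConjClasses G)] (H : Subgroup G)
    [Fintype H] (f : G → ℂ) (hf : Cfsg.IsClassFunction G f) (ξ : H → ℂ) :
    (∑ h : H, f (h : G) * ξ h) / ξ 1 =
      ∑ C : ConjClasses G, f (Quotient.out C) *
        Cfsg.inducedCentralChar H ξ (Quotient.out C) := by
  classical
  have hinner : ∀ C : ConjClasses G,
      f (Quotient.out C) * Cfsg.inducedCentralChar H ξ (Quotient.out C) =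
        ∑ h : H, (if IsConj (Quotient.out C) (h : G) then f (h : G) * ξ h / ξ 1 else 0) := by
    intro C
    rw [indcc_sum, Finset.mul_sum]
    refine Finset.sum_congr rfl (fun h _ => ?_)
    by_cases hc : IsConj (Quotient.out C) (h : G)
    · rw [if_pos hc, if_pos hc]
      obtain ⟨c, hc'⟩ := isConj_iff.mp hc
      have h1 : f (h : G) = f (Quotient.out C) := by
        rw [← hc']
        exact hf _ c
      rw [h1, mul_div_assoc]
    · rw [if_neg hc, if_neg hc, mul_zero]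
  rw [Finset.sum_congr rfl (fun C _ => hinner C), Finset.sum_comm, Finset.sum_div]
  refine Finset.sum_congr rfl (fun h _ => ?_)
  rw [Finset.sum_eq_single (ConjClasses.mk (h : G))]
  · have h4 : IsConj (Quotient.out (ConjClasses.mk (h : G))) (h : G) := by
      rw [← ConjClasses.mk_eq_mk_iff_isConj]
      exact Quotient.out_eq _
    rw [if_pos h4]
  · intro C _ hC
    rw [if_neg]
    intro hc
    apply hC
    rw [← Quotient.out_eq C]
    exact ConjClasses.mk_eq_mk_iff_isConj.mpr hc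
  · intro h
    exact absurd (Finset.mem_univ _) h

theorem preg_classFun {G : Type*} [Group G] (p : ℕ) :
    Cfsg.IsClassFunction G (fun x : G => if p ∣ orderOf x then (0 : ℂ) else 1) := by
  intro g h
  have h1 : orderOf (h * g * h⁻¹) = orderOf g :=
    (SemiconjBy.orderOf_eq h (show SemiconjBy h g (h * g * h⁻¹) by
      unfold SemiconjBy
      group)).symm
  show (if p ∣ orderOf (h * g * h⁻¹) then (0 : ℂ) else 1) = if p ∣ orderOf g then 0 else 1
  rw [h1]

theorem preg_sum {G : Type*} [Group G] [Fintype G] (p : ℕ) [Fact p.Prime] :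
    ∃ n : ℕ, ¬ p ∣ n ∧ ∑ x : G, (if p ∣ orderOf x then (0 : ℂ) else 1) = (n : ℂ) := by
  classical
  refine ⟨Nat.card {x : G // ¬ p ∣ orderOf x}, preg_card_not_dvd p, ?_⟩
  rw [Nat.card_eq_fintype_card, Fintype.card_subtype, Finset.sum_ite, Finset.sum_const_zero,
    zero_add, Finset.sum_const, nsmul_eq_mul, mul_one]

theorem result {G : Type*} [Group G] [Finite G] (p : ℕ) [Fact p.Prime] (M : Ideal Cfsg.AlgInt) (hM : Cfsg.IsPModular p M) (H : Subgroup G) (b : Set (Cfsg.IrrCharacter H)) (hdef : Cfsg.InducedBlockDefined M H b) : Cfsg.IsInducedBlock M H b (Cfsg.principalBlock M G) ↔ b = Cfsg.principalBlock M H := by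
  classical
  have _fg : Fintype G := Fintype.ofFinite G
  have _fc : Fintype (ConjClasses G) := Fintype.ofFinite _
  have _fh : Fintype H := Fintype.ofFinite _
  have _fi : Fintype (Cfsg.IrrCharacter G) := Fintype.ofFinite _
  have _fih : Fintype (Cfsg.IrrCharacter H) := Fintype.ofFinite _
  have hMp := hM.2.1.isPrime
  obtain ⟨f, hf⟩ : ∃ f : G → ℂ, f = fun x => if p ∣ orderOf x then (0 : ℂ) else 1 := ⟨_, rfl⟩
  have hfc : Cfsg.IsClassFunction G f := by
    rw [hf]
    exact preg_classFun p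
  obtain ⟨oneG, hoG⟩ : ∃ o : Cfsg.IrrCharacter G, (o : G → ℂ) = fun _ => 1 :=
    ⟨⟨_, isIrr_one G⟩, rfl⟩
  obtain ⟨oneH, hoH⟩ : ∃ o : Cfsg.IrrCharacter H, (o : H → ℂ) = fun _ => 1 :=
    ⟨⟨_, isIrr_one H⟩, rfl⟩
  have key : ∀ (ξ : Cfsg.IrrCharacter H) (χ : Cfsg.IrrCharacter G),
      (∀ g : G, MemLocalIdeal M (Cfsg.inducedCentralChar H (ξ : H → ℂ) g -
        Cfsg.centralChar (χ : G → ℂ) g)) →
      MemLocalIdeal M ((∑ h : H, f (h : G) * (ξ : H → ℂ) h) / (ξ : H → ℂ) 1 -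
        (∑ g : G, f g * (χ : G → ℂ) g) / (χ : G → ℂ) 1) := by
    intro ξ χ h
    rw [om_ind H f hfc, om_classes f hfc _ (char_classFun (isCharacter_of_irr χ.2)),
      ← Finset.sum_sub_distrib]
    apply li_sum hMp
    intro C _
    rw [← mul_sub]
    by_cases hc : p ∣ orderOf (Quotient.out C)
    · have h1 : f (Quotient.out C) = 0 := by
        rw [hf]
        exact if_pos hc
      rw [h1, zero_mul]
      exact li_zero hMp
    · have h1 : f (Quotient.out C) = 1 := by
        rw [hf]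
        exact if_neg hc
      rw [h1, one_mul]
      exact h _
  obtain ⟨nG, hnG, hsG⟩ := preg_sum (G := G) p
  obtain ⟨nH, hnH, hsH⟩ := preg_sum (G := H) p
  have hGone : (∑ g : G, f g * (oneG : G → ℂ) g) / (oneG : G → ℂ) 1 = (nG : ℂ) := by
    rw [hoG, hf]
    simp only [mul_one, div_one]
    exact hsG
  have hHone : (∑ h : H, f (h : G) * (oneH : H → ℂ) h) / (oneH : H → ℂ) 1 = (nH : ℂ) := by
    rw [hoH, hf]
    simp only [mul_one, div_one, Subgroup.orderOf_coe]
    exact hsH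
  have hGz : ∀ χ : Cfsg.IrrCharacter G, ¬ Cfsg.SameBlock M (χ : G → ℂ) (fun _ => 1) →
      (∑ g : G, f g * (χ : G → ℂ) g) / (χ : G → ℂ) 1 = 0 := by
    intro χ h
    have h1 := diff_block_orth hM χ oneG (by rw [hoG]; exact h)
    have h2 : ∑ g : G, f g * (χ : G → ℂ) g = 0 := by
      rw [← h1]
      refine Finset.sum_congr rfl (fun x _ => ?_)
      rw [hf, hoG]
      by_cases hc : p ∣ orderOf x
      · simp [hc]
      · simp [hc]
    rw [h2, zero_div]
  have hHz : ∀ ξ : Cfsg.IrrCharacter H, ¬ Cfsg.SameBlock M (ξ : H → ℂ) (fun _ => 1) →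
      (∑ h : H, f (h : G) * (ξ : H → ℂ) h) / (ξ : H → ℂ) 1 = 0 := by
    intro ξ h
    have h1 := diff_block_orth hM ξ oneH (by rw [hoH]; exact h)
    have h2 : ∑ h : H, f (h : G) * (ξ : H → ℂ) h = 0 := by
      rw [← h1]
      refine Finset.sum_congr rfl (fun x _ => ?_)
      rw [hf, hoH]
      by_cases hc : p ∣ orderOf x
      · simp [hc]
      · simp [hc]
    rw [h2, zero_div]
  have hsb : ∀ {Γ : Type _} [Group Γ] (χ : Cfsg.IrrCharacter Γ),
      Cfsg.SameBlock M (χ : Γ → ℂ) (fun _ => 1) →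
      Cfsg.blockOf M (χ : Γ → ℂ) = Cfsg.principalBlock M Γ := by
    intro Γ _ χ h
    ext ψ
    constructor
    · intro hψ
      exact sb_trans hMp (sb_symm h) hψ
    · intro hψ
      exact sb_trans hMp h hψ
  constructor
  · intro hind
    obtain ⟨ξ₀, hb⟩ := hind.1
    have hξ : ξ₀ ∈ b := by
      rw [hb]
      exact sb_refl hMp _
    have hoB : oneG ∈ Cfsg.principalBlock M G := by
      show Cfsg.SameBlock M (fun _ => 1) (oneG : G → ℂ)
      rw [hoG]
      exact sb_refl hMp _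
    have h1 := key ξ₀ oneG (hind.2.2 ξ₀ hξ oneG hoB)
    rw [hGone] at h1
    by_contra hne
    have h2 : ¬ Cfsg.SameBlock M (ξ₀ : H → ℂ) (fun _ => 1) := by
      intro h3
      apply hne
      rw [hb]
      exact hsb ξ₀ h3
    rw [hHz ξ₀ h2, zero_sub] at h1
    have h3 := li_neg h1
    rw [neg_neg] at h3
    exact hnG ((li_nat_iff hM nG).mp h3)
  · intro hb
    obtain ⟨B, hind⟩ := hdef
    obtain ⟨χ₀, hB⟩ := hind.2.1
    have hχ : χ₀ ∈ B := by
      rw [hB]
      exact sb_refl hMp _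
    have hoB : oneH ∈ b := by
      rw [hb]
      show Cfsg.SameBlock M (fun _ => 1) (oneH : H → ℂ)
      rw [hoH]
      exact sb_refl hMp _
    have h1 := key oneH χ₀ (hind.2.2 oneH hoB χ₀ hχ)
    rw [hHone] at h1
    have h2 : Cfsg.SameBlock M (χ₀ : G → ℂ) (fun _ => 1) := by
      by_contra h2
      rw [hGz χ₀ h2, sub_zero] at h1
      exact hnH ((li_nat_iff hM nH).mp h1)
    have h3 : B = Cfsg.principalBlock M G := by
      rw [hB]
      exact hsb χ₀ h2
    rw [← h3]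
    exact hind

end Cfsg.Agent.S0936
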