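import Mathlib
import Cfsg.Statements.S0855
import Cfsg.Agent.Lib.Helper3.Char
import Cfsg.Agent.Lib.Helper3.CharCore
import Cfsg.Agent.Lib.Helper3.CharArith
import Cfsg.Agent.Lib.Helper3.CharInd
import Cfsg.Agent.Lib.Helper3.CharInt
import Cfsg.Agent.Lib.Helper3.CharKer
import Cfsg.Agent.Lib.Helper3.CharLinear
import Cfsg.Agent.Lib.Helper3.CharProj
import Cfsg.Agent.Lib.Helper3.CharCliff
import Cfsg.Agent.Lib.Helper3.CharNormal
import Cfsg.Agent.S0148
import Cfsg.Agent.S0174
import Cfsg.Agent.S0169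

set_option autoImplicit false
open Cfsg
open Cfsg.Agent.Lib.Helper3.Char Cfsg.Agent.Lib.Helper3.CharCore Cfsg.Agent.Lib.Helper3.CharArith Cfsg.Agent.Lib.Helper3.CharInd Cfsg.Agent.Lib.Helper3.CharInt Cfsg.Agent.Lib.Helper3.CharKer Cfsg.Agent.Lib.Helper3.CharLinear Cfsg.Agent.Lib.Helper3.CharProj Cfsg.Agent.Lib.Helper3.CharCliff Cfsg.Agent.Lib.Helper3.CharNormal
open scoped ComplexConjugate

namespace Cfsg.Agent.S0855

universe u

theorem deg_dvd_over {G : Type u} [Group G] [Fintype G] (H : Subgroup G) (hN : H.Normal)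
    [Fintype H] (ϑ : H → ℂ) (hϑ : Cfsg.IsIrrCharacter H ϑ) (a : ℕ) (ha : ϑ 1 = (a : ℂ)) :
    ∃ (χ : G → ℂ) (b : ℕ), Cfsg.IsIrrCharacter G χ ∧ χ 1 = (b : ℂ) ∧ a ∣ b := by
  classical
  have hϑc := isCharacter_of_irr hϑ
  have hΨ : Cfsg.IsCharacter G (Cfsg.indFun H ϑ) := Cfsg.Agent.S0148.result H ϑ hϑc
  have hΨne : Cfsg.indFun H ϑ 1 ≠ 0 := by
    rw [indFun_one]
    apply mul_ne_zero
    · have h1 : H.index ≠ 0 := Subgroup.index_ne_zero_of_finite
      exact_mod_cast h1
    · exact irr_one_ne_zero hϑ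
  obtain ⟨χ, hχ, hin⟩ := exists_constituent hΨ hΨne
  rw [frobenius' H ϑ χ (char_classFun (isCharacter_of_irr hχ))] at hin
  have h174 := Cfsg.Agent.S0174.result H hN χ hχ ϑ hϑ hin
  rw [orbit_set_eq H hN ϑ, finsum_mem_coe_finset] at h174
  obtain ⟨m, hm⟩ := inner_char_nat (comp_isCharacter H.subtype (isCharacter_of_irr hχ)) hϑc
  have hm' : Cfsg.classInner (fun n : H => χ n) ϑ = (m : ℂ) := hm
  have e1 := congrFun h174 1
  simp only [Pi.smul_apply, Finset.sum_apply, smul_eq_mul] at e1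
  have h3 : ∀ ψ ∈ Finset.univ.image (cj H hN ϑ), ψ 1 = (a : ℂ) := by
    intro ψ hψ
    obtain ⟨x, _, rfl⟩ := Finset.mem_image.mp hψ
    rw [cj_apply, ← ha]
    congr 1
    apply Subtype.ext
    simp
  rw [Finset.sum_congr rfl h3, Finset.sum_const, nsmul_eq_mul, hm'] at e1
  refine ⟨χ, m * ((Finset.univ.image (cj H hN ϑ)).card * a), hχ, ?_, ?_⟩
  · have e2 : χ 1 = χ ((1 : H) : G) := rfl
    rw [e2, e1]
    push_cast
    rfl
  · exact ⟨m * (Finset.univ.image (cj H hN ϑ)).card, by ring⟩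

theorem p_dvd_lin {G : Type u} [Group G] [Fintype G] (p : ℕ) (hp : p.Prime)
    (h : ∀ χ : Cfsg.IrrCharacter G, ∃ k : ℕ, (χ : G → ℂ) 1 = (p : ℂ) ^ k)
    (hne : commutator G ≠ ⊥) : p ∣ Nat.card (G →* ℂˣ) := by
  classical
  have _fi : Fintype (Cfsg.IrrCharacter G) := Fintype.ofFinite _
  obtain ⟨g, hg, hg1⟩ : ∃ g ∈ commutator G, g ≠ 1 := by
    by_contra hcon
    apply hne
    rw [Subgroup.eq_bot_iff_forall]
    intro x hx
    by_contra hx1
    exact hcon ⟨x, hx, hx1⟩
  have hd := delta_one g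
  rw [if_neg hg1] at hd
  choose k hk using h
  have hterm : ∀ χ : Cfsg.IrrCharacter G, (χ : G → ℂ) g * (χ : G → ℂ) 1 =
      (if k χ = 0 then 1 else 0) +
        (p : ℂ) * (if k χ = 0 then 0 else (χ : G → ℂ) g * (p : ℂ) ^ (k χ - 1)) := by
    intro χ
    by_cases h0 : k χ = 0
    · rw [if_pos h0, if_pos h0, mul_zero, add_zero]
      have h1 : (χ : G → ℂ) 1 = 1 := by rw [hk χ, h0, pow_zero]
      obtain ⟨lam, hlam⟩ := hom_of_deg_one (isCharacter_of_irr χ.2) h1
      have hu : g ∈ lam.ker := Abelianization.commutator_subset_ker lam hg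
      rw [h1, mul_one, hlam]
      show (lam g : ℂ) = 1
      rw [MonoidHom.mem_ker.mp hu]
      rfl
    · rw [if_neg h0, if_neg h0, zero_add, hk χ]
      have e : k χ = (k χ - 1) + 1 := by omega
      conv_lhs => rw [e, pow_succ]
      ring
  rw [Finset.sum_congr rfl (fun χ _ => hterm χ), Finset.sum_add_distrib, ← Finset.mul_sum] at hd
  have hcount : (∑ χ : Cfsg.IrrCharacter G, (if k χ = 0 then (1 : ℂ) else 0)) =
      (Nat.card (G →* ℂˣ) : ℂ) := by
    rw [Finset.sum_boole, ← card_linear, Nat.card_eq_fintype_card, Fintype.card_subtype]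
    congr 2
    apply Finset.filter_congr
    intro χ _
    rw [hk χ]
    constructor
    · intro h0
      rw [h0, pow_zero]
    · intro h1
      by_contra h0
      have h2 : p ^ k χ = 1 := by exact_mod_cast h1
      have h3 := Nat.one_lt_pow h0 hp.one_lt
      omega
  rw [hcount] at hd
  have hint : IsIntegral ℤ (∑ χ : Cfsg.IrrCharacter G,
      (if k χ = 0 then 0 else (χ : G → ℂ) g * (p : ℂ) ^ (k χ - 1))) := by
    refine IsIntegral.sum _ (fun χ _ => ?_)
    split_ifs
    · exact isIntegral_zero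
    · exact (char_isIntegral (isCharacter_of_irr χ.2) g).mul ((isIntegral_natCast p).pow _)
  have hp0 : (p : ℂ) ≠ 0 := by exact_mod_cast hp.ne_zero
  have h5 : IsIntegral ℤ ((Nat.card (G →* ℂˣ) : ℂ) / (p : ℂ)) := by
    have e : (Nat.card (G →* ℂˣ) : ℂ) / (p : ℂ) = -(∑ χ : Cfsg.IrrCharacter G,
        (if k χ = 0 then 0 else (χ : G → ℂ) g * (p : ℂ) ^ (k χ - 1))) := by
      field_simp
      linear_combination hd
    rw [e]
    exact hint.neg
  exact nat_dvd_of_isIntegral_div _ _ hp.ne_zero h5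

theorem index_p_sub {G : Type u} [Group G] [Finite G] (p : ℕ) (hp : p.Prime)
    (h : p ∣ Nat.card (G →* ℂˣ)) : ∃ N : Subgroup G, N.Normal ∧ N.index = p := by
  have _fp : Fact p.Prime := ⟨hp⟩
  have hfin : Finite (G →* ℂˣ) := by
    apply Nat.finite_of_card_ne_zero
    rw [card_hom_units]
    exact Subgroup.index_ne_zero_of_finite
  obtain ⟨lam, hlam⟩ := exists_prime_orderOf_dvd_card' p h
  refine ⟨lam.ker, inferInstance, ?_⟩
  rw [Subgroup.index_ker]
  have hfr : Finite lam.range :=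
    Finite.of_surjective lam.rangeRestrict lam.rangeRestrict_surjective
  have hcyc : IsCyclic lam.range := inferInstance
  have hexp : Monoid.exponent lam.range ∣ p := by
    apply Monoid.exponent_dvd_of_forall_pow_eq_one
    rintro ⟨x, g, rfl⟩
    apply Subtype.ext
    have h1 : lam ^ p = 1 := by
      rw [← hlam]
      exact pow_orderOf_eq_one lam
    have h2 := congrArg (fun f : G →* ℂˣ => f g) h1
    simpa using h2
  rw [IsCyclic.exponent_eq_card] at hexp
  rcases (Nat.dvd_prime hp).mp hexp with h1 | h1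
  · exfalso
    have h2 : lam = 1 := by
      ext g
      have h3 : (⟨lam g, g, rfl⟩ : lam.range) = 1 := by
        have h4 : Subsingleton lam.range := (Nat.card_eq_one_iff_unique.mp h1).1
        exact Subsingleton.elim _ _
      have h5 := congrArg Subtype.val h3
      simpa using h5
    rw [h2, orderOf_one] at hlam
    exact hp.one_lt.ne' hlam.symm
  · exact h1

theorem fwd (p : ℕ) (hp : p.Prime) : ∀ (n : ℕ) (G : Type u) [Group G] [Finite G],
    Nat.card G = n →
    (∀ χ : Cfsg.IrrCharacter G, ∃ k : ℕ, (χ : G → ℂ) 1 = (p : ℂ) ^ k) →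
    ∃ A : Subgroup G, A.Normal ∧ (∀ a ∈ A, ∀ b ∈ A, a * b = b * a) ∧
      Nat.Coprime (Nat.card A) p ∧ ∃ k : ℕ, A.index = p ^ k := by
  intro n
  induction n using Nat.strong_induction_on with
  | _ n ih =>
    intro G _ _ hn h
    classical
    have _fg : Fintype G := Fintype.ofFinite G
    have _fp : Fact p.Prime := ⟨hp⟩
    by_cases hab : commutator G = ⊥
    · have hcomm : ∀ a b : G, a * b = b * a := by
        intro a b
        have h1 : Subgroup.center G = ⊤ := (commutator_eq_bot_iff_center_eq_top G).mp hab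
        have h2 : a ∈ Subgroup.center G := by
          rw [h1]
          exact Subgroup.mem_top a
        exact ((Subgroup.mem_center_iff.mp h2) b).symm
      have hnorm : ∀ K : Subgroup G, K.Normal := by
        intro K
        refine ⟨fun x hx g => ?_⟩
        rw [hcomm g x, mul_inv_cancel_right]
        exact hx
      obtain ⟨P⟩ : Nonempty (Sylow p G) := inferInstance
      have _pn : (P : Subgroup G).Normal := hnorm _
      obtain ⟨H, hH⟩ := Subgroup.exists_right_complement'_of_coprime (N := (P : Subgroup G))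
        P.card_coprime_index
      refine ⟨H, hnorm H, fun a _ b _ => hcomm a b, ?_, ?_⟩
      · rw [← hH.symm.index_eq_card]
        exact ((Nat.Prime.coprime_iff_not_dvd hp).mpr P.not_dvd_index).symm
      · rw [hH.index_eq_card]
        exact (IsPGroup.iff_card.mp P.2)
    · have hdvd := p_dvd_lin p hp h hab
      obtain ⟨N, hNn, hNi⟩ := index_p_sub p hp hdvd
      have _fN : Fintype N := Fintype.ofFinite N
      have hcardN : Nat.card N * p = n := by
        rw [← hNi, Subgroup.card_mul_index, hn]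
      have hlt : Nat.card N < n := by
        have h1 : 0 < Nat.card N := Nat.card_pos
        have h2 := hp.one_lt
        nlinarith
      have hdegN : ∀ θ : Cfsg.IrrCharacter N, ∃ k : ℕ, (θ : N → ℂ) 1 = (p : ℂ) ^ k := by
        intro θ
        obtain ⟨a, _, ha⟩ := irr_one_pos θ.2
        obtain ⟨χ, b, hχ, hb, hab'⟩ := deg_dvd_over N hNn (θ : N → ℂ) θ.2 a ha
        obtain ⟨k, hk⟩ := h ⟨χ, hχ⟩
        have hbk : b = p ^ k := by
          have hk' : χ 1 = (p : ℂ) ^ k := hk
          rw [hb] at hk'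
          exact_mod_cast hk'
        rw [hbk] at hab'
        obtain ⟨j, _, hj⟩ := (Nat.dvd_prime_pow hp).mp hab'
        refine ⟨j, ?_⟩
        rw [ha, hj]
        push_cast
        rfl
      obtain ⟨A₀, hA₀n, hA₀ab, hA₀cop, k, hA₀k⟩ := ih (Nat.card N) hlt N rfl hdegN
      refine ⟨A₀.map N.subtype, ?_, ?_, ?_, k + 1, ?_⟩
      · refine ⟨fun x hx g => ?_⟩
        obtain ⟨a, ha, rfl⟩ := Subgroup.mem_map.mp hx
        have hmem : g * (a : G) * g⁻¹ ∈ N := hNn.conj_mem _ a.2 g
        refine Subgroup.mem_map.mpr ⟨⟨g * (a : G) * g⁻¹, hmem⟩, ?_, rfl⟩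
        have hord : orderOf (⟨g * (a : G) * g⁻¹, hmem⟩ : N) = orderOf a := by
          rw [← Subgroup.orderOf_coe, ← Subgroup.orderOf_coe]
          exact (MulAut.conj g).orderOf_eq (a : G)
        have hcop2 : Nat.Coprime (orderOf (⟨g * (a : G) * g⁻¹, hmem⟩ : N)) (p ^ k) := by
          rw [hord]
          have h1 : orderOf a ∣ Nat.card A₀ := Subgroup.orderOf_dvd_natCard A₀ ha
          exact Nat.Coprime.pow_right k (Nat.Coprime.coprime_dvd_left h1 hA₀cop)
        have _qn : A₀.Normal := hA₀n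
        have h2 : orderOf (QuotientGroup.mk' A₀ ⟨g * (a : G) * g⁻¹, hmem⟩) ∣
            orderOf (⟨g * (a : G) * g⁻¹, hmem⟩ : N) := orderOf_map_dvd _ _
        have h3 : orderOf (QuotientGroup.mk' A₀ ⟨g * (a : G) * g⁻¹, hmem⟩) ∣ p ^ k := by
          rw [← hA₀k, Subgroup.index_eq_card]
          exact orderOf_dvd_natCard _
        have h4 : orderOf (QuotientGroup.mk' A₀ ⟨g * (a : G) * g⁻¹, hmem⟩) = 1 :=
          Nat.eq_one_of_dvd_coprimes hcop2 h2 h3
        rw [orderOf_eq_one_iff] at h4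
        exact (QuotientGroup.eq_one_iff _).mp h4
      · rintro a ha b hb
        obtain ⟨a', ha', rfl⟩ := Subgroup.mem_map.mp ha
        obtain ⟨b', hb', rfl⟩ := Subgroup.mem_map.mp hb
        have h1 := hA₀ab a' ha' b' hb'
        have h2 := congrArg (N.subtype) h1
        simpa using h2
      · rw [Subgroup.card_map_of_injective N.subtype_injective]
        exact hA₀cop
      · rw [Subgroup.index_map_subtype, hA₀k, hNi, pow_succ]
theorem result {G : Type*} [Group G] [Finite G] (p : ℕ) (hp : p.Prime) : (∀ χ : Cfsg.IrrCharacter G, ∃ k : ℕ, (χ : G → ℂ) 1 = (p : ℂ) ^ k) ↔ ∃ A : Subgroup G, A.Normal ∧ (∀ a ∈ A, ∀ b ∈ A, a * b = b * a) ∧ Nat.Coprime (Nat.card A) p ∧ ∃ k : ℕ, A.index = p ^ k := by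
  constructor
  · intro h
    exact fwd p hp (Nat.card G) G rfl h
  · rintro ⟨A, hAn, hAab, hcop, k, hk⟩ χ
    obtain ⟨n, ρ, hirr, hρ⟩ := χ.2
    have _i : ρ.IsIrreducible := hirr
    have _j : A.Normal := hAn
    have h1 := Cfsg.Agent.S0169.result ρ A hAab
    rw [hk, Module.finrank_fin_fun] at h1
    obtain ⟨j, _, hj⟩ := (Nat.dvd_prime_pow hp).mp h1
    refine ⟨j, ?_⟩
    rw [← hρ, Representation.char_one, Module.finrank_fin_fun, hj]
    push_cast
    rfl

end Cfsg.Agent.S0855
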