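import Mathlib
import Cfsg.Statements.S0014
import Cfsg.Agent.S0003
import Cfsg.Agent.S0012

set_option autoImplicit false
open Pointwise
open Cfsg
open scoped commutatorElement

namespace Cfsg.Agent.S0014

theorem normal_of_frattini_le {G : Type*} [Group G] [Finite G] (p : ℕ) [Fact p.Prime]
    (hG : IsPGroup p G) (A : Subgroup G) (hA : frattini G ≤ A) : A.Normal := by
  constructor
  intro a ha g
  have h1 : ⁅g, a⁆ ∈ commutator G := by
    rw [commutator_def]
    exact Subgroup.commutator_mem_commutator (Subgroup.mem_top g) (Subgroup.mem_top a)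
  have h2 : g * a * g⁻¹ = ⁅g, a⁆ * a := by rw [commutatorElement_def]; group
  rw [h2]
  exact A.mul_mem (hA ((Cfsg.Agent.S0012.result p hG).1 h1)) ha

theorem upper {G : Type*} [Group G] [Finite G] (p : ℕ) [Fact p.Prime] (hG : IsPGroup p G)
    (T : Finset G) :
    Nat.card (Subgroup.closure (T : Set G) ⊔ frattini G : Subgroup G) ≤
      Nat.card (frattini G) * p ^ T.card := by
  classical
  have hp : p.Prime := Fact.out
  induction T using Finset.induction_on with
  | empty => simp
  | insert x T hx ih =>
    rw [Finset.card_insert_of_notMem hx]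
    set A := Subgroup.closure (T : Set G) ⊔ frattini G with hA
    haveI hAn : A.Normal := normal_of_frattini_le p hG A le_sup_right
    have e : Subgroup.closure ((insert x T : Finset G) : Set G) ⊔ frattini G =
        Subgroup.zpowers x ⊔ A := by
      rw [Finset.coe_insert, Set.insert_eq, Subgroup.closure_union, Subgroup.zpowers_eq_closure,
        sup_assoc]
    rw [e]
    have h1 := Cfsg.Agent.S0003.card_sup_mul_card_inf (Subgroup.zpowers x) A
    have h2 : Nat.card (Subgroup.zpowers x) ≤
        p * Nat.card (Subgroup.zpowers x ⊓ A : Subgroup G) := by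
      have h3 : Subgroup.zpowers (x ^ p) ≤ Subgroup.zpowers x ⊓ A := by
        rw [Subgroup.zpowers_le]
        exact Subgroup.mem_inf.2 ⟨Subgroup.pow_mem _ (Subgroup.mem_zpowers x) p,
          le_sup_right (α := Subgroup G) ((Cfsg.Agent.S0012.result p hG).2 x)⟩
      have h4 := Subgroup.card_le_of_le h3
      rw [Nat.card_zpowers] at h4 ⊢
      have h5 : orderOf x ≤ p * orderOf (x ^ p) := by
        rw [orderOf_pow' x hp.ne_zero]
        have h6 := Nat.gcd_dvd_left (orderOf x) p
        have h7 : Nat.gcd (orderOf x) p ≤ p := Nat.gcd_le_right _ hp.pos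
        calc orderOf x = orderOf x / Nat.gcd (orderOf x) p * Nat.gcd (orderOf x) p :=
              (Nat.div_mul_cancel h6).symm
          _ ≤ orderOf x / Nat.gcd (orderOf x) p * p := Nat.mul_le_mul_left _ h7
          _ = p * (orderOf x / Nat.gcd (orderOf x) p) := mul_comm _ _
      exact h5.trans (Nat.mul_le_mul_left p h4)
    have hpos : 0 < Nat.card (Subgroup.zpowers x ⊓ A : Subgroup G) := Nat.card_pos
    have h3 : Nat.card (Subgroup.zpowers x ⊔ A : Subgroup G) ≤ p * Nat.card A := by
      apply Nat.le_of_mul_le_mul_right _ hpos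
      rw [h1]
      calc Nat.card (Subgroup.zpowers x) * Nat.card A
          ≤ p * Nat.card (Subgroup.zpowers x ⊓ A : Subgroup G) * Nat.card A :=
            Nat.mul_le_mul_right _ h2
        _ = p * Nat.card A * Nat.card (Subgroup.zpowers x ⊓ A : Subgroup G) := by ring
    calc Nat.card (Subgroup.zpowers x ⊔ A : Subgroup G) ≤ p * Nat.card A := h3
      _ ≤ p * (Nat.card (frattini G) * p ^ T.card) := Nat.mul_le_mul_left p ih
      _ = Nat.card (frattini G) * p ^ (T.card + 1) := by ring

theorem lower {G : Type*} [Group G] [Finite G] [DecidableEq G] (p : ℕ) [Fact p.Prime]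
    (hG : IsPGroup p G) (T : Finset G)
    (hT : ∀ t ∈ T, t ∉ (Subgroup.closure ((T.erase t : Finset G) : Set G) ⊔ frattini G :
      Subgroup G)) :
    Nat.card (frattini G) * p ^ T.card ≤
      Nat.card (Subgroup.closure (T : Set G) ⊔ frattini G : Subgroup G) := by
  have hp : p.Prime := Fact.out
  induction T using Finset.induction_on with
  | empty => simp
  | insert x T hx ih =>
    rw [Finset.card_insert_of_notMem hx]
    have hT' : ∀ t ∈ T, t ∉ (Subgroup.closure ((T.erase t : Finset G) : Set G) ⊔ frattini G :
        Subgroup G) := by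
      intro t ht hmem
      apply hT t (Finset.mem_insert_of_mem ht)
      have hsub : ((T.erase t : Finset G) : Set G) ⊆ (((insert x T).erase t : Finset G) : Set G) := by
        apply Finset.coe_subset.2
        exact Finset.erase_subset_erase t (Finset.subset_insert x T)
      exact (sup_le_sup_right (Subgroup.closure_mono hsub) _) hmem
    have ih' := ih hT'
    have hxA : x ∉ (Subgroup.closure (T : Set G) ⊔ frattini G : Subgroup G) := by
      have := hT x (Finset.mem_insert_self x T)
      rwa [Finset.erase_insert hx] at this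
    set A := Subgroup.closure (T : Set G) ⊔ frattini G with hA
    set B := Subgroup.closure ((insert x T : Finset G) : Set G) ⊔ frattini G with hB
    have hAB : A ≤ B :=
      sup_le_sup_right (Subgroup.closure_mono (Finset.coe_subset.2 (Finset.subset_insert x T))) _
    have hxB : x ∈ B := le_sup_left (α := Subgroup G)
      (Subgroup.subset_closure (Finset.mem_coe.2 (Finset.mem_insert_self x T)))
    obtain ⟨a, ha⟩ := (hG.to_subgroup A).exists_card_eq
    obtain ⟨b, hb⟩ := (hG.to_subgroup B).exists_card_eq
    have hdvd : p ^ a ∣ p ^ b := ha ▸ hb ▸ Subgroup.card_dvd_of_le hAB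
    have hab : a ≤ b := (Nat.pow_dvd_pow_iff_le_right hp.one_lt).1 hdvd
    have hne : a ≠ b := by
      intro h
      have : A = B := Subgroup.eq_of_le_of_card_ge hAB (by rw [ha, hb, h])
      exact hxA (this ▸ hxB)
    have hab' : a + 1 ≤ b := by omega
    calc Nat.card (frattini G) * p ^ (T.card + 1)
        = p * (Nat.card (frattini G) * p ^ T.card) := by ring
      _ ≤ p * Nat.card A := Nat.mul_le_mul_left p ih'
      _ = p ^ (a + 1) := by rw [ha]; ring
      _ ≤ p ^ b := Nat.pow_le_pow_right hp.pos hab'
      _ = Nat.card B := hb.symm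

theorem result {G : Type*} [Group G] [Finite G] (p n : ℕ) [Fact p.Prime]
    (hG : IsPGroup p G) (hn : (frattini G).index = p ^ n) :
    (∀ S : Finset G, Subgroup.closure (S : Set G) = ⊤ → ∃ T : Finset G, T ⊆ S ∧ T.card = n ∧ Subgroup.closure (T : Set G) = ⊤) ∧
    (∀ T : Finset G, Subgroup.closure (T : Set G) = ⊤ → n ≤ T.card) := by
  classical
  have hp : p.Prime := Fact.out
  have hcard : Nat.card G = Nat.card (frattini G) * p ^ n := by
    rw [← hn]; exact (Subgroup.card_mul_index _).symm
  have hpos : 0 < Nat.card (frattini G) := Nat.card_pos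
  have hb : ∀ T : Finset G, Subgroup.closure (T : Set G) ⊔ frattini G = ⊤ → n ≤ T.card := by
    intro T hT
    have h1 := upper p hG T
    rw [hT, Subgroup.card_top, hcard] at h1
    have h2 := Nat.le_of_mul_le_mul_left h1 hpos
    exact (Nat.pow_le_pow_iff_right hp.one_lt).1 h2
  refine ⟨?_, fun T hT => hb T (by rw [hT]; exact top_sup_eq _)⟩
  intro S hS
  have hne : (S.powerset.filter
      (fun T : Finset G => Subgroup.closure (T : Set G) ⊔ frattini G = ⊤)).Nonempty :=
    ⟨S, by rw [Finset.mem_filter, Finset.mem_powerset]; exact ⟨le_refl _, by rw [hS]; exact top_sup_eq _⟩⟩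
  obtain ⟨T, hTmem, hTmin⟩ := Finset.exists_min_image _ Finset.card hne
  rw [Finset.mem_filter, Finset.mem_powerset] at hTmem
  obtain ⟨hTS, hTgen⟩ := hTmem
  have hind : ∀ t ∈ T, t ∉ (Subgroup.closure ((T.erase t : Finset G) : Set G) ⊔ frattini G :
      Subgroup G) := by
    intro t ht hmem
    have h1 : Subgroup.closure ((T.erase t : Finset G) : Set G) ⊔ frattini G = ⊤ := by
      rw [← hTgen]
      apply le_antisymm
        (sup_le_sup_right (Subgroup.closure_mono (Finset.coe_subset.2 (Finset.erase_subset t T))) _)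
      apply sup_le _ le_sup_right
      rw [Subgroup.closure_le]
      intro y hy
      by_cases hyt : y = t
      · rw [hyt]; exact hmem
      · exact le_sup_left (α := Subgroup G) (Subgroup.subset_closure
          (Finset.mem_coe.2 (Finset.mem_erase.2 ⟨hyt, Finset.mem_coe.1 hy⟩)))
    have h2 := hTmin (T.erase t) (by
      rw [Finset.mem_filter, Finset.mem_powerset]
      exact ⟨(Finset.erase_subset t T).trans hTS, h1⟩)
    rw [Finset.card_erase_of_mem ht] at h2
    have : 0 < T.card := Finset.card_pos.2 ⟨t, ht⟩
    omega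
  have h1 := lower p hG T hind
  rw [hTgen, Subgroup.card_top, hcard] at h1
  have h2 := Nat.le_of_mul_le_mul_left h1 hpos
  have h3 : T.card ≤ n := (Nat.pow_le_pow_iff_right hp.one_lt).1 h2
  exact ⟨T, hTS, le_antisymm h3 (hb T hTgen), frattini_nongenerating hTgen⟩

end Cfsg.Agent.S0014
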