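import Mathlib
import Cfsg.Statements.S0029
import Cfsg.Agent.S0004
import Cfsg.Agent.S0022

set_option autoImplicit false
open Pointwise
open Cfsg

namespace Cfsg.Agent.S0029

open Subgroup Cfsg.Agent.S0004 Cfsg.Agent.S0022

theorem result {G : Type*} [Group G] [Finite G] (A K : Subgroup G)
    (hAK : A ≤ Subgroup.normalizer (K : Set G))
    (hcop : (Nat.card A).Coprime (Nat.card (frattini K)))
    (htriv : ∀ a ∈ A, ∀ k ∈ K, a * k * a⁻¹ * k⁻¹ ∈ (frattini K).map K.subtype) :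
    A ≤ Subgroup.centralizer (K : Set G) := by
  have hΦK : (frattini K).map K.subtype ≤ K := Subgroup.map_subtype_le _
  have cΦ : Nat.card ((frattini K).map K.subtype) = Nat.card (frattini K) :=
    Subgroup.card_map_of_injective (Subgroup.subtype_injective _)
  haveI : Group.IsNilpotent (frattini K) := frattini_nilpotent
  have hΦsolv : Group.IsSolvable ((frattini K).map K.subtype) :=
    Group.isSolvable_of_surjective (f := K.subtype.subgroupMap (frattini K))
      (MonoidHom.subgroupMap_surjective _ _)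
  generalize hΦ : (frattini K).map K.subtype = Φ at htriv hΦK cΦ hΦsolv
  have htriv' : ∀ a ∈ A, ∀ k ∈ K, k * a * k⁻¹ * a⁻¹ ∈ Φ := by
    intro a ha k hk
    have h := Φ.inv_mem (htriv a ha k hk)
    have e : (a * k * a⁻¹ * k⁻¹)⁻¹ = k * a * k⁻¹ * a⁻¹ := by group
    rwa [e] at h
  have hAΦ : A ≤ normalizer (Φ : Set G) := by
    rw [Subgroup.le_normalizer_iff]
    intro a ha φ hφ
    have h := htriv a ha φ (hΦK hφ)
    have e : a * φ * a⁻¹ = (a * φ * a⁻¹ * φ⁻¹) * φ := by group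
    rw [e]; exact Φ.mul_mem h hφ
  have hinf : A ⊓ Φ = ⊥ := Subgroup.inf_eq_bot_of_coprime (by rw [cΦ]; exact hcop)
  have hcop' : (Nat.card Φ).Coprime (Nat.card A) := by rw [cΦ]; exact hcop.symm
  have key : ∀ k ∈ K, ∃ n ∈ Φ, ∃ c ∈ K ⊓ centralizer (A : Set G), k = n * c := by
    intro k hk
    have hB : MulAut.conj k • A ≤ Φ ⊔ A := by
      intro z hz
      rw [Subgroup.mem_pointwise_smul_iff_inv_smul_mem] at hz
      have hz' : k⁻¹ * z * k ∈ A := by simpa [MulAut.smul_def] using hz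
      have h1 := htriv' _ hz' k hk
      have e : z = (k * (k⁻¹ * z * k) * k⁻¹ * (k⁻¹ * z * k)⁻¹) * (k⁻¹ * z * k) := by group
      rw [e]
      exact Subgroup.mul_mem _ (Subgroup.mem_sup_left h1) (Subgroup.mem_sup_right hz')
    obtain ⟨n, hn, hnA⟩ := sz_conj_rel Φ A (MulAut.conj k • A) hAΦ hB (card_conj_smul k A)
      hcop' (Or.inl hΦsolv)
    have hc : MulAut.conj (n⁻¹ * k) • A = A := by
      rw [map_mul, mul_smul, ← hnA, ← mul_smul, ← map_mul, inv_mul_cancel, map_one, one_smul]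
    have hcK : n⁻¹ * k ∈ K := K.mul_mem (K.inv_mem (hΦK hn)) hk
    have hcC : n⁻¹ * k ∈ centralizer (A : Set G) := by
      rw [Subgroup.mem_centralizer_iff]
      intro a ha
      have h1 : (n⁻¹ * k) * a * (n⁻¹ * k)⁻¹ ∈ A := by
        rw [← hc]
        exact Subgroup.smul_mem_pointwise_smul a (MulAut.conj (n⁻¹ * k)) A ha
      have h2 : (n⁻¹ * k) * a * (n⁻¹ * k)⁻¹ * a⁻¹ ∈ A := A.mul_mem h1 (A.inv_mem ha)
      have h3 := htriv' a ha _ hcK
      have h5 : (n⁻¹ * k) * a * (n⁻¹ * k)⁻¹ * a⁻¹ ∈ A ⊓ Φ := ⟨h2, h3⟩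
      rw [hinf, Subgroup.mem_bot] at h5
      have h6 := congrArg (fun z => z * a * (n⁻¹ * k)) h5
      simp only [one_mul] at h6
      rw [← h6]; group
    exact ⟨n, hn, n⁻¹ * k, ⟨hcK, hcC⟩, by group⟩
  have hC : (centralizer (A : Set G)).subgroupOf K = ⊤ := by
    apply frattini_nongenerating
    rw [eq_top_iff]
    intro x _
    obtain ⟨n, hn, c, hc, hx⟩ := key x x.2
    rw [← hΦ] at hn
    obtain ⟨n', hn', rfl⟩ := hn
    have hxe : x = n' * ⟨c, hc.1⟩ := Subtype.ext hx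
    rw [hxe]
    exact Subgroup.mul_mem _ (Subgroup.mem_sup_right hn') (Subgroup.mem_sup_left hc.2)
  rw [Subgroup.subgroupOf_eq_top] at hC
  exact Subgroup.le_centralizer_iff.mp hC

end Cfsg.Agent.S0029
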