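import Cfsg.Statements.S1003
import Mathlib

set_option autoImplicit false
open Cfsg

namespace Cfsg.Agent.S1003

open Subgroup

theorem syl_card_gen {G : Type*} [Group G] [Finite G] {p : ℕ} [Fact p.Prime] (P : Sylow p G)
    (c m : ℕ) (hG : Nat.card G = c * m) (hc : ∃ k, c = p ^ k) (hm : ¬ p ∣ m) :
    Nat.card (P : Subgroup G) = c := by
  obtain ⟨k, rfl⟩ := hc
  have hp := (Fact.out : p.Prime)
  have hm0 : m ≠ 0 := by rintro rfl; exact hm (dvd_zero _)
  rw [Sylow.card_eq_multiplicity, hG, Nat.factorization_mul (pow_ne_zero _ hp.ne_zero) hm0,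
    hp.factorization_pow]
  simp [Nat.factorization_eq_zero_of_not_dvd hm]

theorem ker_triv {G : Type*} [Group G] [Finite G] [IsSimpleGroup G] {p : ℕ} [Fact p.Prime]
    (hP : ∀ P : Sylow p G, 1 < Nat.card (P : Subgroup G) ∧
      Nat.card (P : Subgroup G) < Nat.card G) (g : G) (hg : g ≠ 1) :
    ∃ P : Sylow p G, g ∉ normalizer ((P : Subgroup G) : Set G) := by
  by_contra hall
  push_neg at hall
  obtain ⟨K, hK⟩ : ∃ K : Subgroup G, K = (MulAction.toPermHom G (Sylow p G)).ker := ⟨_, rfl⟩
  have hKn : K.Normal := by rw [hK]; exact MonoidHom.normal_ker _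
  have hmem : ∀ x : G, x ∈ K ↔ ∀ P : Sylow p G, x ∈ normalizer ((P : Subgroup G) : Set G) := by
    intro x
    rw [hK, MonoidHom.mem_ker]
    constructor
    · intro hx P
      exact Sylow.smul_eq_iff_mem_normalizer.mp (congrArg (fun f => f P) hx)
    · intro hx
      exact Equiv.ext (fun P => Sylow.smul_eq_iff_mem_normalizer.mpr (hx P))
  have hgK : g ∈ K := (hmem g).mpr hall
  rcases hKn.eq_bot_or_eq_top with hb | ht
  · rw [hb, Subgroup.mem_bot] at hgK
    exact hg hgK
  · obtain ⟨P⟩ : Nonempty (Sylow p G) := inferInstance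
    have hN : normalizer ((P : Subgroup G) : Set G) = ⊤ := by
      rw [eq_top_iff]
      intro x _
      exact (hmem x).mp (by rw [ht]; exact Subgroup.mem_top x) P
    have hPn : (P : Subgroup G).Normal := Subgroup.normalizer_eq_top_iff.mp hN
    have := hP P
    rcases hPn.eq_bot_or_eq_top with hb | ht
    · rw [hb, Subgroup.card_bot] at this
      omega
    · rw [ht, Subgroup.card_top] at this
      omega

theorem fact_dvd {G : Type*} [Group G] [Finite G] [IsSimpleGroup G] {p : ℕ} [Fact p.Prime]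
    (hP : ∀ P : Sylow p G, 1 < Nat.card (P : Subgroup G) ∧
      Nat.card (P : Subgroup G) < Nat.card G) :
    Nat.card G ∣ (Nat.card (Sylow p G)).factorial := by
  have hinj : Function.Injective (MulAction.toPermHom G (Sylow p G)) := by
    refine (injective_iff_map_eq_one _).mpr (fun g hg => ?_)
    by_contra hne
    obtain ⟨P, hPg⟩ := ker_triv hP g hne
    apply hPg
    exact Sylow.smul_eq_iff_mem_normalizer.mp (congrArg (fun f => f P) hg)
  have := Subgroup.card_dvd_of_injective _ hinj
  rwa [Nat.card_perm] at this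

theorem burn {G : Type*} [Group G] [Finite G] [IsSimpleGroup G] {p : ℕ} [Fact p.Prime]
    (P : Sylow p G) (h1 : 1 < Nat.card (P : Subgroup G))
    (h2 : Nat.card (P : Subgroup G) < Nat.card G) :
    ¬ (normalizer ((P : Subgroup G) : Set G) ≤ centralizer ((P : Subgroup G) : Set G)) := by
  intro hP
  have hcomp := MonoidHom.ker_transferSylow_isComplement' P hP
  obtain ⟨K, hK⟩ : ∃ K : Subgroup G, K = (MonoidHom.transferSylow P hP).ker := ⟨_, rfl⟩
  rw [← hK] at hcomp
  have hKn : K.Normal := by rw [hK]; exact MonoidHom.normal_ker _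
  have hKcard : Nat.card K * Nat.card (P : Subgroup G) = Nat.card G := hcomp.card_mul
  rcases hKn.eq_bot_or_eq_top with hb | ht
  · rw [hb, Subgroup.card_bot] at hKcard
    omega
  · rw [ht, Subgroup.card_top] at hKcard
    have hpos : 0 < Nat.card G := Nat.card_pos
    have : Nat.card G * Nat.card (P : Subgroup G) = Nat.card G * 1 := by rw [hKcard, mul_one]
    have := Nat.eq_of_mul_eq_mul_left hpos this
    omega

theorem cent_eq {G : Type*} [Group G] [Finite G] [IsSimpleGroup G] {p : ℕ} [Fact p.Prime]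
    (P : Sylow p G) (hP : Nat.card (P : Subgroup G) = p) (hpG : p < Nat.card G) (q : ℕ)
    (hq : q.Prime) (hN : Nat.card (normalizer ((P : Subgroup G) : Set G)) = p * q) :
    centralizer ((P : Subgroup G) : Set G) = (P : Subgroup G) := by
  have hp := (Fact.out : p.Prime)
  have hPC : (P : Subgroup G) ≤ centralizer ((P : Subgroup G) : Set G) := by
    haveI : IsCyclic (P : Subgroup G) := isCyclic_of_prime_card hP
    intro a ha
    rw [Subgroup.mem_centralizer_iff]
    intro b hb
    obtain ⟨c, hc⟩ := IsCyclic.exists_generator (α := (P : Subgroup G))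
    obtain ⟨i, hi⟩ := Subgroup.mem_zpowers_iff.mp (hc ⟨a, ha⟩)
    obtain ⟨j, hj⟩ := Subgroup.mem_zpowers_iff.mp (hc ⟨b, hb⟩)
    have ha' : a = (c : G) ^ i := by rw [← Subgroup.coe_zpow, hi]
    have hb' : b = (c : G) ^ j := by rw [← Subgroup.coe_zpow, hj]
    rw [ha', hb']
    exact ((Commute.refl (c : G)).zpow_zpow j i).eq
  have hCN : centralizer ((P : Subgroup G) : Set G) ≤ normalizer ((P : Subgroup G) : Set G) :=
    Subgroup.centralizer_le_normalizer _
  have h1 := Subgroup.card_dvd_of_le hPC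
  have h2 := Subgroup.card_dvd_of_le hCN
  rw [hP] at h1
  rw [hN] at h2
  obtain ⟨m, hm⟩ := h1
  rw [hm] at h2
  have hmq : m ∣ q := Nat.dvd_of_mul_dvd_mul_left hp.pos h2
  rcases (Nat.dvd_prime hq).mp hmq with h1 | h1
  · symm
    apply Subgroup.eq_of_le_of_card_ge hPC
    rw [hm, h1, hP, mul_one]
  · exfalso
    apply burn P (by rw [hP]; exact hp.one_lt) (by rw [hP]; exact hpG)
    have : centralizer ((P : Subgroup G) : Set G) = normalizer ((P : Subgroup G) : Set G) := by
      apply Subgroup.eq_of_le_of_card_ge hCN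
      rw [hm, h1, hN]
    rw [this]

theorem ord_of_dvd {G : Type*} [Group G] [Finite G] {p : ℕ} [Fact p.Prime]
    (hP : ∀ P : Sylow p G, Nat.card (P : Subgroup G) = p)
    (hC : ∀ P : Sylow p G, centralizer ((P : Subgroup G) : Set G) = (P : Subgroup G))
    (g : G) (hg : p ∣ orderOf g) : orderOf g = p := by
  have hp := (Fact.out : p.Prime)
  obtain ⟨k, hk⟩ := hg
  have hpos : 0 < orderOf g := orderOf_pos g
  have hk0 : k ≠ 0 := by rintro rfl; omega
  have ho : orderOf (g ^ k) = p := by
    rw [orderOf_pow_of_dvd hk0 ⟨p, by rw [hk, mul_comm]⟩, hk]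
    exact Nat.mul_div_cancel _ (Nat.pos_of_ne_zero hk0)
  have hpg : IsPGroup p (zpowers (g ^ k)) :=
    IsPGroup.of_card (n := 1) (by rw [Nat.card_zpowers, ho, pow_one])
  obtain ⟨Q, hQ⟩ := hpg.exists_le_sylow
  have hQe : zpowers (g ^ k) = (Q : Subgroup G) := by
    apply Subgroup.eq_of_le_of_card_ge hQ
    rw [Nat.card_zpowers, ho, hP Q]
  have hgC : g ∈ centralizer ((Q : Subgroup G) : Set G) := by
    rw [Subgroup.mem_centralizer_iff]
    intro x hx
    have hx' : x ∈ zpowers (g ^ k) := by rw [hQe]; exact hx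
    obtain ⟨i, rfl⟩ := Subgroup.mem_zpowers_iff.mp hx'
    exact ((((Commute.refl g).pow_right k).zpow_right i).symm).eq
  rw [hC Q] at hgC
  have h1 : (⟨g, hgC⟩ : (Q : Subgroup G)) ^ Nat.card (Q : Subgroup G) = 1 := pow_card_eq_one'
  rw [hP Q] at h1
  have h2 : g ^ p = 1 := by simpa using congrArg Subtype.val h1
  exact Nat.dvd_antisymm (orderOf_dvd_of_pow_eq_one h2) ⟨k, hk⟩

theorem mem_of_norm {G : Type*} [Group G] [Finite G] {p : ℕ} [Fact p.Prime] (P : Sylow p G)
    (g : G) (hg : g ∈ normalizer ((P : Subgroup G) : Set G)) (hpg : IsPGroup p (zpowers g)) :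
    g ∈ (P : Subgroup G) := by
  have h1 : IsPGroup p ↥(zpowers g ⊔ (P : Subgroup G)) :=
    hpg.to_sup_of_normal_right' P.2 (Subgroup.zpowers_le.mpr hg)
  have h2 := P.is_maximal' h1 le_sup_right
  rw [← h2]
  exact (le_sup_left : zpowers g ≤ _) (Subgroup.mem_zpowers g)

/-- the set of nontrivial `p`-elements -/
def S (G : Type*) [Group G] (p : ℕ) : Set G :=
  {g : G | g ≠ 1 ∧ ∃ Q : Sylow p G, g ∈ (Q : Subgroup G)}

theorem mem_S {G : Type*} [Group G] [Finite G] {p : ℕ} [Fact p.Prime] (g : G) (hg : g ≠ 1)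
    (k : ℕ) (hk : orderOf g = p ^ k) : g ∈ S G p := by
  have hpg : IsPGroup p (zpowers g) := IsPGroup.of_card (n := k) (by rw [Nat.card_zpowers, hk])
  obtain ⟨Q, hQ⟩ := hpg.exists_le_sylow
  exact ⟨hg, Q, hQ (Subgroup.mem_zpowers g)⟩

theorem cnt {G : Type*} [Group G] [Finite G] {p : ℕ} [Fact p.Prime] (c : ℕ)
    (hP : ∀ P : Sylow p G, Nat.card (P : Subgroup G) = c) :
    (S G p).ncard ≤ Nat.card (Sylow p G) * (c - 1) := by
  classical
  haveI := Fintype.ofFinite G
  haveI := Fintype.ofFinite (Sylow p G)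
  have hsub : S G p ⊆ ((Finset.univ : Finset (Sylow p G)).biUnion
      (fun Q => (Finset.univ.filter (fun x : G => x ∈ (Q : Subgroup G))).erase 1) : Finset G) := by
    rintro g ⟨hg1, Q, hQ⟩
    simp only [Finset.coe_biUnion, Finset.coe_univ, Set.mem_univ, Set.iUnion_true, Set.mem_iUnion,
      Finset.mem_coe, Finset.mem_erase, Finset.mem_filter, Finset.mem_univ, true_and]
    exact ⟨Q, hg1, hQ⟩
  refine (Set.ncard_le_ncard hsub (Finset.finite_toSet _)).trans ?_
  rw [Set.ncard_coe_finset]
  refine (Finset.card_biUnion_le_card_mul _ _ (c - 1) ?_).trans ?_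
  · intro Q _
    rw [Finset.card_erase_of_mem (by simp [one_mem])]
    have : (Finset.univ.filter (fun x : G => x ∈ (Q : Subgroup G))).card = c := by
      rw [← hP Q, Nat.card_eq_fintype_card, Fintype.card_subtype]
    rw [this]
  · rw [Finset.card_univ, Nat.card_eq_fintype_card]

theorem ar7 (n : ℕ) (h1 : n ∣ 24) (h2 : n % 7 = 1) (h3 : 7 ≤ n) : n = 8 := by
  have := Nat.le_of_dvd (by norm_num) h1
  obtain ⟨c, hc⟩ := h1
  interval_cases n <;> omega

theorem ar3 (n : ℕ) (h1 : n ∣ 56) (h2 : n % 3 = 1) (h3 : 7 ≤ n) : n = 7 ∨ n = 28 := by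
  have := Nat.le_of_dvd (by norm_num) h1
  obtain ⟨c, hc⟩ := h1
  interval_cases n <;> omega

theorem ar2 (n : ℕ) (h1 : n ∣ 21) (h3 : 7 ≤ n) : n = 7 ∨ n = 21 := by
  have := Nat.le_of_dvd (by norm_num) h1
  obtain ⟨c, hc⟩ := h1
  interval_cases n <;> omega

theorem ge7 (n : ℕ) (h : 168 ∣ n.factorial) : 7 ≤ n := by
  by_contra hlt
  push_neg at hlt
  have h720 : n.factorial ∣ Nat.factorial 6 := Nat.factorial_dvd_factorial (by omega)
  have : 168 ∣ Nat.factorial 6 := h.trans h720
  revert this
  decide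

theorem card_norm {G : Type*} [Group G] [Finite G] {p : ℕ} [Fact p.Prime] (P : Sylow p G) :
    Nat.card (Sylow p G) * Nat.card (normalizer ((P : Subgroup G) : Set G)) = Nat.card G := by
  rw [Sylow.card_eq_index_normalizer P]
  exact Subgroup.index_mul_card _

theorem card_idx {G : Type*} [Group G] [Finite G] {p : ℕ} [Fact p.Prime] (P : Sylow p G) :
    Nat.card (Sylow p G) ∣ (P : Subgroup G).index ∧
      Nat.card (P : Subgroup G) * (P : Subgroup G).index = Nat.card G :=
  ⟨Sylow.card_dvd_index P, Subgroup.card_mul_index _⟩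

/-- A simple group of order 168 has exactly 21 Sylow 2-subgroups, 28 Sylow 3-subgroups and 8 Sylow 7-subgroups. -/
theorem result {G : Type*} [Group G] [Finite G] [IsSimpleGroup G] (h : Nat.card G = 168) : Nat.card (Sylow 2 G) = 21 ∧ Nat.card (Sylow 3 G) = 28 ∧ Nat.card (Sylow 7 G) = 8 := by
  haveI : Fact (Nat.Prime 2) := ⟨by norm_num⟩
  haveI : Fact (Nat.Prime 3) := ⟨by norm_num⟩
  haveI : Fact (Nat.Prime 7) := ⟨by norm_num⟩
  have c7 : ∀ P : Sylow 7 G, Nat.card (P : Subgroup G) = 7 := fun P =>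
    syl_card_gen P 7 24 (by rw [h]) ⟨1, by norm_num⟩ (by norm_num)
  have c3 : ∀ P : Sylow 3 G, Nat.card (P : Subgroup G) = 3 := fun P =>
    syl_card_gen P 3 56 (by rw [h]) ⟨1, by norm_num⟩ (by norm_num)
  have c2 : ∀ P : Sylow 2 G, Nat.card (P : Subgroup G) = 8 := fun P =>
    syl_card_gen P 8 21 (by rw [h]) ⟨3, by norm_num⟩ (by norm_num)
  have b7 : ∀ P : Sylow 7 G, 1 < Nat.card (P : Subgroup G) ∧
      Nat.card (P : Subgroup G) < Nat.card G := fun P => by rw [c7 P, h]; omega
  have b3 : ∀ P : Sylow 3 G, 1 < Nat.card (P : Subgroup G) ∧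
      Nat.card (P : Subgroup G) < Nat.card G := fun P => by rw [c3 P, h]; omega
  have b2 : ∀ P : Sylow 2 G, 1 < Nat.card (P : Subgroup G) ∧
      Nat.card (P : Subgroup G) < Nat.card G := fun P => by rw [c2 P, h]; omega
  have f7 := ge7 _ (h ▸ fact_dvd b7)
  have f3 := ge7 _ (h ▸ fact_dvd b3)
  have f2 := ge7 _ (h ▸ fact_dvd b2)
  have n7 : Nat.card (Sylow 7 G) = 8 := by
    obtain ⟨P⟩ : Nonempty (Sylow 7 G) := inferInstance
    have h1 : Nat.card (Sylow 7 G) % 7 = 1 := card_sylow_modEq_one 7 G
    obtain ⟨h2, h3⟩ := card_idx P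
    rw [c7 P, h] at h3
    have h4 : (P : Subgroup G).index = 24 := by omega
    rw [h4] at h2
    exact ar7 _ h2 h1 f7
  have n3 : Nat.card (Sylow 3 G) = 7 ∨ Nat.card (Sylow 3 G) = 28 := by
    obtain ⟨P⟩ : Nonempty (Sylow 3 G) := inferInstance
    have h1 : Nat.card (Sylow 3 G) % 3 = 1 := card_sylow_modEq_one 3 G
    obtain ⟨h2, h3⟩ := card_idx P
    rw [c3 P, h] at h3
    have h4 : (P : Subgroup G).index = 56 := by omega
    rw [h4] at h2
    exact ar3 _ h2 h1 f3
  have n2 : Nat.card (Sylow 2 G) = 7 ∨ Nat.card (Sylow 2 G) = 21 := by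
    obtain ⟨P⟩ : Nonempty (Sylow 2 G) := inferInstance
    obtain ⟨h2, h3⟩ := card_idx P
    rw [c2 P, h] at h3
    have h4 : (P : Subgroup G).index = 21 := by omega
    rw [h4] at h2
    exact ar2 _ h2 f2
  -- normalizers and centralizers of Sylow 7-subgroups
  have N7 : ∀ P : Sylow 7 G, Nat.card (normalizer ((P : Subgroup G) : Set G)) = 7 * 3 := by
    intro P
    have := card_norm P
    rw [n7, h] at this
    omega
  have C7 : ∀ P : Sylow 7 G, centralizer ((P : Subgroup G) : Set G) = (P : Subgroup G) :=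
    fun P => cent_eq P (c7 P) (by rw [h]; norm_num) 3 (by norm_num) (N7 P)
  have o7 : ∀ g : G, 7 ∣ orderOf g → orderOf g = 7 := ord_of_dvd c7 C7
  have s7 : (S G 7).ncard ≤ 48 := by
    have := cnt 7 c7
    rw [n7] at this
    exact this
  -- exclude n_3 = 7
  have n3' : Nat.card (Sylow 3 G) = 28 := by
    rcases n3 with h7 | h28
    · exfalso
      have s3 : (S G 3).ncard ≤ 14 := by
        have := cnt 3 c3
        rw [h7] at this
        exact this
      have key : ∀ P : Sylow 7 G,
          ((normalizer ((P : Subgroup G) : Set G) : Set G) \ ((P : Subgroup G) : Set G)) = S G 3 := by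
        intro P
        have hsub : ((normalizer ((P : Subgroup G) : Set G) : Set G) \ ((P : Subgroup G) : Set G))
            ⊆ S G 3 := by
          rintro g ⟨hgN, hgP⟩
          have hg1 : g ≠ 1 := by
            rintro rfl
            exact hgP (one_mem _)
          have h21 : g ^ 21 = 1 := by
            have h1 : (⟨g, hgN⟩ : normalizer ((P : Subgroup G) : Set G)) ^
                Nat.card (normalizer ((P : Subgroup G) : Set G)) = 1 := pow_card_eq_one'
            rw [N7 P] at h1
            simpa using congrArg Subtype.val h1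
          have hd21 : orderOf g ∣ 21 := orderOf_dvd_of_pow_eq_one h21
          have hn7 : ¬ 7 ∣ orderOf g := by
            intro h7d
            have ho := o7 g h7d
            apply hgP
            apply mem_of_norm P g hgN
            exact IsPGroup.of_card (n := 1) (by rw [Nat.card_zpowers, ho, pow_one])
          have ho3 : orderOf g = 3 := by
            have hle : orderOf g ≤ 21 := Nat.le_of_dvd (by norm_num) hd21
            have hne1 : orderOf g ≠ 1 := fun h1 => hg1 (orderOf_eq_one_iff.mp h1)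
            obtain ⟨c, hc⟩ := hd21
            have hn7' : ∀ d, orderOf g ≠ 7 * d := fun d hd => hn7 ⟨d, hd⟩
            have ha := hn7' 1
            have hb := hn7' 3
            interval_cases (orderOf g) <;> omega
          exact mem_S g hg1 1 (by rw [ho3, pow_one])
        apply Set.eq_of_subset_of_ncard_le hsub _ (Set.toFinite _)
        have hPN : ((P : Subgroup G) : Set G) ⊆
            (normalizer ((P : Subgroup G) : Set G) : Set G) := fun x hx =>
          Subgroup.le_normalizer hx
        have h1 := Set.ncard_sdiff_add_ncard_of_subset hPN (Set.toFinite _)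
        have h2 : ((P : Subgroup G) : Set G).ncard = 7 :=
          (Nat.card_coe_set_eq _).symm.trans (c7 P)
        have h3 : (normalizer ((P : Subgroup G) : Set G) : Set G).ncard = 21 :=
          (Nat.card_coe_set_eq _).symm.trans (N7 P)
        omega
      obtain ⟨P₀⟩ : Nonempty (Sylow 7 G) := inferInstance
      have hne : (S G 3).Nonempty := by
        apply Set.nonempty_of_ncard_ne_zero
        have hPN : ((P₀ : Subgroup G) : Set G) ⊆
            (normalizer ((P₀ : Subgroup G) : Set G) : Set G) := fun x hx =>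
          Subgroup.le_normalizer hx
        have h1 := Set.ncard_sdiff_add_ncard_of_subset hPN (Set.toFinite _)
        have h2 : ((P₀ : Subgroup G) : Set G).ncard = 7 :=
          (Nat.card_coe_set_eq _).symm.trans (c7 P₀)
        have h3 : (normalizer ((P₀ : Subgroup G) : Set G) : Set G).ncard = 21 :=
          (Nat.card_coe_set_eq _).symm.trans (N7 P₀)
        rw [key P₀] at h1
        omega
      obtain ⟨g, hg⟩ := hne
      obtain ⟨P, hP⟩ := ker_triv b7 g hg.1
      rw [← key P] at hg
      exact hP hg.1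
    · exact h28
  have N3 : ∀ P : Sylow 3 G, Nat.card (normalizer ((P : Subgroup G) : Set G)) = 3 * 2 := by
    intro P
    have := card_norm P
    rw [n3', h] at this
    omega
  have C3 : ∀ P : Sylow 3 G, centralizer ((P : Subgroup G) : Set G) = (P : Subgroup G) :=
    fun P => cent_eq P (c3 P) (by rw [h]; norm_num) 2 (by norm_num) (N3 P)
  have o3 : ∀ g : G, 3 ∣ orderOf g → orderOf g = 3 := ord_of_dvd c3 C3
  have s3 : (S G 3).ncard ≤ 56 := by
    have := cnt 3 c3
    rw [n3'] at this
    exact this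
  refine ⟨?_, n3', n7⟩
  rcases n2 with h7 | h21
  · exfalso
    have s2 : (S G 2).ncard ≤ 49 := by
      have := cnt 8 c2
      rw [h7] at this
      exact this
    have hcover : (Set.univ : Set G) ⊆ (({1} ∪ S G 7) ∪ S G 3) ∪ S G 2 := by
      intro g _
      by_cases hg1 : g = 1
      · left; left; left; exact hg1
      · by_cases h7d : 7 ∣ orderOf g
        · left; left; right
          exact mem_S g hg1 1 (by rw [o7 g h7d, pow_one])
        · by_cases h3d : 3 ∣ orderOf g
          · left; right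
            exact mem_S g hg1 1 (by rw [o3 g h3d, pow_one])
          · right
            have hd : orderOf g ∣ 168 := h ▸ orderOf_dvd_natCard g
            have hc7 : Nat.Coprime (orderOf g) 7 :=
              (Nat.Coprime.symm ((Nat.Prime.coprime_iff_not_dvd (by norm_num)).mpr h7d))
            have hc3 : Nat.Coprime (orderOf g) 3 :=
              (Nat.Coprime.symm ((Nat.Prime.coprime_iff_not_dvd (by norm_num)).mpr h3d))
            have hc21 : Nat.Coprime (orderOf g) 21 := Nat.Coprime.mul_right hc7 hc3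
            have hd8 : orderOf g ∣ 2 ^ 3 :=
              hc21.dvd_of_dvd_mul_right (by simpa using hd)
            obtain ⟨k, -, hk⟩ := (Nat.dvd_prime_pow Nat.prime_two).mp hd8
            exact mem_S g hg1 k hk
    have h1 := Set.ncard_le_ncard hcover (Set.toFinite _)
    rw [Set.ncard_univ, h] at h1
    have h2 := Set.ncard_union_le (({1} ∪ S G 7) ∪ S G 3) (S G 2)
    have h3 := Set.ncard_union_le ({1} ∪ S G 7) (S G 3)
    have h4 := Set.ncard_union_le ({1} : Set G) (S G 7)
    have h5 : ({1} : Set G).ncard = 1 := Set.ncard_singleton 1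
    omega
  · exact h21

end Cfsg.Agent.S1003
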