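import Cfsg.Statements.S1004
import Mathlib
import Cfsg.Agent.Lib.Helper6.G168
import Cfsg.Agent.Lib.Helper1.Dih

set_option autoImplicit false
open Cfsg

namespace Cfsg.Agent.S1004

open Subgroup Cfsg.Agent.S1003 Cfsg.Agent.Lib.Helper6.G168

theorem ne1 {H : Type*} [Group H] {x : H} {n : ℕ} (hx : orderOf x = n) (hn : 2 ≤ n) : x ≠ 1 := by
  rintro rfl
  rw [orderOf_one] at hx
  omega

theorem oconj {H : Type*} [Group H] (c x : H) : orderOf (c * x * c⁻¹) = orderOf x := by
  have := (MulAut.conj c).orderOf_eq x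
  rwa [MulAut.conj_apply] at this

theorem zp4 {H : Type*} [Group H] (a w : H) (ha : orderOf a = 4) (hw : w ∈ zpowers a) :
    w = 1 ∨ w = a ∨ w = a ^ 2 ∨ w = a⁻¹ := by
  obtain ⟨k, hk⟩ := Subgroup.mem_zpowers_iff.mp hw
  have h4 : a ^ (4 : ℤ) = 1 := by
    have := pow_orderOf_eq_one a
    rw [ha] at this
    exact_mod_cast this
  have hk' : a ^ k = a ^ (k % 4) := by
    conv_lhs => rw [← Int.emod_add_mul_ediv k 4]
    rw [zpow_add, zpow_mul, h4, one_zpow, mul_one]
  have h0 : 0 ≤ k % 4 := Int.emod_nonneg k (by norm_num)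
  have h4' : k % 4 < 4 := Int.emod_lt_of_pos k (by norm_num)
  rw [hk'] at hk
  interval_cases hr : k % 4
  · left; rw [← hk]; simp
  · right; left; rw [← hk]; simp
  · right; right; left; rw [← hk]; exact_mod_cast (zpow_natCast a 2)
  · right; right; right; rw [← hk]
    have : a ^ (3 : ℤ) * a = 1 := by
      have e : a ^ (3 : ℤ) * a = a ^ (4 : ℤ) := by
        rw [show (4 : ℤ) = 3 + 1 from rfl, zpow_add_one]
      rw [e, h4]
    exact eq_inv_of_mul_eq_one_left this

theorem D8 {H : Type*} [Group H] [Finite H] (hH : Nat.card H = 8) (a b : H)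
    (ha : orderOf a = 4) (hb : orderOf b = 2) (hba : b ≠ a ^ 2)
    (hnc : ¬ (∀ x y : H, x * y = y * x)) : Nonempty (H ≃* DihedralGroup 4) := by
  have hA4 : Nat.card (zpowers a) = 4 := by rw [Nat.card_zpowers, ha]
  have hidx : (zpowers a).index = 2 := by
    have := Subgroup.card_mul_index (zpowers a)
    rw [hA4, hH] at this
    omega
  have hN : (zpowers a).Normal := Subgroup.normal_of_index_eq_two hidx
  have ha1 : a ≠ 1 := ne1 ha (by norm_num)
  have hb1 : b ≠ 1 := ne1 hb (by norm_num)
  have hbb : b * b = 1 := by rw [← pow_two, ← hb]; exact pow_orderOf_eq_one b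
  have hbinv : b⁻¹ = b := inv_eq_of_mul_eq_one_right hbb
  have ha2 : orderOf (a ^ 2) = 2 := by
    rw [orderOf_pow_of_dvd (by norm_num) (by rw [ha]; norm_num), ha]
  have hbA : b ∉ zpowers a := by
    intro hbA
    rcases zp4 a b ha hbA with h1 | h1 | h1 | h1
    · exact hb1 h1
    · rw [h1, ha] at hb; omega
    · exact hba h1
    · rw [h1, orderOf_inv, ha] at hb; omega
  have hc : b * a * b⁻¹ ∈ zpowers a := hN.conj_mem a (Subgroup.mem_zpowers a) b
  have hco : orderOf (b * a * b⁻¹) = 4 := by rw [oconj]; exact ha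
  have hinv : b * a * b⁻¹ = a⁻¹ := by
    rcases zp4 a _ ha hc with h1 | h1 | h1 | h1
    · rw [h1, orderOf_one] at hco; omega
    · exfalso
      apply hnc
      have hab : Commute b a := by
        show b * a = a * b
        calc b * a = (b * a * b⁻¹) * b := by group
          _ = a * b := by rw [h1]
      have hform : ∀ x : H, ∃ i : ℤ, x = a ^ i ∨ x = b * a ^ i := by
        intro x
        by_cases hx : x ∈ zpowers a
        · obtain ⟨i, hi⟩ := Subgroup.mem_zpowers_iff.mp hx
          exact ⟨i, Or.inl hi.symm⟩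
        · have h2 : b⁻¹ * x ∈ zpowers a := by
            rw [Subgroup.mul_mem_iff_of_index_two hidx]
            constructor
            · intro hh; exact absurd ((Subgroup.inv_mem_iff _).mp hh) hbA
            · intro hh; exact absurd hh hx
          obtain ⟨i, hi⟩ := Subgroup.mem_zpowers_iff.mp h2
          refine ⟨i, Or.inr ?_⟩
          rw [hi]; group
      intro x y
      obtain ⟨i, hx | hx⟩ := hform x <;> obtain ⟨j, hy | hy⟩ := hform y <;> rw [hx, hy]
      · exact ((Commute.refl a).zpow_zpow i j).eq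
      · exact ((hab.symm.zpow_left i).mul_right ((Commute.refl a).zpow_zpow i j)).eq
      · exact (((hab.zpow_right j)).mul_left ((Commute.refl a).zpow_zpow i j)).eq
      · exact (((Commute.refl b).mul_right (hab.zpow_right j)).mul_left
          ((hab.symm.zpow_left i).mul_right ((Commute.refl a).zpow_zpow i j))).eq
    · rw [h1, ha2] at hco; omega
    · exact h1
  -- the two involutions
  have hx2 : (a * b) ^ 2 = 1 := by
    rw [pow_two]
    calc a * b * (a * b) = a * (b * a * b⁻¹) * (b * b) := by group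
      _ = 1 := by rw [hinv, hbb]; group
  have hx1 : a * b ≠ 1 := by
    intro hh
    have : a = b⁻¹ := eq_inv_of_mul_eq_one_left hh
    rw [this, orderOf_inv, hb] at ha
    omega
  have hx : orderOf (a * b) = 2 := orderOf_eq_prime hx2 hx1
  have hxy : a * b * b = a := by rw [mul_assoc, hbb, mul_one]
  have e := Cfsg.Agent.Lib.Helper1.dihedral_closure (a * b) b hx hb (by rw [hxy, ha]; norm_num)
  rw [hxy, ha] at e
  obtain ⟨e⟩ := e
  have hcard : Nat.card (closure ({a * b, b} : Set H)) = Nat.card H := by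
    rw [Nat.card_congr e.toEquiv, DihedralGroup.nat_card, hH]
  have htop : closure ({a * b, b} : Set H) = ⊤ := (Subgroup.card_eq_iff_eq_top _).mp hcard
  exact ⟨(Subgroup.topEquiv.symm.trans (MulEquiv.subgroupCongr htop.symm)).trans e⟩

theorem exists_four {G : Type*} [Group G] [Finite G] [IsSimpleGroup G] (h : Nat.card G = 168)
    (T : Sylow 2 G) : ∃ a ∈ (T : Subgroup G), orderOf a = 4 := by
  by_contra hno
  push_neg at hno
  apply nonab h T
  have hexp : ∀ a ∈ (T : Subgroup G), a * a = 1 := by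
    intro a ha
    rcases ord_T h T a ha with h1 | h1 | h1
    · rw [orderOf_eq_one_iff.mp h1, one_mul]
    · rw [← pow_two, ← h1]; exact pow_orderOf_eq_one a
    · exact absurd h1 (hno a ha)
  intro a ha b hb
  have h1 := hexp a ha
  have h2 := hexp b hb
  have h3 := hexp (a * b) (Subgroup.mul_mem _ ha hb)
  have ha' : a⁻¹ = a := inv_eq_of_mul_eq_one_right h1
  have hb' : b⁻¹ = b := inv_eq_of_mul_eq_one_right h2
  have hab' : (a * b)⁻¹ = a * b := inv_eq_of_mul_eq_one_right h3
  rw [mul_inv_rev, ha', hb'] at hab'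
  exact hab'.symm

theorem exists_inv_ne {G : Type*} [Group G] [Finite G] [IsSimpleGroup G] (h : Nat.card G = 168)
    (T : Sylow 2 G) (z₀ : G) : ∃ b ∈ (T : Subgroup G), orderOf b = 2 ∧ b ≠ z₀ := by
  by_contra hno
  push_neg at hno
  -- every Sylow 2-subgroup has at most one involution
  have huniq : ∀ Q : Sylow 2 G, ∀ b ∈ (Q : Subgroup G), ∀ b' ∈ (Q : Subgroup G),
      orderOf b = 2 → orderOf b' = 2 → b = b' := by
    intro Q b hb b' hb' ho ho'
    obtain ⟨g, hg⟩ := MulAction.exists_smul_eq G T Q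
    have hmem : ∀ w : G, w ∈ (Q : Subgroup G) ↔ g⁻¹ * w * g ∈ (T : Subgroup G) := by
      intro w; rw [← hg]; exact Cfsg.Agent.Lib.Helper6.SylowConj.mem_smul_sylow T g w
    have key : ∀ w : G, w ∈ (Q : Subgroup G) → orderOf w = 2 → w = g * z₀ * g⁻¹ := by
      intro w hw how
      have h1 := hno (g⁻¹ * w * g) ((hmem w).mp hw) (by
        have := orderOf_conj g⁻¹ w
        rw [inv_inv] at this
        rw [this]; exact how)
      rw [← h1]; group
    rw [key b hb ho, key b' hb' ho']
  have hTI : ∀ Q Q' : Sylow 2 G, ∀ g : G, g ≠ 1 → g ∈ (Q : Subgroup G) →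
      g ∈ (Q' : Subgroup G) → Q = Q' := by
    intro Q Q' g hg1 hgQ hgQ'
    -- an involution in both
    obtain ⟨i, hiQ, hiQ', hi2⟩ : ∃ i : G, i ∈ (Q : Subgroup G) ∧ i ∈ (Q' : Subgroup G) ∧
        orderOf i = 2 := by
      rcases ord_T h Q g hgQ with h1 | h1 | h1
      · exact absurd (orderOf_eq_one_iff.mp h1) hg1
      · exact ⟨g, hgQ, hgQ', h1⟩
      · refine ⟨g ^ 2, Subgroup.pow_mem _ hgQ 2, Subgroup.pow_mem _ hgQ' 2, ?_⟩
        rw [orderOf_pow_of_dvd (by norm_num) (by rw [h1]; norm_num), h1]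
    obtain ⟨z, hzQ, hz2, hzC⟩ := exists_cen h Q
    obtain ⟨z', hzQ', hz2', hzC'⟩ := exists_cen h Q'
    have e1 : i = z := huniq Q i hiQ z hzQ hi2 hz2
    have e2 : i = z' := huniq Q' i hiQ' z' hzQ' hi2 hz2'
    apply Sylow.ext
    rw [← hzC, ← hzC', ← e1, ← e2]
  have hcnt := exact_cnt 8 (c2 h) hTI
  rw [(Cfsg.Agent.S1003.result h).1] at hcnt
  have hsub : S G 2 ⊆ {g : G | orderOf g = 2} ∪ {g : G | orderOf g = 4} := by
    rintro g ⟨hg1, Q, hgQ⟩
    rcases ord_T h Q g hgQ with h1 | h1 | h1
    · exact absurd (orderOf_eq_one_iff.mp h1) hg1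
    · left; exact h1
    · right; exact h1
  have h1 := Set.ncard_le_ncard hsub (Set.toFinite _)
  have h2 := Set.ncard_union_le {g : G | orderOf g = 2} {g : G | orderOf g = 4}
  have e2 : ({g : G | orderOf g = 2}).ncard = 21 :=
    (Nat.card_coe_set_eq _).symm.trans (inv_count h)
  have e4 : ({g : G | orderOf g = 4}).ncard = 42 :=
    (Nat.card_coe_set_eq _).symm.trans (four_count h)
  omega

/-- Let G be a simple group of order 168 and T a Sylow 2-subgroup. Then T is dihedral of order 8, T is its own normalizer, and T is the centralizer of any non-identity element of T that commutes with every element of T. -/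
theorem result {G : Type*} [Group G] [Finite G] [IsSimpleGroup G] (h : Nat.card G = 168) (T : Sylow 2 G) : Nonempty (↥(T : Subgroup G) ≃* DihedralGroup 4) ∧ Subgroup.normalizer ((T : Subgroup G) : Set G) = T ∧ ∀ z : G, z ∈ (T : Subgroup G) → z ≠ 1 → (∀ t ∈ (T : Subgroup G), t * z = z * t) → Subgroup.centralizer ({z} : Set G) = T := by
  refine ⟨?_, N2 h T, ?_⟩
  · obtain ⟨a, haT, ha4⟩ := exists_four h T
    obtain ⟨b, hbT, hb2, hba⟩ := exists_inv_ne h T (a ^ 2)
    apply D8 (c2 h T) ⟨a, haT⟩ ⟨b, hbT⟩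
    · rw [Subgroup.orderOf_mk]; exact ha4
    · rw [Subgroup.orderOf_mk]; exact hb2
    · intro hh
      apply hba
      simpa using congrArg Subtype.val hh
    · intro hcomm
      apply nonab h T
      intro x hx y hy
      exact congrArg Subtype.val (hcomm ⟨x, hx⟩ ⟨y, hy⟩)
  · intro z hzT hz1 hzc
    have ho : orderOf z = 2 ∨ orderOf z = 4 := by
      rcases ord_T h T z hzT with h1 | h1 | h1
      · exact absurd (orderOf_eq_one_iff.mp h1) hz1
      · left; exact h1
      · right; exact h1
    exact cent_of_central h T z ho hzc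

end Cfsg.Agent.S1004
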