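import Mathlib
import Cfsg.Statements.S0138
import Cfsg.Agent.Lib.Helper3.CharEig

set_option autoImplicit false
open Cfsg
open scoped ComplexConjugate
open Cfsg.Agent.Lib.Helper3.Char Cfsg.Agent.Lib.Helper3.CharEig

namespace Cfsg.Agent.S0138

theorem result {G : Type*} [Group G] [Finite G] {V : Type*} [AddCommGroup V] [Module ℂ V] [FiniteDimensional ℂ V] (ρ : Representation ℂ G V) (g : G) : ‖ρ.character g‖ = (Module.finrank ℂ V : ℝ) ↔ ∃ ω : ℂ, ρ g = ω • (LinearMap.id : V →ₗ[ℂ] V) := by
  constructor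
  · exact scalar_of_norm_eq ρ g
  · rintro ⟨ω, hω⟩
    have hchar : ρ.character g = ω * (Module.finrank ℂ V : ℂ) := by
      change LinearMap.trace ℂ V (ρ g) = _
      rw [hω, map_smul, LinearMap.trace_id, smul_eq_mul]
    by_cases hn : Module.finrank ℂ V = 0
    · rw [hchar, hn]
      simp
    · have hn' : (Module.finrank ℂ V : ℂ) ≠ 0 := by exact_mod_cast hn
      have hf : (ρ g) ^ (orderOf g) = 1 := by rw [← map_pow, pow_orderOf_eq_one, map_one]
      rw [hω, smul_pow] at hf
      have h1 : (LinearMap.id : V →ₗ[ℂ] V) ^ orderOf g = LinearMap.id := one_pow _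
      rw [h1] at hf
      have h2 := congrArg (LinearMap.trace ℂ V) hf
      rw [map_smul, LinearMap.trace_id, smul_eq_mul] at h2
      have h3 : LinearMap.trace ℂ V (1 : V →ₗ[ℂ] V) = (Module.finrank ℂ V : ℂ) :=
        LinearMap.trace_one ℂ V
      rw [h3] at h2
      have h4 : ω ^ orderOf g = 1 := by
        have := mul_right_cancel₀ hn' (h2.trans (one_mul _).symm)
        exact this
      have h5 : ‖ω‖ = 1 := Complex.norm_eq_one_of_pow_eq_one h4 (orderOf_pos g).ne'
      rw [hchar, norm_mul, h5, one_mul, Complex.norm_natCast]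

end Cfsg.Agent.S0138
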