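import Mathlib
import Cfsg.Statements.S0043

set_option autoImplicit false
open Cfsg

namespace Cfsg.Agent.S0043

/-- A minimal normal subgroup of a finite solvable group is abelian, and for some prime p all of its elements have order dividing p. -/
theorem result {G : Type*} [Group G] [Finite G] [Group.IsSolvable G]
    (N : Subgroup G) [N.Normal] (hN : N ≠ ⊥) (hmin : ∀ M : Subgroup G, M.Normal → M ≤ N → M = ⊥ ∨ M = N) :
    IsMulCommutative N ∧ ∃ p : ℕ, p.Prime ∧ ∀ x ∈ N, x ^ p = 1 := by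
  have hlt : ⁅N, N⁆ < N := Group.IsSolvable.commutator_lt_of_ne_bot hN
  have hnorm : (⁅N, N⁆ : Subgroup G).Normal := inferInstance
  have hbot : ⁅N, N⁆ = ⊥ := by
    rcases hmin _ hnorm hlt.le with h | h
    · exact h
    · exact absurd h hlt.ne
  rw [Subgroup.commutator_eq_bot_iff_le_centralizer] at hbot
  have hcomm : ∀ a ∈ N, ∀ b ∈ N, a * b = b * a := by
    intro a ha b hb
    exact (Subgroup.mem_centralizer_iff.mp (hbot ha) b hb).symm
  refine ⟨⟨⟨fun a b => Subtype.ext (hcomm a a.2 b b.2)⟩⟩, ?_⟩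
  have hcard : Nat.card N ≠ 1 := fun h => hN (Subgroup.card_eq_one.mp h)
  obtain ⟨p, hp, hpd⟩ := Nat.exists_prime_and_dvd hcard
  refine ⟨p, hp, ?_⟩
  have : Fact p.Prime := ⟨hp⟩
  obtain ⟨M, hM⟩ : ∃ M : Subgroup G, ∀ x, x ∈ M ↔ x ∈ N ∧ x ^ p = 1 := by
    refine ⟨{ carrier := {x | x ∈ N ∧ x ^ p = 1}
              mul_mem' := ?_
              one_mem' := ⟨N.one_mem, one_pow p⟩
              inv_mem' := ?_ }, fun x => Iff.rfl⟩
    · rintro a b ⟨ha, hap⟩ ⟨hb, hbp⟩
      refine ⟨N.mul_mem ha hb, ?_⟩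
      have hc : Commute a b := hcomm a ha b hb
      rw [hc.mul_pow, hap, hbp, one_mul]
    · rintro a ⟨ha, hap⟩
      exact ⟨N.inv_mem ha, by rw [inv_pow, hap, inv_one]⟩
  have hMn : M.Normal := by
    constructor
    intro n hn g
    rw [hM] at hn ⊢
    refine ⟨‹N.Normal›.conj_mem n hn.1 g, ?_⟩
    rw [conj_pow, hn.2]
    group
  have hMle : M ≤ N := fun x hx => ((hM x).mp hx).1
  obtain ⟨x, hx⟩ := exists_prime_orderOf_dvd_card' (G := N) p hpd
  have hMne : M ≠ ⊥ := by
    intro h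
    have hxM : (x : G) ∈ M := by
      rw [hM]
      refine ⟨x.2, ?_⟩
      have h1 : x ^ p = 1 := by rw [← hx]; exact pow_orderOf_eq_one x
      have h2 := congrArg Subtype.val h1
      simpa using h2
    rw [h, Subgroup.mem_bot] at hxM
    have hx1 : x = 1 := Subtype.ext hxM
    rw [hx1, orderOf_one] at hx
    exact hp.one_lt.ne hx
  rcases hmin M hMn hMle with h | h
  · exact absurd h hMne
  · intro y hy
    rw [← h] at hy
    exact ((hM y).mp hy).2

end Cfsg.Agent.S0043
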