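import Mathlib
import Cfsg.Statements.S0666
import Cfsg.Agent.S0035

set_option autoImplicit false
open Pointwise
open Cfsg
open scoped IsMulCommutative

namespace Cfsg.Agent.S0666

theorem result {G : Type*} [Group G] [Finite G] (V F : Subgroup G) (hVab : IsMulCommutative V) (hV1 : V ≠ ⊥) (hFV : F ≤ Subgroup.normalizer (V : Set G)) (H : Subgroup ↥F) (hH : Cfsg.IsFrobeniusComplement H) (hcop : (Nat.card V).Coprime (Nat.card (Cfsg.frobeniusKernel H))) (hCK : V ⊓ Subgroup.centralizer (Subtype.val '' Cfsg.frobeniusKernel H : Set G) = ⊥) : V ⊓ Subgroup.centralizer ((H.map F.subtype : Subgroup G) : Set G) ≠ ⊥ := by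
  classical
  intro hcon
  haveI := hVab
  obtain ⟨K, hKset, hKn, hKc⟩ := Cfsg.Agent.S0035.result H hH
  haveI := hKn
  letI : Fintype ↥F := Fintype.ofFinite _
  letI : Fintype ↥K := Fintype.ofFinite _
  letI : Fintype ↥H := Fintype.ofFinite _
  -- the action
  let α : ↥F →* MulAut ↥V := (V.normalizerMonoidHom).comp (Subgroup.inclusion hFV)
  have hα : ∀ (f : ↥F) (w : ↥V), ((α f w : ↥V) : G) = (f : G) * (w : G) * (f : G)⁻¹ := by
    intro f w
    rfl
  -- Lemma A
  have lemA : ∀ (X : Subgroup ↥F) [Fintype ↥X] (w : ↥V) (y : ↥F), y ∈ X →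
      α y (∏ x : X, α (x : ↥F) w) = ∏ x : X, α (x : ↥F) w := by
    intro X _ w y hy
    rw [map_prod]
    have h3 : ∀ x : X, α y (α (x : ↥F) w) = α (((⟨y, hy⟩ : X) * x : X) : ↥F) w := by
      intro x
      rw [Subgroup.coe_mul, map_mul]
      rfl
    simp_rw [h3]
    exact Fintype.prod_equiv (Equiv.mulLeft (⟨y, hy⟩ : X)) _ _ (fun k => rfl)
  -- Lemma B
  have lemB : ∀ w : ↥V, ∏ x : K, α (x : ↥F) w = 1 := by
    intro w
    have h1 : ((∏ x : K, α (x : ↥F) w : ↥V) : G) ∈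
        V ⊓ Subgroup.centralizer (Subtype.val '' Cfsg.frobeniusKernel H : Set G) := by
      refine Subgroup.mem_inf.2 ⟨(∏ x : K, α (x : ↥F) w : ↥V).2, ?_⟩
      rw [Subgroup.mem_centralizer_iff]
      rintro _ ⟨k, hk, rfl⟩
      have hkK : k ∈ K := by
        have : k ∈ (K : Set ↥F) := by rw [hKset]; exact hk
        exact this
      have h2 := congrArg (fun z : ↥V => (z : G)) (lemA K w k hkK)
      simp only [hα] at h2
      calc (k : G) * ((∏ x : K, α (x : ↥F) w : ↥V) : G)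
          = ((k : G) * ((∏ x : K, α (x : ↥F) w : ↥V) : G) * (k : G)⁻¹) * (k : G) := by group
        _ = ((∏ x : K, α (x : ↥F) w : ↥V) : G) * (k : G) := by rw [h2]
    rw [hCK, Subgroup.mem_bot] at h1
    exact Subtype.ext h1
  -- Lemma C
  have lemC : ∀ w : ↥V, ∏ x : H, α (x : ↥F) w = 1 := by
    intro w
    have h1 : ((∏ x : H, α (x : ↥F) w : ↥V) : G) ∈
        V ⊓ Subgroup.centralizer ((H.map F.subtype : Subgroup G) : Set G) := by
      refine Subgroup.mem_inf.2 ⟨(∏ x : H, α (x : ↥F) w : ↥V).2, ?_⟩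
      rw [Subgroup.mem_centralizer_iff]
      rintro _ ⟨h, hh, rfl⟩
      have h2 := congrArg (fun z : ↥V => (z : G)) (lemA H w h hh)
      simp only [hα] at h2
      rw [Subgroup.coe_subtype]
      calc (h : G) * ((∏ x : H, α (x : ↥F) w : ↥V) : G)
          = ((h : G) * ((∏ x : H, α (x : ↥F) w : ↥V) : G) * (h : G)⁻¹) * (h : G) := by group
        _ = ((∏ x : H, α (x : ↥F) w : ↥V) : G) * (h : G) := by rw [h2]
    rw [hcon, Subgroup.mem_bot] at h1
    exact Subtype.ext h1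
  -- choose v ≠ 1
  obtain ⟨v, hv1⟩ := (Subgroup.ne_bot_iff_exists_ne_one).1 hV1
  -- (i) total product is 1
  have hi : ∏ f : ↥F, α f v = 1 := by
    rw [← Equiv.prod_comp (Equiv.ofBijective _ hKc) (fun f => α f v), Fintype.prod_prod_type,
      Finset.prod_comm]
    apply Finset.prod_eq_one
    intro h _
    have : ∀ k : K, α ((Equiv.ofBijective _ hKc) (k, h)) v = α (k : ↥F) (α (h : ↥F) v) := by
      intro k
      show α ((k : ↥F) * (h : ↥F)) v = _
      rw [map_mul]; rfl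
    simp_rw [this]
    exact lemB _
  -- H ⊓ K = ⊥
  have hHK : ∀ x : ↥F, x ∈ H → x ∈ K → x = 1 := by
    intro x hxH hxK
    have : x ∈ K ⊓ H := ⟨hxK, hxH⟩
    rw [hKc.disjoint.eq_bot] at this
    exact Subgroup.mem_bot.1 this
  -- the map φ
  let φ : K × {h : H // h ≠ 1} → ↥F := fun p => (p.1 : ↥F) * ((p.2 : H) : ↥F) * (p.1 : ↥F)⁻¹
  have hφinj : Function.Injective φ := by
    rintro ⟨k, h, hh⟩ ⟨k', h', hh'⟩ e
    simp only [φ] at e
    have hy : (k : ↥F)⁻¹ * (k' : ↥F) ∈ K := K.mul_mem (K.inv_mem k.2) k'.2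
    have h1 : (h : ↥F) = ((k : ↥F)⁻¹ * (k' : ↥F)) * (h' : ↥F) * ((k : ↥F)⁻¹ * (k' : ↥F))⁻¹ := by
      have : (h : ↥F) = (k : ↥F)⁻¹ * ((k : ↥F) * (h : ↥F) * (k : ↥F)⁻¹) * (k : ↥F) := by group
      rw [this, e]; group
    have hyH : (k : ↥F)⁻¹ * (k' : ↥F) ∈ H := by
      by_contra hnot
      have h2 := hH.2.2 _ hnot
      have h3 : (h : ↥F) ∈ H ⊓ MulAut.conj ((k : ↥F)⁻¹ * (k' : ↥F)) • H := by
        refine ⟨h.2, ?_⟩
        rw [h1]
        exact Subgroup.smul_mem_pointwise_smul _ _ _ h'.2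
      rw [h2, Subgroup.mem_bot] at h3
      exact hh (Subtype.ext h3)
    have hkk : (k : ↥F)⁻¹ * (k' : ↥F) = 1 := hHK _ hyH hy
    have hkk' : k = k' := Subtype.ext (inv_mul_eq_one.1 hkk)
    subst hkk'
    have hhh : (h : ↥F) = (h' : ↥F) := by
      rw [h1, hkk]; simp
    have : h = h' := Subtype.ext hhh
    subst this
    rfl
  have himg : (Finset.univ.filter (fun f : ↥F => f ∉ K)) = Finset.univ.image φ := by
    ext f
    simp only [Finset.mem_filter, Finset.mem_univ, true_and, Finset.mem_image]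
    constructor
    · intro hf
      have hf' : f ∉ Cfsg.frobeniusKernel H := by
        rw [← hKset]; exact hf
      have hf1 : f ≠ 1 := fun e => hf' (Or.inl e)
      have hex : ∃ g : ↥F, f ∈ MulAut.conj g • H := by
        by_contra hne
        push Not at hne
        exact hf' (Or.inr hne)
      obtain ⟨g, hg⟩ := hex
      obtain ⟨⟨k, h₀⟩, hkh⟩ := hKc.2 g
      simp only at hkh
      rw [Subgroup.mem_pointwise_smul_iff_inv_smul_mem] at hg
      have hg' : g⁻¹ * f * g ∈ H := by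
        have : (MulAut.conj g)⁻¹ • f = g⁻¹ * f * g := by
          rw [← map_inv]; simp [MulAut.conj_apply]
        rwa [this] at hg
      have hkf : (k : ↥F)⁻¹ * f * (k : ↥F) ∈ H := by
        have : (k : ↥F)⁻¹ * f * (k : ↥F) = (h₀ : ↥F) * (g⁻¹ * f * g) * (h₀ : ↥F)⁻¹ := by
          rw [← hkh]; group
        rw [this]
        exact H.mul_mem (H.mul_mem h₀.2 hg') (H.inv_mem h₀.2)
      refine ⟨(k, ⟨⟨(k : ↥F)⁻¹ * f * (k : ↥F), hkf⟩, ?_⟩), ?_⟩
      · intro e
        apply hf1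
        have := congrArg Subtype.val e
        simp only [Subgroup.coe_one] at this
        calc f = (k : ↥F) * ((k : ↥F)⁻¹ * f * (k : ↥F)) * (k : ↥F)⁻¹ := by group
          _ = 1 := by rw [this]; group
      · simp only [φ]; group
    · rintro ⟨⟨k, h, hh⟩, rfl⟩ hmem
      simp only [φ] at hmem
      have : (h : ↥F) ∈ K := by
        have := hKn.conj_mem _ hmem (k : ↥F)⁻¹
        simpa [mul_assoc] using this
      exact hh (Subtype.ext (hHK _ h.2 this))
  -- (iii)
  have hiii : ∏ f ∈ Finset.univ.filter (fun f : ↥F => f ∉ K), α f v = (v⁻¹) ^ Fintype.card K := by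
    rw [himg, Finset.prod_image (fun x _ y _ e => hφinj e), Fintype.prod_prod_type]
    have : ∀ k : K, ∏ h : {h : H // h ≠ 1}, α (φ (k, h)) v = v⁻¹ := by
      intro k
      have h1 : ∏ h : H, α ((k : ↥F) * (h : ↥F) * (k : ↥F)⁻¹) v = 1 := by
        have h2 : ∀ h : H, α ((k : ↥F) * (h : ↥F) * (k : ↥F)⁻¹) v =
            α (k : ↥F) (α (h : ↥F) (α (k : ↥F)⁻¹ v)) := by
          intro h
          rw [map_mul, map_mul]; rfl
        simp_rw [h2]
        rw [← map_prod, lemC, map_one]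
      rw [Fintype.prod_eq_mul_prod_subtype_ne _ (1 : H)] at h1
      have h3 : α ((k : ↥F) * ((1 : H) : ↥F) * (k : ↥F)⁻¹) v = v := by
        simp
      rw [h3] at h1
      exact eq_inv_of_mul_eq_one_right h1
    simp_rw [this]
    rw [Finset.prod_const, Finset.card_univ]
  -- (ii)
  have hii : ∏ f : ↥F, α f v = (∏ f ∈ Finset.univ.filter (fun f : ↥F => f ∈ K), α f v) *
      ∏ f ∈ Finset.univ.filter (fun f : ↥F => f ∉ K), α f v :=
    (Finset.prod_filter_mul_prod_filter_not _ _ _).symm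
  have hK1 : ∏ f ∈ Finset.univ.filter (fun f : ↥F => f ∈ K), α f v = 1 := by
    rw [Finset.prod_subtype (Finset.univ.filter (fun f : ↥F => f ∈ K)) (p := fun f => f ∈ K)
      (by simp) (fun f => α f v)]
    exact lemB v
  rw [hi, hK1, hiii, one_mul] at hii
  have hpow : v ^ Fintype.card K = 1 := by
    rw [inv_pow] at hii
    exact inv_eq_one.1 hii.symm
  have hcard : Fintype.card K = Nat.card (Cfsg.frobeniusKernel H) := by
    rw [← Nat.card_eq_fintype_card, ← hKset]
    rfl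
  have h1 : orderOf v ∣ Nat.card (Cfsg.frobeniusKernel H) := by
    rw [← hcard]; exact orderOf_dvd_of_pow_eq_one hpow
  have h2 : orderOf v ∣ Nat.card V := orderOf_dvd_natCard v
  exact hv1 (orderOf_eq_one_iff.1 (Nat.eq_one_of_dvd_coprimes hcop h2 h1))

end Cfsg.Agent.S0666
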