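import Mathlib
import Cfsg.Statements.S0005
import Cfsg.Agent.S0002
import Cfsg.Agent.S0003
import Cfsg.Agent.S0004

set_option autoImplicit false
open Pointwise
open Cfsg

namespace Cfsg.Agent.S0005

open Subgroup Cfsg.Agent.S0003 Cfsg.Agent.S0004

universe u in
theorem hall_dom (N : ℕ) : ∀ (G : Type u) [Group G] [Finite G] [Group.IsSolvable G],
    Nat.card G = N → ∀ m n : ℕ, N = m * n → m.Coprime n → ∀ K : Subgroup G,
    (Nat.card K).Coprime n → ∃ H : Subgroup G, Nat.card H = m ∧ K ≤ H := by
  induction N using Nat.strong_induction_on with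
  | _ N ih =>
    intro G _ _ _ hN m n hmn hcop K hK
    by_cases htriv : Nontrivial G
    · obtain ⟨p, M, hp, hMn, hMc, hMne, hMp⟩ := exists_normal_abelian_pgroup G
      haveI := hMn
      haveI : Fact p.Prime := ⟨hp⟩
      obtain ⟨a, ha⟩ := IsPGroup.iff_card.mp hMp
      have hMcard1 : 1 < Nat.card M := by
        rw [Subgroup.one_lt_card_iff_ne_bot]; exact hMne
      have ha0 : a ≠ 0 := by
        rintro rfl
        rw [ha, pow_zero] at hMcard1
        exact lt_irrefl _ hMcard1
      have hquot := card_quot M
      rw [hN, ha] at hquot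
      have hqpos : 0 < Nat.card (G ⧸ M) := Nat.card_pos
      have hlt : Nat.card (G ⧸ M) < N := by
        rw [← hquot]; rw [ha] at hMcard1; nlinarith
      have hGc : Nat.card G = m * n := hN.trans hmn
      have hKbar : Nat.card (K.map (QuotientGroup.mk' M)) ∣ Nat.card K :=
        Dvd.intro _ (card_map_mk K M)
      by_cases hpm : p ∣ m
      · have hpn : Nat.Coprime (p ^ a) n := by
          apply Nat.Coprime.pow_left
          exact Nat.Coprime.coprime_dvd_left hpm hcop
        have hdvd : p ^ a ∣ m := by
          have : p ^ a ∣ m * n := by rw [← hmn, ← hquot]; exact dvd_mul_right _ _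
          exact hpn.dvd_of_dvd_mul_right this
        obtain ⟨m', hm'⟩ := hdvd
        have hq : Nat.card (G ⧸ M) = m' * n := by
          have : p ^ a * Nat.card (G ⧸ M) = p ^ a * (m' * n) := by rw [hquot, hmn, hm']; ring
          exact Nat.eq_of_mul_eq_mul_left (pow_pos hp.pos a) this
        obtain ⟨Hbar, hHbar, hKH⟩ := ih _ hlt (G ⧸ M) rfl m' n hq
          (Nat.Coprime.coprime_dvd_left (hm' ▸ dvd_mul_left _ _) hcop)
          (K.map (QuotientGroup.mk' M)) (Nat.Coprime.coprime_dvd_left hKbar hK)
        refine ⟨Hbar.comap (QuotientGroup.mk' M), by rw [card_comap_mk', ha, hHbar, hm'], ?_⟩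
        exact (Subgroup.le_comap_map _ K).trans (Subgroup.comap_mono hKH)
      · have hpm' : Nat.Coprime (p ^ a) m :=
          Nat.Coprime.pow_left _ ((Nat.Prime.coprime_iff_not_dvd hp).mpr hpm)
        have hdvd : p ^ a ∣ n := by
          have : p ^ a ∣ m * n := by rw [← hmn, ← hquot]; exact dvd_mul_right _ _
          exact hpm'.dvd_of_dvd_mul_left this
        obtain ⟨n', hn'⟩ := hdvd
        have hq : Nat.card (G ⧸ M) = m * n' := by
          have : p ^ a * Nat.card (G ⧸ M) = p ^ a * (m * n') := by rw [hquot, hmn, hn']; ring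
          exact Nat.eq_of_mul_eq_mul_left (pow_pos hp.pos a) this
        have hKpa : (Nat.card K).Coprime (p ^ a) :=
          Nat.Coprime.coprime_dvd_right (hn' ▸ dvd_mul_right _ _) hK
        have hpK : ¬ p ∣ Nat.card K := by
          intro h
          have := Nat.eq_one_of_dvd_coprimes hKpa h (dvd_pow_self p ha0)
          exact hp.one_lt.ne' this
        have hKM : K ⊓ M = ⊥ := hall_inf_normal_pgroup M K p a _ hp ha rfl hpK
        obtain ⟨Hbar, hHbar, hKH⟩ := ih _ hlt (G ⧸ M) rfl m n' hq
          (Nat.Coprime.coprime_dvd_right (hn' ▸ dvd_mul_left _ _) hcop)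
          (K.map (QuotientGroup.mk' M))
          (Nat.Coprime.coprime_dvd_left hKbar
            (Nat.Coprime.coprime_dvd_right (hn' ▸ dvd_mul_left _ _) hK))
        have hLc : Nat.card (Hbar.comap (QuotientGroup.mk' M)) = p ^ a * m := by
          rw [card_comap_mk', ha, hHbar]
        have hKL : K ≤ Hbar.comap (QuotientGroup.mk' M) :=
          (Subgroup.le_comap_map _ K).trans (Subgroup.comap_mono hKH)
        by_cases hL : Hbar.comap (QuotientGroup.mk' M) = ⊤
        · rw [hL, Subgroup.card_top, hN] at hLc
          have hidx : M.index = m := by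
            have h3 := Subgroup.card_mul_index M
            rw [hN, hLc, ha] at h3
            exact Nat.eq_of_mul_eq_mul_left (pow_pos hp.pos a) h3
          obtain ⟨C, hC⟩ := Subgroup.exists_right_complement'_of_coprime
            (N := M) (by rw [hidx, ha]; exact hpm')
          have hCcard : Nat.card C = m := by
            rw [← hidx]; exact hC.symm.index_eq_card.symm
          have hCM : C ⊓ M = ⊥ := hall_inf_normal_pgroup M C p a m hp ha hCcard hpm
          have hsup : (C ⊓ (K ⊔ M)) ⊔ M = K ⊔ M := by
            apply le_antisymm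
            · exact sup_le inf_le_right le_sup_right
            · intro y hy
              obtain ⟨⟨μ, c⟩, hμc⟩ := hC.2 y
              have hμc' : (μ : G) * (c : G) = y := hμc
              have hc : (c : G) ∈ K ⊔ M := by
                have : (c : G) = (μ : G)⁻¹ * y := by rw [← hμc']; group
                rw [this]
                exact Subgroup.mul_mem _ (Subgroup.inv_mem _ (le_sup_right (a := K) μ.2)) hy
              rw [← hμc']
              exact Subgroup.mul_mem _ (Subgroup.mem_sup_right μ.2)
                (Subgroup.mem_sup_left ⟨c.2, hc⟩)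
          have hC1M : (C ⊓ (K ⊔ M)) ⊓ M = ⊥ := by
            apply le_bot_iff.mp
            rw [← hCM]
            exact inf_le_inf_right M inf_le_left
          have hcard : Nat.card ↥(C ⊓ (K ⊔ M)) = Nat.card K := by
            have e1 := card_sup_mul_card_inf (C ⊓ (K ⊔ M)) M
            have e2 := card_sup_mul_card_inf K M
            rw [hC1M, Subgroup.card_bot, mul_one, hsup] at e1
            rw [hKM, Subgroup.card_bot, mul_one] at e2
            have hpos : 0 < Nat.card M := Nat.card_pos
            exact Nat.eq_of_mul_eq_mul_right hpos (e1.symm.trans e2)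
          obtain ⟨x, -, hx⟩ := conj_of_complements M hMc (C ⊓ (K ⊔ M)) K hsup hC1M hKM hcard
            (by rw [hcard, ha]; exact hKpa.symm)
          refine ⟨MulAut.conj x • C, by rw [card_conj_smul, hCcard], ?_⟩
          rw [← hx]
          exact Subgroup.pointwise_smul_le_pointwise_smul_iff.mpr inf_le_left
        · have hLlt : Nat.card (Hbar.comap (QuotientGroup.mk' M)) < N := by
            rw [← hN]
            have h5 := Subgroup.card_mul_index (Hbar.comap (QuotientGroup.mk' M))
            have h6 : (Hbar.comap (QuotientGroup.mk' M)).index ≠ 1 := by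
              rwa [Ne, Subgroup.index_eq_one]
            have h7 : 0 < (Hbar.comap (QuotientGroup.mk' M)).index :=
              Nat.pos_of_ne_zero (Subgroup.index_ne_zero_of_finite)
            have h8 : 0 < Nat.card (Hbar.comap (QuotientGroup.mk' M)) := Nat.card_pos
            have h9 : 2 ≤ (Hbar.comap (QuotientGroup.mk' M)).index := by omega
            nlinarith
          obtain ⟨D, hD, hKD⟩ := ih _ hLlt (Hbar.comap (QuotientGroup.mk' M)) rfl m (p ^ a)
            (by rw [hLc, mul_comm]) hpm'.symm
            (K.subgroupOf (Hbar.comap (QuotientGroup.mk' M)))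
            (by rw [card_subgroupOf_eq', inf_of_le_left hKL]; exact hKpa)
          refine ⟨D.map (Subgroup.subtype _), ?_, ?_⟩
          · rw [Subgroup.card_map_of_injective (Subgroup.subtype_injective _), hD]
          · have := Subgroup.map_mono (f := (Hbar.comap (QuotientGroup.mk' M)).subtype) hKD
            rwa [Subgroup.subgroupOf_map_subtype, inf_of_le_left hKL] at this
    · rw [not_nontrivial_iff_subsingleton] at htriv
      have h1 : N = 1 := by rw [← hN]; exact Nat.card_unique
      have hm1 : m = 1 := by
        have : m ∣ 1 := by rw [← h1, hmn]; exact dvd_mul_right _ _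
        exact Nat.dvd_one.mp this
      subst hm1
      exact ⟨⊥, Subgroup.card_bot, by rw [Subgroup.eq_bot_of_subsingleton K]⟩

theorem result {G : Type*} [Group G] [Finite G] [Group.IsSolvable G] (m n : ℕ)
    (hG : Nat.card G = m * n) (hmn : m.Coprime n) (K : Subgroup G) (hK : (Nat.card K).Coprime n) :
    ∃ H : Subgroup G, Nat.card H = m ∧ K ≤ H := by
  exact hall_dom _ G rfl m n hG hmn K hK

end Cfsg.Agent.S0005
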