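import Mathlib
import Cfsg.Agent.Lib.Helper1.Inv
import Cfsg.Statements.S0007

set_option autoImplicit false
open Cfsg

namespace Cfsg.Agent.S0007

/-- Subgroups of coprime index: the intersection has index equal to the product of the indices, and every element is a product of an element of the first subgroup and an element of the second. -/
theorem result {G : Type*} [Group G] [Finite G] (H K : Subgroup G)
    (h : H.index.Coprime K.index) :
    (H ⊓ K).index = H.index * K.index ∧ ∀ g : G, ∃ x ∈ H, ∃ y ∈ K, g = x * y := by
  have h1 : H.index ∣ (H ⊓ K).index := Subgroup.index_dvd_of_le inf_le_left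
  have h2 : K.index ∣ (H ⊓ K).index := Subgroup.index_dvd_of_le inf_le_right
  have h3 : H.index * K.index ∣ (H ⊓ K).index := Nat.Coprime.mul_dvd_of_dvd_of_dvd h h1 h2
  have h4 := Subgroup.index_inf_le (H := H) (K := K)
  have hne : (H ⊓ K).index ≠ 0 := Subgroup.index_ne_zero_of_finite
  have h5 : (H ⊓ K).index = H.index * K.index :=
    le_antisymm h4 (Nat.le_of_dvd (Nat.pos_of_ne_zero hne) h3)
  refine ⟨h5, ?_⟩
  have h6 : (H ⊓ K).relIndex H * H.index = (H ⊓ K).index := Subgroup.relIndex_mul_index inf_le_left
  rw [Subgroup.inf_relIndex_left, h5, mul_comm] at h6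
  have h7 : K.relIndex H = K.index :=
    Nat.eq_of_mul_eq_mul_left (Nat.pos_of_ne_zero Subgroup.index_ne_zero_of_finite) h6
  obtain ⟨f, hf⟩ : ∃ f : H ⧸ K.subgroupOf H → G ⧸ K, ∀ x : H, f (QuotientGroup.mk x) = QuotientGroup.mk (x : G) := by
    refine ⟨Quotient.map' (fun x : H => (x : G)) ?_, fun x => rfl⟩
    intro a b hab
    rw [QuotientGroup.leftRel_apply] at hab ⊢
    exact hab
  have hinj : Function.Injective f := by
    intro q1 q2
    induction q1 using QuotientGroup.induction_on with
    | H a =>
      induction q2 using QuotientGroup.induction_on with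
      | H b =>
        intro hab
        rw [hf, hf, QuotientGroup.eq] at hab
        rw [QuotientGroup.eq]
        exact hab
  have hbij : Function.Bijective f := hinj.bijective_of_nat_card_le (by
    have e1 : Nat.card (G ⧸ K) = K.index := rfl
    have e2 : Nat.card (H ⧸ K.subgroupOf H) = K.relIndex H := rfl
    rw [e1, e2, h7])
  intro g
  obtain ⟨q, hq⟩ := hbij.2 (QuotientGroup.mk g)
  induction q using QuotientGroup.induction_on with
  | H x =>
    rw [hf, QuotientGroup.eq] at hq
    exact ⟨x, x.2, (x : G)⁻¹ * g, hq, by group⟩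

end Cfsg.Agent.S0007
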