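import Mathlib
import Cfsg.Agent.Lib.Helper1.Inv
import Cfsg.Statements.S0010

set_option autoImplicit false
open Cfsg

namespace Cfsg.Agent.S0010

/-- The largest normal p-subgroup of a finite group is the intersection of all its Sylow p-subgroups. -/
theorem result {G : Type*} [Group G] [Finite G] (p : ℕ) [Fact p.Prime] :
    Cfsg.pCore p G = ⨅ P : Sylow p G, (P : Subgroup G) := by
  apply le_antisymm
  · apply sSup_le
    rintro N ⟨hN, hNp⟩
    apply le_iInf
    intro P
    have := hN
    exact hNp.le_sylow_of_normal P
  · apply le_sSup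
    refine ⟨?_, ?_⟩
    · constructor
      intro n hn g
      rw [Subgroup.mem_iInf] at hn ⊢
      intro P
      have h1 := (Lib.Helper1.mem_sylow_smul_iff P g⁻¹ n).mp (hn (g⁻¹ • P))
      rwa [inv_inv] at h1
    · obtain ⟨P⟩ : Nonempty (Sylow p G) := inferInstance
      exact P.2.to_le (iInf_le _ P)

end Cfsg.Agent.S0010
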