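import Mathlib
import Cfsg.Statements.S0011

set_option autoImplicit false
open Cfsg

namespace Cfsg.Agent.S0011

/-- If the Frattini quotient of a finite group is nilpotent then the group is nilpotent. -/
theorem result {G : Type*} [Group G] [Finite G]
    (h : Group.IsNilpotent (G ⧸ frattini G)) : Group.IsNilpotent G := by
  apply ((Group.isNilpotent_of_finite_tfae (G := G)).out 0 3).mpr
  intro p hp P
  have hsurj : Function.Surjective (QuotientGroup.mk' (frattini G)) :=
    QuotientGroup.mk'_surjective _
  have hQn : ((P.mapSurjective hsurj : Sylow p (G ⧸ frattini G)) :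
      Subgroup (G ⧸ frattini G)).Normal := inferInstance
  have hNn : (((P : Subgroup G).map (QuotientGroup.mk' (frattini G))).comap
      (QuotientGroup.mk' (frattini G))).Normal := by
    have : ((P : Subgroup G).map (QuotientGroup.mk' (frattini G))).Normal := hQn
    infer_instance
  rw [Subgroup.comap_map_eq, QuotientGroup.ker_mk'] at hNn
  have h1 := Sylow.normalizer_sup_eq_top' (N := (P : Subgroup G) ⊔ frattini G) P le_sup_left
  have h2 : Subgroup.normalizer ((P : Subgroup G) : Set G) ⊔ frattini G = ⊤ := by
    have hle : (P : Subgroup G) ≤ Subgroup.normalizer ((P : Subgroup G) : Set G) :=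
      Subgroup.le_normalizer
    apply top_le_iff.mp
    rw [← h1]
    exact sup_le le_sup_left (sup_le (le_sup_of_le_left hle) le_sup_right)
  have h3 := frattini_nongenerating h2
  exact Subgroup.normalizer_eq_top_iff.mp h3

end Cfsg.Agent.S0011
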