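import Mathlib
import Cfsg.Agent.S0065
import Cfsg.Statements.S0015

set_option autoImplicit false
open Cfsg
open Pointwise
open scoped commutatorElement

namespace Cfsg.Agent.S0015

/-- In a finite nilpotent group, an abelian normal subgroup that is maximal among abelian normal subgroups equals its own centralizer. -/
theorem result {G : Type*} [Group G] [Finite G] [Group.IsNilpotent G]
    (N : Subgroup G) [N.Normal] [IsMulCommutative N]
    (hmax : ∀ M : Subgroup G, M.Normal → IsMulCommutative M → N ≤ M → M = N) :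
    Subgroup.centralizer (N : Set G) = N := by
  have hNle : N ≤ Subgroup.centralizer (N : Set G) := by
    intro n hn
    rw [Subgroup.mem_centralizer_iff]
    intro h hh
    have h0 := mul_comm' (⟨h, hh⟩ : N) ⟨n, hn⟩
    exact congrArg Subtype.val h0
  apply le_antisymm _ hNle
  by_contra hnot
  obtain ⟨c, hcC, hcN⟩ := SetLike.not_le_iff_exists.mp hnot
  have hCn : (Subgroup.centralizer (N : Set G)).Normal := inferInstance
  have hC'n : ((Subgroup.centralizer (N : Set G)).map (QuotientGroup.mk' N)).Normal :=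
    hCn.map _ (QuotientGroup.mk'_surjective N)
  have hC'ne : (Subgroup.centralizer (N : Set G)).map (QuotientGroup.mk' N) ≠ ⊥ := by
    intro h
    have h1 : (QuotientGroup.mk' N) c ∈ (Subgroup.centralizer (N : Set G)).map (QuotientGroup.mk' N) :=
      Subgroup.mem_map_of_mem _ hcC
    rw [h, Subgroup.mem_bot] at h1
    exact hcN ((QuotientGroup.eq_one_iff c).mp h1)
  have h65 := Cfsg.Agent.S0065.result
    ((Subgroup.centralizer (N : Set G)).map (QuotientGroup.mk' N)) hC'ne
  obtain ⟨q, hq1⟩ := (Subgroup.ne_bot_iff_exists_ne_one).mp h65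
  obtain ⟨hqC, hqZ⟩ := Subgroup.mem_inf.mp q.2
  obtain ⟨x, hxC, hxq⟩ := Subgroup.mem_map.mp hqC
  have hxN : x ∉ N := by
    intro hx
    apply hq1
    apply Subtype.ext
    rw [← hxq]
    exact (QuotientGroup.eq_one_iff x).mpr hx
  have hcentral : ∀ g : G, g * x * g⁻¹ * x⁻¹ ∈ N := by
    intro g
    rw [← QuotientGroup.eq_one_iff]
    have h1 := Subgroup.mem_center_iff.mp hqZ (QuotientGroup.mk' N g)
    rw [← hxq] at h1
    have h2 : (QuotientGroup.mk' N g) * (QuotientGroup.mk' N x) * (QuotientGroup.mk' N g)⁻¹ *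
        (QuotientGroup.mk' N x)⁻¹ = 1 := by
      rw [h1]
      group
    exact h2
  have hcommM : ∀ a ∈ (↑N : Set G) ∪ {x}, ∀ b ∈ (↑N : Set G) ∪ {x}, a * b = b * a := by
    have hxc := Subgroup.mem_centralizer_iff.mp hxC
    intro a ha b hb
    rcases ha with ha | ha <;> rcases hb with hb | hb
    · have h0 := mul_comm' (⟨a, ha⟩ : N) ⟨b, hb⟩
      exact congrArg Subtype.val h0
    · rw [Set.mem_singleton_iff] at hb
      rw [hb]
      exact hxc a ha
    · rw [Set.mem_singleton_iff] at ha
      rw [ha]
      exact (hxc b hb).symm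
    · rw [Set.mem_singleton_iff] at ha hb
      rw [ha, hb]
  have hMcomm : IsMulCommutative (Subgroup.closure ((↑N : Set G) ∪ {x})) :=
    Subgroup.isMulCommutative_closure hcommM
  have hNM : N ≤ Subgroup.closure ((↑N : Set G) ∪ {x}) := fun n hn =>
    Subgroup.subset_closure (Or.inl hn)
  have hxM : x ∈ Subgroup.closure ((↑N : Set G) ∪ {x}) :=
    Subgroup.subset_closure (Or.inr rfl)
  have hMn : (Subgroup.closure ((↑N : Set G) ∪ {x})).Normal := by
    constructor
    intro n hn g
    induction hn using Subgroup.closure_induction with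
    | mem s hs =>
      rcases hs with hs | hs
      · exact hNM (‹N.Normal›.conj_mem s hs g)
      · rw [Set.mem_singleton_iff] at hs
        rw [hs]
        have h1 : g * x * g⁻¹ = (g * x * g⁻¹ * x⁻¹) * x := by group
        rw [h1]
        exact Subgroup.mul_mem _ (hNM (hcentral g)) hxM
    | one =>
      rw [mul_one, mul_inv_cancel]
      exact Subgroup.one_mem _
    | mul a b _ _ iha ihb =>
      have h1 : g * (a * b) * g⁻¹ = (g * a * g⁻¹) * (g * b * g⁻¹) := by group
      rw [h1]
      exact Subgroup.mul_mem _ iha ihb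
    | inv a _ iha =>
      have h1 : g * a⁻¹ * g⁻¹ = (g * a * g⁻¹)⁻¹ := by group
      rw [h1]
      exact Subgroup.inv_mem _ iha
  have hMN := hmax _ hMn hMcomm hNM
  rw [hMN] at hxM
  exact hxN hxM

end Cfsg.Agent.S0015
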