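import Mathlib
import Cfsg.Statements.S0021
import Cfsg.Agent.S0006

set_option autoImplicit false
open Pointwise
open Cfsg

namespace Cfsg.Agent.S0021

/-- The product set of two permuting subgroups, as a subgroup. -/
def permSubgroup {G : Type*} [Group G] (A B : Subgroup G)
    (h : (A : Set G) * (B : Set G) = (B : Set G) * (A : Set G)) : Subgroup G where
  carrier := (A : Set G) * (B : Set G)
  mul_mem' := by
    rintro x y ⟨a, ha, b, hb, rfl⟩ ⟨a', ha', b', hb', rfl⟩
    have h1 : b * a' ∈ (A : Set G) * (B : Set G) := by rw [h]; exact ⟨b, hb, a', ha', rfl⟩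
    obtain ⟨a'', ha'', b'', hb'', e⟩ := h1
    have e : a'' * b'' = b * a' := e
    refine ⟨a * a'', A.mul_mem ha ha'', b'' * b', B.mul_mem hb'' hb', ?_⟩
    have e2 : a * a'' * (b'' * b') = a * (a'' * b'') * b' := by group
    show a * a'' * (b'' * b') = a * b * (a' * b')
    rw [e2, e]; group
  one_mem' := ⟨1, A.one_mem, 1, B.one_mem, by simp⟩
  inv_mem' := by
    rintro x ⟨a, ha, b, hb, rfl⟩
    show (a * b)⁻¹ ∈ (A : Set G) * (B : Set G)
    rw [h, mul_inv_rev]
    exact ⟨b⁻¹, B.inv_mem hb, a⁻¹, A.inv_mem ha, rfl⟩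

theorem card_sup_of_perm {G : Type*} [Group G] [Finite G] (A B : Subgroup G)
    (h : (A : Set G) * (B : Set G) = (B : Set G) * (A : Set G))
    (hc : (Nat.card A).Coprime (Nat.card B)) :
    Nat.card ↥(A ⊔ B) = Nat.card A * Nat.card B := by
  apply le_antisymm
  · have h1 : A ⊔ B ≤ permSubgroup A B h :=
      sup_le (fun a ha => ⟨a, ha, 1, B.one_mem, mul_one a⟩)
        (fun b hb => ⟨1, A.one_mem, b, hb, one_mul b⟩)
    have h2 := Subgroup.card_le_of_le h1
    have h3 : Nat.card ↥(permSubgroup A B h) ≤ Nat.card (↥A × ↥B) := by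
      apply Nat.card_le_card_of_surjective (fun x : ↥A × ↥B =>
        (⟨(x.1 : G) * (x.2 : G), ⟨x.1, x.1.2, x.2, x.2.2, rfl⟩⟩ : ↥(permSubgroup A B h)))
      rintro ⟨x, a, ha, b, hb, rfl⟩
      exact ⟨(⟨a, ha⟩, ⟨b, hb⟩), rfl⟩
    rw [Nat.card_prod] at h3
    exact h2.trans h3
  · exact Nat.le_of_dvd Nat.card_pos (Nat.Coprime.mul_dvd_of_dvd_of_dvd hc
      (Subgroup.card_dvd_of_le le_sup_left) (Subgroup.card_dvd_of_le le_sup_right))

theorem perm_sup {G : Type*} [Group G] (A B C : Subgroup G)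
    (hB : (A : Set G) * (B : Set G) = (B : Set G) * (A : Set G))
    (hC : (A : Set G) * (C : Set G) = (C : Set G) * (A : Set G)) :
    (A : Set G) * ((B ⊔ C : Subgroup G) : Set G) = ((B ⊔ C : Subgroup G) : Set G) * (A : Set G) := by
  set D := B ⊔ C with hD
  let K : Subgroup G :=
    { carrier := {w | (∀ a ∈ A, ∃ w' ∈ D, ∃ a' ∈ A, a * w = w' * a') ∧
        (∀ a ∈ A, ∃ w' ∈ D, ∃ a' ∈ A, w * a = a' * w')}
      mul_mem' := by
        rintro w₁ w₂ ⟨h1, h1'⟩ ⟨h2, h2'⟩
        constructor
        · intro a ha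
          obtain ⟨w₁', hw₁', a', ha', e1⟩ := h1 a ha
          obtain ⟨w₂', hw₂', a'', ha'', e2⟩ := h2 a' ha'
          refine ⟨w₁' * w₂', D.mul_mem hw₁' hw₂', a'', ha'', ?_⟩
          rw [← mul_assoc, e1, mul_assoc, e2, mul_assoc]
        · intro a ha
          obtain ⟨w₂', hw₂', a', ha', e2⟩ := h2' a ha
          obtain ⟨w₁', hw₁', a'', ha'', e1⟩ := h1' a' ha'
          refine ⟨w₁' * w₂', D.mul_mem hw₁' hw₂', a'', ha'', ?_⟩
          rw [mul_assoc, e2, ← mul_assoc, e1, mul_assoc]
      one_mem' := ⟨fun a ha => ⟨1, D.one_mem, a, ha, by simp⟩,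
        fun a ha => ⟨1, D.one_mem, a, ha, by simp⟩⟩
      inv_mem' := by
        rintro w ⟨h1, h1'⟩
        constructor
        · intro a ha
          obtain ⟨w', hw', a', ha', e⟩ := h1' a⁻¹ (A.inv_mem ha)
          refine ⟨w'⁻¹, D.inv_mem hw', a'⁻¹, A.inv_mem ha', ?_⟩
          rw [← mul_inv_rev, ← e, mul_inv_rev, inv_inv]
        · intro a ha
          obtain ⟨w', hw', a', ha', e⟩ := h1 a⁻¹ (A.inv_mem ha)
          refine ⟨w'⁻¹, D.inv_mem hw', a'⁻¹, A.inv_mem ha', ?_⟩
          rw [← mul_inv_rev, ← e, mul_inv_rev, inv_inv] }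
  have hgen : ∀ E : Subgroup G, E ≤ D →
      (A : Set G) * (E : Set G) = (E : Set G) * (A : Set G) → E ≤ K := by
    intro E hED hE b hb
    constructor
    · intro a ha
      have h1 : a * b ∈ (E : Set G) * (A : Set G) := by rw [← hE]; exact ⟨a, ha, b, hb, rfl⟩
      obtain ⟨b', hb', a', ha', e⟩ := h1
      exact ⟨b', hED hb', a', ha', e.symm⟩
    · intro a ha
      have h1 : b * a ∈ (A : Set G) * (E : Set G) := by rw [hE]; exact ⟨b, hb, a, ha, rfl⟩
      obtain ⟨a', ha', b', hb', e⟩ := h1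
      exact ⟨b', hED hb', a', ha', e.symm⟩
  have hDK : D ≤ K := sup_le (hgen B le_sup_left hB) (hgen C le_sup_right hC)
  ext x
  constructor
  · rintro ⟨a, ha, w, hw, rfl⟩
    obtain ⟨w', hw', a', ha', e⟩ := (hDK hw).1 a ha
    exact ⟨w', hw', a', ha', e.symm⟩
  · rintro ⟨w, hw, a, ha, rfl⟩
    obtain ⟨w', hw', a', ha', e⟩ := (hDK hw).2 a ha
    exact ⟨a', ha', w', hw', e.symm⟩

theorem result {G : Type*} [Group G] [Finite G]
    (S : (p : Nat.Primes) → Sylow (p : ℕ) G)
    (hS : ∀ p q : Nat.Primes, (S p : Set G) * (S q : Set G) = (S q : Set G) * (S p : Set G)) :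
    Group.IsSolvable G := by
  classical
  apply Cfsg.Agent.S0006.result
  intro p hp
  set N := Nat.card G with hNdef
  let S' : ℕ → Subgroup G := fun q => if h : q.Prime then (S ⟨q, h⟩ : Subgroup G) else ⊥
  have hS'card : ∀ q, Nat.card (S' q) = q ^ N.factorization q := by
    intro q
    by_cases h : q.Prime
    · haveI := Fact.mk h
      simp only [S', dif_pos h]
      exact Sylow.card_eq_multiplicity (p := q) (S ⟨q, h⟩)
    · simp only [S', dif_neg h]
      rw [Nat.factorization_eq_zero_of_not_prime N h, pow_zero, Subgroup.card_bot]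
  have hS'perm : ∀ q r, (S' q : Set G) * (S' r : Set G) = (S' r : Set G) * (S' q : Set G) := by
    intro q r
    by_cases hq : q.Prime
    · by_cases hr : r.Prime
      · simp only [S', dif_pos hq, dif_pos hr]; exact hS ⟨q, hq⟩ ⟨r, hr⟩
      · simp only [S', dif_neg hr, Subgroup.coe_bot]; simp
    · simp only [S', dif_neg hq, Subgroup.coe_bot]; simp
  have key : ∀ F : Finset ℕ,
      (∀ r, (S' r : Set G) * ((⨆ q ∈ F, S' q : Subgroup G) : Set G) =
        ((⨆ q ∈ F, S' q : Subgroup G) : Set G) * (S' r : Set G)) ∧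
      Nat.card ↥(⨆ q ∈ F, S' q) = ∏ q ∈ F, q ^ N.factorization q := by
    intro F
    induction F using Finset.induction_on with
    | empty =>
      constructor
      · intro r; simp
      · simp
    | insert a F ha ih =>
      obtain ⟨ih1, ih2⟩ := ih
      have e : (⨆ q ∈ insert a F, S' q) = S' a ⊔ ⨆ q ∈ F, S' q := Finset.iSup_insert a F S'
      rw [e]
      have hcop : (Nat.card (S' a)).Coprime (Nat.card ↥(⨆ q ∈ F, S' q)) := by
        rw [hS'card, ih2]
        apply Nat.Coprime.prod_right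
        intro q hq
        have hne : a ≠ q := fun h => ha (h ▸ hq)
        by_cases hap : a.Prime
        · by_cases hqp : q.Prime
          · exact Nat.Coprime.pow _ _ ((Nat.coprime_primes hap hqp).2 hne)
          · rw [Nat.factorization_eq_zero_of_not_prime N hqp, pow_zero]
            exact Nat.coprime_one_right _
        · rw [Nat.factorization_eq_zero_of_not_prime N hap, pow_zero]
          exact Nat.coprime_one_left _
      constructor
      · intro r
        exact perm_sup (S' r) (S' a) _ (hS'perm r a) (ih1 r)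
      · rw [card_sup_of_perm _ _ (ih1 a) hcop, hS'card, ih2, Finset.prod_insert ha]
  by_cases hpN : p ∈ N.primeFactors
  · refine ⟨⨆ q ∈ N.primeFactors.erase p, S' q, ?_⟩
    have h1 := (key (N.primeFactors.erase p)).2
    have h2 := Subgroup.card_mul_index (⨆ q ∈ N.primeFactors.erase p, S' q)
    have hprod : ∏ q ∈ N.primeFactors, q ^ N.factorization q = N := by
      have h3 := Nat.prod_factorization_pow_eq_self (n := N) Nat.card_pos.ne'
      rwa [Finsupp.prod, Nat.support_factorization] at h3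
    rw [← Finset.mul_prod_erase _ _ hpN] at hprod
    rw [h1] at h2
    have hpos : 0 < ∏ q ∈ N.primeFactors.erase p, q ^ N.factorization q :=
      Finset.prod_pos (fun q hq => pow_pos
        (Nat.pos_of_mem_primeFactors (Finset.mem_of_mem_erase hq)) _)
    apply Nat.eq_of_mul_eq_mul_left hpos
    rw [h2, mul_comm]
    exact hprod.symm
  · refine ⟨⊤, ?_⟩
    have h0 : N.factorization p = 0 := by
      rw [← Finsupp.notMem_support_iff, Nat.support_factorization]; exact hpN
    rw [Subgroup.index_top, h0, pow_zero]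

end Cfsg.Agent.S0021
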