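import Mathlib
import Cfsg.Statements.S0024
import Cfsg.Agent.S0001
import Cfsg.Agent.S0003
import Cfsg.Agent.S0004
import Cfsg.Agent.S0022
import Cfsg.Agent.S0023

set_option autoImplicit false
open Pointwise
open Cfsg

namespace Cfsg.Agent.S0024

open Subgroup Cfsg.Agent.S0003 Cfsg.Agent.S0004 Cfsg.Agent.S0001 Cfsg.Agent.S0022
  Cfsg.Agent.S0023

/-- Two `A`-invariant full `p`-power-order subgroups of `K` are conjugate under `C_K(A)`. -/
theorem invariant_conj {G : Type*} [Group G] [Finite G] (A K : Subgroup G)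
    (hAK : A ≤ Subgroup.normalizer (K : Set G))
    (hcop : (Nat.card A).Coprime (Nat.card K)) (hsolv : Group.IsSolvable A ∨ Group.IsSolvable K)
    (p : ℕ) [Fact p.Prime] (S T : Subgroup G) (hSK : S ≤ K) (hTK : T ≤ K)
    (hS : Nat.card S = p ^ (Nat.card K).factorization p)
    (hT : Nat.card T = p ^ (Nat.card K).factorization p)
    (hSA : A ≤ normalizer (S : Set G)) (hTA : A ≤ normalizer (T : Set G)) :
    ∃ c ∈ K ⊓ centralizer (A : Set G), MulAut.conj c • S = T := by
  have hp : p.Prime := Fact.out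
  have hinf : A ⊓ K = ⊥ := Subgroup.inf_eq_bot_of_coprime hcop
  have hKpos : Nat.card K ≠ 0 := Nat.card_pos.ne'
  obtain ⟨k, hk, hkS⟩ := sylow_conj_in K S T p
    ((Nat.card K).factorization p) (Nat.card K / p ^ (Nat.card K).factorization p) hp hSK hTK
    hS hT (Nat.ordProj_mul_ordCompl_eq_self _ p).symm (Nat.not_dvd_ordCompl hp hKpos)
  have hA_N1 : A ≤ normalizer ((K ⊓ normalizer (S : Set G) : Subgroup G) : Set G) := by
    rw [Subgroup.le_normalizer_iff]
    intro a ha n hn
    refine ⟨(Subgroup.le_normalizer_iff.mp hAK) a ha n hn.1, ?_⟩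
    exact Subgroup.mul_mem _ (Subgroup.mul_mem _ (hSA ha) hn.2) (Subgroup.inv_mem _ (hSA ha))
  have hB : MulAut.conj k⁻¹ • A ≤ (K ⊓ normalizer (S : Set G)) ⊔ A := by
    intro z hz
    rw [Subgroup.mem_pointwise_smul_iff_inv_smul_mem] at hz
    have hz' : k * z * k⁻¹ ∈ A := by simpa [MulAut.smul_def] using hz
    have hzn : z ∈ normalizer (S : Set G) := by
      have h1 : k * z * k⁻¹ ∈ normalizer (T : Set G) := hTA hz'
      have h2 := mem_normalizer_conj h1
      rw [← hkS, ← mul_smul, ← map_mul, inv_mul_cancel, map_one, one_smul] at h2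
      exact h2
    have hzY : z ∈ K ⊔ A := by
      have e : z = k⁻¹ * (k * z * k⁻¹) * k := by group
      rw [e]
      exact Subgroup.mul_mem _ (Subgroup.mul_mem _ (Subgroup.mem_sup_left (K.inv_mem hk))
        (Subgroup.mem_sup_right hz')) (Subgroup.mem_sup_left hk)
    obtain ⟨k', hk', a', ha', rfl⟩ := mem_sup_of_le_normalizer K A hAK hzY
    have hk'n : k' ∈ normalizer (S : Set G) := by
      have e : k' = k' * a' * a'⁻¹ := by group
      rw [e]
      exact Subgroup.mul_mem _ hzn (Subgroup.inv_mem _ (hSA ha'))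
    exact Subgroup.mul_mem _ (Subgroup.mem_sup_left ⟨hk', hk'n⟩) (Subgroup.mem_sup_right ha')
  have hN1K : K ⊓ normalizer (S : Set G) ≤ K := inf_le_left
  have hsolv' : Group.IsSolvable ↥(K ⊓ normalizer (S : Set G)) ∨ Group.IsSolvable A := by
    rcases hsolv with h | h
    · exact Or.inr h
    · left
      exact Group.isSolvable_of_isSolvable_injective (f := Subgroup.inclusion hN1K)
        (Subgroup.inclusion_injective hN1K)
  obtain ⟨n, hn, hnA⟩ := sz_conj_rel (K ⊓ normalizer (S : Set G)) A (MulAut.conj k⁻¹ • A) hA_N1 hB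
    (card_conj_smul k⁻¹ A)
    (Nat.Coprime.coprime_dvd_left (Subgroup.card_dvd_of_le hN1K) hcop.symm) hsolv'
  have hc : MulAut.conj (k * n) • A = A := by
    rw [map_mul, mul_smul, hnA, ← mul_smul, ← map_mul, mul_inv_cancel, map_one, one_smul]
  have hknK : k * n ∈ K := K.mul_mem hk hn.1
  refine ⟨k * n, ⟨hknK, centralizes_of_normalizes A K hAK hinf _ hknK hc⟩, ?_⟩
  rw [map_mul, mul_smul, (mem_normalizer_iff_conj_smul S n).mp hn.2]
  exact hkS

theorem result {G : Type*} [Group G] [Finite G] (A K : Subgroup G) (hAK : A ≤ Subgroup.normalizer (K : Set G))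
    (hcop : (Nat.card A).Coprime (Nat.card K)) (hsolv : Group.IsSolvable A ∨ Group.IsSolvable K)
    (p : ℕ) [Fact p.Prime] (P Q : Sylow p K)
    (hP : A ≤ Subgroup.normalizer ((P : Subgroup K).map K.subtype : Set G))
    (hQ : A ≤ Subgroup.normalizer ((Q : Subgroup K).map K.subtype : Set G)) :
    ∃ c : K, (c : G) ∈ Subgroup.centralizer (A : Set G) ∧ MulAut.conj c • P = Q := by
  have hS : ∀ R : Sylow p K,
      Nat.card ((R : Subgroup K).map K.subtype) = p ^ (Nat.card K).factorization p := by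
    intro R
    rw [Subgroup.card_map_of_injective (Subgroup.subtype_injective _)]
    exact Sylow.card_eq_multiplicity R
  obtain ⟨c, hc, hcS⟩ := invariant_conj A K hAK hcop hsolv p _ _
    (Subgroup.map_subtype_le _) (Subgroup.map_subtype_le _) (hS P) (hS Q) hP hQ
  refine ⟨⟨c, hc.1⟩, hc.2, ?_⟩
  apply Sylow.ext
  apply Subgroup.map_injective K.subtype_injective
  rw [Sylow.pointwise_smul_def, map_conj_smul]
  exact hcS

end Cfsg.Agent.S0024
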