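import Mathlib
import Cfsg.Statements.S0030
import Cfsg.Agent.S0022
import Cfsg.Agent.S0004

set_option autoImplicit false
open Pointwise
open Cfsg

namespace Cfsg.Agent.S0030

open Subgroup Cfsg.Agent.S0022 Cfsg.Agent.S0004

theorem result {G : Type*} [Group G] [Finite G] (A K : Subgroup G) (hAK : A ≤ Subgroup.normalizer (K : Set G))
    (hcop : (Nat.card A).Coprime (Nat.card K)) (hsolv : Group.IsSolvable A ∨ Group.IsSolvable K)
    (X Y : Subgroup G) (hX : X ≤ K) (hY : Y ≤ K) (hXA : A ≤ Subgroup.normalizer (X : Set G)) (hYA : A ≤ Subgroup.normalizer (Y : Set G))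
    (hXY : ∀ k ∈ K, ∃ x ∈ X, ∃ y ∈ Y, k = x * y) (k : G) (hk : k ∈ K ⊓ Subgroup.centralizer (A : Set G)) :
    ∃ x ∈ X ⊓ Subgroup.centralizer (A : Set G), ∃ y ∈ Y ⊓ Subgroup.centralizer (A : Set G), k = x * y := by
  obtain ⟨x, hx, y, hy, hkxy⟩ := hXY k hk.1
  have hinf : A ⊓ K = ⊥ := Subgroup.inf_eq_bot_of_coprime hcop
  have hkc : ∀ a ∈ A, a * k = k * a := Subgroup.mem_centralizer_iff.mp hk.2
  have hDA : A ≤ normalizer ((X ⊓ Y : Subgroup G) : Set G) := by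
    rw [Subgroup.le_normalizer_iff]
    intro a ha d hd
    exact ⟨(Subgroup.le_normalizer_iff.mp hXA) a ha d hd.1,
      (Subgroup.le_normalizer_iff.mp hYA) a ha d hd.2⟩
  have hDK : X ⊓ Y ≤ K := inf_le_left.trans hX
  have hB : MulAut.conj x⁻¹ • A ≤ (X ⊓ Y) ⊔ A := by
    intro z hz
    rw [Subgroup.mem_pointwise_smul_iff_inv_smul_mem] at hz
    have hz' : x * z * x⁻¹ ∈ A := by simpa [MulAut.smul_def] using hz
    generalize hb : x * z * x⁻¹ = b at hz'
    have hzb : z = x⁻¹ * b * x := by rw [← hb]; group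
    -- x⁻¹ b x = (x⁻¹ (b x b⁻¹)) b
    have h1 : x⁻¹ * (b * x * b⁻¹) ∈ X :=
      X.mul_mem (X.inv_mem hx) ((Subgroup.le_normalizer_iff.mp hXA) b hz' x hx)
    have h2 : x⁻¹ * (b * x * b⁻¹) = y * (b * y * b⁻¹)⁻¹ := by
      have hk' := hkc b hz'
      rw [hkxy] at hk'
      have : b * x * b⁻¹ * (b * y * b⁻¹) = x * y := by
        have : b * x * b⁻¹ * (b * y * b⁻¹) = b * (x * y) * b⁻¹ := by group
        rw [this, hk']; group
      have e : b * x * b⁻¹ = x * y * (b * y * b⁻¹)⁻¹ := by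
        rw [← this]; group
      rw [e]; group
    have h3 : x⁻¹ * (b * x * b⁻¹) ∈ Y := by
      rw [h2]
      exact Y.mul_mem hy (Y.inv_mem ((Subgroup.le_normalizer_iff.mp hYA) b hz' y hy))
    have e : z = (x⁻¹ * (b * x * b⁻¹)) * b := by rw [hzb]; group
    rw [e]
    exact Subgroup.mul_mem _ (Subgroup.mem_sup_left ⟨h1, h3⟩) (Subgroup.mem_sup_right hz')
  have hsolv' : Group.IsSolvable ↥(X ⊓ Y) ∨ Group.IsSolvable A := by
    rcases hsolv with h | h
    · exact Or.inr h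
    · left
      exact Group.isSolvable_of_isSolvable_injective (f := Subgroup.inclusion hDK)
        (Subgroup.inclusion_injective hDK)
  obtain ⟨d, hd, hdA⟩ := sz_conj_rel (X ⊓ Y) A (MulAut.conj x⁻¹ • A) hDA hB (card_conj_smul x⁻¹ A)
    (Nat.Coprime.coprime_dvd_left (Subgroup.card_dvd_of_le hDK) hcop.symm) hsolv'
  have hc : MulAut.conj (x * d) • A = A := by
    rw [map_mul, mul_smul, hdA, ← mul_smul, ← map_mul, mul_inv_cancel, map_one, one_smul]
  have hxdK : x * d ∈ K := K.mul_mem (hX hx) (hDK hd)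
  have hxdC := centralizes_of_normalizes A K hAK hinf _ hxdK hc
  refine ⟨x * d, ⟨X.mul_mem hx hd.1, hxdC⟩, d⁻¹ * y, ⟨Y.mul_mem (Y.inv_mem hd.2) hy, ?_⟩, ?_⟩
  · have e : d⁻¹ * y = (x * d)⁻¹ * k := by rw [hkxy]; group
    rw [e]
    exact Subgroup.mul_mem _ (Subgroup.inv_mem _ hxdC) hk.2
  · rw [hkxy]; group

end Cfsg.Agent.S0030
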