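import Mathlib
import Cfsg.Statements.S0036
import Cfsg.Agent.S0034

set_option autoImplicit false
open Pointwise
open Cfsg
open Finset

namespace Cfsg.Agent.S0036

open Cfsg.Agent.S0034

theorem inv_pow_of_inv {G : Type*} [Group G] (s y : G) (hss : s * s = 1) (hsy : s * y * s = y⁻¹)
    (m : ℕ) : s * y ^ m * s = (y ^ m)⁻¹ := by
  induction m with
  | zero => simp [hss]
  | succ m ih =>
    calc s * y ^ (m + 1) * s = s * y ^ m * (s * s) * y * s := by rw [hss, pow_succ]; group
      _ = (s * y ^ m * s) * (s * y * s) := by group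
      _ = (y ^ m)⁻¹ * y⁻¹ := by rw [ih, hsy]
      _ = (y ^ (m + 1))⁻¹ := by rw [pow_succ', mul_inv_rev]

theorem result {G : Type*} [Group G] [Finite G] (H : Subgroup G) (hH : Cfsg.IsFrobeniusComplement H)
    (t : G) (ht : t ∈ H) (ht1 : t ≠ 1) (ht2 : t * t = 1) :
    ∀ x ∈ Cfsg.frobeniusKernel H, ∀ y ∈ Cfsg.frobeniusKernel H, x * y ∈ Cfsg.frobeniusKernel H := by
  classical
  haveI : Fintype G := Fintype.ofFinite G
  have hcount := (Cfsg.Agent.S0034.result H hH).1
  obtain ⟨hb, htop, hTI⟩ := hH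
  have tinv : t⁻¹ = t := inv_eq_of_mul_eq_one_left ht2
  have ti_mem : ∀ x a : G, x ∈ H → x ≠ 1 → a⁻¹ * x * a ∈ H → a ∈ H := by
    intro x a hx hx1 hxa
    by_contra ha
    have h1 := hTI a ha
    have h2 : x ∈ MulAut.conj a • H := (mem_conj_smul' H a x).2 hxa
    have h3 : x ∈ H ⊓ MulAut.conj a • H := Subgroup.mem_inf.2 ⟨hx, h2⟩
    rw [h1, Subgroup.mem_bot] at h3
    exact hx1 h3
  have hKmem : ∀ x : G, x ∈ Cfsg.frobeniusKernel H ↔ (x = 1 ∨ ∀ g : G, g⁻¹ * x * g ∉ H) := by
    intro x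
    show (x = 1 ∨ ∀ g : G, x ∉ MulAut.conj g • H) ↔ _
    simp only [mem_conj_smul']
  have hCt : ∀ c : G, c * t = t * c → c ∈ H := by
    intro c hc
    apply ti_mem t c ht ht1
    have e : c⁻¹ * t * c = t := by rw [mul_assoc, ← hc, inv_mul_cancel_left]
    rw [e]; exact ht
  have hF3 : ∀ g : G, g ∉ H →
      t * (g * t * g⁻¹) ≠ 1 ∧ ∀ a : G, a⁻¹ * (t * (g * t * g⁻¹)) * a ∉ H := by
    intro g hg
    set s := g * t * g⁻¹ with hs
    have hss : s * s = 1 := by
      rw [hs]
      calc g * t * g⁻¹ * (g * t * g⁻¹) = g * (t * t) * g⁻¹ := by group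
        _ = 1 := by rw [ht2]; group
    have hs1 : s ≠ 1 := by
      intro h
      apply ht1
      have e : t = g⁻¹ * s * g := by rw [hs]; group
      rw [e, h]; group
    have hsinv : s⁻¹ = s := inv_eq_of_mul_eq_one_left hss
    have hgs : g⁻¹ * s * g = t := by rw [hs]; group
    have hw1 : t * s ≠ 1 := by
      intro h
      have hst : t⁻¹ = s := inv_eq_of_mul_eq_one_right h
      rw [tinv] at hst
      apply hg
      apply ti_mem s g (by rw [← hst]; exact ht) hs1
      rw [hgs]; exact ht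
    refine ⟨hw1, ?_⟩
    intro a ha
    set w := t * s with hw
    have e1 : t⁻¹ * w⁻¹ * t = w := by
      rw [hw, mul_inv_rev, hsinv, tinv]
      calc t * (s * t) * t = t * s * (t * t) := by group
        _ = t * s := by rw [ht2, mul_one]
    have h1 : (a⁻¹ * t * a)⁻¹ * (a⁻¹ * w * a)⁻¹⁻¹ * (a⁻¹ * t * a) = (a⁻¹ * w * a)⁻¹ := by
      have e1' : t⁻¹ * w * t = w⁻¹ := by
        rw [hw, mul_inv_rev, hsinv, tinv]
        calc t * (t * s) * t = (t * t) * s * t := by group
          _ = s * t := by rw [ht2, one_mul]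
      calc _ = a⁻¹ * (t⁻¹ * w * t) * a := by group
        _ = a⁻¹ * w⁻¹ * a := by rw [e1']
        _ = _ := by group
    have hwa1 : (a⁻¹ * w * a)⁻¹ ≠ 1 := by
      intro h
      apply hw1
      have e : w = a * ((a⁻¹ * w * a)⁻¹)⁻¹ * a⁻¹ := by group
      rw [e, h]; group
    have ht' : a⁻¹ * t * a ∈ H := by
      apply ti_mem ((a⁻¹ * w * a)⁻¹⁻¹) _ (by rw [inv_inv]; exact ha) (by rw [inv_inv]; intro h; apply hwa1; rw [h, inv_one])
      rw [h1]; exact H.inv_mem ha
    have e2 : s⁻¹ * w * s = w⁻¹ := by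
      rw [hsinv, hw, mul_inv_rev, hsinv, tinv]
      calc s * (t * s) * s = s * t * (s * s) := by group
        _ = s * t := by rw [hss, mul_one]
    have h2 : (a⁻¹ * s * a)⁻¹ * (a⁻¹ * w * a)⁻¹⁻¹ * (a⁻¹ * s * a) = (a⁻¹ * w * a)⁻¹ := by
      calc _ = a⁻¹ * (s⁻¹ * w * s) * a := by group
        _ = a⁻¹ * w⁻¹ * a := by rw [e2]
        _ = _ := by group
    have hs' : a⁻¹ * s * a ∈ H := by
      apply ti_mem ((a⁻¹ * w * a)⁻¹⁻¹) _ (by rw [inv_inv]; exact ha) (by rw [inv_inv]; intro h; apply hwa1; rw [h, inv_one])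
      rw [h2]; exact H.inv_mem ha
    have haH : a ∈ H := ti_mem t a ht ht1 ht'
    have hsH : s ∈ H := by
      have e : s = a * (a⁻¹ * s * a) * a⁻¹ := by group
      rw [e]; exact H.mul_mem (H.mul_mem haH hs') (H.inv_mem haH)
    apply hg
    exact ti_mem s g hsH hs1 (by rw [hgs]; exact ht)
  set Hf : Finset G := univ.filter (fun x => x ∈ H) with hHf
  set X : Finset G := univ.filter (fun x => x ∉ H) with hX
  set Kf : Finset G := univ.filter (fun x => x ∈ Cfsg.frobeniusKernel H) with hKf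
  set Y : Finset G := Kf.erase 1 with hY
  set Cf : Finset G := univ.filter (fun c => c * t = t * c) with hCf
  have hHfc : Hf.card = Nat.card H := (natCard_setOf (fun x : G => x ∈ H)).symm
  have hKfc : Kf.card = H.index := by
    rw [← hcount]
    exact (natCard_setOf (fun x : G => x ∈ Cfsg.frobeniusKernel H)).symm
  have h1K : (1 : G) ∈ Kf := by simp [hKf, hKmem]
  have hidx1 : H.index ≠ 1 := by rwa [Ne, Subgroup.index_eq_one]
  have hidx0 : H.index ≠ 0 := Subgroup.index_ne_zero_of_finite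
  have hYc : Y.card + 1 = H.index := by
    rw [hY, Finset.card_erase_of_mem h1K, hKfc]; omega
  have hXc : Hf.card + X.card = Fintype.card G := by
    rw [hX, hHf]; exact Finset.card_filter_add_card_filter_not _
  have hGc : Nat.card H * H.index = Nat.card G := Subgroup.card_mul_index H
  have hXY : X.card = Y.card * Hf.card := by
    rw [Nat.card_eq_fintype_card (α := G)] at hGc
    rw [hHfc] at hXc ⊢
    rw [← hYc] at hGc
    nlinarith
  have hCH : Cf ⊆ Hf := by
    intro c hc
    simp only [hCf, mem_filter, mem_univ, true_and] at hc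
    simp only [hHf, mem_filter, mem_univ, true_and]
    exact hCt c hc
  have hfY : ∀ g ∈ X, (fun g => t * (g * t * g⁻¹)) g ∈ Y := by
    intro g hg
    have hg' : g ∉ H := by simpa [hX] using hg
    obtain ⟨h1, h2⟩ := hF3 g hg'
    rw [hY, Finset.mem_erase]
    refine ⟨h1, ?_⟩
    simp only [hKf, mem_filter, mem_univ, true_and, hKmem]
    right; exact h2
  have hsum := Finset.card_eq_sum_card_fiberwise hfY
  beta_reduce at hsum
  have hfib : ∀ k ∈ Y, (X.filter (fun g => t * (g * t * g⁻¹) = k)).card ≤ Cf.card := by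
    intro k _
    by_cases hne : (X.filter (fun g => t * (g * t * g⁻¹) = k)).Nonempty
    · obtain ⟨g₀, hg₀⟩ := hne
      rw [mem_filter] at hg₀
      apply Finset.card_le_card_of_injOn (fun g => g₀⁻¹ * g)
      · intro g hg
        rw [Finset.mem_coe, mem_filter] at hg
        simp only [hCf, Finset.mem_coe, mem_filter, mem_univ, true_and]
        have h1 : g * t * g⁻¹ = g₀ * t * g₀⁻¹ := mul_left_cancel (hg.2.trans hg₀.2.symm)
        calc g₀⁻¹ * g * t = g₀⁻¹ * (g * t * g⁻¹) * g := by group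
          _ = g₀⁻¹ * (g₀ * t * g₀⁻¹) * g := by rw [h1]
          _ = t * (g₀⁻¹ * g) := by group
      · intro a _ b _ h
        exact mul_left_cancel h
    · rw [Finset.not_nonempty_iff_eq_empty] at hne
      rw [hne]; simp
  have hYpos : 0 < Y.card := by omega
  have hle : X.card ≤ Y.card * Cf.card := by
    rw [hsum]
    calc _ ≤ ∑ _k ∈ Y, Cf.card := Finset.sum_le_sum hfib
      _ = Y.card * Cf.card := by rw [Finset.sum_const, smul_eq_mul]
  have hCeq : Cf = Hf := by
    apply Finset.eq_of_subset_of_card_le hCH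
    rw [hXY] at hle
    exact Nat.le_of_mul_le_mul_left hle hYpos
  have hcent : ∀ c ∈ H, c * t = t * c := by
    intro c hc
    have hmem : c ∈ Hf := by simp [hHf, hc]
    rw [← hCeq] at hmem
    simpa [hCf] using hmem
  have hHfpos : 0 < Hf.card := by rw [hHfc]; exact Nat.card_pos
  have hsurj : ∀ k ∈ Y, ∃ g, g ∉ H ∧ t * (g * t * g⁻¹) = k := by
    intro k hk
    by_contra hcon
    push_neg at hcon
    have hempty : (X.filter (fun g => t * (g * t * g⁻¹) = k)).card = 0 := by
      rw [Finset.card_eq_zero, Finset.filter_eq_empty_iff]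
      intro g hg
      have hg' : g ∉ H := by simpa [hX] using hg
      exact hcon g hg'
    have hlt : X.card < Y.card * Cf.card := by
      rw [hsum]
      calc _ < ∑ _k ∈ Y, Cf.card :=
            Finset.sum_lt_sum hfib ⟨k, hk, by rw [hempty, hCeq]; exact hHfpos⟩
        _ = Y.card * Cf.card := by rw [Finset.sum_const, smul_eq_mul]
    rw [hCeq, ← hXY] at hlt
    exact lt_irrefl _ hlt
  have hinvK : ∀ y : G, y ∈ Cfsg.frobeniusKernel H → t * y * t = y⁻¹ := by
    intro y hy
    by_cases hy1 : y = 1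
    · rw [hy1, mul_one, ht2, inv_one]
    · have hyY : y ∈ Y := by simp [hY, hKf, hy1, hy]
      obtain ⟨g, hg, hfg⟩ := hsurj y hyY
      rw [← hfg, mul_inv_rev, tinv]
      have e1 : (g * t * g⁻¹)⁻¹ = g * t * g⁻¹ := by
        have e : (g * t * g⁻¹)⁻¹ = g * t⁻¹ * g⁻¹ := by group
        rw [e, tinv]
      rw [e1]
      calc t * (t * (g * t * g⁻¹)) * t = (t * t) * (g * t * g⁻¹) * t := by group
        _ = g * t * g⁻¹ * t := by rw [ht2, one_mul]
  have hKconj : ∀ y g : G, y ∈ Cfsg.frobeniusKernel H → g⁻¹ * y * g ∈ Cfsg.frobeniusKernel H := by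
    intro y g hy
    rw [hKmem] at hy ⊢
    rcases hy with h | h
    · left; rw [h]; group
    · right
      intro a
      have h3 := h (g * a)
      have e : (g * a)⁻¹ * y * (g * a) = a⁻¹ * (g⁻¹ * y * g) * a := by group
      rw [e] at h3; exact h3
  intro x hx y hy
  by_cases hx1 : x = 1
  · rw [hx1, one_mul]; exact hy
  by_cases hy1 : y = 1
  · rw [hy1, mul_one]; exact hx
  have hxY : x ∈ Y := by simp [hY, hKf, hx1, hx]
  obtain ⟨g, hg, hfg⟩ := hsurj x hxY
  set s := g * t * g⁻¹ with hs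
  have hsy : s * y * s = y⁻¹ := by
    have h1 := hinvK _ (hKconj y g hy)
    calc s * y * s = g * (t * (g⁻¹ * y * g) * t) * g⁻¹ := by rw [hs]; group
      _ = g * (g⁻¹ * y * g)⁻¹ * g⁻¹ := by rw [h1]
      _ = y⁻¹ := by group
  have hss : s * s = 1 := by
    rw [hs]
    calc g * t * g⁻¹ * (g * t * g⁻¹) = g * (t * t) * g⁻¹ := by group
      _ = 1 := by rw [ht2]; group
  have hodd : Odd (orderOf y) := by
    by_contra hev
    rw [Nat.not_odd_iff_even] at hev
    obtain ⟨m, hm⟩ := hev
    have hpos : 0 < orderOf y := orderOf_pos y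
    set z := y ^ m with hz
    have hzz : z * z = 1 := by rw [hz, ← pow_add, ← hm, pow_orderOf_eq_one]
    have hz1 : z ≠ 1 := by
      intro h
      have h3 := orderOf_dvd_of_pow_eq_one h
      have h4 := Nat.le_of_dvd (by omega) h3
      omega
    have htz := inv_pow_of_inv t y ht2 (hinvK y hy) m
    have hzinv : z⁻¹ = z := inv_eq_of_mul_eq_one_left hzz
    rw [← hz, hzinv] at htz
    have hzc : z * t = t * z := by
      calc z * t = (t * z * t) * t := by rw [htz]
        _ = t * z * (t * t) := by group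
        _ = t * z := by rw [ht2, mul_one]
    have hzH : z ∈ H := hCt z hzc
    have hyH : y ∈ H := by
      apply ti_mem z y hzH hz1
      have e : y⁻¹ * z * y = z := by rw [hz]; group
      rw [e]; exact hzH
    rw [hKmem] at hy
    rcases hy with h | h
    · exact hy1 h
    · apply h 1; simpa using hyH
  obtain ⟨m, hm⟩ := hodd
  set w := y ^ (m + 1) with hw
  have hww : w * w = y := by
    rw [hw, ← pow_add]
    have e : m + 1 + (m + 1) = orderOf y + 1 := by omega
    rw [e, pow_succ, pow_orderOf_eq_one, one_mul]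
  have hsw : s * w * s = w⁻¹ := inv_pow_of_inv s y hss hsy (m + 1)
  have hxy : x * y = t * ((w⁻¹ * g) * t * (w⁻¹ * g)⁻¹) := by
    rw [← hfg, ← hww]
    calc t * s * (w * w) = t * (s * w * (s * s) * w) := by rw [hss]; group
      _ = t * ((s * w * s) * (s * w)) := by group
      _ = t * (w⁻¹ * (s * w)) := by rw [hsw]
      _ = t * ((w⁻¹ * g) * t * (w⁻¹ * g)⁻¹) := by rw [hs]; group
  rw [hxy]
  by_cases hc : w⁻¹ * g ∈ H
  · have h5 := hcent _ hc
    have e : (w⁻¹ * g) * t * (w⁻¹ * g)⁻¹ = t := by rw [h5]; group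
    rw [e, ht2, hKmem]
    left; rfl
  · obtain ⟨-, h2⟩ := hF3 _ hc
    rw [hKmem]
    right; exact h2

end Cfsg.Agent.S0036
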