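import Mathlib
import Cfsg.Statements.S0589
import Cfsg.Agent.S0034
import Cfsg.Agent.S0035

set_option autoImplicit false
open Pointwise
open Cfsg

namespace Cfsg.Agent.S0589

/-- conjugates of a Frobenius complement are TI -/
theorem conj_ti {G : Type*} [Group G] (H : Subgroup G) (hH : Cfsg.IsFrobeniusComplement H) (x y : G)
    (hy : y ∉ MulAut.conj x • H) :
    (MulAut.conj x • H) ⊓ (MulAut.conj y • MulAut.conj x • H) = ⊥ := by
  have h1 : x⁻¹ * y * x ∉ H := by
    intro h; apply hy
    rw [Subgroup.mem_pointwise_smul_iff_inv_smul_mem]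
    simpa [MulAut.conj_apply] using h
  have h2 := hH.2.2 _ h1
  have h3 : MulAut.conj x • (H ⊓ MulAut.conj (x⁻¹ * y * x) • H) = ⊥ := by
    rw [h2, Subgroup.smul_bot]
  rw [Subgroup.smul_inf, ← mul_smul, ← map_mul] at h3
  have : x * (x⁻¹ * y * x) = y * x := by group
  rw [this, map_mul, mul_smul] at h3
  exact h3

/-- core lemma: a subgroup all of whose nonidentity elements lie in conjugates of the Frobenius
complement `H` lies in a single conjugate of `H` -/
theorem core {G : Type*} [Group G] [Finite G] (H : Subgroup G) (hH : Cfsg.IsFrobeniusComplement H)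
    (n : ℕ) : ∀ L : Subgroup G, Nat.card L = n →
    (∀ l ∈ L, l ≠ 1 → ∃ g : G, l ∈ MulAut.conj g • H) → ∃ x : G, L ≤ MulAut.conj x • H := by
  induction n using Nat.strong_induction_on with
  | _ n ih =>
  intro L hcard hL
  by_cases hL1 : L = ⊥
  · exact ⟨1, hL1 ▸ bot_le⟩
  obtain ⟨⟨l, hl⟩, hl1'⟩ := (Subgroup.ne_bot_iff_exists_ne_one).1 hL1
  have hl1 : l ≠ 1 := fun e => hl1' (Subtype.ext e)
  obtain ⟨g, hg⟩ := hL l hl hl1
  set A := L ⊓ MulAut.conj g • H with hA
  by_cases hAL : A = L
  · exact ⟨g, by rw [← hAL]; exact inf_le_right⟩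
  have hfrob : Cfsg.IsFrobeniusComplement (A.subgroupOf L) := by
    refine ⟨?_, ?_, ?_⟩
    · intro e
      rw [Subgroup.subgroupOf_eq_bot, disjoint_iff, inf_of_le_left inf_le_left] at e
      have : l ∈ A := ⟨hl, hg⟩
      rw [hA, e] at this; exact hl1 (Subgroup.mem_bot.1 this)
    · intro e
      rw [Subgroup.subgroupOf_eq_top] at e
      exact hAL (le_antisymm inf_le_left e)
    · intro y hy
      have hy' : (y : G) ∉ MulAut.conj g • H :=
        fun h => hy (Subgroup.mem_subgroupOf.2 ⟨y.2, h⟩)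
      have hti := conj_ti H hH g (y : G) hy'
      rw [eq_bot_iff]
      intro z hz
      rw [Subgroup.mem_inf] at hz
      obtain ⟨hz1, hz2⟩ := hz
      rw [Subgroup.mem_subgroupOf] at hz1
      rw [Subgroup.mem_pointwise_smul_iff_inv_smul_mem, Subgroup.mem_subgroupOf] at hz2
      have h1 : (z : G) ∈ MulAut.conj (y : G) • MulAut.conj g • H := by
        rw [Subgroup.mem_pointwise_smul_iff_inv_smul_mem]
        exact hz2.2
      have h2 : (z : G) ∈ (MulAut.conj g • H) ⊓ (MulAut.conj (y : G) • MulAut.conj g • H) :=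
        ⟨hz1.2, h1⟩
      rw [hti] at h2
      rw [Subgroup.mem_bot] at h2 ⊢
      exact Subtype.ext h2
  obtain ⟨K', -, hKn, hKc⟩ := Cfsg.Agent.S0035.result (A.subgroupOf L) hfrob
  set K := K'.map L.subtype with hK
  have hKL : K ≤ L := Subgroup.map_subtype_le K'
  have hKcard : Nat.card K < n := by
    have h1 := hKc.card_mul_card
    have h2 : 1 < Nat.card (A.subgroupOf L) := (Subgroup.one_lt_card_iff_ne_bot _).2 hfrob.1
    rw [hK, Subgroup.card_map_of_injective (Subgroup.subtype_injective L), ← hcard]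
    have hpos : 0 < Nat.card K' := Nat.card_pos
    nlinarith
  have hKne : K ≠ ⊥ := by
    intro e
    rw [hK, Subgroup.map_eq_bot_iff_of_injective _ (Subgroup.subtype_injective L)] at e
    apply hfrob.2.1
    have h1 := hKc.card_mul_card
    rw [e, Subgroup.card_bot, one_mul] at h1
    exact Subgroup.eq_top_of_card_eq _ h1
  obtain ⟨x, hx⟩ := ih (Nat.card K) hKcard K rfl (fun k hk hk1 => hL k (hKL hk) hk1)
  refine ⟨x, ?_⟩
  intro y hy
  by_contra hcon
  have hti := conj_ti H hH x y hcon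
  obtain ⟨⟨k, hk⟩, hk1'⟩ := (Subgroup.ne_bot_iff_exists_ne_one).1 hKne
  have hk1 : k ≠ 1 := fun e => hk1' (Subtype.ext e)
  obtain ⟨k', hk', rfl⟩ := hk
  have hconj : y⁻¹ * (k' : G) * y ∈ K := by
    have := hKn.conj_mem k' hk' (⟨y, hy⟩ : L)⁻¹
    refine ⟨_, this, ?_⟩
    simp
  have h1 : (k' : G) ∈ MulAut.conj y • MulAut.conj x • H := by
    rw [Subgroup.mem_pointwise_smul_iff_inv_smul_mem]
    have := hx hconj
    simpa [MulAut.conj_apply] using this
  have h2 : (k' : G) ∈ (MulAut.conj x • H) ⊓ (MulAut.conj y • MulAut.conj x • H) :=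
    ⟨hx ⟨k', hk', rfl⟩, h1⟩
  rw [hti] at h2
  exact hk1 (Subgroup.mem_bot.1 h2)

theorem coprime_index {G : Type*} [Group G] [Finite G] (H : Subgroup G)
    (hH : Cfsg.IsFrobeniusComplement H) : (H.index).Coprime (Nat.card H) := by
  have h := (Cfsg.Agent.S0034.result H hH).2
  have h1 : H.index ≡ 1 [MOD Nat.card H] := h
  have h2 := h1.gcd_eq
  rw [Nat.gcd_one_left] at h2
  exact h2

theorem result {G : Type*} [Group G] [Finite G] (H : Subgroup G) (hH : Cfsg.IsFrobeniusComplement H) (L : Subgroup G) (hL : Nat.card L ∣ Nat.card H) : ∃ x : G, L ≤ MulAut.conj x • H := by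
  obtain ⟨N, hNset, hNn, hNc⟩ := Cfsg.Agent.S0035.result H hH
  have hNcard : Nat.card N = H.index := by
    have h1 := hNc.card_mul_card
    have h2 := Subgroup.card_mul_index H
    have hpos : 0 < Nat.card H := Nat.card_pos
    nlinarith
  apply core H hH _ L rfl
  intro l hl hl1
  by_contra hcon
  push Not at hcon
  have hlN : l ∈ N := by
    have : l ∈ (N : Set G) := by rw [hNset]; exact Or.inr hcon
    exact this
  have h1 : orderOf l ∣ Nat.card N := by
    have := orderOf_dvd_natCard (⟨l, hlN⟩ : N)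
    rwa [Subgroup.orderOf_mk] at this
  have h2 : orderOf l ∣ Nat.card H := by
    have := orderOf_dvd_natCard (⟨l, hl⟩ : L)
    rw [Subgroup.orderOf_mk] at this
    exact this.trans hL
  rw [hNcard] at h1
  have h3 := Nat.eq_one_of_dvd_coprimes (coprime_index H hH) h1 h2
  exact hl1 (orderOf_eq_one_iff.1 h3)

end Cfsg.Agent.S0589
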