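import Cfsg.Statements.S3383
import Mathlib

set_option autoImplicit false
open Cfsg

namespace Cfsg.Agent.S3383

open scoped Pointwise

theorem mem_conj_smul {L : Type*} [Group L] (H : Subgroup L) (g x : L) :
    x ∈ MulAut.conj g • H ↔ g⁻¹ * x * g ∈ H := by
  rw [Subgroup.mem_pointwise_smul_iff_inv_smul_mem]
  simp [MulAut.smul_def]

/-- Let H be a Frobenius complement in a finite group L and K the Frobenius kernel (as a subgroup). Then K is characteristic in L, and every normal subgroup of L either contains K or is contained in K. -/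
theorem result {L : Type*} [Group L] [Finite L]
    (H : Subgroup L) (hH : Cfsg.IsFrobeniusComplement H)
    (K : Subgroup L) (hK : (K : Set L) = Cfsg.frobeniusKernel H) :
    K.Characteristic ∧ ∀ N : Subgroup L, N.Normal → K ≤ N ∨ N ≤ K := by
  obtain ⟨hHbot, hHtop, hTI⟩ := hH
  have hKmem : ∀ x : L, x ∈ K ↔ (x = 1 ∨ ∀ g : L, x ∉ MulAut.conj g • H) := by
    intro x
    rw [← SetLike.mem_coe, hK]
    rfl
  have hKn : K.Normal := by
    constructor
    intro n hn g
    rw [hKmem] at hn ⊢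
    rcases hn with rfl | hn
    · left
      simp
    · right
      intro y hy
      apply hn (g⁻¹ * y)
      rw [mem_conj_smul] at hy ⊢
      have e : (g⁻¹ * y)⁻¹ * n * (g⁻¹ * y) = y⁻¹ * (g * n * g⁻¹) * y := by group
      rw [e]
      exact hy
  have hC : ∀ m ∈ K, ∀ x ∈ H, x ≠ 1 → m * x * m⁻¹ = x → m = 1 := by
    intro m hm x hx hx1 hcomm
    have hmH : m ∈ H := by
      by_contra hmH
      have h1 := hTI m hmH
      have h2 : x ∈ H ⊓ (MulAut.conj m • H) := by
        refine Subgroup.mem_inf.2 ⟨hx, ?_⟩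
        rw [mem_conj_smul]
        have e : m⁻¹ * x * m = x := by
          calc m⁻¹ * x * m = m⁻¹ * (m * x * m⁻¹) * m := by rw [hcomm]
            _ = x := by group
        rw [e]
        exact hx
      rw [h1, Subgroup.mem_bot] at h2
      exact hx1 h2
    rcases (hKmem m).1 hm with h | h
    · exact h
    · exfalso
      apply h 1
      rw [mem_conj_smul]
      simpa using hmH
  have hdich : ∀ N : Subgroup L, N.Normal → K ≤ N ∨ N ≤ K := by
    intro N hN
    by_cases hNK : N ≤ K
    · exact Or.inr hNK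
    · left
      obtain ⟨x, hxN, hxK⟩ := SetLike.not_le_iff_exists.1 hNK
      rw [hKmem, not_or] at hxK
      obtain ⟨hx1, hx2⟩ := hxK
      push Not at hx2
      obtain ⟨g, hg⟩ := hx2
      rw [mem_conj_smul] at hg
      obtain ⟨x', hx'def⟩ : ∃ x', x' = g⁻¹ * x * g := ⟨_, rfl⟩
      have hx'H : x' ∈ H := hx'def ▸ hg
      have hx'N : x' ∈ N := by
        rw [hx'def]
        have h0 := hN.conj_mem x hxN g⁻¹
        simpa using h0
      have hx'1 : x' ≠ 1 := by
        intro h
        apply hx1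
        rw [hx'def] at h
        have e : x = g * (g⁻¹ * x * g) * g⁻¹ := by group
        rw [e, h]
        group
      let c : K → K := fun k =>
        ⟨x' * k * x'⁻¹ * (k : L)⁻¹, K.mul_mem (hKn.conj_mem k k.2 x') (K.inv_mem k.2)⟩
      have hinj : Function.Injective c := by
        intro k k' hkk
        have h1 : x' * k * x'⁻¹ * (k : L)⁻¹ = x' * k' * x'⁻¹ * (k' : L)⁻¹ :=
          congrArg Subtype.val hkk
        have h3 : (k : L) * x'⁻¹ * (k : L)⁻¹ = k' * x'⁻¹ * (k' : L)⁻¹ := by
          have h0 := congrArg (fun t => x'⁻¹ * t) h1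
          simpa [mul_assoc] using h0
        have h4 : ((k' : L)⁻¹ * k) * x'⁻¹ * ((k' : L)⁻¹ * k)⁻¹ = x'⁻¹ := by
          calc ((k' : L)⁻¹ * k) * x'⁻¹ * ((k' : L)⁻¹ * k)⁻¹
              = (k' : L)⁻¹ * (k * x'⁻¹ * (k : L)⁻¹) * k' := by group
            _ = (k' : L)⁻¹ * (k' * x'⁻¹ * (k' : L)⁻¹) * k' := by rw [h3]
            _ = x'⁻¹ := by group
        have h2 : ((k' : L)⁻¹ * k) * x' * ((k' : L)⁻¹ * k)⁻¹ = x' := by
          have h0 := congrArg (fun t => t⁻¹) h4
          simp only [mul_inv_rev, inv_inv] at h0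
          calc ((k' : L)⁻¹ * k) * x' * ((k' : L)⁻¹ * k)⁻¹
              = (k' : L)⁻¹ * k * (x' * ((k : L)⁻¹ * k')) := by group
            _ = x' := h0
        have h5 := hC _ (K.mul_mem (K.inv_mem k'.2) k.2) x' hx'H hx'1 h2
        apply Subtype.ext
        exact (inv_mul_eq_one.1 h5).symm
      have hsurj := Finite.injective_iff_surjective.1 hinj
      intro k hk
      obtain ⟨k0, hk0⟩ := hsurj ⟨k, hk⟩
      have h7 : (k : L) = x' * k0 * x'⁻¹ * (k0 : L)⁻¹ := (congrArg Subtype.val hk0).symm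
      rw [h7]
      have h6 : (k0 : L) * x'⁻¹ * (k0 : L)⁻¹ ∈ N := hN.conj_mem _ (N.inv_mem hx'N) k0
      have e : x' * k0 * x'⁻¹ * (k0 : L)⁻¹ = x' * ((k0 : L) * x'⁻¹ * (k0 : L)⁻¹) := by group
      rw [e]
      exact N.mul_mem hx'N h6
  refine ⟨?_, hdich⟩
  rw [Subgroup.characteristic_iff_map_le]
  intro φ
  have hmn : (K.map φ.toMonoidHom).Normal := hKn.map φ.toMonoidHom φ.surjective
  rcases hdich _ hmn with h | h
  · have hc : Nat.card (K.map φ.toMonoidHom) = Nat.card K :=
      Subgroup.card_map_of_injective φ.injective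
    have h8 := Subgroup.eq_of_le_of_card_ge h (le_of_eq hc)
    exact h8.ge
  · exact h

end Cfsg.Agent.S3383
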