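import Mathlib
import Cfsg.Statements.S0037
import Cfsg.Agent.S0589
import Cfsg.Agent.S3383

set_option autoImplicit false
open Pointwise
open Cfsg

namespace Cfsg.Agent.S0037

/-- a Frobenius complement `H₀` meets the kernel of any Frobenius complement `H` of at least its
order trivially -/
theorem inf_kernel {G : Type*} [Group G] [Finite G] (H H₀ : Subgroup G)
    (hH : Cfsg.IsFrobeniusComplement H) (hH₀ : Cfsg.IsFrobeniusComplement H₀)
    (hle : Nat.card H₀ ≤ Nat.card H) (N : Subgroup G) (hNset : (N : Set G) = Cfsg.frobeniusKernel H)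
    (hNn : N.Normal) (hNc : Subgroup.IsComplement' N H) : H₀ ⊓ N = ⊥ := by
  obtain ⟨N₀, hN₀set, hN₀n, hN₀c⟩ := Cfsg.Agent.S0035.result H₀ hH₀
  have h1 := hNc.card_mul_card
  have h2 := hN₀c.card_mul_card
  have hcard : Nat.card N ≤ Nat.card N₀ := by
    by_contra hcon
    push Not at hcon
    have hpos : 0 < Nat.card H₀ := Nat.card_pos
    have : Nat.card N₀ * Nat.card H₀ < Nat.card N * Nat.card H := by
      calc Nat.card N₀ * Nat.card H₀ < Nat.card N * Nat.card H₀ :=
            Nat.mul_lt_mul_of_pos_right hcon hpos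
        _ ≤ Nat.card N * Nat.card H := Nat.mul_le_mul_left _ hle
    omega
  have hNN₀ : N ≤ N₀ := by
    rcases (Cfsg.Agent.S3383.result H₀ hH₀ N₀ hN₀set).2 N hNn with h | h
    · exact (Subgroup.eq_of_le_of_card_ge h hcard).ge
    · exact h
  have h3 : H₀ ⊓ N₀ = ⊥ := by
    rw [inf_comm]; exact hN₀c.disjoint.eq_bot
  exact le_bot_iff.1 (h3 ▸ inf_le_inf_left H₀ hNN₀)

theorem result {G : Type*} [Group G] [Finite G] (H H₀ : Subgroup G)
    (hH : Cfsg.IsFrobeniusComplement H) (hH₀ : Cfsg.IsFrobeniusComplement H₀) (hle : Nat.card H₀ ≤ Nat.card H) :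
    ∃ g : G, MulAut.conj g • H₀ ≤ H := by
  obtain ⟨N, hNset, hNn, hNc⟩ := Cfsg.Agent.S0035.result H hH
  have hdisj := inf_kernel H H₀ hH hH₀ hle N hNset hNn hNc
  obtain ⟨x, hx⟩ := Cfsg.Agent.S0589.core H hH _ H₀ rfl (by
    intro l hl hl1
    by_contra hcon
    push Not at hcon
    have hlN : l ∈ N := by
      have : l ∈ (N : Set G) := by rw [hNset]; exact Or.inr hcon
      exact this
    have : l ∈ H₀ ⊓ N := ⟨hl, hlN⟩
    rw [hdisj] at this
    exact hl1 (Subgroup.mem_bot.1 this))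
  refine ⟨x⁻¹, ?_⟩
  rw [Subgroup.pointwise_smul_subset_iff, map_inv, inv_inv]
  exact hx

end Cfsg.Agent.S0037
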