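import Mathlib
import Cfsg.Statements.S0038
import Cfsg.Agent.S0037
import Cfsg.Agent.S0666
import Cfsg.Agent.S0039
import Cfsg.Agent.S0539
import Cfsg.Agent.S0533

set_option autoImplicit false
open Pointwise
open Cfsg

namespace Cfsg.Agent.S0038

open Cfsg.Agent.S0539 Cfsg.Agent.S0538

theorem frob_conj {G : Type*} [Group G] [Finite G] (H : Subgroup G)
    (hH : Cfsg.IsFrobeniusComplement H) (g : G) :
    Cfsg.IsFrobeniusComplement (MulAut.conj g • H) := by
  refine ⟨?_, ?_, ?_⟩
  · intro e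
    apply hH.1
    have := card_smul g H
    rw [e, Subgroup.card_bot] at this
    exact Subgroup.card_eq_one.1 this.symm
  · intro e
    apply hH.2.1
    have := card_smul g H
    rw [e, Subgroup.card_top] at this
    exact Subgroup.eq_top_of_card_eq _ this.symm
  · intro y hy
    exact Cfsg.Agent.S0589.conj_ti H hH g y hy

theorem aux {G : Type*} [Group G] [Finite G] (H H₀ : Subgroup G)
    (hH : Cfsg.IsFrobeniusComplement H) (hH₀ : Cfsg.IsFrobeniusComplement H₀)
    (hle : Nat.card H₀ ≤ Nat.card H) : ∃ g : G, MulAut.conj g • H₀ = H := by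
  obtain ⟨g, hg⟩ := Cfsg.Agent.S0037.result H H₀ hH hH₀ hle
  refine ⟨g, ?_⟩
  by_contra hne
  set H₁ := MulAut.conj g • H₀ with hH₁
  have hH₁frob : Cfsg.IsFrobeniusComplement H₁ := frob_conj H₀ hH₀ g
  -- H₁ is a Frobenius complement inside H
  have hfrob : Cfsg.IsFrobeniusComplement (H₁.subgroupOf H) := by
    refine ⟨?_, ?_, ?_⟩
    · intro e
      rw [Subgroup.subgroupOf_eq_bot, disjoint_iff, inf_of_le_left hg] at e
      exact hH₁frob.1 e
    · intro e
      rw [Subgroup.subgroupOf_eq_top] at e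
      exact hne (le_antisymm hg e)
    · intro y hy
      have hy' : (y : G) ∉ H₁ := fun h => hy (Subgroup.mem_subgroupOf.2 h)
      have hti := hH₁frob.2.2 (y : G) hy'
      rw [eq_bot_iff]
      intro z hz
      rw [Subgroup.mem_inf] at hz
      obtain ⟨hz1, hz2⟩ := hz
      rw [Subgroup.mem_subgroupOf] at hz1
      rw [Subgroup.mem_pointwise_smul_iff_inv_smul_mem, Subgroup.mem_subgroupOf] at hz2
      have h1 : (z : G) ∈ MulAut.conj (y : G) • H₁ := by
        rw [Subgroup.mem_pointwise_smul_iff_inv_smul_mem]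
        exact hz2
      have h2 : (z : G) ∈ H₁ ⊓ MulAut.conj (y : G) • H₁ := ⟨hz1, h1⟩
      rw [hti] at h2
      rw [Subgroup.mem_bot] at h2 ⊢
      exact Subtype.ext h2
  -- kernel of H in G
  obtain ⟨N, hNset, hNn, hNc⟩ := Cfsg.Agent.S0035.result H hH
  haveI := hNn
  have hNcard : Nat.card N = H.index := by
    have h1 := hNc.card_mul_card
    have h2 := Subgroup.card_mul_index H
    have hpos : 0 < Nat.card H := Nat.card_pos
    nlinarith
  have hNne : N ≠ ⊥ := by
    intro e
    apply hH.2.1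
    have h1 := hNc.card_mul_card
    rw [e, Subgroup.card_bot, one_mul] at h1
    exact Subgroup.eq_top_of_card_eq _ h1
  have hfpf := (Cfsg.Agent.S0039.result N H hNc hNne hH.1).1 hH
  have hcopNH : (Nat.card N).Coprime (Nat.card H) := by
    rw [hNcard]; exact Cfsg.Agent.S0589.coprime_index H hH
  -- an H-invariant p-subgroup of N
  have hNcard1 : Nat.card N ≠ 1 := fun e => hNne (Subgroup.card_eq_one.1 e)
  obtain ⟨p, hp, hpN⟩ := Nat.exists_prime_and_dvd hNcard1
  haveI : Fact p.Prime := ⟨hp⟩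
  obtain ⟨P₀⟩ : Nonempty (Sylow p N) := inferInstance
  set P : Subgroup G := (P₀ : Subgroup N).map N.subtype with hPdef
  have hPN : P ≤ N := Subgroup.map_subtype_le _
  have hPp : IsPGroup p P := P₀.2.map _
  have hPne : P ≠ ⊥ := by
    intro e
    rw [hPdef, Subgroup.map_eq_bot_iff_of_injective _ (Subgroup.subtype_injective N)] at e
    exact P₀.ne_bot_of_dvd_card hpN e
  set M := Subgroup.normalizer (P : Set G) with hM
  have hMN : M ⊔ N = ⊤ := Sylow.normalizer_sup_eq_top P₀
  have hrel : N.relIndex M = Nat.card H := by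
    have h1 := Subgroup.relIndex_sup_right M N
    rw [hMN, Subgroup.relIndex_top_right] at h1
    rw [← h1]
    have h2 := hNc.card_mul_card
    have h3 := Subgroup.card_mul_index N
    have hpos : 0 < Nat.card N := Nat.card_pos
    exact Nat.eq_of_mul_eq_mul_left hpos (h3.trans h2.symm)
  have hcop : (Nat.card (N.subgroupOf M)).Coprime (N.subgroupOf M).index := by
    have h1 : (N.subgroupOf M).index = Nat.card H := hrel
    rw [h1, Cfsg.Agent.S0003.card_subgroupOf_eq']
    exact Nat.Coprime.coprime_dvd_left (Subgroup.card_dvd_of_le inf_le_left) hcopNH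
  obtain ⟨H'', hH''⟩ := Subgroup.exists_right_complement'_of_coprime hcop
  have hH''card : Nat.card H'' = Nat.card H := by
    have h1 := hH''.card_mul_card
    have h2 := Subgroup.card_mul_index (N.subgroupOf M)
    have h3 : (N.subgroupOf M).index = Nat.card H := hrel
    rw [h3] at h2
    have hpos : 0 < Nat.card (N.subgroupOf M) := Nat.card_pos
    exact Nat.eq_of_mul_eq_mul_left hpos (h1.trans h2.symm)
  set H' := H''.map M.subtype with hH'
  have hH'card : Nat.card H' = Nat.card H := by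
    rw [hH', Subgroup.card_map_of_injective (Subgroup.subtype_injective M), hH''card]
  have hH'M : H' ≤ M := Subgroup.map_subtype_le _
  obtain ⟨x, hx⟩ := Cfsg.Agent.S0589.result H hH H' (by rw [hH'card])
  have hxeq : H' = MulAut.conj x • H :=
    Subgroup.eq_of_le_of_card_ge hx (by rw [card_smul, hH'card])
  have hxM : MulAut.conj x • H ≤ M := hxeq ▸ hH'M
  set P₁ := MulAut.conj x⁻¹ • P with hP₁
  have hHP₁ : H ≤ Subgroup.normalizer (P₁ : Set G) := by
    intro h hh
    rw [mem_normalizer_iff_smul, hP₁, ← mul_smul, ← map_mul]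
    have e : h * x⁻¹ = x⁻¹ * (x * h * x⁻¹) := by group
    rw [e, map_mul, mul_smul]
    have h1 : x * h * x⁻¹ ∈ MulAut.conj x • H :=
      Subgroup.smul_mem_pointwise_smul h (MulAut.conj x) H hh
    have h2 := (mem_normalizer_iff_smul _ P).1 (hxM h1)
    rw [h2]
  have hP₁N : P₁ ≤ N := by
    have := (Subgroup.pointwise_smul_le_pointwise_smul_iff (a := MulAut.conj x⁻¹)).2 hPN
    rwa [Subgroup.Normal.conj_smul_eq_self x⁻¹ N] at this
  have hP₁p : IsPGroup p P₁ := by
    obtain ⟨k, hk⟩ := (IsPGroup.iff_card).1 hPp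
    exact IsPGroup.of_card (n := k) (by rw [hP₁, card_smul]; exact hk)
  have hP₁ne : P₁ ≠ ⊥ := by
    intro e
    have := card_smul x⁻¹ P
    rw [← hP₁, e, Subgroup.card_bot] at this
    exact hPne (Subgroup.card_eq_one.1 this.symm)
  -- V := Z(P₁)
  set V : Subgroup G := P₁ ⊓ Subgroup.centralizer (P₁ : Set G) with hV
  have hVN : V ≤ N := inf_le_left.trans hP₁N
  have hVab : IsMulCommutative V := by
    refine ⟨⟨fun a b => ?_⟩⟩
    apply Subtype.ext
    have ha := a.2.2
    have hb := b.2.1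
    exact (Subgroup.mem_centralizer_iff.1 ha b hb).symm
  have hV1 : V ≠ ⊥ := by
    obtain ⟨v, hv, hv1, hvc⟩ := Cfsg.Agent.S0533.exists_central_in_normal p P₁ P₁ hP₁p le_rfl
      Subgroup.le_normalizer hP₁ne
    intro e
    have : v ∈ V := ⟨hv, Subgroup.mem_centralizer_iff.2 (fun y hy => hvc y hy)⟩
    rw [e] at this
    exact hv1 (Subgroup.mem_bot.1 this)
  have hHV : H ≤ Subgroup.normalizer (V : Set G) := by
    rw [Subgroup.le_normalizer_iff]
    intro h hh z hz
    have hn := hHP₁ hh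
    have hn' := Subgroup.inv_mem _ hn
    refine Subgroup.mem_inf.2 ⟨(Subgroup.mem_normalizer_iff.1 hn z).1 hz.1, ?_⟩
    rw [Subgroup.mem_centralizer_iff]
    intro y hy
    have hy' : h⁻¹ * y * h ∈ P₁ := by
      have := (Subgroup.mem_normalizer_iff.1 hn' y).1 hy
      simpa using this
    have hc := Subgroup.mem_centralizer_iff.1 hz.2 _ hy'
    calc y * (h * z * h⁻¹) = h * ((h⁻¹ * y * h) * z) * h⁻¹ := by group
      _ = h * (z * (h⁻¹ * y * h)) * h⁻¹ := by rw [hc]
      _ = h * z * h⁻¹ * y := by group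
  -- kernel of H₁ in H
  obtain ⟨D, hDset, hDn, hDc⟩ := Cfsg.Agent.S0035.result (H₁.subgroupOf H) hfrob
  have hDne : D ≠ ⊥ := by
    intro e
    apply hfrob.2.1
    have h1 := hDc.card_mul_card
    rw [e, Subgroup.card_bot, one_mul] at h1
    exact Subgroup.eq_top_of_card_eq _ h1
  have hcopV : (Nat.card V).Coprime (Nat.card (Cfsg.frobeniusKernel (H₁.subgroupOf H))) := by
    have h1 : Nat.card (Cfsg.frobeniusKernel (H₁.subgroupOf H)) = Nat.card D := by
      rw [← hDset]; rfl
    rw [h1]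
    exact Nat.Coprime.coprime_dvd_left (Subgroup.card_dvd_of_le hVN)
      (Nat.Coprime.coprime_dvd_right (Subgroup.card_subgroup_dvd_card D) hcopNH)
  have hCK : V ⊓ Subgroup.centralizer
      (Subtype.val '' Cfsg.frobeniusKernel (H₁.subgroupOf H) : Set G) = ⊥ := by
    obtain ⟨⟨d, hd⟩, hd1'⟩ := (Subgroup.ne_bot_iff_exists_ne_one).1 hDne
    have hd1 : (d : G) ≠ 1 := fun e => hd1' (Subtype.ext (Subtype.ext e))
    rw [eq_bot_iff]
    rintro z ⟨hzV, hzc⟩
    have hdk : d ∈ Cfsg.frobeniusKernel (H₁.subgroupOf H) := by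
      rw [← hDset]; exact hd
    have hcomm := Subgroup.mem_centralizer_iff.1 hzc (d : G) ⟨d, hdk, rfl⟩
    have hz : z ∈ N ⊓ Subgroup.centralizer {(d : G)} :=
      ⟨hVN hzV, Subgroup.mem_centralizer_iff.2 (fun y hy => by
        rw [Set.mem_singleton_iff] at hy; rw [hy]; exact hcomm)⟩
    rw [hfpf (d : G) d.2 hd1] at hz
    exact hz
  have hfinal := Cfsg.Agent.S0666.result V H hVab hV1 hHV (H₁.subgroupOf H) hfrob hcopV hCK
  apply hfinal
  rw [eq_bot_iff]
  rintro z ⟨hzV, hzc⟩
  obtain ⟨⟨h₁, hh₁⟩, hh1'⟩ := (Subgroup.ne_bot_iff_exists_ne_one).1 hH₁frob.1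
  have hh1 : h₁ ≠ 1 := fun e => hh1' (Subtype.ext e)
  have hmem : h₁ ∈ ((H₁.subgroupOf H).map H.subtype : Subgroup G) := by
    rw [Subgroup.map_subgroupOf_eq_of_le hg]; exact hh₁
  have hcomm := Subgroup.mem_centralizer_iff.1 hzc h₁ hmem
  have hz : z ∈ N ⊓ Subgroup.centralizer {h₁} :=
    ⟨hVN hzV, Subgroup.mem_centralizer_iff.2 (fun y hy => by
      rw [Set.mem_singleton_iff] at hy; rw [hy]; exact hcomm)⟩
  rw [hfpf h₁ (hg hh₁) hh1] at hz
  exact hz

theorem result {G : Type*} [Group G] [Finite G] (H H₀ : Subgroup G)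
    (hH : Cfsg.IsFrobeniusComplement H) (hH₀ : Cfsg.IsFrobeniusComplement H₀) :
    ∃ g : G, MulAut.conj g • H₀ = H := by
  rcases le_total (Nat.card H₀) (Nat.card H) with h | h
  · exact aux H H₀ hH hH₀ h
  · obtain ⟨g, hg⟩ := aux H₀ H hH₀ hH h
    exact ⟨g⁻¹, by rw [← hg, ← mul_smul, ← map_mul, inv_mul_cancel, map_one, one_smul]⟩

end Cfsg.Agent.S0038
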