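import Mathlib
import Cfsg.Statements.S0041

set_option autoImplicit false
open Pointwise
open Cfsg

namespace Cfsg.Agent.S0041

theorem exists_rank_two {A : Type*} [CommGroup A] [Finite A] (h : ¬ IsCyclic A) :
    ∃ p : ℕ, p.Prime ∧ ∃ x y : A, x ≠ 1 ∧ x ^ p = 1 ∧ y ^ p = 1 ∧ y ∉ Subgroup.zpowers x := by
  classical
  have he : Monoid.exponent A ≠ Nat.card A := fun h' => h (IsCyclic.iff_exponent_eq_card.2 h')
  have he0 : Monoid.exponent A ≠ 0 := Monoid.exponent_ne_zero_of_finite
  obtain ⟨g, hg⟩ := Monoid.exists_orderOf_eq_exponent (Monoid.ExponentExists.of_finite (G := A))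
  have hgt : Subgroup.zpowers g ≠ ⊤ := by
    intro ht
    apply he
    rw [← hg, ← Nat.card_zpowers, ht, Subgroup.card_top]
  have hcard : Nat.card (A ⧸ Subgroup.zpowers g) ≠ 1 := by
    intro h1
    apply hgt
    rw [← Subgroup.index_eq_one]
    exact h1
  obtain ⟨p, hp, hpd⟩ := Nat.exists_prime_and_dvd hcard
  haveI := Fact.mk hp
  obtain ⟨yb, hyb⟩ := exists_prime_orderOf_dvd_card' p hpd
  obtain ⟨y0, rfl⟩ := QuotientGroup.mk_surjective yb
  have hy0p : y0 ^ p ∈ Subgroup.zpowers g := by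
    rw [← QuotientGroup.eq_one_iff, QuotientGroup.mk_pow, ← hyb, pow_orderOf_eq_one]
  have hy0 : y0 ∉ Subgroup.zpowers g := by
    intro hmem
    have h1 : (y0 : A ⧸ Subgroup.zpowers g) = 1 := (QuotientGroup.eq_one_iff _).2 hmem
    rw [h1, orderOf_one] at hyb
    exact hp.one_lt.ne' hyb.symm
  have hpe : p ∣ Monoid.exponent A := by
    have h1 : orderOf (y0 : A ⧸ Subgroup.zpowers g) ∣ orderOf y0 :=
      orderOf_dvd_of_pow_eq_one (by rw [← QuotientGroup.mk_pow, pow_orderOf_eq_one]; rfl)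
    rw [hyb] at h1
    exact h1.trans (Monoid.order_dvd_exponent y0)
  obtain ⟨m, hm⟩ := hpe
  obtain ⟨k, hk⟩ := (mem_powers_iff_mem_zpowers.2 hy0p)
  have hk1 : g ^ k = y0 ^ p := hk
  have hk' : g ^ (k * m) = 1 := by
    rw [pow_mul, hk1, ← pow_mul, ← hm, Monoid.pow_exponent_eq_one]
  have hdvd : p * m ∣ k * m := by rw [← hm, ← hg]; exact orderOf_dvd_of_pow_eq_one hk'
  have hm0 : 0 < m := Nat.pos_of_ne_zero (by rintro rfl; simp at hm; exact he0 hm)
  have hpk : p ∣ k := Nat.dvd_of_mul_dvd_mul_right hm0 hdvd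
  obtain ⟨k', rfl⟩ := hpk
  refine ⟨p, hp, g ^ m, y0 * (g ^ k')⁻¹, ?_, ?_, ?_, ?_⟩
  · intro h1
    have h2 := orderOf_dvd_of_pow_eq_one h1
    rw [hg, hm] at h2
    have h3 := Nat.le_of_dvd hm0 h2
    nlinarith [hp.two_le]
  · rw [← pow_mul, mul_comm, ← hm, Monoid.pow_exponent_eq_one]
  · rw [mul_pow, inv_pow, ← pow_mul, mul_comm k' p, hk1, mul_inv_cancel]
  · intro hmem
    apply hy0
    have h2 : Subgroup.zpowers (g ^ m) ≤ Subgroup.zpowers g :=
      Subgroup.zpowers_le.2 (Subgroup.pow_mem _ (Subgroup.mem_zpowers g) m)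
    have h3 := h2 hmem
    have h4 : (g ^ k') ∈ Subgroup.zpowers g := Subgroup.pow_mem _ (Subgroup.mem_zpowers g) k'
    have h5 := Subgroup.mul_mem _ h3 h4
    simpa using h5

theorem eq_of_pow_eq {A : Type*} [Group A] {a b : A} {j p : ℕ} (hc : Nat.Coprime j p)
    (ha : a ^ p = 1) (hb : b ^ p = 1) (h : a ^ j = b ^ j) : a = b := by
  have e := Nat.gcd_eq_gcd_ab j p
  rw [hc] at e
  have key : ∀ c : A, c ^ p = 1 → c = (c ^ j) ^ (Nat.gcdA j p) := by
    intro c hcp
    calc c = c ^ (1 : ℤ) := (zpow_one c).symm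
      _ = c ^ ((j : ℤ) * Nat.gcdA j p + p * Nat.gcdB j p) := by rw [← e]; norm_cast
      _ = (c ^ j) ^ (Nat.gcdA j p) := by
        rw [zpow_add, zpow_mul, zpow_mul, zpow_natCast, zpow_natCast, hcp, one_zpow, mul_one]
  rw [key a ha, key b hb, h]

section abstract

variable {A : Type*} [Group A] [Finite A] {R : Type*} [Ring R] [Nontrivial R] (ρ : A →* R)

theorem geom_zero (hF : ∀ a : A, a ≠ 1 → ∀ T : R, ρ a * T = T → T = 0)
    (a : A) (ha : a ≠ 1) (n : ℕ) (hn : a ^ n = 1) :
    ∑ j ∈ Finset.range n, (ρ a) ^ j = 0 := by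
  apply hF a ha
  have h1 : (ρ a - 1) * ∑ j ∈ Finset.range n, (ρ a) ^ j = 0 := by
    rw [mul_geom_sum, ← map_pow, hn, map_one, sub_self]
  rw [sub_mul, one_mul, sub_eq_zero] at h1
  exact h1

theorem char_contra (hF : ∀ a : A, a ≠ 1 → ∀ T : R, ρ a * T = T → T = 0)
    (r : ℕ) (hr : r.Prime) (h0 : (r : R) = 0) (a : A) (ha : a ≠ 1) (har : a ^ r = 1) : False := by
  haveI := Fact.mk hr
  haveI : CharP R r := (CharP.charP_iff_prime_eq_zero hr).2 h0
  have h1 : (ρ a - 1) ^ r = 0 := by
    rw [sub_pow_char_of_commute (p := r) (Commute.one_right (ρ a)), one_pow, ← map_pow, har, map_one,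
      sub_self]
  have h2 : ∀ n : ℕ, ∀ T : R, (ρ a - 1) ^ n * T = 0 → T = 0 := by
    intro n
    induction n with
    | zero => intro T hT; simpa using hT
    | succ n ih =>
      intro T hT
      rw [pow_succ, mul_assoc] at hT
      have h3 := ih _ hT
      rw [sub_mul, one_mul, sub_eq_zero] at h3
      exact hF a ha T h3
  have h4 := h2 r 1 (by rw [h1, zero_mul])
  exact one_ne_zero h4

theorem abelian_case (hF : ∀ a : A, a ≠ 1 → ∀ T : R, ρ a * T = T → T = 0)
    (hcomm : ∀ a b : A, a * b = b * a) : IsCyclic A := by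
  classical
  by_contra hnc
  letI : CommGroup A := { ‹Group A› with mul_comm := hcomm }
  obtain ⟨p, hp, x, y, hx1, hxp, hyp, hy⟩ := exists_rank_two (A := A) hnc
  haveI := Fact.mk hp
  have hox : orderOf x = p := orderOf_eq_prime hxp hx1
  have key : (p : R) = 0 := by
    have h1 : ∑ k ∈ Finset.range p, ∑ j ∈ Finset.range p, (ρ (x ^ k * y)) ^ j = 0 := by
      apply Finset.sum_eq_zero
      intro k _
      apply geom_zero ρ hF
      · intro h
        apply hy
        have h2 : y = (x ^ k)⁻¹ := eq_inv_of_mul_eq_one_right h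
        rw [h2]
        exact Subgroup.inv_mem _ (Subgroup.pow_mem _ (Subgroup.mem_zpowers x) k)
      · have h3 : (x ^ k * y) ^ p = (x ^ k) ^ p * y ^ p := by
          rw [(show Commute (x ^ k) y from hcomm _ _).mul_pow]
        rw [h3, ← pow_mul, Nat.mul_comm k p, pow_mul, hxp, one_pow, hyp, one_mul]
    rw [Finset.sum_comm] at h1
    have h2 : ∀ j ∈ Finset.range p,
        ∑ k ∈ Finset.range p, (ρ (x ^ k * y)) ^ j = if j = 0 then (p : R) else 0 := by
      intro j hj
      have h3 : ∀ k, (ρ (x ^ k * y)) ^ j = (ρ (x ^ j)) ^ k * ρ (y ^ j) := by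
        intro k
        rw [← map_pow, ← map_pow, ← map_mul, (show Commute (x ^ k) y from hcomm _ _).mul_pow,
          ← pow_mul, ← pow_mul, Nat.mul_comm k j]
      simp_rw [h3, ← Finset.sum_mul]
      split_ifs with h0
      · subst h0; simp
      · rw [geom_zero ρ hF (x ^ j) ?_ p ?_, zero_mul]
        · intro h4
          have h5 := orderOf_dvd_of_pow_eq_one h4
          rw [hox] at h5
          have h6 := Nat.le_of_dvd (Nat.pos_of_ne_zero h0) h5
          exact absurd (Finset.mem_range.1 hj) (not_lt.2 h6)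
        · rw [← pow_mul, Nat.mul_comm j p, pow_mul, hxp, one_pow]
    rw [Finset.sum_congr rfl h2] at h1
    simpa [Finset.sum_ite_eq', hp.pos] using h1
  exact char_contra ρ hF p hp key x hx1 hxp

theorem pq_case (hF : ∀ a : A, a ≠ 1 → ∀ T : R, ρ a * T = T → T = 0)
    (p q : ℕ) (hp : p.Prime) (hq : q.Prime) (hpq : p < q) (hcard : Nat.card A = p * q) :
    IsCyclic A := by
  classical
  by_contra hnc
  haveI := Fact.mk hq
  haveI := Fact.mk hp
  obtain ⟨x, hx⟩ := exists_prime_orderOf_dvd_card' (G := A) q (by rw [hcard]; exact dvd_mul_left q p)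
  set Q : Subgroup A := Subgroup.zpowers x with hQ
  have hQcard : Nat.card Q = q := by rw [hQ, Nat.card_zpowers, hx]
  have hQidx : Q.index = p := by
    have h1 := Subgroup.card_mul_index Q
    rw [hQcard, hcard, mul_comm] at h1
    exact Nat.eq_of_mul_eq_mul_right hq.pos h1
  have hmin : (Nat.card A).minFac = p := by
    have h1 : (Nat.card A).minFac ≤ p := Nat.minFac_le_of_dvd hp.two_le (by rw [hcard]; exact dvd_mul_right p q)
    have h2 : (Nat.card A).minFac ∣ p * q := by rw [← hcard]; exact Nat.minFac_dvd _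
    have h3 : (Nat.card A).minFac.Prime := Nat.minFac_prime (by rw [hcard]; nlinarith [hp.two_le, hq.two_le])
    rcases (Nat.Prime.dvd_mul h3).1 h2 with h4 | h4
    · exact (Nat.prime_dvd_prime_iff_eq h3 hp).1 h4
    · have := (Nat.prime_dvd_prime_iff_eq h3 hq).1 h4
      omega
  haveI hQn : Q.Normal := Subgroup.normal_of_index_eq_minFac_card (by rw [hQidx, hmin])
  have hquot : Nat.card (A ⧸ Q) = p := hQidx
  have hx1 : x ≠ 1 := by
    rintro rfl
    rw [orderOf_one] at hx
    exact hq.one_lt.ne' hx.symm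
  have hxQ : x ∈ Q := Subgroup.mem_zpowers x
  obtain ⟨y, hy⟩ : ∃ y : A, y ∉ Q := by
    by_contra hall
    push_neg at hall
    have h1 : Q = ⊤ := (Subgroup.eq_top_iff' Q).2 hall
    rw [h1, Subgroup.index_top] at hQidx
    exact hp.one_lt.ne' hQidx.symm
  have hpow_mem : ∀ a : A, a ^ p ∈ Q := by
    intro a
    rw [← QuotientGroup.eq_one_iff, QuotientGroup.mk_pow, ← hquot]
    exact pow_card_eq_one'
  have hgy : ∀ g ∈ Q, (g * y) ^ p = 1 := by
    intro g hg
    have ho : orderOf (g * y) ∣ p * q := by rw [← hcard]; exact orderOf_dvd_natCard _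
    obtain ⟨k₁, k₂, hk₁, hk₂, hk⟩ := (Nat.dvd_mul).1 ho
    rcases (Nat.dvd_prime hp).1 hk₁ with e1 | e1
    · rcases (Nat.dvd_prime hq).1 hk₂ with e2 | e2
      · have h1 : g * y = 1 := by rw [← orderOf_eq_one_iff, ← hk, e1, e2]
        rw [h1, one_pow]
      · exfalso
        have h1 : (g * y) ^ q = 1 := by
          have := pow_orderOf_eq_one (g * y)
          rw [← hk, e1, e2, one_mul] at this
          exact this
        have h2 : ((g * y : A) : A ⧸ Q) ^ q = 1 := by rw [← QuotientGroup.mk_pow, h1]; rfl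
        have h3 : ((g * y : A) : A ⧸ Q) ^ p = 1 := by rw [← hquot]; exact pow_card_eq_one'
        have h4 := pow_gcd_eq_one.2 ⟨h3, h2⟩
        rw [(Nat.coprime_primes hp hq).2 hpq.ne, pow_one, QuotientGroup.eq_one_iff] at h4
        exact hy ((Subgroup.mul_mem_cancel_left Q hg).1 h4)
    · rcases (Nat.dvd_prime hq).1 hk₂ with e2 | e2
      · rw [e1, e2, mul_one] at hk
        have := pow_orderOf_eq_one (g * y)
        rw [← hk] at this
        exact this
      · exfalso
        exact hnc (isCyclic_of_orderOf_eq_card (g * y) (by rw [← hk, hcard, e1, e2]))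
  have hgy1 : ∀ g ∈ Q, g * y ≠ 1 := by
    intro g hg h1
    have h2 : y = g⁻¹ := eq_inv_of_mul_eq_one_right h1
    exact hy (h2 ▸ Subgroup.inv_mem _ hg)
  haveI : Fintype Q := Fintype.ofFinite Q
  have hNQ : ∑ g : Q, ρ (g : A) = 0 := by
    apply hF x hx1
    rw [Finset.mul_sum]
    have h1 : ∀ g : Q, ρ x * ρ (g : A) = ρ (((⟨x, hxQ⟩ : Q) * g : Q) : A) := by
      intro g; rw [← map_mul]; rfl
    simp_rw [h1]
    exact Fintype.sum_equiv (Equiv.mulLeft (⟨x, hxQ⟩ : Q)) _ _ (fun g => rfl)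
  have hmemj : ∀ (j : ℕ) (g : Q), ((g : A) * y) ^ j * (y ^ j)⁻¹ ∈ Q := by
    intro j g
    rw [← QuotientGroup.eq_one_iff]
    have h1 : ((g : A) : A ⧸ Q) = 1 := (QuotientGroup.eq_one_iff _).2 g.2
    rw [QuotientGroup.mk_mul, QuotientGroup.mk_pow, QuotientGroup.mk_mul, h1, one_mul,
      QuotientGroup.mk_inv, QuotientGroup.mk_pow, mul_inv_cancel]
  have key : (q : R) = 0 := by
    have h1 : ∑ g : Q, ∑ j ∈ Finset.range p, (ρ ((g : A) * y)) ^ j = 0 := by
      apply Finset.sum_eq_zero
      intro g _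
      exact geom_zero ρ hF _ (hgy1 g g.2) p (hgy g g.2)
    rw [Finset.sum_comm] at h1
    have h2 : ∀ j ∈ Finset.range p,
        ∑ g : Q, (ρ ((g : A) * y)) ^ j = if j = 0 then (q : R) else 0 := by
      intro j hj
      split_ifs with h0
      · subst h0
        simp [hQcard, ← Nat.card_eq_fintype_card]
      · let φ : Q → Q := fun g => ⟨((g : A) * y) ^ j * (y ^ j)⁻¹, hmemj j g⟩
        have hφinj : Function.Injective φ := by
          intro g h hgh
          have h3 : ((g : A) * y) ^ j * (y ^ j)⁻¹ = ((h : A) * y) ^ j * (y ^ j)⁻¹ :=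
            congrArg Subtype.val hgh
          have h4 : ((g : A) * y) ^ j = ((h : A) * y) ^ j := mul_right_cancel h3
          have hc : Nat.Coprime j p := by
            rw [Nat.coprime_comm, Nat.Prime.coprime_iff_not_dvd hp]
            intro hd
            have := Nat.le_of_dvd (Nat.pos_of_ne_zero h0) hd
            exact absurd (Finset.mem_range.1 hj) (not_lt.2 this)
          have h5 := eq_of_pow_eq hc (hgy g g.2) (hgy h h.2) h4
          exact Subtype.ext (mul_right_cancel h5)
        have hφbij : Function.Bijective φ := (Finite.injective_iff_bijective).1 hφinj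
        have h6 : ∀ g : Q, (ρ ((g : A) * y)) ^ j = ρ ((φ g : Q) : A) * ρ (y ^ j) := by
          intro g
          rw [← map_pow, ← map_mul]
          congr 1
          simp [φ]
        simp_rw [h6, ← Finset.sum_mul]
        have h7 : ∑ g : Q, ρ ((φ g : Q) : A) = ∑ g : Q, ρ (g : A) :=
          Fintype.sum_equiv (Equiv.ofBijective φ hφbij) _ _ (fun g => rfl)
        rw [h7, hNQ, zero_mul]
    rw [Finset.sum_congr rfl h2] at h1
    simpa [Finset.sum_ite_eq', hp.pos] using h1
  exact char_contra ρ hF q hq key x hx1 (by rw [← hx]; exact pow_orderOf_eq_one x)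

theorem abstract_main (hF : ∀ a : A, a ≠ 1 → ∀ T : R, ρ a * T = T → T = 0)
    (h : (∀ a b : A, a * b = b * a) ∨ ∃ p q : ℕ, p.Prime ∧ q.Prime ∧ Nat.card A = p * q) :
    IsCyclic A := by
  rcases h with h | ⟨p, q, hp, hq, hcard⟩
  · exact abelian_case ρ hF h
  · rcases lt_trichotomy p q with hlt | heq | hgt
    · exact pq_case ρ hF p q hp hq hlt hcard
    · subst heq
      haveI := Fact.mk hp
      exact abelian_case ρ hF (IsPGroup.isMulCommutative_of_card_eq_prime_sq (p := p) (by rw [hcard, sq])).is_comm.comm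
    · exact pq_case ρ hF q p hq hp hgt (by rw [hcard, mul_comm])

end abstract

open scoped IsMulCommutative in
theorem result {G : Type*} [Group G] [Finite G] (A V : Subgroup G) [IsMulCommutative V]
    (hV : V ≠ ⊥) (hAV : A ≤ Subgroup.normalizer (V : Set G)) (hfpf : ∀ a ∈ A, a ≠ 1 → V ⊓ Subgroup.centralizer {a} = ⊥)
    (hA : IsMulCommutative A ∨ ∃ p q : ℕ, p.Prime ∧ q.Prime ∧ Nat.card A = p * q) : IsCyclic A := by
  classical
  have hconj : ∀ a ∈ A, ∀ v ∈ V, a * v * a⁻¹ ∈ V := by
    intro a ha v hv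
    have h1 := hAV ha
    rw [Subgroup.mem_normalizer_iff] at h1
    exact (h1 v).1 hv
  let f : ↥A → AddMonoid.End (Additive ↥V) := fun a =>
    AddMonoidHom.mk' (fun v => Additive.ofMul
      (⟨(a : G) * ((Additive.toMul v : ↥V) : G) * (a : G)⁻¹, hconj a a.2 _ (Additive.toMul v).2⟩ : ↥V)) (by
      intro v w
      apply Additive.toMul.injective
      apply Subtype.ext
      simp [mul_assoc])
  have hf : ∀ (a : ↥A) (v : Additive ↥V), ((Additive.toMul (f a v) : ↥V) : G) =
      (a : G) * ((Additive.toMul v : ↥V) : G) * (a : G)⁻¹ := fun a v => rfl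
  let ρ : ↥A →* AddMonoid.End (Additive ↥V) :=
    { toFun := f
      map_one' := by
        apply AddMonoidHom.ext
        intro v
        apply Additive.toMul.injective
        apply Subtype.ext
        change ((1 : ↥A) : G) * ((Additive.toMul v : ↥V) : G) * ((1 : ↥A) : G)⁻¹ =
          ((Additive.toMul v : ↥V) : G)
        simp
      map_mul' := by
        intro a b
        apply AddMonoidHom.ext
        intro v
        apply Additive.toMul.injective
        apply Subtype.ext
        change ((a * b : ↥A) : G) * ((Additive.toMul v : ↥V) : G) * ((a * b : ↥A) : G)⁻¹ =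
          (a : G) * ((b : G) * ((Additive.toMul v : ↥V) : G) * (b : G)⁻¹) * (a : G)⁻¹
        simp [mul_assoc] }
  haveI : Nontrivial (AddMonoid.End (Additive ↥V)) := by
    obtain ⟨v, hv, hv1⟩ := (Subgroup.nontrivial_iff_exists_ne_one V).1 ((Subgroup.nontrivial_iff_ne_bot V).2 hV)
    refine ⟨⟨0, 1, fun h => ?_⟩⟩
    have h1 := DFunLike.congr_fun h (Additive.ofMul (⟨v, hv⟩ : ↥V))
    apply hv1
    have h2 : (⟨v, hv⟩ : ↥V) = 1 := by
      apply Additive.ofMul.injective
      exact h1.symm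
    exact congrArg Subtype.val h2
  have hF : ∀ a : ↥A, a ≠ 1 → ∀ T : AddMonoid.End (Additive ↥V), ρ a * T = T → T = 0 := by
    intro a ha T hT
    apply AddMonoidHom.ext
    intro v
    have h1 := DFunLike.congr_fun hT v
    have h2 : (a : G) * ((Additive.toMul (T v) : ↥V) : G) * (a : G)⁻¹ = ((Additive.toMul (T v) : ↥V) : G) :=
      congrArg (fun w => ((Additive.toMul w : ↥V) : G)) h1
    have h3 : ((Additive.toMul (T v) : ↥V) : G) ∈ V ⊓ Subgroup.centralizer {(a : G)} := by
      refine Subgroup.mem_inf.2 ⟨(Additive.toMul (T v)).2, ?_⟩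
      rw [Subgroup.mem_centralizer_iff]
      intro g hg
      rw [Set.mem_singleton_iff] at hg
      subst hg
      exact mul_inv_eq_iff_eq_mul.1 h2
    rw [hfpf a a.2 (fun h => ha (Subtype.ext h)), Subgroup.mem_bot] at h3
    apply Additive.toMul.injective
    apply Subtype.ext
    exact h3
  apply abstract_main ρ hF
  rcases hA with hA | hA
  · left
    intro a b
    exact hA.is_comm.comm a b
  · right; exact hA

end Cfsg.Agent.S0041
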