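import Mathlib
import Cfsg.Statements.S0547

set_option autoImplicit false
open Pointwise
open Cfsg
open scoped commutatorElement

namespace Cfsg.Agent.S0547

/-- A minimal normal subgroup of a finite solvable group is elementary abelian. -/
theorem minimal_normal_solvable {G : Type*} [Group G] [Finite G] [Group.IsSolvable G]
    (M : Subgroup G) [M.Normal] (hM : M ≠ ⊥)
    (hmin : ∀ K : Subgroup G, K.Normal → K ≤ M → K = ⊥ ∨ K = M) :
    (∀ x ∈ M, ∀ y ∈ M, x * y = y * x) ∧ ∃ p d : ℕ, p.Prime ∧ 0 < d ∧ Nat.card M = p ^ d ∧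
      ∀ x ∈ M, x ^ p = 1 := by
  classical
  have hcomm : ⁅M, M⁆ = ⊥ := by
    have hn : (⁅M, M⁆ : Subgroup G).Normal := Subgroup.commutator_normal M M
    have hle : ⁅M, M⁆ ≤ M := Subgroup.commutator_le_right M M
    rcases hmin _ hn hle with h | h
    · exact h
    · exfalso
      have hall : ∀ n : ℕ, M ≤ derivedSeries G n := by
        intro n
        induction n with
        | zero => rw [derivedSeries_zero]; exact le_top
        | succ n ih =>
          rw [derivedSeries_succ]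
          calc M = ⁅M, M⁆ := h.symm
            _ ≤ _ := Subgroup.commutator_mono ih ih
      obtain ⟨n, hn⟩ := (Group.IsSolvable.solvable : ∃ n : ℕ, derivedSeries G n = ⊥)
      exact hM (le_bot_iff.1 (hn ▸ hall n))
  have hab : ∀ x ∈ M, ∀ y ∈ M, x * y = y * x := by
    intro x hx y hy
    have h1 : ⁅x, y⁆ ∈ ⁅M, M⁆ := Subgroup.commutator_mem_commutator hx hy
    rw [hcomm, Subgroup.mem_bot, commutatorElement_eq_one_iff_mul_comm] at h1
    exact h1
  have hcard : 1 < Nat.card M := by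
    rw [Finite.one_lt_card_iff_nontrivial]
    exact (Subgroup.nontrivial_iff_ne_bot M).2 hM
  obtain ⟨p, hp, hpd⟩ := Nat.exists_prime_and_dvd (show Nat.card M ≠ 1 by omega)
  haveI : Fact p.Prime := ⟨hp⟩
  obtain ⟨x₀, hx₀⟩ := exists_prime_orderOf_dvd_card' p hpd
  let K : Subgroup G :=
    { carrier := {x | x ∈ M ∧ x ^ p = 1}
      one_mem' := ⟨M.one_mem, one_pow p⟩
      mul_mem' := by
        rintro a b ⟨ha, ha'⟩ ⟨hb, hb'⟩
        refine ⟨M.mul_mem ha hb, ?_⟩
        have hc : Commute a b := hab a ha b hb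
        rw [hc.mul_pow, ha', hb', one_mul]
      inv_mem' := by
        rintro a ⟨ha, ha'⟩
        exact ⟨M.inv_mem ha, by rw [inv_pow, ha', inv_one]⟩ }
  have hKn : K.Normal := by
    constructor
    rintro a ⟨ha, ha'⟩ g
    refine ⟨Subgroup.Normal.conj_mem inferInstance a ha g, ?_⟩
    rw [conj_pow, ha', mul_one, mul_inv_cancel]
  have hKM : K ≤ M := fun x hx => hx.1
  have hKne : K ≠ ⊥ := by
    intro h
    have h1 : (x₀ : G) ∈ K := ⟨x₀.2, by
      have : x₀ ^ p = 1 := by rw [← hx₀]; exact pow_orderOf_eq_one x₀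
      have h2 := congrArg Subtype.val this
      simpa using h2⟩
    rw [h, Subgroup.mem_bot] at h1
    have h2 : x₀ = 1 := Subtype.ext h1
    rw [h2, orderOf_one] at hx₀
    exact hp.one_lt.ne' hx₀.symm
  have hKeq : K = M := (hmin K hKn hKM).resolve_left hKne
  have hpow : ∀ x ∈ M, x ^ p = 1 := by
    intro x hx
    have : x ∈ K := hKeq ▸ hx
    exact this.2
  have hpg : IsPGroup p M := by
    intro x
    refine ⟨1, ?_⟩
    apply Subtype.ext
    simpa using hpow x x.2
  obtain ⟨d, hd⟩ := hpg.exists_card_eq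
  refine ⟨hab, p, d, hp, ?_, hd, hpow⟩
  rcases Nat.eq_zero_or_pos d with h | h
  · rw [h, pow_zero] at hd; omega
  · exact h

theorem regular_of_abelian_normal {G : Type*} [Group G] {Ω : Type*} [Nonempty Ω]
    [MulAction G Ω] [FaithfulSMul G Ω] (hprim : MulAction.IsPreprimitive G Ω) (M : Subgroup G)
    [M.Normal] (hM : M ≠ ⊥) (hab : ∀ x ∈ M, ∀ y ∈ M, x * y = y * x) :
    MulAction.IsPretransitive M Ω ∧ (∀ ω : Ω, ∀ m ∈ M, m • ω = ω → m = 1) := by
  have htr : MulAction.IsPretransitive M Ω := by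
    apply MulAction.IsQuasiPreprimitive.isPretransitive_of_normal (G := G) (X := Ω)
    intro h
    apply hM
    rw [eq_bot_iff]
    intro m hm
    rw [Subgroup.mem_bot]
    apply FaithfulSMul.eq_of_smul_eq_smul (α := Ω)
    intro ω
    rw [one_smul]
    have h1 : ω ∈ MulAction.fixedPoints M Ω := by rw [h]; trivial
    exact h1 ⟨m, hm⟩
  refine ⟨htr, ?_⟩
  intro ω m hm hfix
  apply FaithfulSMul.eq_of_smul_eq_smul (α := Ω)
  intro ω'
  rw [one_smul]
  obtain ⟨n, hn⟩ := htr.exists_smul_eq ω ω'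
  have hn' : (n : G) • ω = ω' := hn
  rw [← hn', smul_smul, hab m hm n n.2, ← smul_smul, hfix]

theorem result {G : Type*} [Group G] [Finite G] [Group.IsSolvable G] {Ω : Type*} [Nonempty Ω] [MulAction G Ω] [FaithfulSMul G Ω] (hprim : MulAction.IsPreprimitive G Ω) (M : Subgroup G) [M.Normal] (hM : M ≠ ⊥) (hmin : ∀ K : Subgroup G, K.Normal → K ≤ M → K = ⊥ ∨ K = M) : MulAction.IsPretransitive M Ω ∧ (∀ ω : Ω, MulAction.stabilizer M ω = ⊥) ∧ ∃ p d : ℕ, p.Prime ∧ 0 < d ∧ Nat.card Ω = p ^ d ∧ Nat.card M = p ^ d := by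
  classical
  obtain ⟨hab, p, d, hp, hd, hcard, -⟩ := minimal_normal_solvable M hM hmin
  obtain ⟨htr, hreg⟩ := regular_of_abelian_normal hprim M hM hab
  refine ⟨htr, ?_, p, d, hp, hd, ?_, hcard⟩
  · intro ω
    rw [eq_bot_iff]
    intro m hm
    rw [Subgroup.mem_bot]
    apply Subtype.ext
    exact hreg ω m m.2 hm
  · rw [← hcard]
    obtain ⟨ω⟩ := (inferInstance : Nonempty Ω)
    symm
    apply Nat.card_eq_of_bijective (fun m : M => m • ω)
    constructor
    · intro m n h
      have h1 : ((n⁻¹ * m : M) : G) • ω = ω := by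
        have h2 : (m : G) • ω = (n : G) • ω := h
        push_cast
        rw [mul_smul, h2, ← mul_smul, inv_mul_cancel, one_smul]
      have h3 := hreg ω _ (n⁻¹ * m).2 h1
      have h4 : n⁻¹ * m = 1 := Subtype.ext h3
      exact (inv_mul_eq_one.1 h4).symm
    · intro ω'
      exact htr.exists_smul_eq ω ω'

end Cfsg.Agent.S0547
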