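import Mathlib
import Cfsg.Statements.S0045
import Cfsg.Agent.S0002
import Cfsg.Agent.S0003
import Cfsg.Agent.S0527
import Cfsg.Agent.S0547
import Cfsg.Agent.S0533
import Cfsg.Agent.S0539

set_option autoImplicit false
open Pointwise
open Cfsg

namespace Cfsg.Agent.S0045

open Cfsg.Agent.S0538 Cfsg.Agent.S0539 Cfsg.Agent.S0003 Cfsg.Agent.Lib.Helper2.Sub

/-- relative Carter subgroup: `C` is nilpotent and self-normalizing in `K` -/
def RC {G : Type*} [Group G] (C K : Subgroup G) : Prop :=
  C ≤ K ∧ Group.IsNilpotent C ∧ ∀ x ∈ K, MulAut.conj x • C = C → x ∈ C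

theorem rc_top {G : Type*} [Group G] (C : Subgroup G) : RC C ⊤ ↔ Cfsg.IsCarterSubgroup C := by
  constructor
  · rintro ⟨-, hn, h⟩
    refine ⟨hn, le_antisymm ?_ Subgroup.le_normalizer⟩
    intro x hx
    exact h x (Subgroup.mem_top x) ((mem_normalizer_iff_smul x C).1 hx)
  · rintro ⟨hn, h⟩
    refine ⟨le_top, hn, fun x _ hx => ?_⟩
    rw [← h]
    exact (mem_normalizer_iff_smul x C).2 hx

theorem rc_of_le {G : Type*} [Group G] {C K K₁ : Subgroup G} (h : RC C K) (h1 : C ≤ K₁)
    (h2 : K₁ ≤ K) : RC C K₁ :=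
  ⟨h1, h.2.1, fun x hx hxc => h.2.2 x (h2 hx) hxc⟩

theorem rc_conj {G : Type*} [Group G] {C K : Subgroup G} (h : RC C K) (y : G) (hy : y ∈ K) :
    RC (MulAut.conj y • C) K := by
  refine ⟨?_, ?_, ?_⟩
  · have := (Subgroup.pointwise_smul_le_pointwise_smul_iff (a := MulAut.conj y)).2 h.1
    rwa [Subgroup.conj_smul_eq_self_of_mem hy] at this
  · haveI := h.2.1
    exact Group.nilpotent_of_mulEquiv (Subgroup.equivSMul (MulAut.conj y) C)
  · intro x hx hxc
    rw [Subgroup.mem_pointwise_smul_iff_inv_smul_mem]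
    show y⁻¹ * x * y ∈ C
    apply h.2.2 _ (K.mul_mem (K.mul_mem (K.inv_mem hy) hx) hy)
    have : MulAut.conj (y⁻¹ * x * y) • C =
        MulAut.conj y⁻¹ • (MulAut.conj x • (MulAut.conj y • C)) := by
      rw [← mul_smul, ← mul_smul, ← map_mul, ← map_mul, mul_assoc]
    rw [this, hxc, ← mul_smul, ← map_mul, inv_mul_cancel, map_one, one_smul]

theorem carter_of_rc {G : Type*} [Group G] [Finite G] {C K : Subgroup G} (h : RC C K) :
    Cfsg.IsCarterSubgroup (C.subgroupOf K) := by
  refine ⟨?_, le_antisymm ?_ Subgroup.le_normalizer⟩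
  · haveI := h.2.1
    exact Group.nilpotent_of_mulEquiv (Subgroup.subgroupOfEquivOfLe h.1).symm
  · intro x hx
    rw [Subgroup.mem_subgroupOf]
    apply h.2.2 _ x.2
    apply smul_eq_of_le
    rintro _ ⟨c, hc, rfl⟩
    have h1 := (Subgroup.mem_normalizer_iff.1 hx ⟨c, h.1 hc⟩).1 (Subgroup.mem_subgroupOf.2 hc)
    exact Subgroup.mem_subgroupOf.1 h1

theorem rc_of_carter {G : Type*} [Group G] [Finite G] (K : Subgroup G) (C' : Subgroup K)
    (h : Cfsg.IsCarterSubgroup C') : RC (C'.map K.subtype) K := by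
  refine ⟨Subgroup.map_subtype_le _, ?_, ?_⟩
  · haveI := h.1
    exact Group.nilpotent_of_mulEquiv (C'.equivMapOfInjective K.subtype (Subgroup.subtype_injective K))
  · intro x hx hxc
    have hmem : (⟨x, hx⟩ : K) ∈ Subgroup.normalizer (C' : Set K) := by
      rw [mem_normalizer_iff_smul]
      apply smul_eq_of_le
      rintro _ ⟨c, hc, rfl⟩
      have h1 : x * (c : G) * x⁻¹ ∈ MulAut.conj x • C'.map K.subtype :=
        Subgroup.smul_mem_pointwise_smul _ (MulAut.conj x) _ ⟨c, hc, rfl⟩
      rw [hxc] at h1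
      obtain ⟨c', hc', hcc⟩ := h1
      have : (MulAut.conj (⟨x, hx⟩ : K)) c = c' := by
        apply Subtype.ext
        have hcc' : (c' : G) = x * (c : G) * x⁻¹ := hcc
        rw [hcc']; rfl
      show (MulAut.conj (⟨x, hx⟩ : K)) c ∈ C'
      rw [this]; exact hc'
    rw [h.2] at hmem
    exact ⟨⟨x, hx⟩, hmem, rfl⟩

theorem conj_transfer {G : Type*} [Group G] {K C₁ C₂ : Subgroup G} (h1 : C₁ ≤ K) (h2 : C₂ ≤ K)
    (k : K) (hk : MulAut.conj k • C₁.subgroupOf K = C₂.subgroupOf K) :
    MulAut.conj (k : G) • C₁ = C₂ := by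
  ext x
  rw [Subgroup.mem_pointwise_smul_iff_inv_smul_mem]
  constructor
  · intro hx
    have hx' : (k : G)⁻¹ * x * (k : G) ∈ C₁ := hx
    have hxK : x ∈ K := by
      have := K.mul_mem (K.mul_mem k.2 (h1 hx')) (K.inv_mem k.2)
      simpa [mul_assoc] using this
    have : (⟨x, hxK⟩ : K) ∈ MulAut.conj k • C₁.subgroupOf K := by
      rw [Subgroup.mem_pointwise_smul_iff_inv_smul_mem, Subgroup.mem_subgroupOf]
      exact hx'
    rw [hk] at this
    exact Subgroup.mem_subgroupOf.1 this
  · intro hx
    have hxK := h2 hx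
    have : (⟨x, hxK⟩ : K) ∈ MulAut.conj k • C₁.subgroupOf K := by
      rw [hk]; exact Subgroup.mem_subgroupOf.2 hx
    rw [Subgroup.mem_pointwise_smul_iff_inv_smul_mem, Subgroup.mem_subgroupOf] at this
    exact this

theorem map_conj_smul {G H : Type*} [Group G] [Group H] (f : G →* H) (g : G) (C : Subgroup G) :
    (MulAut.conj g • C).map f = MulAut.conj (f g) • C.map f := by
  ext y
  constructor
  · rintro ⟨_, ⟨c, hc, rfl⟩, rfl⟩
    refine ⟨f c, ⟨c, hc, rfl⟩, ?_⟩
    show f g * f c * (f g)⁻¹ = f (g * c * g⁻¹)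
    simp
  · rintro ⟨_, ⟨c, hc, rfl⟩, rfl⟩
    refine ⟨g * c * g⁻¹, ⟨c, hc, rfl⟩, ?_⟩
    show f (g * c * g⁻¹) = f g * f c * (f g)⁻¹
    simp

theorem carter_eq_top_of_nilpotent {G : Type*} [Group G] [Group.IsNilpotent G] {C : Subgroup G}
    (hC : Cfsg.IsCarterSubgroup C) : C = ⊤ := by
  by_contra hne
  have := Group.normalizerCondition_of_isNilpotent C (lt_top_iff_ne_top.2 hne)
  rw [hC.2] at this
  exact lt_irrefl _ this

theorem top_carter {G : Type*} [Group G] [Group.IsNilpotent G] :
    Cfsg.IsCarterSubgroup (⊤ : Subgroup G) :=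
  ⟨Group.nilpotent_of_mulEquiv Subgroup.topEquiv.symm,
    Subgroup.normalizer_eq_top_iff.2 inferInstance⟩

/-- the image of a Carter subgroup in a quotient is a Carter subgroup, given conjugacy in proper
subgroups -/
theorem carter_map {G : Type*} [Group G] [Finite G]
    (hconj : ∀ K : Subgroup G, K ≠ ⊤ → ∀ C D : Subgroup G, RC C K → RC D K →
      ∃ g ∈ K, MulAut.conj g • C = D)
    {C : Subgroup G} (hC : Cfsg.IsCarterSubgroup C) (N : Subgroup G) [N.Normal] :
    Cfsg.IsCarterSubgroup (C.map (QuotientGroup.mk' N)) := by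
  refine ⟨?_, le_antisymm ?_ Subgroup.le_normalizer⟩
  · haveI := hC.1
    exact Group.nilpotent_of_surjective ((QuotientGroup.mk' N).subgroupMap C)
      ((QuotientGroup.mk' N).subgroupMap_surjective C)
  · intro y hy
    obtain ⟨g, rfl⟩ := QuotientGroup.mk'_surjective N y
    have hcm : (C.map (QuotientGroup.mk' N)).comap (QuotientGroup.mk' N) = C ⊔ N := by
      rw [Subgroup.comap_map_eq, QuotientGroup.ker_mk']
    suffices hg : g ∈ C ⊔ N by
      rw [← hcm] at hg; exact hg
    by_cases hK : C ⊔ N = ⊤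
    · rw [hK]; exact Subgroup.mem_top g
    have hgC : MulAut.conj g • C ≤ C ⊔ N := by
      rintro _ ⟨c, hc, rfl⟩
      show g * c * g⁻¹ ∈ C ⊔ N
      rw [← hcm, Subgroup.mem_comap, map_mul, map_mul, map_inv]
      exact (Subgroup.mem_normalizer_iff.1 hy _).1 ⟨c, hc, rfl⟩
    have hrcC : RC C ⊤ := (rc_top C).2 hC
    have hrc1 : RC C (C ⊔ N) := rc_of_le hrcC le_sup_left le_top
    have hrc2 : RC (MulAut.conj g • C) (C ⊔ N) :=
      rc_of_le (rc_conj hrcC g (Subgroup.mem_top g)) hgC le_top
    obtain ⟨k, hk, hkc⟩ := hconj (C ⊔ N) hK _ _ hrc2 hrc1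
    have h1 : k * g ∈ C := by
      rw [← hC.2, mem_normalizer_iff_smul, map_mul, mul_smul]; exact hkc
    have : g = k⁻¹ * (k * g) := by group
    rw [this]
    exact Subgroup.mul_mem _ (Subgroup.inv_mem _ hk) (Subgroup.mem_sup_left h1)

universe u in
theorem main (n : ℕ) : ∀ (G : Type u) [Group G] [Finite G] [Group.IsSolvable G], Nat.card G = n →
    (∃ C : Subgroup G, Cfsg.IsCarterSubgroup C) ∧
    (∀ C D : Subgroup G, Cfsg.IsCarterSubgroup C → Cfsg.IsCarterSubgroup D →
      ∃ g : G, MulAut.conj g • C = D) := by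
  induction n using Nat.strong_induction_on with
  | _ n ih =>
  intro G _ _ _ hcard
  -- relative conjugacy from the induction hypothesis
  have hrelconj : ∀ K : Subgroup G, Nat.card K < n → ∀ C D : Subgroup G, RC C K → RC D K →
      ∃ g ∈ K, MulAut.conj g • C = D := by
    intro K hK C D hC hD
    obtain ⟨k, hk⟩ := (ih _ hK K rfl).2 _ _ (carter_of_rc hC) (carter_of_rc hD)
    exact ⟨k, k.2, conj_transfer hC.1 hD.1 k hk⟩
  have hconj' : ∀ K : Subgroup G, K ≠ ⊤ → ∀ C D : Subgroup G, RC C K → RC D K →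
      ∃ g ∈ K, MulAut.conj g • C = D :=
    fun K hK => hrelconj K (hcard ▸ card_lt_of_ne_top K hK)
  by_cases htriv : Subsingleton G
  · refine ⟨⟨⊤, top_carter⟩, ?_⟩
    intro C D _ _
    exact ⟨1, Subsingleton.elim _ _⟩
  rw [not_subsingleton_iff_nontrivial] at htriv
  obtain ⟨N, hNmin, -⟩ := exists_minNormal_le (⊤ : Subgroup G) inferInstance top_ne_bot
  haveI := hNmin.1
  obtain ⟨hNab, p, d, hp, hd, hNcard, -⟩ := Cfsg.Agent.S0547.minimal_normal_solvable N hNmin.2.1
    (fun K hK hKN => by
      by_cases h : K = ⊥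
      · exact Or.inl h
      · exact Or.inr (hNmin.2.2 K hK hKN h))
  haveI : Fact p.Prime := ⟨hp⟩
  have hNn : Subgroup.normalizer (N : Set G) = ⊤ := Subgroup.normalizer_eq_top_iff.2 inferInstance
  have hqcard : Nat.card (G ⧸ N) < n := by
    rw [← hcard, Subgroup.card_eq_card_quotient_mul_card_subgroup N]
    have h1 : 1 < Nat.card N := (Subgroup.one_lt_card_iff_ne_bot N).2 hNmin.2.1
    have h2 : 0 < Nat.card (G ⧸ N) := Nat.card_pos
    nlinarith
  obtain ⟨hexq, hcjq⟩ := ih _ hqcard (G ⧸ N) rfl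
  -- E ⊓ N is normal when E ⊔ N = ⊤
  have hinf_normal : ∀ E : Subgroup G, E ⊔ N = ⊤ → (E ⊓ N).Normal := by
    intro E hEN
    rw [← Subgroup.normalizer_eq_top_iff, eq_top_iff, ← hEN]
    apply sup_le
    · rw [Subgroup.le_normalizer_iff]
      intro m hm x hx
      exact ⟨E.mul_mem (E.mul_mem hm hx.1) (E.inv_mem hm), hNmin.1.conj_mem x hx.2 m⟩
    · rw [Subgroup.le_normalizer_iff]
      intro m hm x hx
      have := hNab m hm x hx.2
      rw [this, mul_inv_cancel_right]; exact hx
  constructor
  · -- existence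
    obtain ⟨Kq, hKq⟩ := hexq
    set K := Kq.comap (QuotientGroup.mk' N) with hK
    by_cases hKtop : K = ⊤
    · have hKqtop : Kq = ⊤ := by
        rw [eq_top_iff]
        intro y _
        obtain ⟨g, rfl⟩ := QuotientGroup.mk'_surjective N y
        have : g ∈ K := by rw [hKtop]; exact Subgroup.mem_top g
        exact this
      haveI hqnil : Group.IsNilpotent (G ⧸ N) := by
        have h1 := hKq.1
        rw [hKqtop] at h1
        exact Group.nilpotent_of_mulEquiv Subgroup.topEquiv
      by_cases hGnil : Group.IsNilpotent G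
      · exact ⟨⊤, top_carter⟩
      · have h3 := (Group.isNilpotent_of_finite_tfae (G := G)).out 0 2
        rw [h3] at hGnil
        push Not at hGnil
        obtain ⟨M, hMmax, hMnn⟩ := hGnil
        have hNM : ¬ N ≤ M := by
          intro hle
          apply hMnn
          have hco : IsCoatom (M.map (QuotientGroup.mk' N)) :=
            Cfsg.Agent.S0527.coatom_map (QuotientGroup.mk' N) (QuotientGroup.mk'_surjective N) M hMmax
              (by rw [QuotientGroup.ker_mk']; exact hle)
          have h4 := (Group.isNilpotent_of_finite_tfae (G := G ⧸ N)).out 0 2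
          have hn : (M.map (QuotientGroup.mk' N)).Normal := (h4.1 hqnil) _ hco
          have e : M = (M.map (QuotientGroup.mk' N)).comap (QuotientGroup.mk' N) := by
            rw [Subgroup.comap_map_eq, QuotientGroup.ker_mk', sup_of_le_left hle]
          rw [e]; exact hn.comap _
        have hsup : M ⊔ N = ⊤ :=
          hMmax.2 _ (lt_of_le_of_ne le_sup_left (fun e => hNM (e ▸ le_sup_right)))
        have hinf : M ⊓ N = ⊥ := by
          by_contra hne
          have := hNmin.2.2 _ (hinf_normal M hsup) inf_le_right hne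
          exact hNM (this ▸ inf_le_left)
        refine ⟨M, ?_, ?_⟩
        · apply _root_.isNilpotent_of_ker_le_center ((QuotientGroup.mk' N).comp M.subtype)
          intro x hx
          have hx' : (x : G) ∈ N := by
            rw [← QuotientGroup.ker_mk' N]; exact hx
          have : (x : G) ∈ M ⊓ N := ⟨x.2, hx'⟩
          rw [hinf, Subgroup.mem_bot] at this
          have hx1 : x = 1 := Subtype.ext this
          rw [hx1]; exact Subgroup.one_mem _
        · by_contra hne
          have hlt : M < Subgroup.normalizer (M : Set G) :=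
            lt_of_le_of_ne Subgroup.le_normalizer (Ne.symm hne)
          have := hMmax.2 _ hlt
          exact hMnn (Subgroup.normalizer_eq_top_iff.1 this)
    · have hKcard : Nat.card K < n := hcard ▸ card_lt_of_ne_top K hKtop
      obtain ⟨⟨C', hC'⟩, -⟩ := ih _ hKcard K rfl
      have hCrc := rc_of_carter K C' hC'
      set C := C'.map K.subtype with hCdef
      have hNK : N ≤ K := by
        intro x hx
        show QuotientGroup.mk' N x ∈ Kq
        have : QuotientGroup.mk' N x = 1 := by
          rw [← MonoidHom.mem_ker, QuotientGroup.ker_mk']; exact hx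
        rw [this]; exact Subgroup.one_mem _
      have hcm : (C.map (QuotientGroup.mk' N)).comap (QuotientGroup.mk' N) = C ⊔ N := by
        rw [Subgroup.comap_map_eq, QuotientGroup.ker_mk']
      have hsup : C ⊔ N = K := by
        by_contra hne
        have hle : C ⊔ N ≤ K := sup_le hCrc.1 hNK
        have hCqle : C.map (QuotientGroup.mk' N) ≤ Kq := by
          rw [Subgroup.map_le_iff_le_comap]; exact hCrc.1
        have hCqne : C.map (QuotientGroup.mk' N) ≠ Kq := by
          intro e; apply hne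
          rw [hK, ← e, hcm]
        haveI := hKq.1
        have hlt : (C.map (QuotientGroup.mk' N)).subgroupOf Kq < ⊤ := by
          rw [lt_top_iff_ne_top]
          intro e
          rw [Subgroup.subgroupOf_eq_top] at e
          exact hCqne (le_antisymm hCqle e)
        have hnc := Group.normalizerCondition_of_isNilpotent (G := Kq) _ hlt
        obtain ⟨yq, hyqn, hyqC⟩ := SetLike.exists_of_lt hnc
        obtain ⟨y, hy⟩ := QuotientGroup.mk'_surjective N (yq : G ⧸ N)
        have hyK : y ∈ K := by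
          show QuotientGroup.mk' N y ∈ Kq
          rw [hy]; exact yq.2
        have hyK₁ : y ∉ C ⊔ N := by
          intro h
          apply hyqC
          rw [Subgroup.mem_subgroupOf, ← hy]
          rw [← hcm] at h
          exact h
        have hyC : MulAut.conj y • C ≤ C ⊔ N := by
          rintro _ ⟨c, hc, rfl⟩
          show y * c * y⁻¹ ∈ C ⊔ N
          rw [← hcm, Subgroup.mem_comap, map_mul, map_mul, map_inv, hy]
          have h1 := (Subgroup.mem_normalizer_iff.1 hyqn
            ⟨QuotientGroup.mk' N c, hCqle ⟨c, hc, rfl⟩⟩).1 (Subgroup.mem_subgroupOf.2 ⟨c, hc, rfl⟩)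
          exact Subgroup.mem_subgroupOf.1 h1
        have hK₁card : Nat.card ↥(C ⊔ N) < n := lt_trans (card_lt_of_ne hle hne) hKcard
        have hrc1 : RC C (C ⊔ N) := rc_of_le hCrc le_sup_left hle
        have hrc2 : RC (MulAut.conj y • C) (C ⊔ N) := rc_of_le (rc_conj hCrc y hyK) hyC hle
        obtain ⟨k, hk, hkc⟩ := hrelconj (C ⊔ N) hK₁card _ _ hrc2 hrc1
        have h1 : k * y ∈ C := hCrc.2.2 (k * y) (K.mul_mem (hle hk) hyK) (by
          rw [map_mul, mul_smul]; exact hkc)
        apply hyK₁
        have : y = k⁻¹ * (k * y) := by group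
        rw [this]
        exact Subgroup.mul_mem _ (Subgroup.inv_mem _ hk) (Subgroup.mem_sup_left h1)
      refine ⟨C, hCrc.2.1, le_antisymm ?_ Subgroup.le_normalizer⟩
      intro g hg
      have hmap : C.map (QuotientGroup.mk' N) = Kq := by
        apply Subgroup.comap_injective (QuotientGroup.mk'_surjective N)
        rw [hcm, hsup]
      have hgC := (mem_normalizer_iff_smul g C).1 hg
      have hgK : g ∈ K := by
        show QuotientGroup.mk' N g ∈ Kq
        rw [← hKq.2, ← hmap, mem_normalizer_iff_smul, ← map_conj_smul, hgC]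
      exact hCrc.2.2 g hgK hgC
  · -- conjugacy
    intro C D hC hD
    have himg : ∀ (N₀ : Subgroup G) [N₀.Normal] (E : Subgroup G), Cfsg.IsCarterSubgroup E →
        Cfsg.IsCarterSubgroup (E.map (QuotientGroup.mk' N₀)) :=
      fun N₀ _ E hE => carter_map hconj' hE N₀
    obtain ⟨gq, hgq⟩ := hcjq _ _ (himg N C hC) (himg N D hD)
    obtain ⟨g, rfl⟩ := QuotientGroup.mk'_surjective N gq
    rw [← map_conj_smul] at hgq
    suffices h : ∃ x : G, MulAut.conj x • (MulAut.conj g • C) = D by
      obtain ⟨x, hx⟩ := h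
      exact ⟨x * g, by rw [map_mul, mul_smul]; exact hx⟩
    have hC₁ := (rc_top _).1 (rc_conj ((rc_top C).2 hC) g (Subgroup.mem_top g))
    generalize MulAut.conj g • C = C₁ at hgq hC₁ ⊢
    have hsupeq : C₁ ⊔ N = D ⊔ N := by
      have := congrArg (Subgroup.comap (QuotientGroup.mk' N)) hgq
      rwa [Subgroup.comap_map_eq, Subgroup.comap_map_eq, QuotientGroup.ker_mk'] at this
    by_cases hK : C₁ ⊔ N = ⊤
    swap
    · obtain ⟨k, -, hk⟩ := hconj' (C₁ ⊔ N) hK C₁ D
        (rc_of_le ((rc_top C₁).2 hC₁) le_sup_left le_top)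
        (rc_of_le ((rc_top D).2 hD) (hsupeq ▸ le_sup_left) le_top)
      exact ⟨k, hk⟩
    have hK' : D ⊔ N = ⊤ := hsupeq ▸ hK
    have hdich : ∀ E : Subgroup G, E ⊔ N = ⊤ → E = ⊤ ∨ E ⊓ N = ⊥ := by
      intro E hEN
      by_cases h : E ⊓ N = ⊥
      · exact Or.inr h
      · left
        have := hNmin.2.2 _ (hinf_normal E hEN) inf_le_right h
        have hNE : N ≤ E := this ▸ inf_le_left
        rw [← hEN]; exact (sup_of_le_left hNE).symm
    have hnilcase : ∀ E F : Subgroup G, Cfsg.IsCarterSubgroup E → Cfsg.IsCarterSubgroup F →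
        E = ⊤ → ∃ x : G, MulAut.conj x • E = F := by
      intro E F hE hF hEtop
      subst hEtop
      haveI : Group.IsNilpotent G := by
        haveI := hE.1
        exact Group.nilpotent_of_mulEquiv Subgroup.topEquiv
      have hF' := carter_eq_top_of_nilpotent hF
      exact ⟨1, by rw [map_one, one_smul, hF']⟩
    rcases hdich C₁ hK with hCtop | hCN
    · exact hnilcase C₁ D hC₁ hD hCtop
    rcases hdich D hK' with hDtop | hDN
    · obtain ⟨x, hx⟩ := hnilcase D C₁ hD hC₁ hDtop
      exact ⟨x⁻¹, by rw [← hx, ← mul_smul, ← map_mul, inv_mul_cancel, map_one, one_smul]⟩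
    have hcardC : Nat.card C₁ * Nat.card N = Nat.card G := by
      have := card_sup_mul_card_inf C₁ N
      rw [hK, hCN, Subgroup.card_top, Subgroup.card_bot, mul_one] at this
      exact this.symm
    have hcardD : Nat.card D * Nat.card N = Nat.card G := by
      have := card_sup_mul_card_inf D N
      rw [hK', hDN, Subgroup.card_top, Subgroup.card_bot, mul_one] at this
      exact this.symm
    have hNpos : 0 < Nat.card N := Nat.card_pos
    have hcardCD : Nat.card C₁ = Nat.card D :=
      Nat.eq_of_mul_eq_mul_right hNpos (hcardC.trans hcardD.symm)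
    set R := C₁ ⊓ Subgroup.centralizer (N : Set G) with hR
    have hRn : R.Normal := by
      rw [← Subgroup.normalizer_eq_top_iff, eq_top_iff, ← hK]
      apply sup_le
      · rw [Subgroup.le_normalizer_iff]
        intro c hc x hx
        refine Subgroup.mem_inf.2 ⟨C₁.mul_mem (C₁.mul_mem hc hx.1) (C₁.inv_mem hc), ?_⟩
        exact (inferInstance : (Subgroup.centralizer (N : Set G)).Normal).conj_mem x hx.2 c
      · rw [Subgroup.le_normalizer_iff]
        intro m hm x hx
        have := Subgroup.mem_centralizer_iff.1 hx.2 m hm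
        rw [this, mul_inv_cancel_right]; exact hx
    by_cases hRbot : R = ⊥
    swap
    · haveI := hRn
      have hqR : Nat.card (G ⧸ R) < n := by
        rw [← hcard, Subgroup.card_eq_card_quotient_mul_card_subgroup R]
        have h1 : 1 < Nat.card R := (Subgroup.one_lt_card_iff_ne_bot R).2 hRbot
        have h2 : 0 < Nat.card (G ⧸ R) := Nat.card_pos
        nlinarith
      obtain ⟨-, hcjR⟩ := ih _ hqR (G ⧸ R) rfl
      obtain ⟨yq, hyq⟩ := hcjR _ _ (himg R C₁ hC₁) (himg R D hD)
      obtain ⟨y, rfl⟩ := QuotientGroup.mk'_surjective R yq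
      rw [← map_conj_smul] at hyq
      have h1 := congrArg (Subgroup.comap (QuotientGroup.mk' R)) hyq
      rw [Subgroup.comap_map_eq, Subgroup.comap_map_eq, QuotientGroup.ker_mk'] at h1
      have hRle : R ≤ MulAut.conj y • C₁ := by
        have := (Subgroup.pointwise_smul_le_pointwise_smul_iff (a := MulAut.conj y)).2
          (inf_le_left : R ≤ C₁)
        rwa [Subgroup.Normal.conj_smul_eq_self y R] at this
      rw [sup_of_le_left hRle] at h1
      refine ⟨y, (Subgroup.eq_of_le_of_card_ge ?_ ?_).symm⟩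
      · rw [h1]; exact le_sup_left
      · rw [card_smul, hcardCD]
    -- R = ⊥ : C₁ is a p'-group
    have hpC : ¬ p ∣ Nat.card C₁ := by
      intro hpdvd
      haveI := hC₁.1
      obtain ⟨P₀⟩ : Nonempty (Sylow p C₁) := inferInstance
      haveI hP₀n : (P₀ : Subgroup C₁).Normal := inferInstance
      set P := (P₀ : Subgroup C₁).map C₁.subtype with hP
      have hPne : P ≠ ⊥ := by
        intro e
        rw [hP, Subgroup.map_eq_bot_iff_of_injective _ (Subgroup.subtype_injective C₁)] at e
        exact P₀.ne_bot_of_dvd_card hpdvd e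
      have hPp : IsPGroup p P := P₀.2.map _
      have hNp : IsPGroup p N := IsPGroup.of_card hNcard
      have hPC : P ≤ C₁ := Subgroup.map_subtype_le _
      set T := N ⊔ P with hT
      have hTp : IsPGroup p T := IsPGroup.to_sup_of_normal_left hNp hPp
      have hTn : T.Normal := by
        rw [← Subgroup.normalizer_eq_top_iff, eq_top_iff, ← hK]
        apply sup_le
        · intro c hc
          apply Subgroup.normalizer_inf_normalizer_le_normalizer_sup N P
          refine ⟨hNn ▸ Subgroup.mem_top c, ?_⟩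
          have hle : C₁ ≤ Subgroup.normalizer (P : Set G) := by
            rw [Subgroup.le_normalizer_iff]
            rintro c hc _ ⟨x, hx, rfl⟩
            exact ⟨(⟨c, hc⟩ : C₁) * x * (⟨c, hc⟩ : C₁)⁻¹, hP₀n.conj_mem x hx _, rfl⟩
          exact hle hc
        · exact (le_sup_left : N ≤ T).trans Subgroup.le_normalizer
      obtain ⟨v, hv, hv1, hvc⟩ := Cfsg.Agent.S0533.exists_central_in_normal p T N hTp le_sup_left
        (by rw [hNn]; exact le_top) hNmin.2.1
      haveI := hTn
      have h2 : N ⊓ Subgroup.centralizer (T : Set G) = N := by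
        apply hNmin.2.2 _ inferInstance inf_le_left
        intro e
        have : v ∈ N ⊓ Subgroup.centralizer (T : Set G) :=
          ⟨hv, Subgroup.mem_centralizer_iff.2 (fun y hy => hvc y hy)⟩
        rw [e] at this
        exact hv1 (Subgroup.mem_bot.1 this)
      have hPR : P ≤ R := by
        intro x hx
        refine Subgroup.mem_inf.2 ⟨hPC hx, ?_⟩
        rw [Subgroup.mem_centralizer_iff]
        intro m hm
        have hm' : m ∈ N ⊓ Subgroup.centralizer (T : Set G) := by rw [h2]; exact hm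
        exact (Subgroup.mem_centralizer_iff.1 hm'.2 x (Subgroup.mem_sup_right hx)).symm
      rw [hRbot] at hPR
      exact hPne (le_bot_iff.1 hPR)
    have hcop : (Nat.card N).Coprime N.index := by
      have hidx : N.index = Nat.card C₁ := by
        have h1 := Subgroup.card_mul_index N
        rw [← hcardC, mul_comm] at h1
        exact Nat.eq_of_mul_eq_mul_right hNpos h1
      rw [hidx, hNcard]
      exact Nat.Coprime.pow_left _ ((Nat.Prime.coprime_iff_not_dvd hp).2 hpC)
    haveI : IsMulCommutative N := ⟨⟨fun a b => Subtype.ext (hNab a a.2 b b.2)⟩⟩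
    have hc1 : Subgroup.IsComplement' N C₁ :=
      Subgroup.isComplement'_of_card_mul_and_disjoint (by rw [mul_comm]; exact hcardC)
        (disjoint_iff.2 (by rw [inf_comm]; exact hCN))
    have hc2 : Subgroup.IsComplement' N D :=
      Subgroup.isComplement'_of_card_mul_and_disjoint (by rw [mul_comm]; exact hcardD)
        (disjoint_iff.2 (by rw [inf_comm]; exact hDN))
    obtain ⟨a, -, ha⟩ := Cfsg.Agent.S0002.result N hcop C₁ D hc1 hc2
    exact ⟨a, ha⟩

theorem result {G : Type*} [Group G] [Finite G] [Group.IsSolvable G] :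
    (∃ C : Subgroup G, Group.IsNilpotent C ∧ Subgroup.normalizer (C : Set G) = C) ∧
    ∀ C D : Subgroup G, Group.IsNilpotent C → Subgroup.normalizer (C : Set G) = C →
      Group.IsNilpotent D → Subgroup.normalizer (D : Set G) = D → ∃ g : G, MulAut.conj g • C = D := by
  obtain ⟨h1, h2⟩ := main _ G rfl
  exact ⟨h1, fun C D hC1 hC2 hD1 hD2 => h2 C D ⟨hC1, hC2⟩ ⟨hD1, hD2⟩⟩

end Cfsg.Agent.S0045
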