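import Mathlib
import Cfsg.Statements.S0580

namespace Cfsg.Agent.S0580

open Subgroup

theorem coatom_comap {G G' : Type*} [Group G] [Group G'] (f : G →* G')
    (hf : Function.Surjective f) (M : Subgroup G') (hM : IsCoatom M) :
    IsCoatom (M.comap f) := by
  constructor
  · intro h
    apply hM.1
    rw [← Subgroup.map_comap_eq_self_of_surjective hf M, h, Subgroup.map_top_of_surjective f hf]
  · intro K hK
    have hker : f.ker ≤ K := le_trans (MonoidHom.ker_le_comap f M) hK.le
    have h1 : M ≤ K.map f := by
      rw [← Subgroup.map_comap_eq_self_of_surjective hf M]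
      exact Subgroup.map_mono hK.le
    have h2 : M ≠ K.map f := by
      intro h
      apply hK.not_ge
      rw [h]
      exact Subgroup.le_comap_map f K
    have h3 := hM.2 _ (lt_of_le_of_ne h1 h2)
    have h4 : (K.map f).comap f = K := by
      rw [Subgroup.comap_map_eq, sup_eq_left.mpr hker]
    rw [← h4, h3, Subgroup.comap_top]

universe u in
theorem aux (n : ℕ) : ∀ (G : Type u) [Group G] [Finite G], Nat.card G = n →
    (∀ M : Subgroup G, IsCoatom M → M.index.Prime) → Group.IsSolvable G := by
  induction n using Nat.strong_induction_on with
  | _ n ih =>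
    intro G _ _ hn h
    by_cases htriv : Nontrivial G
    · have hcard : 1 < Nat.card G := Finite.one_lt_card
      have hne : (Nat.card G).primeFactors.Nonempty := by
        rw [Nat.nonempty_primeFactors]; exact hcard
      obtain ⟨p, hp, hmax⟩ := (Nat.card G).primeFactors.exists_max_image id hne
      have hpp : p.Prime := Nat.prime_of_mem_primeFactors hp
      have hpd : p ∣ Nat.card G := Nat.dvd_of_mem_primeFactors hp
      haveI : Fact p.Prime := ⟨hpp⟩
      obtain ⟨P⟩ : Nonempty (Sylow p G) := inferInstance
      have hPn : (P : Subgroup G).Normal := by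
        rw [← Subgroup.normalizer_eq_top_iff]
        by_contra hnt
        obtain ⟨M, hMc, hM⟩ := (eq_top_or_exists_le_coatom _).resolve_left hnt
        have hq := h M hMc
        have hqd : M.index ∣ Nat.card G := Subgroup.index_dvd_card M
        have hqle : M.index ≤ p :=
          hmax M.index (Nat.mem_primeFactors.mpr ⟨hq, hqd, Nat.card_pos.ne'⟩)
        have hPM : (P : Subgroup G) ≤ M := le_trans Subgroup.le_normalizer hM
        have h1 : Nat.card (Sylow p G) ≡ 1 [MOD p] := card_sylow_modEq_one p G
        have h2 : Nat.card (Sylow p M) ≡ 1 [MOD p] := card_sylow_modEq_one p M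
        have h1' : Nat.card (Sylow p G) = (normalizer ((P : Subgroup G) : Set G)).index := by
          rw [Sylow.card_eq_index_normalizer P]; rfl
        rw [h1'] at h1
        have h2' : Nat.card (Sylow p M) =
            (normalizer (((P : Subgroup G).subgroupOf M : Subgroup M) : Set M)).index := by
          rw [Sylow.card_eq_index_normalizer (P.subtype hPM)]; rfl
        rw [h2', ← Subgroup.subgroupOf_normalizer_eq hPM] at h2
        have h3 : (normalizer ((P : Subgroup G) : Set G)).relIndex M * M.index =
            (normalizer ((P : Subgroup G) : Set G)).index := Subgroup.relIndex_mul_index hM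
        have h4 : ((normalizer ((P : Subgroup G) : Set G)).subgroupOf M).index =
            (normalizer ((P : Subgroup G) : Set G)).relIndex M := rfl
        rw [h4] at h2
        rw [← h3] at h1
        have h5 : M.index ≡ 1 [MOD p] := by
          have := Nat.ModEq.mul_right M.index h2
          rw [one_mul] at this
          exact this.symm.trans h1
        have h6 : p ∣ M.index - 1 := (Nat.modEq_iff_dvd' hq.one_lt.le).mp h5.symm
        have h7 : p ≤ M.index - 1 := Nat.le_of_dvd (by have := hq.two_le; omega) h6
        have h8 := hq.two_le
        omega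
      have hPne : (P : Subgroup G) ≠ ⊥ := P.ne_bot_of_dvd_card hpd
      have hlt : Nat.card (G ⧸ (P : Subgroup G)) < n := by
        rw [← hn, ← Subgroup.index_eq_card]
        have h1 := Subgroup.card_mul_index (P : Subgroup G)
        have h2 : 0 < (P : Subgroup G).index := Nat.pos_of_ne_zero (Subgroup.index_ne_zero_of_finite)
        have h3 : 1 < Nat.card (P : Subgroup G) := by
          rw [Subgroup.one_lt_card_iff_ne_bot]; exact hPne
        nlinarith
      haveI hq : Group.IsSolvable (G ⧸ (P : Subgroup G)) := by
        apply ih _ hlt (G ⧸ (P : Subgroup G)) rfl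
        intro M' hM'
        have hc := coatom_comap (QuotientGroup.mk' (P : Subgroup G))
          (QuotientGroup.mk'_surjective _) M' hM'
        have := h _ hc
        rwa [Subgroup.index_comap_of_surjective _ (QuotientGroup.mk'_surjective _)] at this
      haveI : Group.IsNilpotent (P : Subgroup G) := P.isPGroup'.isNilpotent
      exact Group.isSolvable_of_ker_le_range (P : Subgroup G).subtype (QuotientGroup.mk' (P : Subgroup G))
        (by simp)
    · rw [not_nontrivial_iff_subsingleton] at htriv
      exact Group.isSolvable_of_comm (fun a b => Subsingleton.elim _ _)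

theorem result {G : Type*} [Group G] [Finite G] (h : ∀ M : Subgroup G, IsCoatom M → M.index.Prime) : Group.IsSolvable G := by
  exact aux _ G rfl h

end Cfsg.Agent.S0580
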