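import Mathlib
import Cfsg.Statements.S0046
import Cfsg.Agent.S0034
import Cfsg.Agent.S0580

set_option autoImplicit false
open Pointwise
open Cfsg

namespace Cfsg.Agent.S0046

open Cfsg.Agent.S0034

theorem conj_smul_eq_comap {G : Type*} [Group G] (g : G) (M : Subgroup G) :
    MulAut.conj g • M = M.comap ((MulAut.conj g).symm : G ≃* G).toMonoidHom := by
  ext x
  rw [mem_conj_smul', Subgroup.mem_comap]
  simp [MulAut.conj_symm_apply]

theorem coatom_conj {G : Type*} [Group G] (g : G) (M : Subgroup G) (hM : IsCoatom M) :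
    IsCoatom (MulAut.conj g • M) := by
  rw [conj_smul_eq_comap]
  exact Cfsg.Agent.S0580.coatom_comap _ (MulEquiv.surjective _) M hM

theorem card_lt_top {G : Type*} [Group G] [Finite G] (L : Subgroup G) (hL : L ≠ ⊤) :
    Nat.card L < Nat.card G := by
  have h5 := Subgroup.card_mul_index L
  have h6 : L.index ≠ 1 := by rwa [Ne, Subgroup.index_eq_one]
  have h7 : L.index ≠ 0 := Subgroup.index_ne_zero_of_finite
  have h8 : 2 ≤ L.index := by omega
  have h9 : 0 < Nat.card L := Nat.card_pos
  nlinarith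

/-- Simple case: no proper nontrivial normal subgroup, maximal subgroups nilpotent. -/
theorem simple_case {G : Type*} [Group G] [Finite G]
    (hsimple : ∀ N : Subgroup G, N.Normal → N ≠ ⊥ → N = ⊤)
    (h : ∀ M : Subgroup G, IsCoatom M → Group.IsNilpotent M) : IsCyclic G := by
  classical
  by_contra hnc
  -- coatoms are nontrivial
  have hbot : ∀ M : Subgroup G, IsCoatom M → M ≠ ⊥ := by
    intro M hM hMb
    subst hMb
    apply hnc
    by_cases hx : ∃ x : G, x ≠ 1
    · obtain ⟨x, hx⟩ := hx
      have h1 : (⊥ : Subgroup G) < Subgroup.zpowers x := by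
        rw [bot_lt_iff_ne_bot]
        intro h2
        exact hx (Subgroup.zpowers_eq_bot.1 h2)
      exact isCyclic_iff_exists_zpowers_eq_top.2 ⟨x, hM.2 _ h1⟩
    · push_neg at hx
      haveI : Subsingleton G := ⟨fun a b => (hx a).trans (hx b).symm⟩
      exact isCyclic_of_subsingleton
  -- distinct coatoms meet trivially
  have hA : ∀ M₁ M₂ : Subgroup G, IsCoatom M₁ → IsCoatom M₂ → M₁ ≠ M₂ → M₁ ⊓ M₂ = ⊥ := by
    by_contra hcon
    push_neg at hcon
    obtain ⟨A₀, B₀, hA₀, hB₀, hne₀, hint₀⟩ := hcon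
    obtain ⟨⟨M₁, M₂⟩, ⟨hM₁, hM₂, hne, hint⟩, hmax⟩ := Set.exists_max_image
      {q : Subgroup G × Subgroup G | IsCoatom q.1 ∧ IsCoatom q.2 ∧ q.1 ≠ q.2 ∧ q.1 ⊓ q.2 ≠ ⊥}
      (fun q => Nat.card ↥(q.1 ⊓ q.2)) (Set.toFinite _) ⟨(A₀, B₀), hA₀, hB₀, hne₀, hint₀⟩
    simp only at hM₁ hM₂ hne hint
    set D := M₁ ⊓ M₂ with hD
    have hDtop : D ≠ ⊤ := by
      intro hh
      apply hM₁.1
      rw [eq_top_iff, ← hh]
      exact inf_le_left
    have hNtop : Subgroup.normalizer (D : Set G) ≠ ⊤ := by
      intro hh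
      have hDn : D.Normal := Subgroup.normalizer_eq_top_iff.1 hh
      exact hDtop (hsimple D hDn hint)
    obtain hh | ⟨M₃, hM₃, hNM₃⟩ := eq_top_or_exists_le_coatom (Subgroup.normalizer (D : Set G))
    · exact hNtop hh
    have key : ∀ A B : Subgroup G, IsCoatom A → IsCoatom B → A ≠ B → A ⊓ B = D → M₃ = A := by
      intro A B hAc hBc hAB hABD
      by_contra hne3
      haveI : Group.IsNilpotent A := h A hAc
      have hDA : D ≤ A := by rw [← hABD]; exact inf_le_left
      have hlt : D.subgroupOf A < ⊤ := by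
        rw [lt_top_iff_ne_top]
        intro hh
        rw [Subgroup.subgroupOf_eq_top] at hh
        have hAB' : A ≤ B := by
          have : A ≤ A ⊓ B := by rw [hABD]; exact hh
          exact this.trans inf_le_right
        rcases hAB'.lt_or_eq with h1 | h1
        · exact hBc.1 (hAc.2 B h1)
        · exact hAB h1
      have hnc' := Group.normalizerCondition_of_isNilpotent (G := A) (D.subgroupOf A) hlt
      obtain ⟨x, hx1, hx2⟩ := SetLike.exists_of_lt hnc'
      rw [← Subgroup.subgroupOf_normalizer_eq hDA] at hx1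
      have hx1' : (x : G) ∈ Subgroup.normalizer (D : Set G) := Subgroup.mem_subgroupOf.1 hx1
      have hx2' : (x : G) ∉ D := fun hh => hx2 (Subgroup.mem_subgroupOf.2 hh)
      have hDle : D ≤ M₃ ⊓ A := le_inf (Subgroup.le_normalizer.trans hNM₃) hDA
      have hxmem : (x : G) ∈ M₃ ⊓ A := Subgroup.mem_inf.2 ⟨hNM₃ hx1', x.2⟩
      have hmem : (M₃, A) ∈ {q : Subgroup G × Subgroup G |
          IsCoatom q.1 ∧ IsCoatom q.2 ∧ q.1 ≠ q.2 ∧ q.1 ⊓ q.2 ≠ ⊥} := by
        refine ⟨hM₃, hAc, hne3, ?_⟩
        intro hh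
        apply hint
        rw [eq_bot_iff, ← hh]
        exact hDle
      have hle := hmax (M₃, A) hmem
      simp only at hle
      have heq := Subgroup.eq_of_le_of_card_ge hDle hle
      rw [← heq] at hxmem
      exact hx2' hxmem
    have e1 := key M₁ M₂ hM₁ hM₂ hne rfl
    have e2 := key M₂ M₁ hM₂ hM₁ (Ne.symm hne) (by rw [hD, inf_comm])
    exact hne (e1.symm.trans e2)
  -- a coatom meets its outside conjugates trivially
  have hTI : ∀ M : Subgroup G, IsCoatom M → ∀ g : G, g ∉ M → M ⊓ MulAut.conj g • M = ⊥ := by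
    intro M hM g hg
    apply hA M _ hM (coatom_conj g M hM)
    intro heq
    have hgn : g ∈ Subgroup.normalizer (M : Set G) := by
      rw [Subgroup.mem_normalizer_iff_map_conj_eq]
      exact heq.symm
    rcases (Subgroup.le_normalizer (H := M)).lt_or_eq with h1 | h1
    · have h2 := hM.2 _ h1
      have hMn : M.Normal := Subgroup.normalizer_eq_top_iff.1 h2
      exact hM.1 (hsimple M hMn (hbot M hM))
    · rw [← h1] at hgn
      exact hg hgn
  -- counting
  have hcount : ∀ M : Subgroup G, IsCoatom M →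
      Nat.card G ≤ 2 * Nat.card {x : G // x ≠ 1 ∧ ∃ g : G, g⁻¹ * x * g ∈ M} := by
    intro M hM
    have hc := ti_count M (hTI M hM)
    have h2 : 1 < Nat.card M := (Subgroup.one_lt_card_iff_ne_bot M).2 (hbot M hM)
    obtain ⟨j, hj⟩ : ∃ j, Nat.card M = j + 2 := ⟨Nat.card M - 2, by omega⟩
    rw [hj] at hc
    have : j + 2 - 1 = j + 1 := by omega
    rw [this] at hc
    nlinarith
  have hntriv : (⊥ : Subgroup G) ≠ ⊤ := by
    intro hh
    apply hnc
    haveI : Subsingleton G := by
      constructor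
      intro a b
      have ha : a ∈ (⊥ : Subgroup G) := by rw [hh]; trivial
      have hb : b ∈ (⊥ : Subgroup G) := by rw [hh]; trivial
      rw [Subgroup.mem_bot] at ha hb
      rw [ha, hb]
    exact isCyclic_of_subsingleton
  obtain hh | ⟨M, hM, -⟩ := eq_top_or_exists_le_coatom (⊥ : Subgroup G)
  · exact hntriv hh
  have hcM := ti_count M (hTI M hM)
  have hlt : Nat.card M < Nat.card G := card_lt_top M hM.1
  have hs := card_compl_subtype (fun x : G => x ≠ 1 ∧ ∃ g : G, g⁻¹ * x * g ∈ M)
  have hex : ∃ x : G, x ≠ 1 ∧ ∀ g : G, g⁻¹ * x * g ∉ M := by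
    by_contra hcon
    push_neg at hcon
    have hle1 : Nat.card {x : G // ¬ (x ≠ 1 ∧ ∃ g : G, g⁻¹ * x * g ∈ M)} ≤ 1 := by
      rw [Finite.card_le_one_iff_subsingleton]
      constructor
      rintro ⟨a, ha⟩ ⟨b, hb⟩
      have ha1 : a = 1 := by
        by_contra hne
        exact ha ⟨hne, hcon a hne⟩
      have hb1 : b = 1 := by
        by_contra hne
        exact hb ⟨hne, hcon b hne⟩
      exact Subtype.ext (ha1.trans hb1.symm)
    have hpos : 0 < Nat.card M := Nat.card_pos
    obtain ⟨j, hj⟩ : ∃ j, Nat.card M = j + 1 := ⟨Nat.card M - 1, by omega⟩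
    rw [hj] at hcM hlt
    simp only [Nat.add_sub_cancel] at hcM
    nlinarith
  obtain ⟨x, hx1, hx2⟩ := hex
  obtain hh | ⟨M', hM', hxM'⟩ := eq_top_or_exists_le_coatom (Subgroup.zpowers x)
  · exact hnc (isCyclic_iff_exists_zpowers_eq_top.2 ⟨x, hh⟩)
  have hxM'' : x ∈ M' := hxM' (Subgroup.mem_zpowers x)
  have hdisj : ∀ y : G, (y ≠ 1 ∧ ∃ g : G, g⁻¹ * y * g ∈ M') →
      ¬ (y ≠ 1 ∧ ∃ g : G, g⁻¹ * y * g ∈ M) := by
    rintro y ⟨hy1, g', hg'⟩ ⟨-, g, hg⟩
    have h1 : MulAut.conj g • M = MulAut.conj g' • M' := by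
      by_contra hne
      have h2 := hA _ _ (coatom_conj g M hM) (coatom_conj g' M' hM') hne
      have h3 : y ∈ MulAut.conj g • M := (mem_conj_smul' M g y).2 hg
      have h4 : y ∈ MulAut.conj g' • M' := (mem_conj_smul' M' g' y).2 hg'
      have h5 : y ∈ MulAut.conj g • M ⊓ MulAut.conj g' • M' := Subgroup.mem_inf.2 ⟨h3, h4⟩
      rw [h2, Subgroup.mem_bot] at h5
      exact hy1 h5
    have h6 : g' * x * g'⁻¹ ∈ MulAut.conj g' • M' := by
      rw [mem_conj_smul']
      have e : g'⁻¹ * (g' * x * g'⁻¹) * g' = x := by group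
      rw [e]; exact hxM''
    rw [← h1, mem_conj_smul'] at h6
    apply hx2 (g'⁻¹ * g)
    have e : (g'⁻¹ * g)⁻¹ * x * (g'⁻¹ * g) = g⁻¹ * (g' * x * g'⁻¹) * g := by group
    rw [e]; exact h6
  have hinj : Nat.card (Option {y : G // y ≠ 1 ∧ ∃ g : G, g⁻¹ * y * g ∈ M'}) ≤
      Nat.card {y : G // ¬ (y ≠ 1 ∧ ∃ g : G, g⁻¹ * y * g ∈ M)} := by
    apply Nat.card_le_card_of_injective
      (fun o : Option {y : G // y ≠ 1 ∧ ∃ g : G, g⁻¹ * y * g ∈ M'} =>
        (match o with
        | none => ⟨1, fun hh => hh.1 rfl⟩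
        | some y => ⟨y.1, hdisj y.1 y.2⟩ : {y : G // ¬ (y ≠ 1 ∧ ∃ g : G, g⁻¹ * y * g ∈ M)}))
    intro a b hab
    cases a with
    | none =>
      cases b with
      | none => rfl
      | some b =>
        exfalso
        have : (1 : G) = b.1 := by simpa using congrArg Subtype.val hab
        exact b.2.1 this.symm
    | some a =>
      cases b with
      | none =>
        exfalso
        have : a.1 = (1 : G) := by simpa using congrArg Subtype.val hab
        exact a.2.1 this
      | some b =>
        have : a.1 = b.1 := by simpa using congrArg Subtype.val hab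
        rw [Subtype.ext this]
  rw [Finite.card_option] at hinj
  have hc1 := hcount M hM
  have hc2 := hcount M' hM'
  omega

universe u in
theorem aux (n : ℕ) : ∀ (G : Type u) [Group G] [Finite G], Nat.card G = n →
    (∀ M : Subgroup G, IsCoatom M → Group.IsNilpotent M) → Group.IsSolvable G := by
  induction n using Nat.strong_induction_on with
  | _ n ih =>
    intro G _ _ hn h
    by_cases hnorm : ∃ N : Subgroup G, N.Normal ∧ N ≠ ⊥ ∧ N ≠ ⊤
    · obtain ⟨N, hNn, hN1, hN2⟩ := hnorm
      haveI := hNn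
      have hcq : Nat.card N * Nat.card (G ⧸ N) = Nat.card G := by
        rw [← Subgroup.index_eq_card]; exact Subgroup.card_mul_index N
      have hN1' : 1 < Nat.card N := (Subgroup.one_lt_card_iff_ne_bot N).2 hN1
      have hq : Group.IsSolvable (G ⧸ N) := by
        apply ih (Nat.card (G ⧸ N)) _ (G ⧸ N) rfl
        · intro M hM
          have hc := Cfsg.Agent.S0580.coatom_comap (QuotientGroup.mk' N)
            (QuotientGroup.mk'_surjective N) M hM
          haveI := h _ hc
          have hsurj : Function.Surjective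
              ((QuotientGroup.mk' N).subgroupMap (M.comap (QuotientGroup.mk' N))) :=
            MonoidHom.subgroupMap_surjective _ _
          have hnil := Group.nilpotent_of_surjective _ hsurj
          rw [Subgroup.map_comap_eq_self_of_surjective (QuotientGroup.mk'_surjective N)] at hnil
          exact hnil
        · rw [← hn, ← hcq]
          have : 0 < Nat.card (G ⧸ N) := Nat.card_pos
          nlinarith
      have hNs : Group.IsSolvable N := by
        obtain h' | ⟨M, hM, hNM⟩ := eq_top_or_exists_le_coatom N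
        · exact absurd h' hN2
        · haveI := h M hM
          exact Group.isSolvable_of_isSolvable_injective (f := Subgroup.inclusion hNM)
            (Subgroup.inclusion_injective hNM)
      exact Group.isSolvable_of_ker_le_range (N.subtype) (QuotientGroup.mk' N) (by simp)
    · push_neg at hnorm
      have hcyc := simple_case hnorm h
      exact isSolvable_of_comm (fun a b => (IsCyclic.commutative (α := G)).is_comm.comm a b)

theorem result {G : Type*} [Group G] [Finite G]
    (h : ∀ M : Subgroup G, IsCoatom M → Group.IsNilpotent M) : Group.IsSolvable G :=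
  aux _ G rfl h

end Cfsg.Agent.S0046
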