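import Mathlib
import Cfsg.Statements.S0572

set_option autoImplicit false
open Cfsg
open scoped commutatorElement

namespace Cfsg.Agent.S0572

theorem comm_mul_left {G : Type*} [Group G] (x y z : G) (h : y * z = z * y) : ⁅x * y, z⁆ = ⁅x, z⁆ := by
  have h1 : y * z * y⁻¹ = z := by rw [h]; group
  calc ⁅x * y, z⁆ = x * (y * z * y⁻¹) * x⁻¹ * z⁻¹ := by rw [commutatorElement_def]; group
    _ = ⁅x, z⁆ := by rw [h1, commutatorElement_def]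

theorem comm_mul_right {G : Type*} [Group G] (x y z : G) (h : x * z = z * x) : ⁅x, y * z⁆ = ⁅x, y⁆ := by
  have h1 : z * x⁻¹ * z⁻¹ = x⁻¹ := by
    have : z * x⁻¹ = x⁻¹ * z := by
      calc z * x⁻¹ = x⁻¹ * (x * z) * x⁻¹ := by group
        _ = x⁻¹ * (z * x) * x⁻¹ := by rw [h]
        _ = x⁻¹ * z := by group
    rw [this]; group
  calc ⁅x, y * z⁆ = x * y * (z * x⁻¹ * z⁻¹) * y⁻¹ := by rw [commutatorElement_def]; group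
    _ = ⁅x, y⁆ := by rw [h1, commutatorElement_def]

theorem conj_comm {G : Type*} [Group G] (g x y : G) : g * ⁅x, y⁆ * g⁻¹ = ⁅g * x * g⁻¹, g * y * g⁻¹⁆ := by
  simp only [commutatorElement_def]; group

theorem key {G : Type*} [Group G] (A B : Subgroup G) [IsMulCommutative A] [IsMulCommutative B]
    (hAB : ∀ g : G, ∃ a ∈ A, ∃ b ∈ B, g = a * b) (a a1 : G) (ha : a ∈ A) (ha1 : a1 ∈ A)
    (b b1 : G) (hb : b ∈ B) (hb1 : b1 ∈ B) :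
    a1 * b1 * ⁅a, b⁆ * (a1 * b1)⁻¹ = b1 * a1 * ⁅a, b⁆ * (b1 * a1)⁻¹ := by
  obtain ⟨a3, ha3, b3, hb3, e3⟩ := hAB (b1 * a * b1⁻¹)
  obtain ⟨a2', ha2', b2', hb2', e2'⟩ := hAB (a1 * b * a1⁻¹)⁻¹
  have e2 : a1 * b * a1⁻¹ = b2'⁻¹ * a2'⁻¹ := by
    have : a1 * b * a1⁻¹ = ((a1 * b * a1⁻¹)⁻¹)⁻¹ := by group
    rw [this, e2']; group
  have hbb : b1 * b * b1⁻¹ = b := by
    rw [setLike_mul_comm hb1 hb]; group
  have haa : a1 * a * a1⁻¹ = a := by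
    rw [setLike_mul_comm ha1 ha]; group
  have haa3 : a1 * a3 * a1⁻¹ = a3 := by
    rw [setLike_mul_comm ha1 ha3]; group
  have hbb2 : b1 * b2'⁻¹ * b1⁻¹ = b2'⁻¹ := by
    rw [setLike_mul_comm hb1 (B.inv_mem hb2')]; group
  have lhs : a1 * b1 * ⁅a, b⁆ * (a1 * b1)⁻¹ = ⁅a3, b2'⁻¹⁆ := by
    calc a1 * b1 * ⁅a, b⁆ * (a1 * b1)⁻¹ = a1 * (b1 * ⁅a, b⁆ * b1⁻¹) * a1⁻¹ := by group
      _ = a1 * ⁅a3 * b3, b⁆ * a1⁻¹ := by rw [conj_comm, hbb, e3]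
      _ = a1 * ⁅a3, b⁆ * a1⁻¹ := by rw [comm_mul_left _ _ _ (setLike_mul_comm hb3 hb)]
      _ = ⁅a3, b2'⁻¹ * a2'⁻¹⁆ := by rw [conj_comm, haa3, e2]
      _ = ⁅a3, b2'⁻¹⁆ := comm_mul_right _ _ _ (setLike_mul_comm ha3 (A.inv_mem ha2'))
  have rhs : b1 * a1 * ⁅a, b⁆ * (b1 * a1)⁻¹ = ⁅a3, b2'⁻¹⁆ := by
    calc b1 * a1 * ⁅a, b⁆ * (b1 * a1)⁻¹ = b1 * (a1 * ⁅a, b⁆ * a1⁻¹) * b1⁻¹ := by group
      _ = b1 * ⁅a, b2'⁻¹ * a2'⁻¹⁆ * b1⁻¹ := by rw [conj_comm, haa, e2]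
      _ = b1 * ⁅a, b2'⁻¹⁆ * b1⁻¹ := by rw [comm_mul_right _ _ _ (setLike_mul_comm ha (A.inv_mem ha2'))]
      _ = ⁅a3 * b3, b2'⁻¹⁆ := by rw [conj_comm, hbb2, e3]
      _ = ⁅a3, b2'⁻¹⁆ := comm_mul_left _ _ _ (setLike_mul_comm hb3 (B.inv_mem hb2'))
  rw [lhs, rhs]

theorem comm_gens {G : Type*} [Group G] (A B : Subgroup G) [IsMulCommutative A] [IsMulCommutative B]
    (hAB : ∀ g : G, ∃ a ∈ A, ∃ b ∈ B, g = a * b) (a a1 : G) (ha : a ∈ A) (ha1 : a1 ∈ A)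
    (b b1 : G) (hb : b ∈ B) (hb1 : b1 ∈ B) :
    ⁅a, b⁆ * ⁅a1, b1⁆ = ⁅a1, b1⁆ * ⁅a, b⁆ := by
  have h := key A B hAB a a1⁻¹ ha (A.inv_mem ha1) b b1⁻¹ hb (B.inv_mem hb1)
  have e : ⁅a1, b1⁆ = (b1⁻¹ * a1⁻¹)⁻¹ * (a1⁻¹ * b1⁻¹) := by rw [commutatorElement_def]; group
  rw [e]
  calc ⁅a, b⁆ * ((b1⁻¹ * a1⁻¹)⁻¹ * (a1⁻¹ * b1⁻¹))
      = (b1⁻¹ * a1⁻¹)⁻¹ * (b1⁻¹ * a1⁻¹ * ⁅a, b⁆ * (b1⁻¹ * a1⁻¹)⁻¹) * (a1⁻¹ * b1⁻¹) := by group
    _ = (b1⁻¹ * a1⁻¹)⁻¹ * (a1⁻¹ * b1⁻¹ * ⁅a, b⁆ * (a1⁻¹ * b1⁻¹)⁻¹) * (a1⁻¹ * b1⁻¹) := by rw [h]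
    _ = (b1⁻¹ * a1⁻¹)⁻¹ * (a1⁻¹ * b1⁻¹) * ⁅a, b⁆ := by group

theorem result {G : Type*} [Group G] (A B : Subgroup G) [IsMulCommutative A] [IsMulCommutative B] (hAB : ∀ g : G, ∃ a ∈ A, ∃ b ∈ B, g = a * b) : derivedSeries G 2 = ⊥ := by
  have hNab : IsMulCommutative (⁅A, B⁆ : Subgroup G) := by
    rw [Subgroup.commutator_def]
    apply Subgroup.isMulCommutative_closure
    rintro x ⟨a, ha, b, hb, rfl⟩ y ⟨a1, ha1, b1, hb1, rfl⟩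
    exact comm_gens A B hAB a a1 ha ha1 b b1 hb hb1
  have hconjA : ∀ a' ∈ A, ∀ n ∈ (⁅A, B⁆ : Subgroup G), a' * n * a'⁻¹ ∈ (⁅A, B⁆ : Subgroup G) := by
    intro a' ha' n hn
    have hmap : (⁅A, B⁆ : Subgroup G).map (MulAut.conj a' : G →* G) ≤ ⁅A, B⁆ := by
      rw [Subgroup.commutator_def, MonoidHom.map_closure, Subgroup.closure_le]
      rintro x ⟨y, ⟨a, ha, b, hb, rfl⟩, rfl⟩
      have : (MulAut.conj a' : G →* G) ⁅a, b⁆ = ⁅a' * a, b⁆ * ⁅a', b⁆⁻¹ := by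
        simp only [MonoidHom.coe_coe, MulAut.conj_apply, commutatorElement_def]; group
      rw [this, ← Subgroup.commutator_def]
      exact Subgroup.mul_mem _ (Subgroup.commutator_mem_commutator (A.mul_mem ha' ha) hb)
        (Subgroup.inv_mem _ (Subgroup.commutator_mem_commutator ha' hb))
    exact hmap (Subgroup.mem_map_of_mem _ hn)
  have hconjB : ∀ b' ∈ B, ∀ n ∈ (⁅A, B⁆ : Subgroup G), b' * n * b'⁻¹ ∈ (⁅A, B⁆ : Subgroup G) := by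
    intro b' hb' n hn
    have hmap : (⁅A, B⁆ : Subgroup G).map (MulAut.conj b' : G →* G) ≤ ⁅A, B⁆ := by
      rw [Subgroup.commutator_def, MonoidHom.map_closure, Subgroup.closure_le]
      rintro x ⟨y, ⟨a, ha, b, hb, rfl⟩, rfl⟩
      have : (MulAut.conj b' : G →* G) ⁅a, b⁆ = ⁅a, b'⁆⁻¹ * ⁅a, b' * b⁆ := by
        simp only [MonoidHom.coe_coe, MulAut.conj_apply, commutatorElement_def]; group
      rw [this, ← Subgroup.commutator_def]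
      exact Subgroup.mul_mem _ (Subgroup.inv_mem _ (Subgroup.commutator_mem_commutator ha hb'))
        (Subgroup.commutator_mem_commutator ha (B.mul_mem hb' hb))
    exact hmap (Subgroup.mem_map_of_mem _ hn)
  have hN : (⁅A, B⁆ : Subgroup G).Normal := by
    constructor
    intro n hn g
    obtain ⟨a, ha, b, hb, rfl⟩ := hAB g
    have : a * b * n * (a * b)⁻¹ = a * (b * n * b⁻¹) * a⁻¹ := by group
    rw [this]
    exact hconjA a ha _ (hconjB b hb n hn)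
  have hle : (⁅(⊤ : Subgroup G), (⊤ : Subgroup G)⁆ : Subgroup G) ≤ ⁅A, B⁆ := by
    rw [Subgroup.commutator_le]
    intro g _ h _
    obtain ⟨a, ha, b, hb, rfl⟩ := hAB g
    obtain ⟨a', ha', b', hb', rfl⟩ := hAB h
    have cab : ∀ x ∈ A, ∀ y ∈ B, Commute (QuotientGroup.mk' ⁅A, B⁆ x) (QuotientGroup.mk' ⁅A, B⁆ y) := by
      intro x hx y hy
      rw [← commutatorElement_eq_one_iff_commute, ← map_commutatorElement]
      exact (QuotientGroup.eq_one_iff _).mpr (Subgroup.commutator_mem_commutator hx hy)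
    have caa : ∀ x ∈ A, ∀ y ∈ A, Commute (QuotientGroup.mk' ⁅A, B⁆ x) (QuotientGroup.mk' ⁅A, B⁆ y) := by
      intro x hx y hy
      exact Commute.map (setLike_mul_comm hx hy : Commute x y) _
    have cbb : ∀ x ∈ B, ∀ y ∈ B, Commute (QuotientGroup.mk' ⁅A, B⁆ x) (QuotientGroup.mk' ⁅A, B⁆ y) := by
      intro x hx y hy
      exact Commute.map (setLike_mul_comm hx hy : Commute x y) _
    have h1 : (QuotientGroup.mk' ⁅A, B⁆) ⁅a * b, a' * b'⁆ = 1 := by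
      rw [map_commutatorElement, commutatorElement_eq_one_iff_commute, map_mul, map_mul]
      exact ((caa a ha a' ha').mul_right (cab a ha b' hb')).mul_left
        (((cab a' ha' b hb).symm).mul_right (cbb b hb b' hb'))
    exact (QuotientGroup.eq_one_iff _).mp h1
  have h2 : derivedSeries G 2 = ⁅⁅(⊤ : Subgroup G), ⊤⁆, ⁅(⊤ : Subgroup G), ⊤⁆⁆ := rfl
  rw [h2, eq_bot_iff]
  calc ⁅⁅(⊤ : Subgroup G), ⊤⁆, ⁅(⊤ : Subgroup G), ⊤⁆⁆ ≤ ⁅⁅A, B⁆, ⁅A, B⁆⁆ := Subgroup.commutator_mono hle hle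
    _ = ⊥ := Subgroup.commutator_eq_bot_iff_le_centralizer.mpr (Subgroup.le_centralizer _)

end Cfsg.Agent.S0572
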