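import Mathlib
import Cfsg.Statements.S0048
import Cfsg.Agent.S0003
import Cfsg.Agent.S0527

set_option autoImplicit false
open Cfsg

namespace Cfsg.Agent.S0048

open Subgroup Cfsg.Agent.S0003 Cfsg.Agent.S0527

universe u in
theorem aux (n : ℕ) : ∀ (G : Type u) [Group G] [Finite G] [Group.IsSolvable G],
    Nat.card G = n → ∀ M : Subgroup G, IsCoatom M → IsPrimePow M.index := by
  induction n using Nat.strong_induction_on with
  | _ n ih =>
    intro G _ _ _ hn M hM
    haveI : Nontrivial G := by
      by_contra h
      rw [not_nontrivial_iff_subsingleton] at h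
      exact hM.1 (Subsingleton.elim _ _)
    obtain ⟨p, N, hp, hNn, -, hNne, hNp⟩ := exists_normal_abelian_pgroup G
    haveI := hNn
    haveI : Fact p.Prime := ⟨hp⟩
    by_cases hNM : N ≤ M
    · have hlt : Nat.card (G ⧸ N) < n := by
        rw [← hn, ← Subgroup.index_eq_card]
        have h1 := Subgroup.card_mul_index N
        have h2 : 0 < N.index := Nat.pos_of_ne_zero (Subgroup.index_ne_zero_of_finite)
        have h3 : 1 < Nat.card N := by
          rw [Subgroup.one_lt_card_iff_ne_bot]; exact hNne
        nlinarith
      have hc := coatom_map (QuotientGroup.mk' N) (QuotientGroup.mk'_surjective N) M hM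
        (by rw [QuotientGroup.ker_mk']; exact hNM)
      have := ih _ hlt (G ⧸ N) rfl _ hc
      rwa [Subgroup.index_map_eq M (QuotientGroup.mk'_surjective N)
        (by rw [QuotientGroup.ker_mk']; exact hNM)] at this
    · have hsup : M ⊔ N = ⊤ := by
        apply hM.2
        exact lt_of_le_of_ne le_sup_left (fun h => hNM (h ▸ le_sup_right))
      have h1 : N.relIndex (M ⊔ N) = N.relIndex M := Subgroup.relIndex_sup_right M N
      have hidx : M.index = M.relIndex N := by
        have e1 := card_sup_mul_card_inf M N
        rw [hsup, Subgroup.card_top] at e1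
        have e2 := Subgroup.card_mul_index M
        have e3 : Nat.card (M.subgroupOf N) * M.relIndex N = Nat.card N :=
          Subgroup.card_mul_index (M.subgroupOf N)
        rw [card_subgroupOf_eq'] at e3
        have hMpos : 0 < Nat.card M := Nat.card_pos
        have hIpos : 0 < Nat.card ↥(M ⊓ N) := Nat.card_pos
        have : Nat.card M * Nat.card ↥(M ⊓ N) * M.index =
            Nat.card M * Nat.card ↥(M ⊓ N) * M.relIndex N := by
          calc Nat.card M * Nat.card ↥(M ⊓ N) * M.index
              = (Nat.card M * M.index) * Nat.card ↥(M ⊓ N) := by ring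
            _ = Nat.card G * Nat.card ↥(M ⊓ N) := by rw [e2]
            _ = Nat.card M * Nat.card N := e1
            _ = Nat.card M * (Nat.card ↥(M ⊓ N) * M.relIndex N) := by rw [e3]
            _ = Nat.card M * Nat.card ↥(M ⊓ N) * M.relIndex N := by ring
        exact Nat.eq_of_mul_eq_mul_left (Nat.mul_pos hMpos hIpos) this
      obtain ⟨a, ha⟩ := IsPGroup.iff_card.mp hNp
      have hdvd : M.relIndex N ∣ p ^ a := by
        rw [← ha]; exact Subgroup.relIndex_dvd_card M N
      obtain ⟨b, -, hb⟩ := (Nat.dvd_prime_pow hp).mp hdvd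
      rw [hidx, hb]
      have hb0 : b ≠ 0 := by
        rintro rfl
        rw [pow_zero] at hb
        rw [hb] at hidx
        exact hM.1 (Subgroup.index_eq_one.mp hidx)
      exact ⟨p, b, hp.prime, Nat.pos_of_ne_zero hb0, rfl⟩

theorem result {G : Type*} [Group G] [Finite G] [Group.IsSolvable G]
    (M : Subgroup G) (hM : IsCoatom M) : IsPrimePow M.index := by
  exact aux _ G rfl M hM

end Cfsg.Agent.S0048
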