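import Mathlib
import Cfsg.Statements.S0049

set_option autoImplicit false
open Cfsg

namespace Cfsg.Agent.S0049

/-- A prime divisor of the order of a finite group also divides the index of the Frattini subgroup. -/
theorem result {G : Type*} [Group G] [Finite G] (p : ℕ) (hp : p.Prime) (hdvd : p ∣ Nat.card G) :
    p ∣ (frattini G).index := by
  have : Fact p.Prime := ⟨hp⟩
  by_contra hnd
  have hΦn : (frattini G).Normal := inferInstance
  obtain ⟨P⟩ : Nonempty (Sylow p (frattini G)) := inferInstance
  have h1 := Sylow.normalizer_sup_eq_top P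
  have h2 := frattini_nongenerating h1
  obtain ⟨P', hP'⟩ : ∃ P' : Subgroup G, P' = (P : Subgroup (frattini G)).map (frattini G).subtype :=
    ⟨_, rfl⟩
  rw [← hP'] at h2
  have hP'n : P'.Normal := Subgroup.normalizer_eq_top_iff.mp h2
  have hP'p : IsPGroup p P' := by rw [hP']; exact P.2.map _
  have hidx : ¬ p ∣ P'.index := by
    have h3 : P'.index = (P : Subgroup (frattini G)).index * (frattini G).index := by
      rw [hP', Subgroup.index_map_subtype]
    rw [h3]
    intro h
    rcases (Nat.Prime.dvd_mul hp).mp h with h | h
    · exact P.not_dvd_index h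
    · exact hnd h
  have hcop : Nat.Coprime (Nat.card P') P'.index := by
    obtain ⟨k, hk⟩ := hP'p.exists_card_eq
    rw [hk]
    exact Nat.Coprime.pow_left k ((Nat.Prime.coprime_iff_not_dvd hp).mpr hidx)
  obtain ⟨K, hK⟩ := Subgroup.exists_right_complement'_of_coprime hcop
  have h4 : K ⊔ frattini G = ⊤ := by
    have h0 := hK.sup_eq_top
    have hle : P' ≤ frattini G := by rw [hP']; exact Subgroup.map_subtype_le _
    apply top_le_iff.mp
    rw [← h0]
    exact sup_le (le_sup_of_le_right hle) le_sup_left
  have h5 : K = ⊤ := frattini_nongenerating h4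
  have h6 : Nat.card P' * Nat.card K = Nat.card G := hK.card_mul_card
  rw [h5, Subgroup.card_top] at h6
  have h7 : Nat.card P' = 1 := by
    have hpos : 0 < Nat.card G := Nat.card_pos
    have : Nat.card P' * Nat.card G = 1 * Nat.card G := by rw [h6, one_mul]
    exact Nat.eq_of_mul_eq_mul_right hpos this
  have h8 := Subgroup.card_mul_index P'
  rw [h7, one_mul] at h8
  rw [← h8] at hdvd
  exact hidx hdvd

end Cfsg.Agent.S0049
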