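import Mathlib
import Cfsg.Statements.S0050
import Cfsg.Agent.S0001
import Cfsg.Agent.S0003
import Cfsg.Agent.S0004
import Cfsg.Agent.S0023

set_option autoImplicit false
open Pointwise
open Cfsg

namespace Cfsg.Agent.S0050

open Subgroup Cfsg.Agent.S0003 Cfsg.Agent.S0004 Cfsg.Agent.S0001 Cfsg.Agent.S0023

theorem result {G : Type*} [Group G] [Finite G] (L : Subgroup G) [L.Normal] (hL : Group.IsSolvable L)
    (H : Subgroup G) (hHL : H ≤ L) (hHall : (Nat.card H).Coprime (H.relIndex L)) :
    L ⊔ Subgroup.normalizer (H : Set G) = ⊤ := by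
  rw [eq_top_iff]
  intro g _
  have h1 : MulAut.conj g • H ≤ L := by
    have : MulAut.conj g • L = L := Subgroup.Normal.conj_smul_eq_self g L
    rw [← this]
    exact Subgroup.pointwise_smul_le_pointwise_smul_iff.mpr hHL
  have cH : Nat.card (H.subgroupOf L) = Nat.card H := by
    rw [card_subgroupOf_eq', inf_of_le_left hHL]
  have cH1 : Nat.card ((MulAut.conj g • H).subgroupOf L) = Nat.card H := by
    rw [card_subgroupOf_eq', inf_of_le_left h1, card_conj_smul]
  have hcard : Nat.card L = Nat.card H * H.relIndex L := by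
    have := Subgroup.card_mul_index (H.subgroupOf L)
    rw [cH] at this
    exact this.symm
  obtain ⟨l, hl⟩ := hall_conj _ L rfl (Nat.card H) (H.relIndex L) hcard hHall
    ((MulAut.conj g • H).subgroupOf L) (H.subgroupOf L) cH1 cH
  have h2 := conj_of_subgroupOf L (MulAut.conj g • H) H h1 hHL l hl
  rw [← mul_smul, ← map_mul] at h2
  have h3 : (l : G) * g ∈ normalizer (H : Set G) := (mem_normalizer_iff_conj_smul H _).mpr h2
  have e : g = (l : G)⁻¹ * ((l : G) * g) := by group
  rw [e]
  exact Subgroup.mul_mem _ (Subgroup.mem_sup_left (L.inv_mem l.2)) (Subgroup.mem_sup_right h3)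

end Cfsg.Agent.S0050
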