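import Mathlib
import Cfsg.Statements.S0051

set_option autoImplicit false
open Pointwise
open Cfsg

namespace Cfsg.Agent.S0051

open scoped IsMulCommutative

section
variable {G : Type*} [Group G] (K U A : Subgroup G)

theorem exists_delta [K.Normal] (hKA : K ⊔ A = U) (x x' : G) (h : x⁻¹ * x' ∈ U) :
    ∃ k : K, x'⁻¹ * (k : G) * x ∈ A := by
  rw [← hKA] at h
  have h' : x⁻¹ * x' ∈ ((K ⊔ A : Subgroup G) : Set G) := h
  rw [Subgroup.normal_mul] at h'
  obtain ⟨k₀, hk₀, a₀, ha₀, he⟩ := h'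
  have he' : k₀ * a₀ = x⁻¹ * x' := he
  refine ⟨⟨x * k₀ * x⁻¹, Subgroup.Normal.conj_mem inferInstance k₀ hk₀ x⟩, ?_⟩
  have e : x'⁻¹ * (x * k₀ * x⁻¹) * x = a₀⁻¹ := by
    have e1 : x' = x * (k₀ * a₀) := by rw [he']; group
    rw [e1]; group
  rw [e]; exact A.inv_mem ha₀

/-- The element `k ∈ K` with `k x A = x' A` (when it exists). -/
noncomputable def delta (x x' : G) : K :=
  open Classical in
  if h : ∃ k : K, x'⁻¹ * (k : G) * x ∈ A then Classical.choose h else 1

theorem delta_unique [K.Normal] (hAK : A ⊓ K = ⊥) (x x' : G) (k : K)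
    (hk : x'⁻¹ * (k : G) * x ∈ A) : delta K A x x' = k := by
  have hex : ∃ k : K, x'⁻¹ * (k : G) * x ∈ A := ⟨k, hk⟩
  rw [delta, dif_pos hex]
  have h1 := Classical.choose_spec hex
  obtain ⟨k', hk'⟩ : ∃ k' : K, k' = Classical.choose hex := ⟨_, rfl⟩
  rw [← hk'] at h1 ⊢
  have h2 : x⁻¹ * ((k' : G)⁻¹ * (k : G)) * x ∈ A ⊓ K := by
    apply Subgroup.mem_inf.2
    constructor
    · have e : x⁻¹ * ((k' : G)⁻¹ * (k : G)) * x =
          (x'⁻¹ * (k' : G) * x)⁻¹ * (x'⁻¹ * (k : G) * x) := by group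
      rw [e]; exact A.mul_mem (A.inv_mem h1) hk
    · have h3 := Subgroup.Normal.conj_mem (inferInstance : K.Normal) _
        (K.mul_mem (K.inv_mem k'.2) k.2) x⁻¹
      simpa using h3
  rw [hAK, Subgroup.mem_bot] at h2
  have h3 : (k' : G)⁻¹ * (k : G) = 1 := by
    have e : (k' : G)⁻¹ * (k : G) = x * (x⁻¹ * ((k' : G)⁻¹ * (k : G)) * x) * x⁻¹ := by group
    rw [e, h2]; group
  apply Subtype.ext
  exact inv_mul_eq_one.1 h3

theorem delta_spec [K.Normal] (hKA : K ⊔ A = U) (x x' : G) (h : x⁻¹ * x' ∈ U) :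
    x'⁻¹ * (delta K A x x' : G) * x ∈ A := by
  have hex := exists_delta K U A hKA x x' h
  rw [delta, dif_pos hex]
  exact Classical.choose_spec hex

theorem delta_self [K.Normal] (hAK : A ⊓ K = ⊥) (x : G) : delta K A x x = 1 :=
  delta_unique K A hAK x x 1 (by simp)

theorem delta_trans [K.Normal] [IsMulCommutative K] (hAK : A ⊓ K = ⊥) (hKA : K ⊔ A = U)
    (x x' x'' : G) (h1 : x⁻¹ * x' ∈ U) (h2 : x'⁻¹ * x'' ∈ U) :
    delta K A x x'' = delta K A x x' * delta K A x' x'' := by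
  apply delta_unique K A hAK
  have a1 := delta_spec K U A hKA x x' h1
  have a2 := delta_spec K U A hKA x' x'' h2
  have hcomm : ((delta K A x x' * delta K A x' x'' : K) : G) =
      (delta K A x' x'' : G) * (delta K A x x' : G) := by
    rw [mul_comm]; rfl
  rw [hcomm]
  have e : x''⁻¹ * ((delta K A x' x'' : G) * (delta K A x x' : G)) * x =
      (x''⁻¹ * (delta K A x' x'' : G) * x') * (x'⁻¹ * (delta K A x x' : G) * x) := by group
  rw [e]; exact A.mul_mem a2 a1

theorem delta_conj [K.Normal] (hAK : A ⊓ K = ⊥) (hKA : K ⊔ A = U) (g x x' : G)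
    (h : x⁻¹ * x' ∈ U) :
    delta K A (g * x) (g * x') = MulAut.conjNormal g (delta K A x x') := by
  apply delta_unique K A hAK
  have a1 := delta_spec K U A hKA x x' h
  have e : (g * x')⁻¹ * ((MulAut.conjNormal g (delta K A x x') : K) : G) * (g * x) =
      x'⁻¹ * (delta K A x x' : G) * x := by
    rw [MulAut.conjNormal_apply]; group
  rw [e]; exact a1

theorem delta_mul_left [K.Normal] (hAK : A ⊓ K = ⊥) (hKA : K ⊔ A = U) (k : K) (x x' : G)
    (h : x⁻¹ * x' ∈ U) : delta K A x ((k : G) * x') = k * delta K A x x' := by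
  apply delta_unique K A hAK
  have a1 := delta_spec K U A hKA x x' h
  have e : ((k : G) * x')⁻¹ * ((k * delta K A x x' : K) : G) * x =
      x'⁻¹ * (delta K A x x' : G) * x := by
    rw [Subgroup.coe_mul]; group
  rw [e]; exact a1

/-- `σ` picks a representative of every left coset of `U`. -/
def IsSec (σ : G ⧸ U → G) : Prop := ∀ c : G ⧸ U, ((σ c : G) : G ⧸ U) = c

theorem sec_rel {σ τ : G ⧸ U → G} (hσ : IsSec U σ) (hτ : IsSec U τ) (c : G ⧸ U) :
    (σ c)⁻¹ * τ c ∈ U := by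
  rw [← QuotientGroup.eq, hσ c, hτ c]

/-- left translation of a choice of representatives -/
def act (g : G) (σ : G ⧸ U → G) : G ⧸ U → G := fun c => g * σ (g⁻¹ • c)

theorem isSec_act (g : G) {σ : G ⧸ U → G} (hσ : IsSec U σ) : IsSec U (act U g σ) := by
  intro c
  have e : ((g * σ (g⁻¹ • c) : G) : G ⧸ U) = g • ((σ (g⁻¹ • c) : G) : G ⧸ U) := rfl
  show ((g * σ (g⁻¹ • c) : G) : G ⧸ U) = c
  rw [e, hσ, smul_inv_smul]

theorem act_mul (g h : G) (σ : G ⧸ U → G) : act U (g * h) σ = act U g (act U h σ) := by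
  funext c
  simp only [act, mul_inv_rev, mul_smul, mul_assoc]

noncomputable def D [IsMulCommutative K] [Fintype (G ⧸ U)] (σ τ : G ⧸ U → G) : K :=
  ∏ c : G ⧸ U, delta K A (σ c) (τ c)

theorem D_self [K.Normal] [IsMulCommutative K] [Fintype (G ⧸ U)] (hAK : A ⊓ K = ⊥)
    (σ : G ⧸ U → G) : D K U A σ σ = 1 :=
  Finset.prod_eq_one (fun c _ => delta_self K A hAK (σ c))

theorem D_trans [K.Normal] [IsMulCommutative K] [Fintype (G ⧸ U)] (hAK : A ⊓ K = ⊥)
    (hKA : K ⊔ A = U) (σ τ ρ : G ⧸ U → G) (hσ : IsSec U σ) (hτ : IsSec U τ) (hρ : IsSec U ρ) :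
    D K U A σ ρ = D K U A σ τ * D K U A τ ρ := by
  unfold D
  rw [← Finset.prod_mul_distrib]
  apply Finset.prod_congr rfl
  intro c _
  exact delta_trans K U A hAK hKA _ _ _ (sec_rel U hσ hτ c) (sec_rel U hτ hρ c)

theorem D_act [K.Normal] [IsMulCommutative K] [Fintype (G ⧸ U)] (hAK : A ⊓ K = ⊥)
    (hKA : K ⊔ A = U) (g : G) (σ τ : G ⧸ U → G) (hσ : IsSec U σ) (hτ : IsSec U τ) :
    D K U A (act U g σ) (act U g τ) = MulAut.conjNormal g (D K U A σ τ) := by
  unfold D
  rw [map_prod]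
  rw [← Equiv.prod_comp (MulAction.toPerm g⁻¹ : Equiv.Perm (G ⧸ U))
    (fun c => MulAut.conjNormal g (delta K A (σ c) (τ c)))]
  apply Finset.prod_congr rfl
  intro c _
  exact delta_conj K U A hAK hKA g _ _ (sec_rel U hσ hτ (g⁻¹ • c))

theorem smul_eq_of_mem [K.Normal] (hKU : K ≤ U) (k : G) (hk : k ∈ K) (c : G ⧸ U) :
    k • c = c := by
  induction c using QuotientGroup.induction_on with
  | H x =>
    show ((k * x : G) : G ⧸ U) = (x : G ⧸ U)
    rw [QuotientGroup.eq]
    apply hKU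
    have h3 := Subgroup.Normal.conj_mem (inferInstance : K.Normal) _ (K.inv_mem hk) x⁻¹
    have e : (k * x)⁻¹ * x = x⁻¹ * k⁻¹ * x⁻¹⁻¹ := by group
    rw [e]; exact h3

theorem D_act_K [K.Normal] [IsMulCommutative K] [Fintype (G ⧸ U)] (hAK : A ⊓ K = ⊥)
    (hKA : K ⊔ A = U) (hKU : K ≤ U) (k : K) (σ : G ⧸ U → G) (hσ : IsSec U σ) :
    D K U A σ (act U (k : G) σ) = k ^ Fintype.card (G ⧸ U) := by
  unfold D
  have h1 : ∀ c : G ⧸ U, delta K A (σ c) (act U (k : G) σ c) = k := by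
    intro c
    show delta K A (σ c) ((k : G) * σ ((k : G)⁻¹ • c)) = k
    rw [smul_eq_of_mem K U hKU _ (K.inv_mem k.2) c,
      delta_mul_left K U A hAK hKA k _ _ (sec_rel U hσ hσ c), delta_self K A hAK, mul_one]
  rw [Finset.prod_congr rfl (fun c _ => h1 c), Finset.prod_const, Finset.card_univ]

end

/-- A crossed homomorphism `G → K` restricting to a coprime power map on the abelian normal
subgroup `K` has a complement of `K` as kernel. -/
theorem complement_of_crossed {G : Type*} [Group G] [Finite G] (K : Subgroup G) [K.Normal]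
    [IsMulCommutative K] (n : ℕ) (hn : (Nat.card K).Coprime n) (c : G → K)
    (hc1 : ∀ g h : G, c (g * h) = c g * MulAut.conjNormal g (c h))
    (hc2 : ∀ k : K, c (k : G) = k ^ n) : ∃ L : Subgroup G, Subgroup.IsComplement' K L := by
  have hc_one : c 1 = 1 := by
    have h1 := hc1 1 1
    rw [mul_one, map_one] at h1
    simpa using h1
  let L : Subgroup G :=
    { carrier := {g | c g = 1}
      mul_mem' := by
        intro a b ha hb
        show c (a * b) = 1
        rw [hc1, show c a = 1 from ha, show c b = 1 from hb, map_one, one_mul]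
      one_mem' := hc_one
      inv_mem' := by
        intro a ha
        show c a⁻¹ = 1
        have h1 := hc1 a⁻¹ a
        rw [inv_mul_cancel, hc_one, show c a = 1 from ha, map_one, mul_one] at h1
        exact h1.symm }
  refine ⟨L, ?_⟩
  apply Subgroup.isComplement'_of_disjoint_and_mul_eq_univ
  · rw [disjoint_iff, eq_bot_iff]
    intro x hx
    obtain ⟨hxK, hxL⟩ := Subgroup.mem_inf.1 hx
    have h1 : c x = 1 := hxL
    have h2 := hc2 ⟨x, hxK⟩
    rw [h1] at h2
    have h3 : (powCoprime hn) ⟨x, hxK⟩ = (powCoprime hn) 1 := by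
      show (⟨x, hxK⟩ : K) ^ n = 1 ^ n
      rw [one_pow, ← h2]
    have h4 := (powCoprime hn).injective h3
    rw [Subgroup.mem_bot]
    exact congrArg Subtype.val h4
  · rw [Set.eq_univ_iff_forall]
    intro g
    obtain ⟨k, hk⟩ : ∃ k : K, k = (powCoprime hn).symm ((c g)⁻¹) := ⟨_, rfl⟩
    have hkn : k ^ n = (c g)⁻¹ := by
      rw [hk]; exact (powCoprime hn).apply_symm_apply _
    have h1 : c ((k : G) * g) = 1 := by
      rw [hc1, hc2, hkn]
      have h5 : MulAut.conjNormal (k : G) (c g) = c g := by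
        apply Subtype.ext
        rw [MulAut.conjNormal_apply]
        have h6 := mul_comm k (c g)
        have h' : (k : G) * (c g : G) = (c g : G) * (k : G) := congrArg Subtype.val h6
        rw [h']; group
      rw [h5, inv_mul_cancel]
    exact ⟨(k : G)⁻¹, K.inv_mem k.2, (k : G) * g, h1, by group⟩

theorem result {G : Type*} [Group G] [Finite G] (K U : Subgroup G) [K.Normal] [IsMulCommutative K]
    (hKU : K ≤ U) (hcop : (Nat.card K).Coprime U.index)
    (A : Subgroup G) (hAU : A ≤ U) (hAK : A ⊓ K = ⊥) (hKA : K ⊔ A = U) :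
    ∃ H : Subgroup G, Subgroup.IsComplement' K H := by
  classical
  haveI : Fintype (G ⧸ U) := Fintype.ofFinite _
  obtain ⟨σ₀, hσ₀⟩ : ∃ σ₀ : G ⧸ U → G, IsSec U σ₀ :=
    ⟨fun c => Quotient.out c, fun c => QuotientGroup.out_eq' c⟩
  apply complement_of_crossed K (Fintype.card (G ⧸ U))
    (by rw [← Nat.card_eq_fintype_card, ← Subgroup.index_eq_card]; exact hcop)
    (fun g => D K U A σ₀ (act U g σ₀))
  · intro g h
    have h1 := D_trans K U A hAK hKA σ₀ (act U g σ₀) (act U (g * h) σ₀) hσ₀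
      (isSec_act U g hσ₀) (isSec_act U (g * h) hσ₀)
    have h2 : act U (g * h) σ₀ = act U g (act U h σ₀) := act_mul U g h σ₀
    show D K U A σ₀ (act U (g * h) σ₀) = _
    rw [h1, h2, D_act K U A hAK hKA g σ₀ (act U h σ₀) hσ₀ (isSec_act U h hσ₀)]
  · intro k
    exact D_act_K K U A hAK hKA hKU k σ₀ hσ₀

end Cfsg.Agent.S0051
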