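import Mathlib
import Cfsg.Statements.S0052
import Cfsg.Agent.S0051

set_option autoImplicit false
open Pointwise
open Cfsg

namespace Cfsg.Agent.S0052

open scoped IsMulCommutative
open Cfsg.Agent.S0051

theorem mem_conj_smul2 {G : Type*} [Group G] (H : Subgroup G) (g x : G) :
    x ∈ MulAut.conj g • H ↔ g⁻¹ * x * g ∈ H := by
  rw [Subgroup.mem_pointwise_smul_iff_inv_smul_mem]
  simp [MulAut.smul_def]

theorem card_conj_smul2 {G : Type*} [Group G] (g : G) (H : Subgroup G) :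
    Nat.card ↥(MulAut.conj g • H) = Nat.card H := by
  rw [Subgroup.pointwise_smul_def]
  exact Subgroup.card_map_of_injective (MulEquiv.injective (MulAut.conj g))

theorem act_one {G : Type*} [Group G] (U : Subgroup G) (σ : G ⧸ U → G) : act U 1 σ = σ := by
  funext c
  simp [act]

theorem result {G : Type*} [Group G] [Finite G] (K U : Subgroup G) [K.Normal] [IsMulCommutative K]
    (hKU : K ≤ U) (hcop : (Nat.card K).Coprime U.index)
    (H₀ H₁ : Subgroup G) (h₀ : Subgroup.IsComplement' K H₀) (h₁ : Subgroup.IsComplement' K H₁) (hU : H₀ ⊓ U = H₁ ⊓ U) :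
    ∃ g : G, MulAut.conj g • H₀ = H₁ := by
  classical
  haveI : Fintype (G ⧸ U) := Fintype.ofFinite _
  set A : Subgroup G := H₀ ⊓ U with hA
  have hAK : A ⊓ K = ⊥ := by
    rw [eq_bot_iff]
    intro x hx
    obtain ⟨hxA, hxK⟩ := Subgroup.mem_inf.1 hx
    have hx0 : x ∈ K ⊓ H₀ := Subgroup.mem_inf.2 ⟨hxK, (Subgroup.mem_inf.1 hxA).1⟩
    rw [h₀.disjoint.eq_bot] at hx0
    exact hx0
  have hKA : K ⊔ A = U := by
    apply le_antisymm (sup_le hKU inf_le_right)
    intro u hu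
    obtain ⟨⟨k, h⟩, hkh⟩ := h₀.2 u
    have hkh' : (k : G) * (h : G) = u := hkh
    have hhU : (h : G) ∈ U := by
      have e : (h : G) = (k : G)⁻¹ * u := by rw [← hkh']; group
      rw [e]; exact U.mul_mem (U.inv_mem (hKU k.2)) hu
    rw [← hkh']
    exact Subgroup.mul_mem _ (Subgroup.mem_sup_left k.2)
      (Subgroup.mem_sup_right (Subgroup.mem_inf.2 ⟨h.2, hhU⟩))
  have hn : (Nat.card K).Coprime (Fintype.card (G ⧸ U)) := by
    rw [← Nat.card_eq_fintype_card, ← Subgroup.index_eq_card]; exact hcop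
  -- sections with values in a complement, fixed by the complement
  have key : ∀ H : Subgroup G, Subgroup.IsComplement' K H → H ⊓ U = A →
      ∃ σ : G ⧸ U → G, IsSec U σ ∧ ∀ h ∈ H, D K U A σ (act U h σ) = 1 := by
    intro H hH hHU
    have hex : ∀ c : G ⧸ U, ∃ x ∈ H, ((x : G) : G ⧸ U) = c := by
      intro c
      induction c using QuotientGroup.induction_on with
      | H g =>
        obtain ⟨⟨k, h⟩, hkh⟩ := hH.2 g
        have hkh' : (k : G) * (h : G) = g := hkh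
        refine ⟨h, h.2, ?_⟩
        rw [← hkh']
        exact (smul_eq_of_mem K U hKU (k : G) k.2 ((h : G) : G ⧸ U)).symm
    choose σ hσH hσ using hex
    refine ⟨σ, hσ, ?_⟩
    intro h hh
    apply Finset.prod_eq_one
    intro c _
    apply delta_unique K A hAK
    have h1 : (σ c)⁻¹ * (act U h σ c) ∈ U := sec_rel U hσ (isSec_act U h hσ) c
    have h2 : (σ c)⁻¹ * (act U h σ c) ∈ H :=
      H.mul_mem (H.inv_mem (hσH c)) (H.mul_mem hh (hσH _))
    have h3 : (σ c)⁻¹ * (act U h σ c) ∈ A := by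
      rw [← hHU]; exact Subgroup.mem_inf.2 ⟨h2, h1⟩
    have e : (act U h σ c)⁻¹ * ((1 : K) : G) * σ c = ((σ c)⁻¹ * (act U h σ c))⁻¹ := by
      rw [Subgroup.coe_one]; group
    rw [e]; exact A.inv_mem h3
  obtain ⟨σ₀, hσ₀, hfix₀⟩ := key H₀ h₀ rfl
  obtain ⟨σ₁, hσ₁, hfix₁⟩ := key H₁ h₁ hU.symm
  obtain ⟨k, hk⟩ : ∃ k : K, k = (powCoprime hn).symm ((D K U A σ₀ σ₁)⁻¹) := ⟨_, rfl⟩
  have hkn : k ^ Fintype.card (G ⧸ U) = (D K U A σ₀ σ₁)⁻¹ := by
    rw [hk]; exact (powCoprime hn).apply_symm_apply _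
  set τ := act U (k : G) σ₁ with hτ
  have hτs : IsSec U τ := isSec_act U _ hσ₁
  have hD1 : D K U A σ₀ τ = 1 := by
    rw [D_trans K U A hAK hKA σ₀ σ₁ τ hσ₀ hσ₁ hτs, hτ, D_act_K K U A hAK hKA hKU k σ₁ hσ₁, hkn,
      mul_inv_cancel]
  have hD2 : D K U A τ σ₀ = 1 := by
    have h1 := D_trans K U A hAK hKA τ σ₀ τ hτs hσ₀ hτs
    rw [D_self K U A hAK, hD1, mul_one] at h1
    exact h1.symm
  have hle : H₀ ≤ MulAut.conj (k : G) • H₁ := by
    intro h hh
    rw [mem_conj_smul2]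
    have hD3 : D K U A τ (act U h τ) = 1 := by
      rw [D_trans K U A hAK hKA τ σ₀ (act U h τ) hτs hσ₀ (isSec_act U h hτs),
        D_trans K U A hAK hKA σ₀ (act U h σ₀) (act U h τ) hσ₀ (isSec_act U h hσ₀)
          (isSec_act U h hτs),
        D_act K U A hAK hKA h σ₀ τ hσ₀ hτs, hD1, hD2, hfix₀ h hh, map_one, mul_one, mul_one]
    obtain ⟨⟨k', h'⟩, hkh⟩ := h₁.2 ((k : G)⁻¹ * h * (k : G))
    have hkh' : (k' : G) * (h' : G) = (k : G)⁻¹ * h * (k : G) := hkh
    have e1 : act U h τ = act U ((k : G) * (k' : G)) (act U (h' : G) σ₁) := by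
      rw [hτ, ← act_mul, ← act_mul]
      have e : h * (k : G) = (k : G) * (k' : G) * (h' : G) := by
        rw [mul_assoc, hkh']; group
      rw [e]
    have e2 : τ = act U (k : G) σ₁ := hτ
    have hD4 : D K U A τ (act U h τ) = MulAut.conjNormal (k : G) (k' ^ Fintype.card (G ⧸ U)) := by
      rw [e1]
      rw [D_trans K U A hAK hKA τ (act U ((k : G) * (k' : G)) σ₁) _ hτs (isSec_act U _ hσ₁)
        (isSec_act U _ (isSec_act U _ hσ₁))]
      rw [D_act K U A hAK hKA ((k : G) * (k' : G)) σ₁ (act U (h' : G) σ₁) hσ₁ (isSec_act U _ hσ₁),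
        hfix₁ h' h'.2, map_one, mul_one, e2, act_mul,
        D_act K U A hAK hKA (k : G) σ₁ (act U (k' : G) σ₁) hσ₁ (isSec_act U _ hσ₁),
        D_act_K K U A hAK hKA hKU k' σ₁ hσ₁]
    rw [hD3] at hD4
    have h5 : k' ^ Fintype.card (G ⧸ U) = 1 := by
      have h6 := congrArg (MulAut.conjNormal (k : G)).symm hD4
      rw [map_one, MulEquiv.symm_apply_apply] at h6
      exact h6.symm
    have h7 : k' = 1 := by
      have h3 : (powCoprime hn) k' = (powCoprime hn) 1 := by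
        show k' ^ Fintype.card (G ⧸ U) = 1 ^ Fintype.card (G ⧸ U)
        rw [one_pow, h5]
      exact (powCoprime hn).injective h3
    rw [h7, Subgroup.coe_one, one_mul] at hkh'
    rw [← hkh']
    exact h'.2
  have hcard : Nat.card ↥(MulAut.conj (k : G) • H₁) ≤ Nat.card H₀ := by
    rw [card_conj_smul2]
    have c0 := h₀.card_mul_card
    have c1 := h₁.card_mul_card
    have hKpos : 0 < Nat.card K := Nat.card_pos
    have : Nat.card K * Nat.card H₁ = Nat.card K * Nat.card H₀ := by rw [c0, c1]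
    exact (Nat.eq_of_mul_eq_mul_left hKpos this).le
  have heq : H₀ = MulAut.conj (k : G) • H₁ := Subgroup.eq_of_le_of_card_ge hle hcard
  refine ⟨(k : G)⁻¹, ?_⟩
  rw [heq, ← mul_smul, ← map_mul, inv_mul_cancel, map_one, one_smul]

end Cfsg.Agent.S0052
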