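import Mathlib
import Cfsg.Statements.S0053

set_option autoImplicit false
open Cfsg
open Pointwise

namespace Cfsg.Agent.S0053

/-- An abelian minimal normal subgroup N of a finite group is complemented exactly when N is not inside the Frattini subgroup. -/
theorem result {G : Type*} [Group G] [Finite G]
    (N : Subgroup G) [N.Normal] [IsMulCommutative N] (hN : N ≠ ⊥)
    (hmin : ∀ M : Subgroup G, M.Normal → M ≤ N → M = ⊥ ∨ M = N) :
    (∃ H : Subgroup G, Subgroup.IsComplement' N H) ↔ ¬ N ≤ frattini G := by
  constructor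
  · rintro ⟨H, hH⟩ hle
    have h1 : H ⊔ frattini G = ⊤ := by
      have h0 := hH.sup_eq_top
      apply top_le_iff.mp
      rw [← h0]
      exact sup_le (le_sup_of_le_right hle) le_sup_left
    have h2 : H = ⊤ := frattini_nongenerating h1
    apply hN
    have hd := hH.disjoint
    rw [h2] at hd
    exact disjoint_top.mp hd
  · intro hnle
    have hex : ∃ M : Subgroup G, IsCoatom M ∧ ¬ N ≤ M := by
      by_contra hcon
      apply hnle
      unfold frattini Order.radical
      refine le_iInf₂ (fun M hM => ?_)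
      by_contra h
      exact hcon ⟨M, hM, h⟩
    obtain ⟨M, hM, hNM⟩ := hex
    refine ⟨M, ?_⟩
    have hsup : N ⊔ M = ⊤ := by
      by_contra h
      have hlt : M < N ⊔ M :=
        lt_of_le_of_ne le_sup_right (fun heq => hNM (by rw [heq]; exact le_sup_left))
      exact h (hM.2 _ hlt)
    have hmul : (↑N : Set G) * (↑M : Set G) = Set.univ := by
      rw [← Subgroup.normal_mul, hsup, Subgroup.coe_top]
    have hnorm : (N ⊓ M).Normal := by
      constructor
      intro x hx g
      obtain ⟨hxN, hxM⟩ := Subgroup.mem_inf.mp hx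
      have hg : g ∈ (↑N : Set G) * (↑M : Set G) := by rw [hmul]; exact Set.mem_univ g
      obtain ⟨n, hn, m, hm, rfl⟩ := Set.mem_mul.mp hg
      have h1 : m * x * m⁻¹ ∈ N := ‹N.Normal›.conj_mem x hxN m
      have h2 : m * x * m⁻¹ ∈ M := M.mul_mem (M.mul_mem hm hxM) (M.inv_mem hm)
      have hcomm : n * (m * x * m⁻¹) = (m * x * m⁻¹) * n := by
        have h0 := mul_comm' (⟨n, hn⟩ : N) ⟨m * x * m⁻¹, h1⟩
        exact congrArg Subtype.val h0
      have h3 : n * m * x * (n * m)⁻¹ = m * x * m⁻¹ := by
        calc n * m * x * (n * m)⁻¹ = n * (m * x * m⁻¹) * n⁻¹ := by group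
          _ = (m * x * m⁻¹) * n * n⁻¹ := by rw [hcomm]
          _ = m * x * m⁻¹ := by group
      rw [h3]
      exact Subgroup.mem_inf.mpr ⟨h1, h2⟩
    have hbot : N ⊓ M = ⊥ := by
      rcases hmin _ hnorm inf_le_left with h | h
      · exact h
      · exfalso
        apply hNM
        rw [← h]
        exact inf_le_right
    exact Subgroup.isComplement'_of_disjoint_and_mul_eq_univ (disjoint_iff.mpr hbot) hmul

end Cfsg.Agent.S0053
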