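import Mathlib
import Cfsg.Statements.S0054

set_option autoImplicit false
open Pointwise
open Cfsg

namespace Cfsg.Agent.S0054

theorem result {G : Type*} [Group G] [Finite G]
    {X : Type*} [Nonempty X] [MulAction G X] (h2 : MulAction.IsMultiplyPretransitive G X 2)
    (N : Subgroup G) [N.Normal] (htrans : MulAction.IsPretransitive N X) (hreg : ∀ x : X, MulAction.stabilizer N x = ⊥) :
    IsMulCommutative N ∧ ∃ p : ℕ, p.Prime ∧ ∀ n ∈ N, n ^ p = 1 := by
  classical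
  obtain ⟨x₀⟩ := ‹Nonempty X›
  rw [MulAction.is_two_pretransitive_iff] at h2
  have hmove : ∀ n ∈ N, n ≠ 1 → n • x₀ ≠ x₀ := by
    intro n hn hn1 h
    have h1 : (⟨n, hn⟩ : N) ∈ MulAction.stabilizer N x₀ := by
      rw [MulAction.mem_stabilizer_iff]
      exact h
    rw [hreg x₀, Subgroup.mem_bot] at h1
    exact hn1 (congrArg Subtype.val h1)
  have hconj : ∀ n₁ ∈ N, n₁ ≠ 1 → ∀ n₂ ∈ N, n₂ ≠ 1 → ∃ g : G, g * n₁ * g⁻¹ = n₂ := by
    intro n₁ hn₁ h1 n₂ hn₂ h2'
    obtain ⟨g, hg1, hg2⟩ := h2 (Ne.symm (hmove n₁ hn₁ h1)) (Ne.symm (hmove n₂ hn₂ h2'))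
    refine ⟨g, ?_⟩
    have hmem : g * n₁ * g⁻¹ ∈ N := Subgroup.Normal.conj_mem inferInstance n₁ hn₁ g
    have h3 : (g * n₁ * g⁻¹) • x₀ = n₂ • x₀ := by
      rw [mul_smul, mul_smul]
      have : g⁻¹ • x₀ = x₀ := by rw [inv_smul_eq_iff, hg1]
      rw [this, hg2]
    have h4 : (⟨n₂⁻¹ * (g * n₁ * g⁻¹), N.mul_mem (N.inv_mem hn₂) hmem⟩ : N) ∈
        MulAction.stabilizer N x₀ := by
      rw [MulAction.mem_stabilizer_iff]
      show (n₂⁻¹ * (g * n₁ * g⁻¹)) • x₀ = x₀
      rw [mul_smul, h3, inv_smul_smul]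
    rw [hreg x₀, Subgroup.mem_bot] at h4
    have h5 : n₂⁻¹ * (g * n₁ * g⁻¹) = 1 := congrArg Subtype.val h4
    have e : g * n₁ * g⁻¹ = n₂ * (n₂⁻¹ * (g * n₁ * g⁻¹)) := by group
    rw [e, h5, mul_one]
  by_cases hN : N = ⊥
  · subst hN
    refine ⟨⟨⟨fun a b => ?_⟩⟩, 2, Nat.prime_two, ?_⟩
    · have ha : a = 1 := Subsingleton.elim _ _
      have hb : b = 1 := Subsingleton.elim _ _
      rw [ha, hb]
    · intro n hn
      rw [Subgroup.mem_bot] at hn
      rw [hn, one_pow]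
  · have hcard : 1 < Nat.card N := (Subgroup.one_lt_card_iff_ne_bot N).2 hN
    obtain ⟨p, hp, hpd⟩ := Nat.exists_prime_and_dvd (Nat.ne_of_gt hcard)
    haveI : Fact p.Prime := ⟨hp⟩
    obtain ⟨z, hz⟩ := exists_prime_orderOf_dvd_card' p hpd
    have hz1 : (z : G) ≠ 1 := by
      intro h
      have : z = 1 := Subtype.ext h
      rw [this, orderOf_one] at hz
      exact hp.one_lt.ne' hz.symm
    have hzp : (z : G) ^ p = 1 := by
      have := pow_orderOf_eq_one z
      rw [hz] at this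
      exact_mod_cast congrArg Subtype.val this
    have hpow : ∀ n ∈ N, n ^ p = 1 := by
      intro n hn
      by_cases hn1 : n = 1
      · rw [hn1, one_pow]
      · obtain ⟨g, hg⟩ := hconj z z.2 hz1 n hn hn1
        rw [← hg, conj_pow, hzp]
        group
    have hPG : IsPGroup p N := by
      intro n
      refine ⟨1, ?_⟩
      apply Subtype.ext
      simpa using hpow n n.2
    haveI : Nontrivial N := (Subgroup.nontrivial_iff_ne_bot N).2 hN
    haveI := hPG.center_nontrivial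
    obtain ⟨c, hc⟩ := exists_ne (1 : Subgroup.center N)
    have hc1 : ((c : N) : G) ≠ 1 := by
      intro h
      apply hc
      apply Subtype.ext
      apply Subtype.ext
      exact h
    have hccomm : ∀ m ∈ N, m * ((c : N) : G) = ((c : N) : G) * m := by
      intro m hm
      have := Subgroup.mem_center_iff.1 c.2 ⟨m, hm⟩
      exact congrArg Subtype.val this
    refine ⟨⟨⟨fun a b => ?_⟩⟩, p, hp, hpow⟩
    apply Subtype.ext
    show (a : G) * b = b * a
    by_cases ha1 : (a : G) = 1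
    · rw [ha1, one_mul, mul_one]
    · obtain ⟨g, hg⟩ := hconj (c : N) (c : N).2 hc1 a a.2 ha1
      have hbm : g⁻¹ * (b : G) * g⁻¹⁻¹ ∈ N := Subgroup.Normal.conj_mem inferInstance (b : G) b.2 g⁻¹
      have h5 := hccomm _ hbm
      rw [← hg]
      calc g * ((c : N) : G) * g⁻¹ * (b : G)
          = g * (((c : N) : G) * (g⁻¹ * (b : G) * g⁻¹⁻¹)) * g⁻¹ := by group
        _ = g * ((g⁻¹ * (b : G) * g⁻¹⁻¹) * ((c : N) : G)) * g⁻¹ := by rw [h5]
        _ = (b : G) * (g * ((c : N) : G) * g⁻¹) := by group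

end Cfsg.Agent.S0054
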