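import Mathlib
import Cfsg.Statements.S0059
import Cfsg.Agent.S0001
import Cfsg.Agent.S0003
import Cfsg.Agent.S0004
import Cfsg.Agent.S0022

set_option autoImplicit false
open Pointwise
open Cfsg

namespace Cfsg.Agent.S0059

open Subgroup Cfsg.Agent.S0003 Cfsg.Agent.S0004 Cfsg.Agent.S0001 Cfsg.Agent.S0022

theorem result {G : Type*} [Group G] [Finite G] {X : Type*} [Nonempty X] [MulAction G X]
    (K H : Subgroup G) [K.Normal] (hc : Subgroup.IsComplement' K H) (hcop : (Nat.card K).Coprime K.index)
    (hsolv : Group.IsSolvable K ∨ Group.IsSolvable (G ⧸ K)) (htrans : MulAction.IsPretransitive K X) :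
    (∃ x : X, ∀ h ∈ H, h • x = x) ∧
    ∀ x y : X, (∀ h ∈ H, h • x = x) → (∀ h ∈ H, h • y = y) → ∃ k ∈ K ⊓ Subgroup.centralizer (H : Set G), k • x = y := by
  have cH : Nat.card H = K.index := hc.symm.index_eq_card.symm
  have hKidx : Nat.card K * K.index = Nat.card G := Subgroup.card_mul_index K
  have hHK : H ⊓ K = ⊥ := by rw [inf_comm]; exact disjoint_iff.mp hc.disjoint
  constructor
  · obtain ⟨x0⟩ : Nonempty X := inferInstance
    have hfr : MulAction.stabilizer G x0 ⊔ K = ⊤ := by
      rw [eq_top_iff]
      intro g _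
      obtain ⟨k, hk⟩ := MulAction.exists_smul_eq K x0 (g • x0)
      have hk' : (k : G) • x0 = g • x0 := hk
      have h1 : (k : G)⁻¹ * g ∈ MulAction.stabilizer G x0 := by
        rw [MulAction.mem_stabilizer_iff, mul_smul, ← hk', inv_smul_smul]
      have e : g = (k : G) * ((k : G)⁻¹ * g) := by group
      rw [e]
      exact Subgroup.mul_mem _ (Subgroup.mem_sup_right k.2) (Subgroup.mem_sup_left h1)
    have hSdef : ∀ g : G, g ∈ MulAction.stabilizer G x0 → g • x0 = x0 := fun g hg => hg
    generalize MulAction.stabilizer G x0 = S at hfr hSdef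
    haveI : (K.subgroupOf S).Normal := Subgroup.normal_subgroupOf
    have hidx : (K.subgroupOf S).index = K.index := by
      have h1 : K.relIndex (S ⊔ K) = K.relIndex S := Subgroup.relIndex_sup_right S K
      rw [hfr, Subgroup.relIndex_top_right] at h1
      exact h1.symm
    have cK' : Nat.card (K.subgroupOf S) ∣ Nat.card K := by
      rw [card_subgroupOf_eq']; exact Subgroup.card_dvd_of_le inf_le_left
    obtain ⟨B', hB'⟩ := Subgroup.exists_right_complement'_of_coprime
      (N := K.subgroupOf S) (by rw [hidx]; exact Nat.Coprime.coprime_dvd_left cK' hcop)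
    have cB' : Nat.card B' = K.index := by
      rw [← hidx]; exact hB'.symm.index_eq_card.symm
    have hBS : B'.map S.subtype ≤ S := Subgroup.map_subtype_le B'
    have cB : Nat.card (B'.map S.subtype) = K.index := by
      rw [Subgroup.card_map_of_injective (Subgroup.subtype_injective _), cB']
    have hcB : IsComplement' K (B'.map S.subtype) :=
      Subgroup.isComplement'_of_coprime (by rw [cB, hKidx]) (by rw [cB]; exact hcop)
    obtain ⟨g, hg⟩ := Cfsg.Agent.S0001.result K hcop hsolv _ _ hcB hc
    refine ⟨g • x0, ?_⟩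
    intro h hh
    rw [← hg, Subgroup.mem_pointwise_smul_iff_inv_smul_mem] at hh
    have hh' : g⁻¹ * h * g ∈ B'.map S.subtype := by simpa [MulAut.smul_def] using hh
    have h2 := hSdef _ (hBS hh')
    have e : h • g • x0 = g • ((g⁻¹ * h * g) • x0) := by
      rw [← mul_smul, ← mul_smul]; congr 1; group
    rw [e, h2]
  · intro x y hx hy
    obtain ⟨k, hk⟩ := MulAction.exists_smul_eq K x y
    have hk' : (k : G) • x = y := hk
    have hHS : H ≤ MulAction.stabilizer G x := fun h hh => hx h hh
    have hHN : H ≤ normalizer ((K ⊓ MulAction.stabilizer G x : Subgroup G) : Set G) := by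
      rw [Subgroup.le_normalizer_iff]
      intro h hh n hn
      exact ⟨Subgroup.Normal.conj_mem inferInstance n hn.1 h,
        Subgroup.mul_mem _ (Subgroup.mul_mem _ (hHS hh) hn.2) (Subgroup.inv_mem _ (hHS hh))⟩
    have hB : MulAut.conj (k : G)⁻¹ • H ≤ (K ⊓ MulAction.stabilizer G x) ⊔ H := by
      intro z hz
      rw [Subgroup.mem_pointwise_smul_iff_inv_smul_mem] at hz
      have hz' : (k : G) * z * (k : G)⁻¹ ∈ H := by simpa [MulAut.smul_def] using hz
      have hzS : z ∈ MulAction.stabilizer G x := by
        rw [MulAction.mem_stabilizer_iff]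
        have h1 := hy _ hz'
        rw [← hk', ← mul_smul] at h1
        have h2 : ((k : G) * z * (k : G)⁻¹ * (k : G)) • x = ((k : G) * z) • x := by
          congr 1; group
        rw [h2, mul_smul] at h1
        exact smul_left_cancel _ h1
      obtain ⟨⟨κ, η⟩, hκη⟩ := hc.2 z
      have hκη' : (κ : G) * (η : G) = z := hκη
      have hκS : (κ : G) ∈ MulAction.stabilizer G x := by
        have e : (κ : G) = z * (η : G)⁻¹ := by rw [← hκη']; group
        rw [e]
        exact Subgroup.mul_mem _ hzS (Subgroup.inv_mem _ (hHS η.2))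
      rw [← hκη']
      exact Subgroup.mul_mem _ (Subgroup.mem_sup_left ⟨κ.2, hκS⟩) (Subgroup.mem_sup_right η.2)
    have hNK : K ⊓ MulAction.stabilizer G x ≤ K := inf_le_left
    have hsolv' : Group.IsSolvable ↥(K ⊓ MulAction.stabilizer G x) ∨ Group.IsSolvable H := by
      rcases hsolv with h | h
      · left
        exact Group.isSolvable_of_isSolvable_injective (f := Subgroup.inclusion hNK)
          (Subgroup.inclusion_injective hNK)
      · right
        exact Group.isSolvable_of_isSolvable_injective (compl_hom_injective K H hc)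
    obtain ⟨n, hn, hnH⟩ := sz_conj_rel (K ⊓ MulAction.stabilizer G x) H
      (MulAut.conj (k : G)⁻¹ • H) hHN hB (card_conj_smul _ H)
      (by rw [cH]; exact Nat.Coprime.coprime_dvd_left (Subgroup.card_dvd_of_le hNK) hcop) hsolv'
    have hcn : MulAut.conj ((k : G) * n) • H = H := by
      rw [map_mul, mul_smul, hnH, ← mul_smul, ← map_mul, mul_inv_cancel, map_one, one_smul]
    have hknK : (k : G) * n ∈ K := K.mul_mem k.2 hn.1
    have hHnK : H ≤ normalizer (K : Set G) := by
      rw [Subgroup.normalizer_eq_top]; exact le_top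
    refine ⟨(k : G) * n, ⟨hknK, centralizes_of_normalizes H K hHnK hHK _ hknK hcn⟩, ?_⟩
    rw [mul_smul, (show n • x = x from hn.2), hk']

end Cfsg.Agent.S0059
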