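import Mathlib
import Cfsg.Statements.S0060
import Cfsg.Agent.S0004
import Cfsg.Agent.Lib.Helper2.SylowAux

set_option autoImplicit false
open Pointwise
open Cfsg

namespace Cfsg.Agent.S0060

theorem mem_conj_smul {G : Type*} [Group G] (H : Subgroup G) (g x : G) :
    x ∈ MulAut.conj g • H ↔ g⁻¹ * x * g ∈ H := by
  rw [Subgroup.mem_pointwise_smul_iff_inv_smul_mem]
  simp [MulAut.smul_def]

theorem le_normalizer_of_comm {G : Type*} [Group G] (A D : Subgroup G) (hDA : D ≤ A)
    (hA : ∀ a ∈ A, ∀ b ∈ A, a * b = b * a) : A ≤ Subgroup.normalizer (D : Set G) := by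
  intro s hs
  rw [Subgroup.mem_normalizer_iff]
  intro h
  constructor
  · intro hh
    have e : s * h * s⁻¹ = h := by
      rw [hA s hs h (hDA hh)]; group
    rw [e]; exact hh
  · intro hh
    have h1 := hA s⁻¹ (A.inv_mem hs) _ (hDA hh)
    have h2 : h * s⁻¹ = s * h * s⁻¹ * s⁻¹ := by rw [← h1]; group
    have e : h = s * h * s⁻¹ := mul_right_cancel h2
    rw [e]; exact hh

theorem result {G : Type*} [Group G] [Finite G] (p : ℕ) [Fact p.Prime]
    (S : Sylow p G) (hS : IsMulCommutative S) (hOp : Cfsg.pCore p G = ⊥) :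
    ∃ g : G, (S : Subgroup G) ⊓ MulAut.conj g • (S : Subgroup G) = ⊥ := by
  have hScomm : ∀ a ∈ (S : Subgroup G), ∀ b ∈ (S : Subgroup G), a * b = b * a := by
    intro a ha b hb
    exact congrArg Subtype.val (hS.is_comm.comm ⟨a, ha⟩ ⟨b, hb⟩)
  obtain ⟨g, hg⟩ := Finite.exists_min
    (fun g : G => Nat.card ↥((S : Subgroup G) ⊓ MulAut.conj g • (S : Subgroup G)))
  refine ⟨g, ?_⟩
  set T : Subgroup G := MulAut.conj g • (S : Subgroup G) with hT
  set D : Subgroup G := (S : Subgroup G) ⊓ T with hD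
  have hTcomm : ∀ a ∈ T, ∀ b ∈ T, a * b = b * a := by
    intro a ha b hb
    rw [hT, mem_conj_smul] at ha hb
    have := hScomm _ ha _ hb
    have e1 : a * b = g * ((g⁻¹ * a * g) * (g⁻¹ * b * g)) * g⁻¹ := by group
    have e2 : b * a = g * ((g⁻¹ * b * g) * (g⁻¹ * a * g)) * g⁻¹ := by group
    rw [e1, e2, this]
  have hSN : (S : Subgroup G) ≤ Subgroup.normalizer (D : Set G) :=
    le_normalizer_of_comm _ D inf_le_left hScomm
  have hTN : T ≤ Subgroup.normalizer (D : Set G) :=
    le_normalizer_of_comm _ D inf_le_right hTcomm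
  have key : ∀ x : G, D ≤ MulAut.conj x • (S : Subgroup G) := by
    intro x
    set R : Subgroup G := MulAut.conj x • (S : Subgroup G) with hR
    have hRp : IsPGroup p R := by
      rw [hR, Subgroup.pointwise_smul_def]
      exact S.isPGroup'.map _
    have hB : IsPGroup p (R ⊓ Subgroup.normalizer (D : Set G) : Subgroup G) :=
      hRp.to_le inf_le_left
    obtain ⟨n, hnN, hn⟩ := Cfsg.Agent.Lib.Helper2.SylowAux.exists_conj_le_sylow_of_le S hSN
      (inf_le_right : R ⊓ Subgroup.normalizer (D : Set G) ≤ _) hB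
    set R' : Subgroup G := MulAut.conj (n⁻¹ * x) • (S : Subgroup G) with hR'
    have hR'mem : ∀ z, z ∈ R' ↔ n * z * n⁻¹ ∈ R := by
      intro z
      rw [hR', hR, mem_conj_smul, mem_conj_smul]
      have e : (n⁻¹ * x)⁻¹ * z * (n⁻¹ * x) = x⁻¹ * (n * z * n⁻¹) * x := by group
      rw [e]
    have hA : R' ⊓ T ≤ D := by
      intro z hz
      have hz1 : z ∈ R' := hz.1
      have hz2 : z ∈ T := hz.2
      have h1 : n * z * n⁻¹ ∈ R := (hR'mem z).1 hz1
      have h2 : n * z * n⁻¹ ∈ Subgroup.normalizer (D : Set G) :=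
        mul_mem (mul_mem hnN (hTN hz2)) (inv_mem hnN)
      have h3 := hn (n * z * n⁻¹) ⟨h1, h2⟩
      have e : n⁻¹ * (n * z * n⁻¹) * n = z := by group
      rw [e] at h3
      exact ⟨h3, hz2⟩
    have hcard : Nat.card D ≤ Nat.card ↥(R' ⊓ T) := by
      have h1 := hg ((n⁻¹ * x)⁻¹ * g)
      have h2 : MulAut.conj (n⁻¹ * x)⁻¹ • (R' ⊓ T) =
          (S : Subgroup G) ⊓ MulAut.conj ((n⁻¹ * x)⁻¹ * g) • (S : Subgroup G) := by
        rw [Subgroup.smul_inf, hR', hT, ← mul_smul, ← mul_smul, ← map_mul, ← map_mul]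
        simp
      have h3 := Cfsg.Agent.S0004.card_conj_smul (n⁻¹ * x)⁻¹ (R' ⊓ T)
      rw [h2] at h3
      rw [← h3]
      exact h1
    have heq : R' ⊓ T = D := Subgroup.eq_of_le_of_card_ge hA hcard
    intro d hd
    have hd' : n⁻¹ * d * n ∈ D := by
      have := (Subgroup.mem_normalizer_iff.1 (inv_mem hnN) d).1 hd
      simpa using this
    rw [← heq] at hd'
    have h5 := (hR'mem _).1 hd'.1
    have e : n * (n⁻¹ * d * n) * n⁻¹ = d := by group
    rw [e] at h5
    exact h5
  have hcore : D ≤ (S : Subgroup G).normalCore := by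
    intro d hd b
    have := key b⁻¹ hd
    rw [mem_conj_smul] at this
    simpa using this
  have hle : (S : Subgroup G).normalCore ≤ Cfsg.pCore p G := by
    apply le_sSup
    exact ⟨Subgroup.normalCore_normal _, S.isPGroup'.to_le (Subgroup.normalCore_le _)⟩
  rw [hOp] at hle
  exact eq_bot_iff.2 (hcore.trans hle)

end Cfsg.Agent.S0060
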