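import Mathlib
import Cfsg.Statements.S0061
import Cfsg.Agent.S0034
import Cfsg.Agent.Lib.Helper2.SylowAux

set_option autoImplicit false
open Pointwise
open Cfsg

namespace Cfsg.Agent.S0061

open Cfsg.Agent.S0034

theorem card_lt_top' {G : Type*} [Group G] [Finite G] (L : Subgroup G) (hL : L ≠ ⊤) :
    Nat.card L < Nat.card G := by
  have h5 := Subgroup.card_mul_index L
  have h6 : L.index ≠ 1 := by rwa [Ne, Subgroup.index_eq_one]
  have h7 : L.index ≠ 0 := Subgroup.index_ne_zero_of_finite
  have h8 : 2 ≤ L.index := by omega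
  have h9 : 0 < Nat.card L := Nat.card_pos
  nlinarith

theorem mem_of_card_le {G : Type*} [Group G] [Finite G] (S : Subgroup G) (p : G → Prop)
    (h : ∀ x ∈ S, p x) (hc : Nat.card {x // p x} ≤ Nat.card S) (y : G) (hy : p y) : y ∈ S := by
  have hinj : Function.Injective (fun x : S => (⟨x.1, h x.1 x.2⟩ : {x // p x})) := by
    intro a b hab
    have h1 : (a : G) = b := by simpa using congrArg Subtype.val hab
    exact Subtype.ext h1
  have hbij := hinj.bijective_of_nat_card_le hc
  obtain ⟨x, hx⟩ := hbij.2 ⟨y, hy⟩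
  have h1 : (x : G) = y := by simpa using congrArg Subtype.val hx
  rw [← h1]; exact x.2

/-- A group of order `p^a q` (`p ≠ q`, `a ≥ 1`) has a proper nontrivial normal subgroup. -/
theorem exists_normal_of_pq {G : Type*} [Group G] [Finite G] (p q a : ℕ) (hp : p.Prime)
    (hq : q.Prime) (hpq : p ≠ q) (ha : 1 ≤ a) (hG : Nat.card G = p ^ a * q) :
    ∃ N : Subgroup G, N.Normal ∧ N ≠ ⊥ ∧ N ≠ ⊤ := by
  classical
  haveI : Fact p.Prime := ⟨hp⟩
  haveI : Fact q.Prime := ⟨hq⟩
  have hpa : 1 < p ^ a := Nat.one_lt_pow (by omega) hp.one_lt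
  have hfac : (Nat.card G).factorization p = a := by
    rw [hG, Nat.factorization_mul (pow_ne_zero _ hp.ne_zero) hq.ne_zero,
      Nat.Prime.factorization_pow hp, hq.factorization]
    simp [Finsupp.single_apply, hpq, Ne.symm hpq]
  have hfacq : (Nat.card G).factorization q = 1 := by
    rw [hG, Nat.factorization_mul (pow_ne_zero _ hp.ne_zero) hq.ne_zero,
      Nat.Prime.factorization_pow hp, hq.factorization]
    simp [Finsupp.single_apply, hpq, Ne.symm hpq]
  have hcardP : ∀ P : Sylow p G, Nat.card P = p ^ a := fun P => by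
    rw [Sylow.card_eq_multiplicity, hfac]
  have hPtop : ∀ P : Sylow p G, (P : Subgroup G) ≠ ⊤ := by
    intro P h
    have h1 := hcardP P
    have h2 : Nat.card (P : Subgroup G) = Nat.card G := by rw [h, Subgroup.card_top]
    have h3 : Nat.card (P : Subgroup G) = p ^ a := h1
    rw [h3, hG] at h2
    have : 1 < q := hq.one_lt
    nlinarith
  have hPbot : ∀ P : Sylow p G, (P : Subgroup G) ≠ ⊥ := by
    intro P h
    have h1 : Nat.card (P : Subgroup G) = p ^ a := hcardP P
    rw [h, Subgroup.card_bot] at h1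
    omega
  by_cases hnormal : ∃ P : Sylow p G, (P : Subgroup G).Normal
  · obtain ⟨P, hP⟩ := hnormal
    exact ⟨P, hP, hPbot P, hPtop P⟩
  push_neg at hnormal
  have hex : ∃ A B : Sylow p G, A ≠ B := by
    by_contra h
    push_neg at h
    haveI : Subsingleton (Sylow p G) := ⟨fun a b => h a b⟩
    exact hnormal default (Sylow.normal_of_subsingleton _)
  obtain ⟨A, B, hAB⟩ := hex
  obtain ⟨⟨P₁, P₂⟩, hne, hmax⟩ := Set.exists_max_image
    {r : Sylow p G × Sylow p G | r.1 ≠ r.2}
    (fun r => Nat.card ↥((r.1 : Subgroup G) ⊓ (r.2 : Subgroup G))) (Set.toFinite _) ⟨(A, B), hAB⟩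
  simp only [Set.mem_setOf_eq] at hne hmax
  set D : Subgroup G := (P₁ : Subgroup G) ⊓ (P₂ : Subgroup G) with hD
  by_cases hDbot : D = ⊥
  · -- all distinct Sylow p-subgroups meet trivially
    have hTIall : ∀ A B : Sylow p G, A ≠ B → (A : Subgroup G) ⊓ (B : Subgroup G) = ⊥ := by
      intro A B hAB
      have h1 := hmax (A, B) hAB
      simp only at h1
      rw [hDbot, Subgroup.card_bot] at h1
      exact Subgroup.eq_bot_of_card_le _ h1
    set P := P₁ with hPdef
    have hnorm : Subgroup.normalizer ((P : Subgroup G) : Set G) ≤ (P : Subgroup G) := by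
      have h1 := Subgroup.relIndex_mul_index (Subgroup.le_normalizer (H := (P : Subgroup G)))
      have hidx : (P : Subgroup G).index = q := by
        have h2 := Subgroup.card_mul_index (P : Subgroup G)
        have h3 : Nat.card (P : Subgroup G) = p ^ a := hcardP P
        rw [h3, hG] at h2
        exact Nat.eq_of_mul_eq_mul_left (by omega) h2
      rw [hidx] at h1
      have h4 : (Subgroup.normalizer ((P : Subgroup G) : Set G)).index ∣ q := Dvd.intro_left _ h1
      rcases (Nat.dvd_prime hq).1 h4 with h5 | h5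
      · exfalso
        apply hnormal P
        exact Subgroup.normalizer_eq_top_iff.1 (Subgroup.index_eq_one.1 h5)
      · rw [h5] at h1
        have h6 : (P : Subgroup G).relIndex (Subgroup.normalizer ((P : Subgroup G) : Set G)) = 1 := by
          have : 0 < q := hq.pos
          nlinarith
        exact Subgroup.relIndex_eq_one.1 h6
    have hTI : ∀ g : G, g ∉ (P : Subgroup G) →
        (P : Subgroup G) ⊓ MulAut.conj g • (P : Subgroup G) = ⊥ := by
      intro g hg
      have h1 : g • P ≠ P := by
        intro h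
        exact hg (hnorm (Sylow.smul_eq_iff_mem_normalizer.1 h))
      have h2 := hTIall P (g • P) (Ne.symm h1)
      rw [Sylow.coe_subgroup_smul] at h2
      exact h2
    have hc := ti_count (P : Subgroup G) hTI
    have hs := card_compl_subtype (fun x : G => x ≠ 1 ∧ ∃ g : G, g⁻¹ * x * g ∈ (P : Subgroup G))
    have hcP : Nat.card (P : Subgroup G) = p ^ a := hcardP P
    rw [hcP, hG] at hc
    rw [hG] at hs
    have hcompl : Nat.card {x : G // ¬ (x ≠ 1 ∧ ∃ g : G, g⁻¹ * x * g ∈ (P : Subgroup G))} = q := by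
      obtain ⟨j, hj⟩ : ∃ j, p ^ a = j + 1 := ⟨p ^ a - 1, by omega⟩
      rw [hj] at hc hs
      simp only [Nat.add_sub_cancel] at hc
      have h1 : Nat.card {x : G // x ≠ 1 ∧ ∃ g : G, g⁻¹ * x * g ∈ (P : Subgroup G)} = q * j := by
        apply Nat.eq_of_mul_eq_mul_right (by omega : 0 < j + 1)
        rw [hc]; ring
      rw [h1] at hs
      have : (j + 1) * q = q * j + q := by ring
      omega
    have Q : Sylow q G := default
    have hcQ : Nat.card (Q : Subgroup G) = q := by
      have := Sylow.card_eq_multiplicity Q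
      rw [hfacq, pow_one] at this
      exact this
    have hQU : ∀ x ∈ (Q : Subgroup G), ¬ (x ≠ 1 ∧ ∃ g : G, g⁻¹ * x * g ∈ (P : Subgroup G)) := by
      rintro x hx ⟨hx1, g, hg⟩
      apply hx1
      have h1 : orderOf x ∣ q := by
        have := orderOf_dvd_natCard (⟨x, hx⟩ : (Q : Subgroup G))
        rw [hcQ, Subgroup.orderOf_mk] at this
        exact this
      have h2 : orderOf (g⁻¹ * x * g) ∣ p ^ a := by
        have := orderOf_dvd_natCard (⟨g⁻¹ * x * g, hg⟩ : (P : Subgroup G))
        rw [hcP, Subgroup.orderOf_mk] at this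
        exact this
      have h3 : orderOf (g⁻¹ * x * g) = orderOf x := by
        have e : g⁻¹ * x * g = MulAut.conj g⁻¹ x := by simp [MulAut.conj_apply]
        rw [e, MulEquiv.orderOf_eq]
      rw [h3] at h2
      have hcop : Nat.Coprime q (p ^ a) :=
        Nat.Coprime.pow_right _ ((Nat.coprime_primes hq hp).2 (Ne.symm hpq))
      have h4 : orderOf x ∣ 1 := by
        have := Nat.dvd_gcd h1 h2
        rwa [hcop.gcd_eq_one] at this
      exact orderOf_eq_one_iff.1 (Nat.dvd_one.1 h4)
    refine ⟨(Q : Subgroup G), ?_, ?_, ?_⟩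
    · constructor
      intro n hn g
      have h1 : ¬ (g * n * g⁻¹ ≠ 1 ∧ ∃ b : G, b⁻¹ * (g * n * g⁻¹) * b ∈ (P : Subgroup G)) := by
        rintro ⟨h2, b, hb⟩
        apply hQU n hn
        refine ⟨?_, g⁻¹ * b, ?_⟩
        · intro h
          apply h2
          rw [h]; group
        · have e : (g⁻¹ * b)⁻¹ * n * (g⁻¹ * b) = b⁻¹ * (g * n * g⁻¹) * b := by group
          rw [e]; exact hb
      exact mem_of_card_le (Q : Subgroup G) _ hQU (by rw [hcompl, hcQ]) _ h1
    · intro h
      rw [h, Subgroup.card_bot] at hcQ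
      have := hq.one_lt
      omega
    · intro h
      rw [h, Subgroup.card_top, hG] at hcQ
      have : 0 < q := hq.pos
      nlinarith
  · -- the normalizer of D is not a p-group
    have hDP₁ : D ≤ (P₁ : Subgroup G) := inf_le_left
    have hDP₂ : D ≤ (P₂ : Subgroup G) := inf_le_right
    have hDne₁ : D ≠ (P₁ : Subgroup G) := by
      intro h
      apply hne
      have h1 : (P₁ : Subgroup G) ≤ (P₂ : Subgroup G) := by rw [← h]; exact hDP₂
      exact Sylow.ext (P₁.is_maximal' P₂.isPGroup' h1).symm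
    have hDne₂ : D ≠ (P₂ : Subgroup G) := by
      intro h
      apply hne
      have h1 : (P₂ : Subgroup G) ≤ (P₁ : Subgroup G) := by rw [← h]; exact hDP₁
      exact Sylow.ext (P₂.is_maximal' P₁.isPGroup' h1)
    obtain ⟨x₁, hx₁P, hx₁D, hx₁N⟩ :=
      Cfsg.Agent.Lib.Helper2.SylowAux.exists_normalizing_not_mem P₁.isPGroup' hDP₁ hDne₁
    obtain ⟨x₂, hx₂P, hx₂D, hx₂N⟩ :=
      Cfsg.Agent.Lib.Helper2.SylowAux.exists_normalizing_not_mem P₂.isPGroup' hDP₂ hDne₂
    have hx₁N' : x₁ ∈ Subgroup.normalizer (D : Set G) := Subgroup.mem_normalizer_iff.2 hx₁N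
    have hx₂N' : x₂ ∈ Subgroup.normalizer (D : Set G) := Subgroup.mem_normalizer_iff.2 hx₂N
    have hNp : ¬ IsPGroup p (Subgroup.normalizer (D : Set G)) := by
      intro hNp
      obtain ⟨P₃, hP₃⟩ := hNp.exists_le_sylow
      have key : ∀ (R : Sylow p G) (x : G), x ∈ (R : Subgroup G) →
          x ∈ Subgroup.normalizer (D : Set G) → x ∉ D → D ≤ (R : Subgroup G) → P₃ = R := by
        intro R x hxR hxN hxD hDR
        by_contra hne3
        have h1 := hmax (P₃, R) hne3
        simp only at h1
        have hDle : D ≤ (P₃ : Subgroup G) ⊓ (R : Subgroup G) :=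
          le_inf (Subgroup.le_normalizer.trans hP₃) hDR
        have heq := Subgroup.eq_of_le_of_card_ge hDle h1
        have hxmem : x ∈ (P₃ : Subgroup G) ⊓ (R : Subgroup G) := Subgroup.mem_inf.2 ⟨hP₃ hxN, hxR⟩
        rw [← heq] at hxmem
        exact hxD hxmem
      have e1 := key P₁ x₁ hx₁P hx₁N' hx₁D hDP₁
      have e2 := key P₂ x₂ hx₂P hx₂N' hx₂D hDP₂
      exact hne (e1.symm.trans e2)
    have hqN : q ∣ Nat.card (Subgroup.normalizer (D : Set G)) := by
      by_contra hqn
      apply hNp
      have hcop : Nat.Coprime (Nat.card (Subgroup.normalizer (D : Set G))) q :=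
        ((Nat.Prime.coprime_iff_not_dvd hq).2 hqn).symm
      have hdvd : Nat.card (Subgroup.normalizer (D : Set G)) ∣ p ^ a * q := by
        rw [← hG]; exact Subgroup.card_subgroup_dvd_card _
      have h1 := hcop.dvd_of_dvd_mul_right hdvd
      obtain ⟨k, -, hk⟩ := (Nat.dvd_prime_pow hp).1 h1
      exact IsPGroup.of_card hk
    obtain ⟨y, hy⟩ := exists_prime_orderOf_dvd_card' q hqN
    set Q : Subgroup G := Subgroup.zpowers (y : G) with hQ
    have hcQ : Nat.card Q = q := by
      rw [hQ, Nat.card_zpowers, Subgroup.orderOf_coe]; exact hy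
    have hQN : Q ≤ Subgroup.normalizer (D : Set G) := by
      rw [hQ, Subgroup.zpowers_le]; exact y.2
    have hcP₁ : Nat.card (P₁ : Subgroup G) = p ^ a := hcardP P₁
    have hcomp : Subgroup.IsComplement' (P₁ : Subgroup G) Q := by
      apply Subgroup.isComplement'_of_coprime
      · rw [hcP₁, hcQ, hG]
      · rw [hcP₁, hcQ]
        exact Nat.Coprime.pow_left _ ((Nat.coprime_primes hp hq).2 hpq)
    have hcore : D ≤ (P₁ : Subgroup G).normalCore := by
      intro d hd b
      obtain ⟨⟨u, v⟩, huv⟩ := hcomp.2 b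
      simp only at huv
      have hv : (v : G) ∈ Subgroup.normalizer (D : Set G) := hQN v.2
      have h1 : (v : G) * d * (v : G)⁻¹ ∈ D := (Subgroup.mem_normalizer_iff.1 hv d).1 hd
      have e : b * d * b⁻¹ = (u : G) * ((v : G) * d * (v : G)⁻¹) * (u : G)⁻¹ := by
        rw [← huv]; group
      rw [e]
      exact (P₁ : Subgroup G).mul_mem ((P₁ : Subgroup G).mul_mem u.2 (hDP₁ h1))
        ((P₁ : Subgroup G).inv_mem u.2)
    refine ⟨(P₁ : Subgroup G).normalCore, Subgroup.normalCore_normal _, ?_, ?_⟩
    · intro h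
      apply hDbot
      rw [eq_bot_iff, ← h]
      exact hcore
    · intro h
      apply hPtop P₁
      rw [eq_top_iff, ← h]
      exact Subgroup.normalCore_le _

universe u in
theorem aux (n : ℕ) : ∀ (G : Type u) [Group G] [Finite G], Nat.card G = n →
    ∀ p q m : ℕ, p.Prime → q.Prime → n ∣ p ^ m * q → Group.IsSolvable G := by
  induction n using Nat.strong_induction_on with
  | _ n ih =>
    intro G _ _ hn p q m hp hq hdvd
    haveI : Fact p.Prime := ⟨hp⟩
    have hpgroup : ∀ k, n = p ^ k → Group.IsSolvable G := by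
      intro k hk
      have h1 : IsPGroup p G := IsPGroup.of_card (hn.trans hk)
      haveI := h1.isNilpotent
      infer_instance
    by_cases hpq : p = q
    · subst hpq
      rw [← pow_succ] at hdvd
      obtain ⟨k, -, hk⟩ := (Nat.dvd_prime_pow hp).1 hdvd
      exact hpgroup k hk
    by_cases hqn : q ∣ n
    · obtain ⟨n', hn'⟩ := hqn
      have h1 : n' ∣ p ^ m := by
        rw [hn', mul_comm] at hdvd
        exact Nat.dvd_of_mul_dvd_mul_right hq.pos hdvd
      obtain ⟨a, -, ha⟩ := (Nat.dvd_prime_pow hp).1 h1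
      have hn2 : Nat.card G = p ^ a * q := by rw [hn, hn', ha, mul_comm]
      by_cases ha0 : a = 0
      · subst ha0
        simp only [pow_zero, one_mul] at hn2
        haveI : Fact q.Prime := ⟨hq⟩
        haveI := isCyclic_of_prime_card hn2
        exact isSolvable_of_comm (fun x y => (IsCyclic.commutative (α := G)).is_comm.comm x y)
      · obtain ⟨N, hNn, hN1, hN2⟩ := exists_normal_of_pq p q a hp hq hpq (by omega) hn2
        haveI := hNn
        have hcq : Nat.card N * Nat.card (G ⧸ N) = Nat.card G := by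
          rw [← Subgroup.index_eq_card]; exact Subgroup.card_mul_index N
        have hNlt : Nat.card N < n := by rw [← hn]; exact card_lt_top' N hN2
        have hN1' : 1 < Nat.card N := (Subgroup.one_lt_card_iff_ne_bot N).2 hN1
        have hQlt : Nat.card (G ⧸ N) < n := by
          rw [← hn, ← hcq]
          have : 0 < Nat.card (G ⧸ N) := Nat.card_pos
          nlinarith
        have hdvdG : Nat.card G ∣ p ^ m * q := by rw [hn]; exact hdvd
        have hNs : Group.IsSolvable N :=
          ih _ hNlt N rfl p q m hp hq (dvd_trans (Dvd.intro _ hcq) hdvdG)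
        have hQs : Group.IsSolvable (G ⧸ N) :=
          ih _ hQlt (G ⧸ N) rfl p q m hp hq (dvd_trans (Dvd.intro_left _ hcq) hdvdG)
        exact Group.isSolvable_of_ker_le_range (N.subtype) (QuotientGroup.mk' N) (by simp)
    · have hcop : Nat.Coprime n q := ((Nat.Prime.coprime_iff_not_dvd hq).2 hqn).symm
      have h1 : n ∣ p ^ m := hcop.dvd_of_dvd_mul_right hdvd
      obtain ⟨k, -, hk⟩ := (Nat.dvd_prime_pow hp).1 h1
      exact hpgroup k hk

theorem result {G : Type*} [Group G] [Finite G] (p q m : ℕ) (hp : p.Prime) (hq : q.Prime)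
    (hG : Nat.card G = p ^ m * q) : Group.IsSolvable G :=
  aux _ G rfl p q m hp hq (by rw [hG])

end Cfsg.Agent.S0061
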