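import Mathlib
import Cfsg.Statements.S0062
import Cfsg.Agent.S0061

set_option autoImplicit false
open Pointwise
open Cfsg

namespace Cfsg.Agent.S0062

/-- For primes `q < p`, a group of order `p² q²` has a proper nontrivial normal subgroup. -/
theorem exists_normal {G : Type*} [Group G] [Finite G] (p q : ℕ) (hp : p.Prime) (hq : q.Prime)
    (hlt : q < p) (hG : Nat.card G = p ^ 2 * q ^ 2) :
    ∃ N : Subgroup G, N.Normal ∧ N ≠ ⊥ ∧ N ≠ ⊤ := by
  classical
  haveI : Fact p.Prime := ⟨hp⟩
  have hpq : p ≠ q := by omega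
  have hp1 := hp.one_lt
  have hq1 := hq.one_lt
  have hfac : (Nat.card G).factorization p = 2 := by
    rw [hG, Nat.factorization_mul (pow_ne_zero _ hp.ne_zero) (pow_ne_zero _ hq.ne_zero),
      Nat.Prime.factorization_pow hp, Nat.Prime.factorization_pow hq]
    simp [Finsupp.single_apply, hpq, Ne.symm hpq]
  have P : Sylow p G := default
  have hcP : Nat.card (P : Subgroup G) = p ^ 2 := by rw [Sylow.card_eq_multiplicity, hfac]
  have hpp : 1 < p ^ 2 := Nat.one_lt_pow (by omega) hp1
  have hqq : 1 < q ^ 2 := Nat.one_lt_pow (by omega) hq1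
  have hPtop : (P : Subgroup G) ≠ ⊤ := by
    intro h
    rw [h, Subgroup.card_top, hG] at hcP
    nlinarith
  have hPbot : (P : Subgroup G) ≠ ⊥ := by
    intro h
    rw [h, Subgroup.card_bot] at hcP
    omega
  by_cases hnormal : (P : Subgroup G).Normal
  · exact ⟨P, hnormal, hPbot, hPtop⟩
  have hidx : (P : Subgroup G).index = q ^ 2 := by
    have h2 := Subgroup.card_mul_index (P : Subgroup G)
    rw [hcP, hG] at h2
    exact Nat.eq_of_mul_eq_mul_left (by omega) h2
  have hdvd : Nat.card (Sylow p G) ∣ q ^ 2 := by rw [← hidx]; exact Sylow.card_dvd_index P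
  have hmod : Nat.card (Sylow p G) ≡ 1 [MOD p] := card_sylow_modEq_one p G
  have hne1 : Nat.card (Sylow p G) ≠ 1 := by
    intro h
    apply hnormal
    haveI : Subsingleton (Sylow p G) := (Nat.card_eq_one_iff_unique.1 h).1
    exact Sylow.normal_of_subsingleton P
  obtain ⟨k, hk, hnk⟩ := (Nat.dvd_prime_pow hq).1 hdvd
  have hq2 : Nat.card (Sylow p G) = q ^ 2 ∧ p = 3 ∧ q = 2 := by
    interval_cases k
    · simp only [pow_zero] at hnk
      exact absurd hnk hne1
    · exfalso
      rw [hnk, pow_one] at hmod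
      unfold Nat.ModEq at hmod
      rw [Nat.mod_eq_of_lt hlt, Nat.mod_eq_of_lt hp1] at hmod
      omega
    · refine ⟨hnk, ?_⟩
      rw [hnk] at hmod
      have h1 : p ∣ q ^ 2 - 1 := (Nat.modEq_iff_dvd' (by omega)).1 hmod.symm
      have h2 : q ^ 2 - 1 = (q - 1) * (q + 1) := by
        obtain ⟨r, rfl⟩ : ∃ r, q = r + 1 := ⟨q - 1, by omega⟩
        simp only [Nat.add_sub_cancel]
        have : (r + 1) ^ 2 = r * (r + 1 + 1) + 1 := by ring
        omega
      rw [h2] at h1
      rcases (Nat.Prime.dvd_mul hp).1 h1 with h3 | h3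
      · exfalso
        have := Nat.le_of_dvd (by omega) h3
        omega
      · have h4 := Nat.le_of_dvd (by omega) h3
        have hpq1 : p = q + 1 := by omega
        have hq2 : q = 2 := by
          rcases hq.eq_two_or_odd with h | h
          · exact h
          · exfalso
            rcases hp.eq_two_or_odd with h' | h'
            · omega
            · omega
        exact ⟨by omega, hq2⟩
  obtain ⟨hn4, hp3, hq2'⟩ := hq2
  subst hp3
  subst hq2'
  set φ : G →* Equiv.Perm (Sylow 3 G) := MulAction.toPermHom G (Sylow 3 G) with hφ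
  refine ⟨φ.ker, inferInstance, ?_, ?_⟩
  · intro hker
    have hinj : Function.Injective φ := (MonoidHom.ker_eq_bot_iff φ).1 hker
    have h1 := Subgroup.card_dvd_of_injective φ hinj
    haveI : Fintype (Sylow 3 G) := Fintype.ofFinite _
    rw [Nat.card_eq_fintype_card (α := Equiv.Perm (Sylow 3 G)), Fintype.card_perm,
      ← Nat.card_eq_fintype_card, hn4, hG] at h1
    exact absurd h1 (by decide)
  · intro hker
    apply hnormal
    apply Subgroup.normalizer_eq_top_iff.1
    rw [eq_top_iff]
    intro g _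
    have hg : g ∈ φ.ker := by rw [hker]; trivial
    rw [MonoidHom.mem_ker] at hg
    have h2 : g • P = P := by
      have h3 := congrArg (fun σ : Equiv.Perm (Sylow 3 G) => σ P) hg
      simpa [hφ] using h3
    exact Sylow.smul_eq_iff_mem_normalizer.1 h2

theorem result {G : Type*} [Group G] [Finite G] (p q : ℕ) (hp : p.Prime) (hq : q.Prime)
    (hG : Nat.card G = p ^ 2 * q ^ 2) : Group.IsSolvable G := by
  by_cases hpq : p = q
  · subst hpq
    haveI : Fact p.Prime := ⟨hp⟩
    have h1 : IsPGroup p G := IsPGroup.of_card (n := 4) (by rw [hG]; ring)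
    haveI := h1.isNilpotent
    infer_instance
  have key : ∀ (p q : ℕ), p.Prime → q.Prime → q < p → Nat.card G = p ^ 2 * q ^ 2 →
      Group.IsSolvable G := by
    intro p q hp hq hlt hG
    obtain ⟨N, hNn, hN1, hN2⟩ := exists_normal p q hp hq hlt hG
    haveI := hNn
    have hcq : Nat.card N * Nat.card (G ⧸ N) = Nat.card G := by
      rw [← Subgroup.index_eq_card]; exact Subgroup.card_mul_index N
    have hprop : ∀ d e : ℕ, d * e = p ^ 2 * q ^ 2 → e ≠ 1 →
        d ∣ p ^ 2 * q ∨ d ∣ q ^ 2 * p := by
      intro d e hde he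
      obtain ⟨r, hr, hre⟩ := Nat.exists_prime_and_dvd he
      have hr2 : r ∣ p ^ 2 * q ^ 2 := by rw [← hde]; exact dvd_mul_of_dvd_right hre d
      obtain ⟨e', rfl⟩ := hre
      rcases (Nat.Prime.dvd_mul hr).1 hr2 with h | h
      · have hrp : r = p := (Nat.prime_dvd_prime_iff_eq hr hp).1 (hr.dvd_of_dvd_pow h)
        subst hrp
        right
        have h3 : r * (d * e') = r * (q ^ 2 * r) := by
          have : r * (d * e') = d * (r * e') := by ring
          rw [this, hde]; ring
        exact Dvd.intro _ (Nat.eq_of_mul_eq_mul_left hr.pos h3)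
      · have hrq : r = q := (Nat.prime_dvd_prime_iff_eq hr hq).1 (hr.dvd_of_dvd_pow h)
        subst hrq
        left
        have h3 : r * (d * e') = r * (p ^ 2 * r) := by
          have : r * (d * e') = d * (r * e') := by ring
          rw [this, hde]; ring
        exact Dvd.intro _ (Nat.eq_of_mul_eq_mul_left hr.pos h3)
    have hN1' : Nat.card N ≠ 1 := by
      have := (Subgroup.one_lt_card_iff_ne_bot N).2 hN1
      omega
    have hQ1 : Nat.card (G ⧸ N) ≠ 1 := by
      rw [← Subgroup.index_eq_card]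
      rwa [Ne, Subgroup.index_eq_one]
    have hNs : Group.IsSolvable N := by
      rcases hprop (Nat.card N) (Nat.card (G ⧸ N)) (by rw [hcq, hG]) hQ1 with h | h
      · exact Cfsg.Agent.S0061.aux _ N rfl p q 2 hp hq h
      · exact Cfsg.Agent.S0061.aux _ N rfl q p 2 hq hp h
    have hQs : Group.IsSolvable (G ⧸ N) := by
      rcases hprop (Nat.card (G ⧸ N)) (Nat.card N) (by rw [mul_comm, hcq, hG]) hN1' with h | h
      · exact Cfsg.Agent.S0061.aux _ (G ⧸ N) rfl p q 2 hp hq h
      · exact Cfsg.Agent.S0061.aux _ (G ⧸ N) rfl q p 2 hq hp h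
    exact Group.isSolvable_of_ker_le_range (N.subtype) (QuotientGroup.mk' N) (by simp)
  rcases Nat.lt_or_gt_of_ne hpq with h | h
  · exact key q p hq hp h (by rw [hG]; ring)
  · exact key p q hp hq h hG

end Cfsg.Agent.S0062
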