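import Mathlib
import Cfsg.Statements.S0063

set_option autoImplicit false
open Cfsg

namespace Cfsg.Agent.S0063

/-- A finite group of prime-power order p ^ m with m > 1 is nilpotent of class at most m - 1. -/
theorem result {G : Type*} [Group G] [Finite G] (p m : ℕ) [Fact p.Prime]
    (hG : Nat.card G = p ^ m) (hm : 1 < m) : Group.nilpotencyClass G ≤ m - 1 := by
  have hp : p.Prime := Fact.out
  have key : ∀ n : ℕ, ∀ (H : Type u_1) [Group H] [Finite H], Nat.card H = p ^ n → 1 < n →
      Group.nilpotencyClass H ≤ n - 1 := by
    intro n
    induction n using Nat.strong_induction_on with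
    | _ n ih =>
      intro H _ _ hH hn
      have hHp : IsPGroup p H := IsPGroup.of_card hH
      have hnil : Group.IsNilpotent H := hHp.isNilpotent
      have hnt : Nontrivial H := by
        rw [← Finite.one_lt_card_iff_nontrivial, hH]
        exact Nat.one_lt_pow (by omega) hp.one_lt
      by_cases hcomm : IsMulCommutative H
      · have h1 := Group.IsNilpotent.nilpotencyClass_le_one_iff.mpr hcomm
        omega
      · have hZnt : Nontrivial (Subgroup.center H) := hHp.center_nontrivial
        have hidx : (Subgroup.center H).index ∣ p ^ n := by
          rw [← hH]
          exact Subgroup.index_dvd_card _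
        obtain ⟨k, hkn, hk⟩ := (Nat.dvd_prime_pow hp).mp hidx
        have hcardQ : Nat.card (H ⧸ Subgroup.center H) = p ^ k := hk
        have hZcard : 1 < Nat.card (Subgroup.center H) := Finite.one_lt_card_iff_nontrivial.mpr hZnt
        have hklt : k < n := by
          have h2 := Subgroup.card_mul_index (Subgroup.center H)
          rw [hH, hk] at h2
          by_contra hcon
          have hkn' : k = n := by omega
          rw [hkn'] at h2
          have hpos : 0 < p ^ n := pow_pos hp.pos n
          have : Nat.card (Subgroup.center H) = 1 := by
            have h3 : Nat.card (Subgroup.center H) * p ^ n = 1 * p ^ n := by rw [h2, one_mul]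
            exact Nat.eq_of_mul_eq_mul_right hpos h3
          omega
        have hk2 : 1 < k := by
          by_contra hcon
          apply hcomm
          have hk01 : k = 0 ∨ k = 1 := by omega
          have hcyc : IsCyclic (H ⧸ Subgroup.center H) := by
            rcases hk01 with h0 | h1
            · rw [h0, pow_zero] at hcardQ
              have : Subsingleton (H ⧸ Subgroup.center H) :=
                (Nat.card_eq_one_iff_unique.mp hcardQ).1
              infer_instance
            · rw [h1, pow_one] at hcardQ
              exact isCyclic_of_prime_card hcardQ
          exact MonoidHom.isMulCommutative_of_isCyclic_of_ker_le_center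
            (QuotientGroup.mk' (Subgroup.center H)) (by rw [QuotientGroup.ker_mk'])
        have h4 := ih k hklt (H ⧸ Subgroup.center H) hcardQ hk2
        rw [Group.nilpotencyClass_eq_quotient_center_plus_one]
        omega
  exact key m G hG hm

end Cfsg.Agent.S0063
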