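import Mathlib
import Cfsg.Statements.S0064

set_option autoImplicit false
open Cfsg

namespace Cfsg.Agent.S0064

/-- A finite group is nilpotent exactly when each of its subgroups is subnormal. -/
theorem result {G : Type*} [Group G] [Finite G] :
    Group.IsNilpotent G ↔ ∀ H : Subgroup G, H.IsSubnormal := by
  constructor
  · intro hnil
    have hnc := Group.normalizerCondition_of_isNilpotent (G := G)
    have key : ∀ n : ℕ, ∀ H : Subgroup G, Nat.card G - Nat.card H = n → H.IsSubnormal := by
      intro n
      induction n using Nat.strong_induction_on with
      | _ n ih =>
        intro H hn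
        by_cases hH : H = ⊤
        · rw [hH]
          exact Subgroup.IsSubnormal.top
        · have hlt : H < Subgroup.normalizer (H : Set G) := hnc H (lt_top_iff_ne_top.mpr hH)
          have hcard : Nat.card H < Nat.card (Subgroup.normalizer (H : Set G)) := by
            by_contra hcon
            exact hlt.ne (Subgroup.eq_of_le_of_card_ge hlt.le (not_lt.mp hcon))
          have hle : Nat.card (Subgroup.normalizer (H : Set G)) ≤ Nat.card G :=
            Subgroup.card_le_card_group _
          have hsub := ih (Nat.card G - Nat.card (Subgroup.normalizer (H : Set G))) (by omega)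
            (Subgroup.normalizer (H : Set G)) rfl
          exact Subgroup.IsSubnormal.step H _ hlt.le hsub Subgroup.normal_in_normalizer
    intro H
    exact key _ H rfl
  · intro hsub
    have h3 : ∀ H : Subgroup G, IsCoatom H → H.Normal := by
      intro M hM
      obtain ⟨K, hKn, hMK, hKtop⟩ := (hsub M).exists_normal_and_le_and_lt_top_of_ne hM.1
      have : M = K := by
        by_contra hne
        exact hKtop.ne (hM.2 K (lt_of_le_of_ne hMK hne))
      rw [this]
      exact hKn
    exact ((Group.isNilpotent_of_finite_tfae (G := G)).out 0 2).mpr h3

end Cfsg.Agent.S0064
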