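import Mathlib
import Cfsg.Agent.S0040
import Cfsg.Agent.Lib.Helper1.FrobZ
import Cfsg.Statements.S0069

set_option autoImplicit false
open Cfsg

namespace Cfsg.Agent.S0069

/-- A Frobenius complement has nontrivial centre: if H ≠ 1 complements a nontrivial normal subgroup K and every nonidentity element of H has trivial centraliser in K, then the centre of H is nontrivial. -/
theorem result {G : Type*} [Group G] [Finite G] (K H : Subgroup G) [K.Normal]
    (hc : Subgroup.IsComplement' K H) (hK : K ≠ ⊥) (hH : H ≠ ⊥) (hfpf : ∀ h ∈ H, h ≠ 1 → K ⊓ Subgroup.centralizer {h} = ⊥) :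
    Subgroup.center H ≠ ⊥ := by
  classical
  haveI : Fact (Nat.Prime 2) := ⟨Nat.prime_two⟩
  have hfpf' : ∀ h ∈ H, h ≠ 1 → ∀ k ∈ K, h * k = k * h → k = 1 := by
    intro h hh h1 k hk hkc
    have hmem : k ∈ K ⊓ Subgroup.centralizer {h} :=
      Subgroup.mem_inf.2 ⟨hk, Subgroup.mem_centralizer_iff.2 (fun y hy => by
        rw [Set.mem_singleton_iff.1 hy]; exact hkc)⟩
    rw [hfpf h hh h1] at hmem
    exact Subgroup.mem_bot.1 hmem
  haveI : Nontrivial H := (Subgroup.nontrivial_iff_ne_bot H).2 hH
  by_cases heven : 2 ∣ Nat.card H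
  · obtain ⟨t, ht⟩ := exists_prime_orderOf_dvd_card' 2 heven
    have hcen := Cfsg.Agent.Lib.Helper1.FrobZ.even_center K H hK hfpf' (t : G) t.2
      (by rw [Subgroup.orderOf_coe]; exact ht)
    intro hbot
    have htc : t ∈ Subgroup.center H := by
      rw [Subgroup.mem_center_iff]
      intro g
      exact Subtype.ext (hcen g g.2)
    rw [hbot, Subgroup.mem_bot] at htc
    rw [htc, orderOf_one] at ht
    omega
  · apply Cfsg.Agent.Lib.Helper1.FrobZ.zgroup_center
    · intro q _ Q
      rcases Cfsg.Agent.S0040.result K H hc hK hfpf q Q with h | ⟨n, ⟨e⟩⟩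
      · exact h
      · exfalso
        haveI : NeZero (2 ^ n) := ⟨by positivity⟩
        have h1 : Nat.card Q = 4 * 2 ^ n := by
          rw [Nat.card_congr e.toEquiv, Nat.card_eq_fintype_card, QuaternionGroup.card]
        have h2 : Nat.card Q ∣ Nat.card H := Subgroup.card_subgroup_dvd_card _
        exact heven (dvd_trans ⟨2 * 2 ^ n, by rw [h1]; ring⟩ h2)
    · intro p q hp hq hpq y z hyq hzp hzy
      haveI := Fact.mk hp
      haveI := Fact.mk hq
      have hzy' : (z : G) * (y : G) * (z : G)⁻¹ ∈ Subgroup.zpowers (y : G) := by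
        obtain ⟨i, hi⟩ := Subgroup.mem_zpowers_iff.1 hzy
        refine Subgroup.mem_zpowers_iff.2 ⟨i, ?_⟩
        have := congrArg Subtype.val hi
        simpa using this
      have := Cfsg.Agent.Lib.Helper1.FrobZ.factA K H hK hfpf' p q hpq (y : G) (z : G) y.2 z.2
        (by rw [Subgroup.orderOf_coe]; exact hyq) (by rw [Subgroup.orderOf_coe]; exact hzp) hzy'
      exact Subtype.ext this

end Cfsg.Agent.S0069
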