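import Mathlib
import Cfsg.Statements.S0070
import Cfsg.Agent.Lib.Helper2.Fit

set_option autoImplicit false
open Pointwise
open Cfsg
open Cfsg.Agent.Lib.Helper2

namespace Cfsg.Agent.S0070

/-- Gaschütz: a normal subgroup containing the Frattini subgroup with nilpotent image modulo it
is nilpotent. -/
theorem nilpotent_of_quot {G : Type*} [Group G] [Finite G] (N : Subgroup G) [N.Normal]
    (hΦ : frattini G ≤ N)
    (hnil : Group.IsNilpotent (N.map (QuotientGroup.mk' (frattini G)))) : Group.IsNilpotent N := by
  have q := (Group.isNilpotent_of_finite_tfae (G := N)).out 0 3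
  rw [q]; clear q
  intro p hp P
  set f := QuotientGroup.mk' (frattini G) with hf
  have hfs : Function.Surjective f := QuotientGroup.mk'_surjective _
  set P₀ : Subgroup G := (P : Subgroup N).map N.subtype with hP₀
  have hP₀N : P₀ ≤ N := by
    rintro _ ⟨x, _, rfl⟩
    exact x.2
  have hP₀p : IsPGroup p P₀ := P.isPGroup'.map _
  have hsurj : Function.Surjective (f.subgroupMap N) := f.subgroupMap_surjective N
  set P' : Sylow p (N.map f) := P.mapSurjective hsurj with hP'
  have q2 := (Group.isNilpotent_of_finite_tfae (G := N.map f)).out 0 3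
  have hP'n : (P' : Subgroup (N.map f)).Normal := q2.1 hnil p hp P'
  haveI : (P' : Subgroup (N.map f)).Characteristic := Sylow.characteristic_of_normal P' hP'n
  haveI : (N.map f).Normal := Subgroup.Normal.map inferInstance f hfs
  have h1 : ((P' : Subgroup (N.map f)).map (N.map f).subtype).Normal :=
    ConjAct.normal_of_characteristic_of_normal
  have h2 : (P' : Subgroup (N.map f)).map (N.map f).subtype = P₀.map f := by
    rw [hP', Sylow.coe_mapSurjective, hP₀, Subgroup.map_map, Subgroup.map_map]
    rfl
  rw [h2] at h1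
  set K : Subgroup G := P₀ ⊔ frattini G with hK
  have hKeq : (P₀.map f).comap f = K := by
    rw [Subgroup.comap_map_eq, QuotientGroup.ker_mk']
  haveI hKn : K.Normal := by
    rw [← hKeq]
    exact h1.comap f
  have hP₀K : P₀ ≤ K := le_sup_left
  have hKN : K ≤ N := sup_le hP₀N hΦ
  obtain ⟨Q, hQ⟩ := (hP₀p.comap_subtype (K := K)).exists_le_sylow
  set Q₀ : Subgroup G := (Q : Subgroup K).map K.subtype with hQ₀
  have hQ₀K : Q₀ ≤ K := by
    rintro _ ⟨x, _, rfl⟩
    exact x.2
  have hQ₀p : IsPGroup p Q₀ := Q.isPGroup'.map _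
  have hPQ : P₀ ≤ Q₀ := by
    intro x hx
    exact ⟨⟨x, hP₀K hx⟩, hQ (Subgroup.mem_subgroupOf.2 hx), rfl⟩
  have h3 : Q₀.subgroupOf N = P := by
    apply P.is_maximal' (hQ₀p.comap_subtype (K := N))
    intro x hx
    show (x : G) ∈ Q₀
    exact hPQ ⟨x, hx, rfl⟩
  have h4 : Q₀ = P₀ := by
    have := congrArg (Subgroup.map N.subtype) h3
    rw [Subgroup.subgroupOf_map_subtype, inf_of_le_left (hQ₀K.trans hKN)] at this
    exact this
  have h5 := Sylow.normalizer_sup_eq_top Q
  rw [← hQ₀, h4, hK, ← sup_assoc, sup_of_le_left Subgroup.le_normalizer] at h5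
  have h6 := frattini_nongenerating h5
  have h7 : P₀.Normal := Subgroup.normalizer_eq_top_iff.mp h6
  exact h7.of_map_subtype

theorem result {G : Type*} [Group G] [Finite G] :
    Cfsg.fittingSubgroup (G ⧸ frattini G) = (Cfsg.fittingSubgroup G).map (QuotientGroup.mk' (frattini G)) := by
  set f := QuotientGroup.mk' (frattini G) with hf
  have hfs : Function.Surjective f := QuotientGroup.mk'_surjective _
  apply le_antisymm
  · set N : Subgroup G := (Cfsg.fittingSubgroup (G ⧸ frattini G)).comap f with hN
    haveI : N.Normal := (Fit.fitting_normal (G := G ⧸ frattini G)).comap f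
    have hΦ : frattini G ≤ N := by
      intro x hx
      rw [hN, Subgroup.mem_comap]
      have : f x = 1 := (QuotientGroup.eq_one_iff x).2 hx
      rw [this]
      exact one_mem _
    have hmap : N.map f = Cfsg.fittingSubgroup (G ⧸ frattini G) :=
      Subgroup.map_comap_eq_self_of_surjective hfs _
    have hnil : Group.IsNilpotent (N.map f) := by
      rw [hmap]
      exact Fit.fitting_nilpotent
    have h1 : Group.IsNilpotent N := nilpotent_of_quot N hΦ hnil
    have h2 : N ≤ Cfsg.fittingSubgroup G := Fit.le_fitting N inferInstance h1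
    rw [← hmap]
    exact Subgroup.map_mono h2
  · apply Fit.le_fitting
    · exact Subgroup.Normal.map Fit.fitting_normal f hfs
    · haveI : Group.IsNilpotent (Cfsg.fittingSubgroup G) := Fit.fitting_nilpotent
      exact Group.nilpotent_of_surjective (f.subgroupMap (Cfsg.fittingSubgroup G))
        (f.subgroupMap_surjective _)

end Cfsg.Agent.S0070
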