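import Mathlib
import Cfsg.Statements.S0073

set_option autoImplicit false
open Pointwise
open Cfsg

namespace Cfsg.Agent.S0073

theorem result {G : Type*} [Group G] [Finite G] [IsSimpleGroup G] (hG : ∃ x y : G, x * y ≠ y * x) : (Nat.card G).minFac ^ 3 ∣ Nat.card G ∨ 12 ∣ Nat.card G := by
  classical
  have hn : Nat.card G ≠ 1 := by
    intro h
    haveI : Subsingleton G := (Nat.card_eq_one_iff_unique.1 h).1
    obtain ⟨x, y, hxy⟩ := hG
    exact hxy (Subsingleton.elim _ _)
  obtain ⟨p, hpdef⟩ : ∃ p, p = (Nat.card G).minFac := ⟨_, rfl⟩
  rw [← hpdef]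
  have hp : p.Prime := hpdef ▸ Nat.minFac_prime hn
  haveI : Fact p.Prime := ⟨hp⟩
  have hpd : p ∣ Nat.card G := hpdef ▸ Nat.minFac_dvd _
  let P : Sylow p G := default
  obtain ⟨k, hk⟩ := P.isPGroup'.exists_card_eq
  have hburn : ¬ (Subgroup.normalizer ((P : Subgroup G) : Set G) ≤
      Subgroup.centralizer ((P : Subgroup G) : Set G)) := by
    intro hNC
    have hcomp := MonoidHom.ker_transferSylow_isComplement' P hNC
    have hKn : (MonoidHom.transferSylow P hNC).ker.Normal := MonoidHom.normal_ker _
    rcases hKn.eq_bot_or_eq_top with h | h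
    · rw [h] at hcomp
      have hPtop : (P : Subgroup G) = ⊤ := Subgroup.isComplement'_bot_left.1 hcomp
      have hGp : IsPGroup p G := by
        have h1 := P.isPGroup'
        rw [hPtop] at h1
        exact h1.of_equiv Subgroup.topEquiv
      haveI : Nontrivial G := by
        rw [← Finite.one_lt_card_iff_nontrivial]
        have := Nat.card_pos (α := G)
        omega
      have hcn := hGp.center_nontrivial
      have hcz : Subgroup.center G = ⊤ :=
        ((inferInstance : (Subgroup.center G).Normal).eq_bot_or_eq_top).resolve_left
          ((Subgroup.nontrivial_iff_ne_bot _).1 hcn)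
      obtain ⟨x, y, hxy⟩ := hG
      have hx : x ∈ Subgroup.center G := hcz ▸ Subgroup.mem_top x
      exact hxy ((Subgroup.mem_center_iff.1 hx y).symm)
    · rw [h] at hcomp
      have hPbot : (P : Subgroup G) = ⊥ := Subgroup.isComplement'_top_left.1 hcomp
      exact P.ne_bot_of_dvd_card hpd hPbot
  have hk0 : k ≠ 0 := by
    intro h
    rw [h, pow_zero] at hk
    have h1 := P.dvd_card_of_dvd_card hpd
    rw [hk] at h1
    exact hp.one_lt.ne' (Nat.dvd_one.1 h1)
  by_cases hk3 : 3 ≤ k
  · left
    exact (pow_dvd_pow p hk3).trans (hk ▸ Subgroup.card_subgroup_dvd_card (P : Subgroup G))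
  · right
    have hk12 : k = 1 ∨ k = 2 := by omega
    rcases hk12 with rfl | rfl
    · exfalso
      have hcyc : IsCyclic ↥(P : Subgroup G) :=
        isCyclic_of_prime_card (p := p) (by rw [hk, pow_one])
      exact hburn (IsCyclic.normalizer_le_centralizer hpdef.symm hcyc)
    · by_contra h12
      apply hburn
      by_contra hNC
      have hker := Subgroup.normalizerMonoidHom_ker (P : Subgroup G)
      have hPab : ∀ a b : ↥(P : Subgroup G), a * b = b * a :=
        IsPGroup.commutative_of_card_eq_prime_sq hk
      have hPC : (P : Subgroup G) ≤ Subgroup.centralizer ((P : Subgroup G) : Set G) := by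
        intro x hx
        rw [Subgroup.mem_centralizer_iff]
        intro y hy
        exact congrArg Subtype.val (hPab ⟨y, hy⟩ ⟨x, hx⟩)
      have hrange_ne : Nat.card (P : Subgroup G).normalizerMonoidHom.range ≠ 1 := by
        intro h1
        apply hNC
        have h2 : (P : Subgroup G).normalizerMonoidHom.ker.index = 1 := by
          rw [Subgroup.index_ker]; exact h1
        rw [Subgroup.index_eq_one] at h2
        intro n hn
        have h3 : (⟨n, hn⟩ : ↥(Subgroup.normalizer ((P : Subgroup G) : Set G))) ∈
            (P : Subgroup G).normalizerMonoidHom.ker := by rw [h2]; trivial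
        rw [hker] at h3
        exact Subgroup.mem_subgroupOf.1 h3
      obtain ⟨q, hq, hqd⟩ := Nat.exists_prime_and_dvd hrange_ne
      haveI : Fact q.Prime := ⟨hq⟩
      have hqidx : q ∣ (P : Subgroup G).index := by
        have h1 : Nat.card (P : Subgroup G).normalizerMonoidHom.range =
            (P : Subgroup G).normalizerMonoidHom.ker.index := (Subgroup.index_ker _).symm
        have hqd' := hqd
        rw [h1, hker] at hqd'
        have h2 : ((Subgroup.centralizer ((P : Subgroup G) : Set G)).subgroupOf
            (Subgroup.normalizer ((P : Subgroup G) : Set G))).index ∣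
            ((P : Subgroup G).subgroupOf (Subgroup.normalizer ((P : Subgroup G) : Set G))).index :=
          Subgroup.index_dvd_of_le
            (fun x hx => Subgroup.mem_subgroupOf.2 (hPC (Subgroup.mem_subgroupOf.1 hx)))
        have h3 : ((P : Subgroup G).subgroupOf
            (Subgroup.normalizer ((P : Subgroup G) : Set G))).index ∣ (P : Subgroup G).index :=
          Subgroup.relIndex_dvd_index_of_le Subgroup.le_normalizer
        exact hqd'.trans (h2.trans h3)
      have hqp : q ≠ p := fun h => P.not_dvd_index (h ▸ hqidx)
      have hqG : q ∣ Nat.card G := hqidx.trans (Subgroup.index_dvd_card _)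
      have hpq : p < q :=
        lt_of_le_of_ne (hpdef ▸ Nat.minFac_le_of_dvd hq.two_le hqG) (Ne.symm hqp)
      obtain ⟨φ', hφ'⟩ := exists_prime_orderOf_dvd_card' q hqd
      obtain ⟨φ, hφ⟩ : ∃ φ : MulAut ↥(P : Subgroup G), φ = (φ' : MulAut _) := ⟨_, rfl⟩
      have hφord : orderOf φ = q := by rw [hφ, Subgroup.orderOf_coe]; exact hφ'
      have hZ : IsPGroup q (Subgroup.zpowers φ) :=
        IsPGroup.of_card (n := 1) (by rw [Nat.card_zpowers, hφord, pow_one])
      have hmod := hZ.card_modEq_card_fixedPoints ↥(P : Subgroup G)
      let F : Subgroup ↥(P : Subgroup G) :=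
        { carrier := {x | φ x = x}
          one_mem' := map_one φ
          mul_mem' := by
            intro a b ha hb
            simp only [Set.mem_setOf_eq] at *
            rw [map_mul, ha, hb]
          inv_mem' := by
            intro a ha
            simp only [Set.mem_setOf_eq] at *
            rw [map_inv, ha] }
      have hFix : MulAction.fixedPoints (Subgroup.zpowers φ) ↥(P : Subgroup G) =
          (F : Set ↥(P : Subgroup G)) := by
        ext x
        constructor
        · intro hx
          exact hx ⟨φ, Subgroup.mem_zpowers φ⟩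
        · intro hx z
          obtain ⟨z, hz⟩ := z
          have h1 : φ ∈ MulAction.stabilizer (MulAut ↥(P : Subgroup G)) x := hx
          have h2 : Subgroup.zpowers φ ≤ MulAction.stabilizer (MulAut ↥(P : Subgroup G)) x :=
            (Subgroup.zpowers_le).2 h1
          exact h2 hz
      rw [hFix, hk] at hmod
      have hFd : Nat.card F ∣ p ^ 2 := hk ▸ Subgroup.card_subgroup_dvd_card F
      obtain ⟨m, hm2, hFm⟩ := (Nat.dvd_prime_pow hp).1 hFd
      have hmod' : p ^ 2 ≡ p ^ m [MOD q] := by rw [← hFm]; exact hmod
      obtain ⟨r, hr⟩ : ∃ r, p = r + 1 := ⟨p - 1, by have := hp.one_le; omega⟩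
      interval_cases m
      · have h1 : q ∣ p ^ 2 - p ^ 0 :=
          (Nat.modEq_iff_dvd' (Nat.pow_le_pow_right hp.pos (by norm_num))).1 hmod'.symm
        have h2 : p ^ 2 - p ^ 0 = (p - 1) * (p + 1) := by
          apply Nat.sub_eq_of_eq_add
          rw [hr]
          simp only [Nat.add_sub_cancel]
          ring
        rw [h2] at h1
        rcases (hq.dvd_mul).1 h1 with h3 | h3
        · have := Nat.le_of_dvd (by have := hp.two_le; omega) h3
          omega
        · have h4 := Nat.le_of_dvd (by omega) h3
          have hq' : q = p + 1 := by omega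
          have hp2 : p = 2 := by
            rcases hp.eq_two_or_odd with h | h
            · exact h
            · exfalso
              have h5 : 2 ∣ q := by rw [hq']; omega
              have h6 := (Nat.prime_dvd_prime_iff_eq Nat.prime_two hq).1 h5
              have := hp.two_le
              omega
          apply h12
          have h3G : 3 ∣ Nat.card G := by
            have : q = 3 := by omega
            rw [← this]; exact hqG
          have h4G : 4 ∣ Nat.card G := by
            have h7 := Subgroup.card_subgroup_dvd_card (P : Subgroup G)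
            rw [hk, hp2] at h7
            exact h7
          exact Nat.Coprime.mul_dvd_of_dvd_of_dvd (by norm_num : Nat.Coprime 4 3) h4G h3G
      · have h1 : q ∣ p ^ 2 - p ^ 1 :=
          (Nat.modEq_iff_dvd' (Nat.pow_le_pow_right hp.pos (by norm_num))).1 hmod'.symm
        have h2 : p ^ 2 - p ^ 1 = p * (p - 1) := by
          apply Nat.sub_eq_of_eq_add
          rw [hr]
          simp only [Nat.add_sub_cancel]
          ring
        rw [h2] at h1
        rcases (hq.dvd_mul).1 h1 with h3 | h3
        · have := Nat.le_of_dvd hp.pos h3
          omega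
        · have := Nat.le_of_dvd (by have := hp.two_le; omega) h3
          omega
      · have hFtop : F = ⊤ := Subgroup.eq_top_of_card_eq F (by rw [hFm, hk])
        have hφ1 : φ = 1 := by
          ext x
          have hx : x ∈ F := hFtop ▸ Subgroup.mem_top x
          exact congrArg Subtype.val hx
        rw [hφ1, orderOf_one] at hφord
        exact hq.one_lt.ne' hφord.symm

end Cfsg.Agent.S0073
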