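import Mathlib
import Cfsg.Statements.S0074

set_option autoImplicit false
open Cfsg
open scoped commutatorElement

namespace Cfsg.Agent.S0074

/-- For an abelian Sylow p-subgroup P, the intersection of P with the derived subgroup of G equals its intersection with the derived subgroup of the normalizer of P. -/
theorem result {G : Type*} [Group G] [Finite G] {p : ℕ} [Fact p.Prime] (P : Sylow p G) (hP : IsMulCommutative P) : commutator G ⊓ (P : Subgroup G) = ⁅Subgroup.normalizer (P : Set G), Subgroup.normalizer (P : Set G)⁆ ⊓ (P : Subgroup G) := by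
  have hfoc := Subgroup.commutator_inf_eq_focalSubgroup P
  apply le_antisymm
  · rw [hfoc]
    apply le_inf _ (Subgroup.focalSubgroup_le _)
    rw [Subgroup.focalSubgroup_def, Subgroup.closure_le]
    rintro g ⟨hgP, x, hxP, u, rfl⟩
    have h2 : u⁻¹⁻¹ * x⁻¹ * u⁻¹ ∈ (P : Subgroup G) := by
      have h0 : u⁻¹⁻¹ * x⁻¹ * u⁻¹ = x⁻¹ * ⁅x, u⁆ := by rw [commutatorElement_def]; group
      rw [h0]
      exact Subgroup.mul_mem _ (Subgroup.inv_mem _ hxP) hgP
    obtain ⟨n, hn, hnx⟩ := P.conj_eq_normalizer_conj_of_mem x⁻¹ u⁻¹ (Subgroup.inv_mem _ hxP) h2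
    have h3 : ⁅x, u⁆ = ⁅x, n⁻¹⁆ := by
      rw [commutatorElement_def, commutatorElement_def]
      calc x * u * x⁻¹ * u⁻¹ = x * (u⁻¹⁻¹ * x⁻¹ * u⁻¹) := by group
        _ = x * (n⁻¹ * x⁻¹ * n) := by rw [hnx]
        _ = x * n⁻¹ * x⁻¹ * n⁻¹⁻¹ := by group
    show ⁅x, u⁆ ∈ _
    rw [h3]
    exact Subgroup.commutator_mem_commutator (Subgroup.le_normalizer hxP)
      (Subgroup.inv_mem _ hn)
  · apply inf_le_inf_right
    rw [commutator_def]
    exact Subgroup.commutator_mono le_top le_top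

end Cfsg.Agent.S0074
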