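import Mathlib
import Cfsg.Agent.Lib.Helper1.Nil
import Cfsg.Statements.S0075

set_option autoImplicit false
open Cfsg
open scoped commutatorElement

namespace Cfsg.Agent.S0075

/-- For an abelian Sylow p-subgroup T, its intersection with the subgroup generated by the elements of order prime to p is the commutator of T with its normalizer. -/
theorem result {G : Type*} [Group G] [Finite G] {p : ℕ} [Fact p.Prime] (T : Sylow p G) (hT : IsMulCommutative T) : (T : Subgroup G) ⊓ Cfsg.pResidual p G = ⁅(T : Subgroup G), Subgroup.normalizer (T : Set G)⁆ := by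
  have hp : p.Prime := Fact.out
  apply le_antisymm
  · have hres : Cfsg.pResidual p G ≤ (T : Subgroup G).transferFocal.ker := by
      unfold Cfsg.pResidual
      rw [Subgroup.closure_le]
      intro g hg
      have hg' : Nat.Coprime (orderOf g) p := hg
      rw [SetLike.mem_coe, MonoidHom.mem_ker]
      have hQ : IsPGroup p (T ⧸ (T : Subgroup G).focalSubgroupOf) := T.2.to_quotient _
      obtain ⟨k, hk⟩ := hQ ((T : Subgroup G).transferFocal g)
      have h1 : orderOf ((T : Subgroup G).transferFocal g) ∣ p ^ k := orderOf_dvd_of_pow_eq_one hk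
      have h2 : orderOf ((T : Subgroup G).transferFocal g) ∣ orderOf g := orderOf_map_dvd _ g
      have h3 : Nat.Coprime (orderOf ((T : Subgroup G).transferFocal g)) (p ^ k) :=
        Nat.Coprime.pow_right k (Nat.Coprime.coprime_dvd_left h2 hg')
      exact orderOf_eq_one_iff.mp (Nat.Coprime.eq_one_of_dvd h3 h1)
    have hfoc : (T : Subgroup G).focalSubgroup ≤
        ⁅(T : Subgroup G), Subgroup.normalizer (T : Set G)⁆ := by
      rw [Subgroup.focalSubgroup_def, Subgroup.closure_le]
      rintro g ⟨hgP, x, hxP, u, rfl⟩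
      have h2 : u⁻¹⁻¹ * x⁻¹ * u⁻¹ ∈ (T : Subgroup G) := by
        have h0 : u⁻¹⁻¹ * x⁻¹ * u⁻¹ = x⁻¹ * ⁅x, u⁆ := by rw [commutatorElement_def]; group
        rw [h0]
        exact Subgroup.mul_mem _ (Subgroup.inv_mem _ hxP) hgP
      obtain ⟨n, hn, hnx⟩ := T.conj_eq_normalizer_conj_of_mem x⁻¹ u⁻¹ (Subgroup.inv_mem _ hxP) h2
      have h3 : ⁅x, u⁆ = ⁅x, n⁻¹⁆ := by
        rw [commutatorElement_def, commutatorElement_def]
        calc x * u * x⁻¹ * u⁻¹ = x * (u⁻¹⁻¹ * x⁻¹ * u⁻¹) := by group
          _ = x * (n⁻¹ * x⁻¹ * n) := by rw [hnx]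
          _ = x * n⁻¹ * x⁻¹ * n⁻¹⁻¹ := by group
      show ⁅x, u⁆ ∈ _
      rw [h3]
      exact Subgroup.commutator_mem_commutator hxP (Subgroup.inv_mem _ hn)
    intro x hx
    obtain ⟨hxT, hxR⟩ := Subgroup.mem_inf.mp hx
    apply hfoc
    rw [← Subgroup.ker_transferFocal_inf_eq_focalSubgroup T]
    exact Subgroup.mem_inf.mpr ⟨hres hxR, hxT⟩
  · rw [Subgroup.commutator_le]
    intro t ht n hn
    refine Subgroup.mem_inf.mpr ⟨?_, ?_⟩
    · rw [commutatorElement_def]
      have h1 : t * n * t⁻¹ * n⁻¹ = t * (n * t⁻¹ * n⁻¹) := by group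
      rw [h1]
      exact Subgroup.mul_mem _ ht
        ((Subgroup.mem_normalizer_iff.mp hn t⁻¹).mp (Subgroup.inv_mem _ ht))
    · obtain ⟨u, w, hnuw, hcomm, hu, ⟨k, hw⟩, huz, hwz⟩ := Lib.Helper1.exists_p_decomp p n
      have hwN : w ∈ Subgroup.normalizer ((T : Subgroup G) : Set G) := by
        have h0 : Subgroup.zpowers n ≤ Subgroup.normalizer ((T : Subgroup G) : Set G) := by
          rw [Subgroup.zpowers_le]
          exact hn
        exact h0 hwz
      have hwT := Lib.Helper1.mem_sylow_of_pow_mem_normalizer p T w hwN k hw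
      have htw : t * w = w * t := by
        have h0 := mul_comm' (⟨t, ht⟩ : T) ⟨w, hwT⟩
        exact congrArg Subtype.val h0
      have h2 : ⁅t, n⁆ = (t * u * t⁻¹) * u⁻¹ := by
        rw [commutatorElement_def, hnuw]
        have h3 : w * t⁻¹ * w⁻¹ = t⁻¹ := by
          calc w * t⁻¹ * w⁻¹ = t⁻¹ * (t * w) * t⁻¹ * w⁻¹ := by group
            _ = t⁻¹ * (w * t) * t⁻¹ * w⁻¹ := by rw [htw]
            _ = t⁻¹ := by group
        calc t * (u * w) * t⁻¹ * (u * w)⁻¹ = t * u * (w * t⁻¹ * w⁻¹) * u⁻¹ := by group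
          _ = t * u * t⁻¹ * u⁻¹ := by rw [h3]
      rw [h2]
      unfold Cfsg.pResidual
      apply Subgroup.mul_mem
      · apply Subgroup.subset_closure
        show Nat.Coprime (orderOf (t * u * t⁻¹)) p
        have hsc : SemiconjBy t u (t * u * t⁻¹) := by
          unfold SemiconjBy
          group
        rw [← hsc.orderOf_eq]
        exact hu
      · apply Subgroup.inv_mem
        apply Subgroup.subset_closure
        exact hu

end Cfsg.Agent.S0075
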