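import Mathlib
import Cfsg.Agent.Lib.Helper1.Inv
import Cfsg.Statements.S0076

set_option autoImplicit false
open Cfsg
open Pointwise

namespace Cfsg.Agent.S0076

theorem conj_image_mul {G : Type*} [Group G] (a b : G) (Y : Set G) :
    (fun y => (a * b) * y * (a * b)⁻¹) '' Y = (fun y => a * y * a⁻¹) '' ((fun y => b * y * b⁻¹) '' Y) := by
  rw [Set.image_image]
  apply Set.image_congr
  intro y _
  group

theorem conj_image_one {G : Type*} [Group G] (Y : Set G) :
    (fun y => (1 : G) * y * (1 : G)⁻¹) '' Y = Y := by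
  have : (fun y : G => (1 : G) * y * (1 : G)⁻¹) = id := by
    funext y
    simp
  rw [this, Set.image_id]

def setStab {G : Type*} [Group G] (Y : Set G) : Subgroup G where
  carrier := {n | (fun y => n * y * n⁻¹) '' Y = Y}
  one_mem' := conj_image_one Y
  mul_mem' := by
    intro a b ha hb
    show (fun y => (a * b) * y * (a * b)⁻¹) '' Y = Y
    rw [conj_image_mul]
    have hb' : (fun y => b * y * b⁻¹) '' Y = Y := hb
    rw [hb']
    exact ha
  inv_mem' := by
    intro a ha
    have ha' : (fun y => a * y * a⁻¹) '' Y = Y := ha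
    show (fun y => a⁻¹ * y * a⁻¹⁻¹) '' Y = Y
    have h1 : (fun y => a⁻¹ * y * a⁻¹⁻¹) '' ((fun y => a * y * a⁻¹) '' Y) = Y := by
      rw [← conj_image_mul, inv_mul_cancel, conj_image_one]
    rw [ha'] at h1
    exact h1

theorem mem_setStab {G : Type*} [Group G] (Y : Set G) (n : G) :
    n ∈ setStab Y ↔ (fun y => n * y * n⁻¹) '' Y = Y := Iff.rfl

/-- Two P-invariant subsets of a Sylow p-subgroup P that are conjugate in G are conjugate under the normalizer of P. -/
theorem result {G : Type*} [Group G] [Finite G] {p : ℕ} [Fact p.Prime] (P : Sylow p G) (X Y : Set G) (hXP : X ⊆ P) (hYP : Y ⊆ P) (hX : ∀ x ∈ P, (fun y => x * y * x⁻¹) '' X = X) (hY : ∀ x ∈ P, (fun y => x * y * x⁻¹) '' Y = Y) (g : G) (hg : (fun y => g * y * g⁻¹) '' X = Y) : ∃ n ∈ Subgroup.normalizer (P : Set G), (fun y => n * y * n⁻¹) '' X = Y := by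
  have h1 : (P : Subgroup G) ≤ setStab Y := fun x hx => hY x hx
  have hgX : (fun y => g⁻¹ * y * g⁻¹⁻¹) '' Y = X := by
    rw [← hg, ← conj_image_mul, inv_mul_cancel, conj_image_one]
  have h2 : ((g • P : Sylow p G) : Subgroup G) ≤ setStab Y := by
    intro z hz
    have hz' : g⁻¹ * z * g ∈ P := (Lib.Helper1.mem_sylow_smul_iff P g z).mp hz
    rw [mem_setStab]
    have hzeq : z = g * ((g⁻¹ * z * g) * g⁻¹) := by group
    rw [hzeq, conj_image_mul, conj_image_mul, hgX, hX _ hz', hg]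
  obtain ⟨n, hn⟩ := MulAction.exists_smul_eq (setStab Y) ((g • P).subtype h2) (P.subtype h1)
  have hle : (P : Subgroup G) ≤ (((n : G) * g) • P : Sylow p G) := by
    intro x hx
    have hxs : (⟨x, h1 hx⟩ : setStab Y) ∈ P.subtype h1 := by
      show (⟨x, h1 hx⟩ : setStab Y) ∈ (P : Subgroup G).subgroupOf (setStab Y)
      exact Subgroup.mem_subgroupOf.mpr hx
    rw [← hn, Lib.Helper1.mem_sylow_smul_iff] at hxs
    have hxs' : ((n⁻¹ * ⟨x, h1 hx⟩ * n : setStab Y) : G) ∈ (g • P : Sylow p G) := by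
      have h0 : (n⁻¹ * ⟨x, h1 hx⟩ * n : setStab Y) ∈
          ((g • P : Sylow p G) : Subgroup G).subgroupOf (setStab Y) := hxs
      exact Subgroup.mem_subgroupOf.mp h0
    have hxs'' := (Lib.Helper1.mem_sylow_smul_iff P g _).mp hxs'
    apply (Lib.Helper1.mem_sylow_smul_iff P ((n : G) * g) x).mpr
    have he : ((n : G) * g)⁻¹ * x * ((n : G) * g)
        = g⁻¹ * ((n⁻¹ * ⟨x, h1 hx⟩ * n : setStab Y) : G) * g := by
      simp only [Subgroup.coe_mul, Subgroup.coe_inv]
      group
    rw [he]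
    exact hxs''
  have heq : (((n : G) * g) • P : Sylow p G) = P := by
    apply Sylow.ext
    exact P.3 (((n : G) * g) • P : Sylow p G).2 hle
  refine ⟨(n : G) * g, Sylow.smul_eq_iff_mem_normalizer.mp heq, ?_⟩
  rw [conj_image_mul, hg]
  exact n.2

end Cfsg.Agent.S0076
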