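import Mathlib
import Cfsg.Agent.Lib.Helper1.Nil
import Cfsg.Statements.S0077

set_option autoImplicit false
open Cfsg
open Pointwise
open scoped commutatorElement

namespace Cfsg.Agent.S0077

/-- If a subgroup Z of the centre of a Sylow p-subgroup P is weakly closed in P, then P meets the derived subgroup of G exactly where it meets the derived subgroup of the normalizer of Z. -/
theorem result {G : Type*} [Group G] [Finite G] {p : ℕ} [Fact p.Prime] (P : Sylow p G) (Z : Subgroup G) (hZ : Z ≤ Subgroup.centralizer (P : Set G)) (hW : Cfsg.IsWeaklyClosed Z P) : commutator G ⊓ (P : Subgroup G) = ⁅Subgroup.normalizer (Z : Set G), Subgroup.normalizer (Z : Set G)⁆ ⊓ (P : Subgroup G) := by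
  have hfoc := Subgroup.commutator_inf_eq_focalSubgroup P
  obtain ⟨hZP, hWc⟩ := hW
  have hPNZ : (P : Subgroup G) ≤ Subgroup.normalizer (Z : Set G) := by
    intro x hx
    rw [Subgroup.mem_normalizer_iff]
    intro z
    have hkey : ∀ z' : G, z' ∈ Z → x * z' * x⁻¹ = z' := by
      intro z' hz'
      have h1 := Subgroup.mem_centralizer_iff.mp (hZ hz') x hx
      rw [h1, mul_inv_cancel_right]
    constructor
    · intro hz
      rw [hkey z hz]
      exact hz
    · intro hz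
      have h2 := hkey _ hz
      have h3 : x * z * x⁻¹ = z := by
        have h4 : x * (x * z * x⁻¹) * x⁻¹ = x * z * x⁻¹ := h2
        have h5 := mul_right_cancel h4
        exact mul_left_cancel h5
      rw [← h3]
      exact hz
  apply le_antisymm
  · rw [hfoc]
    apply le_inf _ (Subgroup.focalSubgroup_le _)
    rw [Subgroup.focalSubgroup_def, Subgroup.closure_le]
    rintro g0 ⟨hgP, x, hxP, u, rfl⟩
    have hyP : u * x * u⁻¹ ∈ (P : Subgroup G) := by
      have h0 : u * x * u⁻¹ = (x⁻¹ * ⁅x, u⁆)⁻¹ := by rw [commutatorElement_def]; group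
      rw [h0]
      exact Subgroup.inv_mem _ (Subgroup.mul_mem _ (Subgroup.inv_mem _ hxP) hgP)
    have hZC : Z ≤ Subgroup.centralizer ({u * x * u⁻¹} : Set G) := by
      intro z hz
      rw [Subgroup.mem_centralizer_singleton_iff]
      exact (Subgroup.mem_centralizer_iff.mp (hZ hz) _ hyP).symm
    have hZ'C : Z.map (MulAut.conj u).toMonoidHom ≤ Subgroup.centralizer ({u * x * u⁻¹} : Set G) := by
      rintro _ ⟨z, hz, rfl⟩
      rw [Subgroup.mem_centralizer_singleton_iff]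
      have h1 := Subgroup.mem_centralizer_iff.mp (hZ hz) x hxP
      show u * z * u⁻¹ * (u * x * u⁻¹) = u * x * u⁻¹ * (u * z * u⁻¹)
      calc u * z * u⁻¹ * (u * x * u⁻¹) = u * (z * x) * u⁻¹ := by group
        _ = u * (x * z) * u⁻¹ := by rw [h1]
        _ = u * x * u⁻¹ * (u * z * u⁻¹) := by group
    have hZp : IsPGroup p Z := P.2.to_le hZP
    have hZ'p : IsPGroup p (Z.map (MulAut.conj u).toMonoidHom) := hZp.map _
    obtain ⟨R1, hR1⟩ := (hZp.comap_subtype (K := Subgroup.centralizer ({u * x * u⁻¹} : Set G))).exists_le_sylow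
    obtain ⟨R2, hR2⟩ := (hZ'p.comap_subtype (K := Subgroup.centralizer ({u * x * u⁻¹} : Set G))).exists_le_sylow
    obtain ⟨c, hc⟩ := MulAction.exists_smul_eq (Subgroup.centralizer ({u * x * u⁻¹} : Set G)) R2 R1
    obtain ⟨Q, hQ⟩ := (R1.2.map (Subgroup.subtype _)).exists_le_sylow
    obtain ⟨g, hg⟩ := MulAction.exists_smul_eq G P Q
    have h1 : Z.map (MulAut.conj g⁻¹).toMonoidHom ≤ (P : Subgroup G) := by
      intro z hz
      rw [Lib.Helper1.mem_map_conj_iff, inv_inv] at hz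
      have h2 : (⟨g * z * g⁻¹, hZC hz⟩ : Subgroup.centralizer ({u * x * u⁻¹} : Set G)) ∈ R1 :=
        hR1 (Subgroup.mem_subgroupOf.mpr hz)
      have h3 : g * z * g⁻¹ ∈ Q := hQ ⟨_, h2, rfl⟩
      rw [← hg, Lib.Helper1.sylow_smul_mem_iff] at h3
      have h4 : g⁻¹ * (g * z * g⁻¹) * g = z := by group
      rw [h4] at h3
      exact h3
    have hgN : g ∈ Subgroup.normalizer (Z : Set G) := by
      have h5 := Subgroup.inv_mem _ (Lib.Helper1.mem_normalizer_of_map_conj_eq Z g⁻¹ (hWc g⁻¹ h1))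
      rwa [inv_inv] at h5
    have h6 : Z.map (MulAut.conj (g⁻¹ * c * u)).toMonoidHom ≤ (P : Subgroup G) := by
      rintro _ ⟨z, hz, rfl⟩
      have hz' : u * z * u⁻¹ ∈ Z.map (MulAut.conj u).toMonoidHom := ⟨z, hz, rfl⟩
      have h7 : (⟨u * z * u⁻¹, hZ'C hz'⟩ : Subgroup.centralizer ({u * x * u⁻¹} : Set G)) ∈ R2 :=
        hR2 (Subgroup.mem_subgroupOf.mpr hz')
      have h8 : c * ⟨u * z * u⁻¹, hZ'C hz'⟩ * c⁻¹ ∈ R1 := by
        rw [← hc, Lib.Helper1.sylow_smul_mem_iff]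
        have h9 : c⁻¹ * (c * ⟨u * z * u⁻¹, hZ'C hz'⟩ * c⁻¹) * c = ⟨u * z * u⁻¹, hZ'C hz'⟩ := by group
        rw [h9]
        exact h7
      have h10 : (c : G) * (u * z * u⁻¹) * (c : G)⁻¹ ∈ Q := hQ ⟨_, h8, rfl⟩
      rw [← hg, Lib.Helper1.sylow_smul_mem_iff] at h10
      show (g⁻¹ * c * u) * z * (g⁻¹ * c * u)⁻¹ ∈ (P : Subgroup G)
      have h11 : (g⁻¹ * c * u) * z * (g⁻¹ * c * u)⁻¹ = g⁻¹ * ((c : G) * (u * z * u⁻¹) * (c : G)⁻¹) * g := by
        group
      rw [h11]
      exact h10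
    have h12 := Lib.Helper1.mem_normalizer_of_map_conj_eq Z _ (hWc _ h6)
    have hnN : (c : G) * u ∈ Subgroup.normalizer (Z : Set G) := by
      have h13 : (c : G) * u = g * (g⁻¹ * c * u) := by group
      rw [h13]
      exact Subgroup.mul_mem _ hgN h12
    have hcy : (c : G) * (u * x * u⁻¹) = (u * x * u⁻¹) * (c : G) :=
      Subgroup.mem_centralizer_singleton_iff.mp c.2
    have h14 : ⁅x, u⁆ = ⁅x, ((c : G) * u)⁆ := by
      rw [commutatorElement_def, commutatorElement_def]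
      have h15 : (c : G) * u * x⁻¹ * ((c : G) * u)⁻¹ = u * x⁻¹ * u⁻¹ := by
        have h16 : (c : G) * (u * x * u⁻¹)⁻¹ * (c : G)⁻¹ = (u * x * u⁻¹)⁻¹ := by
          have h17 : (c : G) * (u * x * u⁻¹) * (c : G)⁻¹ = u * x * u⁻¹ := by
            rw [hcy, mul_inv_cancel_right]
          calc (c : G) * (u * x * u⁻¹)⁻¹ * (c : G)⁻¹ = ((c : G) * (u * x * u⁻¹) * (c : G)⁻¹)⁻¹ := by group
            _ = (u * x * u⁻¹)⁻¹ := by rw [h17]
        calc (c : G) * u * x⁻¹ * ((c : G) * u)⁻¹ = (c : G) * (u * x * u⁻¹)⁻¹ * (c : G)⁻¹ := by group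
          _ = (u * x * u⁻¹)⁻¹ := h16
          _ = u * x⁻¹ * u⁻¹ := by group
      calc x * u * x⁻¹ * u⁻¹ = x * (u * x⁻¹ * u⁻¹) := by group
        _ = x * ((c : G) * u * x⁻¹ * ((c : G) * u)⁻¹) := by rw [h15]
        _ = x * ((c : G) * u) * x⁻¹ * ((c : G) * u)⁻¹ := by group
    show ⁅x, u⁆ ∈ _
    rw [h14]
    exact Subgroup.commutator_mem_commutator (hPNZ hxP) hnN
  · apply inf_le_inf_right
    rw [commutator_def]
    exact Subgroup.commutator_mono le_top le_top

end Cfsg.Agent.S0077
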