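import Mathlib
import Cfsg.Statements.S0557
import Cfsg.Agent.S0003

set_option autoImplicit false
open Pointwise
open Cfsg
open scoped commutatorElement

namespace Cfsg.Agent.S0557

open Cfsg.Agent.S0003

theorem foc_mono {G : Type*} [Group G] {A B : Subgroup G} (h : A ≤ B) :
    Subgroup.focalSubgroup A ≤ Subgroup.focalSubgroup B := by
  rw [Subgroup.focalSubgroup_def, Subgroup.focalSubgroup_def]
  apply Subgroup.closure_mono
  rintro g ⟨hg, x, hx, u, rfl⟩
  exact ⟨h hg, x, h hx, u, rfl⟩

theorem foc_sub {G : Type*} [Group G] (K : Subgroup G) (B : Subgroup K) :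
    (Subgroup.focalSubgroup B).map K.subtype ≤ Subgroup.focalSubgroup (B.map K.subtype) := by
  rw [Subgroup.focalSubgroup_def, Subgroup.focalSubgroup_def, MonoidHom.map_closure,
    Subgroup.closure_le]
  rintro _ ⟨g, ⟨hg, x, hx, u, rfl⟩, rfl⟩
  apply Subgroup.subset_closure
  refine ⟨⟨_, hg, rfl⟩, (x : G), ⟨x, hx, rfl⟩, (u : G), ?_⟩
  simp [commutatorElement_def]

theorem foc_iter {G : Type*} [Group G] (K : Subgroup G) (m : ℕ) :
    ∀ (A : Subgroup G) (B : Subgroup K), B.map K.subtype ≤ A →
    ((fun X : Subgroup K => Subgroup.focalSubgroup X)^[m] B).map K.subtype ≤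
      (fun X : Subgroup G => Subgroup.focalSubgroup X)^[m] A := by
  induction m with
  | zero => intro A B h; exact h
  | succ m ih =>
    intro A B h
    rw [Function.iterate_succ_apply, Function.iterate_succ_apply]
    exact ih _ _ ((foc_sub K B).trans (foc_mono h))

theorem mem_of_coprime_normal {G : Type*} [Group G] [Finite G] (M : Subgroup G) [M.Normal] (x : G)
    (h : (orderOf x).Coprime M.index) : x ∈ M := by
  rw [← QuotientGroup.eq_one_iff, ← orderOf_eq_one_iff]
  have h1 : orderOf (x : G ⧸ M) ∣ orderOf x := orderOf_map_dvd (QuotientGroup.mk' M) x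
  have h2 : orderOf (x : G ⧸ M) ∣ M.index := orderOf_dvd_natCard _
  exact Nat.eq_one_of_dvd_coprimes h h1 h2

universe u in
theorem aux (n : ℕ) : ∀ (G : Type u) [Group G] [Finite G] (H : Subgroup G),
    (Nat.card H).Coprime H.index →
    (fun K : Subgroup G => Subgroup.focalSubgroup K)^[n] H = ⊥ →
    ∃ N : Subgroup G, N.Normal ∧ Subgroup.IsComplement' N H := by
  induction n with
  | zero =>
    intro G _ _ H _ hfoc
    rw [Function.iterate_zero, id] at hfoc
    subst hfoc
    exact ⟨⊤, inferInstance, Subgroup.isComplement'_top_bot⟩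
  | succ n ih =>
    intro G _ _ H hHall hfoc
    rw [Function.iterate_succ_apply] at hfoc
    set K : Subgroup G := (Subgroup.transferFocal H).ker with hK
    haveI hKn : K.Normal := MonoidHom.normal_ker _
    have hcopq : (Nat.card (H ⧸ Subgroup.focalSubgroupOf H)).Coprime H.index := by
      have h1 : Nat.card (H ⧸ Subgroup.focalSubgroupOf H) ∣ Nat.card H := by
        rw [Subgroup.card_eq_card_quotient_mul_card_subgroup (Subgroup.focalSubgroupOf H)]
        exact dvd_mul_right _ _
      exact Nat.Coprime.coprime_dvd_left h1 hHall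
    -- K ⊓ H = focal subgroup
    have hKH : K ⊓ H = Subgroup.focalSubgroup H := by
      ext g
      constructor
      · rintro ⟨hgK, hgH⟩
        have h1 : Subgroup.transferFocal H g = 1 := hgK
        have h2 := Subgroup.transferFocal_eq_pow H ⟨g, hgH⟩
        rw [show ((⟨g, hgH⟩ : H) : G) = g from rfl, h1] at h2
        have h3 : ((⟨g, hgH⟩ : H) : H ⧸ Subgroup.focalSubgroupOf H) = 1 := by
          apply (powCoprime hcopq).injective
          rw [powCoprime_apply, powCoprime_apply, one_pow]
          exact h2.symm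
        rw [QuotientGroup.eq_one_iff, Subgroup.focalSubgroupOf_def, Subgroup.mem_subgroupOf] at h3
        exact h3
      · intro hg
        have hgH : g ∈ H := Subgroup.focalSubgroup_le H hg
        refine ⟨?_, hgH⟩
        show Subgroup.transferFocal H g = 1
        have h2 := Subgroup.transferFocal_eq_pow H ⟨g, hgH⟩
        rw [show ((⟨g, hgH⟩ : H) : G) = g from rfl] at h2
        rw [h2]
        have h3 : ((⟨g, hgH⟩ : H) : H ⧸ Subgroup.focalSubgroupOf H) = 1 := by
          rw [QuotientGroup.eq_one_iff, Subgroup.focalSubgroupOf_def, Subgroup.mem_subgroupOf]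
          exact hg
        rw [h3, one_pow]
    -- H ⊔ K = ⊤
    have hsup : H ⊔ K = ⊤ := by
      rw [eq_top_iff]
      intro g _
      obtain ⟨y, hy⟩ := (powCoprime hcopq).surjective (Subgroup.transferFocal H g)
      rw [powCoprime_apply] at hy
      obtain ⟨h, rfl⟩ := QuotientGroup.mk_surjective y
      have h2 := Subgroup.transferFocal_eq_pow H h
      have h3 : (h : G)⁻¹ * g ∈ K := by
        show Subgroup.transferFocal H ((h : G)⁻¹ * g) = 1
        rw [map_mul, map_inv, h2, ← hy]
        simp
      have : g = (h : G) * ((h : G)⁻¹ * g) := by group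
      rw [this]
      exact Subgroup.mul_mem _ (Subgroup.mem_sup_left h.2) (Subgroup.mem_sup_right h3)
    have hcard1 : H.index * Nat.card ↥(H ⊓ K) = Nat.card K := by
      have h1 := card_sup_mul_card_inf H K
      rw [hsup, Subgroup.card_top, ← Subgroup.card_mul_index H] at h1
      have hpos : 0 < Nat.card H := Nat.card_pos
      nlinarith
    set H₁ : Subgroup G := Subgroup.focalSubgroup H with hH₁
    have hH₁K : H₁ ≤ K := hKH ▸ inf_le_left
    have hH₁H : H₁ ≤ H := Subgroup.focalSubgroup_le H
    have hcH₁ : Nat.card (H₁.subgroupOf K) = Nat.card H₁ := by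
      rw [card_subgroupOf_eq', inf_of_le_left hH₁K]
    have hidx : (H₁.subgroupOf K).index = H.index := by
      have h1 := Subgroup.card_mul_index (H₁.subgroupOf K)
      rw [hcH₁, ← hcard1, inf_comm, hKH, mul_comm] at h1
      have hpos : 0 < Nat.card H₁ := Nat.card_pos
      exact Nat.eq_of_mul_eq_mul_right hpos h1
    have hHall₁ : (Nat.card (H₁.subgroupOf K)).Coprime (H₁.subgroupOf K).index := by
      rw [hcH₁, hidx]
      exact Nat.Coprime.coprime_dvd_left (Subgroup.card_dvd_of_le hH₁H) hHall
    have hfoc₁ : (fun X : Subgroup K => Subgroup.focalSubgroup X)^[n] (H₁.subgroupOf K) = ⊥ := by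
      have h1 := foc_iter K n H₁ (H₁.subgroupOf K) (by
        rw [Subgroup.map_subgroupOf_eq_of_le hH₁K])
      rw [hfoc, le_bot_iff, Subgroup.map_eq_bot_iff_of_injective _ (Subgroup.subtype_injective K)] at h1
      exact h1
    obtain ⟨M, hMn, hMc⟩ := ih K (H₁.subgroupOf K) hHall₁ hfoc₁
    haveI := hMn
    have hMcard : Nat.card M = H.index := by
      have h1 := hMc.card_mul
      have h2 := Subgroup.card_mul_index (H₁.subgroupOf K)
      rw [hidx] at h2
      have hpos : 0 < Nat.card (H₁.subgroupOf K) := Nat.card_pos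
      nlinarith
    have hMidx : M.index = Nat.card (H₁.subgroupOf K) := by
      have h1 := hMc.card_mul
      have h2 := Subgroup.card_mul_index M
      have hpos : 0 < Nat.card M := Nat.card_pos
      exact Nat.eq_of_mul_eq_mul_left hpos (h2.trans h1.symm)
    have hM'card : Nat.card (M.map K.subtype) = H.index := by
      rw [Subgroup.card_map_of_injective (Subgroup.subtype_injective K), hMcard]
    refine ⟨M.map K.subtype, ?_, ?_⟩
    · constructor
      rintro _ ⟨m, hm, rfl⟩ g
      have hgK : g * (m : G) * g⁻¹ ∈ K := hKn.conj_mem _ m.2 g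
      have hx : (⟨g * (m : G) * g⁻¹, hgK⟩ : K) ∈ M := by
        apply mem_of_coprime_normal
        have hord : orderOf (⟨g * (m : G) * g⁻¹, hgK⟩ : K) ∣ Nat.card M := by
          apply orderOf_dvd_of_pow_eq_one
          apply Subtype.ext
          have h1 : (⟨m, hm⟩ : M) ^ Nat.card M = 1 := pow_card_eq_one'
          have h4 : m ^ Nat.card M = (1 : K) := by
            have h3 : (((⟨m, hm⟩ : M) ^ Nat.card M : M) : K) = m ^ Nat.card M := rfl
            rw [← h3, h1]; rfl
          have h2 : (m : G) ^ Nat.card M = 1 := by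
            rw [← Subgroup.coe_pow, h4, Subgroup.coe_one]
          simp only [Subgroup.coe_pow, Subgroup.coe_one]
          rw [conj_pow, h2]; group
        rw [hMidx, hcH₁]
        apply Nat.Coprime.coprime_dvd_left hord
        rw [hMcard]
        exact (Nat.Coprime.coprime_dvd_left (Subgroup.card_dvd_of_le hH₁H) hHall).symm
      exact ⟨⟨g * (m : G) * g⁻¹, hgK⟩, hx, rfl⟩
    · apply Subgroup.isComplement'_of_coprime
      · rw [hM'card, mul_comm]; exact Subgroup.card_mul_index H
      · rw [hM'card]; exact hHall.symm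

theorem result {G : Type*} [Group G] [Finite G] (H : Subgroup G) (hHall : (Nat.card H).Coprime H.index) (n : ℕ) (hfoc : (fun K : Subgroup G => Subgroup.focalSubgroup K)^[n] H = ⊥) : ∃ N : Subgroup G, N.Normal ∧ Subgroup.IsComplement' N H :=
  aux n G H hHall hfoc

end Cfsg.Agent.S0557
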