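import Mathlib
import Cfsg.Statements.S0079
import Cfsg.Agent.S0557

set_option autoImplicit false
open Pointwise
open Cfsg
open scoped commutatorElement

namespace Cfsg.Agent.S0079

open Cfsg.Agent.S0557

theorem result {G : Type*} [Group G] [Finite G] (H : Subgroup G) (hH : Group.IsNilpotent H) (hHall : Nat.Coprime (Nat.card H) H.index) : (∃ N : Subgroup G, N.Normal ∧ N.IsComplement' H) ↔ ∀ x ∈ H, ∀ y ∈ H, (∃ g : G, g * x * g⁻¹ = y) → ∃ h ∈ H, h * x * h⁻¹ = y := by
  constructor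
  · rintro ⟨N, hN, hc⟩ x hx y hy ⟨g, hg⟩
    obtain ⟨⟨⟨n, hn⟩, ⟨h, hh⟩⟩, hnh⟩ := hc.2 g
    simp only at hnh
    refine ⟨h, hh, ?_⟩
    have hx' : h * x * h⁻¹ ∈ H := H.mul_mem (H.mul_mem hh hx) (H.inv_mem hh)
    have h1 : y * (h * x * h⁻¹)⁻¹ ∈ N ⊓ H := by
      refine ⟨?_, H.mul_mem hy (H.inv_mem hx')⟩
      have : y * (h * x * h⁻¹)⁻¹ = n * ((h * x * h⁻¹) * n⁻¹ * (h * x * h⁻¹)⁻¹) := by
        rw [← hg, ← hnh]; group
      rw [this]
      exact N.mul_mem hn (hN.conj_mem _ (N.inv_mem hn) _)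
    rw [hc.disjoint.eq_bot, Subgroup.mem_bot] at h1
    exact (mul_inv_eq_one.1 h1).symm
  · intro hfus
    obtain ⟨c, hc⟩ := (Subgroup.isNilpotent_iff_lowerCentralSeries H).1 hH
    have key : ∀ i, (fun K : Subgroup G => Subgroup.focalSubgroup K)^[i] H ≤
        H.lowerCentralSeries i := by
      intro i
      induction i with
      | zero => exact le_rfl
      | succ i ih =>
        rw [Function.iterate_succ_apply']
        refine (foc_mono ih).trans ?_
        rw [Subgroup.focalSubgroup_def, Subgroup.closure_le]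
        rintro g ⟨hg, x, hx, u, rfl⟩
        have hle : H.lowerCentralSeries i ≤ H := H.lowerCentralSeries_antitone (Nat.zero_le i)
        have hxH : x ∈ H := hle hx
        have h1 : u * x⁻¹ * u⁻¹ ∈ H := by
          have : u * x⁻¹ * u⁻¹ = x⁻¹ * ⁅x, u⁆ := by
            simp only [commutatorElement_def]; group
          rw [this]
          exact H.mul_mem (H.inv_mem hxH) (hle hg)
        obtain ⟨h, hh, hconj⟩ := hfus x⁻¹ (H.inv_mem hxH) _ h1 ⟨u, rfl⟩
        have h2 : ⁅x, u⁆ = ⁅x, h⁆ := by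
          simp only [commutatorElement_def]
          calc x * u * x⁻¹ * u⁻¹ = x * (u * x⁻¹ * u⁻¹) := by group
            _ = x * (h * x⁻¹ * h⁻¹) := by rw [hconj]
            _ = x * h * x⁻¹ * h⁻¹ := by group
        rw [SetLike.mem_coe, h2, Subgroup.lowerCentralSeries_succ]
        exact Subgroup.commutator_mem_commutator hx hh
    exact Cfsg.Agent.S0557.result H hHall c (le_bot_iff.1 (hc ▸ key c))

end Cfsg.Agent.S0079
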