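import Mathlib
import Cfsg.Statements.S0080

set_option autoImplicit false
open Cfsg
open scoped commutatorElement IsMulCommutative

namespace Cfsg.Agent.S0080

/-- When the index of H is prime to the order of H/H', the focal subgroup of H is G' ∩ H, and H/(G' ∩ H) has a normal complement. -/
theorem result {G : Type*} [Group G] [Finite G] (H : Subgroup G) (h : Nat.Coprime H.index (⁅H, H⁆.relIndex H)) : Subgroup.focalSubgroup H = commutator G ⊓ H ∧ ∃ N : Subgroup G, N.Normal ∧ N ⊓ H = commutator G ⊓ H ∧ N ⊔ H = ⊤ := by
  have hQcard : (Nat.card (H ⧸ H.focalSubgroupOf)).Coprime H.index := by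
    have h1 : Nat.card (H ⧸ H.focalSubgroupOf) = H.focalSubgroupOf.index := rfl
    have h2 : H.focalSubgroupOf.index ∣ (commutator H).index :=
      Subgroup.index_dvd_of_le H.commutator_le_focalSubgroupOf
    have h3 : (commutator H).index = ⁅H, H⁆.relIndex H := by
      have h4 : ⁅H, H⁆.subgroupOf H = commutator H := by
        rw [← Subgroup.map_subtype_commutator]
        exact Subgroup.comap_map_eq_self_of_injective (Subgroup.subtype_injective H) _
      rw [Subgroup.relIndex, h4]
    rw [h1]
    rw [h3] at h2
    exact (Nat.Coprime.coprime_dvd_right h2 h).symm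
  have hker : ∀ x : H, H.transferFocal (x : G) = 1 ↔ x ∈ H.focalSubgroupOf := by
    intro x
    rw [Subgroup.transferFocal_eq_pow]
    constructor
    · intro hx
      have h1 : (powCoprime hQcard) (x : H ⧸ H.focalSubgroupOf) = (powCoprime hQcard) 1 := by
        rw [powCoprime_apply, powCoprime_apply, hx, one_pow]
      have h2 := (powCoprime hQcard).injective h1
      exact (QuotientGroup.eq_one_iff x).mp h2
    · intro hx
      have h1 : (x : H ⧸ H.focalSubgroupOf) = 1 := (QuotientGroup.eq_one_iff x).mpr hx
      rw [h1, one_pow]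
  have hcomm : commutator G ≤ H.transferFocal.ker :=
    Abelianization.commutator_subset_ker H.transferFocal
  have hkerH : H.transferFocal.ker ⊓ H = Subgroup.focalSubgroup H := by
    ext x
    constructor
    · intro hx
      obtain ⟨hx1, hx2⟩ := Subgroup.mem_inf.mp hx
      have h1 := (hker ⟨x, hx2⟩).mp (MonoidHom.mem_ker.mp hx1)
      rw [Subgroup.focalSubgroupOf_def, Subgroup.mem_subgroupOf] at h1
      exact h1
    · intro hx
      have hxH : x ∈ H := Subgroup.focalSubgroup_le H hx
      refine Subgroup.mem_inf.mpr ⟨?_, hxH⟩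
      rw [MonoidHom.mem_ker]
      apply (hker ⟨x, hxH⟩).mpr
      rw [Subgroup.focalSubgroupOf_def, Subgroup.mem_subgroupOf]
      exact hx
  have hfoc : Subgroup.focalSubgroup H = commutator G ⊓ H := by
    apply le_antisymm
    · exact le_inf H.focalSubgroup_le_commutator H.focalSubgroup_le
    · rw [← hkerH]
      exact inf_le_inf_right _ hcomm
  refine ⟨hfoc, H.transferFocal.ker, inferInstance, ?_, ?_⟩
  · rw [hkerH, hfoc]
  · rw [Subgroup.eq_top_iff']
    intro g
    obtain ⟨y, hy⟩ := (powCoprime hQcard).surjective (H.transferFocal g)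
    obtain ⟨x, rfl⟩ := QuotientGroup.mk_surjective y
    rw [powCoprime_apply] at hy
    have h1 : H.transferFocal (x : G) = H.transferFocal g := by
      rw [Subgroup.transferFocal_eq_pow]
      exact hy
    have h2 : g * (x : G)⁻¹ ∈ H.transferFocal.ker := by
      rw [MonoidHom.mem_ker, map_mul, map_inv, h1, mul_inv_cancel]
    have h3 : g = (g * (x : G)⁻¹) * (x : G) := by group
    rw [h3]
    exact Subgroup.mul_mem_sup h2 x.2

end Cfsg.Agent.S0080
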