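import Mathlib
import Cfsg.Statements.S0082
import Cfsg.Agent.S0055
import Cfsg.Agent.Lib.Helper1.Nil
import Cfsg.Agent.Lib.Helper3.Residual

set_option autoImplicit false
open Pointwise
open Cfsg
open scoped commutatorElement

namespace Cfsg.Agent.S0082

/-- In a cyclic `p`-group two subgroups with trivial intersection cannot both be nontrivial. -/
theorem cyclic_inf_bot {Q : Type*} [Group Q] [Finite Q] [IsCyclic Q] (p : ℕ) [Fact p.Prime]
    (hQ : IsPGroup p Q) (X Y : Subgroup Q) (h : X ⊓ Y = ⊥) : X = ⊥ ∨ Y = ⊥ := by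
  classical
  have hp : p.Prime := Fact.out
  by_contra hcon
  push_neg at hcon
  obtain ⟨hX, hY⟩ := hcon
  have key : ∀ Z : Subgroup Q, Z ≠ ⊥ → ∃ z ∈ Z, orderOf z = p := by
    intro Z hZ
    have hZp : IsPGroup p Z := hQ.to_subgroup Z
    have hdvd : p ∣ Nat.card Z := by
      obtain ⟨n, hn⟩ := IsPGroup.iff_card.1 hZp
      rw [hn]
      have hn0 : n ≠ 0 := by
        rintro rfl
        apply hZ
        exact Subgroup.eq_bot_of_card_eq _ (by simpa using hn)
      exact dvd_pow_self p hn0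
    obtain ⟨z, hz⟩ := exists_prime_orderOf_dvd_card' p hdvd
    exact ⟨z, z.2, by rw [Subgroup.orderOf_coe]; exact hz⟩
  obtain ⟨x, hxX, hx⟩ := key X hX
  obtain ⟨y, hyY, hy⟩ := key Y hY
  haveI : Fintype Q := Fintype.ofFinite Q
  have hle := IsCyclic.card_pow_eq_one_le (α := Q) (n := p) hp.pos
  have hS : ({a : Q | a ^ p = 1} : Set Q).ncard ≤ p := by
    rw [Set.ncard_eq_toFinset_card']
    convert hle using 2
    ext a
    simp
  have hsub : ((Subgroup.zpowers x : Subgroup Q) : Set Q) ⊆ {a : Q | a ^ p = 1} := by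
    intro a ha
    obtain ⟨i, rfl⟩ := Subgroup.mem_zpowers_iff.1 ha
    show (x ^ i) ^ p = 1
    rw [← zpow_natCast, ← zpow_mul, mul_comm, zpow_mul, zpow_natCast, ← hx, pow_orderOf_eq_one,
      one_zpow]
  have hcard : ((Subgroup.zpowers x : Subgroup Q) : Set Q).ncard = p := by
    rw [← Nat.card_coe_set_eq]
    have := Nat.card_zpowers x
    rw [hx] at this
    exact this
  have heq := Set.eq_of_subset_of_ncard_le hsub (by rw [hcard]; exact hS) (Set.toFinite _)
  have hymem : y ∈ ((Subgroup.zpowers x : Subgroup Q) : Set Q) := by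
    rw [heq]
    show y ^ p = 1
    rw [← hy, pow_orderOf_eq_one]
  have hyX : y ∈ X := (Subgroup.zpowers_le.2 hxX) hymem
  have hy1 : y ∈ X ⊓ Y := Subgroup.mem_inf.2 ⟨hyX, hyY⟩
  rw [h, Subgroup.mem_bot] at hy1
  rw [hy1, orderOf_one] at hy
  exact hp.one_lt.ne' hy.symm

theorem result {G : Type*} [Group G] [Finite G] {p : ℕ} [Fact p.Prime] (P : Sylow p G) (hP : IsCyclic P) : Cfsg.HasNormalPComplement p G ∨ Cfsg.pResidual p G = ⊤ := by
  have hp : p.Prime := Fact.out
  by_cases hNC : Subgroup.normalizer ((P : Subgroup G) : Set G) ≤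
      Subgroup.centralizer ((P : Subgroup G) : Set G)
  · left
    exact ⟨P, (MonoidHom.transferSylow P hNC).ker, inferInstance,
      MonoidHom.ker_transferSylow_isComplement' P hNC⟩
  right
  obtain ⟨n, hnN, hnC⟩ := SetLike.not_le_iff_exists.1 hNC
  haveI hPc : IsMulCommutative (P : Subgroup G) := IsCyclic.commutative
  have hPcomm : ∀ a ∈ (P : Subgroup G), ∀ b ∈ (P : Subgroup G), a * b = b * a :=
    fun a ha b hb => congrArg Subtype.val (hPc.is_comm.comm ⟨a, ha⟩ ⟨b, hb⟩)
  obtain ⟨u, w, hn, huw, hucop, ⟨k, hwk⟩, huz, hwz⟩ :=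
    Cfsg.Agent.Lib.Helper1.exists_p_decomp p n
  have hzN : Subgroup.zpowers n ≤ Subgroup.normalizer ((P : Subgroup G) : Set G) := by
    rw [Subgroup.zpowers_le]; exact hnN
  have hwP : w ∈ (P : Subgroup G) :=
    Cfsg.Agent.Lib.Helper1.mem_sylow_of_pow_mem_normalizer p P w (hzN hwz) k hwk
  have huC : u ∉ Subgroup.centralizer ((P : Subgroup G) : Set G) := by
    intro hu
    apply hnC
    rw [hn]
    apply Subgroup.mul_mem _ hu
    rw [Subgroup.mem_centralizer_iff]
    intro x hx
    exact hPcomm x hx w hwP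
  set A := Subgroup.zpowers u with hA
  have hAN : A ≤ Subgroup.normalizer ((P : Subgroup G) : Set G) := by
    rw [hA, Subgroup.zpowers_le]; exact hzN huz
  have hcop : (Nat.card A).Coprime (Nat.card (P : Subgroup G)) := by
    rw [hA, Nat.card_zpowers]
    obtain ⟨j, hj⟩ := IsPGroup.iff_card.1 P.isPGroup'
    rw [hj]
    exact Nat.Coprime.pow_right _ hucop
  obtain ⟨h1, h2⟩ := Cfsg.Agent.S0055.result A (P : Subgroup G) hAN hcop
  have h3 : ⁅(P : Subgroup G), A⁆ ≠ ⊥ := by
    intro h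
    rw [Subgroup.commutator_eq_bot_iff_le_centralizer] at h
    apply huC
    rw [Subgroup.mem_centralizer_iff]
    intro x hx
    have h4 := h hx
    rw [Subgroup.mem_centralizer_iff] at h4
    exact (h4 u (Subgroup.mem_zpowers u)).symm
  have hcomP : ⁅(P : Subgroup G), A⁆ ≤ (P : Subgroup G) :=
    Cfsg.Agent.S0026.comm_le_of_normalizes A P hAN
  have h4 : ((P : Subgroup G) ⊓ Subgroup.centralizer (A : Set G)) = ⊥ := by
    have hinf : (((P : Subgroup G) ⊓ Subgroup.centralizer (A : Set G)).subgroupOf (P : Subgroup G)) ⊓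
        ((⁅(P : Subgroup G), A⁆).subgroupOf (P : Subgroup G)) = ⊥ := by
      rw [eq_bot_iff]
      intro z hz
      obtain ⟨hz1, hz2⟩ := Subgroup.mem_inf.1 hz
      rw [Subgroup.mem_subgroupOf] at hz1 hz2
      have hz3 : (z : G) ∈ ((P : Subgroup G) ⊓ Subgroup.centralizer (A : Set G)) ⊓
          ⁅(P : Subgroup G), A⁆ := Subgroup.mem_inf.2 ⟨hz1, hz2⟩
      rw [h1, Subgroup.mem_bot] at hz3
      rw [Subgroup.mem_bot]
      exact Subtype.ext hz3
    rcases cyclic_inf_bot (Q := (P : Subgroup G)) p P.isPGroup' _ _ hinf with h | h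
    · rw [Subgroup.subgroupOf_eq_bot] at h
      exact h.eq_bot_of_le inf_le_left
    · exfalso
      rw [Subgroup.subgroupOf_eq_bot] at h
      exact h3 (h.eq_bot_of_le hcomP)
  rw [h4, bot_sup_eq] at h2
  have hPres : (P : Subgroup G) ≤ Cfsg.pResidual p G := by
    rw [← h2, Subgroup.commutator_le]
    intro x _ a ha
    have hao : Nat.Coprime (orderOf a) p := by
      have h5 : orderOf a ∣ orderOf u := by
        obtain ⟨i, rfl⟩ := Subgroup.mem_zpowers_iff.1 ha
        exact orderOf_dvd_of_pow_eq_one (by rw [← zpow_natCast, ← zpow_mul, mul_comm, zpow_mul,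
          zpow_natCast, pow_orderOf_eq_one, one_zpow])
      exact Nat.Coprime.coprime_dvd_left h5 hucop
    have e : ⁅x, a⁆ = (x * a * x⁻¹) * a⁻¹ := by rw [commutatorElement_def]
    rw [e]
    apply Subgroup.mul_mem
    · apply Subgroup.subset_closure
      show Nat.Coprime (orderOf (x * a * x⁻¹)) p
      have e2 : x * a * x⁻¹ = MulAut.conj x a := by simp [MulAut.conj_apply]
      rw [e2, MulEquiv.orderOf_eq]
      exact hao
    · apply Subgroup.subset_closure
      show Nat.Coprime (orderOf a⁻¹) p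
      rw [orderOf_inv]
      exact hao
  have h6 := Cfsg.Agent.Lib.Helper3.Residual.sup_pResidual_eq_top (P : Subgroup G) P.not_dvd_index
  rw [sup_eq_right.2 hPres] at h6
  exact h6

end Cfsg.Agent.S0082
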