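import Mathlib
import Cfsg.Agent.Lib.Helper1.Inv
import Cfsg.Statements.S0083

set_option autoImplicit false
open Cfsg
open Pointwise

namespace Cfsg.Agent.S0083

/-- For an abelian Sylow p-subgroup P, a normal p-complement exists exactly when the normalizer of P is an internal direct product of P with some subgroup. -/
theorem result {G : Type*} [Group G] [Finite G] {p : ℕ} [Fact p.Prime] (P : Sylow p G) (hP : IsMulCommutative P) : Cfsg.HasNormalPComplement p G ↔ ∃ Q : Subgroup G, Q ≤ Subgroup.centralizer (P : Set G) ∧ Q ⊓ (P : Subgroup G) = ⊥ ∧ Q ⊔ (P : Subgroup G) = Subgroup.normalizer (P : Set G) := by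
  have hp : p.Prime := Fact.out
  constructor
  · rintro ⟨P', N, hNn, hN⟩
    have hcardN : Nat.card N = (P' : Subgroup G).index := hN.index_eq_card.symm
    have hidx : (P' : Subgroup G).index = (P : Subgroup G).index := by
      have h1 := Subgroup.card_mul_index (P' : Subgroup G)
      have h2 := Subgroup.card_mul_index (P : Subgroup G)
      have h3 : Nat.card (P' : Subgroup G) = Nat.card (P : Subgroup G) := by
        rw [Sylow.card_eq_multiplicity, Sylow.card_eq_multiplicity]
      rw [h3, ← h2] at h1
      exact Nat.eq_of_mul_eq_mul_left Nat.card_pos h1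
    have hcop : Nat.Coprime (Nat.card N) (Nat.card (P : Subgroup G)) := by
      obtain ⟨k, hk⟩ := P.2.exists_card_eq
      rw [hk, hcardN]
      exact Nat.Coprime.pow_right k ((Nat.Prime.coprime_iff_not_dvd hp).mpr P'.not_dvd_index).symm
    have hmul : Nat.card N * Nat.card (P : Subgroup G) = Nat.card G := by
      rw [hcardN, hidx, mul_comm]
      exact Subgroup.card_mul_index _
    have hcomp : N.IsComplement' (P : Subgroup G) := Subgroup.isComplement'_of_coprime hmul hcop
    have hdisj : ∀ x : G, x ∈ N → x ∈ (P : Subgroup G) → x = 1 := by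
      intro x hxN hxP
      have h0 := hcomp.disjoint
      rw [Subgroup.disjoint_def] at h0
      exact h0 hxN hxP
    refine ⟨N ⊓ Subgroup.normalizer ((P : Subgroup G) : Set G), ?_, ?_, ?_⟩
    · intro q hq
      obtain ⟨hqN, hqn⟩ := Subgroup.mem_inf.mp hq
      show q ∈ Subgroup.centralizer ((P : Subgroup G) : Set G)
      rw [Subgroup.mem_centralizer_iff]
      intro h hh
      have hh' : h ∈ (P : Subgroup G) := hh
      have h1 : q * h * q⁻¹ * h⁻¹ ∈ N := by
        have h0 : q * h * q⁻¹ * h⁻¹ = q * (h * q⁻¹ * h⁻¹) := by group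
        rw [h0]
        exact N.mul_mem hqN (hNn.conj_mem _ (N.inv_mem hqN) h)
      have h2 : q * h * q⁻¹ * h⁻¹ ∈ (P : Subgroup G) :=
        Subgroup.mul_mem _ ((Subgroup.mem_normalizer_iff.mp hqn h).mp hh') (Subgroup.inv_mem _ hh')
      have h3 := hdisj _ h1 h2
      calc h * q = (q * h * q⁻¹ * h⁻¹)⁻¹ * (q * h) := by group
        _ = q * h := by rw [h3, inv_one, one_mul]
    · rw [eq_bot_iff]
      intro x hx
      obtain ⟨hx1, hx2⟩ := Subgroup.mem_inf.mp hx
      rw [Subgroup.mem_bot]
      exact hdisj x (Subgroup.mem_inf.mp hx1).1 hx2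
    · apply le_antisymm
      · exact sup_le inf_le_right Subgroup.le_normalizer
      · intro g hg
        obtain ⟨⟨⟨n, hn⟩, ⟨x, hx⟩⟩, hnx⟩ := hcomp.2 g
        have hnx' : n * x = g := hnx
        have hnN : n ∈ Subgroup.normalizer ((P : Subgroup G) : Set G) := by
          have h0 : n = g * x⁻¹ := by rw [← hnx']; group
          rw [h0]
          exact Subgroup.mul_mem _ hg (Subgroup.inv_mem _ (Subgroup.le_normalizer hx))
        rw [← hnx']
        exact Subgroup.mul_mem_sup (Subgroup.mem_inf.mpr ⟨hn, hnN⟩) hx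
  · rintro ⟨Q, hQC, hQP, hQN⟩
    have hPC : (P : Subgroup G) ≤ Subgroup.centralizer ((P : Subgroup G) : Set G) :=
      Subgroup.le_centralizer (P : Subgroup G)
    have hNC : Subgroup.normalizer ((P : Subgroup G) : Set G) ≤
        Subgroup.centralizer ((P : Subgroup G) : Set G) := by
      have h0 : Q ⊔ (P : Subgroup G) = Subgroup.normalizer ((P : Subgroup G) : Set G) := hQN
      rw [← h0]
      exact sup_le hQC hPC
    exact ⟨P, (MonoidHom.transferSylow P hNC).ker, inferInstance,
      MonoidHom.ker_transferSylow_isComplement' P hNC⟩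

end Cfsg.Agent.S0083
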