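import Mathlib
import Cfsg.Agent.Lib.Helper1.Fus
import Cfsg.Statements.S0084

set_option autoImplicit false
open Cfsg

namespace Cfsg.Agent.S0084

/-- A group whose Sylow 2-subgroups are Klein four-groups and whose order is prime to 3 has a normal 2-complement. -/
theorem result {G : Type*} [Group G] [Finite G] (T : Sylow 2 G) (hT : IsKleinFour T) (h3 : ¬ 3 ∣ Nat.card G) : Cfsg.HasNormalPComplement 2 G := by
  have : Fact (Nat.Prime 2) := ⟨Nat.prime_two⟩
  have hcomm : IsMulCommutative (T : Subgroup G) := IsKleinFour.isMulCommutative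
  have hab : (T : Subgroup G) ≤ Subgroup.centralizer ((T : Subgroup G) : Set G) :=
    Subgroup.le_centralizer (T : Subgroup G)
  have hNC : Subgroup.normalizer ((T : Subgroup G) : Set G) ≤
      Subgroup.centralizer ((T : Subgroup G) : Set G) := by
    by_contra hcon
    obtain ⟨q, hq, hq2, hqG, F, hF, hqF⟩ := Lib.Helper1.exists_prime_fixed_of_not_le T hab hcon
    have hcard : Nat.card (T : Subgroup G) = 4 := IsKleinFour.card_four
    rw [hcard] at hqF
    have hFd : Nat.card F ∣ 4 := by
      rw [← hcard]
      exact Subgroup.card_subgroup_dvd_card F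
    have hF4 : Nat.card F ≠ 4 := by
      intro h4
      apply hF
      apply Subgroup.eq_top_of_card_eq
      rw [h4, hcard]
    have hFle : Nat.card F ≤ 4 := Nat.le_of_dvd (by norm_num) hFd
    have hFpos : 0 < Nat.card F := Nat.card_pos
    have hcases : Nat.card F = 1 ∨ Nat.card F = 2 := by
      interval_cases (Nat.card F) <;> simp_all
    rcases hcases with h1 | h1
    · rw [h1] at hqF
      have : q = 3 := (Nat.prime_dvd_prime_iff_eq hq Nat.prime_three).mp hqF
      rw [this] at hqG
      exact h3 hqG
    · rw [h1] at hqF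
      have : q = 2 := (Nat.prime_dvd_prime_iff_eq hq Nat.prime_two).mp hqF
      exact hq2 this
  exact ⟨T, (MonoidHom.transferSylow T hNC).ker, inferInstance,
    MonoidHom.ker_transferSylow_isComplement' T hNC⟩

end Cfsg.Agent.S0084
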