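import Mathlib
import Cfsg.Agent.Lib.Helper1.Fus
import Cfsg.Statements.S0085

set_option autoImplicit false
open Cfsg

namespace Cfsg.Agent.S0085

/-- A group whose Sylow 2-subgroups are elementary abelian of order 8 and whose order is prime to 3 and to 7 has a normal 2-complement. -/
theorem result {G : Type*} [Group G] [Finite G] (T : Sylow 2 G) (h8 : Nat.card T = 8) (he : ∀ x : T, x * x = 1) (h3 : ¬ 3 ∣ Nat.card G) (h7 : ¬ 7 ∣ Nat.card G) : Cfsg.HasNormalPComplement 2 G := by
  have : Fact (Nat.Prime 2) := ⟨Nat.prime_two⟩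
  have hcommT : ∀ a b : T, a * b = b * a := by
    intro a b
    have h1 := he (a * b)
    have ha := he a
    have hb := he b
    calc a * b = (b * b) * (a * b) * (a * a) := by rw [ha, hb, one_mul, mul_one]
      _ = b * ((b * a) * (b * a)) * a := by simp only [mul_assoc]
      _ = b * a := by rw [he (b * a), mul_one]
  have hab : (T : Subgroup G) ≤ Subgroup.centralizer ((T : Subgroup G) : Set G) := by
    intro t ht
    rw [Subgroup.mem_centralizer_iff]
    intro h hh
    exact congrArg Subtype.val (hcommT ⟨h, hh⟩ ⟨t, ht⟩)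
  have hNC : Subgroup.normalizer ((T : Subgroup G) : Set G) ≤
      Subgroup.centralizer ((T : Subgroup G) : Set G) := by
    by_contra hcon
    obtain ⟨q, hq, hq2, hqG, F, hF, hqF⟩ := Lib.Helper1.exists_prime_fixed_of_not_le T hab hcon
    have hcard : Nat.card (T : Subgroup G) = 8 := h8
    rw [hcard] at hqF
    have hFd : Nat.card F ∣ 8 := by
      rw [← hcard]
      exact Subgroup.card_subgroup_dvd_card F
    have hF8 : Nat.card F ≠ 8 := by
      intro h4
      apply hF
      apply Subgroup.eq_top_of_card_eq
      rw [h4, hcard]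
    have hFle : Nat.card F ≤ 8 := Nat.le_of_dvd (by norm_num) hFd
    have hFpos : 0 < Nat.card F := Nat.card_pos
    have hcases : Nat.card F = 1 ∨ Nat.card F = 2 ∨ Nat.card F = 4 := by
      interval_cases (Nat.card F) <;> simp_all
    rcases hcases with h1 | h1 | h1
    · rw [h1] at hqF
      have h7' : Nat.Prime 7 := by norm_num
      have : q = 7 := (Nat.prime_dvd_prime_iff_eq hq h7').mp hqF
      rw [this] at hqG
      exact h7 hqG
    · rw [h1] at hqF
      have h6 : q ∣ 2 * 3 := hqF
      rcases (Nat.Prime.dvd_mul hq).mp h6 with h | h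
      · exact hq2 ((Nat.prime_dvd_prime_iff_eq hq Nat.prime_two).mp h)
      · have : q = 3 := (Nat.prime_dvd_prime_iff_eq hq Nat.prime_three).mp h
        rw [this] at hqG
        exact h3 hqG
    · rw [h1] at hqF
      have h4 : q ∣ 2 * 2 := hqF
      rcases (Nat.Prime.dvd_mul hq).mp h4 with h | h
      · exact hq2 ((Nat.prime_dvd_prime_iff_eq hq Nat.prime_two).mp h)
      · exact hq2 ((Nat.prime_dvd_prime_iff_eq hq Nat.prime_two).mp h)
  exact ⟨T, (MonoidHom.transferSylow T hNC).ker, inferInstance,
    MonoidHom.ker_transferSylow_isComplement' T hNC⟩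

end Cfsg.Agent.S0085
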