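import Mathlib
import Cfsg.Statements.S0087
import Cfsg.Agent.S0001
import Cfsg.Agent.S0034

set_option autoImplicit false
open Pointwise
open Cfsg

namespace Cfsg.Agent.S0087

open Cfsg.Agent.S0034 (mem_conj_smul')

theorem card_lt_top2 {G : Type*} [Group G] [Finite G] (L : Subgroup G) (hL : L ≠ ⊤) :
    Nat.card L < Nat.card G := Cfsg.Agent.S0001.card_lt_of_ne_top L hL

open scoped IsMulCommutative in
universe u in
theorem aux (n : ℕ) : ∀ (G : Type u) [Group G] [Finite G], Nat.card G = n → ∀ (H : Subgroup G),
    Nat.Coprime (Nat.card H) H.index →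
    Subgroup.normalizer (H : Set G) ≤ Subgroup.centralizer (H : Set G) →
    ∃ N : Subgroup G, N.Normal ∧ N.IsComplement' H := by
  induction n using Nat.strong_induction_on with
  | _ n ih =>
    intro G _ _ hn H hHall h
    have hcomm : ∀ a ∈ H, ∀ b ∈ H, a * b = b * a := by
      intro a ha b hb
      exact (h (Subgroup.le_normalizer ha) b hb).symm
    haveI hc : IsMulCommutative H := ⟨⟨fun a b => Subtype.ext (hcomm a a.2 b b.2)⟩⟩
    have hfus : ∀ x ∈ H, ∀ g₀ : G, g₀⁻¹ * x * g₀ ∈ H → g₀⁻¹ * x * g₀ = x := by
      intro x hx g₀ hy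
      obtain ⟨y, hydef⟩ : ∃ y, y = g₀⁻¹ * x * g₀ := ⟨_, rfl⟩
      rw [← hydef] at hy ⊢
      set C := Subgroup.centralizer ({y} : Set G) with hC
      by_cases hCtop : C = ⊤
      · have hyc : ∀ g : G, g * y = y * g := by
          intro g
          have h1 : g ∈ C := by rw [hCtop]; trivial
          rw [hC, Subgroup.mem_centralizer_iff] at h1
          exact (h1 y rfl).symm
        have e : x = g₀ * y * g₀⁻¹ := by rw [hydef]; group
        rw [e, hyc g₀]; group
      · have hClt : Nat.card C < n := by rw [← hn]; exact card_lt_top2 C hCtop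
        have hHC : H ≤ C := by
          intro a ha
          rw [hC, Subgroup.mem_centralizer_iff]
          intro z hz
          rw [Set.mem_singleton_iff] at hz
          rw [hz]
          exact hcomm _ hy a ha
        set H' : Subgroup C := H.subgroupOf C with hH'
        have hcardH' : Nat.card H' = Nat.card H := by
          rw [hH', Cfsg.Agent.S0003.card_subgroupOf_eq', inf_of_le_left hHC]
        have hidx' : H'.index ∣ H.index := Subgroup.relIndex_dvd_index_of_le hHC
        have hHall' : Nat.Coprime (Nat.card H') H'.index := by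
          rw [hcardH']; exact Nat.Coprime.coprime_dvd_right hidx' hHall
        have hnc' : Subgroup.normalizer (H' : Set C) ≤ Subgroup.centralizer (H' : Set C) := by
          intro c hc'
          have h1 : c ∈ (Subgroup.normalizer (H : Set G)).subgroupOf C := by
            rw [Subgroup.subgroupOf_normalizer_eq hHC]; exact hc'
          have h2 : (c : G) ∈ Subgroup.centralizer (H : Set G) := h (Subgroup.mem_subgroupOf.1 h1)
          rw [Subgroup.mem_centralizer_iff]
          intro z hz
          have hz' : (z : G) ∈ H := Subgroup.mem_subgroupOf.1 hz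
          apply Subtype.ext
          exact h2 z hz'
        obtain ⟨K', hK'n, hK'c⟩ := ih _ hClt C rfl H' hHall' hnc'
        haveI := hK'n
        set L : Subgroup G := MulAut.conj g₀⁻¹ • H with hL
        have hLC : L ≤ C := by
          intro a ha
          rw [hL, mem_conj_smul'] at ha
          rw [hC, Subgroup.mem_centralizer_iff]
          intro z hz
          rw [Set.mem_singleton_iff] at hz
          rw [hz]
          have h3 := hcomm _ hx _ ha
          calc y * a = g₀⁻¹ * (x * (g₀⁻¹⁻¹ * a * g₀⁻¹)) * g₀ := by rw [hydef]; group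
            _ = g₀⁻¹ * ((g₀⁻¹⁻¹ * a * g₀⁻¹) * x) * g₀ := by rw [h3]
            _ = a * y := by rw [hydef]; group
        set L' : Subgroup C := L.subgroupOf C with hL'
        have hcardL' : Nat.card L' = Nat.card H := by
          rw [hL', Cfsg.Agent.S0003.card_subgroupOf_eq', inf_of_le_left hLC, hL,
            Cfsg.Agent.S0004.card_conj_smul]
        have hK'card : Nat.card K' * Nat.card H' = Nat.card C := hK'c.card_mul_card
        have hK'idx : K'.index = Nat.card H' := hK'c.symm.index_eq_card
        have hcopK : (Nat.card K').Coprime K'.index := by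
          have h4 : H'.index = Nat.card K' := hK'c.index_eq_card
          rw [hK'idx, ← h4]; exact hHall'.symm
        have hL'c : Subgroup.IsComplement' K' L' := by
          apply Subgroup.isComplement'_of_coprime
          · rw [hcardL', ← hcardH']; exact hK'card
          · rw [hcardL', ← hcardH', ← hK'idx]; exact hcopK
        have hH's : Group.IsSolvable H' :=
          Group.isSolvable_of_comm (fun a b => Subtype.ext (Subtype.ext
            (hcomm _ (Subgroup.mem_subgroupOf.1 a.2) _ (Subgroup.mem_subgroupOf.1 b.2))))
        obtain ⟨c, hc⟩ := Cfsg.Agent.S0001.conj_solv_compl _ C K' rfl hcopK L' H' hL'c hK'c hH's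
        have hc2 : MulAut.conj (c : G) • L = H :=
          Cfsg.Agent.S0001.conj_of_subgroupOf C L H hLC hHC c hc
        have hn' : (c : G) * g₀⁻¹ ∈ Subgroup.normalizer (H : Set G) := by
          rw [Subgroup.mem_normalizer_iff_map_conj_eq]
          show MulAut.conj ((c : G) * g₀⁻¹) • H = H
          rw [map_mul, mul_smul]; exact hc2
        have hncen := h hn'
        have h5 := hncen x hx
        have hcy : y * (c : G) = (c : G) * y := by
          have h6 : (c : G) ∈ Subgroup.centralizer ({y} : Set G) := c.2
          rw [Subgroup.mem_centralizer_iff] at h6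
          exact h6 y rfl
        calc y = (c : G) * y * (c : G)⁻¹ := by rw [← hcy]; group
          _ = ((c : G) * g₀⁻¹) * x * ((c : G) * g₀⁻¹)⁻¹ := by rw [hydef]; group
          _ = x := by rw [← h5]; group
    classical
    set T : G →* H := MonoidHom.transfer (MonoidHom.id H) with hT
    have hTpow : ∀ (x : G) (_ : x ∈ H), ((T x : H) : G) = x ^ H.index := by
      intro x hx
      have key : ∀ (k : ℕ) (g₀ : G), g₀⁻¹ * x ^ k * g₀ ∈ H → g₀⁻¹ * x ^ k * g₀ = x ^ k :=
        fun k g₀ hk => hfus (x ^ k) (H.pow_mem hx k) g₀ hk
      have h1 := MonoidHom.transfer_eq_pow (MonoidHom.id H) x key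
      rw [hT, h1]; rfl
    have hdisj : T.ker ⊓ H = ⊥ := by
      rw [eq_bot_iff]
      intro x hx
      obtain ⟨hx1, hx2⟩ := Subgroup.mem_inf.1 hx
      rw [MonoidHom.mem_ker] at hx1
      have h1 : x ^ H.index = 1 := by rw [← hTpow x hx2, hx1]; rfl
      have h2 : x ^ Nat.card H = 1 := by
        have h3 := pow_card_eq_one' (G := H) (x := ⟨x, hx2⟩)
        exact congrArg Subtype.val h3
      rw [Subgroup.mem_bot]
      have h3 : orderOf x ∣ Nat.gcd (Nat.card H) H.index :=
        Nat.dvd_gcd (orderOf_dvd_of_pow_eq_one h2) (orderOf_dvd_of_pow_eq_one h1)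
      rw [hHall.gcd_eq_one] at h3
      exact orderOf_eq_one_iff.1 (Nat.dvd_one.1 h3)
    have hsurj : Function.Surjective T := by
      intro y
      refine ⟨(((powCoprime hHall).symm y : H) : G), ?_⟩
      apply Subtype.ext
      rw [hTpow _ ((powCoprime hHall).symm y).2]
      have h1 : ((powCoprime hHall).symm y) ^ H.index = y := (powCoprime hHall).apply_symm_apply y
      rw [← Subgroup.coe_pow, h1]
    refine ⟨T.ker, inferInstance, ?_⟩
    apply Subgroup.isComplement'_of_card_mul_and_disjoint
    · have h1 := Subgroup.card_mul_index T.ker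
      rw [Subgroup.index_ker, MonoidHom.range_eq_top.2 hsurj, Subgroup.card_top] at h1
      exact h1
    · exact disjoint_iff.2 hdisj

theorem result {G : Type*} [Group G] [Finite G] (H : Subgroup G) (hHall : Nat.Coprime (Nat.card H) H.index) (h : Subgroup.normalizer (H : Set G) ≤ Subgroup.centralizer (H : Set G)) : ∃ N : Subgroup G, N.Normal ∧ N.IsComplement' H :=
  aux _ G rfl H hHall h

end Cfsg.Agent.S0087
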