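import Mathlib
import Cfsg.Agent.S0088
import Cfsg.Statements.S0089

set_option autoImplicit false
open Cfsg

namespace Cfsg.Agent.S0089

/-- When all Sylow subgroups are abelian, the derived subgroup meets the centre trivially. -/
theorem result {G : Type*} [Group G] [Finite G] (h : ∀ p : ℕ, p.Prime → ∀ P : Sylow p G, IsMulCommutative P) : commutator G ⊓ Subgroup.center G = ⊥ := by
  rw [eq_bot_iff]
  intro z hz
  rw [Subgroup.mem_bot]
  by_contra hz1
  obtain ⟨hzC, hzZ⟩ := Subgroup.mem_inf.mp hz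
  have ho : orderOf z ≠ 1 := fun h0 => hz1 (orderOf_eq_one_iff.mp h0)
  obtain ⟨p, hp, hpd⟩ := Nat.exists_prime_and_dvd ho
  obtain ⟨m, hm⟩ := hpd
  have hm0 : m ≠ 0 := by
    intro h0
    have := orderOf_pos z
    rw [hm, h0, mul_zero] at this
    exact lt_irrefl 0 this
  have hw : orderOf (z ^ m) = p := by
    rw [orderOf_pow_of_dvd hm0 ⟨p, by rw [hm, mul_comm]⟩, hm, Nat.mul_div_cancel _ (Nat.pos_of_ne_zero hm0)]
  have : Fact p.Prime := ⟨hp⟩
  have hpg : IsPGroup p (Subgroup.zpowers (z ^ m)) :=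
    IsPGroup.of_card (n := 1) (by rw [Nat.card_zpowers, hw, pow_one])
  obtain ⟨P, hP⟩ := hpg.exists_le_sylow
  have hwP : z ^ m ∈ (P : Subgroup G) := hP (Subgroup.mem_zpowers _)
  have hcop : Nat.Coprime (Nat.card (P : Subgroup G)) (P : Subgroup G).index := by
    obtain ⟨k, hk⟩ := P.2.exists_card_eq
    rw [hk]
    exact Nat.Coprime.pow_left k ((Nat.Prime.coprime_iff_not_dvd hp).mpr P.not_dvd_index)
  have h88 := Cfsg.Agent.S0088.result (P : Subgroup G) (h p hp P) hcop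
  have hmem : z ^ m ∈ (P : Subgroup G) ⊓ commutator G ⊓ Subgroup.center G :=
    Subgroup.mem_inf.mpr ⟨Subgroup.mem_inf.mpr ⟨hwP, Subgroup.pow_mem _ hzC m⟩,
      Subgroup.pow_mem _ hzZ m⟩
  rw [h88, Subgroup.mem_bot] at hmem
  rw [hmem, orderOf_one] at hw
  exact hp.one_lt.ne hw

end Cfsg.Agent.S0089
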