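import Mathlib
import Cfsg.Statements.S0090
import Cfsg.Agent.S0055

set_option autoImplicit false
open Pointwise
open Cfsg
open scoped commutatorElement

namespace Cfsg.Agent.S0090

theorem comm_central_left {G : Type*} [Group G] (z l g : G) (hz : ∀ x : G, x * z = z * x) :
    ⁅z * l, g⁆ = ⁅l, g⁆ := by
  rw [commutatorElement_def, commutatorElement_def]
  calc z * l * g * (z * l)⁻¹ * g⁻¹ = z * (l * g * l⁻¹) * z⁻¹ * g⁻¹ := by group
    _ = (l * g * l⁻¹) * z * z⁻¹ * g⁻¹ := by rw [← hz (l * g * l⁻¹)]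
    _ = l * g * l⁻¹ * g⁻¹ := by group

theorem comm_central_right {G : Type*} [Group G] (z l g : G) (hz : ∀ x : G, x * z = z * x) :
    ⁅g, z * l⁆ = ⁅g, l⁆ := by
  rw [commutatorElement_def, commutatorElement_def]
  calc g * (z * l) * g⁻¹ * (z * l)⁻¹ = (g * z) * (l * g⁻¹ * l⁻¹) * z⁻¹ := by group
    _ = z * g * (l * g⁻¹ * l⁻¹) * z⁻¹ := by rw [hz g]
    _ = z * (g * l * g⁻¹ * l⁻¹) * z⁻¹ := by group
    _ = (g * l * g⁻¹ * l⁻¹) * z * z⁻¹ := by rw [← hz (g * l * g⁻¹ * l⁻¹)]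
    _ = g * l * g⁻¹ * l⁻¹ := by group

theorem result {G : Type*} [Group G] [Finite G] (A : Subgroup G) [A.Normal] (hc : IsMulCommutative A) (hHall : Nat.Coprime (Nat.card A) A.index) : ⁅A, (⊤ : Subgroup G)⁆ = commutator G ⊓ A ∧ (commutator G ⊓ A) ⊓ (Subgroup.center G ⊓ A) = ⊥ ∧ (commutator G ⊓ A) ⊔ (Subgroup.center G ⊓ A) = A := by
  obtain ⟨H, hH⟩ := Subgroup.exists_right_complement'_of_coprime hHall
  have hAcomm : ∀ a ∈ A, ∀ b ∈ A, a * b = b * a :=
    fun a ha b hb => congrArg Subtype.val (hc.is_comm.comm ⟨a, ha⟩ ⟨b, hb⟩)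
  have hHN : H ≤ Subgroup.normalizer (A : Set G) := by
    rw [Subgroup.normalizer_eq_top_iff.2 inferInstance]; exact le_top
  have hcardH : Nat.card H = A.index := hH.symm.index_eq_card.symm
  have hcop : (Nat.card H).Coprime (Nat.card A) := by rw [hcardH]; exact hHall.symm
  obtain ⟨h1, h2⟩ := Cfsg.Agent.S0055.result H A hHN hcop
  have hdec : ∀ g : G, ∃ a ∈ A, ∃ h ∈ H, g = a * h := by
    intro g
    obtain ⟨⟨a, h⟩, hah⟩ := hH.2 g
    exact ⟨a, a.2, h, h.2, hah.symm⟩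
  have hMA : ⁅A, H⁆ ≤ A := Cfsg.Agent.S0026.comm_le_of_normalizes H A hHN
  -- (i) [A, ⊤] = [A, H]
  have hi : ⁅A, (⊤ : Subgroup G)⁆ = ⁅A, H⁆ := by
    apply le_antisymm
    · rw [Subgroup.commutator_le]
      intro a ha g _
      obtain ⟨a', ha', h, hh, rfl⟩ := hdec g
      have hm : ⁅a, h⁆ ∈ ⁅A, H⁆ := Subgroup.commutator_mem_commutator ha hh
      have h3 := hAcomm a' ha' _ (hMA hm)
      have h4 := hAcomm a ha a' ha'
      have e : ⁅a, a' * h⁆ = ⁅a, h⁆ := by
        rw [commutatorElement_def, commutatorElement_def] at *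
        calc a * (a' * h) * a⁻¹ * (a' * h)⁻¹ = (a * a') * h * a⁻¹ * h⁻¹ * a'⁻¹ := by group
          _ = a' * (a * h * a⁻¹ * h⁻¹) * a'⁻¹ := by rw [h4]; group
          _ = (a * h * a⁻¹ * h⁻¹) * a' * a'⁻¹ := by rw [h3]
          _ = a * h * a⁻¹ * h⁻¹ := by group
      rw [e]; exact hm
    · exact Subgroup.commutator_mono le_rfl le_top
  haveI hMn : (⁅A, H⁆ : Subgroup G).Normal := by
    rw [← hi]; infer_instance
  -- (ii) A ⊓ C(H) = center ⊓ A
  have hii : A ⊓ Subgroup.centralizer (H : Set G) = Subgroup.center G ⊓ A := by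
    apply le_antisymm
    · intro x hx
      obtain ⟨hxA, hxC⟩ := Subgroup.mem_inf.1 hx
      refine Subgroup.mem_inf.2 ⟨?_, hxA⟩
      rw [Subgroup.mem_center_iff]
      intro g
      obtain ⟨a', ha', h, hh, rfl⟩ := hdec g
      have h3 := hAcomm a' ha' x hxA
      have h4 : h * x = x * h := (Subgroup.mem_centralizer_iff.1 hxC) h hh
      calc a' * h * x = a' * (h * x) := by group
        _ = a' * (x * h) := by rw [h4]
        _ = (a' * x) * h := by group
        _ = (x * a') * h := by rw [h3]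
        _ = x * (a' * h) := by group
    · intro x hx
      obtain ⟨hxZ, hxA⟩ := Subgroup.mem_inf.1 hx
      refine Subgroup.mem_inf.2 ⟨hxA, ?_⟩
      rw [Subgroup.mem_centralizer_iff]
      intro h _
      exact (Subgroup.mem_center_iff.1 hxZ) h
  -- (iii) commutator G ⊓ A = [A, H]
  have hiii : commutator G ⊓ A = ⁅A, H⁆ := by
    apply le_antisymm
    · have hGL : commutator G ≤ H ⊔ ⁅A, H⁆ := by
        rw [commutator_def, Subgroup.commutator_le]
        intro g₁ _ g₂ _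
        have key : ∀ g : G, ∃ z : G, (∀ x : G, x * z = z * x) ∧ ∃ l ∈ H ⊔ ⁅A, H⁆, g = z * l := by
          intro g
          obtain ⟨a, ha, h, hh, rfl⟩ := hdec g
          obtain ⟨m, hm, c, hc', rfl⟩ := Cfsg.Agent.S0026.exists_decomp H A hHN hcop
            (Or.inr (Group.isSolvable_of_comm (fun x y => mul_comm' x y))) a ha
          have hcZ : c ∈ Subgroup.center G ⊓ A := by rw [← hii]; exact hc'
          have hcz : ∀ x : G, x * c = c * x := Subgroup.mem_center_iff.1 (Subgroup.mem_inf.1 hcZ).1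
          refine ⟨c, hcz, m * h, ?_, ?_⟩
          · exact Subgroup.mul_mem _ (Subgroup.mem_sup_right hm) (Subgroup.mem_sup_left hh)
          · rw [hcz m]; group
        obtain ⟨z₁, hz₁, l₁, hl₁, rfl⟩ := key g₁
        obtain ⟨z₂, hz₂, l₂, hl₂, rfl⟩ := key g₂
        rw [comm_central_left z₁ l₁ _ hz₁, comm_central_right z₂ l₂ _ hz₂]
        rw [commutatorElement_def]
        exact Subgroup.mul_mem _ (Subgroup.mul_mem _ (Subgroup.mul_mem _ hl₁ hl₂)
          (Subgroup.inv_mem _ hl₁)) (Subgroup.inv_mem _ hl₂)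
      intro x hx
      obtain ⟨hxG, hxA⟩ := Subgroup.mem_inf.1 hx
      have hxL : x ∈ ((H ⊔ ⁅A, H⁆ : Subgroup G) : Set G) := hGL hxG
      rw [Subgroup.mul_normal] at hxL
      obtain ⟨h, hh, m, hm, hxeq⟩ := hxL
      have hxeq' : h * m = x := hxeq
      subst hxeq'
      have hhA : h ∈ A := by
        have e : h = (h * m) * m⁻¹ := by group
        rw [e]
        exact A.mul_mem hxA (A.inv_mem (hMA hm))
      have hh1 : h ∈ A ⊓ H := Subgroup.mem_inf.2 ⟨hhA, hh⟩
      rw [hH.disjoint.eq_bot, Subgroup.mem_bot] at hh1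
      rw [hh1, one_mul]
      exact hm
    · apply le_inf _ hMA
      rw [commutator_def]
      exact Subgroup.commutator_mono le_top le_top
  refine ⟨by rw [hi, hiii], ?_, ?_⟩
  · rw [hiii, ← hii, inf_comm]; exact h1
  · rw [hiii, ← hii, sup_comm]; exact h2

end Cfsg.Agent.S0090
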