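import Mathlib
import Cfsg.Statements.S0091

set_option autoImplicit false
open Cfsg
open scoped commutatorElement

namespace Cfsg.Agent.S0091

/-- If a nontrivial Sylow p-subgroup controls its own fusion then it is not contained in the derived subgroup. -/
theorem result {G : Type*} [Group G] [Finite G] {p : ℕ} [Fact p.Prime] (P : Sylow p G) (hp : p ∣ Nat.card G) (h : ∀ x ∈ P, ∀ y ∈ P, (∃ g : G, g * x * g⁻¹ = y) → ∃ z ∈ P, z * x * z⁻¹ = y) : ¬ (P : Subgroup G) ≤ commutator G := by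
  intro hle
  have hfoc := Subgroup.commutator_inf_eq_focalSubgroup P
  have h1 : (P : Subgroup G).focalSubgroup ≤ ⁅(P : Subgroup G), (P : Subgroup G)⁆ := by
    rw [Subgroup.focalSubgroup_def, Subgroup.closure_le]
    rintro g ⟨hgP, x, hxP, u, rfl⟩
    have h2 : u * x⁻¹ * u⁻¹ ∈ (P : Subgroup G) := by
      have h0 : u * x⁻¹ * u⁻¹ = x⁻¹ * ⁅x, u⁆ := by rw [commutatorElement_def]; group
      rw [h0]
      exact Subgroup.mul_mem _ (Subgroup.inv_mem _ hxP) hgP
    obtain ⟨z, hz, hzx⟩ := h x⁻¹ (Subgroup.inv_mem _ hxP) _ h2 ⟨u, rfl⟩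
    have h3 : ⁅x, u⁆ = ⁅x, z⁆ := by
      rw [commutatorElement_def, commutatorElement_def]
      calc x * u * x⁻¹ * u⁻¹ = x * (u * x⁻¹ * u⁻¹) := by group
        _ = x * (z * x⁻¹ * z⁻¹) := by rw [hzx]
        _ = x * z * x⁻¹ * z⁻¹ := by group
    show ⁅x, u⁆ ∈ _
    rw [h3]
    exact Subgroup.commutator_mem_commutator hxP hz
  have hne : (P : Subgroup G) ≠ ⊥ := P.ne_bot_of_dvd_card hp
  have hnil : Group.IsNilpotent (P : Subgroup G) := P.2.isNilpotent
  have hnt : Nontrivial (P : Subgroup G) := (Subgroup.nontrivial_iff_ne_bot _).mpr hne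
  have hlt : commutator (P : Subgroup G) < ⊤ :=
    Group.IsSolvable.commutator_lt_top_of_nontrivial (P : Subgroup G)
  apply hlt.ne
  rw [Subgroup.eq_top_iff']
  intro x
  have hx1 : (x : G) ∈ commutator G ⊓ (P : Subgroup G) := Subgroup.mem_inf.mpr ⟨hle x.2, x.2⟩
  rw [hfoc] at hx1
  have hx2 := h1 hx1
  rw [← Subgroup.map_subtype_commutator] at hx2
  obtain ⟨y, hy, hyx⟩ := hx2
  have : y = x := Subtype.ext hyx
  rw [← this]
  exact hy

end Cfsg.Agent.S0091
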