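import Mathlib
import Cfsg.Statements.S0094
import Cfsg.Agent.S0012

set_option autoImplicit false
open Pointwise
open Cfsg
open scoped commutatorElement

namespace Cfsg.Agent.S0094

theorem result {P : Type*} [Group P] [Finite P] {p : ℕ} [Fact p.Prime] (h : Cfsg.IsSpecial p P) (z : P) (hz : z ∈ Subgroup.center P) : z ^ p = 1 := by
  obtain ⟨hP, hΦ, hD⟩ := h
  have hpow : ∀ x : P, x ^ p ∈ Subgroup.center P :=
    fun x => hΦ ▸ (Cfsg.Agent.S0012.result p hP).2 x
  have hcz : ∀ x y : P, ⁅x, y⁆ ∈ Subgroup.center P := by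
    intro x y
    rw [← hD, commutator_eq_closure]
    exact Subgroup.subset_closure ⟨x, y, rfl⟩
  have hck : ∀ (x y : P) (k : ℕ), ⁅x ^ k, y⁆ = ⁅x, y⁆ ^ k := by
    intro x y k
    induction k with
    | zero => simp
    | succ k ih =>
      have e : ⁅x ^ (k + 1), y⁆ = (x * ⁅x ^ k, y⁆ * x⁻¹) * ⁅x, y⁆ := by
        rw [pow_succ', commutatorElement_def, commutatorElement_def, commutatorElement_def]
        group
      have hc : x * ⁅x ^ k, y⁆ * x⁻¹ = ⁅x ^ k, y⁆ := by
        have h1 := Subgroup.mem_center_iff.1 (hcz (x ^ k) y) x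
        rw [h1, mul_inv_cancel_right]
      rw [e, hc, ih, pow_succ]
  let T : Subgroup P :=
    { carrier := {w | w ∈ Subgroup.center P ∧ w ^ p = 1}
      mul_mem' := by
        rintro a b ⟨ha, ha'⟩ ⟨hb, hb'⟩
        refine ⟨Subgroup.mul_mem _ ha hb, ?_⟩
        have hc : Commute a b := Subgroup.mem_center_iff.1 hb a
        rw [hc.mul_pow, ha', hb', one_mul]
      one_mem' := ⟨Subgroup.one_mem _, one_pow _⟩
      inv_mem' := by
        rintro a ⟨ha, ha'⟩
        exact ⟨Subgroup.inv_mem _ ha, by rw [inv_pow, ha', inv_one]⟩ }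
  have hDT : commutator P ≤ T := by
    rw [commutator_eq_closure, Subgroup.closure_le]
    rintro g ⟨x, y, rfl⟩
    refine ⟨hcz x y, ?_⟩
    rw [← hck, commutatorElement_eq_one_iff_commute]
    exact (Subgroup.mem_center_iff.1 (hpow x) y).symm
  have hzT : z ∈ T := hDT (hD ▸ hz)
  exact hzT.2

end Cfsg.Agent.S0094
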