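import Mathlib
import Cfsg.Statements.S0097
import Cfsg.Agent.S0012
import Cfsg.Agent.S0096

set_option autoImplicit false
open Pointwise
open Cfsg
open scoped commutatorElement

namespace Cfsg.Agent.S0097

theorem result {E : Type*} [Group E] [Finite E] {p : ℕ} [Fact p.Prime] (hp : p ≠ 2) (h : Cfsg.IsExtraspecial p E) : (Subgroup.closure {x : E | x ^ p = 1}).index ≤ p ∧ ∀ g ∈ Subgroup.closure {x : E | x ^ p = 1}, g ^ p = 1 := by
  obtain ⟨⟨hP, hΦ, hD⟩, hZ⟩ := h
  have hpp : p.Prime := Fact.out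
  have hcz : ∀ x y : E, ⁅x, y⁆ ∈ Subgroup.center E := by
    intro x y
    rw [← hD, commutator_eq_closure]
    exact Subgroup.subset_closure ⟨x, y, rfl⟩
  have hzp : ∀ z ∈ Subgroup.center E, z ^ p = 1 := by
    intro z hz
    have h1 : (⟨z, hz⟩ : ↥(Subgroup.center E)) ^ Nat.card ↥(Subgroup.center E) = 1 :=
      pow_card_eq_one'
    rw [hZ] at h1
    exact congrArg Subtype.val h1
  have hchoose : p ∣ p.choose 2 := by
    apply Nat.Prime.dvd_choose_self hpp (by norm_num)
    have := hpp.two_le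
    omega
  have hmul : ∀ x y : E, (x * y) ^ p = x ^ p * y ^ p := by
    intro x y
    have hc : ∀ g : E, g * ⁅y, x⁆ = ⁅y, x⁆ * g :=
      fun g => Subgroup.mem_center_iff.1 (hcz y x) g
    have hyx : y * x = ⁅y, x⁆ * x * y := by rw [commutatorElement_def]; group
    obtain ⟨m, hm⟩ := hchoose
    rw [Cfsg.Agent.S0096.mul_pow_aux x y ⁅y, x⁆ hc hyx p, hm, pow_mul, hzp _ (hcz y x), one_pow,
      one_mul]
  let φ : E →* E := { toFun := fun x => x ^ p, map_one' := one_pow p, map_mul' := hmul }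
  have hker : φ.ker ≤ Subgroup.closure {x : E | x ^ p = 1} := by
    intro x hx
    exact Subgroup.subset_closure (MonoidHom.mem_ker.1 hx)
  have hrange : φ.range ≤ Subgroup.center E := by
    rintro _ ⟨x, rfl⟩
    show x ^ p ∈ Subgroup.center E
    rw [← hΦ]; exact (Cfsg.Agent.S0012.result p hP).2 x
  constructor
  · have h1 : (Subgroup.closure {x : E | x ^ p = 1}).index ∣ φ.ker.index :=
      Subgroup.index_dvd_of_le hker
    have h2 : φ.ker.index = Nat.card φ.range := Subgroup.index_ker φ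
    have h3 : Nat.card φ.range ≤ p := by rw [← hZ]; exact Subgroup.card_le_of_le hrange
    have h4 : φ.ker.index ≠ 0 := Subgroup.index_ne_zero_of_finite
    exact (Nat.le_of_dvd (Nat.pos_of_ne_zero h4) h1).trans (h2 ▸ h3)
  · intro g hg
    apply Cfsg.Agent.S0096.result hp hP ?_ g hg
    rw [Subgroup.commutator_eq_bot_iff_le_centralizer, hD]
    intro z hz
    rw [Subgroup.mem_centralizer_iff]
    intro g _
    exact Subgroup.mem_center_iff.1 hz g

end Cfsg.Agent.S0097
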