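import Cfsg.Statements.S0098
import Mathlib

set_option autoImplicit false
open Cfsg

namespace Cfsg.Agent.S0098

/-- a group with a central homomorphic image of `ZMod p` -/
structure CG (p : ℕ) where
  carrier : Type
  [grp : Group carrier]
  κ : Multiplicative (ZMod p) →* carrier
  central : ∀ s h, κ s * h = h * κ s

attribute [instance] CG.grp

variable {p : ℕ}

def ck (c : CG p) (s : ZMod p) : c.carrier := c.κ (Multiplicative.ofAdd s)

theorem ck_add (c : CG p) (s t : ZMod p) : ck c (s + t) = ck c s * ck c t := by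
  unfold ck; rw [ofAdd_add, map_mul]

theorem ck_zero (c : CG p) : ck c 0 = 1 := by
  unfold ck; rw [ofAdd_zero, map_one]

theorem ck_comm (c : CG p) (s : ZMod p) (h : c.carrier) : ck c s * h = h * ck c s :=
  c.central _ h

@[ext] structure Ext (c : CG p) where
  h : c.carrier
  a : ZMod p
  b : ZMod p

namespace Ext
variable {c : CG p}

instance : Mul (Ext c) := ⟨fun x y => ⟨x.h * y.h * ck c (x.a * y.b), x.a + y.a, x.b + y.b⟩⟩
instance : One (Ext c) := ⟨⟨1, 0, 0⟩⟩
instance : Inv (Ext c) := ⟨fun x => ⟨x.h⁻¹ * ck c (x.a * x.b), -x.a, -x.b⟩⟩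

@[simp] theorem mul_h (x y : Ext c) : (x * y).h = x.h * y.h * ck c (x.a * y.b) := rfl
@[simp] theorem mul_a (x y : Ext c) : (x * y).a = x.a + y.a := rfl
@[simp] theorem mul_b (x y : Ext c) : (x * y).b = x.b + y.b := rfl
@[simp] theorem one_h : (1 : Ext c).h = 1 := rfl
@[simp] theorem one_a : (1 : Ext c).a = 0 := rfl
@[simp] theorem one_b : (1 : Ext c).b = 0 := rfl
@[simp] theorem inv_h (x : Ext c) : (x⁻¹).h = x.h⁻¹ * ck c (x.a * x.b) := rfl
@[simp] theorem inv_a (x : Ext c) : (x⁻¹).a = -x.a := rfl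
@[simp] theorem inv_b (x : Ext c) : (x⁻¹).b = -x.b := rfl

instance : Group (Ext c) where
  mul_assoc x y z := by
    ext1
    · simp only [mul_h, mul_a, mul_b]
      have e1 : x.h * y.h * ck c (x.a * y.b) * z.h * ck c ((x.a + y.a) * z.b)
          = x.h * y.h * z.h * ck c (x.a * y.b + (x.a + y.a) * z.b) := by
        rw [ck_add, mul_assoc (x.h * y.h) (ck c _) z.h, ck_comm]
        simp only [mul_assoc]
      have e2 : x.h * (y.h * z.h * ck c (y.a * z.b)) * ck c (x.a * (y.b + z.b))
          = x.h * y.h * z.h * ck c (y.a * z.b + x.a * (y.b + z.b)) := by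
        rw [ck_add]
        simp only [mul_assoc]
      rw [e1, e2]
      congr 1
      ring_nf
    · simp [add_assoc]
    · simp [add_assoc]
  one_mul x := by
    ext1
    · simp [ck_zero]
    · simp
    · simp
  mul_one x := by
    ext1
    · simp [ck_zero]
    · simp
    · simp
  inv_mul_cancel x := by
    ext1
    · simp only [mul_h, inv_h, inv_a, one_h]
      rw [mul_assoc x.h⁻¹, ck_comm, ← mul_assoc, inv_mul_cancel, one_mul, ← ck_add]
      have : x.a * x.b + -x.a * x.b = 0 := by ring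
      rw [this, ck_zero]
    · simp
    · simp

end Ext

/-- the extended pointed group -/
def extCG (c : CG p) : CG p where
  carrier := Ext c
  κ :=
    { toFun := fun s => ⟨c.κ s, 0, 0⟩
      map_one' := by
        ext1
        · simp
        · rfl
        · rfl
      map_mul' := fun s t => by
        ext1
        · simp [ck_zero]
        · simp
        · simp }
  central := fun s x => by
    ext1
    · simp [ck_zero, c.central]
    · simp
    · simp

theorem ck_ext (c : CG p) (t : ZMod p) : ck (extCG c) t = ⟨ck c t, 0, 0⟩ := rfl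

/-- the standard extraspecial groups -/
def K (p : ℕ) : ℕ → CG p
  | 0 => ⟨Multiplicative (ZMod p), MonoidHom.id _, fun s h => mul_comm s h⟩
  | (m + 1) => extCG (K p m)

theorem card_K [Fact p.Prime] (m : ℕ) : Nat.card (K p m).carrier = p ^ (1 + 2 * m) := by
  induction m with
  | zero =>
    show Nat.card (Multiplicative (ZMod p)) = _
    rw [Nat.card_congr Multiplicative.toAdd, Nat.card_zmod]; ring
  | succ m ih =>
    have e : (K p (m + 1)).carrier ≃ (K p m).carrier × ZMod p × ZMod p :=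
      { toFun := fun (x : Ext (K p m)) => (x.h, x.a, x.b)
        invFun := fun y => (⟨y.1, y.2.1, y.2.2⟩ : Ext (K p m))
        left_inv := fun x => rfl
        right_inv := fun y => rfl }
    rw [Nat.card_congr e, Nat.card_prod, Nat.card_prod, Nat.card_zmod, ih]
    ring

section Eside

variable {E : Type*} [Group E]

/-- `x ^ t` for `t : ZMod p` -/
def pw (x : E) (t : ZMod p) : E := x ^ t.val

variable [Fact p.Prime]

theorem pw_nat {x : E} (hx : x ^ p = 1) (n : ℕ) : pw x (n : ZMod p) = x ^ n := by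
  unfold pw
  rw [ZMod.val_natCast, ← pow_eq_pow_mod n hx]

theorem pw_add {x : E} (hx : x ^ p = 1) (s t : ZMod p) : pw x (s + t) = pw x s * pw x t := by
  have h1 : s + t = ((s.val + t.val : ℕ) : ZMod p) := by
    rw [Nat.cast_add, ZMod.natCast_zmod_val, ZMod.natCast_zmod_val]
  rw [h1, pw_nat hx, pow_add]
  rfl

theorem pw_zero (x : E) : pw x (0 : ZMod p) = 1 := by
  unfold pw; rw [ZMod.val_zero, pow_zero]

theorem pw_one (x : E) : pw x (1 : ZMod p) = x := by
  unfold pw; rw [ZMod.val_one, pow_one]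

theorem pw_comm {x g : E} (h : Commute x g) (t : ZMod p) : Commute (pw x t) g := h.pow_left _

/-- the hypotheses: `z` generates the centre, commutators are powers of `z`, exponent `p` -/
structure ESP (p : ℕ) (E : Type*) [Group E] (z : E) : Prop where
  ord : orderOf z = p
  zc : ∀ g : E, z * g = g * z
  cen : ∀ c : E, (∀ g : E, c * g = g * c) → ∃ t : ZMod p, c = pw z t
  com : ∀ x y : E, ∃ t : ZMod p, x * y = pw z t * (y * x)
  exp : ∀ x : E, x ^ p = 1

variable {z : E}

theorem kz_comm (hE : ESP p E z) (t : ZMod p) (g : E) : pw z t * g = g * pw z t := by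
  have : Commute z g := hE.zc g
  exact (this.pow_left _).eq

theorem kz_eq_one (hE : ESP p E z) (t : ZMod p) (h : pw z t = 1) : t = 0 := by
  unfold pw at h
  have h1 : orderOf z ∣ t.val := orderOf_dvd_of_pow_eq_one h
  rw [hE.ord] at h1
  have h2 : t.val < p := ZMod.val_lt t
  have h3 : t.val = 0 := Nat.eq_zero_of_dvd_of_lt h1 h2
  exact (ZMod.val_eq_zero t).mp h3

/-- commutation of powers -/
theorem pw_swap (hE : ESP p E z) {x y : E} {t : ZMod p} (h : x * y = pw z t * (y * x))
    (a b : ZMod p) : pw x a * pw y b = pw z (t * a * b) * (pw y b * pw x a) := by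
  have hz := hE.exp z
  have c1 : ∀ j : ℕ, x * y ^ j = (pw z t) ^ j * (y ^ j * x) := by
    intro j
    induction j with
    | zero => simp
    | succ j ih =>
      calc x * y ^ (j + 1) = x * y ^ j * y := by rw [pow_succ, mul_assoc]
        _ = (pw z t) ^ j * (y ^ j * x) * y := by rw [ih]
        _ = (pw z t) ^ j * (y ^ j * (x * y)) := by simp only [mul_assoc]
        _ = (pw z t) ^ j * (y ^ j * (pw z t * (y * x))) := by rw [h]
        _ = (pw z t) ^ j * ((y ^ j * pw z t) * (y * x)) := by simp only [mul_assoc]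
        _ = (pw z t) ^ j * ((pw z t * y ^ j) * (y * x)) := by rw [kz_comm hE]
        _ = (pw z t) ^ (j + 1) * (y ^ (j + 1) * x) := by
          rw [pow_succ, pow_succ]; simp only [mul_assoc]
  have c2 : ∀ i j : ℕ, x ^ i * y ^ j = (pw z t) ^ (i * j) * (y ^ j * x ^ i) := by
    intro i j
    induction i with
    | zero => simp
    | succ i ih =>
      calc x ^ (i + 1) * y ^ j = x * (x ^ i * y ^ j) := by rw [pow_succ', mul_assoc]
        _ = x * ((pw z t) ^ (i * j) * (y ^ j * x ^ i)) := by rw [ih]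
        _ = (x * (pw z t) ^ (i * j)) * (y ^ j * x ^ i) := by simp only [mul_assoc]
        _ = ((pw z t) ^ (i * j) * x) * (y ^ j * x ^ i) := by
          have : Commute (pw z t) x := kz_comm hE t x
          rw [(this.pow_left (i * j)).eq]
        _ = (pw z t) ^ (i * j) * ((x * y ^ j) * x ^ i) := by simp only [mul_assoc]
        _ = (pw z t) ^ (i * j) * (((pw z t) ^ j * (y ^ j * x)) * x ^ i) := by rw [c1 j]
        _ = (pw z t) ^ ((i + 1) * j) * (y ^ j * x ^ (i + 1)) := by
          rw [add_mul, one_mul, pow_add, pow_succ']; simp only [mul_assoc]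
  have c3 : (pw z t) ^ (a.val * b.val) = pw z (t * a * b) := by
    have e1 : t * a * b = ((t.val * (a.val * b.val) : ℕ) : ZMod p) := by
      rw [Nat.cast_mul, Nat.cast_mul, ZMod.natCast_zmod_val, ZMod.natCast_zmod_val,
        ZMod.natCast_zmod_val, mul_assoc]
    rw [e1, pw_nat hz]
    show (z ^ t.val) ^ (a.val * b.val) = _
    rw [← pow_mul]
  show x ^ a.val * y ^ b.val = pw z (t * a * b) * (y ^ b.val * x ^ a.val)
  rw [c2, c3]

theorem step (hE : ESP p E z) (c : CG p) (φ : c.carrier →* E) (hinj : Function.Injective φ)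
    (hκ : ∀ t : ZMod p, φ (ck c t) = pw z t)
    (hgood : ∀ g : E, ∃ h : c.carrier, ∀ h' : c.carrier, Commute (g * (φ h)⁻¹) (φ h'))
    (hns : ¬ Function.Surjective φ) :
    ∃ φ' : Ext c →* E, Function.Injective φ' ∧
      (∀ t : ZMod p, φ' ⟨ck c t, 0, 0⟩ = pw z t) ∧
      (∀ g : E, ∃ k : Ext c, ∀ k' : Ext c,
        Commute (g * (φ' k)⁻¹) (φ' k')) := by
  have hzp := hE.exp z
  have hns' : ∃ u : E, ∀ h, φ h ≠ u := by
    by_contra hcon
    push_neg at hcon
    exact hns hcon
  obtain ⟨u, hu⟩ := hns'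
  obtain ⟨h₀, hh₀⟩ := hgood u
  obtain ⟨x, hxdef⟩ : ∃ x, x = u * (φ h₀)⁻¹ := ⟨_, rfl⟩
  rw [← hxdef] at hh₀
  have hxr : ∀ h, φ h ≠ x := by
    intro h hh
    apply hu (h * h₀)
    rw [map_mul, hh, hxdef, inv_mul_cancel_right]
  have hxnc : ∃ w, x * w ≠ w * x := by
    by_contra hcon
    push_neg at hcon
    obtain ⟨t, ht⟩ := hE.cen x hcon
    exact hxr (ck c t) (by rw [hκ, ht])
  obtain ⟨w, hw⟩ := hxnc
  obtain ⟨h₁, hh₁⟩ := hgood w
  obtain ⟨y₀, hy₀def⟩ : ∃ y₀, y₀ = w * (φ h₁)⁻¹ := ⟨_, rfl⟩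
  rw [← hy₀def] at hh₁
  have hxy₀ : x * y₀ ≠ y₀ * x := by
    intro hc
    apply hw
    have e : w = y₀ * φ h₁ := by rw [hy₀def, inv_mul_cancel_right]
    rw [e, ← mul_assoc, hc, mul_assoc, mul_assoc, (hh₀ h₁).eq]
  obtain ⟨t, ht⟩ := hE.com x y₀
  have ht0 : t ≠ 0 := by
    intro h0
    apply hxy₀
    rw [ht, h0, pw_zero, one_mul]
  obtain ⟨y, hydef⟩ : ∃ y, y = pw y₀ t⁻¹ := ⟨_, rfl⟩
  have hxy' : x * y = pw z (1 : ZMod p) * (y * x) := by
    have := pw_swap hE ht 1 t⁻¹
    rw [pw_one, mul_one, mul_inv_cancel₀ ht0, ← hydef] at this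
    exact this
  have hxc : ∀ h', Commute x (φ h') := hh₀
  have hyc : ∀ h', Commute y (φ h') := fun h' => by rw [hydef]; exact pw_comm (hh₁ h') _
  have hxp := hE.exp x
  have hyp := hE.exp y
  have sw : ∀ a b : ZMod p, pw x a * pw y b = pw z (a * b) * (pw y b * pw x a) := by
    intro a b
    have := pw_swap hE hxy' a b
    rw [one_mul] at this
    exact this
  let φ' : Ext c →* E :=
    { toFun := fun k => φ k.h * pw y k.b * pw x k.a
      map_one' := by simp [pw_zero]
      map_mul' := fun k k' => by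
        simp only [Ext.mul_h, Ext.mul_a, Ext.mul_b, map_mul, hκ, pw_add hxp, pw_add hyp]
        have hXA : pw x k.a * φ k'.h = φ k'.h * pw x k.a := (pw_comm (hxc k'.h) _).eq
        have hYA : pw y k.b * φ k'.h = φ k'.h * pw y k.b := (pw_comm (hyc k'.h) _).eq
        have hZY : pw y k.b * pw z (k.a * k'.b) = pw z (k.a * k'.b) * pw y k.b :=
          (kz_comm hE _ _).symm
        symm
        calc φ k.h * pw y k.b * pw x k.a * (φ k'.h * pw y k'.b * pw x k'.a)
            = φ k.h * pw y k.b * (pw x k.a * φ k'.h) * pw y k'.b * pw x k'.a := by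
              simp only [mul_assoc]
          _ = φ k.h * pw y k.b * (φ k'.h * pw x k.a) * pw y k'.b * pw x k'.a := by rw [hXA]
          _ = φ k.h * (pw y k.b * φ k'.h) * (pw x k.a * pw y k'.b) * pw x k'.a := by
              simp only [mul_assoc]
          _ = φ k.h * (φ k'.h * pw y k.b) * (pw z (k.a * k'.b) * (pw y k'.b * pw x k.a))
                * pw x k'.a := by rw [hYA, sw]
          _ = φ k.h * φ k'.h * (pw y k.b * pw z (k.a * k'.b)) * pw y k'.b * pw x k.a
                * pw x k'.a := by simp only [mul_assoc]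
          _ = φ k.h * φ k'.h * (pw z (k.a * k'.b) * pw y k.b) * pw y k'.b * pw x k.a
                * pw x k'.a := by rw [hZY]
          _ = φ k.h * φ k'.h * pw z (k.a * k'.b) * (pw y k.b * pw y k'.b)
                * (pw x k.a * pw x k'.a) := by simp only [mul_assoc] }
  have hφ' : ∀ k : Ext c, φ' k = φ k.h * pw y k.b * pw x k.a := fun k => rfl
  have cyy : ∀ b : ZMod p, pw y b * y = y * pw y b := fun b =>
    ((Commute.refl y).pow_left _).eq
  have cxx : ∀ a : ZMod p, pw x a * x = x * pw x a := fun a =>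
    ((Commute.refl x).pow_left _).eq
  refine ⟨φ', ?_, ?_, ?_⟩
  · rw [injective_iff_map_eq_one]
    intro k hk
    rw [hφ'] at hk
    have ha : k.a = 0 := by
      apply kz_eq_one hE
      have e : (φ k.h * pw y k.b * pw x k.a) * y
          = pw z k.a * (y * (φ k.h * pw y k.b * pw x k.a)) := by
        have s1 := sw k.a 1
        rw [pw_one, mul_one] at s1
        have c1 : y * φ k.h = φ k.h * y := (hyc k.h).eq
        calc (φ k.h * pw y k.b * pw x k.a) * y
            = φ k.h * pw y k.b * (pw x k.a * y) := by simp only [mul_assoc]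
          _ = φ k.h * pw y k.b * (pw z k.a * (y * pw x k.a)) := by rw [s1]
          _ = φ k.h * (pw y k.b * pw z k.a) * (y * pw x k.a) := by simp only [mul_assoc]
          _ = φ k.h * (pw z k.a * pw y k.b) * (y * pw x k.a) := by
              rw [(kz_comm hE k.a (pw y k.b)).symm]
          _ = (φ k.h * pw z k.a) * (pw y k.b * y) * pw x k.a := by simp only [mul_assoc]
          _ = (pw z k.a * φ k.h) * (y * pw y k.b) * pw x k.a := by
              rw [(kz_comm hE k.a (φ k.h)).symm, cyy]
          _ = pw z k.a * (φ k.h * y) * pw y k.b * pw x k.a := by simp only [mul_assoc]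
          _ = pw z k.a * (y * φ k.h) * pw y k.b * pw x k.a := by rw [c1]
          _ = pw z k.a * (y * (φ k.h * pw y k.b * pw x k.a)) := by simp only [mul_assoc]
      rw [hk, one_mul, mul_one] at e
      exact mul_right_cancel (b := y) (by rw [one_mul]; exact e.symm)
    have hk' : φ k.h * pw y k.b = 1 := by
      rw [ha, pw_zero, mul_one] at hk
      exact hk
    have hb : k.b = 0 := by
      apply kz_eq_one hE
      have s2 := sw 1 k.b
      rw [pw_one, one_mul] at s2
      have e2 : x * (φ k.h * pw y k.b) = pw z k.b * ((φ k.h * pw y k.b) * x) := by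
        calc x * (φ k.h * pw y k.b) = (x * φ k.h) * pw y k.b := by rw [mul_assoc]
          _ = (φ k.h * x) * pw y k.b := by rw [(hxc k.h).eq]
          _ = φ k.h * (x * pw y k.b) := by rw [mul_assoc]
          _ = φ k.h * (pw z k.b * (pw y k.b * x)) := by rw [s2]
          _ = (φ k.h * pw z k.b) * (pw y k.b * x) := by rw [mul_assoc]
          _ = (pw z k.b * φ k.h) * (pw y k.b * x) := by rw [(kz_comm hE k.b (φ k.h)).symm]
          _ = pw z k.b * ((φ k.h * pw y k.b) * x) := by simp only [mul_assoc]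
      rw [hk', mul_one, one_mul] at e2
      exact mul_right_cancel (b := x) (by rw [one_mul]; exact e2.symm)
    have hh : k.h = 1 := by
      rw [hb, pw_zero, mul_one] at hk'
      exact hinj (by rw [hk', map_one])
    exact Ext.ext hh ha hb
  · intro t
    rw [hφ']
    simp [hκ, pw_zero]
  · intro g
    obtain ⟨h₂, hh₂⟩ := hgood g
    obtain ⟨g₁, hg₁⟩ : ∃ g₁, g₁ = g * (φ h₂)⁻¹ := ⟨_, rfl⟩
    rw [← hg₁] at hh₂
    obtain ⟨α, hα⟩ := hE.com g₁ y
    obtain ⟨β, hβ⟩ := hE.com g₁ x
    refine ⟨⟨h₂, α, -β⟩, ?_⟩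
    obtain ⟨g₂, hg₂⟩ : ∃ g₂, g₂ = g₁ * pw x (-α) * pw y β := ⟨_, rfl⟩
    have e0 : g * (φ' ⟨h₂, α, -β⟩)⁻¹ = g₂ := by
      rw [mul_inv_eq_iff_eq_mul, hφ', hg₂]
      show g = g₁ * pw x (-α) * pw y β * (φ h₂ * pw y (- β) * pw x α)
      have c1 : pw y β * φ h₂ = φ h₂ * pw y β := (pw_comm (hyc h₂) _).eq
      have c2 : pw x (-α) * φ h₂ = φ h₂ * pw x (-α) := (pw_comm (hxc h₂) _).eq
      have c3 : pw y β * pw y (-β) = 1 := by rw [← pw_add hyp, add_neg_cancel, pw_zero]
      have c4 : pw x (-α) * pw x α = 1 := by rw [← pw_add hxp, neg_add_cancel, pw_zero]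
      calc g = g₁ * φ h₂ := by rw [hg₁, inv_mul_cancel_right]
        _ = g₁ * φ h₂ * (pw x (-α) * pw x α) := by rw [c4, mul_one]
        _ = g₁ * φ h₂ * (pw x (-α) * ((pw y β * pw y (-β)) * pw x α)) := by rw [c3, one_mul]
        _ = g₁ * (φ h₂ * pw x (-α)) * pw y β * pw y (-β) * pw x α := by simp only [mul_assoc]
        _ = g₁ * (pw x (-α) * φ h₂) * pw y β * pw y (-β) * pw x α := by rw [c2]
        _ = g₁ * pw x (-α) * (φ h₂ * pw y β) * pw y (-β) * pw x α := by simp only [mul_assoc]
        _ = g₁ * pw x (-α) * (pw y β * φ h₂) * pw y (-β) * pw x α := by rw [c1]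
        _ = g₁ * pw x (-α) * pw y β * (φ h₂ * pw y (-β) * pw x α) := by simp only [mul_assoc]
    have cφ : ∀ h', Commute g₂ (φ h') := fun h' => by
      rw [hg₂]
      exact ((hh₂ h').mul_left (pw_comm (hxc h') _)).mul_left (pw_comm (hyc h') _)
    have cy : Commute g₂ y := by
      have s1 := sw (-α) 1
      rw [pw_one, mul_one] at s1
      show g₂ * y = y * g₂
      calc g₂ * y = g₁ * pw x (-α) * (pw y β * y) := by rw [hg₂]; simp only [mul_assoc]
        _ = g₁ * pw x (-α) * (y * pw y β) := by rw [cyy]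
        _ = g₁ * (pw x (-α) * y) * pw y β := by simp only [mul_assoc]
        _ = g₁ * (pw z (-α) * (y * pw x (-α))) * pw y β := by rw [s1]
        _ = (g₁ * pw z (-α)) * y * pw x (-α) * pw y β := by simp only [mul_assoc]
        _ = (pw z (-α) * g₁) * y * pw x (-α) * pw y β := by rw [(kz_comm hE (-α) g₁).symm]
        _ = pw z (-α) * (g₁ * y) * pw x (-α) * pw y β := by simp only [mul_assoc]
        _ = pw z (-α) * (pw z α * (y * g₁)) * pw x (-α) * pw y β := by rw [hα]
        _ = (pw z (-α) * pw z α) * (y * (g₁ * pw x (-α) * pw y β)) := by simp only [mul_assoc]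
        _ = y * g₂ := by rw [← pw_add hzp, neg_add_cancel, pw_zero, one_mul, hg₂]
    have cx : Commute g₂ x := by
      have s2 := sw 1 β
      rw [pw_one, one_mul] at s2
      have s2' : pw y β * x = pw z (-β) * (x * pw y β) := by
        rw [s2, ← mul_assoc, ← pw_add hzp, neg_add_cancel, pw_zero, one_mul]
      show g₂ * x = x * g₂
      calc g₂ * x = g₁ * pw x (-α) * (pw y β * x) := by rw [hg₂]; simp only [mul_assoc]
        _ = g₁ * pw x (-α) * (pw z (-β) * (x * pw y β)) := by rw [s2']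
        _ = g₁ * (pw x (-α) * pw z (-β)) * (x * pw y β) := by simp only [mul_assoc]
        _ = g₁ * (pw z (-β) * pw x (-α)) * (x * pw y β) := by
            rw [(kz_comm hE (-β) (pw x (-α))).symm]
        _ = (g₁ * pw z (-β)) * (pw x (-α) * x) * pw y β := by simp only [mul_assoc]
        _ = (pw z (-β) * g₁) * (x * pw x (-α)) * pw y β := by
            rw [(kz_comm hE (-β) g₁).symm, cxx]
        _ = pw z (-β) * (g₁ * x) * pw x (-α) * pw y β := by simp only [mul_assoc]
        _ = pw z (-β) * (pw z β * (x * g₁)) * pw x (-α) * pw y β := by rw [hβ]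
        _ = (pw z (-β) * pw z β) * (x * (g₁ * pw x (-α) * pw y β)) := by simp only [mul_assoc]
        _ = x * g₂ := by rw [← pw_add hzp, neg_add_cancel, pw_zero, one_mul, hg₂]
    intro k'
    rw [e0, hφ']
    exact ((cφ k'.h).mul_right (cy.pow_right _)).mul_right (cx.pow_right _)

theorem exists_iso (hE : ESP p E z) [Finite E] : ∃ n, Nonempty ((K p n).carrier ≃* E) := by
  have hpp : p.Prime := Fact.out
  have key : ∀ m : ℕ, (∃ n, Nonempty ((K p n).carrier ≃* E)) ∨
      (∃ φ : (K p m).carrier →* E, Function.Injective φ ∧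
        (∀ t : ZMod p, φ (ck (K p m) t) = pw z t) ∧
        (∀ g : E, ∃ h : (K p m).carrier, ∀ h' : (K p m).carrier,
          Commute (g * (φ h)⁻¹) (φ h'))) := by
    intro m
    induction m with
    | zero =>
      let φ₀ : Multiplicative (ZMod p) →* E :=
        { toFun := fun s => pw z (Multiplicative.toAdd s)
          map_one' := pw_zero z
          map_mul' := fun s t => pw_add (hE.exp z) _ _ }
      have b1 : Function.Injective φ₀ := by
        intro s t hst
        have h1 : pw z (Multiplicative.toAdd s - Multiplicative.toAdd t) = 1 := by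
          have e : pw z (Multiplicative.toAdd s) = pw z (Multiplicative.toAdd t) := hst
          have e2 := pw_add (hE.exp z) (Multiplicative.toAdd s - Multiplicative.toAdd t)
            (Multiplicative.toAdd t)
          rw [sub_add_cancel, e] at e2
          exact mul_right_cancel (b := pw z (Multiplicative.toAdd t)) (by rw [one_mul]; exact e2.symm)
        have h2 := kz_eq_one hE _ h1
        have h3 : Multiplicative.toAdd s = Multiplicative.toAdd t := sub_eq_zero.mp h2
        exact Multiplicative.toAdd.injective h3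
      have b2 : ∀ t : ZMod p, φ₀ (Multiplicative.ofAdd t) = pw z t := fun t => rfl
      have b3 : ∀ g : E, ∃ h : Multiplicative (ZMod p), ∀ h' : Multiplicative (ZMod p),
          Commute (g * (φ₀ h)⁻¹) (φ₀ h') := by
        intro g
        refine ⟨1, fun h' => ?_⟩
        have : Commute (pw z (Multiplicative.toAdd h')) (g * (φ₀ 1)⁻¹) := kz_comm hE _ _
        exact this.symm
      exact Or.inr ⟨φ₀, b1, b2, b3⟩
    | succ m ih =>
      rcases ih with h | ⟨φ, h1, h2, h3⟩
      · left; exact h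
      · by_cases hs : Function.Surjective φ
        · left; exact ⟨m, ⟨MulEquiv.ofBijective φ ⟨h1, hs⟩⟩⟩
        · right
          obtain ⟨φ', a1, a2, a3⟩ := step hE (K p m) φ h1 h2 h3 hs
          exact ⟨φ', a1, a2, a3⟩
  rcases key (Nat.card E) with h | ⟨φ, h1, _, _⟩
  · exact h
  · exfalso
    have h0 := Nat.card_le_card_of_injective φ h1
    rw [card_K] at h0
    have h2 : Nat.card E < 2 ^ Nat.card E := Nat.lt_two_pow_self
    have h3 : 2 ^ Nat.card E ≤ p ^ (1 + 2 * Nat.card E) :=
      (Nat.pow_le_pow_left hpp.two_le _).trans (Nat.pow_le_pow_right hpp.pos (by omega))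
    omega

omit [Fact p.Prime] in
theorem esp_of [hp : Fact p.Prime] [Finite E] (h : Cfsg.IsExtraspecial p E)
    (he : Monoid.exponent E = p) : ∃ z : E, ESP p E z := by
  have hpp : p.Prime := Fact.out
  obtain ⟨⟨hpg, hfr, hcomm⟩, hcard⟩ := h
  have hexp : ∀ x : E, x ^ p = 1 := fun x => by rw [← he]; exact Monoid.pow_exponent_eq_one x
  have hnt : Subgroup.center E ≠ ⊥ := by
    intro hb
    rw [hb, Subgroup.card_bot] at hcard
    exact hpp.one_lt.ne hcard
  obtain ⟨⟨z, hzc⟩, hz1⟩ := Subgroup.ne_bot_iff_exists_ne_one.mp hnt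
  have hz1' : z ≠ 1 := fun h => hz1 (Subtype.ext h)
  have hord : orderOf z = p := orderOf_eq_prime (hexp z) hz1'
  have hzp : Subgroup.zpowers z = Subgroup.center E := by
    apply Subgroup.eq_of_le_of_card_ge (Subgroup.zpowers_le.mpr hzc)
    rw [hcard, Nat.card_zpowers, hord]
  have hcen : ∀ c : E, (∀ g : E, c * g = g * c) → ∃ t : ZMod p, c = pw z t := by
    intro c hc
    have h1 : c ∈ Subgroup.center E := Subgroup.mem_center_iff.mpr (fun g => (hc g).symm)
    rw [← hzp] at h1
    have h2 : c ∈ Submonoid.powers z := (mem_powers_iff_mem_zpowers).mpr h1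
    obtain ⟨n, hn⟩ := h2
    exact ⟨(n : ZMod p), by rw [pw_nat (hexp z)]; exact hn.symm⟩
  refine ⟨z, hord, fun g => (Subgroup.mem_center_iff.mp hzc g).symm, hcen, ?_, hexp⟩
  intro x y
  have h1 : x * y * x⁻¹ * y⁻¹ ∈ Subgroup.center E := by
    rw [← hcomm, commutator_def]
    exact Subgroup.commutator_mem_commutator (Subgroup.mem_top x) (Subgroup.mem_top y)
  obtain ⟨t, ht⟩ := hcen _ (fun g => (Subgroup.mem_center_iff.mp h1 g).symm)
  refine ⟨t, ?_⟩
  rw [← ht]
  group

end Eside

theorem main {E₁ : Type*} {E₂ : Type*} [Group E₁] [Group E₂] [Finite E₁] [Finite E₂] {p : ℕ}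
    [Fact p.Prime] (h₁ : Cfsg.IsExtraspecial p E₁) (h₂ : Cfsg.IsExtraspecial p E₂)
    (he₁ : Monoid.exponent E₁ = p) (he₂ : Monoid.exponent E₂ = p)
    (hc : Nat.card E₁ = Nat.card E₂) : Nonempty (E₁ ≃* E₂) := by
  have hpp : p.Prime := Fact.out
  obtain ⟨z₁, hz₁⟩ := esp_of h₁ he₁
  obtain ⟨z₂, hz₂⟩ := esp_of h₂ he₂
  obtain ⟨n₁, ⟨e₁⟩⟩ := exists_iso hz₁
  obtain ⟨n₂, ⟨e₂⟩⟩ := exists_iso hz₂
  have c1 : Nat.card E₁ = p ^ (1 + 2 * n₁) := by rw [← Nat.card_congr e₁.toEquiv, card_K]
  have c2 : Nat.card E₂ = p ^ (1 + 2 * n₂) := by rw [← Nat.card_congr e₂.toEquiv, card_K]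
  have hn : n₁ = n₂ := by
    have := Nat.pow_right_injective hpp.two_le (c1.symm.trans (hc.trans c2))
    omega
  subst hn
  exact ⟨e₁.symm.trans e₂⟩

/-- For odd p, extraspecial p-groups of exponent p are determined up to isomorphism by their order. -/
theorem result {E₁ : Type*} {E₂ : Type*} [Group E₁] [Group E₂] [Finite E₁] [Finite E₂] {p : ℕ} [Fact p.Prime] (hp : p ≠ 2) (h₁ : Cfsg.IsExtraspecial p E₁) (h₂ : Cfsg.IsExtraspecial p E₂) (he₁ : Monoid.exponent E₁ = p) (he₂ : Monoid.exponent E₂ = p) (hc : Nat.card E₁ = Nat.card E₂) : Nonempty (E₁ ≃* E₂) := by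
  exact main h₁ h₂ he₁ he₂ hc

end Cfsg.Agent.S0098
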