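import Mathlib
import Cfsg.Agent.Lib.Helper1.Ch2
import Cfsg.Agent.Lib.Helper1.PG
import Cfsg.Agent.S0130
import Cfsg.Statements.S0100

set_option autoImplicit false
open Cfsg

namespace Cfsg.Agent.S0100

/-- For odd p, a p-group without normal elementary abelian subgroups of order p^3 has p-rank at most 2. -/
theorem result {P : Type*} [Group P] [Finite P] {p : ℕ} [Fact p.Prime] (hp : p ≠ 2) (hP : IsPGroup p P) (h : ∀ A : Subgroup P, A.Normal → IsMulCommutative A → (∀ a ∈ A, a ^ p = 1) → Nat.card A ≠ p ^ 3) (E : Subgroup P) (hE : IsMulCommutative E) (hEe : ∀ e ∈ E, e ^ p = 1) : Nat.card E ≤ p ^ 2 := by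
  classical
  have hpp : p.Prime := Fact.out
  let S : Set (Subgroup P) := {A | A.Normal ∧ IsMulCommutative A ∧ ∀ a ∈ A, a ^ p = 1}
  have hS : S.Nonempty := by
    refine ⟨⊥, inferInstance, ⟨⟨fun a b => Subtype.ext ?_⟩⟩, ?_⟩
    · rw [Subgroup.coe_mul, Subgroup.coe_mul, Subgroup.mem_bot.1 a.2, Subgroup.mem_bot.1 b.2]
    · intro a ha
      rw [Subgroup.mem_bot.1 ha, one_pow]
  obtain ⟨A, ⟨hAn, hAc, hAe⟩, hAmax⟩ := Set.exists_max_image S (fun A => Nat.card A)
    (Set.toFinite S) hS
  haveI := hAn
  have hmax : ∀ B : Subgroup P, B.Normal → IsMulCommutative B → (∀ b ∈ B, b ^ p ^ 1 = 1) →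
      A ≤ B → B = A := by
    intro B hBn hBc hBe hAB
    have := hAmax B ⟨hBn, hBc, fun b hb => by simpa using hBe b hb⟩
    exact (Subgroup.eq_of_le_of_card_ge hAB this).symm
  have halp : ∀ x ∈ Subgroup.centralizer (A : Set P), x ^ p = 1 → x ∈ A := by
    intro x hx hxp
    exact Cfsg.Agent.S0130.result hP 1 (by rw [pow_one]; exact hp) A hAc
      (fun a ha => by rw [pow_one]; exact hAe a ha) hmax x hx (by rw [pow_one]; exact hxp)
  have hAcomm : ∀ a ∈ A, ∀ b ∈ A, a * b = b * a := by
    intro a ha b hb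
    have := hAc.is_comm.comm ⟨a, ha⟩ ⟨b, hb⟩
    exact congrArg Subtype.val this
  have hEcomm : ∀ a ∈ E, ∀ b ∈ E, a * b = b * a := by
    intro a ha b hb
    have := hE.is_comm.comm ⟨a, ha⟩ ⟨b, hb⟩
    exact congrArg Subtype.val this
  have hA2 : Nat.card A ≤ p ^ 2 := by
    by_contra hcon
    obtain ⟨m, hm⟩ := (IsPGroup.iff_card.1 (hP.to_subgroup A))
    have hm3 : 3 ≤ m := by
      by_contra h3
      apply hcon
      rw [hm]
      exact Nat.pow_le_pow_right hpp.pos (by omega)
    obtain ⟨K, hKn, hKA, hKc⟩ := Cfsg.Agent.Lib.Helper1.PG.exists_normal_card hP A hAe 3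
      (by rw [hm]; exact Nat.pow_le_pow_right hpp.pos hm3)
    refine h K hKn ?_ (fun a ha => hAe a (hKA ha)) hKc
    exact ⟨⟨fun a b => Subtype.ext (hAcomm a.1 (hKA a.2) b.1 (hKA b.2))⟩⟩
  by_cases hcen : A ≤ Subgroup.center P
  · have hEA : E ≤ A := by
      intro e he
      apply halp e _ (hEe e he)
      rw [Subgroup.mem_centralizer_iff]
      intro a ha
      exact (Subgroup.mem_center_iff.1 (hcen ha) e).symm
    exact le_trans (Subgroup.card_le_of_le hEA) hA2
  · obtain ⟨a, haA, haZ⟩ := SetLike.not_le_iff_exists.1 hcen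
    haveI : Group.IsNilpotent P := hP.isNilpotent
    have hAbot : ¬ A ≤ (⊥ : Subgroup P) := by
      intro hb
      apply haZ
      rw [Subgroup.mem_bot.1 (hb haA)]; exact Subgroup.one_mem _
    obtain ⟨x, hxA, hx1, hx⟩ := Cfsg.Agent.Lib.Helper1.UniqP.nil_step ⊥ A hAbot
    have hxc : ∀ g : P, x * g = g * x := by
      intro g
      have := Subgroup.mem_bot.1 (hx g)
      have h2 := mul_inv_eq_one.1 this
      exact mul_inv_eq_iff_eq_mul.1 h2
    have hx1' : x ≠ 1 := fun h => hx1 (by rw [h]; exact Subgroup.one_mem _)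
    have ha1 : a ≠ 1 := fun h => haZ (by rw [h]; exact Subgroup.one_mem _)
    have hoa : orderOf a = p := orderOf_eq_prime (hAe a haA) ha1
    have hox : orderOf x = p := orderOf_eq_prime (hAe x hxA) hx1'
    have hxa : x ∉ Subgroup.zpowers a := by
      intro hxz
      have hle : Subgroup.zpowers x ≤ Subgroup.zpowers a := Subgroup.zpowers_le.2 hxz
      have heq : Subgroup.zpowers x = Subgroup.zpowers a :=
        Subgroup.eq_of_le_of_card_ge hle (by rw [Nat.card_zpowers, Nat.card_zpowers, hoa, hox])
      have : a ∈ Subgroup.zpowers x := heq ▸ Subgroup.mem_zpowers a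
      obtain ⟨i, hi⟩ := Subgroup.mem_zpowers_iff.1 this
      apply haZ
      rw [← hi, Subgroup.mem_center_iff]
      intro g
      have hc : Commute g x := (hxc g).symm
      exact (hc.zpow_right i).eq
    have hCaA : Subgroup.centralizer ({a} : Set P) ≤ Subgroup.centralizer (A : Set P) := by
      intro g hg
      have hga : a * g = g * a := Subgroup.mem_centralizer_iff.1 hg a rfl
      have haT : a ∈ A ⊓ Subgroup.centralizer ({g} : Set P) :=
        ⟨haA, Subgroup.mem_centralizer_iff.2 (fun y hy => by
          rw [Set.mem_singleton_iff.1 hy]; exact hga.symm)⟩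
      have hxT : x ∈ A ⊓ Subgroup.centralizer ({g} : Set P) :=
        ⟨hxA, Subgroup.mem_centralizer_iff.2 (fun y hy => by
          rw [Set.mem_singleton_iff.1 hy]; exact (hxc g).symm)⟩
      have hTA : A ⊓ Subgroup.centralizer ({g} : Set P) = A := by
        apply Subgroup.eq_of_le_of_card_ge inf_le_left
        obtain ⟨t, ht⟩ := IsPGroup.iff_card.1
          (hP.to_subgroup (A ⊓ Subgroup.centralizer ({g} : Set P)))
        have hlt : Subgroup.zpowers a < A ⊓ Subgroup.centralizer ({g} : Set P) :=
          lt_of_le_of_ne (Subgroup.zpowers_le.2 haT) (fun h => hxa (h ▸ hxT))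
        have hc1 : Nat.card (Subgroup.zpowers a) <
            Nat.card (A ⊓ Subgroup.centralizer ({g} : Set P) : Subgroup P) :=
          Set.ncard_lt_ncard (SetLike.coe_ssubset_coe.2 hlt) (Set.toFinite _)
        rw [Nat.card_zpowers, hoa, ht] at hc1
        have ht2 : 1 < t := by
          have : p ^ 1 < p ^ t := by rwa [pow_one]
          exact (Nat.pow_lt_pow_iff_right hpp.one_lt).1 this
        rw [ht]
        exact le_trans hA2 (Nat.pow_le_pow_right hpp.pos ht2)
      rw [Subgroup.mem_centralizer_iff]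
      intro b hb
      have hbT : b ∈ A ⊓ Subgroup.centralizer ({g} : Set P) := by rw [hTA]; exact hb
      exact (Subgroup.mem_centralizer_iff.1 hbT.2 g rfl).symm
    have hECa : E ⊓ Subgroup.centralizer ({a} : Set P) ≤ A := by
      intro e he
      exact halp e (hCaA he.2) (hEe e he.1)
    have hidx : (Subgroup.centralizer ({a} : Set P)).index ≤ p := by
      obtain ⟨j, hj⟩ := hP.index (Subgroup.centralizer ({a} : Set P))
      have h1 := Cfsg.Agent.Lib.Helper1.Ch.index_centralizer_eq_card_conj a
      have h2 : Nat.card {u : P // IsConj a u} < Nat.card A := by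
        have hsub : {u : P | IsConj a u} ⊂ (A : Set P) := by
          refine ⟨?_, ?_⟩
          · intro u hu
            obtain ⟨c, hc⟩ := isConj_iff.1 hu
            rw [← hc]
            exact hAn.conj_mem a haA c
          · intro hcon
            have h1' : IsConj a 1 := hcon A.one_mem
            obtain ⟨c, hc⟩ := isConj_iff.1 h1'
            apply ha1
            have : a = c⁻¹ * (c * a * c⁻¹) * c := by group
            rw [this, hc]; group
        exact Set.ncard_lt_ncard hsub (Set.toFinite _)
      have hj' : Nat.card {u : P // IsConj a u} = p ^ j := h1.symm.trans hj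
      have hlt : p ^ j < p ^ 2 := lt_of_lt_of_le (hj' ▸ h2) hA2
      have hj1 : j < 2 := (Nat.pow_lt_pow_iff_right hpp.one_lt).1 hlt
      rw [hj]
      calc p ^ j ≤ p ^ 1 := Nat.pow_le_pow_right hpp.pos (by omega)
        _ = p := pow_one p
    have hcardE : Nat.card E = Nat.card (E ⊓ Subgroup.centralizer ({a} : Set P) : Subgroup P) *
        (Subgroup.centralizer ({a} : Set P)).relIndex E := by
      have h1 := Subgroup.relIndex_mul_relIndex (H := ⊥)
        (K := E ⊓ Subgroup.centralizer ({a} : Set P)) (L := E) bot_le inf_le_left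
      rw [Subgroup.relIndex_bot_left, Subgroup.relIndex_bot_left, Subgroup.inf_relIndex_left]
        at h1
      exact h1.symm
    have hrel : (Subgroup.centralizer ({a} : Set P)).relIndex E ≤ p := by
      have h1 : (Subgroup.centralizer ({a} : Set P)).relIndex E ≤
          (Subgroup.centralizer ({a} : Set P)).relIndex ⊤ :=
        Subgroup.relIndex_le_of_le_right le_top
          (by rw [Subgroup.relIndex_top_right]; exact Subgroup.index_ne_zero_of_finite)
      rw [Subgroup.relIndex_top_right] at h1
      exact le_trans h1 hidx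
    by_cases hEq : E ⊓ Subgroup.centralizer ({a} : Set P) = A
    · have hAE : A ≤ E := hEq ▸ inf_le_left
      have hEA : E ≤ A := by
        intro e he
        apply halp e _ (hEe e he)
        rw [Subgroup.mem_centralizer_iff]
        intro b hb
        exact hEcomm b (hAE hb) e he
      exact le_trans (Subgroup.card_le_of_le hEA) hA2
    · have hlt : E ⊓ Subgroup.centralizer ({a} : Set P) < A := lt_of_le_of_ne hECa hEq
      have hc1 : Nat.card (E ⊓ Subgroup.centralizer ({a} : Set P) : Subgroup P) < Nat.card A :=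
        Set.ncard_lt_ncard (SetLike.coe_ssubset_coe.2 hlt) (Set.toFinite _)
      obtain ⟨t, ht⟩ := IsPGroup.iff_card.1
        (hP.to_subgroup (E ⊓ Subgroup.centralizer ({a} : Set P)))
      have hpt : p ^ t < p ^ 2 := by rw [← ht]; exact lt_of_lt_of_le hc1 hA2
      have ht1 : t < 2 := (Nat.pow_lt_pow_iff_right hpp.one_lt).1 hpt
      have hc2 : Nat.card (E ⊓ Subgroup.centralizer ({a} : Set P) : Subgroup P) ≤ p := by
        rw [ht]
        calc p ^ t ≤ p ^ 1 := Nat.pow_le_pow_right hpp.pos (by omega)
          _ = p := pow_one p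
      rw [hcardE, pow_two]
      exact Nat.mul_le_mul hc2 hrel

end Cfsg.Agent.S0100
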