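import Mathlib
import Cfsg.Statements.S0101
import Cfsg.Agent.S0012

set_option autoImplicit false
open Pointwise
open Cfsg

namespace Cfsg.Agent.S0101

theorem result {H : Type*} {G : Type*} [Group H] [Group G] [Finite H] (σ : H →* G) (hσ : Function.Surjective σ) (hc : σ.ker ≤ Subgroup.center H) (hH : commutator H = ⊤) {p : ℕ} [Fact p.Prime] (P : Sylow p H) : σ.ker ⊓ (P : Subgroup H) ≤ (frattini P).map (P : Subgroup H).subtype := by
  intro z hz
  obtain ⟨hzk, hzP⟩ := Subgroup.mem_inf.1 hz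
  have hzc : z ∈ Subgroup.center H := hc hzk
  have hpp : p.Prime := Fact.out
  let ϕ : ↥(P : Subgroup H) →* Abelianization ↥(P : Subgroup H) := Abelianization.of
  have hkey : ∀ (k : ℕ) (g₀ : H), g₀⁻¹ * z ^ k * g₀ ∈ (P : Subgroup H) →
      g₀⁻¹ * z ^ k * g₀ = z ^ k := by
    intro k g₀ _
    have h1 : z ^ k ∈ Subgroup.center H := Subgroup.pow_mem _ hzc k
    rw [mul_assoc, ← Subgroup.mem_center_iff.1 h1 g₀, inv_mul_cancel_left]
  have h2 := MonoidHom.transfer_eq_pow ϕ z hkey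
  have h3 : MonoidHom.transfer ϕ z = 1 := by
    have h4 : commutator H ≤ (MonoidHom.transfer ϕ).ker := Abelianization.commutator_subset_ker _
    rw [hH] at h4
    exact MonoidHom.mem_ker.1 (h4 (Subgroup.mem_top z))
  rw [h3] at h2
  have h5 : (⟨z ^ (P : Subgroup H).index, MonoidHom.transfer_eq_pow_aux z hkey⟩ :
      ↥(P : Subgroup H)) ∈ commutator ↥(P : Subgroup H) := by
    rw [← Abelianization.ker_of]
    exact MonoidHom.mem_ker.2 h2.symm
  have hcop : ((P : Subgroup H).index).Coprime (orderOf (⟨z, hzP⟩ : ↥(P : Subgroup H))) := by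
    obtain ⟨k, hk⟩ := P.isPGroup' ⟨z, hzP⟩
    have h6 : orderOf (⟨z, hzP⟩ : ↥(P : Subgroup H)) ∣ p ^ k := orderOf_dvd_of_pow_eq_one hk
    have h7 : ((P : Subgroup H).index).Coprime (p ^ k) :=
      Nat.Coprime.pow_right k ((Nat.Coprime.symm ((Nat.Prime.coprime_iff_not_dvd hpp).2 P.not_dvd_index)))
    exact Nat.Coprime.coprime_dvd_right h6 h7
  obtain ⟨m, hm⟩ := exists_pow_eq_self_of_coprime hcop
  have h8 : (⟨z, hzP⟩ : ↥(P : Subgroup H)) ∈ commutator ↥(P : Subgroup H) := by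
    rw [← hm]
    exact Subgroup.pow_mem _ h5 m
  have h9 := (Cfsg.Agent.S0012.result p P.isPGroup').1 h8
  exact ⟨⟨z, hzP⟩, h9, rfl⟩

end Cfsg.Agent.S0101
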