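import Mathlib
import Cfsg.Statements.S0102

set_option autoImplicit false
open Cfsg

namespace Cfsg.Agent.S0102

open scoped IsMulCommutative in
theorem central_pow_index {H : Type*} [Group H] [Finite H] (P : Subgroup H)
    [hP : IsMulCommutative P] (hH : commutator H = ⊤) (z : H) (hz : z ∈ Subgroup.center H) :
    z ^ P.index = 1 := by
  have key : ∀ (k : ℕ) (g₀ : H), g₀⁻¹ * z ^ k * g₀ ∈ P → g₀⁻¹ * z ^ k * g₀ = z ^ k := by
    intro k g₀ _
    have hzk : z ^ k ∈ Subgroup.center H := Subgroup.pow_mem _ hz k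
    have := Subgroup.mem_center_iff.1 hzk g₀
    rw [mul_assoc, ← this, inv_mul_cancel_left]
  have h1 := MonoidHom.transfer_eq_pow (MonoidHom.id P) z key
  have h2 : z ∈ (MonoidHom.transfer (MonoidHom.id P) : H →* P).ker := by
    apply Abelianization.commutator_subset_ker
    rw [hH]
    exact Subgroup.mem_top z
  rw [MonoidHom.mem_ker] at h2
  rw [h2] at h1
  have := congrArg Subtype.val h1
  simpa using this.symm

/-- A finite perfect group with cyclic Sylow p-subgroups has no perfect central extension whose kernel has order divisible by p. -/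
theorem result {G : Type*} {H : Type*} [Group G] [Group H] [Finite G] [Finite H] (hG : commutator G = ⊤) {p : ℕ} [Fact p.Prime] (hcyc : ∀ P : Sylow p G, IsCyclic P) (σ : H →* G) (hσ : Function.Surjective σ) (hz : σ.ker ≤ Subgroup.center H) (hH : commutator H = ⊤) : ¬ p ∣ Nat.card σ.ker := by
  classical
  have hp : p.Prime := Fact.out
  intro hdvd
  obtain ⟨z₀, hz₀⟩ := exists_prime_orderOf_dvd_card' (G := σ.ker) p hdvd
  have hzo : orderOf (z₀ : H) = p := by
    rw [Subgroup.orderOf_coe]
    exact hz₀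
  have hzc : (z₀ : H) ∈ Subgroup.center H := hz z₀.2
  have hzp : IsPGroup p (Subgroup.zpowers (z₀ : H)) := by
    apply IsPGroup.of_card (n := 1)
    rw [Nat.card_zpowers, hzo, pow_one]
  obtain ⟨Pt, hPt⟩ := IsPGroup.exists_le_sylow hzp
  obtain ⟨P, hP⟩ := IsPGroup.exists_le_sylow (Pt.isPGroup'.map σ)
  haveI := hcyc P
  let f : (Pt : Subgroup H) →* (P : Subgroup G) :=
    (σ.comp (Pt : Subgroup H).subtype).codRestrict (P : Subgroup G)
      (fun x => hP ⟨x.1, x.2, rfl⟩)
  have hf : f.ker ≤ Subgroup.center (Pt : Subgroup H) := by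
    intro w hw
    rw [MonoidHom.mem_ker] at hw
    have h1 : σ (w : H) = 1 := congrArg Subtype.val hw
    have h2 : (w : H) ∈ Subgroup.center H := hz (MonoidHom.mem_ker.2 h1)
    rw [Subgroup.mem_center_iff]
    intro g
    apply Subtype.ext
    exact Subgroup.mem_center_iff.1 h2 g
  haveI : IsMulCommutative (Pt : Subgroup H) := f.isMulCommutative_of_isCyclic_of_ker_le_center hf
  have h3 := central_pow_index (Pt : Subgroup H) hH (z₀ : H) hzc
  have h4 := orderOf_dvd_of_pow_eq_one h3
  rw [hzo] at h4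
  exact Pt.not_dvd_index h4

end Cfsg.Agent.S0102
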