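import Mathlib
import Cfsg.Agent.Lib.Helper1.Inv
import Cfsg.Statements.S0103

set_option autoImplicit false
open Cfsg
open Pointwise

namespace Cfsg.Agent.S0103

/-- If a Sylow p-subgroup P intersects every distinct conjugate trivially, then its normalizer controls fusion in P. -/
theorem result {G : Type*} [Group G] [Finite G] {p : ℕ} [Fact p.Prime] (P : Sylow p G) (hTI : ∀ g : G, (P : Subgroup G).map (MulAut.conj g).toMonoidHom ≠ (P : Subgroup G) → (P : Subgroup G) ⊓ (P : Subgroup G).map (MulAut.conj g).toMonoidHom = ⊥) (x y : G) (hx : x ∈ P) (hy : y ∈ P) (hc : ∃ g : G, g * x * g⁻¹ = y) : ∃ n ∈ Subgroup.normalizer (P : Set G), n * x * n⁻¹ = y := by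
  obtain ⟨g, hg⟩ := hc
  by_cases hmap : (P : Subgroup G).map (MulAut.conj g).toMonoidHom = (P : Subgroup G)
  · refine ⟨g, ?_, hg⟩
    show g ∈ Subgroup.normalizer ((P : Subgroup G) : Set G)
    rw [Subgroup.mem_normalizer_iff]
    intro h
    constructor
    · intro hh
      have h1 : g * h * g⁻¹ ∈ (P : Subgroup G).map (MulAut.conj g).toMonoidHom := ⟨h, hh, rfl⟩
      rw [hmap] at h1
      exact h1
    · intro hh
      have hh' : g * h * g⁻¹ ∈ (P : Subgroup G) := hh
      rw [← hmap] at hh'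
      obtain ⟨h', hh'P, hh'eq⟩ := hh'
      have h2 : g * h' * g⁻¹ = g * h * g⁻¹ := hh'eq
      have h3 : h' = h := by
        have h4 := mul_right_cancel h2
        exact mul_left_cancel h4
      rw [← h3]
      exact hh'P
  · have h1 := hTI g hmap
    have h2 : y ∈ (P : Subgroup G) ⊓ (P : Subgroup G).map (MulAut.conj g).toMonoidHom :=
      Subgroup.mem_inf.mpr ⟨hy, ⟨x, hx, hg⟩⟩
    rw [h1, Subgroup.mem_bot] at h2
    have h3 : x = 1 := by
      rw [h2] at hg
      have h4 : x = g⁻¹ * (g * x * g⁻¹) * g := by group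
      rw [h4, hg]
      group
    refine ⟨1, Subgroup.one_mem _, ?_⟩
    rw [h3, h2]
    group

end Cfsg.Agent.S0103
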