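import Mathlib
import Cfsg.Agent.Lib.Helper1.Nil
import Cfsg.Statements.S0104

set_option autoImplicit false
open Cfsg
open Pointwise

namespace Cfsg.Agent.S0104

/-- A subgroup Z of a Sylow p-subgroup P that is normalized by N_G(P) is weakly closed in P exactly when it is normal in every Sylow p-subgroup containing it. -/
theorem result {G : Type*} [Group G] [Finite G] {p : ℕ} [Fact p.Prime] (P : Sylow p G) (Z : Subgroup G) (hZP : Z ≤ (P : Subgroup G)) (hZN : Subgroup.normalizer (P : Set G) ≤ Subgroup.normalizer (Z : Set G)) : Cfsg.IsWeaklyClosed Z P ↔ ∀ R : Sylow p G, Z ≤ (R : Subgroup G) → (R : Subgroup G) ≤ Subgroup.normalizer (Z : Set G) := by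
  constructor
  · rintro ⟨-, hW⟩ R hZR
    obtain ⟨g, hg⟩ := MulAction.exists_smul_eq G P R
    have h1 : Z.map (MulAut.conj g⁻¹).toMonoidHom ≤ (P : Subgroup G) := by
      intro x hx
      rw [Lib.Helper1.mem_map_conj_iff, inv_inv] at hx
      have h2 : g * x * g⁻¹ ∈ R := hZR hx
      rw [← hg, Lib.Helper1.sylow_smul_mem_iff] at h2
      have h3 : g⁻¹ * (g * x * g⁻¹) * g = x := by group
      rw [h3] at h2
      exact h2
    have h4 := Lib.Helper1.mem_normalizer_of_map_conj_eq Z g⁻¹ (hW g⁻¹ h1)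
    have hgN : g ∈ Subgroup.normalizer (Z : Set G) := by
      have h5 := Subgroup.inv_mem _ h4
      rwa [inv_inv] at h5
    intro r hr
    have hr' : r ∈ R := hr
    rw [← hg, Lib.Helper1.sylow_smul_mem_iff] at hr'
    have h6 : g⁻¹ * r * g ∈ Subgroup.normalizer (Z : Set G) :=
      hZN (Subgroup.le_normalizer hr')
    have h7 : r = g * (g⁻¹ * r * g) * g⁻¹ := by group
    rw [h7]
    exact Subgroup.mul_mem _ (Subgroup.mul_mem _ hgN h6) (Subgroup.inv_mem _ hgN)
  · intro hyp
    refine ⟨hZP, ?_⟩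
    intro g hg
    have hZR : Z ≤ ((g⁻¹ • P : Sylow p G) : Subgroup G) := by
      intro z hz
      apply (Lib.Helper1.sylow_smul_mem_iff P g⁻¹ z).mpr
      rw [inv_inv]
      exact hg ⟨z, hz, rfl⟩
    have hRN := hyp (g⁻¹ • P) hZR
    have hPN : (P : Subgroup G) ≤ Subgroup.normalizer (Z : Set G) :=
      le_trans Subgroup.le_normalizer hZN
    obtain ⟨n, hn, hnP⟩ := Lib.Helper1.sylow_conj_in_subgroup
      (Subgroup.normalizer (Z : Set G)) P (g⁻¹ • P) hPN hRN
    rw [← mul_smul] at hnP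
    have h1 : n * g⁻¹ ∈ Subgroup.normalizer ((P : Subgroup G) : Set G) :=
      Sylow.smul_eq_iff_mem_normalizer.mp hnP
    have h2 : n * g⁻¹ ∈ Subgroup.normalizer (Z : Set G) := hZN h1
    have h3 : g ∈ Subgroup.normalizer (Z : Set G) := by
      have h4 : g = (n * g⁻¹)⁻¹ * n := by group
      rw [h4]
      exact Subgroup.mul_mem _ (Subgroup.inv_mem _ h2) hn
    exact Lib.Helper1.map_conj_eq_of_mem_normalizer Z g h3

end Cfsg.Agent.S0104
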