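import Mathlib
import Cfsg.Statements.S0105

set_option autoImplicit false
open Pointwise
open Cfsg
open scoped IsMulCommutative

namespace Cfsg.Agent.S0105

theorem result {G : Type*} [Group G] [Finite G] {p : ℕ} [Fact p.Prime] (P : Sylow p G) (hP : IsMulCommutative P) : ∃ (N : Subgroup G) (hN : N.Normal), Nonempty (G ⧸ N ≃* ((P : Subgroup G) ⊓ Subgroup.centralizer (Subgroup.normalizer (P : Set G) : Set G) : Subgroup G)) := by
  classical
  haveI := hP
  have hPN : (P : Subgroup G) ≤ Subgroup.normalizer ((P : Subgroup G) : Set G) :=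
    Subgroup.le_normalizer
  haveI hPn : ((P : Subgroup G).subgroupOf (Subgroup.normalizer ((P : Subgroup G) : Set G))).Normal :=
    (Subgroup.normal_subgroupOf_iff_le_normalizer hPN).2 le_rfl
  have hrel : (P : Subgroup G).relIndex (Subgroup.normalizer ((P : Subgroup G) : Set G)) ∣
      (P : Subgroup G).index := by
    rw [← Subgroup.relIndex_mul_index hPN]; exact dvd_mul_right _ _
  have hcardP' : Nat.card ((P : Subgroup G).subgroupOf
      (Subgroup.normalizer ((P : Subgroup G) : Set G))) = Nat.card (P : Subgroup G) :=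
    Nat.card_congr (Subgroup.subgroupOfEquivOfLe hPN).toEquiv
  have hcop : (Nat.card ((P : Subgroup G).subgroupOf
      (Subgroup.normalizer ((P : Subgroup G) : Set G)))).Coprime
      ((P : Subgroup G).subgroupOf (Subgroup.normalizer ((P : Subgroup G) : Set G))).index := by
    rw [hcardP']
    exact Nat.Coprime.coprime_dvd_right hrel P.card_coprime_index
  obtain ⟨K', hK'⟩ := Subgroup.exists_right_complement'_of_coprime hcop
  letI : Fintype K' := Fintype.ofFinite K'
  have hK'card : Nat.card K' ∣ (P : Subgroup G).index := by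
    have h1 := hK'.card_mul
    have h2 := Subgroup.card_mul_index ((P : Subgroup G).subgroupOf
      (Subgroup.normalizer ((P : Subgroup G) : Set G)))
    have hpos : 0 < Nat.card ((P : Subgroup G).subgroupOf
      (Subgroup.normalizer ((P : Subgroup G) : Set G))) := Nat.card_pos
    have h3 : Nat.card K' = ((P : Subgroup G).subgroupOf
      (Subgroup.normalizer ((P : Subgroup G) : Set G))).index :=
      Nat.eq_of_mul_eq_mul_left hpos (h1.trans h2.symm)
    rw [h3]; exact hrel
  let τ : G →* (P : Subgroup G) := MonoidHom.transfer (MonoidHom.id (P : Subgroup G))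
  let ν : ↥(P : Subgroup G) →* ↥(P : Subgroup G) :=
    ∏ k : K', ((P : Subgroup G).normalizerMonoidHom
      (k : Subgroup.normalizer ((P : Subgroup G) : Set G))).toMonoidHom
  have hν : ∀ y : ↥(P : Subgroup G), ν y = ∏ k : K', ((P : Subgroup G).normalizerMonoidHom
      (k : Subgroup.normalizer ((P : Subgroup G) : Set G))) y := by
    intro y
    simp only [ν, MonoidHom.finset_prod_apply]
    rfl
  -- (1) ν y is centralized by N
  have h1 : ∀ y : ↥(P : Subgroup G), ((ν y : (P : Subgroup G)) : G) ∈
      Subgroup.centralizer (Subgroup.normalizer ((P : Subgroup G) : Set G) : Set G) := by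
    intro y
    rw [Subgroup.mem_centralizer_iff]
    intro m hm
    obtain ⟨⟨⟨y₀, hy₀⟩, ⟨k₀, hk₀⟩⟩, hyk⟩ := hK'.2 ⟨m, hm⟩
    simp only at hyk
    have hm' : m = (y₀ : G) * (k₀ : G) := by
      have := congrArg Subtype.val hyk
      simpa using this.symm
    have hy₀P : (y₀ : G) ∈ (P : Subgroup G) := Subgroup.mem_subgroupOf.1 hy₀
    have hc1 : (y₀ : G) * (ν y : G) = (ν y : G) * (y₀ : G) := by
      have := mul_comm (⟨(y₀ : G), hy₀P⟩ : (P : Subgroup G)) (ν y)
      exact congrArg Subtype.val this
    have hc2 : (k₀ : G) * (ν y : G) * (k₀ : G)⁻¹ = (ν y : G) := by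
      have h2 : ((P : Subgroup G).normalizerMonoidHom k₀) (ν y) = ν y := by
        rw [hν, map_prod]
        have h3 : ∀ k : K', ((P : Subgroup G).normalizerMonoidHom k₀)
            (((P : Subgroup G).normalizerMonoidHom
            (k : Subgroup.normalizer ((P : Subgroup G) : Set G))) y) =
            ((P : Subgroup G).normalizerMonoidHom
            (((⟨k₀, hk₀⟩ : K') * k : K') : Subgroup.normalizer ((P : Subgroup G) : Set G))) y := by
          intro k
          rw [Subgroup.coe_mul, map_mul]
          rfl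
        simp_rw [h3]
        exact Fintype.prod_equiv (Equiv.mulLeft (⟨k₀, hk₀⟩ : K')) _ _ (fun k => rfl)
      have h4 := congrArg Subtype.val h2
      simp only [Subgroup.normalizerMonoidHom_apply_apply_coe] at h4
      exact h4
    rw [hm']
    calc (y₀ : G) * (k₀ : G) * (ν y : G) = (y₀ : G) * ((k₀ : G) * (ν y : G) * (k₀ : G)⁻¹) * (k₀ : G) := by
          group
      _ = (y₀ : G) * (ν y : G) * (k₀ : G) := by rw [hc2]
      _ = (ν y : G) * ((y₀ : G) * (k₀ : G)) := by rw [hc1]; group
  -- (2) ν z = z ^ card K' for central z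
  have h2 : ∀ z : ↥(P : Subgroup G), (z : G) ∈
      Subgroup.centralizer (Subgroup.normalizer ((P : Subgroup G) : Set G) : Set G) →
      ν z = z ^ Nat.card K' := by
    intro z hz
    rw [hν]
    have h3 : ∀ k : K', ((P : Subgroup G).normalizerMonoidHom
        (k : Subgroup.normalizer ((P : Subgroup G) : Set G))) z = z := by
      intro k
      apply Subtype.ext
      have hk := (Subgroup.mem_centralizer_iff.1 hz) (k : G) (k : Subgroup.normalizer ((P : Subgroup G) : Set G)).2
      simp only [Subgroup.normalizerMonoidHom_apply_apply_coe]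
      rw [hk, mul_inv_cancel_right]
    simp_rw [h3]
    rw [Finset.prod_const, Finset.card_univ, Nat.card_eq_fintype_card]
  -- (3) τ z = z ^ index for central z
  have h3 : ∀ z : ↥(P : Subgroup G), (z : G) ∈
      Subgroup.centralizer (Subgroup.normalizer ((P : Subgroup G) : Set G) : Set G) →
      τ (z : G) = z ^ (P : Subgroup G).index := by
    intro z hz
    have key : ∀ (k : ℕ) (g₀ : G), g₀⁻¹ * (z : G) ^ k * g₀ ∈ (P : Subgroup G) →
        g₀⁻¹ * (z : G) ^ k * g₀ = (z : G) ^ k := by
      intro k g₀ hk
      obtain ⟨n, hn, h⟩ := P.conj_eq_normalizer_conj_of_mem ((z : G) ^ k) g₀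
        (Subgroup.pow_mem _ z.2 k) hk
      rw [h]
      have hzk : (z : G) ^ k ∈ Subgroup.centralizer
          (Subgroup.normalizer ((P : Subgroup G) : Set G) : Set G) := Subgroup.pow_mem _ hz k
      have := (Subgroup.mem_centralizer_iff.1 hzk) n hn
      rw [mul_assoc, ← this, inv_mul_cancel_left]
    have := MonoidHom.transfer_eq_pow (MonoidHom.id (P : Subgroup G)) (z : G) key
    rw [show τ (z : G) = MonoidHom.transfer (MonoidHom.id (P : Subgroup G)) (z : G) from rfl, this]
    apply Subtype.ext
    simp
  let ψ : G →* (P : Subgroup G) := ν.comp τ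
  set Z : Subgroup G := (P : Subgroup G) ⊓
    Subgroup.centralizer (Subgroup.normalizer ((P : Subgroup G) : Set G) : Set G) with hZ
  have hrange : ψ.range = Z.subgroupOf (P : Subgroup G) := by
    apply le_antisymm
    · rintro _ ⟨g, rfl⟩
      rw [Subgroup.mem_subgroupOf]
      exact ⟨(ψ g).2, h1 (τ g)⟩
    · intro z hz
      rw [Subgroup.mem_subgroupOf] at hz
      have hZp : IsPGroup p (Z.subgroupOf (P : Subgroup G)) := P.2.to_subgroup _
      have hcopZ : (Nat.card (Z.subgroupOf (P : Subgroup G))).Coprime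
          ((P : Subgroup G).index * Nat.card K') := by
        obtain ⟨a, ha⟩ := (IsPGroup.iff_card).1 hZp
        rw [ha]
        apply Nat.Coprime.pow_left
        have hp := (Fact.out : p.Prime)
        rw [Nat.Prime.coprime_iff_not_dvd hp]
        intro hdvd
        rcases (Nat.Prime.dvd_mul hp).1 hdvd with h | h
        · exact P.not_dvd_index h
        · exact P.not_dvd_index (h.trans hK'card)
      obtain ⟨w, hw⟩ := (powCoprime hcopZ).surjective ⟨z, Subgroup.mem_subgroupOf.2 hz⟩
      rw [powCoprime_apply] at hw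
      have hwZ : ((w : (P : Subgroup G)) : G) ∈ Z := Subgroup.mem_subgroupOf.1 w.2
      refine ⟨((w : (P : Subgroup G)) : G), ?_⟩
      show ν (τ ((w : (P : Subgroup G)) : G)) = z
      rw [h3 _ hwZ.2, h2 _ (Subgroup.pow_mem _ hwZ.2 _), ← pow_mul]
      have := congrArg Subtype.val hw
      simpa using this
  refine ⟨ψ.ker, MonoidHom.normal_ker ψ, ⟨?_⟩⟩
  exact (QuotientGroup.quotientKerEquivRange ψ).trans
    ((MulEquiv.subgroupCongr hrange).trans (Subgroup.subgroupOfEquivOfLe inf_le_left))

end Cfsg.Agent.S0105
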