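import Mathlib
import Cfsg.Agent.Lib.Helper1.Frob
import Cfsg.Agent.Lib.Helper1.QSyl
import Cfsg.Statements.S0106

set_option autoImplicit false
open Cfsg

namespace Cfsg.Agent.S0106

/-- A finite group with generalized quaternion Sylow 2-subgroups either has a normal 2-complement or has a section isomorphic to SL(2,3). -/
theorem result {G : Type*} [Group G] [Finite G] (T : Sylow 2 G) (n : ℕ) (hn : 1 ≤ n) (hT : Nonempty ((T : Subgroup G) ≃* QuaternionGroup (2 ^ n))) : Cfsg.HasNormalPComplement 2 G ∨ ∃ (H K : Subgroup G) (hK : (K.subgroupOf H).Normal), Nonempty ((H ⧸ K.subgroupOf H) ≃* Matrix.SpecialLinearGroup (Fin 2) (ZMod 3)) := by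
  classical
  haveI : Fact (Nat.Prime 2) := ⟨Nat.prime_two⟩
  obtain ⟨eT⟩ := hT
  haveI : NeZero (2 ^ n) := ⟨by positivity⟩
  by_cases hcrit : ∀ Q : Subgroup G, Q ≤ T → ∀ g ∈ Subgroup.normalizer (Q : Set G),
      (orderOf g).Coprime 2 → g ∈ Subgroup.centralizer (Q : Set G)
  · left
    obtain ⟨N, hN, hc⟩ := Cfsg.Agent.Lib.Helper1.Frob.exists_normal_complement T hcrit
    exact ⟨T, N, hN, hc⟩
  · right
    simp only [not_forall] at hcrit
    obtain ⟨Q, hQT, g, hg, hodd, hnc⟩ := hcrit
    have hQ2 : IsPGroup 2 Q := T.2.to_le hQT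
    obtain ⟨z, hz⟩ : ∃ z : G, z = ((eT.symm (QuaternionGroup.a ((2 ^ n : ℕ) : ZMod (2 * 2 ^ n))) :
        (T : Subgroup G)) : G) := ⟨_, rfl⟩
    have hinvT : ∀ x ∈ (T : Subgroup G), x * x = 1 → x ≠ 1 → x = z := by
      intro x hx hxx hx1
      have h1 : eT ⟨x, hx⟩ * eT ⟨x, hx⟩ = 1 := by
        rw [← map_mul]
        have : (⟨x, hx⟩ : (T : Subgroup G)) * ⟨x, hx⟩ = 1 := Subtype.ext hxx
        rw [this, map_one]
      rcases Cfsg.Agent.Lib.Helper1.QSyl.quat_invol (eT ⟨x, hx⟩) h1 with h | h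
      · exfalso
        apply hx1
        have := eT.injective (h.trans (map_one eT).symm)
        exact congrArg Subtype.val this
      · rw [hz, ← h, eT.symm_apply_apply]
    have hgen : ∀ H : Subgroup Q, Nat.card H = 2 → ∃ h : Q, h ≠ 1 ∧ (h : G) = z ∧
        H = Subgroup.zpowers h := by
      intro H hH
      have hHbot : H ≠ ⊥ := by
        rintro rfl
        rw [Subgroup.card_bot] at hH
        omega
      obtain ⟨a, ha⟩ := (Subgroup.ne_bot_iff_exists_ne_one).1 hHbot
      have ha2 : a ^ 2 = 1 := by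
        have := pow_card_eq_one' (G := H) (x := a)
        rwa [hH] at this
      have ha1 : (a : Q) ≠ 1 := fun h => ha (Subtype.ext h)
      have ha2' : (a : Q) ^ 2 = 1 := by
        have := congrArg Subtype.val ha2
        simpa using this
      have hxx : ((a : Q) : G) * ((a : Q) : G) = 1 := by
        have := congrArg Subtype.val ha2'
        rw [pow_two] at this
        exact this
      refine ⟨(a : Q), ha1, hinvT _ (hQT (a : Q).2) hxx (fun h => ha1 (Subtype.ext h)), ?_⟩
      symm
      apply Subgroup.eq_of_le_of_card_ge (Subgroup.zpowers_le.2 a.2)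
      rw [Nat.card_zpowers, orderOf_eq_prime ha2' ha1, hH]
    have huniq : ∀ H K : Subgroup Q, Nat.card H = 2 → Nat.card K = 2 → H = K := by
      intro H K hH hK
      obtain ⟨h, -, hhz, hHh⟩ := hgen H hH
      obtain ⟨k, -, hkz, hKk⟩ := hgen K hK
      have : h = k := Subtype.ext (hhz.trans hkz.symm)
      rw [hHh, hKk, this]
    rcases Cfsg.Agent.Lib.Helper1.UniqP.cyclic_or_quat hQ2 huniq with hcyc | ⟨-, k, ⟨eQ⟩⟩
    · exfalso
      haveI := hcyc
      exact hnc (Cfsg.Agent.Lib.Helper1.DihCent.odd_normalizer_cyclic Q hQ2 g hg hodd)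
    · rcases Nat.lt_or_ge k 2 with hk | hk
      · interval_cases k
        · exfalso
          have e1 : Q ≃* QuaternionGroup 1 := eQ
          haveI : IsCyclic (QuaternionGroup 1) := QuaternionGroup.quaternionGroup_one_isCyclic
          haveI : IsCyclic Q := isCyclic_of_surjective e1.symm e1.symm.surjective
          exact hnc (Cfsg.Agent.Lib.Helper1.DihCent.odd_normalizer_cyclic Q hQ2 g hg hodd)
        · have e2 : Q ≃* QuaternionGroup 2 := eQ
          exact Cfsg.Agent.Lib.Helper1.QSyl.q8_section Q e2 g hg hodd hnc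
      · exfalso
        exact hnc (Cfsg.Agent.Lib.Helper1.QSyl.centralizes_big Q k hk eQ hQ2 g hg hodd)

end Cfsg.Agent.S0106
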