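import Mathlib
import Cfsg.Agent.Lib.Helper1.ThT
import Cfsg.Statements.S0107

set_option autoImplicit false
open Cfsg

namespace Cfsg.Agent.S0107

/-- A finite group with no nontrivial 2-group quotient and dihedral Sylow 2-subgroups of order at least 8 has a single class of involutions. -/
theorem result {G : Type*} [Group G] [Finite G] (T : Sylow 2 G) (n : ℕ) (hn : 2 ≤ n) (hT : Nonempty ((T : Subgroup G) ≃* DihedralGroup (2 ^ n))) (hO : Cfsg.pResidual 2 G = ⊤) (x y : G) (hx : orderOf x = 2) (hy : orderOf y = 2) : ∃ g : G, g * x * g⁻¹ = y := by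
  obtain ⟨e⟩ := hT
  have hno := Cfsg.Agent.Lib.Helper1.ThT.no_index_two_of_residual (G := G) hO
  apply Cfsg.Agent.Lib.Helper1.ThT.involutions_conj_of_cyclic_index_two hno T
    ((e.symm (DihedralGroup.r 1) : (T : Subgroup G)) : G) (Subtype.property _) _ x y hx hy
  rw [Subgroup.orderOf_coe, MulEquiv.orderOf_eq, DihedralGroup.orderOf_r_one,
    Nat.card_congr e.toEquiv, DihedralGroup.nat_card]

end Cfsg.Agent.S0107
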