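import Mathlib
import Cfsg.Statements.S0110
import Cfsg.Agent.S0095
import Cfsg.Agent.Lib.Helper3.PGroup

set_option autoImplicit false
open Pointwise
open Cfsg
open scoped commutatorElement

namespace Cfsg.Agent.S0110

open Cfsg.Agent.S0095

variable {G : Type*} [Group G]

theorem commHom_swap (Z : Subgroup G) (hZ : ∀ a b : G, ⁅a, b⁆ ∈ Z) (hZc : Z ≤ Subgroup.center G)
    (a b : G) : commHom Z hZ hZc a b = (commHom Z hZ hZc b a)⁻¹ := by
  apply Subtype.ext
  show ⁅a, b⁆ = (⁅b, a⁆)⁻¹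
  rw [commutatorElement_inv]

theorem decomp {p : ℕ} [Fact p.Prime] (Z : Subgroup G) (hZ : ∀ a b : G, ⁅a, b⁆ ∈ Z)
    (hZc : Z ≤ Subgroup.center G) (hcard : Nat.card Z = p) (x y : G) (hxy : ⁅x, y⁆ ≠ 1) (g : G) :
    ∃ g₂ ∈ Subgroup.centralizer ({x} : Set G) ⊓ Subgroup.centralizer ({y} : Set G),
      ∃ k i : ℕ, g = g₂ * x ^ k * y ^ i := by
  set ψx := commHom Z hZ hZc x with hψx
  set ψy := commHom Z hZ hZc y with hψy
  have hyx : ⁅y, x⁆ ≠ 1 := by
    intro h
    apply hxy
    rw [← commutatorElement_inv, h, inv_one]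
  have hcz1 : ψx y ≠ 1 := fun h => hxy (congrArg Subtype.val h)
  have hdz1 : ψy x ≠ 1 := fun h => hyx (congrArg Subtype.val h)
  have hψxx : ψx x = 1 := by
    apply Subtype.ext
    show ⁅x, x⁆ = 1
    exact commutatorElement_self x
  obtain ⟨i, hi⟩ := mem_powers_of_prime_card (g' := ψx g) hcard hcz1
  have hi' : ψx y ^ i = ψx g := hi
  set g₁ := g * (y ^ i)⁻¹ with hg₁
  have h1 : ψx g₁ = 1 := by
    rw [hg₁, map_mul, map_inv, map_pow, hi', mul_inv_cancel]
  obtain ⟨k, hk⟩ := mem_powers_of_prime_card (g' := ψy g₁) hcard hdz1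
  have hk' : ψy x ^ k = ψy g₁ := hk
  set g₂ := g₁ * (x ^ k)⁻¹ with hg₂
  have h2 : ψy g₂ = 1 := by
    rw [hg₂, map_mul, map_inv, map_pow, hk', mul_inv_cancel]
  have h3 : ψx g₂ = 1 := by
    rw [hg₂, map_mul, map_inv, map_pow, h1, hψxx, one_pow, inv_one, mul_one]
  refine ⟨g₂, Subgroup.mem_inf.2 ⟨(commHom_eq_one_iff Z hZ hZc x g₂).1 h3,
    (commHom_eq_one_iff Z hZ hZc y g₂).1 h2⟩, k, i, ?_⟩
  rw [hg₂, hg₁]; group

universe u in
theorem hom_inner (p : ℕ) [Fact p.Prime] (n : ℕ) : ∀ (G : Type u) [Group G] [Finite G],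
    Nat.card G = n → ∀ (Z : Subgroup G) (_ : Nat.card Z = p) (hZc : Z ≤ Subgroup.center G)
      (hZ : ∀ a b : G, ⁅a, b⁆ ∈ Z) (θ : G →* ↥Z), (∀ z ∈ Subgroup.center G, θ z = 1) →
      ∃ g₀ : G, ∀ g, θ g = commHom Z hZ hZc g₀ g := by
  induction n using Nat.strong_induction_on with
  | _ n ih =>
    intro G _ _ hn Z hcard hZc hZ θ hθ
    have hpp : p.Prime := Fact.out
    by_cases hab : ∀ a b : G, ⁅a, b⁆ = 1
    · refine ⟨1, fun g => ?_⟩
      have h1 : g ∈ Subgroup.center G := by
        rw [Subgroup.mem_center_iff]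
        intro h
        exact (commutatorElement_eq_one_iff_commute.1 (hab h g)).eq
      rw [hθ g h1]
      apply Subtype.ext
      show (1 : G) = ⁅(1 : G), g⁆
      rw [commutatorElement_one_left]
    · push_neg at hab
      obtain ⟨x, y, hxy⟩ := hab
      set Cx := Subgroup.centralizer ({x} : Set G) with hCx
      set Cy := Subgroup.centralizer ({y} : Set G) with hCy
      set C := Cx ⊓ Cy with hC
      set ψx := commHom Z hZ hZc x with hψx
      set ψy := commHom Z hZ hZc y with hψy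
      have hyx : ⁅y, x⁆ ≠ 1 := by
        intro h
        apply hxy
        rw [← commutatorElement_inv, h, inv_one]
      have hcz1 : ψx y ≠ 1 := fun h => hxy (congrArg Subtype.val h)
      have hdz1 : ψy x ≠ 1 := fun h => hyx (congrArg Subtype.val h)
      have hψxx : ψx x = 1 := by
        apply Subtype.ext
        show ⁅x, x⁆ = 1
        exact commutatorElement_self x
      have hψyy : ψy y = 1 := by
        apply Subtype.ext
        show ⁅y, y⁆ = 1
        exact commutatorElement_self y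
      have hcenC : Subgroup.center G ≤ C := by
        intro z hz
        refine Subgroup.mem_inf.2 ⟨?_, ?_⟩
        · rw [hCx, Subgroup.mem_centralizer_iff]
          intro w _
          exact Subgroup.mem_center_iff.1 hz w
        · rw [hCy, Subgroup.mem_centralizer_iff]
          intro w _
          exact Subgroup.mem_center_iff.1 hz w
      have hZC : Z ≤ C := hZc.trans hcenC
      have hxC : x ∉ C := by
        intro hx
        have h1 := (Subgroup.mem_inf.1 hx).2
        rw [hCy, ← commHom_eq_one_iff Z hZ hZc] at h1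
        exact hdz1 h1
      have hlt : Nat.card ↥C < n := by
        rw [← hn]
        have h1 := Subgroup.card_mul_index C
        have h2 : C.index ≠ 1 := by
          intro h3
          rw [Subgroup.index_eq_one] at h3
          exact hxC (h3 ▸ Subgroup.mem_top x)
        have h3 : C.index ≠ 0 := Subgroup.index_ne_zero_of_finite
        have h4 : 0 < Nat.card ↥C := Nat.card_pos
        have h5 : 2 ≤ C.index := by omega
        nlinarith
      have hcenter : ∀ z : ↥C, z ∈ Subgroup.center ↥C → (z : G) ∈ Subgroup.center G := by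
        intro z hz
        rw [Subgroup.mem_center_iff]
        intro g
        obtain ⟨g₂, hg₂C, k, i, e⟩ := decomp Z hZ hZc hcard x y hxy g
        have hzx : Commute (x : G) (z : G) := by
          have h4 := (Subgroup.mem_inf.1 z.2).1
          rw [hCx, Subgroup.mem_centralizer_iff] at h4
          exact h4 x rfl
        have hzy : Commute (y : G) (z : G) := by
          have h4 := (Subgroup.mem_inf.1 z.2).2
          rw [hCy, Subgroup.mem_centralizer_iff] at h4
          exact h4 y rfl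
        have hzg : Commute g₂ (z : G) := by
          have h4 := Subgroup.mem_center_iff.1 hz ⟨g₂, hg₂C⟩
          exact congrArg Subtype.val h4
        rw [e]
        exact ((hzg.mul_left (hzx.pow_left k)).mul_left (hzy.pow_left i)).eq
      have hcard' : Nat.card ↥(Z.subgroupOf C) = p := by
        rw [← hcard]; exact Nat.card_congr (Subgroup.subgroupOfEquivOfLe hZC).toEquiv
      have hZc' : Z.subgroupOf C ≤ Subgroup.center ↥C := by
        intro z hz
        rw [Subgroup.mem_center_iff]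
        intro c
        apply Subtype.ext
        exact Subgroup.mem_center_iff.1 (hZc (Subgroup.mem_subgroupOf.1 hz)) c
      have hZ' : ∀ a b : ↥C, ⁅a, b⁆ ∈ Z.subgroupOf C := by
        intro a b
        rw [Subgroup.mem_subgroupOf]
        have h1 : ((⁅a, b⁆ : ↥C) : G) = ⁅(a : G), (b : G)⁆ := by
          simp [commutatorElement_def]
        rw [h1]
        exact hZ _ _
      let θ' : ↥C →* ↥(Z.subgroupOf C) :=
        (Subgroup.subgroupOfEquivOfLe hZC).symm.toMonoidHom.comp (θ.comp C.subtype)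
      have hθ'val : ∀ c : ↥C, (((θ' c : ↥(Z.subgroupOf C)) : ↥C) : G) = ((θ (c : G) : ↥Z) : G) :=
        fun c => rfl
      obtain ⟨c₀, hc₀⟩ := ih _ hlt ↥C rfl (Z.subgroupOf C) hcard' hZc' hZ' θ' (by
        intro z hz
        apply Subtype.ext
        apply Subtype.ext
        rw [hθ'val, hθ (z : G) (hcenter z hz)]
        rfl)
      have hc₀' : ∀ c ∈ C, ((θ c : ↥Z) : G) = ⁅(c₀ : G), c⁆ := by
        intro c hc
        have h1 := hc₀ ⟨c, hc⟩
        have h2 := congrArg (fun w : ↥(Z.subgroupOf C) => ((w : ↥C) : G)) h1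
        simp only [hθ'val] at h2
        rw [h2]
        show ((⁅c₀, (⟨c, hc⟩ : ↥C)⁆ : ↥C) : G) = ⁅(c₀ : G), c⁆
        simp [commutatorElement_def]
      obtain ⟨j, hj⟩ := mem_powers_of_prime_card (g' := θ x) hcard hdz1
      have hj' : ψy x ^ j = θ x := hj
      obtain ⟨i, hi⟩ := mem_powers_of_prime_card (g' := θ y) hcard hcz1
      have hi' : ψx y ^ i = θ y := hi
      set g₀ : G := (c₀ : G) * x ^ i * y ^ j with hg₀
      refine ⟨g₀, ?_⟩
      set Ψ := commHom Z hZ hZc g₀ with hΨ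
      have hc₀x : ψx (c₀ : G) = 1 :=
        (commHom_eq_one_iff Z hZ hZc x _).2 (Subgroup.mem_inf.1 c₀.2).1
      have hc₀y : ψy (c₀ : G) = 1 :=
        (commHom_eq_one_iff Z hZ hZc y _).2 (Subgroup.mem_inf.1 c₀.2).2
      have hswap : ψy x = (ψx y)⁻¹ := commHom_swap Z hZ hZc y x
      have hΨx : Ψ x = θ x := by
        rw [hΨ, commHom_swap, hg₀, map_mul, map_mul, map_pow, map_pow, ← hψx, hc₀x, hψxx,
          one_pow, one_mul, one_mul, ← hj', hswap, inv_pow]
      have hΨy : Ψ y = θ y := by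
        rw [hΨ, commHom_swap, hg₀, map_mul, map_mul, map_pow, map_pow, ← hψy, hc₀y, hψyy,
          one_pow, one_mul, mul_one, ← hi', hswap, inv_pow, inv_inv]
      have hΨC : ∀ c ∈ C, Ψ c = θ c := by
        intro c hc
        have hcx : commHom Z hZ hZc c x = 1 := by
          rw [commHom_eq_one_iff, Subgroup.mem_centralizer_iff]
          intro w hw
          rw [Set.mem_singleton_iff] at hw
          rw [hw]
          have h4 := (Subgroup.mem_inf.1 hc).1
          rw [hCx, Subgroup.mem_centralizer_iff] at h4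
          exact (h4 x rfl).symm
        have hcy : commHom Z hZ hZc c y = 1 := by
          rw [commHom_eq_one_iff, Subgroup.mem_centralizer_iff]
          intro w hw
          rw [Set.mem_singleton_iff] at hw
          rw [hw]
          have h4 := (Subgroup.mem_inf.1 hc).2
          rw [hCy, Subgroup.mem_centralizer_iff] at h4
          exact (h4 y rfl).symm
        rw [hΨ, commHom_swap, hg₀, map_mul, map_mul, map_pow, map_pow, hcx, hcy, one_pow,
          one_pow, mul_one, mul_one, ← commHom_swap]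
        apply Subtype.ext
        rw [hc₀' c hc]
        rfl
      intro g
      obtain ⟨g₂, hg₂C, k, l, e⟩ := decomp Z hZ hZc hcard x y hxy g
      rw [e, map_mul, map_mul, map_pow, map_pow, map_mul, map_mul, map_pow, map_pow, hΨx, hΨy,
        hΨC g₂ hg₂C]

theorem result {G : Type*} [Group G] [Finite G] {p : ℕ} [Fact p.Prime] (hG : IsPGroup p G) (E : Subgroup G) (hE : Cfsg.IsExtraspecial p E) (h : ⁅(⊤ : Subgroup G), E⁆ ≤ E ⊓ Subgroup.centralizer (E : Set G)) : E ⊔ Subgroup.centralizer (E : Set G) = ⊤ := by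
  obtain ⟨⟨hEp, hΦ, hD⟩, hZcard⟩ := hE
  have hpp : p.Prime := Fact.out
  have hcomm : ∀ (g : G) (e : G), e ∈ E → ⁅g, e⁆ ∈ E ⊓ Subgroup.centralizer (E : Set G) :=
    fun g e he => h (Subgroup.commutator_mem_commutator (Subgroup.mem_top g) he)
  -- Z₀ = Z(E) inside G is central in G
  have hZcentral : ∀ z : ↥E, z ∈ Subgroup.center ↥E → (z : G) ∈ Subgroup.center G := by
    set Z₀ : Subgroup G := (Subgroup.center ↥E).map E.subtype with hZ₀
    have hZ₀mem : ∀ w : G, w ∈ Z₀ ↔ w ∈ E ∧ ∀ e ∈ E, e * w = w * e := by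
      intro w
      constructor
      · rintro ⟨z, hz, rfl⟩
        refine ⟨z.2, fun e he => ?_⟩
        have h1 := Subgroup.mem_center_iff.1 hz ⟨e, he⟩
        exact congrArg Subtype.val h1
      · rintro ⟨hw, hw'⟩
        refine ⟨⟨w, hw⟩, Subgroup.mem_center_iff.2 (fun e => Subtype.ext (hw' e e.2)), rfl⟩
    have hnorm : ⁅Z₀, (⊤ : Subgroup G)⁆ ≤ Z₀ := by
      rw [Subgroup.commutator_le]
      intro w hw g _
      obtain ⟨hwE, hwc⟩ := (hZ₀mem w).1 hw
      have h1 := hcomm g⁻¹ w hwE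
      -- ⁅w, g⁆ = w * (g * w⁻¹ * g⁻¹); and ⁅g⁻¹, w⁆ ... use: ⁅w, g⁆ = (⁅g, w⁆)⁻¹
      have h2 := hcomm g w hwE
      have h3 : ⁅w, g⁆ = (⁅g, w⁆)⁻¹ := (commutatorElement_inv g w).symm
      rw [h3]
      apply Subgroup.inv_mem
      rw [hZ₀mem]
      refine ⟨(Subgroup.mem_inf.1 h2).1, fun e he => ?_⟩
      exact Subgroup.mem_centralizer_iff.1 (Subgroup.mem_inf.1 h2).2 e he
    have hne : ¬ Z₀ ≤ ⊥ := by
      intro hle
      have h1 : Z₀ = ⊥ := le_bot_iff.1 hle
      rw [hZ₀, Subgroup.map_eq_bot_iff_of_injective _ (Subgroup.subtype_injective E)] at h1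
      rw [h1, Subgroup.card_bot] at hZcard
      exact hpp.one_lt.ne hZcard
    haveI : Group.IsNilpotent G := hG.isNilpotent
    obtain ⟨x, hx, hx1, hxc⟩ := Cfsg.Agent.Lib.Helper3.PGroup.exists_comm_mem ⊥ Z₀ ⊤ hnorm hne
    obtain ⟨x', hx', rfl⟩ := hx
    have hx'1 : (⟨x', hx'⟩ : ↥(Subgroup.center ↥E)) ≠ 1 := by
      intro h1
      apply hx1
      rw [Subgroup.mem_bot]
      have h2 : x' = 1 := congrArg Subtype.val h1
      rw [h2]; rfl
    intro z hz
    obtain ⟨m, hm⟩ := mem_powers_of_prime_card (g' := (⟨z, hz⟩ : ↥(Subgroup.center ↥E))) hZcard hx'1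
    have hm' : (E.subtype x') ^ m = (z : G) := by
      have h1 : (⟨x', hx'⟩ : ↥(Subgroup.center ↥E)) ^ m = ⟨z, hz⟩ := hm
      have h2 := congrArg (fun w : ↥(Subgroup.center ↥E) => ((w : ↥E) : G)) h1
      simpa using h2
    rw [← hm']
    apply Subgroup.pow_mem
    rw [Subgroup.mem_center_iff]
    intro g
    have h1 := hxc g (Subgroup.mem_top g)
    rw [Subgroup.mem_bot, commutatorElement_eq_one_iff_commute] at h1
    exact h1.eq.symm
  rw [eq_top_iff]
  intro g _
  -- the hom θ_g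
  have hmemc : ∀ e : ↥E, (⟨⁅g, (e : G)⁆, (Subgroup.mem_inf.1 (hcomm g e e.2)).1⟩ : ↥E) ∈
      Subgroup.center ↥E := by
    intro e
    rw [Subgroup.mem_center_iff]
    intro e'
    apply Subtype.ext
    exact Subgroup.mem_centralizer_iff.1 (Subgroup.mem_inf.1 (hcomm g e e.2)).2 e' e'.2
  let θ : ↥E →* ↥(Subgroup.center ↥E) :=
    { toFun := fun e => ⟨⟨⁅g, (e : G)⁆, (Subgroup.mem_inf.1 (hcomm g e e.2)).1⟩, hmemc e⟩
      map_one' := by
        apply Subtype.ext
        apply Subtype.ext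
        show ⁅g, ((1 : ↥E) : G)⁆ = 1
        simp
      map_mul' := by
        intro a b
        apply Subtype.ext
        apply Subtype.ext
        show ⁅g, ((a * b : ↥E) : G)⁆ = ⁅g, (a : G)⁆ * ⁅g, (b : G)⁆
        have e1 : ⁅g, (a : G) * (b : G)⁆ = ⁅g, (a : G)⁆ * ((a : G) * ⁅g, (b : G)⁆ * (a : G)⁻¹) := by
          simp only [commutatorElement_def]; group
        have e2 : (a : G) * ⁅g, (b : G)⁆ * (a : G)⁻¹ = ⁅g, (b : G)⁆ := by
          rw [Subgroup.mem_centralizer_iff.1 (Subgroup.mem_inf.1 (hcomm g b b.2)).2 a a.2,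
            mul_inv_cancel_right]
        rw [Subgroup.coe_mul, e1, e2] }
  have hθ : ∀ z ∈ Subgroup.center ↥E, θ z = 1 := by
    intro z hz
    apply Subtype.ext
    apply Subtype.ext
    show ⁅g, (z : G)⁆ = 1
    rw [commutatorElement_eq_one_iff_commute]
    exact Subgroup.mem_center_iff.1 (hZcentral z hz) g
  have hZ : ∀ a b : ↥E, ⁅a, b⁆ ∈ Subgroup.center ↥E := by
    intro a b
    rw [← hD, commutator_eq_closure]
    exact Subgroup.subset_closure ⟨a, b, rfl⟩
  obtain ⟨e₀, he₀⟩ := hom_inner p _ ↥E rfl (Subgroup.center ↥E) hZcard le_rfl hZ θ hθ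
  have hkey : ∀ e ∈ E, ⁅g, e⁆ = ⁅(e₀ : G), e⁆ := by
    intro e he
    have h1 := he₀ ⟨e, he⟩
    have h2 := congrArg (fun w : ↥(Subgroup.center ↥E) => ((w : ↥E) : G)) h1
    have h3 : ((⁅e₀, (⟨e, he⟩ : ↥E)⁆ : ↥E) : G) = ⁅(e₀ : G), e⁆ := by
      simp [commutatorElement_def]
    exact h2.trans h3
  have hcent : (e₀ : G)⁻¹ * g ∈ Subgroup.centralizer (E : Set G) := by
    rw [Subgroup.mem_centralizer_iff]
    intro e he
    have h1 := hkey e he
    rw [commutatorElement_def, commutatorElement_def] at h1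
    have h2 : g * e * g⁻¹ = (e₀ : G) * e * (e₀ : G)⁻¹ := by
      have := congrArg (fun w => w * e) h1
      simpa [mul_assoc] using this
    have h3 : g * e = (e₀ : G) * e * (e₀ : G)⁻¹ * g := by rw [← h2]; group
    calc e * ((e₀ : G)⁻¹ * g) = (e₀ : G)⁻¹ * ((e₀ : G) * e * (e₀ : G)⁻¹ * g) := by group
      _ = (e₀ : G)⁻¹ * (g * e) := by rw [h3]
      _ = (e₀ : G)⁻¹ * g * e := by group
  have hg : g = (e₀ : G) * ((e₀ : G)⁻¹ * g) := by group
  rw [hg]
  exact Subgroup.mul_mem _ (Subgroup.mem_sup_left e₀.2) (Subgroup.mem_sup_right hcent)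

end Cfsg.Agent.S0110
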