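import Mathlib
import Cfsg.Statements.S0111

set_option autoImplicit false
open Pointwise
open Cfsg

namespace Cfsg.Agent.S0111

theorem result {G : Type*} [Group G] [Finite G] (P : Sylow 2 G) (Q : Subgroup G) (hQP : Q ≤ (P : Subgroup G)) (hQi : Q.relIndex (P : Subgroup G) = 2) (u : G) (hu : orderOf u = 2) (huP : u ∈ (P : Subgroup G)) (huQ : u ∉ Q) : (∃ M : Subgroup G, M.Normal ∧ M.index = 2 ∧ u ∉ M) ∨ ∃ g : G, g * u * g⁻¹ ∈ Q := by
  classical
  by_contra hcon
  push_neg at hcon
  obtain ⟨hcon1, hcon2⟩ := hcon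
  haveI : Fintype (G ⧸ Q) := Fintype.ofFinite _
  set φ : G →* Equiv.Perm (G ⧸ Q) := MulAction.toPermHom G (G ⧸ Q) with hφ
  set σ : Equiv.Perm (G ⧸ Q) := φ u with hσ
  have hfix : ∀ x : G ⧸ Q, σ x ≠ x := by
    intro x
    induction x using QuotientGroup.induction_on with
    | H g =>
      intro h
      have h1 : σ (g : G ⧸ Q) = ((u * g : G) : G ⧸ Q) := rfl
      rw [h1] at h
      have h2 := QuotientGroup.eq.1 h
      apply hcon2 g⁻¹
      have e : g⁻¹ * u * g⁻¹⁻¹ = ((u * g)⁻¹ * g)⁻¹ := by group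
      rw [e]
      exact Q.inv_mem h2
  have hsupp : σ.support = Finset.univ := by
    ext x
    simp [Equiv.Perm.mem_support, hfix x]
  have hσ2 : σ ^ 2 = 1 := by
    rw [hσ, ← map_pow, ← hu, pow_orderOf_eq_one, map_one]
  have hσ1 : σ ≠ 1 := by
    intro h
    apply hfix ((1 : G) : G ⧸ Q)
    rw [h]; rfl
  have hord : orderOf σ = 2 := orderOf_eq_prime hσ2 hσ1
  have hprime : (orderOf σ).Prime := by rw [hord]; exact Nat.prime_two
  obtain ⟨n, hn⟩ := Equiv.Perm.cycleType_prime_order hprime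
  rw [hord] at hn
  have hsum : σ.cycleType.sum = Fintype.card (G ⧸ Q) := by
    rw [Equiv.Perm.sum_cycleType, hsupp, Finset.card_univ]
  have hcard : Fintype.card (G ⧸ Q) = 2 * (P : Subgroup G).index := by
    rw [← Nat.card_eq_fintype_card, ← Subgroup.index_eq_card, ← Subgroup.relIndex_mul_index hQP, hQi]
  have hodd : ¬ 2 ∣ (P : Subgroup G).index := P.not_dvd_index
  have hn1 : n + 1 = (P : Subgroup G).index := by
    rw [hn, Multiset.sum_replicate, hcard] at hsum
    simp at hsum
    omega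
  have hsign : Equiv.Perm.sign σ = -1 := by
    rw [Equiv.Perm.sign_of_cycleType, hn, Multiset.sum_replicate, Multiset.card_replicate]
    have hodd' : Odd (n + 1) := by
      rw [hn1]
      exact Nat.not_even_iff_odd.1 (fun h => hodd (even_iff_two_dvd.1 h))
    have : (n + 1) • 2 + (n + 1) = 2 * (n + 1) + (n + 1) := by simp [mul_comm]
    rw [this, pow_add, pow_mul]
    simp [hodd'.neg_one_pow]
  set ψ : G →* ℤˣ := (Equiv.Perm.sign).comp φ with hψ
  have hψu : ψ u = -1 := hsign
  have hidx : ψ.ker.index = 2 := by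
    rw [Subgroup.index_ker]
    have hsurj : Function.Surjective ψ := by
      intro x
      rcases Int.units_eq_one_or x with h | h
      · exact ⟨1, by rw [map_one, h]⟩
      · exact ⟨u, by rw [hψu, h]⟩
    have : ψ.range = ⊤ := MonoidHom.range_eq_top.2 hsurj
    rw [this, Subgroup.card_top, Nat.card_eq_fintype_card, Fintype.card_units_int]
  have hmem := hcon1 ψ.ker inferInstance hidx
  rw [MonoidHom.mem_ker, hψu] at hmem
  exact absurd hmem (by decide)

end Cfsg.Agent.S0111
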