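import Mathlib
import Cfsg.Statements.S0121

set_option autoImplicit false
open Pointwise
open Cfsg

namespace Cfsg.Agent.S0121

theorem result {G : Type*} [Group G] [Finite G] {p : ℕ} [Fact p.Prime] (hG : IsPGroup p G) (H : Subgroup G) (hH : H.Characteristic) (h1 : (frattini H).map H.subtype ≤ Subgroup.centralizer (H : Set G)) (h2 : ⁅H, (⊤ : Subgroup G)⁆ ≤ H ⊓ Subgroup.centralizer (H : Set G)) (h3 : Subgroup.centralizer (H : Set G) ≤ H) (a : MulAut G) (ha : Nat.Coprime (orderOf a) p) (h : ∀ x ∈ H, a x = x) : a = 1 := by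
  have hHn : H.Normal := inferInstance
  ext g
  rw [MulAut.one_apply]
  have hc : g⁻¹ * a g ∈ Subgroup.centralizer (H : Set G) := by
    rw [Subgroup.mem_centralizer_iff]
    intro x hx
    have h4 : g * x * g⁻¹ ∈ H := hHn.conj_mem x hx g
    have h5 := h _ h4
    rw [map_mul, map_mul, map_inv, h x hx] at h5
    calc x * (g⁻¹ * a g) = g⁻¹ * (g * x * g⁻¹) * a g := by group
      _ = g⁻¹ * (a g * x * (a g)⁻¹) * a g := by rw [h5]
      _ = g⁻¹ * a g * x := by group
  have hcH := h3 hc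
  have hac : a (g⁻¹ * a g) = g⁻¹ * a g := h _ hcH
  have hiter : ∀ k : ℕ, (a ^ k) g = g * (g⁻¹ * a g) ^ k := by
    intro k
    induction k with
    | zero => simp
    | succ k ih =>
      rw [pow_succ', MulAut.mul_apply, ih, map_mul, map_pow, hac, pow_succ' (g⁻¹ * a g), ← mul_assoc,
        mul_inv_cancel_left]
  have h6 := hiter (orderOf a)
  rw [pow_orderOf_eq_one, MulAut.one_apply] at h6
  have h7 : (g⁻¹ * a g) ^ orderOf a = 1 := mul_eq_left.1 h6.symm
  obtain ⟨j, hj⟩ := hG (g⁻¹ * a g)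
  have h8 : g⁻¹ * a g = 1 := by
    have hcop : Nat.Coprime (orderOf a) (p ^ j) := Nat.Coprime.pow_right j ha
    have hd1 := orderOf_dvd_of_pow_eq_one h7
    have hd2 := orderOf_dvd_of_pow_eq_one hj
    have hd : orderOf (g⁻¹ * a g) ∣ 1 := hcop ▸ Nat.dvd_gcd hd1 hd2
    exact orderOf_eq_one_iff.1 (Nat.dvd_one.1 hd)
  exact (inv_mul_eq_one.1 h8).symm

end Cfsg.Agent.S0121
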