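import Mathlib
import Cfsg.Agent.Lib.Helper1.PowC3
import Cfsg.Statements.S0123

set_option autoImplicit false
open Cfsg

namespace Cfsg.Agent.S0123

/-- For a p-group of small class relative to p (class ≤ 2 with p odd, or class ≤ 3 with p > 3) whose derived subgroup is generated by elements of order dividing p, the p-th power map is multiplicative. -/
theorem result {R : Type*} [Group R] [Finite R] {p : ℕ} [Fact p.Prime] (hR : IsPGroup p R) (hcl : (p ≠ 2 ∧ ⁅commutator R, (⊤ : Subgroup R)⁆ = ⊥) ∨ (3 < p ∧ ⁅⁅commutator R, (⊤ : Subgroup R)⁆, (⊤ : Subgroup R)⁆ = ⊥)) (hder : commutator R ≤ Subgroup.closure {x : R | x ^ p = 1}) (x y : R) : (x * y) ^ p = x ^ p * y ^ p := by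
  have hp := (Fact.out : p.Prime)
  rcases hcl with ⟨hp2, h⟩ | ⟨h3, h⟩
  · have h2 : 2 < p := lt_of_le_of_ne hp.two_le (Ne.symm hp2)
    exact Cfsg.Agent.Lib.Helper1.PowC3.mul_pow_of_le
      (Cfsg.Agent.Lib.Helper1.PowC3.cenC_of_two h) (hp.dvd_choose_self (by norm_num) h2)
      (Cfsg.Agent.Lib.Helper1.PowC3.expC_of_two p h) hder x y
  · exact Cfsg.Agent.Lib.Helper1.PowC3.mul_pow_of_le
      (Cfsg.Agent.Lib.Helper1.PowC3.cenC_of_three h) (hp.dvd_choose_self (by norm_num) (by omega))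
      (Cfsg.Agent.Lib.Helper1.PowC3.expC_of_three hp h3) hder x y

end Cfsg.Agent.S0123
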