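import Mathlib
import Cfsg.Statements.S0125
import Cfsg.Agent.S0542
import Cfsg.Agent.S0003

set_option autoImplicit false
open Pointwise
open Cfsg

namespace Cfsg.Agent.S0125

theorem result {G : Type*} [Group G] [Finite G] {p : ℕ} [Fact p.Prime] (R : Sylow p G) (A : Subgroup G) (hAR : A ≤ (R : Subgroup G)) (hAn : (R : Subgroup G) ≤ Subgroup.normalizer (A : Set G)) (hC : (R : Subgroup G) ⊓ Subgroup.centralizer (A : Set G) = A) : ∃ H : Subgroup G, H ≤ Subgroup.centralizer (A : Set G) ∧ Nat.Coprime (Nat.card H) p ∧ Subgroup.centralizer (A : Set G) ≤ Subgroup.normalizer (H : Set G) ∧ H ⊓ A = ⊥ ∧ H ⊔ A = Subgroup.centralizer (A : Set G) := by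
  have hp : p.Prime := Fact.out
  set C := Subgroup.centralizer (A : Set G) with hCdef
  set N := Subgroup.normalizer (A : Set G) with hNdef
  have hAC : A ≤ C := by rw [← hC]; exact inf_le_right
  have hCN : C ≤ N := Subgroup.centralizer_le_normalizer _
  -- elements of A are central in C
  have hcent : ∀ a ∈ A, ∀ c ∈ C, a * c = c * a := by
    intro a ha c hc
    exact (Subgroup.mem_centralizer_iff.1 hc) a ha
  -- C is normal in N
  haveI hC'n : (C.subgroupOf N).Normal := by
    constructor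
    intro c hc n
    rw [Subgroup.mem_subgroupOf] at hc ⊢
    show (n : G) * (c : G) * (n : G)⁻¹ ∈ C
    rw [hCdef, Subgroup.mem_centralizer_iff]
    intro a ha
    have hn : (n : G)⁻¹ ∈ N := N.inv_mem n.2
    have h1 : (n : G)⁻¹ * a * (n : G)⁻¹⁻¹ ∈ A := (Subgroup.mem_normalizer_iff.1 hn a).1 ha
    have h2 := hcent _ h1 _ hc
    calc a * ((n : G) * (c : G) * (n : G)⁻¹)
        = (n : G) * (((n : G)⁻¹ * a * (n : G)⁻¹⁻¹) * (c : G)) * (n : G)⁻¹ := by group
      _ = (n : G) * ((c : G) * ((n : G)⁻¹ * a * (n : G)⁻¹⁻¹)) * (n : G)⁻¹ := by rw [h2]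
      _ = (n : G) * (c : G) * (n : G)⁻¹ * a := by group
  -- A has the order of a Sylow p-subgroup of C
  have hcardA : Nat.card A = p ^ (Nat.card C).factorization p := by
    have h1 := Cfsg.Agent.S0542.card_sylow_inf_normal (R.subtype hAn) (C.subgroupOf N)
    rw [Sylow.coe_subtype] at h1
    have h2 : (R : Subgroup G).subgroupOf N ⊓ C.subgroupOf N = A.subgroupOf N := by
      rw [← hC]
      ext x
      simp [Subgroup.mem_subgroupOf]
    rw [h2, Cfsg.Agent.S0003.card_subgroupOf_eq', Cfsg.Agent.S0003.card_subgroupOf_eq',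
      inf_of_le_left (hAC.trans hCN), inf_of_le_left hCN] at h1
    exact h1
  -- complement inside C
  set A' : Subgroup C := A.subgroupOf C with hA'
  haveI hA'n : A'.Normal := by
    constructor
    intro a ha c
    rw [Subgroup.mem_subgroupOf] at ha ⊢
    have h1 := hcent _ ha _ c.2
    have e : ((c * a * c⁻¹ : C) : G) = (a : G) := by
      show (c : G) * (a : G) * (c : G)⁻¹ = (a : G)
      rw [← h1]; group
    rw [e]; exact ha
  have hcardA' : Nat.card A' = Nat.card A := by
    rw [hA', Cfsg.Agent.S0003.card_subgroupOf_eq', inf_of_le_left hAC]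
  have hCpos : Nat.card C ≠ 0 := Nat.card_pos.ne'
  have hidx : A'.index = Nat.card C / p ^ (Nat.card C).factorization p := by
    have h1 := Subgroup.card_mul_index A'
    rw [hcardA', hcardA] at h1
    exact (Nat.div_eq_of_eq_mul_right (pow_pos hp.pos _) h1.symm).symm
  have hcop : Nat.Coprime (Nat.card A') A'.index := by
    rw [hcardA', hcardA, hidx]
    exact Nat.Coprime.pow_left _ (Nat.coprime_ordCompl hp hCpos)
  obtain ⟨H', hH'⟩ := Subgroup.exists_right_complement'_of_coprime hcop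
  set H : Subgroup G := H'.map C.subtype with hH
  have hHC : H ≤ C := by
    rintro _ ⟨x, _, rfl⟩
    exact x.2
  have hcardH : Nat.card H = A'.index := by
    rw [hH, Subgroup.card_map_of_injective (Subgroup.subtype_injective C)]
    exact hH'.symm.index_eq_card.symm
  have hdecomp : ∀ c ∈ C, ∃ a ∈ A, ∃ h ∈ H, c = a * h := by
    intro c hc
    obtain ⟨⟨a, h⟩, hah⟩ := hH'.2 ⟨c, hc⟩
    refine ⟨(a : C), Subgroup.mem_subgroupOf.1 a.2, (h : C), ⟨h, h.2, rfl⟩, ?_⟩
    have := congrArg Subtype.val hah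
    simpa using this.symm
  refine ⟨H, hHC, ?_, ?_, ?_, ?_⟩
  · rw [hcardH, hidx]
    exact (Nat.coprime_ordCompl hp hCpos).symm
  · intro c hc
    obtain ⟨a, ha, h, hh, rfl⟩ := hdecomp c hc
    rw [Subgroup.mem_normalizer_iff]
    intro x
    constructor
    · intro hx
      have h1 : h * x * h⁻¹ ∈ H := H.mul_mem (H.mul_mem hh hx) (H.inv_mem hh)
      have h2 := hcent a ha _ (hHC h1)
      have e : a * h * x * (a * h)⁻¹ = h * x * h⁻¹ := by
        calc a * h * x * (a * h)⁻¹ = (a * (h * x * h⁻¹)) * a⁻¹ := by group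
          _ = ((h * x * h⁻¹) * a) * a⁻¹ := by rw [h2]
          _ = h * x * h⁻¹ := by group
      rw [e]; exact h1
    · intro hx
      have h2 := hcent a ha _ (hHC hx)
      have e : x = h⁻¹ * (a * h * x * (a * h)⁻¹) * h := by
        have e1 : h⁻¹ * (a * h * x * (a * h)⁻¹) * h
            = h⁻¹ * a⁻¹ * ((a * h * x * (a * h)⁻¹) * a) * h := by
          rw [← h2]; group
        rw [e1]; group
      rw [e]
      exact H.mul_mem (H.mul_mem (H.inv_mem hh) hx) hh
  · rw [eq_bot_iff]
    intro x hx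
    obtain ⟨hx1, hx2⟩ := Subgroup.mem_inf.1 hx
    obtain ⟨y, hy, rfl⟩ := hx1
    have h1 : y ∈ A' ⊓ H' := Subgroup.mem_inf.2 ⟨Subgroup.mem_subgroupOf.2 hx2, hy⟩
    rw [hH'.disjoint.eq_bot, Subgroup.mem_bot] at h1
    rw [Subgroup.mem_bot, h1]
    rfl
  · apply le_antisymm (sup_le hHC hAC)
    intro c hc
    obtain ⟨a, ha, h, hh, rfl⟩ := hdecomp c hc
    exact Subgroup.mul_mem _ (Subgroup.mem_sup_right ha) (Subgroup.mem_sup_left hh)

end Cfsg.Agent.S0125
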