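import Mathlib
import Cfsg.Statements.S0127
import Cfsg.Agent.S0096

set_option autoImplicit false
open Pointwise
open Cfsg
open scoped commutatorElement

namespace Cfsg.Agent.S0127

theorem nt {p : ℕ} [Fact p.Prime] (hp2 : p ≠ 2) (n k : ℕ) (hn : 1 ≤ n) (hk : 1 < k)
    (h : k ^ p ≡ 1 [MOD p ^ n]) : p ^ (n - 1) ∣ k - 1 ∧ p ∣ k - 1 := by
  have hp : p.Prime := Fact.out
  have hodd : Odd p := hp.odd_of_ne_two hp2
  have hkp1 : 1 ≤ k ^ p := Nat.one_le_pow _ _ (by omega)
  have h2 : p ^ n ∣ k ^ p - 1 := (Nat.modEq_iff_dvd' hkp1).1 h.symm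
  have h1 : p ∣ k ^ p - 1 := (dvd_pow_self p (by omega)).trans h2
  have hf : k ^ p ≡ k [MOD p] := by
    rw [← ZMod.natCast_eq_natCast_iff]
    push_cast
    exact ZMod.pow_card _
  have h1' : 1 ≡ k ^ p [MOD p] := (Nat.modEq_iff_dvd' hkp1).2 h1
  have hpk : p ∣ k - 1 := (Nat.modEq_iff_dvd' hk.le).1 (h1'.trans hf)
  have hnk : ¬ p ∣ k := by
    intro hd
    have h3 : p ∣ k - (k - 1) := Nat.dvd_sub hd hpk
    have e : k - (k - 1) = 1 := by omega
    rw [e] at h3
    exact hp.one_lt.ne' (Nat.dvd_one.1 h3)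
  have hlte := padicValNat.pow_sub_pow hodd hk hpk hnk (n := p) hp.ne_zero
  rw [one_pow, padicValNat_self] at hlte
  have hne : k ^ p - 1 ≠ 0 := by
    have := Nat.one_lt_pow hp.ne_zero hk
    omega
  have h3 : n ≤ padicValNat p (k ^ p - 1) := (padicValNat_dvd_iff_le hne).1 h2
  have hne' : k - 1 ≠ 0 := by omega
  exact ⟨(padicValNat_dvd_iff_le hne').2 (by omega), hpk⟩

/-- For odd `p`, in a non-cyclic `p`-group with a cyclic subgroup of index `p`, the elements with
`x ^ p = 1` form a subgroup of order `p ^ 2`. -/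
theorem main {R : Type*} [Group R] [Finite R] {p : ℕ} [Fact p.Prime] (hp : p ≠ 2)
    (hR : IsPGroup p R) (hnc : ¬ IsCyclic R) (C : Subgroup R) (hC : IsCyclic C)
    (hCi : C.index = p) :
    ∃ K : Subgroup R, (∀ x, x ∈ K ↔ x ^ p = 1) ∧ Nat.card K = p ^ 2 := by
  classical
  have hpp : p.Prime := Fact.out
  have hp3 : 3 ≤ p := by have := hpp.two_le; omega
  have hcardR := Subgroup.card_mul_index C
  rw [hCi] at hcardR
  haveI hCn : C.Normal := by
    apply Subgroup.normal_of_index_eq_minFac_card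
    rw [hCi]
    obtain ⟨m, hm⟩ := hR.exists_card_eq
    have hm0 : m ≠ 0 := by
      rintro rfl
      rw [pow_zero] at hm
      rw [hm] at hcardR
      exact hpp.one_lt.ne' (Nat.dvd_one.1 ⟨_, hcardR.symm.trans (mul_comm _ _)⟩)
    rw [hm, hpp.pow_minFac hm0]
  obtain ⟨c, hCz⟩ : ∃ c : R, C = Subgroup.zpowers c := by
    obtain ⟨c', hc'⟩ := hC.exists_generator
    refine ⟨(c' : R), ?_⟩
    ext x
    constructor
    · intro hx
      obtain ⟨i, hi⟩ := Subgroup.mem_zpowers_iff.1 (hc' ⟨x, hx⟩)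
      refine Subgroup.mem_zpowers_iff.2 ⟨i, ?_⟩
      have := congrArg Subtype.val hi
      simpa using this
    · intro hx
      exact (Subgroup.zpowers_le.2 c'.2) hx
  subst hCz
  obtain ⟨n, hn⟩ := (hR.to_subgroup (Subgroup.zpowers c)).exists_card_eq
  have hord : orderOf c = p ^ n := by rw [← hn, Nat.card_zpowers]
  have hn1 : 1 ≤ n := by
    by_contra h0
    have hn0 : n = 0 := by omega
    rw [hn0, pow_zero] at hn
    rw [hn, one_mul] at hcardR
    exact hnc (isCyclic_of_prime_card (p := p) hcardR.symm)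
  have hcardR' : Nat.card R = p ^ (n + 1) := by rw [← hcardR, hn, pow_succ]
  have hkey : ∀ g : R, ∃ k : ℕ, 1 < k ∧ g * c * g⁻¹ = c ^ k ∧ p ^ (n - 1) ∣ k - 1 := by
    intro g
    have h1 : g * c * g⁻¹ ∈ Subgroup.zpowers c := hCn.conj_mem c (Subgroup.mem_zpowers c) g
    rw [← mem_powers_iff_mem_zpowers] at h1
    obtain ⟨k₀, hk₀⟩ := h1
    have hk₀' : c ^ k₀ = g * c * g⁻¹ := hk₀
    have hk1 : 1 < k₀ + p ^ n := by
      have : 2 ≤ p ^ n := (hpp.two_le).trans (Nat.le_self_pow (by omega) p)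
      omega
    have hck : g * c * g⁻¹ = c ^ (k₀ + p ^ n) := by
      rw [pow_add, ← hord, pow_orderOf_eq_one, mul_one, hk₀']
    have hiter : ∀ j : ℕ, g ^ j * c * (g ^ j)⁻¹ = c ^ ((k₀ + p ^ n) ^ j) := by
      intro j
      induction j with
      | zero => simp
      | succ j ih =>
        calc g ^ (j + 1) * c * (g ^ (j + 1))⁻¹ = g * (g ^ j * c * (g ^ j)⁻¹) * g⁻¹ := by
              rw [pow_succ']; group
          _ = g * c ^ ((k₀ + p ^ n) ^ j) * g⁻¹ := by rw [ih]
          _ = (g * c * g⁻¹) ^ ((k₀ + p ^ n) ^ j) := (conj_pow).symm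
          _ = c ^ ((k₀ + p ^ n) ^ (j + 1)) := by rw [hck, ← pow_mul, pow_succ']
    have hgp : g ^ p ∈ Subgroup.zpowers c := by
      have := (Subgroup.zpowers c).pow_index_mem g
      rwa [hCi] at this
    have hcomm : g ^ p * c * (g ^ p)⁻¹ = c := by
      obtain ⟨i, hi⟩ := Subgroup.mem_zpowers_iff.1 hgp
      rw [← hi]
      group
    have hmod : (k₀ + p ^ n) ^ p ≡ 1 [MOD p ^ n] := by
      have h5 : c ^ ((k₀ + p ^ n) ^ p) = c ^ 1 := by rw [pow_one, ← hiter p, hcomm]
      have h6 := pow_eq_pow_iff_modEq.1 h5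
      rwa [hord] at h6
    obtain ⟨h1, -⟩ := nt hp n (k₀ + p ^ n) hn1 hk1 hmod
    exact ⟨k₀ + p ^ n, hk1, hck, h1⟩
  have hcp : c ^ p ∈ Subgroup.center R := by
    rw [Subgroup.mem_center_iff]
    intro g
    obtain ⟨k, hk1, hck, hd⟩ := hkey g
    have h1 : g * c ^ p * g⁻¹ = c ^ p := by
      rw [← conj_pow, hck, ← pow_mul, pow_eq_pow_iff_modEq, hord]
      have h2 : p ^ n ∣ k * p - p := by
        have e : k * p - p = (k - 1) * p := by rw [Nat.sub_mul, one_mul]
        rw [e]
        have e2 : p ^ n = p ^ (n - 1) * p := by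
          rw [← pow_succ]; congr 1; omega
        rw [e2]; exact Nat.mul_dvd_mul_right hd p
      exact ((Nat.modEq_iff_dvd' (by nlinarith)).2 h2).symm
    calc g * c ^ p = (g * c ^ p * g⁻¹) * g := by group
      _ = c ^ p * g := by rw [h1]
  have hordcp : orderOf (c ^ p) = p ^ (n - 1) := by
    rw [orderOf_pow' c hpp.ne_zero, hord, Nat.gcd_eq_right (dvd_pow_self p (by omega))]
    obtain ⟨m, rfl⟩ : ∃ m, n = m + 1 := ⟨n - 1, by omega⟩
    rw [pow_succ, Nat.mul_div_cancel _ hpp.pos]
    simp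
  have hZidx : (Subgroup.center R).index ∣ p ^ 2 := by
    have h1 : Subgroup.zpowers (c ^ p) ≤ Subgroup.center R := Subgroup.zpowers_le.2 hcp
    have h2 := Subgroup.index_dvd_of_le h1
    have h3 : (Subgroup.zpowers (c ^ p)).index = p ^ 2 := by
      have h4 := Subgroup.card_mul_index (Subgroup.zpowers (c ^ p))
      rw [Nat.card_zpowers, hcardR', hordcp] at h4
      apply Nat.eq_of_mul_eq_mul_left (pow_pos hpp.pos (n - 1))
      rw [h4, ← pow_add]; congr 1; omega
    rwa [h3] at h2
  have hcz : (∀ x y : R, ⁅x, y⁆ ∈ Subgroup.center R) ∧ ∀ x : R, x ^ p ∈ Subgroup.center R := by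
    by_cases hab : ∀ x y : R, x * y = y * x
    · have htop : Subgroup.center R = ⊤ := by
        ext z
        simp only [Subgroup.mem_center_iff, Subgroup.mem_top, iff_true]
        intro g; exact hab g z
      rw [htop]
      exact ⟨fun _ _ => Subgroup.mem_top _, fun _ => Subgroup.mem_top _⟩
    · have hQcard : Nat.card (R ⧸ Subgroup.center R) ∣ p ^ 2 := by
        rw [← Subgroup.index_eq_card]; exact hZidx
      have hncyc : ¬ IsCyclic (R ⧸ Subgroup.center R) := by
        intro hcyc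
        apply hab
        intro x y
        exact ((QuotientGroup.mk' (Subgroup.center R)).isMulCommutative_of_isCyclic_of_ker_le_center
          (by rw [QuotientGroup.ker_mk'])).is_comm.comm x y
      obtain ⟨m, hm2, hm⟩ := (Nat.dvd_prime_pow hpp).1 hQcard
      have hm2' : m = 2 := by
        interval_cases m
        · exfalso
          apply hncyc
          haveI : Subsingleton (R ⧸ Subgroup.center R) :=
            (Nat.card_eq_one_iff_unique.1 (by simpa using hm)).1
          infer_instance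
        · exfalso
          exact hncyc (isCyclic_of_prime_card (p := p) (by simpa using hm))
        · rfl
      rw [hm2'] at hm
      have hQab := IsPGroup.commutative_of_card_eq_prime_sq hm
      constructor
      · intro x y
        have h1 : (QuotientGroup.mk' (Subgroup.center R)) ⁅x, y⁆ = 1 := by
          rw [map_commutatorElement, commutatorElement_eq_one_iff_mul_comm]
          exact hQab _ _
        exact (QuotientGroup.eq_one_iff _).1 h1
      · intro x
        have h1 : (QuotientGroup.mk' (Subgroup.center R)) x ^ p = 1 := by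
          have hq : orderOf ((QuotientGroup.mk' (Subgroup.center R)) x) ∣ p ^ 2 :=
            hm ▸ orderOf_dvd_natCard _
          obtain ⟨j, hj2, hj⟩ := (Nat.dvd_prime_pow hpp).1 hq
          have hj1 : j ≤ 1 := by
            by_contra hj'
            have hj2' : j = 2 := by omega
            apply hncyc
            exact isCyclic_of_orderOf_eq_card _ (by rw [hj, hj2', hm])
          rw [← orderOf_dvd_iff_pow_eq_one, hj]
          exact (pow_dvd_pow p hj1).trans (by rw [pow_one])
        rw [← map_pow] at h1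
        exact (QuotientGroup.eq_one_iff _).1 h1
  obtain ⟨hcz1, hcz2⟩ := hcz
  have hmul : ∀ x y : R, (x * y) ^ p = x ^ p * y ^ p := by
    intro x y
    have hc : ∀ g : R, g * ⁅y, x⁆ = ⁅y, x⁆ * g := fun g => Subgroup.mem_center_iff.1 (hcz1 y x) g
    have hyx : y * x = ⁅y, x⁆ * x * y := by rw [commutatorElement_def]; group
    have h1 := Cfsg.Agent.S0096.mul_pow_aux x y ⁅y, x⁆ hc hyx p
    have h2 : ⁅y, x⁆ ^ p = 1 := by
      rw [← Cfsg.Agent.S0096.comm_pow hcz1 y x p, commutatorElement_eq_one_iff_mul_comm]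
      exact (Subgroup.mem_center_iff.1 (hcz2 y) x).symm
    have h3 : p ∣ p.choose 2 := hpp.dvd_choose_self (by norm_num) (by omega)
    obtain ⟨e, he⟩ := h3
    rw [h1, he, pow_mul, h2, one_pow, one_mul]
  let π : R →* R := MonoidHom.mk' (fun x => x ^ p) hmul
  have hπ : ∀ x, π x = x ^ p := fun x => rfl
  have hrange : π.range = Subgroup.zpowers (c ^ p) := by
    apply le_antisymm
    · rintro _ ⟨x, rfl⟩
      rw [hπ]
      by_contra hx
      have hxp : x ^ p ∈ Subgroup.zpowers c := by
        have := (Subgroup.zpowers c).pow_index_mem x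
        rwa [hCi] at this
      rw [← mem_powers_iff_mem_zpowers] at hxp
      obtain ⟨i, hi⟩ := hxp
      have hi' : c ^ i = x ^ p := hi
      have hpi : ¬ p ∣ i := by
        rintro ⟨j, rfl⟩
        apply hx
        rw [← hi', pow_mul]
        exact Subgroup.pow_mem _ (Subgroup.mem_zpowers _) j
      have ho1 : orderOf (x ^ p) = p ^ n := by
        rw [← hi', orderOf_pow' c (by rintro rfl; exact hpi (dvd_zero p)), hord]
        have : Nat.gcd (p ^ n) i = 1 :=
          Nat.Coprime.pow_left n ((Nat.Prime.coprime_iff_not_dvd hpp).2 hpi)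
        rw [this, Nat.div_one]
      obtain ⟨a, ha⟩ : ∃ a, orderOf x = p ^ a := by
        obtain ⟨k, hk⟩ := hR x
        have := orderOf_dvd_of_pow_eq_one hk
        obtain ⟨a, -, ha⟩ := (Nat.dvd_prime_pow hpp).1 this
        exact ⟨a, ha⟩
      have ha0 : a ≠ 0 := by
        rintro rfl
        rw [pow_zero, orderOf_eq_one_iff] at ha
        apply hx
        rw [ha, one_pow]; exact Subgroup.one_mem _
      have ho2 : orderOf (x ^ p) = p ^ (a - 1) := by
        rw [orderOf_pow' x hpp.ne_zero, ha, Nat.gcd_eq_right (dvd_pow_self p ha0)]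
        obtain ⟨m, rfl⟩ : ∃ m, a = m + 1 := ⟨a - 1, by omega⟩
        rw [pow_succ, Nat.mul_div_cancel _ hpp.pos]
        simp
      have han : a - 1 = n := Nat.pow_right_injective hpp.two_le (ho2.symm.trans ho1)
      apply hnc
      exact isCyclic_of_orderOf_eq_card x (by rw [ha, hcardR']; congr 1; omega)
    · rw [Subgroup.zpowers_le]
      exact ⟨c, rfl⟩
  have hker : Nat.card π.ker = p ^ 2 := by
    have h1 := Subgroup.card_mul_index π.ker
    rw [Subgroup.index_ker, hrange, Nat.card_zpowers, hordcp, hcardR'] at h1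
    have h2 : Nat.card π.ker * p ^ (n - 1) = p ^ 2 * p ^ (n - 1) := by
      rw [h1, ← pow_add]; congr 1; omega
    exact Nat.eq_of_mul_eq_mul_right (pow_pos hpp.pos _) h2
  exact ⟨π.ker, fun x => by rw [MonoidHom.mem_ker, hπ], hker⟩

theorem result {R : Type*} [Group R] [Finite R] {p : ℕ} [Fact p.Prime] (hp : p ≠ 2) (hR : IsPGroup p R) (hnc : ¬ IsCyclic R) (C : Subgroup R) (hC : IsCyclic C) (hCi : C.index = p) : Cfsg.IsElementaryAbelian p (Subgroup.closure {x : R | x ^ p = 1}) ∧ Nat.card (Subgroup.closure {x : R | x ^ p = 1}) = p ^ 2 := by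
  obtain ⟨K, hK, hKc⟩ := main hp hR hnc C hC hCi
  have hcl : Subgroup.closure {x : R | x ^ p = 1} = K := by
    have : {x : R | x ^ p = 1} = (K : Set R) := by
      ext x; exact (hK x).symm
    rw [this, Subgroup.closure_eq]
  rw [hcl]
  exact ⟨⟨⟨⟨fun a b => IsPGroup.commutative_of_card_eq_prime_sq hKc a b⟩⟩,
    fun a ha => (hK a).1 ha⟩, hKc⟩

end Cfsg.Agent.S0127
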