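import Mathlib
import Cfsg.Statements.S0129
import Cfsg.Agent.Lib.Helper3.PGroup

set_option autoImplicit false
open Pointwise
open Cfsg
open scoped commutatorElement

namespace Cfsg.Agent.S0129

open Cfsg.Agent.Lib.Helper3.PGroup

/-- If `B` is normal and `⁅x, g⁆ ∈ B` for all `g`, then `B ⊔ ⟨x⟩` is normal. -/
theorem sup_zpowers_normal {G : Type*} [Group G] (B : Subgroup G) [hB : B.Normal] (x : G)
    (hx : ∀ g : G, ⁅x, g⁆ ∈ B) : (B ⊔ Subgroup.zpowers x).Normal := by
  constructor
  intro y hy g
  have h1 : ∀ y ∈ Subgroup.closure ((B : Set G) ∪ {x}), ∀ q ∈ (⊤ : Subgroup G), ⁅y, q⁆ ∈ B := by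
    apply comm_mem_closure B ⊤ ((B : Set G) ∪ {x})
    intro s hs
    constructor
    · rw [Subgroup.normalizer_eq_top]; trivial
    · intro q _
      rcases hs with hs | hs
      · have : ⁅s, q⁆ = s * (q * s⁻¹ * q⁻¹) := by rw [commutatorElement_def]; group
        rw [this]
        exact B.mul_mem hs (hB.conj_mem _ (B.inv_mem hs) q)
      · rw [Set.mem_singleton_iff] at hs
        rw [hs]; exact hx q
  rw [sup_zpowers_eq_closure] at hy ⊢
  have h2 := h1 y hy g (Subgroup.mem_top g)
  have h3 : g * y * g⁻¹ = (⁅y, g⁆)⁻¹ * y := by rw [commutatorElement_def]; group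
  rw [h3]
  refine Subgroup.mul_mem _ (Subgroup.inv_mem _ ?_) hy
  rw [← sup_zpowers_eq_closure]
  exact Subgroup.mem_sup_left h2

theorem card_centralizer_le {G : Type*} [Group G] [Finite G] (B : Subgroup G) (x : G)
    (hx : ∀ g ∈ Subgroup.centralizer (B : Set G), ⁅g, x⁆ ∈ B) :
    Nat.card (Subgroup.centralizer (B : Set G)) ≤
      Nat.card B * Nat.card (Subgroup.centralizer ((B ⊔ Subgroup.zpowers x : Subgroup G) : Set G)) := by
  classical
  set K := Subgroup.centralizer (B : Set G) with hK
  set K' := Subgroup.centralizer ((B ⊔ Subgroup.zpowers x : Subgroup G) : Set G) with hK'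
  have hK'K : K' ≤ K := Subgroup.centralizer_le (by
    intro y hy
    exact Subgroup.mem_sup_left hy)
  have hmem : ∀ g ∈ K, g * x = x * g → g ∈ K' := by
    intro g hg hgx
    have hle : B ⊔ Subgroup.zpowers x ≤ Subgroup.centralizer {g} := by
      apply sup_le
      · intro b hb
        rw [Subgroup.mem_centralizer_iff]
        intro h hh
        rw [Set.mem_singleton_iff] at hh
        rw [hh]
        rw [hK, Subgroup.mem_centralizer_iff] at hg
        exact (hg b hb).symm
      · rw [Subgroup.zpowers_le, Subgroup.mem_centralizer_iff]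
        intro h hh
        rw [Set.mem_singleton_iff] at hh
        rw [hh]; exact hgx
    rw [hK', Subgroup.mem_centralizer_iff]
    intro y hy
    have h1 := hle hy
    rw [Subgroup.mem_centralizer_iff] at h1
    exact (h1 g rfl).symm
  have hxK' : ∀ k ∈ K', k * x = x * k := by
    intro k hk
    rw [hK', Subgroup.mem_centralizer_iff] at hk
    exact (hk x (Subgroup.mem_sup_right (Subgroup.mem_zpowers x))).symm
  have h1 : Nat.card K = Nat.card K' * K'.relIndex K := by
    have h := Subgroup.relIndex_mul_relIndex (⊥ : Subgroup G) K' K bot_le hK'K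
    rw [Subgroup.relIndex_bot_left, Subgroup.relIndex_bot_left] at h
    exact h.symm
  have h2 : K'.relIndex K ≤ Nat.card B := by
    let f : ↥K ⧸ (K'.subgroupOf K) → ↥B :=
      Quotient.lift (fun g : ↥K => (⟨⁅(g : G), x⁆, hx g g.2⟩ : ↥B)) (by
        intro g h hgh
        have h1 : g⁻¹ * h ∈ K'.subgroupOf K := QuotientGroup.leftRel_apply.mp hgh
        have h2 : ((g : G)⁻¹ * h) ∈ K' := Subgroup.mem_subgroupOf.1 h1
        apply Subtype.ext
        show ⁅(g : G), x⁆ = ⁅(h : G), x⁆
        have h3 := hxK' _ h2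
        have e : (h : G) * x * (h : G)⁻¹ = g * x * (g : G)⁻¹ := by
          calc (h : G) * x * (h : G)⁻¹ = g * (((g : G)⁻¹ * h) * x) * (h : G)⁻¹ := by group
            _ = g * (x * ((g : G)⁻¹ * h)) * (h : G)⁻¹ := by rw [h3]
            _ = g * x * (g : G)⁻¹ := by group
        rw [commutatorElement_def, commutatorElement_def, e])
    have hf : ∀ g : ↥K, f (QuotientGroup.mk g) = (⟨⁅(g : G), x⁆, hx g g.2⟩ : ↥B) := fun g => rfl
    have hinj : Function.Injective f := by
      intro u v
      induction u using QuotientGroup.induction_on with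
      | H g =>
        induction v using QuotientGroup.induction_on with
        | H h =>
          intro hgh
          rw [hf, hf] at hgh
          have h3 : ⁅(g : G), x⁆ = ⁅(h : G), x⁆ := congrArg Subtype.val hgh
          rw [QuotientGroup.eq]
          apply Subgroup.mem_subgroupOf.2
          apply hmem _ (K.mul_mem (K.inv_mem g.2) h.2)
          rw [commutatorElement_def, commutatorElement_def] at h3
          have h4 : (g : G) * x * (g : G)⁻¹ = h * x * (h : G)⁻¹ := mul_right_cancel h3
          show (g : G)⁻¹ * (h : G) * x = x * ((g : G)⁻¹ * (h : G))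
          calc (g : G)⁻¹ * (h : G) * x = (g : G)⁻¹ * ((h : G) * x * (h : G)⁻¹) * h := by group
            _ = (g : G)⁻¹ * ((g : G) * x * (g : G)⁻¹) * h := by rw [h4]
            _ = x * ((g : G)⁻¹ * (h : G)) := by group
    exact Nat.card_le_card_of_injective f hinj
  rw [h1, mul_comm]
  exact Nat.mul_le_mul_right _ h2

theorem chain_bound {G : Type*} [Group G] [Finite G] {p : ℕ} [Fact p.Prime] (hG : IsPGroup p G)
    (A : Subgroup G) [A.Normal] (a : ℕ) (ha : Nat.card A = p ^ a) :
    ∀ (n : ℕ) (B : Subgroup G) (b : ℕ), B.Normal → B ≤ A → Nat.card B = p ^ b → a ≤ b + n →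
      Nat.card (Subgroup.centralizer (B : Set G)) * p ^ (b.choose 2) ≤
        Nat.card (Subgroup.centralizer (A : Set G)) * p ^ (a.choose 2) := by
  have hp : p.Prime := Fact.out
  have heq : ∀ (B : Subgroup G) (b : ℕ), B = A → Nat.card B = p ^ b →
      Nat.card (Subgroup.centralizer (B : Set G)) * p ^ (b.choose 2) ≤
        Nat.card (Subgroup.centralizer (A : Set G)) * p ^ (a.choose 2) := by
    intro B b hBA hb
    have hab : a = b := Nat.pow_right_injective hp.two_le (ha.symm.trans (hBA ▸ hb))
    rw [hBA, hab]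
  intro n
  induction n with
  | zero =>
    intro B b hBn hBA hb hab
    apply heq B b _ hb
    exact Subgroup.eq_of_le_of_card_ge hBA (by
      rw [ha, hb]; exact Nat.pow_le_pow_right hp.pos (by omega))
  | succ n ih =>
    intro B b hBn hBA hb hab
    by_cases hBeq : B = A
    · exact heq B b hBeq hb
    · have hAB : ¬ A ≤ B := fun h => hBeq (le_antisymm hBA h)
      haveI : Group.IsNilpotent G := hG.isNilpotent
      obtain ⟨x, hxA, hxB, hxc⟩ := exists_comm_mem B A ⊤ (Subgroup.commutator_le_left A ⊤) hAB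
      have hB'n : (B ⊔ Subgroup.zpowers x).Normal :=
        sup_zpowers_normal B x (fun g => hxc g (Subgroup.mem_top g))
      have hB'A : B ⊔ Subgroup.zpowers x ≤ A := sup_le hBA ((Subgroup.zpowers_le).2 hxA)
      obtain ⟨b', hb'⟩ := (hG.to_subgroup (B ⊔ Subgroup.zpowers x)).exists_card_eq
      have hbb' : b + 1 ≤ b' := by
        have hlt : Nat.card B < Nat.card (B ⊔ Subgroup.zpowers x : Subgroup G) := by
          apply lt_of_le_of_ne (Subgroup.card_le_of_le le_sup_left)
          intro h
          have : B = B ⊔ Subgroup.zpowers x := Subgroup.eq_of_le_of_card_ge le_sup_left h.ge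
          exact hxB (this ▸ Subgroup.mem_sup_right (Subgroup.mem_zpowers x))
        rw [hb, hb'] at hlt
        exact (Nat.pow_lt_pow_iff_right hp.one_lt).1 hlt
      have h1 := ih (B ⊔ Subgroup.zpowers x) b' hB'n hB'A hb' (by omega)
      have h2 := card_centralizer_le B x (fun g _ => by
        have h3 : ⁅g, x⁆ = (⁅x, g⁆)⁻¹ := by rw [commutatorElement_def, commutatorElement_def]; group
        rw [h3]
        exact B.inv_mem (hxc g (Subgroup.mem_top g)))
      have hch : (b + 1).choose 2 = b + b.choose 2 := by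
        rw [Nat.choose_succ_succ', Nat.choose_one_right]
      calc Nat.card (Subgroup.centralizer (B : Set G)) * p ^ (b.choose 2)
          ≤ (Nat.card B * Nat.card (Subgroup.centralizer
              ((B ⊔ Subgroup.zpowers x : Subgroup G) : Set G))) * p ^ (b.choose 2) :=
            Nat.mul_le_mul_right _ h2
        _ = Nat.card (Subgroup.centralizer ((B ⊔ Subgroup.zpowers x : Subgroup G) : Set G)) *
              p ^ ((b + 1).choose 2) := by rw [hb, hch, pow_add]; ring
        _ ≤ Nat.card (Subgroup.centralizer ((B ⊔ Subgroup.zpowers x : Subgroup G) : Set G)) *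
              p ^ (b'.choose 2) :=
            Nat.mul_le_mul_left _ (Nat.pow_le_pow_right hp.pos (Nat.choose_le_choose 2 hbb'))
        _ ≤ _ := h1

theorem centralizer_le_of_max {G : Type*} [Group G] [Finite G] {p : ℕ} [Fact p.Prime]
    (hG : IsPGroup p G) (A : Subgroup G) [hAn : A.Normal] (hA : IsMulCommutative A)
    (hmax : ∀ B : Subgroup G, B.Normal → IsMulCommutative B → A ≤ B → B = A) :
    Subgroup.centralizer (A : Set G) ≤ A := by
  by_contra hC
  haveI : Group.IsNilpotent G := hG.isNilpotent
  obtain ⟨x, hxC, hxA, hxc⟩ := exists_centralizer_elt A ⊤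
    (by rw [Subgroup.normalizer_eq_top]) hC
  have hBn : (A ⊔ Subgroup.zpowers x).Normal :=
    sup_zpowers_normal A x (fun g => (Subgroup.mem_inf.1 (hxc g (Subgroup.mem_top g))).1)
  have hcomm : ∀ y ∈ A ⊔ Subgroup.zpowers x, ∀ z ∈ A ⊔ Subgroup.zpowers x, y * z = z * y := by
    intro y hy z hz
    obtain ⟨b, hb, k, rfl⟩ := mem_sup_zpowers A x hxC y hy
    obtain ⟨b', hb', l, rfl⟩ := mem_sup_zpowers A x hxC z hz
    have hbb' : Commute b b' := by
      have := hA.is_comm.comm ⟨b, hb⟩ ⟨b', hb'⟩
      exact congrArg Subtype.val this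
    rw [Subgroup.mem_centralizer_iff] at hxC
    have hxb : Commute x b := (hxC b hb).symm
    have hxb' : Commute x b' := (hxC b' hb').symm
    have h1 : Commute (b * x ^ k) (b' * x ^ l) :=
      Commute.mul_left (Commute.mul_right hbb' (hxb.symm.zpow_right l))
        (Commute.mul_right (hxb'.zpow_left k) ((Commute.refl x).zpow_zpow k l))
    exact h1.eq
  have hBc : IsMulCommutative ↥(A ⊔ Subgroup.zpowers x) :=
    ⟨⟨fun y z => Subtype.ext (hcomm y y.2 z z.2)⟩⟩
  have := hmax _ hBn hBc le_sup_left
  exact hxA (this ▸ Subgroup.mem_sup_right (Subgroup.mem_zpowers x))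

theorem result {G : Type*} [Group G] [Finite G] {p : ℕ} [Fact p.Prime] (hG : IsPGroup p G) (A : Subgroup G) [A.Normal] (hA : IsMulCommutative A) (hmax : ∀ B : Subgroup G, B.Normal → IsMulCommutative B → A ≤ B → B = A) (a : ℕ) (ha : Nat.card A = p ^ a) : Nat.card G ≤ p ^ (a * (a + 1) / 2) := by
  have hp : p.Prime := Fact.out
  have hC := centralizer_le_of_max hG A hA hmax
  have h1 := chain_bound hG A a ha a ⊥ 0 inferInstance bot_le (by simp) (by omega)
  have h2 : Subgroup.centralizer (((⊥ : Subgroup G) : Subgroup G) : Set G) = ⊤ := by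
    ext g
    simp [Subgroup.mem_centralizer_iff]
  rw [h2, Subgroup.card_top] at h1
  have h3 : Nat.card (Subgroup.centralizer (A : Set G)) ≤ p ^ a :=
    ha ▸ Subgroup.card_le_of_le hC
  have h4 : a * (a + 1) / 2 = a + a.choose 2 := by
    have : (a + 1).choose 2 = a + a.choose 2 := by
      rw [Nat.choose_succ_succ', Nat.choose_one_right]
    rw [← this, Nat.choose_two_right, Nat.add_sub_cancel, mul_comm]
  rw [h4, pow_add]
  calc Nat.card G = Nat.card G * p ^ (Nat.choose 0 2) := by simp
    _ ≤ Nat.card (Subgroup.centralizer (A : Set G)) * p ^ (a.choose 2) := h1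
    _ ≤ p ^ a * p ^ (a.choose 2) := Nat.mul_le_mul_right _ h3

end Cfsg.Agent.S0129
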