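import Mathlib
import Cfsg.Statements.S0636
import Cfsg.Agent.S0003
import Cfsg.Agent.S0041
import Cfsg.Agent.S0127
import Cfsg.Agent.S0129
import Cfsg.Agent.Lib.Helper3.PGroup

set_option autoImplicit false
open Pointwise
open Cfsg
open scoped commutatorElement

namespace Cfsg.Agent.S0636

open Cfsg.Agent.Lib.Helper3.PGroup

theorem card_zpowers_sup_le {G : Type*} [Group G] [Finite G] {p : ℕ} (hp : p.Prime)
    (A : Subgroup G) [A.Normal] (x : G) (hx : x ^ p ∈ A) :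
    Nat.card (Subgroup.zpowers x ⊔ A : Subgroup G) ≤ p * Nat.card A := by
  have h1 := Cfsg.Agent.S0003.card_sup_mul_card_inf (Subgroup.zpowers x) A
  have h2 : Nat.card (Subgroup.zpowers x) ≤
      p * Nat.card (Subgroup.zpowers x ⊓ A : Subgroup G) := by
    have h3 : Subgroup.zpowers (x ^ p) ≤ Subgroup.zpowers x ⊓ A := by
      rw [Subgroup.zpowers_le]
      exact Subgroup.mem_inf.2 ⟨Subgroup.pow_mem _ (Subgroup.mem_zpowers x) p, hx⟩
    have h4 := Subgroup.card_le_of_le h3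
    rw [Nat.card_zpowers] at h4 ⊢
    have h5 : orderOf x ≤ p * orderOf (x ^ p) := by
      rw [orderOf_pow' x hp.ne_zero]
      have h6 := Nat.gcd_dvd_left (orderOf x) p
      have h7 : Nat.gcd (orderOf x) p ≤ p := Nat.gcd_le_right _ hp.pos
      calc orderOf x = orderOf x / Nat.gcd (orderOf x) p * Nat.gcd (orderOf x) p :=
            (Nat.div_mul_cancel h6).symm
        _ ≤ orderOf x / Nat.gcd (orderOf x) p * p := Nat.mul_le_mul_left _ h7
        _ = p * (orderOf x / Nat.gcd (orderOf x) p) := mul_comm _ _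
    exact h5.trans (Nat.mul_le_mul_left p h4)
  have hpos : 0 < Nat.card (Subgroup.zpowers x ⊓ A : Subgroup G) := Nat.card_pos
  apply Nat.le_of_mul_le_mul_right _ hpos
  rw [h1]
  calc Nat.card (Subgroup.zpowers x) * Nat.card A
      ≤ p * Nat.card (Subgroup.zpowers x ⊓ A : Subgroup G) * Nat.card A :=
        Nat.mul_le_mul_right _ h2
    _ = p * Nat.card A * Nat.card (Subgroup.zpowers x ⊓ A : Subgroup G) := by ring

theorem case_noncyclic {R : Type*} [Group R] [Finite R] {p : ℕ} [Fact p.Prime]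
    (hR : IsPGroup p R) (Ω : Subgroup R) [Ω.Normal]
    (hΩab : ∀ x ∈ Ω, ∀ y ∈ Ω, x * y = y * x) (hΩp : ∀ x ∈ Ω, x ^ p = 1)
    (x y : R) (hxΩ : x ∈ Ω) (hyΩ : y ∈ Ω) (hx1 : x ≠ 1) (hy : y ∉ Subgroup.zpowers x) :
    ∃ A : Subgroup R, A ≤ Ω ∧ A.Normal ∧ Cfsg.IsElementaryAbelian p A ∧ Nat.card A = p ^ 2 := by
  have hpp : p.Prime := Fact.out
  haveI : Group.IsNilpotent R := hR.isNilpotent
  have hΩbot : ¬ Ω ≤ ⊥ := fun h => hx1 (Subgroup.mem_bot.1 (h hxΩ))
  obtain ⟨x₁, hx₁Ω, hx₁ne, hx₁c⟩ :=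
    exists_comm_mem ⊥ Ω ⊤ (Subgroup.commutator_le_left Ω ⊤) hΩbot
  haveI hZ₁n : (Subgroup.zpowers x₁).Normal := by
    have := Cfsg.Agent.S0129.sup_zpowers_normal (⊥ : Subgroup R) x₁
      (fun g => hx₁c g (Subgroup.mem_top g))
    rwa [bot_sup_eq] at this
  have hZ₁Ω : Subgroup.zpowers x₁ ≤ Ω := Subgroup.zpowers_le.2 hx₁Ω
  have hord₁ : orderOf x₁ = p :=
    orderOf_eq_prime (hΩp x₁ hx₁Ω) (fun h => hx₁ne (Subgroup.mem_bot.2 h))
  have hΩZ : ¬ Ω ≤ Subgroup.zpowers x₁ := by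
    intro hle
    have hxZ := hle hxΩ
    have hyZ := hle hyΩ
    have hordx : orderOf x = p := orderOf_eq_prime (hΩp x hxΩ) hx1
    have h1 : Subgroup.zpowers x = Subgroup.zpowers x₁ :=
      Subgroup.eq_of_le_of_card_ge (Subgroup.zpowers_le.2 hxZ)
        (by rw [Nat.card_zpowers, Nat.card_zpowers, hordx, hord₁])
    exact hy (h1 ▸ hyZ)
  obtain ⟨x₂, hx₂Ω, hx₂Z, hx₂c⟩ :=
    exists_comm_mem (Subgroup.zpowers x₁) Ω ⊤ (Subgroup.commutator_le_left Ω ⊤) hΩZ
  have hA₂n : (Subgroup.zpowers x₁ ⊔ Subgroup.zpowers x₂).Normal :=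
    Cfsg.Agent.S0129.sup_zpowers_normal (Subgroup.zpowers x₁) x₂
      (fun g => hx₂c g (Subgroup.mem_top g))
  have hle : Subgroup.zpowers x₁ ⊔ Subgroup.zpowers x₂ ≤ Ω :=
    sup_le hZ₁Ω (Subgroup.zpowers_le.2 hx₂Ω)
  refine ⟨Subgroup.zpowers x₁ ⊔ Subgroup.zpowers x₂, hle, hA₂n,
    ⟨⟨⟨fun a b => Subtype.ext (hΩab a (hle a.2) b (hle b.2))⟩⟩, fun a ha => hΩp a (hle ha)⟩, ?_⟩
  have hord₂ : orderOf x₂ = p :=
    orderOf_eq_prime (hΩp x₂ hx₂Ω) (fun h => hx₂Z (h ▸ Subgroup.one_mem _))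
  have h1 := Cfsg.Agent.S0003.card_sup_mul_card_inf (Subgroup.zpowers x₂) (Subgroup.zpowers x₁)
  have hinf : Subgroup.zpowers x₂ ⊓ Subgroup.zpowers x₁ = ⊥ := by
    have hd : Nat.card (Subgroup.zpowers x₂ ⊓ Subgroup.zpowers x₁ : Subgroup R) ∣ p := by
      rw [← hord₂, ← Nat.card_zpowers]
      exact Subgroup.card_dvd_of_le inf_le_left
    rcases (Nat.dvd_prime hpp).1 hd with h | h
    · exact Subgroup.card_eq_one.1 h
    · exfalso
      apply hx₂Z
      have h2 : Subgroup.zpowers x₂ ⊓ Subgroup.zpowers x₁ = Subgroup.zpowers x₂ :=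
        Subgroup.eq_of_le_of_card_ge inf_le_left (by rw [h, Nat.card_zpowers, hord₂])
      have hx : x₂ ∈ Subgroup.zpowers x₂ ⊓ Subgroup.zpowers x₁ := by
        rw [h2]; exact Subgroup.mem_zpowers x₂
      exact (Subgroup.mem_inf.1 hx).2
  rw [hinf, Subgroup.card_bot, mul_one, Nat.card_zpowers, Nat.card_zpowers, hord₂, hord₁] at h1
  rw [sup_comm, h1, sq]

theorem result {R : Type*} [Group R] [Finite R] {p : ℕ} [Fact p.Prime] (hp : p ≠ 2) (hR : IsPGroup p R) (S : Subgroup R) [S.Normal] (hS : ¬ IsCyclic S) : ∃ A : Subgroup R, A ≤ S ∧ A.Normal ∧ Cfsg.IsElementaryAbelian p A ∧ Nat.card A = p ^ 2 := by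
  classical
  have hpp : p.Prime := Fact.out
  haveI : Group.IsNilpotent R := hR.isNilpotent
  haveI : Nonempty {A : Subgroup R // A ≤ S ∧ A.Normal ∧ ∀ x ∈ A, ∀ y ∈ A, x * y = y * x} :=
    ⟨⟨⊥, bot_le, inferInstance, by
      intro x hx y hy
      rw [Subgroup.mem_bot] at hx hy
      rw [hx, hy]⟩⟩
  obtain ⟨⟨A, hAS, hAn, hAab⟩, hmax⟩ := Finite.exists_max
    (fun A : {A : Subgroup R // A ≤ S ∧ A.Normal ∧ ∀ x ∈ A, ∀ y ∈ A, x * y = y * x} =>
      Nat.card (A : Subgroup R))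
  haveI := hAn
  by_cases hAcyc : IsCyclic A
  · have hSA : ¬ S ≤ A := by
      intro h
      have h1 : S = A := le_antisymm h hAS
      exact hS (h1 ▸ hAcyc)
    obtain ⟨x, hxS, hxA, hxc⟩ := exists_comm_mem A S ⊤ (Subgroup.commutator_le_left S ⊤) hSA
    have hex : ∃ j, x ^ (p ^ j) ∈ A := by
      obtain ⟨k, hk⟩ := hR x
      exact ⟨k, by rw [hk]; exact A.one_mem⟩
    have hj0 : Nat.find hex ≠ 0 := by
      intro h0
      have := Nat.find_spec hex
      rw [h0, pow_zero, pow_one] at this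
      exact hxA this
    obtain ⟨j, hj⟩ := Nat.exists_eq_succ_of_ne_zero hj0
    have hyA : x ^ (p ^ j) ∉ A := Nat.find_min hex (by rw [hj]; exact Nat.lt_succ_self j)
    have hypA : (x ^ (p ^ j)) ^ p ∈ A := by
      have := Nat.find_spec hex
      rw [hj, pow_succ, pow_mul] at this
      exact this
    have hyS : x ^ (p ^ j) ∈ S := S.pow_mem hxS _
    have hyc : ∀ g : R, ⁅x ^ (p ^ j), g⁆ ∈ A := by
      intro g
      exact comm_mem_closure A ⊤ {x} (by
        intro s hs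
        rw [Set.mem_singleton_iff] at hs
        subst hs
        exact ⟨by rw [Subgroup.normalizer_eq_top]; trivial, hxc⟩) (x ^ (p ^ j)) (by
          rw [← Subgroup.zpowers_eq_closure]
          exact Subgroup.pow_mem _ (Subgroup.mem_zpowers x) _) g (Subgroup.mem_top g)
    haveI hBn : (A ⊔ Subgroup.zpowers (x ^ (p ^ j))).Normal :=
      Cfsg.Agent.S0129.sup_zpowers_normal A (x ^ (p ^ j)) hyc
    have hBS : A ⊔ Subgroup.zpowers (x ^ (p ^ j)) ≤ S :=
      sup_le hAS (Subgroup.zpowers_le.2 hyS)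
    have hAB : A ≤ A ⊔ Subgroup.zpowers (x ^ (p ^ j)) := le_sup_left
    have hyB : x ^ (p ^ j) ∈ A ⊔ Subgroup.zpowers (x ^ (p ^ j)) :=
      Subgroup.mem_sup_right (Subgroup.mem_zpowers _)
    have hBnab : ¬ ∀ u ∈ A ⊔ Subgroup.zpowers (x ^ (p ^ j)),
        ∀ v ∈ A ⊔ Subgroup.zpowers (x ^ (p ^ j)), u * v = v * u := by
      intro hab
      have h1 := hmax ⟨A ⊔ Subgroup.zpowers (x ^ (p ^ j)), hBS, hBn, hab⟩
      have h2 : A = A ⊔ Subgroup.zpowers (x ^ (p ^ j)) := Subgroup.eq_of_le_of_card_ge hAB h1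
      exact hyA (h2 ▸ hyB)
    have hcardB : Nat.card (A ⊔ Subgroup.zpowers (x ^ (p ^ j)) : Subgroup R) = p * Nat.card A := by
      apply le_antisymm
      · rw [sup_comm]; exact card_zpowers_sup_le hpp A _ hypA
      · obtain ⟨a, ha⟩ := (hR.to_subgroup A).exists_card_eq
        obtain ⟨b, hb⟩ := (hR.to_subgroup (A ⊔ Subgroup.zpowers (x ^ (p ^ j)))).exists_card_eq
        have hdvd : p ^ a ∣ p ^ b := ha ▸ hb ▸ Subgroup.card_dvd_of_le hAB
        have hab : a ≤ b := (Nat.pow_dvd_pow_iff_le_right hpp.one_lt).1 hdvd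
        have hne : a ≠ b := by
          intro h
          have h2 : A = A ⊔ Subgroup.zpowers (x ^ (p ^ j)) :=
            Subgroup.eq_of_le_of_card_ge hAB (by rw [ha, hb, h])
          exact hyA (h2 ▸ hyB)
        rw [ha, hb, ← pow_succ']
        exact Nat.pow_le_pow_right hpp.pos (by omega)
    have hBp : IsPGroup p ↥(A ⊔ Subgroup.zpowers (x ^ (p ^ j))) := hR.to_subgroup _
    have hBnc : ¬ IsCyclic ↥(A ⊔ Subgroup.zpowers (x ^ (p ^ j))) := by
      intro hc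
      apply hBnab
      intro u hu v hv
      have := (IsCyclic.isMulCommutative (α := ↥(A ⊔ Subgroup.zpowers (x ^ (p ^ j))))).is_comm.comm
        ⟨u, hu⟩ ⟨v, hv⟩
      exact congrArg Subtype.val this
    have hAsub_cyc : IsCyclic ↥(A.subgroupOf (A ⊔ Subgroup.zpowers (x ^ (p ^ j)))) :=
      isCyclic_of_surjective (Subgroup.subgroupOfEquivOfLe hAB).symm
        (Subgroup.subgroupOfEquivOfLe hAB).symm.surjective
    have hAidx : (A.subgroupOf (A ⊔ Subgroup.zpowers (x ^ (p ^ j)))).index = p := by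
      have h := Subgroup.relIndex_mul_relIndex (⊥ : Subgroup R) A
        (A ⊔ Subgroup.zpowers (x ^ (p ^ j))) bot_le hAB
      rw [Subgroup.relIndex_bot_left, Subgroup.relIndex_bot_left, hcardB] at h
      have hpos : 0 < Nat.card A := Nat.card_pos
      exact Nat.eq_of_mul_eq_mul_left hpos (h.trans (mul_comm _ _))
    obtain ⟨K, hK, hKc⟩ := Cfsg.Agent.S0127.main hp hBp hBnc _ hAsub_cyc hAidx
    have hKab := IsPGroup.commutative_of_card_eq_prime_sq hKc
    have hcomm : ∀ u ∈ K.map (A ⊔ Subgroup.zpowers (x ^ (p ^ j))).subtype,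
        ∀ v ∈ K.map (A ⊔ Subgroup.zpowers (x ^ (p ^ j))).subtype, u * v = v * u := by
      rintro _ ⟨a, ha, rfl⟩ _ ⟨b, hb, rfl⟩
      have := hKab ⟨a, ha⟩ ⟨b, hb⟩
      exact congrArg (fun z : K => ((z : ↥(A ⊔ Subgroup.zpowers (x ^ (p ^ j)))) : R)) this
    refine ⟨K.map (A ⊔ Subgroup.zpowers (x ^ (p ^ j))).subtype,
      (Subgroup.map_subtype_le K).trans hBS, ?_, ⟨⟨⟨fun a b => Subtype.ext (hcomm a a.2 b b.2)⟩⟩, ?_⟩,
      ?_⟩
    · constructor
      rintro _ ⟨k, hk, rfl⟩ g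
      have hmem : g * (k : R) * g⁻¹ ∈ A ⊔ Subgroup.zpowers (x ^ (p ^ j)) :=
        hBn.conj_mem k k.2 g
      refine ⟨⟨g * (k : R) * g⁻¹, hmem⟩, ?_, rfl⟩
      rw [SetLike.mem_coe, hK]
      apply Subtype.ext
      have hk' : (k : R) ^ p = 1 := by
        have := (hK k).1 hk
        exact_mod_cast congrArg Subtype.val this
      show (g * (k : R) * g⁻¹) ^ p = 1
      rw [conj_pow, hk', mul_one, mul_inv_cancel]
    · rintro _ ⟨k, hk, rfl⟩
      have := (hK k).1 hk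
      rw [← map_pow, this, map_one]
    · rw [Subgroup.card_map_of_injective (Subgroup.subtype_injective _)]
      exact hKc
  · let _ : CommGroup ↥A :=
      { (inferInstance : Group ↥A) with mul_comm := fun a b => Subtype.ext (hAab a a.2 b b.2) }
    obtain ⟨q, hq, x, y, hx1, hxq, hyq, hyx⟩ := Cfsg.Agent.S0041.exists_rank_two (A := ↥A) hAcyc
    have hqp : q = p := by
      haveI : Fact q.Prime := ⟨hq⟩
      have h1 : orderOf x = q := orderOf_eq_prime hxq hx1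
      obtain ⟨k, hk⟩ := (hR.to_subgroup A) x
      have h2 : q ∣ p ^ k := h1 ▸ orderOf_dvd_of_pow_eq_one hk
      exact (Nat.prime_dvd_prime_iff_eq hq hpp).1 (hq.dvd_of_dvd_pow h2)
    rw [hqp] at hxq hyq
    let Ω : Subgroup R :=
      { carrier := {a | a ∈ A ∧ a ^ p = 1}
        one_mem' := ⟨A.one_mem, one_pow p⟩
        mul_mem' := by
          rintro a b ⟨ha, ha'⟩ ⟨hb, hb'⟩
          refine ⟨A.mul_mem ha hb, ?_⟩
          have hc : Commute a b := hAab a ha b hb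
          rw [hc.mul_pow, ha', hb', one_mul]
        inv_mem' := by
          rintro a ⟨ha, ha'⟩
          exact ⟨A.inv_mem ha, by rw [inv_pow, ha', inv_one]⟩ }
    haveI hΩn : Ω.Normal := by
      constructor
      rintro a ⟨ha, ha'⟩ g
      exact ⟨hAn.conj_mem a ha g, by rw [conj_pow, ha', mul_one, mul_inv_cancel]⟩
    have hΩA : Ω ≤ A := fun a ha => ha.1
    have hxΩ : (x : R) ∈ Ω := ⟨x.2, by exact_mod_cast congrArg Subtype.val hxq⟩
    have hyΩ : (y : R) ∈ Ω := ⟨y.2, by exact_mod_cast congrArg Subtype.val hyq⟩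
    have hx1' : (x : R) ≠ 1 := fun h => hx1 (Subtype.ext h)
    have hy' : (y : R) ∉ Subgroup.zpowers (x : R) := by
      intro h
      obtain ⟨i, hi⟩ := Subgroup.mem_zpowers_iff.1 h
      apply hyx
      refine Subgroup.mem_zpowers_iff.2 ⟨i, ?_⟩
      apply Subtype.ext
      rw [← hi]
      simp
    obtain ⟨A₂, hA₂Ω, hA₂n, hA₂e, hA₂c⟩ := case_noncyclic hR Ω
      (fun a ha b hb => hAab a ha.1 b hb.1) (fun a ha => ha.2) (x : R) (y : R) hxΩ hyΩ hx1' hy'
    exact ⟨A₂, (hA₂Ω.trans hΩA).trans hAS, hA₂n, hA₂e, hA₂c⟩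

end Cfsg.Agent.S0636
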