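import Mathlib
import Cfsg.Statements.S0126
import Cfsg.Agent.S0636

set_option autoImplicit false
open Pointwise
open Cfsg

namespace Cfsg.Agent.S0126

theorem result {R : Type*} [Group R] [Finite R] {p : ℕ} [Fact p.Prime] (hp : p ≠ 2) (hR : IsPGroup p R) (hnc : ¬ IsCyclic R) : ∃ A : Subgroup R, A.Normal ∧ Cfsg.IsElementaryAbelian p A ∧ Nat.card A = p ^ 2 := by
  have hS : ¬ IsCyclic ↥(⊤ : Subgroup R) := by
    intro h
    exact hnc (isCyclic_of_surjective (Subgroup.topEquiv (G := R)) (Subgroup.topEquiv (G := R)).surjective)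
  obtain ⟨A, -, hAn, hAe, hAc⟩ := Cfsg.Agent.S0636.result hp hR ⊤ hS
  exact ⟨A, hAn, hAe, hAc⟩

end Cfsg.Agent.S0126
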