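import Mathlib
import Cfsg.Statements.S0131
import Cfsg.Agent.Lib.Helper2.SylowAux

set_option autoImplicit false
open Pointwise
open Cfsg
open scoped commutatorElement

namespace Cfsg.Agent.S0131

theorem result {G : Type*} [Group G] [Finite G] {p : ℕ} [Fact p.Prime] (P : Sylow p G) : (∃ N : Subgroup G, N.Normal ∧ N ⊓ (P : Subgroup G) = ⁅(P : Subgroup G), (P : Subgroup G)⁆ ∧ N ⊔ (P : Subgroup G) = ⊤) ↔ commutator G ⊓ (P : Subgroup G) = ⁅(P : Subgroup G), (P : Subgroup G)⁆ := by
  have hp : p.Prime := Fact.out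
  have hPP : ⁅(P : Subgroup G), (P : Subgroup G)⁆ ≤ (P : Subgroup G) := by
    rw [Subgroup.commutator_le]
    intro a ha b hb
    exact (P : Subgroup G).mul_mem ((P : Subgroup G).mul_mem ((P : Subgroup G).mul_mem ha hb)
      ((P : Subgroup G).inv_mem ha)) ((P : Subgroup G).inv_mem hb)
  have hPG : ⁅(P : Subgroup G), (P : Subgroup G)⁆ ≤ commutator G := by
    rw [commutator_def]
    exact Subgroup.commutator_mono le_top le_top
  constructor
  · rintro ⟨N, hNn, hNP, hsup⟩
    haveI := hNn
    have hGN : commutator G ≤ N := by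
      rw [commutator_def, Subgroup.commutator_le]
      intro a _ b _
      have ha : a ∈ N ⊔ (P : Subgroup G) := by rw [hsup]; trivial
      have hb : b ∈ N ⊔ (P : Subgroup G) := by rw [hsup]; trivial
      have ha' : a ∈ ((N ⊔ (P : Subgroup G) : Subgroup G) : Set G) := ha
      have hb' : b ∈ ((N ⊔ (P : Subgroup G) : Subgroup G) : Set G) := hb
      rw [Subgroup.normal_mul] at ha' hb'
      obtain ⟨n₁, hn₁, p₁, hp₁, rfl⟩ := ha'
      obtain ⟨n₂, hn₂, p₂, hp₂, rfl⟩ := hb'
      rw [← QuotientGroup.eq_one_iff]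
      have h1 : ((n₁ : G) : G ⧸ N) = 1 := (QuotientGroup.eq_one_iff _).2 hn₁
      have h2 : ((n₂ : G) : G ⧸ N) = 1 := (QuotientGroup.eq_one_iff _).2 hn₂
      have hc12 : ⁅p₁, p₂⁆ ∈ N ⊓ (P : Subgroup G) := by
        rw [hNP]; exact Subgroup.commutator_mem_commutator hp₁ hp₂
      have h3 : ((⁅p₁, p₂⁆ : G) : G ⧸ N) = 1 :=
        (QuotientGroup.eq_one_iff _).2 (Subgroup.mem_inf.1 hc12).1
      rw [commutatorElement_def] at h3 ⊢
      simp only [QuotientGroup.mk_mul, QuotientGroup.mk_inv, h1, h2, one_mul] at h3 ⊢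
      exact h3
    apply le_antisymm
    · rw [← hNP]
      exact inf_le_inf_right _ hGN
    · exact le_inf hPG hPP
  · intro hfoc
    classical
    set k := (Nat.card G).factorization p with hk
    set m := Nat.card G / p ^ k with hm
    have hGpos : Nat.card G ≠ 0 := Nat.card_pos.ne'
    have hcop : Nat.Coprime (p ^ k) m := Nat.Coprime.pow_left _ (Nat.coprime_ordCompl hp hGpos)
    have hprod : p ^ k * m = Nat.card G := Nat.ordProj_mul_ordCompl_eq_self _ _
    have hcardP : Nat.card (P : Subgroup G) = p ^ k := Sylow.card_eq_multiplicity P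
    set f : G →* Abelianization G := (powMonoidHom m).comp Abelianization.of with hf
    have hfmem : ∀ g : G, g ∈ f.ker ↔ g ^ m ∈ commutator G := by
      intro g
      rw [MonoidHom.mem_ker, hf, MonoidHom.comp_apply, powMonoidHom_apply, ← map_pow,
        ← MonoidHom.mem_ker, Abelianization.ker_of]
    refine ⟨f.ker, inferInstance, ?_, ?_⟩
    · apply le_antisymm
      · intro x hx
        obtain ⟨hx1, hx2⟩ := Subgroup.mem_inf.1 hx
        rw [hfmem] at hx1
        rw [← hfoc]
        refine Subgroup.mem_inf.2 ⟨?_, hx2⟩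
        have h1 : orderOf x ∣ p ^ k := by
          have := orderOf_dvd_natCard (⟨x, hx2⟩ : (P : Subgroup G))
          rw [hcardP, Subgroup.orderOf_mk] at this
          exact this
        have h2 : Nat.Coprime m (orderOf x) := (Nat.Coprime.coprime_dvd_left h1 hcop).symm
        obtain ⟨j, hj⟩ := exists_pow_eq_self_of_coprime h2
        rw [← hj]
        exact Subgroup.pow_mem _ hx1 j
      · apply le_inf _ hPP
        intro x hx
        rw [hfmem]
        exact Subgroup.pow_mem _ (hPG hx) m
    · rw [eq_top_iff]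
      intro g _
      -- g ^ (p^k) ∈ ker f
      have h1 : g ^ (p ^ k) ∈ f.ker := by
        rw [hfmem, ← pow_mul, hprod, pow_card_eq_one']
        exact one_mem _
      -- g ^ m ∈ ker f ⊔ P
      have h2 : g ^ m ∈ f.ker ⊔ (P : Subgroup G) := by
        have hpow : (g ^ m) ^ (p ^ k) = 1 := by
          rw [← pow_mul, mul_comm, hprod, pow_card_eq_one']
        have hpg : IsPGroup p (Subgroup.zpowers (g ^ m)) := by
          obtain ⟨j, -, hj⟩ := (Nat.dvd_prime_pow hp).1 (orderOf_dvd_of_pow_eq_one hpow)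
          apply IsPGroup.of_card (n := j)
          rw [Nat.card_zpowers, hj]
        obtain ⟨c, hc⟩ := Cfsg.Agent.Lib.Helper2.SylowAux.exists_conj_le_sylow P hpg
        have h3 := hc (g ^ m) (Subgroup.mem_zpowers _)
        have e : g ^ m = ⁅c, c⁻¹ * g ^ m * c⁆ * (c⁻¹ * g ^ m * c) := by
          rw [commutatorElement_def]; group
        rw [e]
        apply Subgroup.mul_mem _ (Subgroup.mem_sup_left _) (Subgroup.mem_sup_right h3)
        rw [hfmem]
        apply Subgroup.pow_mem
        rw [commutator_def]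
        exact Subgroup.commutator_mem_commutator (Subgroup.mem_top _) (Subgroup.mem_top _)
      have h4 : (1 : ℤ) = (p ^ k : ℕ) * Nat.gcdA (p ^ k) m + (m : ℕ) * Nat.gcdB (p ^ k) m := by
        have := Nat.gcd_eq_gcd_ab (p ^ k) m
        rw [hcop.gcd_eq_one] at this
        exact_mod_cast this
      have h5 : g = (g ^ (p ^ k)) ^ (Nat.gcdA (p ^ k) m) * (g ^ m) ^ (Nat.gcdB (p ^ k) m) := by
        rw [← zpow_natCast, ← zpow_natCast, ← zpow_mul, ← zpow_mul, ← zpow_add, ← h4, zpow_one]
      rw [h5]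
      exact Subgroup.mul_mem _ (Subgroup.zpow_mem _ (Subgroup.mem_sup_left h1) _)
        (Subgroup.zpow_mem _ h2 _)

end Cfsg.Agent.S0131
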