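import Mathlib
import Cfsg.Statements.S0133
import Cfsg.Agent.Lib.Helper3.CharTable

set_option autoImplicit false
open Cfsg
open scoped ComplexConjugate
open Cfsg.Agent.Lib.Helper3.Char Cfsg.Agent.Lib.Helper3.CharCore Cfsg.Agent.Lib.Helper3.CharTable

namespace Cfsg.Agent.S0133

theorem result {G : Type*} [Group G] [Finite G] : Nat.card (Cfsg.IrrCharacter G) = Nat.card (ConjClasses G) := by
  exact Cfsg.Agent.Lib.Helper3.CharTable.card_irr G

end Cfsg.Agent.S0133
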