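import Mathlib
import Cfsg.Statements.S0134
import Cfsg.Agent.Lib.Helper3.CharTable

set_option autoImplicit false
open Cfsg
open scoped ComplexConjugate
open Cfsg.Agent.Lib.Helper3.Char Cfsg.Agent.Lib.Helper3.CharCore Cfsg.Agent.Lib.Helper3.CharTable

namespace Cfsg.Agent.S0134

theorem result {G : Type*} [Group G] [Finite G] : ∑ᶠ χ : Cfsg.IrrCharacter G, (χ : G → ℂ) 1 ^ 2 = (Nat.card G : ℂ) := by
  classical
  have _i : Fintype G := Fintype.ofFinite G
  have _j : Fintype (Cfsg.IrrCharacter G) := Fintype.ofFinite _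
  rw [finsum_eq_sum_of_fintype]
  have h1 := column_orth (1 : G) 1
  have h2 : Nat.card {y : G // y * 1 * y⁻¹ = 1} = Nat.card G := by
    apply Nat.card_congr
    exact ⟨fun y => y.1, fun y => ⟨y, by simp⟩, fun y => rfl, fun y => rfl⟩
  rw [h2] at h1
  rw [← h1]
  refine Finset.sum_congr rfl (fun χ _ => ?_)
  obtain ⟨n, -, hn⟩ := irr_one_pos χ.2
  rw [hn, pow_two]
  simp

end Cfsg.Agent.S0134
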