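import Mathlib
import Cfsg.Statements.S0135
import Cfsg.Agent.Lib.Helper3.CharInt

set_option autoImplicit false
open Cfsg
open scoped ComplexConjugate
open Cfsg.Agent.Lib.Helper3.Char Cfsg.Agent.Lib.Helper3.CharCore Cfsg.Agent.Lib.Helper3.CharInt

namespace Cfsg.Agent.S0135

theorem result {G : Type*} [Group G] [Finite G] {V : Type*} [AddCommGroup V] [Module ℂ V] [FiniteDimensional ℂ V] (ρ : Representation ℂ G V) [ρ.IsIrreducible] : Module.finrank ℂ V ∣ Nat.card G := by
  exact degree_dvd_card ρ

end Cfsg.Agent.S0135
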