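import Mathlib
import Cfsg.Statements.S0136
import Cfsg.Agent.Lib.Helper3.CharTable

set_option autoImplicit false
open Cfsg
open scoped ComplexConjugate
open Cfsg.Agent.Lib.Helper3.Char Cfsg.Agent.Lib.Helper3.CharCore Cfsg.Agent.Lib.Helper3.CharTable

namespace Cfsg.Agent.S0136

theorem result {G : Type*} [Group G] [Finite G] (g h : G) : IsConj g h ↔ ∀ χ : Cfsg.IrrCharacter G, (χ : G → ℂ) g = (χ : G → ℂ) h := by
  classical
  have _i : Fintype G := Fintype.ofFinite G
  have _j : Fintype (Cfsg.IrrCharacter G) := Fintype.ofFinite _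
  constructor
  · intro hc χ
    rw [isConj_iff] at hc
    obtain ⟨c, rfl⟩ := hc
    exact (char_classFun (isCharacter_of_irr χ.2) g c).symm
  · intro hχ
    have h1 := column_orth g h
    have h2 := column_orth h h
    have h3 : ∑ χ : Cfsg.IrrCharacter G, (χ : G → ℂ) g * conj ((χ : G → ℂ) h) =
        ∑ χ : Cfsg.IrrCharacter G, (χ : G → ℂ) h * conj ((χ : G → ℂ) h) :=
      Finset.sum_congr rfl (fun χ _ => by rw [hχ χ])
    rw [h1, h2] at h3
    have h4 : Nat.card {y : G // y * g * y⁻¹ = h} = Nat.card {y : G // y * h * y⁻¹ = h} := by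
      exact_mod_cast h3
    have h5 : 0 < Nat.card {y : G // y * h * y⁻¹ = h} := by
      have : Nonempty {y : G // y * h * y⁻¹ = h} := ⟨⟨1, by simp⟩⟩
      exact Nat.card_pos
    rw [← h4] at h5
    have h6 : Nonempty {y : G // y * g * y⁻¹ = h} := (Nat.card_pos_iff.mp h5).1
    obtain ⟨y, hy⟩ := h6
    exact isConj_iff.mpr ⟨y, hy⟩

end Cfsg.Agent.S0136
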