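import Mathlib
import Cfsg.Statements.S0145
import Cfsg.Agent.Lib.Helper3.CharTable

set_option autoImplicit false
open scoped ComplexConjugate
open Cfsg
open scoped ComplexConjugate
open Cfsg.Agent.Lib.Helper3.Char Cfsg.Agent.Lib.Helper3.CharCore Cfsg.Agent.Lib.Helper3.CharTable

namespace Cfsg.Agent.S0145

theorem card_conj_eq {G : Type*} [Group G] (g h : G) (hc : IsConj g h) :
    Nat.card {y : G // y * g * y⁻¹ = h} = Nat.card (Subgroup.centralizer ({g} : Set G)) := by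
  rw [isConj_iff] at hc
  obtain ⟨y₀, hy₀⟩ := hc
  apply Nat.card_congr
  refine ⟨fun y => ⟨y₀⁻¹ * y.1, ?_⟩, fun c => ⟨y₀ * c.1, ?_⟩, ?_, ?_⟩
  · rw [Subgroup.mem_centralizer_iff]
    intro z hz
    rw [Set.mem_singleton_iff] at hz
    subst hz
    have h1 := y.2
    have h2 : y.1 * z = h * y.1 := by
      have := congrArg (fun t => t * y.1) h1
      simpa [mul_assoc] using this
    have h3 : y₀ * z = h * y₀ := by
      have := congrArg (fun t => t * y₀) hy₀
      simpa [mul_assoc] using this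
    have h4 : z * y₀⁻¹ = y₀⁻¹ * h := by
      rw [eq_inv_mul_iff_mul_eq, ← mul_assoc, h3]; simp [mul_assoc]
    calc z * (y₀⁻¹ * y.1) = y₀⁻¹ * h * y.1 := by rw [← mul_assoc, h4]
      _ = y₀⁻¹ * y.1 * z := by rw [mul_assoc, ← h2, mul_assoc]
  · have h1 := Subgroup.mem_centralizer_iff.mp c.2 g rfl
    calc y₀ * c.1 * g * (y₀ * c.1)⁻¹ = y₀ * (c.1 * g) * c.1⁻¹ * y₀⁻¹ := by simp [mul_assoc]
      _ = y₀ * (g * c.1) * c.1⁻¹ * y₀⁻¹ := by rw [h1]
      _ = y₀ * g * y₀⁻¹ := by simp [mul_assoc]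
      _ = h := hy₀
  · intro y
    simp
  · intro c
    simp

theorem result {G : Type*} [Group G] [Finite G] (g h : G) : (IsConj g h → ∑ᶠ χ : Cfsg.IrrCharacter G, (χ : G → ℂ) g * conj ((χ : G → ℂ) h) = (Nat.card (Subgroup.centralizer ({g} : Set G)) : ℂ)) ∧ (¬ IsConj g h → ∑ᶠ χ : Cfsg.IrrCharacter G, (χ : G → ℂ) g * conj ((χ : G → ℂ) h) = 0) := by
  classical
  have _i : Fintype G := Fintype.ofFinite G
  have _j : Fintype (Cfsg.IrrCharacter G) := Fintype.ofFinite _
  rw [finsum_eq_sum_of_fintype, column_orth g h]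
  constructor
  · intro hc
    rw [card_conj_eq g h hc]
  · intro hc
    have : IsEmpty {y : G // y * g * y⁻¹ = h} := by
      constructor
      rintro ⟨y, hy⟩
      exact hc (isConj_iff.mpr ⟨y, hy⟩)
    simp

end Cfsg.Agent.S0145
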