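import Mathlib
import Cfsg.Statements.S0146
import Cfsg.Agent.Lib.Helper3.CharInd

set_option autoImplicit false
open Cfsg
open scoped ComplexConjugate
open Cfsg.Agent.Lib.Helper3.Char Cfsg.Agent.Lib.Helper3.CharInd

namespace Cfsg.Agent.S0146

theorem result {G : Type*} [Group G] [Fintype G] (H : Subgroup G) [Fintype H] (θ : H → ℂ) (χ : G → ℂ) (hχ : Cfsg.IsClassFunction G χ) : Cfsg.classInner (Cfsg.indFun H θ) χ = Cfsg.classInner θ (fun h : H => χ h) := by
  exact frobenius H θ χ hχ

end Cfsg.Agent.S0146
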