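import Mathlib
import Cfsg.Statements.S0147
import Cfsg.Agent.Lib.Helper3.CharInd

set_option autoImplicit false
open Cfsg
open scoped ComplexConjugate
open Cfsg.Agent.Lib.Helper3.Char Cfsg.Agent.Lib.Helper3.CharInd

namespace Cfsg.Agent.S0147

theorem result {G : Type*} [Group G] [Fintype G] (H K : Subgroup G) [Fintype K] (hHK : H ≤ K) (θ : H → ℂ) : Cfsg.indFun K (Cfsg.indFun (H.subgroupOf K) (fun x => θ ⟨(x : K), Subgroup.mem_subgroupOf.mp x.2⟩)) = Cfsg.indFun H θ := by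
  classical
  have hcardK : (Nat.card K : ℂ) ≠ 0 := by exact_mod_cast Nat.card_pos.ne'
  have hcard : Nat.card (H.subgroupOf K) = Nat.card H :=
    Nat.card_congr (Subgroup.subgroupOfEquivOfLe hHK).toEquiv
  have hA : ∀ w : K, Cfsg.extendByZero (H.subgroupOf K)
      (fun x => θ ⟨(x : K), Subgroup.mem_subgroupOf.mp x.2⟩) w =
      Cfsg.extendByZero H θ (w : G) := by
    intro w
    by_cases hw : (w : G) ∈ H
    · have hw' : w ∈ H.subgroupOf K := Subgroup.mem_subgroupOf.mpr hw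
      rw [extendByZero_mem _ _ hw', extendByZero_mem _ _ hw]
    · have hw' : w ∉ H.subgroupOf K := fun h => hw (Subgroup.mem_subgroupOf.mp h)
      rw [extendByZero_not_mem _ _ hw', extendByZero_not_mem _ _ hw]
  have hB : ∀ z : G, Cfsg.extendByZero K (Cfsg.indFun (H.subgroupOf K)
      (fun x => θ ⟨(x : K), Subgroup.mem_subgroupOf.mp x.2⟩)) z =
      (Nat.card H : ℂ)⁻¹ * ∑ y : K, Cfsg.extendByZero H θ ((y : G)⁻¹ * z * (y : G)) := by
    intro z
    by_cases hz : z ∈ K
    · rw [extendByZero_mem _ _ hz]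
      unfold Cfsg.indFun
      rw [hcard]
      congr 1
      refine Finset.sum_congr rfl (fun y _ => ?_)
      rw [hA]
      rfl
    · rw [extendByZero_not_mem _ _ hz, Finset.sum_eq_zero, mul_zero]
      intro y _
      apply extendByZero_not_mem
      intro h
      apply hz
      have h1 := K.mul_mem (K.mul_mem y.2 (hHK h)) (K.inv_mem y.2)
      have h2 : (y : G) * ((y : G)⁻¹ * z * (y : G)) * (y : G)⁻¹ = z := by simp [mul_assoc]
      rwa [h2] at h1
  funext g
  have h0 : Cfsg.indFun K (Cfsg.indFun (H.subgroupOf K)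
      (fun x => θ ⟨(x : K), Subgroup.mem_subgroupOf.mp x.2⟩)) g =
      (Nat.card K : ℂ)⁻¹ * ∑ x : G, Cfsg.extendByZero K (Cfsg.indFun (H.subgroupOf K)
      (fun x => θ ⟨(x : K), Subgroup.mem_subgroupOf.mp x.2⟩)) (x⁻¹ * g * x) := rfl
  have h1 : Cfsg.indFun H θ g =
      (Nat.card H : ℂ)⁻¹ * ∑ x : G, Cfsg.extendByZero H θ (x⁻¹ * g * x) := rfl
  rw [h0, h1]
  simp only [hB]
  rw [← Finset.mul_sum, Finset.sum_comm]
  have hC : ∀ y : K, ∑ x : G, Cfsg.extendByZero H θ ((y : G)⁻¹ * (x⁻¹ * g * x) * (y : G)) =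
      ∑ x : G, Cfsg.extendByZero H θ (x⁻¹ * g * x) := by
    intro y
    rw [← Equiv.sum_comp (Equiv.mulRight (y : G)) (fun x => Cfsg.extendByZero H θ (x⁻¹ * g * x))]
    refine Finset.sum_congr rfl (fun x _ => ?_)
    congr 1
    simp [mul_assoc]
  rw [Finset.sum_congr rfl (fun y _ => hC y), Finset.sum_const, Finset.card_univ, nsmul_eq_mul,
    Fintype.card_eq_nat_card]
  field_simp

end Cfsg.Agent.S0147
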