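import Mathlib
import Cfsg.Statements.S0154
import Cfsg.Agent.Lib.Helper3.CharLinear

set_option autoImplicit false
open Cfsg
open scoped ComplexConjugate
open Cfsg.Agent.Lib.Helper3.Char Cfsg.Agent.Lib.Helper3.CharCore Cfsg.Agent.Lib.Helper3.CharLinear Cfsg.Agent.Lib.Helper3.CharTable

namespace Cfsg.Agent.S0154

theorem result {G : Type*} [Group G] [Finite G] : Nat.card {χ : Cfsg.IrrCharacter G // (χ : G → ℂ) 1 = 1} = (commutator G).index := by
  rw [card_linear, card_hom_units]

end Cfsg.Agent.S0154
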