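import Mathlib
import Cfsg.Statements.S0155
import Cfsg.Agent.Lib.Helper3.CharReg

set_option autoImplicit false
open Cfsg
open scoped ComplexConjugate
open Cfsg.Agent.Lib.Helper3.Char Cfsg.Agent.Lib.Helper3.CharReg Cfsg.Agent.Lib.Helper3.CharCore

namespace Cfsg.Agent.S0155

theorem result {G : Type*} [Group G] [Fintype G] [DecidableEq G] (g : G) : (Representation.leftRegular ℂ G).character g = if g = 1 then (Nat.card G : ℂ) else 0 := by
  exact regular_char g

end Cfsg.Agent.S0155
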