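import Mathlib
import Cfsg.Statements.S0156
import Cfsg.Agent.Lib.Helper3.CharReg

set_option autoImplicit false
open Cfsg
open scoped ComplexConjugate
open Cfsg.Agent.Lib.Helper3.Char Cfsg.Agent.Lib.Helper3.CharReg Cfsg.Agent.Lib.Helper3.CharCore

namespace Cfsg.Agent.S0156

theorem result {G : Type*} [Group G] [Fintype G] : (Representation.leftRegular ℂ G).character = ∑ᶠ χ : Cfsg.IrrCharacter G, (χ : G → ℂ) 1 • (χ : G → ℂ) := by
  classical
  have _j : Fintype (Cfsg.IrrCharacter G) := Fintype.ofFinite _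
  rw [finsum_eq_sum_of_fintype]
  exact regular_char_expand

end Cfsg.Agent.S0156
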