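import Mathlib
import Cfsg.Statements.S0157
import Cfsg.Agent.Lib.Helper3.Char
import Cfsg.Agent.Lib.Helper3.CharCore
import Cfsg.Agent.Lib.Helper3.CharTable
import Cfsg.Agent.Lib.Helper3.CharInd
import Cfsg.Agent.Lib.Helper3.CharArith
import Cfsg.Agent.Lib.Helper3.CharNormal
import Cfsg.Agent.Lib.Helper3.CharStab
import Cfsg.Agent.Lib.Helper3.CharCliff
import Cfsg.Agent.Lib.Helper3.CharPerm

set_option autoImplicit false
open Cfsg
open Cfsg.Agent.Lib.Helper3.Char Cfsg.Agent.Lib.Helper3.CharCore Cfsg.Agent.Lib.Helper3.CharTable Cfsg.Agent.Lib.Helper3.CharInd Cfsg.Agent.Lib.Helper3.CharArith Cfsg.Agent.Lib.Helper3.CharNormal Cfsg.Agent.Lib.Helper3.CharStab Cfsg.Agent.Lib.Helper3.CharCliff Cfsg.Agent.Lib.Helper3.CharPerm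
open scoped ComplexConjugate

namespace Cfsg.Agent.S0157

theorem perm_char {G : Type*} [Group G] (X : Type*) [MulAction G X] [Finite X] (g : G) :
    (Representation.ofMulAction ℂ G X).character g =
      (Nat.card (MulAction.fixedBy X g) : ℂ) := by
  classical
  have _x : Fintype X := Fintype.ofFinite X
  have h0 : Nat.card (MulAction.fixedBy X g) = Nat.card {x : X // g • x = x} := rfl
  rw [h0, Nat.card_eq_fintype_card]
  unfold Representation.character
  apply trace_perm (MonoidAlgebra.basis X ℂ) _ (fun x => g • x)
  intro x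
  rw [MonoidAlgebra.basis_apply, Representation.ofMulAction_single, MonoidAlgebra.basis_apply]

theorem burnside {G : Type*} [Group G] [Fintype G] (Y : Type*) [MulAction G Y] [Finite Y] :
    ∑ g : G, (Nat.card (MulAction.fixedBy Y g) : ℂ) =
      (Nat.card (Quotient (MulAction.orbitRel G Y)) : ℂ) * (Nat.card G : ℂ) := by
  classical
  have _y : Fintype Y := Fintype.ofFinite Y
  have _q : Fintype (Quotient (MulAction.orbitRel G Y)) := Fintype.ofFinite _
  have h := MulAction.sum_card_fixedBy_eq_card_orbits_mul_card_group G Y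
  rw [Nat.card_eq_fintype_card, Nat.card_eq_fintype_card, ← Nat.cast_mul, ← h, Nat.cast_sum]
  apply Finset.sum_congr rfl
  intro g _
  rw [Nat.card_eq_fintype_card]

theorem fixed_prod {G : Type*} [Group G] (X : Type*) [MulAction G X] [Finite X] (g : G) :
    Nat.card (MulAction.fixedBy (X × X) g) =
      Nat.card (MulAction.fixedBy X g) * Nat.card (MulAction.fixedBy X g) := by
  rw [← Nat.card_prod]
  apply Nat.card_congr
  exact
    { toFun := fun p => (⟨p.1.1, congrArg Prod.fst p.2⟩, ⟨p.1.2, congrArg Prod.snd p.2⟩)
      invFun := fun q => ⟨(q.1.1, q.2.1), Prod.ext q.1.2 q.2.2⟩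
      left_inv := fun _ => rfl
      right_inv := fun _ => rfl }

theorem two_orbits_iff {G : Type*} [Group G] (X : Type*) [MulAction G X] [Finite X]
    [hpt : MulAction.IsPretransitive G X] (hX : 2 ≤ Nat.card X) :
    Nat.card (Quotient (MulAction.orbitRel G (X × X))) = 2 ↔
      MulAction.IsMultiplyPretransitive G X 2 := by
  classical
  have hnt : Nontrivial X := Finite.one_lt_card_iff_nontrivial.mp (by omega)
  obtain ⟨a₀, b₀, hab₀⟩ := exists_pair_ne X
  have hmk : ∀ p q : X × X, (Quotient.mk (MulAction.orbitRel G (X × X)) p =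
      Quotient.mk (MulAction.orbitRel G (X × X)) q) ↔ ∃ g : G, g • q = p := by
    intro p q
    rw [Quotient.eq]
    exact MulAction.orbitRel_apply
  let f : Quotient (MulAction.orbitRel G (X × X)) → Bool :=
    Quotient.lift (fun p : X × X => decide (p.1 = p.2)) (by
      rintro ⟨a, b⟩ ⟨c, d⟩ h
      have h' : (a, b) ∈ MulAction.orbit G (c, d) := h
      obtain ⟨g, hg⟩ := h'
      have h1 : g • c = a := congrArg Prod.fst hg
      have h2 : g • d = b := congrArg Prod.snd hg
      simp only [decide_eq_decide]
      rw [← h1, ← h2]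
      exact smul_left_cancel_iff g)
  have hf : ∀ p : X × X, f (Quotient.mk (MulAction.orbitRel G (X × X)) p) =
      decide (p.1 = p.2) := fun p => rfl
  have hfsurj : Function.Surjective f := by
    intro b
    cases b
    · refine ⟨Quotient.mk (MulAction.orbitRel G (X × X)) (a₀, b₀), ?_⟩
      rw [hf]
      simp [hab₀]
    · refine ⟨Quotient.mk (MulAction.orbitRel G (X × X)) (a₀, a₀), ?_⟩
      rw [hf]
      simp
  constructor
  · intro hcard
    have hfin : Finite (Quotient (MulAction.orbitRel G (X × X))) :=
      Nat.finite_of_card_ne_zero (by omega)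
    have hcb : Nat.card (Quotient (MulAction.orbitRel G (X × X))) = Nat.card Bool := by
      rw [hcard, Nat.card_eq_fintype_card, Fintype.card_bool]
    obtain ⟨e⟩ := Finite.card_eq.mp hcb
    have hfinj : Function.Injective f := (Finite.injective_iff_surjective_of_equiv e).mpr hfsurj
    rw [MulAction.is_two_pretransitive_iff]
    intro a b c d hab hcd
    have h1 : f (Quotient.mk (MulAction.orbitRel G (X × X)) (c, d)) =
        f (Quotient.mk (MulAction.orbitRel G (X × X)) (a, b)) := by
      rw [hf, hf]
      simp [hab, hcd]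
    have h2 := hfinj h1
    obtain ⟨g, hg⟩ := (hmk _ _).mp h2
    exact ⟨g, congrArg Prod.fst hg, congrArg Prod.snd hg⟩
  · intro h2t
    rw [MulAction.is_two_pretransitive_iff] at h2t
    have hfinj : Function.Injective f := by
      intro u v huv
      induction u using Quotient.inductionOn with
      | h p =>
        induction v using Quotient.inductionOn with
        | h q =>
          obtain ⟨a, b⟩ := p
          obtain ⟨c, d⟩ := q
          have huv' : decide (a = b) = decide (c = d) := huv
          rw [hmk]
          by_cases hab : a = b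
          · have hcd : c = d := by simpa [hab] using huv'
            subst hab
            subst hcd
            obtain ⟨g, hg⟩ := MulAction.exists_smul_eq G c a
            exact ⟨g, by rw [Prod.smul_mk, hg]⟩
          · have hcd : c ≠ d := by
              intro hcd
              simp [hab, hcd] at huv'
            obtain ⟨g, hg1, hg2⟩ := h2t hcd hab
            exact ⟨g, by rw [Prod.smul_mk, hg1, hg2]⟩
    have h3 := Nat.card_congr (Equiv.ofBijective f ⟨hfinj, hfsurj⟩)
    rw [h3, Nat.card_eq_fintype_card, Fintype.card_bool]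

theorem result {G : Type*} [Group G] [Finite G] (X : Type*) [MulAction G X] [Finite X] [MulAction.IsPretransitive G X] (hX : 2 ≤ Nat.card X) : Cfsg.IsIrrCharacter G (fun g => (Nat.card (MulAction.fixedBy X g) : ℂ) - 1) ↔ MulAction.IsMultiplyPretransitive G X 2 := by
  classical
  have _i : Fintype G := Fintype.ofFinite G
  have hGc : (Nat.card G : ℂ) ≠ 0 := by exact_mod_cast Nat.card_pos.ne'
  have hπc : Cfsg.IsCharacter G (fun g : G => (Nat.card (MulAction.fixedBy X g) : ℂ)) := by
    have h1 := isCharacter_of_rep (Representation.ofMulAction ℂ G X)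
    have h2 : (Representation.ofMulAction ℂ G X).character =
        fun g => (Nat.card (MulAction.fixedBy X g) : ℂ) := by
      funext g
      exact perm_char X g
    rw [h2] at h1
    exact h1
  have hone : Cfsg.IsIrrCharacter G (fun _ : G => (1 : ℂ)) := isIrr_one G
  have hq1 : Nat.card (Quotient (MulAction.orbitRel G X)) = 1 := by
    have hne : Nonempty X := by
      by_contra h
      rw [not_nonempty_iff] at h
      rw [Nat.card_of_isEmpty] at hX
      omega
    have hsub : Subsingleton (Quotient (MulAction.orbitRel G X)) :=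
      (MulAction.pretransitive_iff_subsingleton_quotient G X).mp inferInstance
    have hneq : Nonempty (Quotient (MulAction.orbitRel G X)) :=
      hne.map (Quotient.mk (MulAction.orbitRel G X))
    obtain ⟨q0⟩ := hneq
    have hu : Unique (Quotient (MulAction.orbitRel G X)) :=
      ⟨⟨q0⟩, fun q => Subsingleton.elim _ _⟩
    exact Nat.card_unique
  have hin1 : Cfsg.classInner (fun g : G => (Nat.card (MulAction.fixedBy X g) : ℂ)) (fun _ : G => (1 : ℂ)) = 1 := by
    unfold Cfsg.classInner
    simp only [map_one, mul_one]
    rw [burnside X, hq1, Nat.cast_one, one_mul, inv_mul_cancel₀ hGc]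
  have hin2 : Cfsg.classInner (fun g : G => (Nat.card (MulAction.fixedBy X g) : ℂ))
      (fun g : G => (Nat.card (MulAction.fixedBy X g) : ℂ)) =
      (Nat.card (Quotient (MulAction.orbitRel G (X × X))) : ℂ) := by
    unfold Cfsg.classInner
    have h1 : ∀ g : G, (Nat.card (MulAction.fixedBy X g) : ℂ) *
        conj (Nat.card (MulAction.fixedBy X g) : ℂ) =
        (Nat.card (MulAction.fixedBy (X × X) g) : ℂ) := by
      intro g
      rw [Complex.conj_natCast, fixed_prod X g]
      push_cast
      rfl
    rw [Finset.sum_congr rfl (fun g _ => h1 g), burnside (X × X), mul_comm, mul_assoc,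
      mul_inv_cancel₀ hGc, mul_one]
  have hfun : (fun g => (Nat.card (MulAction.fixedBy X g) : ℂ) - 1) =
      (fun g : G => (Nat.card (MulAction.fixedBy X g) : ℂ)) - (fun _ : G => (1 : ℂ)) := rfl
  have hin3 : Cfsg.classInner ((fun g : G => (Nat.card (MulAction.fixedBy X g) : ℂ)) -
      (fun _ : G => (1 : ℂ))) ((fun g : G => (Nat.card (MulAction.fixedBy X g) : ℂ)) -
      (fun _ : G => (1 : ℂ))) = (Nat.card (Quotient (MulAction.orbitRel G (X × X))) : ℂ) - 1 := by
    rw [classInner_sub_left, classInner_sub_right, classInner_sub_right, hin2, hin1,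
      classInner_conj_symm (fun g : G => (Nat.card (MulAction.fixedBy X g) : ℂ)) (fun _ : G => (1 : ℂ)),
      hin1, irr_inner_self hone]
    simp
  rw [hfun, ← two_orbits_iff X hX]
  constructor
  · intro hirr
    have h1 := irr_inner_self hirr
    rw [hin3] at h1
    have h2 : (Nat.card (Quotient (MulAction.orbitRel G (X × X))) : ℂ) = ((2 : ℕ) : ℂ) := by
      push_cast
      linear_combination h1
    exact_mod_cast h2
  · intro hcard
    apply isIrr_of_inner_self
    · apply sub_isCharacter hπc hone
      rw [hin1]
      exact one_ne_zero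
    · rw [hin3, hcard]
      norm_num

end Cfsg.Agent.S0157
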