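import Mathlib
import Cfsg.Statements.S0160
import Cfsg.Agent.Lib.Helper3.CharPerm
import Cfsg.Agent.Lib.Helper3.CharInd
import Cfsg.Agent.Lib.Helper3.CharTable
import Cfsg.Agent.Lib.Helper3.Char
import Cfsg.Agent.Lib.Helper3.CharCore
import Cfsg.Agent.Lib.Helper3.CharArith

set_option autoImplicit false
open Cfsg
open Cfsg.Agent.Lib.Helper3.CharPerm Cfsg.Agent.Lib.Helper3.CharInd Cfsg.Agent.Lib.Helper3.CharTable Cfsg.Agent.Lib.Helper3.Char Cfsg.Agent.Lib.Helper3.CharCore Cfsg.Agent.Lib.Helper3.CharArith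
open scoped ComplexConjugate

namespace Cfsg.Agent.S0160

theorem result {G : Type*} [Group G] [Finite G] : Nat.card {χ : Cfsg.IrrCharacter G // ∀ g : G, ((χ : G → ℂ) g).im = 0} = Nat.card {C : ConjClasses G // ∀ g : G, ConjClasses.mk g = C → IsConj g g⁻¹} := by
  classical
  have _i : Fintype G := Fintype.ofFinite G
  have h1 := perm_lemma (fun C : ConjClasses G => ConjClasses.mk (Quotient.out C)⁻¹)
    (fun χ : Cfsg.IrrCharacter G => ⟨fun g => conj ((χ : G → ℂ) g), isIrr_conj χ.2⟩) (by
      intro χ g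
      change conj ((χ : G → ℂ) g) = _
      rw [classFun_out (char_classFun (isCharacter_of_irr χ.2)),
        char_inv (isCharacter_of_irr χ.2), classFun_out (char_classFun (isCharacter_of_irr χ.2))])
  have h2 : Nat.card {C : ConjClasses G // ∀ g : G, ConjClasses.mk g = C → IsConj g g⁻¹} =
      Nat.card {C : ConjClasses G // ConjClasses.mk (Quotient.out C)⁻¹ = C} := by
    refine Nat.card_congr (Equiv.subtypeEquivRight (fun C => ?_))
    have hC : ConjClasses.mk (Quotient.out C) = C := Quotient.out_eq C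
    constructor
    · intro h
      have h3 := h (Quotient.out C) hC
      rw [← ConjClasses.mk_eq_mk_iff_isConj] at h3
      rw [← h3, hC]
    · intro h g hg
      rw [← ConjClasses.mk_eq_mk_iff_isConj]
      rw [← hC, ConjClasses.mk_eq_mk_iff_isConj, isConj_iff] at hg
      obtain ⟨c, hc⟩ := hg
      have h4 : c * g⁻¹ * c⁻¹ = (Quotient.out C)⁻¹ := by
        rw [← hc]; group
      have h5 : ConjClasses.mk g⁻¹ = ConjClasses.mk (Quotient.out C)⁻¹ := by
        rw [ConjClasses.mk_eq_mk_iff_isConj, isConj_iff]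
        exact ⟨c, h4⟩
      have h6 : ConjClasses.mk g = ConjClasses.mk (Quotient.out C) := by
        rw [ConjClasses.mk_eq_mk_iff_isConj, isConj_iff]
        exact ⟨c, hc⟩
      rw [h5, h, h6, hC]
  rw [h2, h1]
  refine Nat.card_congr (Equiv.subtypeEquivRight (fun χ => ?_))
  rw [Subtype.ext_iff]
  change _ ↔ (fun g => conj ((χ : G → ℂ) g)) = (χ : G → ℂ)
  constructor
  · intro h
    funext g
    exact Complex.conj_eq_iff_im.mpr (h g)
  · intro h g
    exact Complex.conj_eq_iff_im.mp (congrFun h g)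

end Cfsg.Agent.S0160
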