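import Mathlib
import Cfsg.Statements.S0162
import Cfsg.Agent.Lib.Helper3.CharPerm
import Cfsg.Agent.Lib.Helper3.CharInd
import Cfsg.Agent.Lib.Helper3.CharTable
import Cfsg.Agent.Lib.Helper3.Char
import Cfsg.Agent.Lib.Helper3.CharCore
import Cfsg.Agent.Lib.Helper3.CharArith
import Cfsg.Agent.Lib.Helper3.CharInt
import Cfsg.Agent.S0161

set_option autoImplicit false
open Cfsg
open Cfsg.Agent.Lib.Helper3.CharPerm Cfsg.Agent.Lib.Helper3.CharInd Cfsg.Agent.Lib.Helper3.CharTable Cfsg.Agent.Lib.Helper3.Char Cfsg.Agent.Lib.Helper3.CharCore Cfsg.Agent.Lib.Helper3.CharArith Cfsg.Agent.Lib.Helper3.CharInt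
open scoped ComplexConjugate

namespace Cfsg.Agent.S0162

theorem exists_half_invol {ι : Type*} [DecidableEq ι] (φ : ι → ι) (hφ : ∀ x, φ (φ x) = x)
    (f : ι → ℤ) (hf : ∀ x, f (φ x) = f x) :
    ∀ s : Finset ι, (∀ x ∈ s, φ x ∈ s) → (∀ x ∈ s, φ x ≠ x) →
    ∃ t : Finset ι, t ⊆ s ∧ ∑ x ∈ s, f x = 2 * ∑ x ∈ t, f x := by
  intro s
  induction s using Finset.strongInduction with
  | H s ih =>
    intro hcl hne
    by_cases hs : s = ∅
    · subst hs
      exact ⟨∅, Finset.Subset.refl _, by simp⟩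
    · obtain ⟨g, hg⟩ := Finset.nonempty_iff_ne_empty.mpr hs
      have hg' : φ g ∈ s.erase g := Finset.mem_erase.mpr ⟨hne g hg, hcl g hg⟩
      have hsub : (s.erase g).erase (φ g) ⊂ s :=
        lt_of_le_of_lt (Finset.erase_subset _ _) (Finset.erase_ssubset hg)
      obtain ⟨t', ht', hsum⟩ := ih ((s.erase g).erase (φ g)) hsub
        (by
          intro h hh
          rw [Finset.mem_erase, Finset.mem_erase] at hh ⊢
          refine ⟨?_, ?_, hcl h hh.2.2⟩
          · intro h1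
            apply hh.2.1
            rw [← hφ h, h1, hφ]
          · intro h1
            apply hh.1
            rw [← h1, hφ])
        (by
          intro h hh
          rw [Finset.mem_erase, Finset.mem_erase] at hh
          exact hne h hh.2.2)
      have hgt : g ∉ t' := by
        intro h
        have := ht' h
        rw [Finset.mem_erase, Finset.mem_erase] at this
        exact this.2.1 rfl
      refine ⟨insert g t', ?_, ?_⟩
      · intro x hx
        rcases Finset.mem_insert.mp hx with rfl | hx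
        · exact hg
        · exact Finset.mem_of_mem_erase (Finset.mem_of_mem_erase (ht' hx))
      · rw [← Finset.add_sum_erase s f hg, ← Finset.add_sum_erase (s.erase g) f hg', hsum,
          Finset.sum_insert hgt, hf g]
        ring

theorem eight_dvd_sq_sub_one {d : ℕ} (hd : Odd d) : (8 : ℤ) ∣ (d : ℤ) ^ 2 - 1 := by
  have h1 : d % 8 = 1 ∨ d % 8 = 3 ∨ d % 8 = 5 ∨ d % 8 = 7 := by
    have := Nat.odd_iff.mp hd
    omega
  have h2 : d ^ 2 % 8 = 1 := by
    rw [Nat.pow_mod]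
    rcases h1 with h | h | h | h <;> rw [h]
  have h3 : 1 ≤ d ^ 2 := Nat.one_le_pow _ _ hd.pos
  have h4 : (8 : ℕ) ∣ d ^ 2 - 1 := by
    rw [Nat.dvd_iff_mod_eq_zero]
    omega
  have h5 : ((d ^ 2 - 1 : ℕ) : ℤ) = (d : ℤ) ^ 2 - 1 := by
    rw [Nat.cast_sub h3]
    push_cast
    ring
  rw [← h5]
  exact_mod_cast h4

theorem result {G : Type*} [Group G] [Finite G] (hodd : Odd (Nat.card G)) : Nat.card G ≡ Nat.card (ConjClasses G) [MOD 16] := by
  classical
  have _i : Fintype G := Fintype.ofFinite G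
  have _j : Fintype (Cfsg.IrrCharacter G) := Fintype.ofFinite _
  rw [← card_irr G]
  have hex : ∀ χ : Cfsg.IrrCharacter G, ∃ n : ℕ, (χ : G → ℂ) 1 = (n : ℂ) ∧ n ∣ Nat.card G := by
    intro χ
    obtain ⟨n, _, h1, h2⟩ := irr_degree_dvd_card χ.2
    exact ⟨n, h1, h2⟩
  choose d hd hdvd using hex
  have hoddd : ∀ χ, Odd (d χ) := fun χ => Odd.of_dvd_nat hodd (hdvd χ)
  have hsum : (Nat.card G : ℤ) = ∑ χ : Cfsg.IrrCharacter G, (d χ : ℤ) ^ 2 := by
    have h1 := column_orth (1 : G) (1 : G)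
    have h2 : Nat.card {y : G // y * 1 * y⁻¹ = 1} = Nat.card G := by
      refine Nat.card_congr (Equiv.subtypeUnivEquiv (fun y => ?_))
      simp
    rw [h2] at h1
    have h3 : ∀ χ : Cfsg.IrrCharacter G, (χ : G → ℂ) 1 * conj ((χ : G → ℂ) 1) =
        (((d χ : ℤ) ^ 2 : ℤ) : ℂ) := by
      intro χ
      rw [hd χ, Complex.conj_natCast]
      push_cast
      ring
    rw [Finset.sum_congr rfl (fun χ _ => h3 χ), ← Int.cast_sum] at h1
    have h4 : ((Nat.card G : ℤ) : ℂ) = ((∑ χ : Cfsg.IrrCharacter G, (d χ : ℤ) ^ 2 : ℤ) : ℂ) := by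
      rw [h1]
      simp
    exact_mod_cast h4
  let φ : Cfsg.IrrCharacter G → Cfsg.IrrCharacter G :=
    fun χ => ⟨fun g => conj ((χ : G → ℂ) g), isIrr_conj χ.2⟩
  have hφ : ∀ χ, φ (φ χ) = χ := by
    intro χ
    apply Subtype.ext
    funext g
    change conj (conj ((χ : G → ℂ) g)) = _
    rw [Complex.conj_conj]
  have hdφ : ∀ χ, d (φ χ) = d χ := by
    intro χ
    have h1 : (φ χ : G → ℂ) 1 = conj ((χ : G → ℂ) 1) := rfl
    rw [hd, hd, Complex.conj_natCast] at h1
    exact_mod_cast h1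
  let triv : Cfsg.IrrCharacter G := ⟨fun _ => 1, isIrr_one G⟩
  have htriv : φ triv = triv := by
    apply Subtype.ext
    funext g
    change conj (1 : ℂ) = 1
    simp
  have hdtriv : d triv = 1 := by
    have h1 : (triv : G → ℂ) 1 = 1 := rfl
    rw [hd] at h1
    exact_mod_cast h1
  obtain ⟨t, -, ht⟩ := exists_half_invol φ hφ (fun χ => (d χ : ℤ) ^ 2 - 1)
    (fun χ => by rw [hdφ]) (Finset.univ.erase triv)
    (by
      intro χ hχ
      rw [Finset.mem_erase] at hχ ⊢
      refine ⟨fun h => hχ.1 ?_, Finset.mem_univ _⟩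
      rw [← hφ χ, h, htriv])
    (by
      intro χ hχ h
      rw [Finset.mem_erase] at hχ
      apply hχ.1
      apply Subtype.ext
      apply Cfsg.Agent.S0161.result hodd χ
      intro g
      have h1 : (φ χ : G → ℂ) g = (χ : G → ℂ) g := by rw [h]
      exact Complex.conj_eq_iff_im.mp h1)
  have h8 : (8 : ℤ) ∣ ∑ χ ∈ t, ((d χ : ℤ) ^ 2 - 1) :=
    Finset.dvd_sum (fun χ _ => eight_dvd_sq_sub_one (hoddd χ))
  have h16 : (16 : ℤ) ∣ ∑ χ ∈ Finset.univ.erase triv, ((d χ : ℤ) ^ 2 - 1) := by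
    rw [ht]
    obtain ⟨c, hc⟩ := h8
    exact ⟨c, by rw [hc]; ring⟩
  have hcardI : (Nat.card (Cfsg.IrrCharacter G) : ℤ) = ((Finset.univ.erase triv).card : ℤ) + 1 := by
    rw [Nat.card_eq_fintype_card, ← Finset.card_univ,
      ← Finset.card_erase_add_one (Finset.mem_univ triv)]
    push_cast
    rfl
  have hsum2 : (Nat.card G : ℤ) = 1 + ∑ χ ∈ Finset.univ.erase triv, (d χ : ℤ) ^ 2 := by
    rw [hsum, ← Finset.add_sum_erase _ _ (Finset.mem_univ triv), hdtriv]
    simp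
  rw [Finset.sum_sub_distrib, Finset.sum_const, nsmul_eq_mul, mul_one] at h16
  have h17 : (16 : ℤ) ∣ (Nat.card G : ℤ) - (Nat.card (Cfsg.IrrCharacter G) : ℤ) := by
    rw [hsum2, hcardI]
    have : (1 : ℤ) + ∑ χ ∈ Finset.univ.erase triv, (d χ : ℤ) ^ 2 -
        (((Finset.univ.erase triv).card : ℤ) + 1) =
        ∑ χ ∈ Finset.univ.erase triv, (d χ : ℤ) ^ 2 - ((Finset.univ.erase triv).card : ℤ) := by
      ring
    rw [this]
    exact h16
  exact ((Nat.modEq_iff_dvd).mpr (by exact_mod_cast h17)).symm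

end Cfsg.Agent.S0162
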