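import Mathlib
import Cfsg.Statements.S0167
import Cfsg.Agent.Lib.Helper3.Char
import Cfsg.Agent.Lib.Helper3.CharCore
import Cfsg.Agent.Lib.Helper3.CharTable
import Cfsg.Agent.Lib.Helper3.CharInt

set_option autoImplicit false
open Cfsg
open Cfsg.Agent.Lib.Helper3.Char Cfsg.Agent.Lib.Helper3.CharCore Cfsg.Agent.Lib.Helper3.CharTable Cfsg.Agent.Lib.Helper3.CharInt
open scoped ComplexConjugate

namespace Cfsg.Agent.S0167

theorem conv_char {G : Type*} [Group G] [Fintype G] {V : Type*} [AddCommGroup V] [Module ℂ V]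
    [FiniteDimensional ℂ V] (ρ : Representation ℂ G V) [hirr : ρ.IsIrreducible] (h : G) :
    ∑ a : G, ρ.character a⁻¹ * ρ.character (a * h) =
      (Nat.card G : ℂ) / (Module.finrank ℂ V : ℂ) * ρ.character h := by
  have hcard : (Nat.card G : ℂ) ≠ 0 := by exact_mod_cast Nat.card_pos.ne'
  have hs := schur_class_sum (fun a => ρ.character a⁻¹) (by
    intro g x
    have : (x * g * x⁻¹)⁻¹ = x * g⁻¹ * x⁻¹ := by group
    rw [this]
    exact Representation.char_conj ρ g⁻¹ x) ρ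
  have h1 : ∑ g : G, (fun a => ρ.character a⁻¹) g * ρ.character g = (Nat.card G : ℂ) := by
    have h2 := irr_inner_self (isIrr_of_rep ρ hirr)
    rw [classInner_eq _ (isCharacter_of_rep ρ)] at h2
    have h3 : ∑ g : G, ρ.character g * ρ.character g⁻¹ = (Nat.card G : ℂ) := by
      field_simp at h2
      exact h2
    rw [← h3]
    refine Finset.sum_congr rfl (fun g _ => ?_)
    ring
  rw [h1] at hs
  have h4 := congrArg (fun T : Module.End ℂ V => LinearMap.trace ℂ V (T * ρ h)) hs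
  rw [← Module.End.one_eq_id] at h4
  simp only [Finset.sum_mul, map_sum, smul_mul_assoc, map_smul, smul_eq_mul, one_mul,
    ← map_mul] at h4
  exact h4

theorem comm_count {G : Type*} [Group G] [Fintype G] [Fintype (Cfsg.IrrCharacter G)] (g : G) :
    (Nat.card {p : G × G // p.1 * p.2 * p.1⁻¹ * p.2⁻¹ = g} : ℂ) =
      (Nat.card G : ℂ) * ∑ χ : Cfsg.IrrCharacter G, (χ : G → ℂ) g / (χ : G → ℂ) 1 := by
  classical
  have hN : Nat.card {p : G × G // p.1 * p.2 * p.1⁻¹ * p.2⁻¹ = g} =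
      ∑ a : G, Nat.card {y : G // y * a⁻¹ * y⁻¹ = a⁻¹ * g} := by
    rw [Nat.card_eq_fintype_card, Fintype.card_subtype]
    have h1 : (Finset.univ.filter (fun p : G × G => p.1 * p.2 * p.1⁻¹ * p.2⁻¹ = g)).card =
        ∑ a : G, ((Finset.univ.filter (fun p : G × G => p.1 * p.2 * p.1⁻¹ * p.2⁻¹ = g)).filter
          (fun p => p.1 = a)).card :=
      Finset.card_eq_sum_card_fiberwise (f := fun p : G × G => p.1) (t := Finset.univ)
        (fun _ _ => Finset.mem_univ _)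
    rw [h1]
    refine Finset.sum_congr rfl (fun a _ => ?_)
    rw [Nat.card_eq_fintype_card, Fintype.card_subtype]
    apply Finset.card_bij (fun p _ => p.2)
    · intro p hp
      rw [Finset.mem_filter, Finset.mem_filter] at hp
      rw [Finset.mem_filter]
      refine ⟨Finset.mem_univ _, ?_⟩
      obtain ⟨⟨_, hp1⟩, hp2⟩ := hp
      rw [← hp1, hp2]
      group
    · intro p hp q hq hpq
      rw [Finset.mem_filter, Finset.mem_filter] at hp hq
      exact Prod.ext (hp.2.trans hq.2.symm) hpq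
    · intro y hy
      rw [Finset.mem_filter] at hy
      refine ⟨(a, y), ?_, rfl⟩
      rw [Finset.mem_filter, Finset.mem_filter]
      refine ⟨⟨Finset.mem_univ _, ?_⟩, rfl⟩
      change a * y * a⁻¹ * y⁻¹ = g
      have h2 : a * y * a⁻¹ * y⁻¹ = a * (y * a⁻¹ * y⁻¹) := by group
      rw [h2, hy.2]
      group
  have hconv : ∀ χ : Cfsg.IrrCharacter G,
      ∑ a : G, (χ : G → ℂ) a⁻¹ * conj ((χ : G → ℂ) (a⁻¹ * g)) =
        (Nat.card G : ℂ) * (conj ((χ : G → ℂ) g) / (χ : G → ℂ) 1) := by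
    intro χ
    obtain ⟨χ, n, ρ, hirr, rfl⟩ := χ
    have : ρ.IsIrreducible := hirr
    have h1 := conv_char ρ g⁻¹
    rw [rep_char_inv ρ g, ← Representation.char_one ρ] at h1
    change ∑ a : G, ρ.character a⁻¹ * conj (ρ.character (a⁻¹ * g)) =
      (Nat.card G : ℂ) * (conj (ρ.character g) / ρ.character 1)
    rw [mul_div_assoc', mul_div_right_comm, ← h1]
    refine Finset.sum_congr rfl (fun a _ => ?_)
    congr 1
    rw [← rep_char_inv ρ]
    have h2 : (a⁻¹ * g)⁻¹ = a⁻¹ * (a * g⁻¹) * a⁻¹⁻¹ := by group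
    rw [h2]
    exact Representation.char_conj ρ (a * g⁻¹) a⁻¹
  have hmain : (Nat.card {p : G × G // p.1 * p.2 * p.1⁻¹ * p.2⁻¹ = g} : ℂ) =
      (Nat.card G : ℂ) * ∑ χ : Cfsg.IrrCharacter G, conj ((χ : G → ℂ) g) / (χ : G → ℂ) 1 := by
    rw [hN]
    push_cast
    rw [Finset.sum_congr rfl (fun a _ => (column_orth a⁻¹ (a⁻¹ * g)).symm), Finset.sum_comm,
      Finset.sum_congr rfl (fun χ _ => hconv χ), ← Finset.mul_sum]
  have hconj := congrArg conj hmain
  rw [Complex.conj_natCast, map_mul, Complex.conj_natCast, map_sum] at hconj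
  rw [hconj]
  congr 1
  refine Finset.sum_congr rfl (fun χ _ => ?_)
  obtain ⟨m, hm, -⟩ := char_one (isCharacter_of_irr χ.2)
  rw [map_div₀, Complex.conj_conj, hm, Complex.conj_natCast]

theorem result {G : Type*} [Group G] [Finite G] (g : G) : (∃ a b : G, g = a * b * a⁻¹ * b⁻¹) ↔ ∑ᶠ χ : Cfsg.IrrCharacter G, (χ : G → ℂ) g / (χ : G → ℂ) 1 ≠ 0 := by
  classical
  have _i : Fintype G := Fintype.ofFinite G
  have _j : Fintype (Cfsg.IrrCharacter G) := Fintype.ofFinite _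
  rw [finsum_eq_sum_of_fintype]
  have hcard : (Nat.card G : ℂ) ≠ 0 := by exact_mod_cast Nat.card_pos.ne'
  have hc := comm_count g
  constructor
  · rintro ⟨a, b, hab⟩ hzero
    rw [hzero, mul_zero] at hc
    have h1 : Nat.card {p : G × G // p.1 * p.2 * p.1⁻¹ * p.2⁻¹ = g} = 0 := by exact_mod_cast hc
    have h2 : Nonempty {p : G × G // p.1 * p.2 * p.1⁻¹ * p.2⁻¹ = g} := ⟨⟨(a, b), hab.symm⟩⟩
    exact Nat.card_pos.ne' h1
  · intro hne
    have h1 : (Nat.card {p : G × G // p.1 * p.2 * p.1⁻¹ * p.2⁻¹ = g} : ℂ) ≠ 0 := by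
      rw [hc]
      exact mul_ne_zero hcard hne
    have h2 : Nat.card {p : G × G // p.1 * p.2 * p.1⁻¹ * p.2⁻¹ = g} ≠ 0 := by
      exact_mod_cast h1
    have h3 : Nonempty {p : G × G // p.1 * p.2 * p.1⁻¹ * p.2⁻¹ = g} := by
      by_contra hemp
      rw [not_nonempty_iff] at hemp
      exact h2 Nat.card_of_isEmpty
    obtain ⟨⟨p, hp⟩⟩ := h3
    exact ⟨p.1, p.2, hp.symm⟩

end Cfsg.Agent.S0167
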