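import Mathlib
import Cfsg.Statements.S0168
import Cfsg.Agent.Lib.Helper3.Char
import Cfsg.Agent.Lib.Helper3.CharCore
import Cfsg.Agent.S0139

set_option autoImplicit false
open Cfsg
open Cfsg.Agent.Lib.Helper3.Char Cfsg.Agent.Lib.Helper3.CharCore
open scoped ComplexConjugate

namespace Cfsg.Agent.S0168

theorem result {G : Type*} [Group G] [Fintype G] {V : Type*} [AddCommGroup V] [Module ℂ V] [FiniteDimensional ℂ V] (ρ : Representation ℂ G V) (hfaithful : Function.Injective ρ) (ψ : G → ℂ) (hψ : Cfsg.IsIrrCharacter G ψ) : ∃ i : ℕ, i < Nat.card (Set.range ρ.character) ∧ Cfsg.classInner (fun g => ρ.character g ^ i) ψ ≠ 0 := by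
  classical
  by_contra hcon
  push Not at hcon
  set χ : G → ℂ := ρ.character with hχ
  let S : Finset ℂ := Finset.univ.image χ
  have hS : Nat.card (Set.range χ) = S.card := by
    have h1 : Set.range χ = (S : Set ℂ) := by
      ext z
      simp [S]
    rw [h1, Nat.card_coe_set_eq, Set.ncard_coe_finset]
  rw [hS] at hcon
  let P : Polynomial ℂ := ∏ a ∈ S.erase (χ 1), (Polynomial.X - Polynomial.C a)
  have hdeg : P.natDegree = (S.erase (χ 1)).card :=
    Polynomial.natDegree_finsetProd_X_sub_C_eq_card _ _
  have hmem : χ 1 ∈ S := Finset.mem_image_of_mem _ (Finset.mem_univ _)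
  have hdeg' : P.natDegree + 1 = S.card := by
    rw [hdeg, Finset.card_erase_add_one hmem]
  have hcard : (Nat.card G : ℂ) ≠ 0 := by exact_mod_cast Nat.card_pos.ne'
  have hzero : ∑ g : G, Polynomial.eval (χ g) P * conj (ψ g) = 0 := by
    have h1 : ∀ g : G, Polynomial.eval (χ g) P * conj (ψ g) =
        ∑ i ∈ Finset.range (P.natDegree + 1), P.coeff i * (χ g ^ i * conj (ψ g)) := by
      intro g
      rw [Polynomial.eval_eq_sum_range, Finset.sum_mul]
      refine Finset.sum_congr rfl (fun i _ => ?_)
      ring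
    rw [Finset.sum_congr rfl (fun g _ => h1 g), Finset.sum_comm]
    refine Finset.sum_eq_zero (fun i hi => ?_)
    rw [← Finset.mul_sum]
    have h2 := hcon i (by rw [← hdeg']; exact Finset.mem_range.mp hi)
    unfold Cfsg.classInner at h2
    rcases mul_eq_zero.mp h2 with h3 | h3
    · exact absurd (inv_eq_zero.mp h3) hcard
    · rw [h3, mul_zero]
  have hone : ∑ g : G, Polynomial.eval (χ g) P * conj (ψ g) =
      Polynomial.eval (χ 1) P * conj (ψ 1) := by
    refine Finset.sum_eq_single 1 (fun g _ hg => ?_) (fun h => absurd (Finset.mem_univ _) h)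
    have h1 : χ g ≠ χ 1 := by
      intro h
      apply hg
      have h2 : ρ.character g = (Module.finrank ℂ V : ℂ) := by
        rw [← Representation.char_one ρ]
        exact h
      have h3 := (Cfsg.Agent.S0139.result ρ g).mp h2
      apply hfaithful
      rw [h3, map_one]
      rfl
    have h4 : Polynomial.eval (χ g) P = 0 := by
      rw [Polynomial.eval_prod]
      apply Finset.prod_eq_zero (i := χ g)
      · exact Finset.mem_erase.mpr ⟨h1, Finset.mem_image_of_mem _ (Finset.mem_univ _)⟩
      · simp
    rw [h4, zero_mul]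
  rw [hone] at hzero
  rcases mul_eq_zero.mp hzero with h | h
  · rw [Polynomial.eval_prod, Finset.prod_eq_zero_iff] at h
    obtain ⟨a, ha, ha'⟩ := h
    rw [Polynomial.eval_sub, Polynomial.eval_X, Polynomial.eval_C, sub_eq_zero] at ha'
    exact (Finset.mem_erase.mp ha).1 ha'.symm
  · have h5 := irr_one_ne_zero hψ
    apply h5
    simpa using h

end Cfsg.Agent.S0168
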