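import Mathlib
import Cfsg.Statements.S0171
import Cfsg.Agent.Lib.Helper3.CharPerm
import Cfsg.Agent.Lib.Helper3.CharInd
import Cfsg.Agent.Lib.Helper3.CharTable
import Cfsg.Agent.Lib.Helper3.Char
import Cfsg.Agent.Lib.Helper3.CharCore
import Cfsg.Agent.Lib.Helper3.CharArith
import Cfsg.Agent.S0173
import Cfsg.Agent.S0193
import Cfsg.Agent.S0148

set_option autoImplicit false
open Cfsg
open Cfsg.Agent.Lib.Helper3.CharPerm Cfsg.Agent.Lib.Helper3.CharInd Cfsg.Agent.Lib.Helper3.CharTable Cfsg.Agent.Lib.Helper3.Char Cfsg.Agent.Lib.Helper3.CharCore Cfsg.Agent.Lib.Helper3.CharArith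
open scoped ComplexConjugate

namespace Cfsg.Agent.S0171

theorem frob_fixed_class {G : Type*} [Group G] [Finite G] (K H : Subgroup G) [hK : K.Normal]
    (hfpf : ∀ h ∈ H, h ≠ 1 → ∀ k ∈ K, h * k = k * h → k = 1) (h : G) (hh : h ∈ H) (hh1 : h ≠ 1)
    (x u : G) (hx : x ∈ K) (hu : u ∈ K) (hc : u * (h * x * h⁻¹) * u⁻¹ = x) : x = 1 := by
  let f : K → K := fun v => ⟨v * h * (v : G)⁻¹ * h⁻¹, by
    have h1 : (v : G) * h * (v : G)⁻¹ * h⁻¹ = v * (h * (v : G)⁻¹ * h⁻¹) := by group
    rw [h1]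
    exact K.mul_mem v.2 (hK.conj_mem _ (K.inv_mem v.2) h)⟩
  have hinj : Function.Injective f := by
    intro v w hvw
    have h1 : (v : G) * h * (v : G)⁻¹ * h⁻¹ = w * h * (w : G)⁻¹ * h⁻¹ :=
      congrArg Subtype.val hvw
    have h2 : h * ((v : G)⁻¹ * w) = ((v : G)⁻¹ * w) * h := by
      have h3 : (v : G) * h * (v : G)⁻¹ = w * h * (w : G)⁻¹ := mul_right_cancel h1
      calc h * ((v : G)⁻¹ * w) = (v : G)⁻¹ * ((v : G) * h * (v : G)⁻¹) * w := by group
        _ = (v : G)⁻¹ * ((w : G) * h * (w : G)⁻¹) * w := by rw [h3]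
        _ = ((v : G)⁻¹ * w) * h := by group
    have h4 := hfpf h hh hh1 ((v : G)⁻¹ * w) (K.mul_mem (K.inv_mem v.2) w.2) h2
    apply Subtype.ext
    rw [inv_mul_eq_one] at h4
    exact h4
  have hsurj : Function.Surjective f := Finite.injective_iff_surjective.mp hinj
  obtain ⟨v, hv⟩ := hsurj ⟨u, hu⟩
  have hv' : (v : G) * h * (v : G)⁻¹ * h⁻¹ = u := congrArg Subtype.val hv
  have h5 : h * ((v : G)⁻¹ * x * v) = ((v : G)⁻¹ * x * v) * h := by
    have h6 : (v : G) * h * (v : G)⁻¹ * x = x * ((v : G) * h * (v : G)⁻¹) := by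
      have h7 : (v : G) * h * (v : G)⁻¹ = u * h := by rw [← hv']; group
      rw [h7]
      nth_rewrite 2 [← hc]
      group
    calc h * ((v : G)⁻¹ * x * v) = (v : G)⁻¹ * ((v : G) * h * (v : G)⁻¹ * x) * v := by group
      _ = (v : G)⁻¹ * (x * ((v : G) * h * (v : G)⁻¹)) * v := by rw [h6]
      _ = ((v : G)⁻¹ * x * v) * h := by group
  have h8 := hfpf h hh hh1 ((v : G)⁻¹ * x * v)
    (K.mul_mem (K.mul_mem (K.inv_mem v.2) hx) v.2) h5
  have h9 : x = v * ((v : G)⁻¹ * x * v) * (v : G)⁻¹ := by group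
  rw [h9, h8]
  group

theorem result {G : Type*} [Group G] [Fintype G] (K H : Subgroup G) [K.Normal] (hKH : K ⊓ H = ⊥) (hKH' : K ⊔ H = ⊤) (hfpf : ∀ h ∈ H, h ≠ 1 → ∀ k ∈ K, h * k = k * h → k = 1) (τ : K → ℂ) (hτ : Cfsg.IsIrrCharacter K τ) (hτ1 : τ ≠ fun _ => 1) : Cfsg.IsIrrCharacter G (Cfsg.indFun K τ) := by
  classical
  have hN : K.Normal := inferInstance
  have hcf := char_classFun (isCharacter_of_irr hτ)
  have hstab : ∀ g : G, (∀ k : K, τ ⟨g * k * g⁻¹, hN.conj_mem k k.2 g⟩ = τ k) ↔ g ∈ K := by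
    intro g
    constructor
    · intro hg
      have hg' : g ∈ K ⊔ H := by rw [hKH']; trivial
      rw [← SetLike.mem_coe, Subgroup.normal_mul] at hg'
      obtain ⟨k₀, hk₀, h₀, hh₀, rfl⟩ := Set.mem_mul.mp hg'
      by_cases h1 : h₀ = 1
      · subst h1
        simpa using hk₀
      · exfalso
        apply hτ1
        let α : K ≃* K := MulAut.conjNormal h₀
        have hfix : τ ∘ α = τ := by
          funext k
          have h2 := hg k
          have h3 := hcf (α k) ⟨k₀, hk₀⟩
          change τ (α k) = τ k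
          rw [← h2, ← h3]
          congr 1
          apply Subtype.ext
          simp only [Subgroup.coe_mul, Subgroup.coe_inv]
          change k₀ * (h₀ * k * h₀⁻¹) * k₀⁻¹ = _
          group
        have hcard := Cfsg.Agent.S0173.result α
        have hsub : Subsingleton {C : ConjClasses K // ConjClasses.map α.toMonoidHom C = C} := by
          have key : ∀ C : ConjClasses K, ConjClasses.map α.toMonoidHom C = C →
              C = ConjClasses.mk 1 := by
            intro C hC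
            have hx : ConjClasses.mk (Quotient.out C) = C := Quotient.out_eq C
            rw [← hx] at hC ⊢
            have hC' : ConjClasses.mk (α (Quotient.out C)) = ConjClasses.mk (Quotient.out C) := hC
            rw [ConjClasses.mk_eq_mk_iff_isConj, isConj_iff] at hC'
            obtain ⟨u, hu⟩ := hC'
            have hu' : (u : G) * (h₀ * (Quotient.out C : K) * h₀⁻¹) * (u : G)⁻¹ =
                (Quotient.out C : K) := congrArg Subtype.val hu
            have h4 := frob_fixed_class K H hfpf h₀ hh₀ h1 _ _ (Quotient.out C).2 u.2 hu'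
            have h5 : Quotient.out C = 1 := Subtype.ext h4
            rw [h5]
          refine ⟨fun a b => Subtype.ext ?_⟩
          rw [key a.1 a.2, key b.1 b.2]
        have hle : Nat.card {χ : Cfsg.IrrCharacter K // (χ : K → ℂ) ∘ α = (χ : K → ℂ)} ≤ 1 := by
          rw [← hcard]
          exact Finite.card_le_one_iff_subsingleton.mpr hsub
        have hsub2 := Finite.card_le_one_iff_subsingleton.mp hle
        have h6 := hsub2.elim ⟨⟨τ, hτ⟩, hfix⟩ ⟨⟨fun _ => 1, isIrr_one K⟩, rfl⟩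
        exact congrArg (fun z => (z.1 : K → ℂ)) h6
    · intro hg k
      have h3 := hcf k ⟨g, hg⟩
      rw [← h3]
      rfl
  have h193 := Cfsg.Agent.S0193.result K τ hτ
  have hc : Nat.card {g : G // ∀ h : K, τ ⟨g * h * g⁻¹, hN.conj_mem h h.2 g⟩ = τ h} =
      Nat.card K :=
    Nat.card_congr (Equiv.subtypeEquivRight hstab)
  rw [hc] at h193
  have hK0 : (Nat.card K : ℂ) ≠ 0 := by exact_mod_cast Nat.card_pos.ne'
  have h1 : Cfsg.classInner (Cfsg.indFun K τ) (Cfsg.indFun K τ) = 1 := by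
    have h2 : (Nat.card K : ℂ) * Cfsg.classInner (Cfsg.indFun K τ) (Cfsg.indFun K τ) =
        (Nat.card K : ℂ) * 1 := by rw [h193, mul_one]
    exact mul_left_cancel₀ hK0 h2
  exact isIrr_of_inner_self (Cfsg.Agent.S0148.result K τ (isCharacter_of_irr hτ)) h1

end Cfsg.Agent.S0171
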