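import Mathlib
import Cfsg.Statements.S0175
import Cfsg.Agent.Lib.Helper3.Char
import Cfsg.Agent.Lib.Helper3.CharCore
import Cfsg.Agent.Lib.Helper3.CharTable
import Cfsg.Agent.Lib.Helper3.CharInd
import Cfsg.Agent.Lib.Helper3.CharArith
import Cfsg.Agent.Lib.Helper3.CharNormal
import Cfsg.Agent.Lib.Helper3.CharStab
import Cfsg.Agent.Lib.Helper3.CharCliff
import Cfsg.Agent.Lib.Helper3.CharDeg
import Cfsg.Agent.Lib.Helper3.CharInt

set_option autoImplicit false
open Cfsg
open Cfsg.Agent.Lib.Helper3.Char Cfsg.Agent.Lib.Helper3.CharCore Cfsg.Agent.Lib.Helper3.CharTable Cfsg.Agent.Lib.Helper3.CharInd Cfsg.Agent.Lib.Helper3.CharArith Cfsg.Agent.Lib.Helper3.CharNormal Cfsg.Agent.Lib.Helper3.CharStab Cfsg.Agent.Lib.Helper3.CharCliff Cfsg.Agent.Lib.Helper3.CharDeg Cfsg.Agent.Lib.Helper3.CharInt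
open scoped ComplexConjugate

namespace Cfsg.Agent.S0175

theorem list_additive {A : Type*} [AddMonoid A] (f : A → ℂ) (h0 : f 0 = 0)
    (hadd : ∀ a b, f (a + b) = f a + f b) (l : List A) (hl : ∀ a ∈ l, f a = 0) :
    f l.sum = 0 := by
  induction l with
  | nil => simpa using h0
  | cons a l ih =>
    rw [List.sum_cons, hadd, hl a (by simp), ih (fun b hb => hl b (by simp [hb])), add_zero]

theorem mem_of_inner_ne {G : Type*} [Group G] [Fintype G] {θ : G → ℂ}
    (hθ : Cfsg.IsIrrCharacter G θ) (l : List (G → ℂ))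
    (hl : ∀ ψ ∈ l, Cfsg.IsIrrCharacter G ψ) (h : Cfsg.classInner θ l.sum ≠ 0) : θ ∈ l := by
  by_contra hmem
  apply h
  apply list_additive (fun ψ : G → ℂ => Cfsg.classInner θ ψ)
  · exact classInner_zero_right θ
  · intro a b
    exact classInner_add_right θ a b
  · intro ψ hψ
    apply irr_inner_ne hθ (hl ψ hψ)
    rintro rfl
    exact hmem hψ

theorem ind_ker_mem {G : Type*} [Group G] [Fintype G] (H : Subgroup G) (g : G)
    (h : Cfsg.indFun H (fun _ => (1 : ℂ)) g = Cfsg.indFun H (fun _ => (1 : ℂ)) 1) : g ∈ H := by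
  classical
  unfold Cfsg.indFun at h
  have hH : (Nat.card H : ℂ) ≠ 0 := by exact_mod_cast Nat.card_pos.ne'
  have h1 := mul_left_cancel₀ (inv_ne_zero hH) h
  have hc : ∀ y : G, Cfsg.extendByZero H (fun _ => (1 : ℂ)) y =
      ((if y ∈ H then (1 : ℝ) else 0 : ℝ) : ℂ) := by
    intro y
    by_cases hy : y ∈ H
    · rw [extendByZero_mem H _ hy, if_pos hy]
      simp
    · rw [extendByZero_not_mem H _ hy, if_neg hy]
      simp
  simp only [hc] at h1
  have h2 : ∑ x : G, (if x⁻¹ * g * x ∈ H then (1 : ℝ) else 0) =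
      ∑ x : G, (if x⁻¹ * 1 * x ∈ H then (1 : ℝ) else 0) := by
    exact_mod_cast h1
  have h3 : ∀ x : G, (if x⁻¹ * 1 * x ∈ H then (1 : ℝ) else 0) = 1 := by
    intro x
    have h4 : x⁻¹ * 1 * x = 1 := by group
    rw [h4, if_pos H.one_mem]
  rw [Finset.sum_congr rfl (fun x _ => h3 x)] at h2
  have h5 : ∑ x : G, ((1 : ℝ) - (if x⁻¹ * g * x ∈ H then (1 : ℝ) else 0)) = 0 := by
    rw [Finset.sum_sub_distrib, h2, sub_self]
  have h6 := (Finset.sum_eq_zero_iff_of_nonneg (fun x _ => by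
    split_ifs <;> norm_num)).mp h5 1 (Finset.mem_univ 1)
  by_contra hg
  have h7 : ¬ ((1 : G)⁻¹ * g * 1 ∈ H) := by
    simpa using hg
  rw [if_neg h7] at h6
  norm_num at h6

theorem ind_lin_const {G : Type*} [Group G] [Fintype G] (H : Subgroup G) (lam : H →* ℂˣ)
    (M : Subgroup G) [hM : M.Normal]
    (hMH : ∀ m ∈ M, ∃ hm : m ∈ H, lam ⟨m, hm⟩ = 1) (m : G) (hm : m ∈ M) :
    Cfsg.indFun H (fun h => (lam h : ℂ)) m = Cfsg.indFun H (fun h => (lam h : ℂ)) 1 := by
  unfold Cfsg.indFun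
  congr 1
  apply Finset.sum_congr rfl
  intro x _
  have h1 : x⁻¹ * m * x ∈ M := by
    have h2 := hM.conj_mem m hm x⁻¹
    rw [inv_inv] at h2
    exact h2
  obtain ⟨h3, h4⟩ := hMH _ h1
  have h5 : x⁻¹ * 1 * x = 1 := by group
  rw [extendByZero_mem H _ h3, h5, extendByZero_mem H _ H.one_mem, h4]
  have h6 : (⟨1, H.one_mem⟩ : H) = 1 := rfl
  rw [h6, map_one]

theorem kernel_bound {G : Type*} [Group G] [Fintype G]
    (hM : ∀ χ : G → ℂ, Cfsg.IsIrrCharacter G χ → ∃ (H : Subgroup G) (lam : H →* ℂˣ),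
      χ = Cfsg.indFun H (fun h => (lam h : ℂ))) :
    ∀ d : ℕ, ∃ i : ℕ, ∀ χ : G → ℂ, Cfsg.IsIrrCharacter G χ → ∀ n : ℕ, χ 1 = (n : ℂ) → n ≤ d →
      ∀ g ∈ derivedSeries G i, χ g = χ 1 := by
  classical
  intro d
  induction d with
  | zero =>
    refine ⟨0, ?_⟩
    intro χ hχ n hn hn0
    exfalso
    have h1 : n = 0 := by omega
    rw [h1] at hn
    exact irr_one_ne_zero hχ (by simpa using hn)
  | succ d ih =>
    obtain ⟨i, hi⟩ := ih
    refine ⟨i + 1, ?_⟩
    intro χ hχ n hn hnd g hg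
    have hanti : derivedSeries G (i + 1) ≤ derivedSeries G i :=
      derivedSeries_antitone G (Nat.le_succ i)
    by_cases hle : n ≤ d
    · exact hi χ hχ n hn hle g (hanti hg)
    have hnd' : n = d + 1 := by omega
    obtain ⟨H, lam, hχeq⟩ := hM χ hχ
    have _hf : Fintype H := Fintype.ofFinite _
    have hidx : H.index = d + 1 := by
      have h1 := congrFun hχeq 1
      rw [indFun_one, hn, map_one, Units.val_one, mul_one] at h1
      rw [← hnd']
      exact_mod_cast h1.symm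
    have hΦc : Cfsg.IsCharacter G (Cfsg.indFun H (fun _ => (1 : ℂ))) :=
      Cfsg.Agent.S0148.result H _ (isCharacter_of_irr (isIrr_one H))
    obtain ⟨l, hl, hsum⟩ := isCharacter_decomp hΦc
    have hone : Cfsg.IsIrrCharacter G (fun _ => (1 : ℂ)) := isIrr_one G
    have hmem : (fun _ : G => (1 : ℂ)) ∈ l := by
      apply mem_of_inner_ne hone l hl
      rw [← hsum, frobenius' H (fun _ => (1 : ℂ)) (fun _ => (1 : ℂ)) (char_classFun
        (isCharacter_of_irr hone))]
      rw [irr_inner_self (isIrr_one H)]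
      exact one_ne_zero
    have hperm := List.perm_cons_erase hmem
    have hsum1 : l.sum 1 = 1 + (l.erase (fun _ : G => (1 : ℂ))).sum 1 := by
      rw [hperm.sum_eq, List.sum_cons]
      rfl
    obtain ⟨N, hN, hNle⟩ := list_degree_le (l.erase (fun _ : G => (1 : ℂ)))
      (fun θ hθ => hl θ (List.mem_of_mem_erase hθ))
    have hNd : N = d := by
      have h1 : l.sum 1 = ((d + 1 : ℕ) : ℂ) := by
        rw [← hsum, indFun_one, hidx]
        push_cast
        ring
      rw [hsum1, hN] at h1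
      have h2 : (1 + N : ℕ) = d + 1 := by exact_mod_cast h1
      omega
    have hker : ∀ ψ ∈ l, ∀ x ∈ derivedSeries G i, ψ x = ψ 1 := by
      intro ψ hψ x hx
      by_cases h1 : ψ = fun _ => (1 : ℂ)
      · rw [h1]
      · have h2 : ψ ∈ l.erase (fun _ : G => (1 : ℂ)) := (List.mem_erase_of_ne h1).mpr hψ
        obtain ⟨m, hm, hmle⟩ := hNle ψ h2
        exact hi ψ (hl ψ hψ) m hm (by omega) x hx
    have hΦker : ∀ x ∈ derivedSeries G i, Cfsg.indFun H (fun _ => (1 : ℂ)) x =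
        Cfsg.indFun H (fun _ => (1 : ℂ)) 1 := by
      intro x hx
      rw [hsum, list_sum_apply, list_sum_apply]
      congr 1
      apply List.map_congr_left
      intro ψ hψ
      exact hker ψ hψ x hx
    have hDH : derivedSeries G i ≤ H := fun x hx => ind_ker_mem H x (hΦker x hx)
    have hMH : ∀ m ∈ derivedSeries G (i + 1), ∃ hm : m ∈ H, lam ⟨m, hm⟩ = 1 := by
      have hle2 : derivedSeries G (i + 1) ≤ (MonoidHom.ker lam).map H.subtype := by
        rw [derivedSeries_succ, Subgroup.commutator_le]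
        intro a ha b hb
        have hcomm : ∀ u v : ℂˣ, u * v * u⁻¹ * v⁻¹ = 1 := fun u v => by
          rw [mul_comm u v, mul_inv_cancel_right, mul_inv_cancel]
        refine ⟨(⟨a, hDH ha⟩ : H) * ⟨b, hDH hb⟩ * (⟨a, hDH ha⟩ : H)⁻¹ * (⟨b, hDH hb⟩ : H)⁻¹,
          ?_, rfl⟩
        change lam ((⟨a, hDH ha⟩ : H) * ⟨b, hDH hb⟩ * (⟨a, hDH ha⟩ : H)⁻¹ *
          (⟨b, hDH hb⟩ : H)⁻¹) = 1
        rw [map_mul, map_mul, map_mul, map_inv, map_inv]
        exact hcomm _ _
      intro m hm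
      obtain ⟨y, hy, rfl⟩ := hle2 hm
      exact ⟨y.2, hy⟩
    have _hn : (derivedSeries G (i + 1)).Normal := derivedSeries_normal G (i + 1)
    rw [hχeq]
    exact ind_lin_const H lam (derivedSeries G (i + 1)) hMH g hg

theorem result {G : Type*} [Group G] [Fintype G] (hM : ∀ χ : G → ℂ, Cfsg.IsIrrCharacter G χ → ∃ (H : Subgroup G) (lam : H →* ℂˣ), χ = Cfsg.indFun H (fun h => (lam h : ℂ))) : Group.IsSolvable G := by
  classical
  have _j : Fintype (Cfsg.IrrCharacter G) := Fintype.ofFinite _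
  obtain ⟨i, hi⟩ := kernel_bound hM (Nat.card G)
  rw [Group.isSolvable_def]
  refine ⟨i, ?_⟩
  rw [eq_bot_iff]
  intro g hg
  rw [Subgroup.mem_bot]
  have hall : ∀ χ : Cfsg.IrrCharacter G, (χ : G → ℂ) g = (χ : G → ℂ) 1 := by
    intro χ
    obtain ⟨n, hnpos, hn1, hndvd⟩ := irr_degree_dvd_card χ.2
    exact hi χ χ.2 n hn1 (Nat.le_of_dvd Nat.card_pos hndvd) g hg
  have h1 := column_orth g (1 : G)
  have h2 := column_orth (1 : G) (1 : G)
  rw [Finset.sum_congr rfl (fun χ _ => by rw [hall χ])] at h1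
  rw [h1] at h2
  have h3 : Nat.card {y : G // y * 1 * y⁻¹ = 1} = Nat.card G := by
    apply Nat.card_congr
    exact Equiv.subtypeUnivEquiv (fun y => by simp)
  rw [h3] at h2
  have h4 : Nat.card {y : G // y * g * y⁻¹ = 1} = Nat.card G := by exact_mod_cast h2
  have h5 : Nonempty {y : G // y * g * y⁻¹ = 1} := by
    by_contra hemp
    rw [not_nonempty_iff] at hemp
    rw [Nat.card_of_isEmpty] at h4
    exact Nat.card_pos.ne' h4.symm
  obtain ⟨y, hy⟩ := h5
  have h6 : g = y⁻¹ * 1 * y := by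
    rw [← hy]
    group
  simpa using h6

end Cfsg.Agent.S0175
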