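import Mathlib
import Cfsg.Statements.S0178
import Cfsg.Agent.Lib.Helper3.Char
import Cfsg.Agent.Lib.Helper3.CharCore
import Cfsg.Agent.Lib.Helper3.CharTable
import Cfsg.Agent.Lib.Helper3.CharInd
import Cfsg.Agent.Lib.Helper3.CharArith
import Cfsg.Agent.Lib.Helper3.CharNormal
import Cfsg.Agent.Lib.Helper3.CharStab
import Cfsg.Agent.Lib.Helper3.CharCliff
import Cfsg.Agent.Lib.Helper3.CharAb
import Cfsg.Agent.Lib.Helper3.CharInt

set_option autoImplicit false
open Cfsg
open Cfsg.Agent.Lib.Helper3.Char Cfsg.Agent.Lib.Helper3.CharCore Cfsg.Agent.Lib.Helper3.CharTable Cfsg.Agent.Lib.Helper3.CharInd Cfsg.Agent.Lib.Helper3.CharArith Cfsg.Agent.Lib.Helper3.CharNormal Cfsg.Agent.Lib.Helper3.CharStab Cfsg.Agent.Lib.Helper3.CharCliff Cfsg.Agent.Lib.Helper3.CharAb Cfsg.Agent.Lib.Helper3.CharInt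
open scoped ComplexConjugate

namespace Cfsg.Agent.S0178

theorem result {G : Type*} [Group G] [Finite G] {V : Type*} [AddCommGroup V] [Module ℂ V] [FiniteDimensional ℂ V] (ρ : Representation ℂ G V) [ρ.IsIrreducible] (A : Subgroup G) (hA : ∀ a ∈ A, ∀ b ∈ A, a * b = b * a) : Module.finrank ℂ V ≤ A.index := by
  classical
  have _i : Fintype G := Fintype.ofFinite G
  have _a : Fintype A := Fintype.ofFinite _
  have hχ : Cfsg.IsIrrCharacter G ρ.character := isIrr_of_rep ρ inferInstance
  have hχc := isCharacter_of_irr hχ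
  have hres : Cfsg.IsCharacter A (fun a : A => ρ.character a) := comp_isCharacter A.subtype hχc
  obtain ⟨l, hl, hsum⟩ := isCharacter_decomp hres
  have hne := finrank_ne_zero_of_irr ρ
  have hl0 : l ≠ [] := by
    rintro rfl
    have h1 := congrFun hsum 1
    simp only [List.sum_nil, Pi.zero_apply] at h1
    have h2 : ρ.character 1 = (Module.finrank ℂ V : ℂ) := Representation.char_one ρ
    exact hne (by rw [← h2]; exact h1)
  obtain ⟨lam, hlam⟩ := List.exists_mem_of_ne_nil l hl0
  have hlamirr := hl lam hlam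
  have hab : ∀ a b : A, a * b = b * a := fun a b => Subtype.ext (hA a a.2 b b.2)
  have hlam1 := abelian_linear hab hlamirr
  have hind : Cfsg.IsCharacter G (Cfsg.indFun A lam) :=
    Cfsg.Agent.S0148.result A lam (isCharacter_of_irr hlamirr)
  have hinner : Cfsg.classInner (Cfsg.indFun A lam) ρ.character ≠ 0 := by
    rw [frobenius A lam ρ.character (char_classFun hχc), hsum]
    obtain ⟨m, hm, hmpos⟩ := inner_list_sum hlamirr l hl
    rw [hm]
    exact_mod_cast (hmpos hlam).ne'
  have hsub := sub_isCharacter hind hχ hinner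
  obtain ⟨k, hk, -⟩ := char_one hsub
  rw [Pi.sub_apply, indFun_one, hlam1, mul_one, Representation.char_one] at hk
  have h3 : (A.index : ℂ) = ((Module.finrank ℂ V + k : ℕ) : ℂ) := by
    push_cast
    rw [← hk]
    ring
  have h4 : A.index = Module.finrank ℂ V + k := by exact_mod_cast h3
  omega

end Cfsg.Agent.S0178
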