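import Mathlib
import Cfsg.Statements.S0179
import Cfsg.Agent.Lib.Helper3.Char
import Cfsg.Agent.Lib.Helper3.CharCore
import Cfsg.Agent.Lib.Helper3.CharInt
import Cfsg.Agent.Lib.Helper3.CharCent

set_option autoImplicit false
open Cfsg
open Cfsg.Agent.Lib.Helper3.Char Cfsg.Agent.Lib.Helper3.CharCore Cfsg.Agent.Lib.Helper3.CharInt Cfsg.Agent.Lib.Helper3.CharCent
open Representation

namespace Cfsg.Agent.S0179

theorem result {G : Type*} [Group G] [Finite G] {V : Type*} [AddCommGroup V] [Module ℂ V] [FiniteDimensional ℂ V] (ρ : Representation ℂ G V) [ρ.IsIrreducible] : Module.finrank ℂ V ∣ (Subgroup.center G).index := by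
  apply degree_dvd_index_of_scalar ρ (Subgroup.center G)
  intro a ha
  have hint : ∀ x : G, (ρ a) ∘ₗ ρ x = ρ x ∘ₗ (ρ a) := by
    intro x
    have e0 : ρ a * ρ x = ρ x * ρ a := by
      rw [← map_mul, ← map_mul, Subgroup.mem_center_iff.mp ha x]
    exact e0
  let T : IntertwiningMap ρ ρ := ⟨ρ a, hint⟩
  obtain ⟨c, hc⟩ :=
    (IsIrreducible.algebraMap_intertwiningMap_bijective_of_isAlgClosed (ρ := ρ)).2 T
  refine ⟨c, ?_⟩
  have h5 := congrArg IntertwiningMap.toLinearMap hc
  exact h5.symm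

end Cfsg.Agent.S0179
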