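import Mathlib
import Cfsg.Statements.S0180
import Cfsg.Agent.Lib.Helper3.Char
import Cfsg.Agent.Lib.Helper3.CharCore
import Cfsg.Agent.Lib.Helper3.CharTable
import Cfsg.Agent.Lib.Helper3.CharGalois

set_option autoImplicit false
open Cfsg
open Cfsg.Agent.Lib.Helper3.Char Cfsg.Agent.Lib.Helper3.CharCore Cfsg.Agent.Lib.Helper3.CharTable Cfsg.Agent.Lib.Helper3.CharGalois
open scoped ComplexConjugate IntermediateField

namespace Cfsg.Agent.S0180

theorem result {G : Type*} [Group G] [Finite G] : (∀ χ : Cfsg.IrrCharacter G, ∀ g : G, ∃ q : ℚ, (χ : G → ℂ) g = (q : ℂ)) ↔ ∀ m : ℕ, m.Coprime (Nat.card G) → ∀ g : G, IsConj g (g ^ m) := by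
  classical
  have _i : Fintype G := Fintype.ofFinite G
  have _j : Fintype (Cfsg.IrrCharacter G) := Fintype.ofFinite _
  have hN : Nat.card G ≠ 0 := Nat.card_pos.ne'
  have hfd := cyc_fd (Nat.card G) hN
  constructor
  · intro hrat m hm g
    obtain ⟨σ, hσ⟩ := emb_exists (Nat.card G) hN m hm
    have key : ∀ χ : Cfsg.IrrCharacter G, (χ : G → ℂ) (g ^ m) = (χ : G → ℂ) g := by
      intro χ
      obtain ⟨q, hq⟩ := hrat χ g
      obtain ⟨χ, n, ρ, hirr, rfl⟩ := χ
      obtain ⟨a, ha1, -, ha3⟩ := char_lift ρ g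
      have h1 := ha3 σ m hσ
      change ρ.character g = (q : ℂ) at hq
      change ρ.character (g ^ m) = ρ.character g
      rw [← h1, hq]
      have h2 : a = (q : ℚ⟮zeta (Nat.card G)⟯) := by
        apply Subtype.ext
        rw [ha1, hq]
        simp
      rw [h2, map_ratCast]
    have h1 := column_orth g (g ^ m)
    have h2 := column_orth g g
    rw [Finset.sum_congr rfl (fun χ _ => by rw [key χ])] at h1
    rw [h1] at h2
    have h3 : Nat.card {y : G // y * g * y⁻¹ = g ^ m} = Nat.card {y : G // y * g * y⁻¹ = g} := by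
      exact_mod_cast h2
    have h4 : Nonempty {y : G // y * g * y⁻¹ = g} := ⟨⟨1, by simp⟩⟩
    have h5 : Nat.card {y : G // y * g * y⁻¹ = g ^ m} ≠ 0 := by
      rw [h3]
      exact Nat.card_pos.ne'
    have h6 : Nonempty {y : G // y * g * y⁻¹ = g ^ m} := by
      by_contra hemp
      rw [not_nonempty_iff] at hemp
      exact h5 Nat.card_of_isEmpty
    obtain ⟨⟨y, hy⟩⟩ := h6
    exact isConj_iff.mpr ⟨y, hy⟩
  · intro hconj χ g
    obtain ⟨χ, n, ρ, hirr, rfl⟩ := χ
    obtain ⟨a, ha1, -, ha3⟩ := char_lift ρ g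
    have hfix : ∀ σ : ℚ⟮zeta (Nat.card G)⟯ →ₐ[ℚ] ℂ, σ a = (a : ℂ) := by
      intro σ
      obtain ⟨e, he, hσe⟩ := emb_gen (Nat.card G) hN σ
      rw [ha3 σ e hσe, ha1]
      obtain ⟨c, hc⟩ := isConj_iff.mp (hconj e he g)
      rw [← hc]
      exact Representation.char_conj ρ g c
    obtain ⟨q, hq⟩ := rational_of_fixed (Nat.card G) a hfix
    exact ⟨q, by rw [← hq, ha1]⟩

end Cfsg.Agent.S0180
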