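import Mathlib
import Cfsg.Statements.S0184
import Cfsg.Agent.Lib.Helper3.Char
import Cfsg.Agent.Lib.Helper3.CharCore
import Cfsg.Agent.Lib.Helper3.CharTable
import Cfsg.Agent.Lib.Helper3.CharArith
import Cfsg.Agent.Lib.Helper3.CharInt
import Cfsg.Agent.Lib.Helper3.CharReg

set_option autoImplicit false
open Cfsg
open Cfsg.Agent.Lib.Helper3.Char Cfsg.Agent.Lib.Helper3.CharCore Cfsg.Agent.Lib.Helper3.CharTable Cfsg.Agent.Lib.Helper3.CharArith Cfsg.Agent.Lib.Helper3.CharInt Cfsg.Agent.Lib.Helper3.CharReg
open scoped ComplexConjugate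

namespace Cfsg.Agent.S0184

theorem mem_zpowers_of_cyclic {C : Type*} [Group C] [Finite C] [IsCyclic C] (p : ℕ)
    (hp : p.Prime) (y z : C) (hy : orderOf y = p) (hz : orderOf z = p) :
    z ∈ Subgroup.zpowers y := by
  classical
  have _i : Fintype C := Fintype.ofFinite C
  let S : Finset C := Finset.univ.filter (fun c : C => c ^ p = 1)
  let T : Finset C := (Subgroup.zpowers y : Set C).toFinset
  have hTS : T ⊆ S := by
    intro c hc
    rw [Set.mem_toFinset, SetLike.mem_coe, Subgroup.mem_zpowers_iff] at hc
    obtain ⟨k, rfl⟩ := hc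
    rw [Finset.mem_filter]
    refine ⟨Finset.mem_univ _, ?_⟩
    rw [← zpow_natCast, ← zpow_mul, mul_comm, zpow_mul, zpow_natCast, ← hy, pow_orderOf_eq_one,
      one_zpow]
  have hT : T.card = p := by
    rw [Set.toFinset_card, ← Nat.card_eq_fintype_card]
    change Nat.card (Subgroup.zpowers y) = p
    rw [Nat.card_zpowers, hy]
  have hS : S.card ≤ p := IsCyclic.card_pow_eq_one_le hp.pos
  have hEq : T = S := Finset.eq_of_subset_of_card_le hTS (by rw [hT]; exact hS)
  have hzS : z ∈ S := by
    rw [Finset.mem_filter]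
    exact ⟨Finset.mem_univ _, by rw [← hz, pow_orderOf_eq_one]⟩
  rw [← hEq, Set.mem_toFinset] at hzS
  exact hzS

theorem exists_central_of_normal {G : Type*} [Group G] [Finite G] (p : ℕ) [Fact p.Prime]
    (hG : IsPGroup p G) (N : Subgroup G) [hN : N.Normal] (hne : N ≠ ⊥) :
    ∃ y : G, y ∈ N ∧ y ∈ Subgroup.center G ∧ orderOf y = p := by
  have hpN : p ∣ Nat.card N := by
    have hNp : IsPGroup p N := hG.to_subgroup N
    have hnt : Nontrivial N := (Subgroup.nontrivial_iff_ne_bot N).mpr hne
    obtain ⟨n, hn0, hn⟩ := hNp.nontrivial_iff_card.mp hnt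
    rw [hn]
    exact dvd_pow_self _ (ne_of_gt hn0)
  have hfix : (1 : N) ∈ MulAction.fixedPoints (ConjAct G) N := by
    intro g
    exact smul_one g
  obtain ⟨b, hb, hb1⟩ :=
    (hG.of_equiv ConjAct.toConjAct).exists_fixed_point_of_prime_dvd_card_of_fixed_point N hpN hfix
  have hbc : (b : G) ∈ Subgroup.center G := by
    rw [Subgroup.mem_center_iff]
    intro g
    have h1 := hb (ConjAct.toConjAct g)
    have h2 : ((ConjAct.toConjAct g • b : N) : G) = g * b * g⁻¹ := by
      rw [ConjAct.Subgroup.val_conj_smul, ConjAct.toConjAct_smul]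
    rw [h1] at h2
    calc g * (b : G) = g * b * g⁻¹ * g := by group
      _ = b * g := by rw [← h2]
  have hb1' : (b : G) ≠ 1 := by
    intro h
    apply hb1
    exact (Subtype.ext h).symm
  obtain ⟨k, hk⟩ := (IsPGroup.iff_orderOf.mp hG) (b : G)
  have hk0 : k ≠ 0 := by
    intro h
    rw [h, pow_zero, orderOf_eq_one_iff] at hk
    exact hb1' hk
  obtain ⟨j, rfl⟩ := Nat.exists_eq_succ_of_ne_zero hk0
  refine ⟨(b : G) ^ (p ^ j), N.pow_mem b.2 _, (Subgroup.center G).pow_mem hbc _, ?_⟩
  have hp : p.Prime := Fact.out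
  rw [orderOf_pow' _ (pow_ne_zero _ hp.ne_zero), hk, pow_succ,
    Nat.gcd_eq_right (dvd_mul_right _ _), Nat.mul_div_cancel_left _ (pow_pos hp.pos _)]

theorem result {G : Type*} [Group G] [Finite G] (p : ℕ) [Fact p.Prime] (hG : IsPGroup p G) : (∃ (n : ℕ) (ρ : Representation ℂ G (Fin n → ℂ)), ρ.IsIrreducible ∧ Function.Injective ρ) ↔ IsCyclic (Subgroup.center G) := by
  classical
  have _i : Fintype G := Fintype.ofFinite G
  have hp : p.Prime := Fact.out
  constructor
  · rintro ⟨n, ρ, hirr, hinj⟩
    have : ρ.IsIrreducible := hirr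
    have hd := finrank_ne_zero_of_irr ρ
    have hsc : ∀ z : Subgroup.center G, ρ (z : G) =
        (ρ.character z / (Module.finrank ℂ (Fin n → ℂ) : ℂ)) • LinearMap.id := by
      intro z
      have h1 := schur_class_sum (fun g => if g = (z : G) then (1 : ℂ) else 0) (by
        intro g h
        have hz : h * g * h⁻¹ = z ↔ g = z := by
          have hc := Subgroup.mem_center_iff.mp z.2
          constructor
          · intro e
            have h2 : g = h⁻¹ * (h * g * h⁻¹) * h := by group
            rw [h2, e, hc h⁻¹]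
            group
          · rintro rfl
            rw [hc h]
            group
        simp only [hz]) ρ
      simp only [ite_smul, one_smul, zero_smul, Finset.sum_ite_eq', Finset.mem_univ, if_true,
        ite_mul, one_mul, zero_mul] at h1
      exact h1
    let f : Subgroup.center G →* ℂ :=
      { toFun := fun z => ρ.character z / (Module.finrank ℂ (Fin n → ℂ) : ℂ)
        map_one' := by
          change ρ.character ((1 : Subgroup.center G) : G) / _ = 1
          rw [Subgroup.coe_one, Representation.char_one, div_self hd]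
        map_mul' := by
          intro z w
          have h1 : ρ ((z * w : Subgroup.center G) : G) = ρ (z : G) * ρ (w : G) := by
            rw [Subgroup.coe_mul, map_mul]
          rw [hsc (z * w), hsc z, hsc w] at h1
          have h2 := congrArg (LinearMap.trace ℂ (Fin n → ℂ)) h1
          rw [← Module.End.one_eq_id, smul_mul_smul_comm, one_mul, map_smul, map_smul,
            Module.End.one_eq_id, LinearMap.trace_id, smul_eq_mul, smul_eq_mul] at h2
          exact mul_right_cancel₀ hd h2 }
    have hfinj : Function.Injective f := by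
      intro z w hzw
      have hzw' : ρ.character z / (Module.finrank ℂ (Fin n → ℂ) : ℂ) =
          ρ.character w / (Module.finrank ℂ (Fin n → ℂ) : ℂ) := hzw
      have h1 : ρ (z : G) = ρ (w : G) := by rw [hsc z, hsc w, hzw']
      exact Subtype.ext (hinj h1)
    exact isCyclic_of_injective_ringHom f hfinj
  · intro hcyc
    have _j : Fintype (Cfsg.IrrCharacter G) := Fintype.ofFinite _
    by_cases htriv : Subsingleton G
    · obtain ⟨n, ρ, hirr, -⟩ := isIrr_one G
      exact ⟨n, ρ, hirr, Function.injective_of_subsingleton _⟩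
    · rw [not_subsingleton_iff_nontrivial] at htriv
      have hcne : Subgroup.center G ≠ ⊥ := (IsPGroup.bot_lt_center hG).ne'
      obtain ⟨z₀, -, hz₀c, hz₀⟩ := exists_central_of_normal p hG (Subgroup.center G) hcne
      have hz₀1 : z₀ ≠ 1 := by
        intro h
        rw [h, orderOf_one] at hz₀
        exact hp.one_lt.ne hz₀
      by_contra hcon
      push Not at hcon
      have key : ∀ χ : Cfsg.IrrCharacter G, (χ : G → ℂ) z₀ = (χ : G → ℂ) 1 := by
        intro χ
        obtain ⟨χ, n, ρ, hirr, rfl⟩ := χ
        have hni := hcon n ρ hirr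
        have hker : MonoidHom.ker ρ ≠ ⊥ := fun h => hni ((MonoidHom.ker_eq_bot_iff ρ).mp h)
        obtain ⟨y, hyker, hyc, hy⟩ := exists_central_of_normal p hG (MonoidHom.ker ρ) hker
        have h1 : (⟨z₀, hz₀c⟩ : Subgroup.center G) ∈
            Subgroup.zpowers (⟨y, hyc⟩ : Subgroup.center G) :=
          mem_zpowers_of_cyclic p hp _ _ (by rw [← hy]; exact Subgroup.orderOf_mk y hyc)
            (by rw [← hz₀]; exact Subgroup.orderOf_mk z₀ hz₀c)
        obtain ⟨k, hk⟩ := Subgroup.mem_zpowers_iff.mp h1
        have hk' : y ^ k = z₀ := by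
          have := congrArg Subtype.val hk
          simpa using this
        have h2 : z₀ ∈ MonoidHom.ker ρ := by
          rw [← hk']
          exact (MonoidHom.ker ρ).zpow_mem hyker k
        change ρ.character z₀ = ρ.character 1
        have h3 : ρ z₀ = 1 := h2
        change LinearMap.trace ℂ _ (ρ z₀) = LinearMap.trace ℂ _ (ρ 1)
        rw [h3, (map_one ρ : ρ 1 = 1)]
      have h1 := congrFun (regular_char_expand (G := G)) z₀
      rw [regular_char, if_neg hz₀1] at h1
      have h2 := congrFun (regular_char_expand (G := G)) 1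
      rw [regular_char, if_pos rfl] at h2
      simp only [Finset.sum_apply, Pi.smul_apply, smul_eq_mul] at h1 h2
      rw [Finset.sum_congr rfl (fun χ _ => by rw [key χ])] at h1
      rw [← h1] at h2
      have hcard : (Nat.card G : ℂ) ≠ 0 := by exact_mod_cast Nat.card_pos.ne'
      exact hcard h2

end Cfsg.Agent.S0184
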