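import Mathlib
import Cfsg.Statements.S0185
import Cfsg.Agent.Lib.Helper3.CharGal
import Cfsg.Agent.Lib.Helper3.CharEig
import Cfsg.Agent.Lib.Helper3.CharLinear

set_option autoImplicit false
open Cfsg
open scoped ComplexConjugate
open Cfsg.Agent.Lib.Helper3.Char Cfsg.Agent.Lib.Helper3.CharCore Cfsg.Agent.Lib.Helper3.CharInt Cfsg.Agent.Lib.Helper3.CharEig Cfsg.Agent.Lib.Helper3.CharArith Cfsg.Agent.Lib.Helper3.CharLinear

namespace Cfsg.Agent.S0185

theorem result {G : Type*} [Group G] [Finite G] {V : Type*} [AddCommGroup V] [Module ℂ V] [FiniteDimensional ℂ V] (ρ : Representation ℂ G V) (hfaithful : Function.Injective ρ) (hdeg : ∀ p : ℕ, p.Prime → p ∣ Nat.card G → Module.finrank ℂ V < p) (a b : G) : a * b = b * a := by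
  classical
  have _i : Fintype G := Fintype.ofFinite G
  obtain ⟨l, hl, hsum⟩ := char_decomp ρ
  have hlin : ∀ ψ ∈ l, ψ 1 = 1 := by
    intro ψ hψ
    obtain ⟨d, hd0, hd1, hdvd⟩ := irr_degree_dvd_card (hl ψ hψ)
    by_cases hd : d = 1
    · rw [hd1, hd]
      simp
    · exfalso
      obtain ⟨r, hr, hrd⟩ := Nat.exists_prime_and_dvd hd
      have h1 := hdeg r hr (hrd.trans hdvd)
      have h2 : r ≤ d := Nat.le_of_dvd hd0 hrd
      have h3 : (d : ℝ) ≤ (Module.finrank ℂ V : ℝ) := by
        have h4 := congrFun hsum 1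
        rw [Representation.char_one] at h4
        have h5 : ∀ (l' : List (G → ℂ)), (∀ φ ∈ l', Cfsg.IsIrrCharacter G φ) → ψ ∈ l' →
            ∃ k : ℕ, (l'.sum : G → ℂ) 1 = ((d + k : ℕ) : ℂ) := by
          intro l'
          induction l' with
          | nil => intro _ h; exact absurd h (List.not_mem_nil)
          | cons a t ih =>
            intro hirr hmem
            have hchar : Cfsg.IsCharacter G t.sum :=
              isCharacter_list_sum t (fun φ hφ => isCharacter_of_irr (hirr φ (by simp [hφ])))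
            obtain ⟨kt, hkt, -⟩ := char_one hchar
            rcases List.mem_cons.mp hmem with h | h
            · refine ⟨kt, ?_⟩
              rw [List.sum_cons, Pi.add_apply, hkt, ← h, hd1]
              push_cast
              rfl
            · obtain ⟨k, hk⟩ := ih (fun φ hφ => hirr φ (by simp [hφ])) h
              obtain ⟨ka, -, hka⟩ := irr_one_pos (hirr a (by simp))
              refine ⟨ka + k, ?_⟩
              rw [List.sum_cons, Pi.add_apply, hk, hka]
              push_cast
              ring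
        obtain ⟨k, hk⟩ := h5 l hl hψ
        rw [hk] at h4
        have h6 : Module.finrank ℂ V = d + k := by exact_mod_cast h4
        rw [h6]
        push_cast
        linarith [(Nat.cast_nonneg k : (0 : ℝ) ≤ k)]
      have h7 : d ≤ Module.finrank ℂ V := by exact_mod_cast h3
      omega
  have hcomm : ∀ ψ ∈ l, ψ (a * b * a⁻¹ * b⁻¹) = 1 := by
    intro ψ hψ
    obtain ⟨lam, rfl⟩ := hom_of_deg_one (isCharacter_of_irr (hl ψ hψ)) (hlin ψ hψ)
    simp only [map_mul, map_inv]
    have : lam a * lam b * (lam a)⁻¹ * (lam b)⁻¹ = 1 := by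
      rw [mul_comm (lam a) (lam b), mul_inv_cancel_right, mul_inv_cancel]
    rw [this]
    rfl
  have hval : ∀ (l' : List (G → ℂ)), (∀ ψ ∈ l', ψ (a * b * a⁻¹ * b⁻¹) = 1) → (∀ ψ ∈ l', ψ 1 = 1) →
      (l'.sum : G → ℂ) (a * b * a⁻¹ * b⁻¹) = (l'.sum : G → ℂ) 1 := by
    intro l'
    induction l' with
    | nil => intro _ _; rfl
    | cons c t ih =>
      intro h1 h2
      rw [List.sum_cons, Pi.add_apply, Pi.add_apply, h1 c (by simp), h2 c (by simp),
        ih (fun ψ hψ => h1 ψ (by simp [hψ])) (fun ψ hψ => h2 ψ (by simp [hψ]))]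
  have h8 : ρ.character (a * b * a⁻¹ * b⁻¹) = (Module.finrank ℂ V : ℂ) := by
    rw [hsum, hval l hcomm hlin, ← hsum, Representation.char_one]
  have h9 : ρ (a * b * a⁻¹ * b⁻¹) = LinearMap.id := by
    have h10 : ‖ρ.character (a * b * a⁻¹ * b⁻¹)‖ = (Module.finrank ℂ V : ℝ) := by
      rw [h8, Complex.norm_natCast]
    obtain ⟨ω, hω⟩ := scalar_of_norm_eq ρ _ h10
    have hchar : ρ.character (a * b * a⁻¹ * b⁻¹) = ω * (Module.finrank ℂ V : ℂ) := by
      change LinearMap.trace ℂ V (ρ (a * b * a⁻¹ * b⁻¹)) = _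
      rw [hω, map_smul, LinearMap.trace_id, smul_eq_mul]
    by_cases hn : Module.finrank ℂ V = 0
    · have : Subsingleton V := Module.finrank_zero_iff.mp hn
      exact Subsingleton.elim _ _
    · have hn' : (Module.finrank ℂ V : ℂ) ≠ 0 := by exact_mod_cast hn
      rw [hchar] at h8
      have h2 : ω = 1 := mul_right_cancel₀ hn' (h8.trans (one_mul _).symm)
      rw [hω, h2, one_smul]
  have h11 : a * b * a⁻¹ * b⁻¹ = 1 := by
    apply hfaithful
    rw [h9, map_one]
    rfl
  have h12 := congrArg (fun t => t * b * a) h11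
  simpa [mul_assoc] using h12

end Cfsg.Agent.S0185
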