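import Mathlib
import Cfsg.Statements.S0186
import Cfsg.Agent.Lib.Helper3.Char
import Cfsg.Agent.Lib.Helper3.CharCore
import Cfsg.Agent.Lib.Helper3.CharTable
import Cfsg.Agent.Lib.Helper3.CharArith
import Cfsg.Agent.Lib.Helper3.CharInt
import Cfsg.Agent.Lib.Helper3.CharDeg
import Cfsg.Agent.S0143

set_option autoImplicit false
open Cfsg
open Cfsg.Agent.Lib.Helper3.Char Cfsg.Agent.Lib.Helper3.CharCore Cfsg.Agent.Lib.Helper3.CharTable Cfsg.Agent.Lib.Helper3.CharArith Cfsg.Agent.Lib.Helper3.CharInt Cfsg.Agent.Lib.Helper3.CharDeg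
open scoped ComplexConjugate

namespace Cfsg.Agent.S0186

theorem result {G : Type*} [Group G] [Finite G] [IsSimpleGroup G] (p : ℕ) [Fact p.Prime] (hp : p ∣ Nat.card G) (hmany : Nat.card G < p ^ 2 * Nat.card (ConjClasses G)) (P : Sylow p G) (a b : G) (ha : a ∈ P) (hb : b ∈ P) : a * b = b * a := by
  classical
  have _i : Fintype G := Fintype.ofFinite G
  have _j : Fintype (Cfsg.IrrCharacter G) := Fintype.ofFinite _
  have hpp : p.Prime := Fact.out
  rw [← card_irr G] at hmany
  choose d hd0 hd hdvd using fun χ : Cfsg.IrrCharacter G => irr_degree_dvd_card χ.2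
  let triv : Cfsg.IrrCharacter G := ⟨fun _ => 1, isIrr_one G⟩
  by_cases hex : ∃ χ : Cfsg.IrrCharacter G, χ ≠ triv ∧ d χ < p
  · obtain ⟨χ, hχ, hdχ⟩ := hex
    obtain ⟨n, ρ, hirr, hρ⟩ := χ.2
    have hinj := Cfsg.Agent.S0143.faithful_of_simple ρ hirr (by
      rw [hρ]
      intro h
      exact hχ (Subtype.ext h))
    have hfr : Module.finrank ℂ (Fin n → ℂ) < p := by
      have h1 : (d χ : ℂ) = (Module.finrank ℂ (Fin n → ℂ) : ℂ) := by
        rw [← hd χ, ← hρ, Representation.char_one]
      have h2 : d χ = Module.finrank ℂ (Fin n → ℂ) := by exact_mod_cast h1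
      rw [← h2]
      exact hdχ
    exact comm_of_small_degree p ρ hinj hfr P P.isPGroup' a b ha hb
  · push Not at hex
    have hsum := sum_degree_sq d hd
    have hge : 1 + (Nat.card (Cfsg.IrrCharacter G) - 1) * p ^ 2 ≤ Nat.card G := by
      rw [hsum, ← Finset.add_sum_erase _ _ (Finset.mem_univ triv)]
      have h1 : d triv = 1 := by
        have h2 : (triv : G → ℂ) 1 = 1 := rfl
        rw [hd] at h2
        exact_mod_cast h2
      rw [h1]
      have h2 : (Finset.univ.erase triv).card • p ^ 2 ≤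
          ∑ χ ∈ Finset.univ.erase triv, d χ ^ 2 :=
        Finset.card_nsmul_le_sum _ _ _
          (fun χ hχ => Nat.pow_le_pow_left (hex χ (Finset.ne_of_mem_erase hχ)) 2)
      rw [Finset.card_erase_of_mem (Finset.mem_univ _), Finset.card_univ,
        ← Nat.card_eq_fintype_card, smul_eq_mul] at h2
      omega
    have hnot : ¬ p ^ 2 ∣ Nat.card G := by
      rintro ⟨t, ht⟩
      rw [ht] at hmany hge
      have h1 : t < Nat.card (Cfsg.IrrCharacter G) := lt_of_mul_lt_mul_left hmany (Nat.zero_le _)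
      have h2 : p ^ 2 * t ≤ p ^ 2 * (Nat.card (Cfsg.IrrCharacter G) - 1) :=
        Nat.mul_le_mul_left _ (by omega)
      rw [mul_comm (p ^ 2) (Nat.card (Cfsg.IrrCharacter G) - 1)] at h2
      omega
    have hcardP : Nat.card P = p := by
      rw [Sylow.card_eq_multiplicity]
      have hpos : Nat.card G ≠ 0 := Nat.card_pos.ne'
      have hle : 1 ≤ (Nat.card G).factorization p :=
        (hpp.dvd_iff_one_le_factorization hpos).mp hp
      have hlt : ¬ 2 ≤ (Nat.card G).factorization p :=
        fun h => hnot ((hpp.pow_dvd_iff_le_factorization hpos).mpr h)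
      have h1 : (Nat.card G).factorization p = 1 := by omega
      rw [h1, pow_one]
    have hcyc : IsCyclic P := isCyclic_of_prime_card hcardP
    have hc : IsMulCommutative P := IsCyclic.isMulCommutative
    have h3 := hc.is_comm.comm (⟨a, ha⟩ : P) ⟨b, hb⟩
    exact congrArg Subtype.val h3

end Cfsg.Agent.S0186
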