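import Mathlib
import Cfsg.Statements.S0187
import Cfsg.Agent.Lib.Helper3.CharLinear

set_option autoImplicit false
open Cfsg
open scoped ComplexConjugate
open Cfsg.Agent.Lib.Helper3.Char Cfsg.Agent.Lib.Helper3.CharCore Cfsg.Agent.Lib.Helper3.CharLinear Cfsg.Agent.Lib.Helper3.CharTable

namespace Cfsg.Agent.S0187

theorem result {G : Type*} [Group G] [Finite G] : (∀ a b : G, a * b = b * a) ↔ ∀ χ : Cfsg.IrrCharacter G, (χ : G → ℂ) 1 = 1 := by
  classical
  have _i : Fintype G := Fintype.ofFinite G
  have _j : Fintype (Cfsg.IrrCharacter G) := Fintype.ofFinite _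
  have _k : Fintype (ConjClasses G) := Fintype.ofFinite _
  constructor
  · intro hcomm χ
    obtain ⟨n, ρ, hirr, hρ⟩ := χ.2
    have : ρ.IsIrreducible := hirr
    have : IsMulCommutative G := ⟨⟨hcomm⟩⟩
    have h1 := Representation.IsIrreducible.finrank_eq_one_of_isMulCommutative ρ
    rw [← hρ, Representation.char_one, h1]
    simp
  · intro h a b
    have h1 := column_orth (1 : G) 1
    have h2 : Nat.card {y : G // y * 1 * y⁻¹ = 1} = Nat.card G := by
      apply Nat.card_congr
      exact ⟨fun y => y.1, fun y => ⟨y, by simp⟩, fun y => rfl, fun y => rfl⟩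
    rw [h2] at h1
    have h3 : ∑ χ : Cfsg.IrrCharacter G, (χ : G → ℂ) 1 * conj ((χ : G → ℂ) 1) =
        (Fintype.card (Cfsg.IrrCharacter G) : ℂ) := by
      rw [Finset.sum_congr rfl (fun χ _ => by rw [h χ, map_one, mul_one]), Finset.sum_const,
        Finset.card_univ, nsmul_eq_mul, mul_one]
    rw [h3] at h1
    have h4 : Fintype.card (Cfsg.IrrCharacter G) = Nat.card G := by exact_mod_cast h1
    have h5 := card_irr G
    rw [Nat.card_eq_fintype_card, h4, Nat.card_eq_fintype_card, Nat.card_eq_fintype_card] at h5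
    have hsurj : Function.Surjective (ConjClasses.mk : G → ConjClasses G) :=
      ConjClasses.mk_surjective
    have hinj : Function.Injective (ConjClasses.mk : G → ConjClasses G) :=
      (Fintype.bijective_iff_surjective_and_card _).mpr ⟨hsurj, h5⟩ |>.1
    have h6 : ConjClasses.mk (a * b * a⁻¹) = ConjClasses.mk b := by
      rw [ConjClasses.mk_eq_mk_iff_isConj, isConj_comm, isConj_iff]
      exact ⟨a, rfl⟩
    have h7 := hinj h6
    have h8 := congrArg (fun t => t * a) h7
    simpa using h8

end Cfsg.Agent.S0187
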