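import Mathlib
import Cfsg.Statements.S0188
import Cfsg.Agent.Lib.Helper3.Char
import Cfsg.Agent.Lib.Helper3.CharCore
import Cfsg.Agent.Lib.Helper3.CharTable
import Cfsg.Agent.Lib.Helper3.CharArith
import Cfsg.Agent.Lib.Helper3.CharInd
import Cfsg.Agent.Lib.Helper3.CharReg

set_option autoImplicit false
open Cfsg
open Cfsg.Agent.Lib.Helper3.Char Cfsg.Agent.Lib.Helper3.CharCore Cfsg.Agent.Lib.Helper3.CharTable Cfsg.Agent.Lib.Helper3.CharArith Cfsg.Agent.Lib.Helper3.CharInd Cfsg.Agent.Lib.Helper3.CharReg
open scoped ComplexConjugate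

namespace Cfsg.Agent.S0188

theorem classInner_prod {G H : Type*} [Group G] [Fintype G] [Group H] [Fintype H]
    (f₁ f₂ : G → ℂ) (k₁ k₂ : H → ℂ) :
    Cfsg.classInner (fun x : G × H => f₁ x.1 * k₁ x.2) (fun x : G × H => f₂ x.1 * k₂ x.2) =
      Cfsg.classInner f₁ f₂ * Cfsg.classInner k₁ k₂ := by
  unfold Cfsg.classInner
  rw [Nat.card_prod, Fintype.sum_prod_type]
  have h1 : ∀ g : G, ∑ h : H, f₁ g * k₁ h * conj (f₂ g * k₂ h) =
      (f₁ g * conj (f₂ g)) * ∑ h : H, k₁ h * conj (k₂ h) := by
    intro g
    rw [Finset.mul_sum]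
    refine Finset.sum_congr rfl (fun h _ => ?_)
    rw [map_mul]
    ring
  rw [Finset.sum_congr rfl (fun g _ => h1 g), ← Finset.sum_mul]
  push_cast
  rw [mul_inv]
  ring

theorem prod_isIrr {G H : Type*} [Group G] [Fintype G] [Group H] [Fintype H] {φ : G → ℂ}
    {ψ : H → ℂ} (hφ : Cfsg.IsIrrCharacter G φ) (hψ : Cfsg.IsIrrCharacter H ψ) :
    Cfsg.IsIrrCharacter (G × H) (fun x => φ x.1 * ψ x.2) := by
  have hc : Cfsg.IsCharacter (G × H) (fun x => φ x.1 * ψ x.2) :=
    isCharacter_mul (comp_isCharacter (MonoidHom.fst G H) (isCharacter_of_irr hφ))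
      (comp_isCharacter (MonoidHom.snd G H) (isCharacter_of_irr hψ))
  apply isIrr_of_inner_self hc
  rw [classInner_prod, irr_inner_self hφ, irr_inner_self hψ, mul_one]

theorem result {G : Type*} [Group G] [Finite G] {H : Type*} [Group H] [Finite H] (θ : G × H → ℂ) : Cfsg.IsIrrCharacter (G × H) θ ↔ ∃ (φ : G → ℂ) (ψ : H → ℂ), Cfsg.IsIrrCharacter G φ ∧ Cfsg.IsIrrCharacter H ψ ∧ θ = fun x => φ x.1 * ψ x.2 := by
  classical
  have _i : Fintype G := Fintype.ofFinite G
  have _j : Fintype H := Fintype.ofFinite H
  have _k : Fintype (Cfsg.IrrCharacter G) := Fintype.ofFinite _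
  have _l : Fintype (Cfsg.IrrCharacter H) := Fintype.ofFinite _
  constructor
  · intro hθ
    by_contra hcon
    push Not at hcon
    let R : G × H → ℂ := fun x => (Representation.leftRegular ℂ G).character x.1 *
      (Representation.leftRegular ℂ H).character x.2
    have hR1 : Cfsg.classInner R θ = conj (θ 1) := by
      unfold Cfsg.classInner
      rw [Fintype.sum_prod_type, Finset.sum_eq_single (1 : G)]
      · rw [Finset.sum_eq_single (1 : H)]
        · change (Nat.card (G × H) : ℂ)⁻¹ * ((Representation.leftRegular ℂ G).character 1 *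
            (Representation.leftRegular ℂ H).character 1 * conj (θ (1, 1))) = _
          rw [regular_char, regular_char, if_pos rfl, if_pos rfl, Nat.card_prod]
          have hG : (Nat.card G : ℂ) ≠ 0 := by exact_mod_cast Nat.card_pos.ne'
          have hH : (Nat.card H : ℂ) ≠ 0 := by exact_mod_cast Nat.card_pos.ne'
          push_cast
          have : ((1 : G), (1 : H)) = (1 : G × H) := rfl
          rw [this]
          field_simp
        · intro h _ hh
          change (Representation.leftRegular ℂ G).character 1 *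
            (Representation.leftRegular ℂ H).character h * conj (θ (1, h)) = 0
          rw [regular_char h, if_neg hh, mul_zero, zero_mul]
        · intro hh
          exact absurd (Finset.mem_univ _) hh
      · intro g _ hg
        refine Finset.sum_eq_zero (fun h _ => ?_)
        change (Representation.leftRegular ℂ G).character g *
          (Representation.leftRegular ℂ H).character h * conj (θ (g, h)) = 0
        rw [regular_char g, if_neg hg, zero_mul, zero_mul]
      · intro hh
        exact absurd (Finset.mem_univ _) hh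
    have hR2 : R = ∑ φ : Cfsg.IrrCharacter G, ∑ ψ : Cfsg.IrrCharacter H,
        ((φ : G → ℂ) 1 * (ψ : H → ℂ) 1) • (fun x : G × H => (φ : G → ℂ) x.1 * (ψ : H → ℂ) x.2) := by
      funext x
      change (Representation.leftRegular ℂ G).character x.1 *
        (Representation.leftRegular ℂ H).character x.2 = _
      rw [regular_char_expand, regular_char_expand]
      simp only [Finset.sum_apply, Pi.smul_apply, smul_eq_mul]
      rw [Finset.sum_mul_sum]
      refine Finset.sum_congr rfl (fun φ _ => Finset.sum_congr rfl (fun ψ _ => ?_))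
      ring
    have hR3 : Cfsg.classInner R θ = 0 := by
      rw [hR2, classInner_sum_left]
      refine Finset.sum_eq_zero (fun φ _ => ?_)
      rw [classInner_sum_left]
      refine Finset.sum_eq_zero (fun ψ _ => ?_)
      rw [classInner_smul_left, irr_inner_ne (prod_isIrr φ.2 ψ.2) hθ
        (fun h => hcon φ ψ φ.2 ψ.2 h.symm), mul_zero]
    rw [hR1] at hR3
    have h1 : θ 1 = 0 := by simpa using hR3
    exact irr_one_ne_zero hθ h1
  · rintro ⟨φ, ψ, hφ, hψ, rfl⟩
    exact prod_isIrr hφ hψ

end Cfsg.Agent.S0188
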