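import Mathlib
import Cfsg.Statements.S0189
import Cfsg.Agent.Lib.Helper3.CharInd
import Cfsg.Agent.Lib.Helper3.CharArith

set_option autoImplicit false
open Cfsg
open scoped ComplexConjugate
open Cfsg.Agent.Lib.Helper3.Char Cfsg.Agent.Lib.Helper3.CharInd Cfsg.Agent.Lib.Helper3.CharArith Cfsg.Agent.Lib.Helper3.CharCore

namespace Cfsg.Agent.S0189

theorem result {G : Type*} [Group G] [Finite G] (p : ℕ) [Fact p.Prime] (P : Sylow p G) (χ : G → ℂ) (hχ : Cfsg.IsCharacter G χ) (hvan : ∀ g : G, g ∈ P → g ≠ 1 → χ g = 0) : ∃ k : ℕ, χ 1 = (Nat.card P : ℂ) * k := by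
  classical
  have _i : Fintype (P : Subgroup G) := Fintype.ofFinite _
  have hcard : (Nat.card (P : Subgroup G) : ℂ) ≠ 0 := by exact_mod_cast Nat.card_pos.ne'
  have h1 : Cfsg.IsCharacter (P : Subgroup G) (fun x : (P : Subgroup G) => χ x) :=
    comp_isCharacter (P : Subgroup G).subtype hχ
  obtain ⟨k, hk⟩ := inner_char_nat h1 (isCharacter_of_irr (isIrr_one (P : Subgroup G)))
  refine ⟨k, ?_⟩
  unfold Cfsg.classInner at hk
  rw [Finset.sum_eq_single (1 : (P : Subgroup G))] at hk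
  · simp only [map_one, mul_one] at hk
    have h2 : χ ((1 : (P : Subgroup G)) : G) = χ 1 := rfl
    rw [h2] at hk
    rw [← hk, ← mul_assoc, mul_inv_cancel₀ hcard, one_mul]
  · intro b _ hb
    have h3 : χ (b : G) = 0 := hvan b b.2 (fun h => hb (Subtype.ext h))
    simp only [h3, zero_mul]
  · intro h
    exact absurd (Finset.mem_univ _) h

end Cfsg.Agent.S0189
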