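import Mathlib
import Cfsg.Statements.S0191
import Cfsg.Agent.Lib.Helper3.Char
import Cfsg.Agent.Lib.Helper3.CharCore
import Cfsg.Agent.Lib.Helper3.CharGalois

set_option autoImplicit false
open Cfsg
open Cfsg.Agent.Lib.Helper3.Char Cfsg.Agent.Lib.Helper3.CharCore Cfsg.Agent.Lib.Helper3.CharGalois
open scoped ComplexConjugate IntermediateField

namespace Cfsg.Agent.S0191

theorem result {G : Type*} [Group G] [Finite G] {V : Type*} [AddCommGroup V] [Module ℂ V] [FiniteDimensional ℂ V] (ρ : Representation ℂ G V) [ρ.IsIrreducible] (hdeg : 1 < Module.finrank ℂ V) : ∃ g : G, ρ.character g = 0 := by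
  classical
  have _i : Fintype G := Fintype.ofFinite G
  by_contra hcon
  push Not at hcon
  have hN : Nat.card G ≠ 0 := Nat.card_pos.ne'
  have hfd := cyc_fd (Nat.card G) hN
  choose a ha1 ha2 ha3 using fun g : G => char_lift ρ g
  have ha0 : ∀ g, a g ≠ 0 := by
    intro g h
    apply hcon g
    rw [← ha1 g, h]
    rfl
  have hσ : ∀ σ : ℚ⟮zeta (Nat.card G)⟯ →ₐ[ℚ] ℂ,
      ∑ g ∈ Finset.univ.erase (1 : G), ‖σ (a g)‖ ^ 2 =
        ∑ g ∈ Finset.univ.erase (1 : G), ‖ρ.character g‖ ^ 2 := by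
    intro σ
    obtain ⟨e, he, hσe⟩ := emb_gen (Nat.card G) hN σ
    rw [Finset.sum_congr rfl (fun g _ => by rw [ha3 g σ e hσe])]
    refine Finset.sum_equiv (powCoprime he.symm) (fun g => ?_) (fun g _ => rfl)
    rw [Finset.mem_erase, Finset.mem_erase]
    have h1 : (powCoprime he.symm) g = 1 ↔ g = 1 := by
      constructor
      · intro h
        apply (powCoprime he.symm).injective
        rw [h]
        simp
      · rintro rfl
        simp
    simp only [Finset.mem_univ, and_true, ne_eq, h1]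
  have hge : (Fintype.card (ℚ⟮zeta (Nat.card G)⟯ →ₐ[ℚ] ℂ) : ℝ) * ((Nat.card G : ℝ) - 1) ≤
      (Fintype.card (ℚ⟮zeta (Nat.card G)⟯ →ₐ[ℚ] ℂ) : ℝ) *
        ∑ g ∈ Finset.univ.erase (1 : G), ‖ρ.character g‖ ^ 2 := by
    have h1 : ∑ σ : ℚ⟮zeta (Nat.card G)⟯ →ₐ[ℚ] ℂ,
        ∑ g ∈ Finset.univ.erase (1 : G), ‖σ (a g)‖ ^ 2 =
        (Fintype.card (ℚ⟮zeta (Nat.card G)⟯ →ₐ[ℚ] ℂ) : ℝ) *
          ∑ g ∈ Finset.univ.erase (1 : G), ‖ρ.character g‖ ^ 2 := by
      rw [Finset.sum_congr rfl (fun σ _ => hσ σ), Finset.sum_const, Finset.card_univ,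
        nsmul_eq_mul]
    rw [← h1, Finset.sum_comm]
    have h2 : ∀ g ∈ Finset.univ.erase (1 : G),
        (Fintype.card (ℚ⟮zeta (Nat.card G)⟯ →ₐ[ℚ] ℂ) : ℝ) ≤
          ∑ σ : ℚ⟮zeta (Nat.card G)⟯ →ₐ[ℚ] ℂ, ‖σ (a g)‖ ^ 2 :=
      fun g _ => sum_sq_ge_card (Nat.card G) (a g) (ha2 g) (ha0 g)
    have h3 := Finset.sum_le_sum h2
    rw [Finset.sum_const, Finset.card_erase_of_mem (Finset.mem_univ _), Finset.card_univ,
      ← Nat.card_eq_fintype_card, nsmul_eq_mul] at h3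
    have h4 : ((Nat.card G - 1 : ℕ) : ℝ) = (Nat.card G : ℝ) - 1 := by
      rw [Nat.cast_sub Nat.card_pos]
      simp
    rw [h4] at h3
    linarith
  have hne : Nonempty (ℚ⟮zeta (Nat.card G)⟯ →ₐ[ℚ] ℂ) := ⟨IntermediateField.val _⟩
  have hcpos : (0 : ℝ) < (Fintype.card (ℚ⟮zeta (Nat.card G)⟯ →ₐ[ℚ] ℂ) : ℝ) := by
    exact_mod_cast Fintype.card_pos
  have hge' : (Nat.card G : ℝ) - 1 ≤ ∑ g ∈ Finset.univ.erase (1 : G), ‖ρ.character g‖ ^ 2 :=
    le_of_mul_le_mul_left hge hcpos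
  have hsum : ∑ g : G, ‖ρ.character g‖ ^ 2 = (Nat.card G : ℝ) := by
    have h1 := irr_inner_self (isIrr_of_rep ρ inferInstance)
    unfold Cfsg.classInner at h1
    have hcard : (Nat.card G : ℂ) ≠ 0 := by exact_mod_cast hN
    have h2 : ∑ g : G, ρ.character g * (starRingEnd ℂ) (ρ.character g) = (Nat.card G : ℂ) := by
      field_simp at h1
      exact h1
    have h3 : ∀ g : G, ρ.character g * (starRingEnd ℂ) (ρ.character g) =
        ((‖ρ.character g‖ ^ 2 : ℝ) : ℂ) := by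
      intro g
      rw [Complex.mul_conj']
      push_cast
      rfl
    rw [Finset.sum_congr rfl (fun g _ => h3 g), ← Complex.ofReal_sum] at h2
    exact_mod_cast h2
  rw [← Finset.add_sum_erase _ _ (Finset.mem_univ (1 : G)), Representation.char_one,
    Complex.norm_natCast] at hsum
  have hd : (2 : ℝ) ≤ (Module.finrank ℂ V : ℝ) := by exact_mod_cast hdeg
  nlinarith

end Cfsg.Agent.S0191
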