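import Mathlib
import Cfsg.Statements.S0192
import Cfsg.Agent.Lib.Helper3.CharArith

set_option autoImplicit false
open Cfsg
open scoped ComplexConjugate
open Cfsg.Agent.Lib.Helper3.Char Cfsg.Agent.Lib.Helper3.CharArith Cfsg.Agent.Lib.Helper3.CharCore

namespace Cfsg.Agent.S0192

theorem inner_one_eq_finrank {G : Type*} [Group G] [Fintype G] {V : Type*} [AddCommGroup V]
    [Module ℂ V] [FiniteDimensional ℂ V] (ρ : Representation ℂ G V) :
    Cfsg.classInner ρ.character (fun _ => 1) =
      (Module.finrank ℂ (Representation.invariants ρ) : ℂ) := by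
  have hinv : Invertible ((Nat.card G : ℕ) : ℂ) :=
    invertibleOfNonzero (by exact_mod_cast Nat.card_pos.ne')
  rw [← Representation.card_inv_mul_sum_char_eq_finrank ρ]
  unfold Cfsg.classInner
  simp

theorem inner_one_sub {G : Type*} [Group G] {V : Type*} [AddCommGroup V]
    [Module ℂ V] [FiniteDimensional ℂ V] (ρ : Representation ℂ G V) (H : Subgroup G)
    [Fintype H] :
    Cfsg.classInner (fun x : H => ρ.character x) (fun _ => 1) =
      (Module.finrank ℂ (Representation.invariants (ρ.comp H.subtype)) : ℂ) :=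
  inner_one_eq_finrank (ρ.comp H.subtype)

theorem result {G : Type*} [Group G] [Fintype G] [IsSimpleGroup G] (H₁ H₂ : Subgroup G) [Fintype H₁] [Fintype H₂] [Fintype ↥(H₁ ⊓ H₂)] (χ : G → ℂ) (hχ : Cfsg.IsIrrCharacter G χ) (hχ1 : χ ≠ fun _ => 1) (hlt : (Cfsg.classInner (fun x : ↥(H₁ ⊓ H₂) => χ x) (fun _ => 1)).re < (Cfsg.classInner (fun x : H₁ => χ x) (fun _ => 1)).re + (Cfsg.classInner (fun x : H₂ => χ x) (fun _ => 1)).re) : H₁ ⊔ H₂ ≠ ⊤ := by
  classical
  obtain ⟨n, ρ, hirr, rfl⟩ := hχ
  rw [inner_one_sub ρ H₁, inner_one_sub ρ H₂, inner_one_sub ρ (H₁ ⊓ H₂)] at hlt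
  simp only [Complex.natCast_re] at hlt
  have hlt' : Module.finrank ℂ (Representation.invariants (ρ.comp (H₁ ⊓ H₂).subtype)) <
      Module.finrank ℂ (Representation.invariants (ρ.comp H₁.subtype)) +
      Module.finrank ℂ (Representation.invariants (ρ.comp H₂.subtype)) := by
    exact_mod_cast hlt
  have hle : Representation.invariants (ρ.comp H₁.subtype) ⊔
      Representation.invariants (ρ.comp H₂.subtype) ≤
      Representation.invariants (ρ.comp (H₁ ⊓ H₂).subtype) := by
    apply sup_le
    · intro v hv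
      rw [Representation.mem_invariants] at hv ⊢
      intro g
      exact hv ⟨g.1, g.2.1⟩
    · intro v hv
      rw [Representation.mem_invariants] at hv ⊢
      intro g
      exact hv ⟨g.1, g.2.2⟩
  have h1 := Submodule.finrank_sup_add_finrank_inf_eq
    (Representation.invariants (ρ.comp H₁.subtype)) (Representation.invariants (ρ.comp H₂.subtype))
  have h2 := Submodule.finrank_mono hle
  have h3 : 0 < Module.finrank ℂ ↥(Representation.invariants (ρ.comp H₁.subtype) ⊓
      Representation.invariants (ρ.comp H₂.subtype)) := by omega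
  have h4 : Representation.invariants (ρ.comp H₁.subtype) ⊓
      Representation.invariants (ρ.comp H₂.subtype) ≠ ⊥ := by
    intro h
    rw [h, finrank_bot] at h3
    exact lt_irrefl _ h3
  obtain ⟨v, hv, hv0⟩ := Submodule.exists_mem_ne_zero_of_ne_bot h4
  intro htop
  have hv1 : ∀ g ∈ H₁, ρ g v = v := fun g hg =>
    (Representation.mem_invariants (ρ.comp H₁.subtype) v).mp hv.1 ⟨g, hg⟩
  have hv2 : ∀ g ∈ H₂, ρ g v = v := fun g hg =>
    (Representation.mem_invariants (ρ.comp H₂.subtype) v).mp hv.2 ⟨g, hg⟩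
  let S : Subgroup G :=
    { carrier := {g | ρ g v = v}
      mul_mem' := by
        intro a b ha hb
        change ρ (a * b) v = v
        rw [map_mul]
        change ρ a (ρ b v) = v
        rw [hb, ha]
      one_mem' := by
        change ρ 1 v = v
        rw [map_one]
        rfl
      inv_mem' := by
        intro a ha
        change ρ a⁻¹ v = v
        have h5 : ρ a⁻¹ (ρ a v) = v := by
          have : ρ a⁻¹ (ρ a v) = (ρ a⁻¹ * ρ a) v := rfl
          rw [this, ← map_mul, inv_mul_cancel, map_one]
          rfl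
        rw [ha] at h5
        exact h5 }
  have hS : H₁ ⊔ H₂ ≤ S := sup_le (fun g hg => hv1 g hg) (fun g hg => hv2 g hg)
  rw [htop] at hS
  have hall : v ∈ Representation.invariants ρ := by
    rw [Representation.mem_invariants]
    intro g
    exact hS (Subgroup.mem_top g)
  have h6 := inner_one_eq_finrank ρ
  rw [irr_inner_ne ⟨n, ρ, hirr, rfl⟩ (isIrr_one G) hχ1] at h6
  have h7 : Module.finrank ℂ (Representation.invariants ρ) = 0 := by exact_mod_cast h6.symm
  have h8 : Representation.invariants ρ = ⊥ := Submodule.finrank_eq_zero.mp h7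
  rw [h8, Submodule.mem_bot] at hall
  exact hv0 hall

end Cfsg.Agent.S0192
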