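import Mathlib
import Cfsg.Statements.S0194
import Cfsg.Agent.Lib.Helper3.CharNormal
import Cfsg.Agent.S0161

set_option autoImplicit false
open scoped ComplexConjugate
open Cfsg
open scoped ComplexConjugate
open Cfsg.Agent.Lib.Helper3.Char Cfsg.Agent.Lib.Helper3.CharArith Cfsg.Agent.Lib.Helper3.CharCore Cfsg.Agent.Lib.Helper3.CharInd Cfsg.Agent.Lib.Helper3.CharNormal

namespace Cfsg.Agent.S0194

theorem cj_pow_fixed {G : Type*} [Group G] (H : Subgroup G) (hN : H.Normal) (θ : H → ℂ) (a : G)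
    (h : cj H hN θ a = θ) (k : ℕ) : cj H hN θ (a ^ k) = θ := by
  induction k with
  | zero => rw [pow_zero, cj_one]
  | succ k ih => rw [pow_succ, ← cj_mul, ih, h]

theorem conj_indFun {G : Type*} [Group G] [Fintype G] (H : Subgroup G) (θ : H → ℂ) :
    (fun g => conj (Cfsg.indFun H θ g)) = Cfsg.indFun H (fun h => conj (θ h)) := by
  funext g
  unfold Cfsg.indFun
  rw [map_mul, map_inv₀, map_natCast, map_sum]
  congr 1
  refine Finset.sum_congr rfl (fun x _ => ?_)
  by_cases hx : x⁻¹ * g * x ∈ H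
  · rw [extendByZero_mem _ _ hx, extendByZero_mem _ _ hx]
  · rw [extendByZero_not_mem _ _ hx, extendByZero_not_mem _ _ hx, map_zero]

theorem result {G : Type*} [Group G] [Fintype G] (hodd : Odd (Nat.card G)) (H : Subgroup G) [H.Normal] (θ : H → ℂ) (hθ : Cfsg.IsIrrCharacter H θ) (hθ1 : θ ≠ fun _ => 1) : Cfsg.classInner (fun g => conj (Cfsg.indFun H θ g)) (Cfsg.indFun H θ) = 0 := by
  classical
  have _i : Fintype H := Fintype.ofFinite H
  have hN : H.Normal := inferInstance
  have hoddH : Odd (Nat.card H) := by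
    have h1 : Nat.card H ∣ Nat.card G := Subgroup.card_subgroup_dvd_card H
    exact Odd.of_dvd_nat hodd h1
  rw [conj_indFun, inner_ind_ind H hN]
  rw [Finset.sum_eq_zero, mul_zero]
  intro x _
  apply irr_inner_ne (isIrr_conj hθ) (cj_isIrr H hN hθ x)
  intro hcon
  have e1 : cj H hN (fun h => conj (θ h)) x = fun h => conj (cj H hN θ x h) := rfl
  have h1 : cj H hN θ (x * x) = θ := by
    calc cj H hN θ (x * x) = cj H hN (cj H hN θ x) x := (cj_mul H hN θ x x).symm
      _ = cj H hN (fun h => conj (θ h)) x := by rw [← hcon]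
      _ = fun h => conj (cj H hN θ x h) := e1
      _ = fun h => conj (conj (θ h)) := by rw [← hcon]
      _ = θ := by
        funext h
        exact Complex.conj_conj (θ h)
  have hxodd : Odd (orderOf x) := Odd.of_dvd_nat hodd (orderOf_dvd_natCard x)
  obtain ⟨k, hk⟩ := hxodd
  have h5 : (x * x) ^ (k + 1) = x := by
    rw [← pow_two, ← pow_mul]
    have : 2 * (k + 1) = orderOf x + 1 := by omega
    rw [this, pow_succ, pow_orderOf_eq_one, one_mul]
  have h6 := cj_pow_fixed H hN θ (x * x) h1 (k + 1)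
  rw [h5] at h6
  rw [h6] at hcon
  have hreal : ∀ h : H, (θ h).im = 0 := by
    intro h
    have := congrFun hcon h
    exact Complex.conj_eq_iff_im.mp this
  exact hθ1 (Cfsg.Agent.S0161.result hoddH ⟨θ, hθ⟩ hreal)

end Cfsg.Agent.S0194
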