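import Mathlib
import Cfsg.Statements.S0195

set_option autoImplicit false
open Cfsg

namespace Cfsg.Agent.S0195

/-- Let A be a subgroup of G that equals the centralizer of each of its non-identity elements. If g lies outside the normalizer of A, then the only element of A conjugated by g into A is the identity (A is a trivial-intersection set). -/
theorem result {G : Type*} [Group G] [Finite G] (A : Subgroup G) (hA : ∀ x ∈ A, x ≠ 1 → Subgroup.centralizer ({x} : Set G) = A) (g : G) (hg : g ∉ Subgroup.normalizer (A : Set G)) (x : G) (hx : x ∈ A) (hgx : g * x * g⁻¹ ∈ A) : x = 1 := by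
  by_contra hx1
  apply hg
  have hy1 : g * x * g⁻¹ ≠ 1 := by
    intro h; apply hx1
    calc x = g⁻¹ * (g * x * g⁻¹) * g := by group
      _ = 1 := by rw [h]; group
  have h1 := hA x hx hx1
  have h2 := hA _ hgx hy1
  rw [Subgroup.mem_normalizer_iff]
  intro n
  constructor
  · intro hn
    rw [← h1] at hn
    rw [← h2]
    rw [Subgroup.mem_centralizer_singleton_iff] at hn ⊢
    calc g * n * g⁻¹ * (g * x * g⁻¹) = g * (n * x) * g⁻¹ := by group
      _ = g * (x * n) * g⁻¹ := by rw [hn]
      _ = g * x * g⁻¹ * (g * n * g⁻¹) := by group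
  · intro hn
    rw [← h2] at hn
    rw [← h1]
    rw [Subgroup.mem_centralizer_singleton_iff] at hn ⊢
    have h3 : g * (n * x) * g⁻¹ = g * (x * n) * g⁻¹ := by
      calc g * (n * x) * g⁻¹ = g * n * g⁻¹ * (g * x * g⁻¹) := by group
        _ = g * x * g⁻¹ * (g * n * g⁻¹) := hn
        _ = g * (x * n) * g⁻¹ := by group
    exact mul_left_cancel (mul_right_cancel h3)

end Cfsg.Agent.S0195
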