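import Mathlib
import Cfsg.Statements.S0196

set_option autoImplicit false
open Cfsg

namespace Cfsg.Agent.S0196

/-- Let A be a subgroup of a finite group G that equals the centralizer of each of its non-identity elements, and let N be its normalizer. Then the index of A in N divides |A| − 1 (N/A permutes the non-identity elements of A in orbits of full length). -/
theorem result {G : Type*} [Group G] [Finite G] (A : Subgroup G) (hA : ∀ x ∈ A, x ≠ 1 → Subgroup.centralizer ({x} : Set G) = A) : (A.subgroupOf (Subgroup.normalizer (A : Set G))).index ∣ Nat.card A - 1 := by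
  classical
  let X : Set G := (A : Set G) \ {1}
  letI act : MulAction (Subgroup.normalizer (A : Set G)) X :=
    { smul := fun n x => ⟨n.1 * x.1 * n.1⁻¹, by
        refine ⟨(Subgroup.mem_normalizer_iff.mp n.2 x.1).mp x.2.1, ?_⟩
        intro h
        rw [Set.mem_singleton_iff] at h
        apply x.2.2
        rw [Set.mem_singleton_iff]
        calc x.1 = n.1⁻¹ * (n.1 * x.1 * n.1⁻¹) * n.1 := by group
          _ = 1 := by rw [h]; group⟩
      one_smul := fun x => Subtype.ext (by
        show (1 : Subgroup.normalizer (A : Set G)).1 * x.1 *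
          (1 : Subgroup.normalizer (A : Set G)).1⁻¹ = x.1
        simp)
      mul_smul := fun a b x => Subtype.ext (by
        show (a * b).1 * x.1 * (a * b).1⁻¹ = a.1 * (b.1 * x.1 * b.1⁻¹) * a.1⁻¹
        simp [mul_assoc]) }
  have hsmul : ∀ (n : Subgroup.normalizer (A : Set G)) (x : X),
      ((n • x : X) : G) = n.1 * x.1 * n.1⁻¹ := fun n x => rfl
  have hstab : ∀ x : X, MulAction.stabilizer (Subgroup.normalizer (A : Set G)) x =
      A.subgroupOf (Subgroup.normalizer (A : Set G)) := by
    intro x
    ext n
    rw [MulAction.mem_stabilizer_iff, Subgroup.mem_subgroupOf]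
    have hx := hA x.1 x.2.1 (by
      intro h; exact x.2.2 (by rw [Set.mem_singleton_iff]; exact h))
    have hmem : ∀ y : G, y ∈ A ↔ y * x.1 = x.1 * y := fun y => by
      rw [← Subgroup.mem_centralizer_singleton_iff, hx]
    constructor
    · intro h
      have h1 : n.1 * x.1 * n.1⁻¹ = x.1 := by rw [← hsmul, h]
      rw [hmem]
      calc n.1 * x.1 = n.1 * x.1 * n.1⁻¹ * n.1 := by group
        _ = x.1 * n.1 := by rw [h1]
    · intro h
      rw [hmem] at h
      apply Subtype.ext
      rw [hsmul, h]; group
  have horb : ∀ x : X, Nat.card (MulAction.orbit (Subgroup.normalizer (A : Set G)) x) =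
      (A.subgroupOf (Subgroup.normalizer (A : Set G))).index := by
    intro x
    rw [← hstab x, MulAction.index_stabilizer, Nat.card_coe_set_eq]
  have hX : Nat.card X = Nat.card A - 1 := by
    rw [Nat.card_coe_set_eq]
    show ((A : Set G) \ {1}).ncard = _
    have h2 := Set.ncard_sdiff_singleton_add_one (a := (1 : G)) (s := (A : Set G)) A.one_mem
      (Set.toFinite _)
    have h3 : (A : Set G).ncard = Nat.card A := (Nat.card_coe_set_eq _).symm
    omega
  rw [← hX]
  have e := MulAction.selfEquivSigmaOrbits (Subgroup.normalizer (A : Set G)) X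
  haveI := Fintype.ofFinite (MulAction.orbitRel.Quotient (Subgroup.normalizer (A : Set G)) X)
  rw [Nat.card_congr e, Nat.card_sigma]
  simp only [horb, Finset.sum_const, smul_eq_mul]
  exact Dvd.intro_left _ rfl

end Cfsg.Agent.S0196
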