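import Mathlib
import Cfsg.Agent.Lib.Helper1.Inv
import Cfsg.Statements.S0206

set_option autoImplicit false
open Cfsg

namespace Cfsg.Agent.S0206

def dihFun {G : Type*} [Group G] (x y : G) (n : ℕ) : DihedralGroup n → G
  | DihedralGroup.r i => (x * y) ^ i.val
  | DihedralGroup.sr i => x * (x * y) ^ i.val

theorem not_zpow_prod {G : Type*} [Group G] (x y : G) (hx : orderOf x = 2) (hy : orderOf y = 2)
    (k : ℤ) : x ≠ (x * y) ^ k := by
  intro hk
  have hxx := Lib.Helper1.mul_self_of_orderOf_two hx
  have hyy := Lib.Helper1.mul_self_of_orderOf_two hy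
  have hgen : ∀ (c z : G), z = c ^ k → z * c = c * z := by
    intro c z h
    rw [h]
    exact (Commute.zpow_self c k).eq
  have h1 := hgen (x * y) x hk
  have hyx : x * y * x = y := by rw [← h1, ← mul_assoc, hxx, one_mul]
  have hcc : (x * y) * (x * y) = 1 := by
    calc (x * y) * (x * y) = (x * y * x) * y := by simp only [mul_assoc]
      _ = 1 := by rw [hyx, hyy]
  rcases Int.even_or_odd' k with ⟨j, hj | hj⟩
  · rw [hj, zpow_mul, zpow_two, hcc, one_zpow] at hk
    exact Lib.Helper1.ne_one_of_orderOf_two hx hk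
  · rw [hj, zpow_add_one, zpow_mul, zpow_two, hcc, one_zpow, one_mul] at hk
    have : y = 1 := by
      have h2 : x * 1 = x * y := by rw [mul_one]; exact hk
      exact (mul_left_cancel h2).symm
    exact Lib.Helper1.ne_one_of_orderOf_two hy this

/-- Two distinct involutions x, y of a finite group generate a subgroup isomorphic to the dihedral group of order 2·|xy|. -/
theorem result {G : Type*} [Group G] [Finite G] (x y : G) (hx : orderOf x = 2) (hy : orderOf y = 2) (hxy : x ≠ y) : Nonempty (↥(Subgroup.closure ({x, y} : Set G)) ≃* DihedralGroup (orderOf (x * y))) := by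
  obtain ⟨n, hn⟩ : ∃ n, n = orderOf (x * y) := ⟨_, rfl⟩
  rw [← hn]
  have hnpos : 0 < n := by rw [hn]; exact orderOf_pos _
  have : NeZero n := ⟨hnpos.ne'⟩
  have hxx := Lib.Helper1.mul_self_of_orderOf_two hx
  have hyy := Lib.Helper1.mul_self_of_orderOf_two hy
  have hmod : ∀ k : ℕ, (x * y) ^ (k % n) = (x * y) ^ k := by
    intro k
    rw [hn]
    exact pow_mod_orderOf (x * y) k
  have hadd : ∀ i j : ZMod n, (x * y) ^ (i + j).val = (x * y) ^ i.val * (x * y) ^ j.val := by
    intro i j
    rw [ZMod.val_add, hmod, pow_add]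
  have hzero : (x * y) ^ (0 : ZMod n).val = 1 := by rw [ZMod.val_zero, pow_zero]
  have hneg : ∀ i : ZMod n, (x * y) ^ (-i).val = ((x * y) ^ i.val)⁻¹ := by
    intro i
    apply eq_inv_of_mul_eq_one_left
    rw [← hadd, neg_add_cancel, hzero]
  have hsub : ∀ i j : ZMod n, (x * y) ^ (j - i).val = ((x * y) ^ i.val)⁻¹ * (x * y) ^ j.val := by
    intro i j
    rw [sub_eq_neg_add, hadd, hneg]
  have hsw : ∀ k : ℕ, (x * y) ^ k * x = x * ((x * y) ^ k)⁻¹ := by
    intro k
    have h := Lib.Helper1.zpow_swap x y hxx hyy (k : ℤ)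
    rw [zpow_neg, zpow_natCast] at h
    exact h
  have hmul : ∀ a b : DihedralGroup n, dihFun x y n (a * b) = dihFun x y n a * dihFun x y n b := by
    intro a b
    cases a with
    | r i =>
      cases b with
      | r j =>
        rw [DihedralGroup.r_mul_r]
        exact hadd i j
      | sr j =>
        rw [DihedralGroup.r_mul_sr]
        show x * (x * y) ^ (j - i).val = (x * y) ^ i.val * (x * (x * y) ^ j.val)
        rw [hsub, ← mul_assoc ((x * y) ^ i.val), hsw]
        simp only [mul_assoc]
    | sr i =>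
      cases b with
      | r j =>
        rw [DihedralGroup.sr_mul_r]
        show x * (x * y) ^ (i + j).val = x * (x * y) ^ i.val * (x * y) ^ j.val
        rw [hadd, mul_assoc]
      | sr j =>
        rw [DihedralGroup.sr_mul_sr]
        show (x * y) ^ (j - i).val = x * (x * y) ^ i.val * (x * (x * y) ^ j.val)
        rw [hsub]
        calc ((x * y) ^ i.val)⁻¹ * (x * y) ^ j.val
            = (x * x) * ((x * y) ^ i.val)⁻¹ * (x * y) ^ j.val := by rw [hxx, one_mul]
          _ = x * (x * ((x * y) ^ i.val)⁻¹) * (x * y) ^ j.val := by simp only [mul_assoc]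
          _ = x * ((x * y) ^ i.val * x) * (x * y) ^ j.val := by rw [hsw]
          _ = x * (x * y) ^ i.val * (x * (x * y) ^ j.val) := by simp only [mul_assoc]
  obtain ⟨φ, hφ⟩ : ∃ φ : DihedralGroup n →* G, ∀ a, φ a = dihFun x y n a :=
    ⟨MonoidHom.mk' (dihFun x y n) hmul, fun _ => rfl⟩
  have hinj : Function.Injective φ := by
    rw [injective_iff_map_eq_one]
    intro a ha
    rw [hφ] at ha
    cases a with
    | r i =>
      have h1 : (x * y) ^ i.val = 1 := ha
      have h2 : n ∣ i.val := by
        have h0 := orderOf_dvd_of_pow_eq_one h1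
        rwa [← hn] at h0
      have h3 : i.val = 0 := Nat.eq_zero_of_dvd_of_lt h2 (ZMod.val_lt i)
      rw [ZMod.val_eq_zero] at h3
      rw [h3, DihedralGroup.r_zero]
    | sr i =>
      exfalso
      have h1 : x * (x * y) ^ i.val = 1 := ha
      have h2 := eq_inv_of_mul_eq_one_left h1
      rw [← zpow_natCast, ← zpow_neg] at h2
      exact not_zpow_prod x y hx hy _ h2
  have hrange : φ.range = Subgroup.closure ({x, y} : Set G) := by
    have hxm : x ∈ Subgroup.closure ({x, y} : Set G) := Subgroup.subset_closure (by simp)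
    have hym : y ∈ Subgroup.closure ({x, y} : Set G) := Subgroup.subset_closure (by simp)
    apply le_antisymm
    · rintro _ ⟨a, rfl⟩
      rw [hφ]
      cases a with
      | r i => exact Subgroup.pow_mem _ (Subgroup.mul_mem _ hxm hym) _
      | sr i => exact Subgroup.mul_mem _ hxm (Subgroup.pow_mem _ (Subgroup.mul_mem _ hxm hym) _)
    · rw [Subgroup.closure_le]
      intro g hg
      rcases hg with hg | hg
      · refine ⟨DihedralGroup.sr 0, ?_⟩
        rw [hφ, hg]
        show x * (x * y) ^ (0 : ZMod n).val = x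
        rw [hzero, mul_one]
      · rw [Set.mem_singleton_iff] at hg
        refine ⟨DihedralGroup.sr 1, ?_⟩
        rw [hφ, hg]
        show x * (x * y) ^ (1 : ZMod n).val = y
        rw [ZMod.val_one_eq_one_mod, hmod, pow_one, ← mul_assoc, hxx, one_mul]
  exact ⟨(MulEquiv.subgroupCongr hrange.symm).trans (MonoidHom.ofInjective hinj).symm⟩

end Cfsg.Agent.S0206
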