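import Mathlib
import Cfsg.Statements.S0210

set_option autoImplicit false
open Cfsg

namespace Cfsg.Agent.S0210

theorem mul_self_of_orderOf_two {G : Type*} [Group G] {a : G} (ha : orderOf a = 2) : a * a = 1 := by
  have h : a ^ 2 = 1 := by rw [← ha]; exact pow_orderOf_eq_one a
  rwa [sq] at h

theorem inv_of_orderOf_two {G : Type*} [Group G] {a : G} (ha : orderOf a = 2) : a⁻¹ = a := by
  rw [inv_eq_iff_mul_eq_one]; exact mul_self_of_orderOf_two ha

theorem orderOf_two_of {G : Type*} [Group G] {a : G} (h1 : a * a = 1) (h2 : a ≠ 1) : orderOf a = 2 := by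
  have h : a ^ 2 = 1 := by rw [sq]; exact h1
  exact orderOf_eq_prime h h2

theorem conj_zpow_prod {G : Type*} [Group G] (x y : G) (hx : x * x = 1) (hy : y * y = 1) (k : ℤ) :
    x * (x * y) ^ k * x = ((x * y) ^ k)⁻¹ := by
  have hxi : x⁻¹ = x := inv_eq_of_mul_eq_one_right hx
  have hyi : y⁻¹ = y := inv_eq_of_mul_eq_one_right hy
  have h1 : x * (x * y) * x⁻¹ = (x * y)⁻¹ := by
    rw [mul_inv_rev, hxi, hyi, ← mul_assoc, hx, one_mul]
  have h2 : x * (x * y) ^ k * x⁻¹ = ((x * y)⁻¹) ^ k := by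
    rw [← h1, conj_zpow]
  rw [hxi] at h2
  rw [h2, inv_zpow]

theorem zpow_swap {G : Type*} [Group G] (x y : G) (hx : x * x = 1) (hy : y * y = 1) (k : ℤ) :
    (x * y) ^ k * x = x * (x * y) ^ (-k) := by
  have h := conj_zpow_prod x y hx hy k
  rw [zpow_neg, ← h, ← mul_assoc, ← mul_assoc, hx, one_mul]

theorem mem_closure_pair {G : Type*} [Group G] (x y : G) (hx : x * x = 1) (hy : y * y = 1) (d : G)
    (hd : d ∈ Subgroup.closure ({x, y} : Set G)) :
    ∃ k : ℤ, d = (x * y) ^ k ∨ d = x * (x * y) ^ k := by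
  have hxi : x⁻¹ = x := inv_eq_of_mul_eq_one_right hx
  have hsw := zpow_swap x y hx hy
  induction hd using Subgroup.closure_induction with
  | mem g hg =>
    rcases hg with rfl | hg
    · exact ⟨0, Or.inr (by simp)⟩
    · rw [Set.mem_singleton_iff] at hg; subst hg
      exact ⟨1, Or.inr (by rw [zpow_one, ← mul_assoc, hx, one_mul])⟩
  | one => exact ⟨0, Or.inl (by simp)⟩
  | mul a b _ _ iha ihb =>
    obtain ⟨j, ha | ha⟩ := iha <;> obtain ⟨k, hb | hb⟩ := ihb
    · exact ⟨j + k, Or.inl (by rw [ha, hb, zpow_add])⟩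
    · exact ⟨-j + k, Or.inr (by rw [ha, hb, ← mul_assoc, hsw, mul_assoc, ← zpow_add])⟩
    · exact ⟨j + k, Or.inr (by rw [ha, hb, mul_assoc, ← zpow_add])⟩
    · refine ⟨-j + k, Or.inl ?_⟩
      rw [ha, hb]
      calc x * (x * y) ^ j * (x * (x * y) ^ k) = x * ((x * y) ^ j * x) * (x * y) ^ k := by
            simp only [mul_assoc]
        _ = (x * y) ^ (-j + k) := by
            rw [hsw, ← mul_assoc, hx, one_mul, ← zpow_add]
  | inv a _ iha =>
    obtain ⟨j, ha | ha⟩ := iha
    · exact ⟨-j, Or.inl (by rw [ha, zpow_neg])⟩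
    · exact ⟨j, Or.inr (by rw [ha, mul_inv_rev, hxi, ← zpow_neg, hsw, neg_neg])⟩

theorem conjA {G : Type*} [Group G] (x y : G) (hx : x * x = 1) (hy : y * y = 1) (k : ℤ) :
    (x * y) ^ k * x * ((x * y) ^ k)⁻¹ = x * (x * y) ^ (-k + -k) := by
  rw [zpow_swap x y hx hy k, ← zpow_neg, mul_assoc, ← zpow_add]

theorem conjB {G : Type*} [Group G] (x y : G) (hx : x * x = 1) (hy : y * y = 1) (k : ℤ) :
    (x * (x * y) ^ k) * x * (x * (x * y) ^ k)⁻¹ = x * (x * y) ^ (k + k) := by
  have hxi : x⁻¹ = x := inv_eq_of_mul_eq_one_right hx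
  rw [mul_inv_rev, hxi, ← zpow_neg]
  calc x * (x * y) ^ k * x * ((x * y) ^ (-k) * x)
      = x * ((x * y) ^ k * x) * ((x * y) ^ (-k) * x) := by simp only [mul_assoc]
    _ = x * (x * (x * y) ^ (-k)) * ((x * y) ^ (-k) * x) := by rw [zpow_swap x y hx hy k]
    _ = (x * x) * ((x * y) ^ (-k) * (x * y) ^ (-k) * x) := by simp only [mul_assoc]
    _ = (x * y) ^ (-k + -k) * x := by rw [hx, one_mul, ← zpow_add]
    _ = x * (x * y) ^ (k + k) := by
        rw [zpow_swap x y hx hy]
        have h : -(-k + -k) = k + k := by ring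
        rw [h]

/-- If x, y are involutions whose product has even order, no element of the subgroup generated by x and y conjugates x to y. -/
theorem result {G : Type*} [Group G] [Finite G] (x y : G) (hx : orderOf x = 2) (hy : orderOf y = 2) (heven : Even (orderOf (x * y))) (d : G) (hd : d ∈ Subgroup.closure ({x, y} : Set G)) : d * x * d⁻¹ ≠ y := by
  have hxx := mul_self_of_orderOf_two hx
  have hyy := mul_self_of_orderOf_two hy
  obtain ⟨m, hm⟩ := heven
  have hyc : y = x * (x * y) := by rw [← mul_assoc, hxx, one_mul]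
  have key : ∀ j : ℤ, x * (x * y) ^ j = y → (2 : ℤ) ∣ (j - 1) := by
    intro j hj
    have h1 : (x * y) ^ j = x * y := by
      apply mul_left_cancel (a := x)
      rw [hj]; exact hyc
    have h2 : (x * y) ^ (j - 1) = 1 := by
      rw [zpow_sub, zpow_one, h1, mul_inv_cancel]
    have h3 : (orderOf (x * y) : ℤ) ∣ (j - 1) := orderOf_dvd_iff_zpow_eq_one.mpr h2
    refine dvd_trans ?_ h3
    rw [hm]; push_cast; exact ⟨m, by ring⟩
  intro hconj
  obtain ⟨k, h | h⟩ := mem_closure_pair x y hxx hyy d hd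
  · rw [h, conjA x y hxx hyy k] at hconj
    have h4 := key _ hconj
    omega
  · rw [h, conjB x y hxx hyy k] at hconj
    have h4 := key _ hconj
    omega

end Cfsg.Agent.S0210
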