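import Mathlib
import Cfsg.Agent.Lib.Helper1.Inv
import Cfsg.Statements.S0216

set_option autoImplicit false
open Cfsg

namespace Cfsg.Agent.S0216

/-- For an involution u in a Sylow 2-subgroup P of a finite group G, the following are equivalent: no G-conjugate of u other than u lies in P; every commutator of u with an element of G has odd order. -/
theorem result {G : Type*} [Group G] [Finite G] (P : Sylow 2 G) (u : G) (hu : orderOf u = 2) (huP : u ∈ P) : (∀ g : G, g * u * g⁻¹ ∈ P → g * u * g⁻¹ = u) ↔ (∀ g : G, Odd (orderOf (u * g * u⁻¹ * g⁻¹))) := by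
  have huu := Lib.Helper1.mul_self_of_orderOf_two hu
  have hui := Lib.Helper1.inv_of_orderOf_two hu
  constructor
  · intro hiso g
    obtain ⟨v, hv⟩ : ∃ v, v = g * u * g⁻¹ := ⟨_, rfl⟩
    have hv2 : orderOf v = 2 := by rw [hv]; exact Lib.Helper1.orderOf_conj_two hu g
    have hvv := Lib.Helper1.mul_self_of_orderOf_two hv2
    have he : u * g * u⁻¹ * g⁻¹ = u * v := by
      rw [hv]
      calc u * g * u⁻¹ * g⁻¹ = u * (g * u⁻¹ * g⁻¹) := by group
        _ = u * (g * u * g⁻¹) := by rw [hui]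
    rw [he]
    by_contra hodd
    rw [Nat.not_odd_iff_even] at hodd
    obtain ⟨k, hk⟩ := hodd
    have hk' : orderOf (u * v) = 2 * k := by omega
    rcases Nat.even_or_odd k with ⟨j, hj⟩ | ⟨j, hj⟩
    · apply Lib.Helper1.isolated_half_false P u hu hiso v hv2 k hk' (u * (u * v) ^ (j : ℤ))
      rw [Lib.Helper1.conjB u v huu hvv (j : ℤ), ← zpow_natCast, hj]
      push_cast
      rfl
    · apply Lib.Helper1.isolated_half_false P u hu hiso v hv2 k hk' ((u * v) ^ (-(j : ℤ)) * g)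
      have h1 : (u * v) ^ (-(j : ℤ)) * g * u * ((u * v) ^ (-(j : ℤ)) * g)⁻¹
          = (u * v) ^ (-(j : ℤ)) * v * ((u * v) ^ (-(j : ℤ)))⁻¹ := by rw [hv]; group
      rw [h1]
      obtain ⟨c, hc⟩ : ∃ c, c = u * v := ⟨_, rfl⟩
      have hsw : ∀ i : ℤ, c ^ i * u = u * c ^ (-i) := by
        intro i; rw [hc]; exact Lib.Helper1.zpow_swap u v huu hvv i
      have hv' : v = u * c := by rw [hc, ← mul_assoc, huu, one_mul]
      rw [← hc, hv']
      calc c ^ (-(j : ℤ)) * (u * c) * (c ^ (-(j : ℤ)))⁻¹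
          = (c ^ (-(j : ℤ)) * u) * c * (c ^ (-(j : ℤ)))⁻¹ := by simp only [mul_assoc]
        _ = u * c ^ (-(-(j : ℤ))) * c * (c ^ (-(j : ℤ)))⁻¹ := by rw [hsw]
        _ = u * (c ^ (j : ℤ) * c ^ (1 : ℤ) * c ^ (j : ℤ)) := by
            rw [neg_neg, ← zpow_neg, neg_neg, zpow_one]; simp only [mul_assoc]
        _ = u * c ^ k := by
            rw [← zpow_add, ← zpow_add, ← zpow_natCast c k, hj]
            congr 2
            push_cast
            ring
  · intro hodd g hg
    have h1 : u * g * u⁻¹ * g⁻¹ ∈ P := by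
      have : u * g * u⁻¹ * g⁻¹ = u * (g * u * g⁻¹) := by
        calc u * g * u⁻¹ * g⁻¹ = u * (g * u⁻¹ * g⁻¹) := by group
          _ = u * (g * u * g⁻¹) := by rw [hui]
      rw [this]
      exact (P : Subgroup G).mul_mem huP hg
    obtain ⟨n, hn⟩ := P.2 ⟨_, h1⟩
    have hn' : (u * g * u⁻¹ * g⁻¹) ^ 2 ^ n = 1 := by simpa using congrArg Subtype.val hn
    have hd := orderOf_dvd_of_pow_eq_one hn'
    have h2 : orderOf (u * g * u⁻¹ * g⁻¹) = 1 := by
      have hco : Nat.Coprime (orderOf (u * g * u⁻¹ * g⁻¹)) (2 ^ n) :=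
        Nat.Coprime.pow_right n (Nat.coprime_two_right.mpr (hodd g))
      exact Nat.Coprime.eq_one_of_dvd hco hd
    rw [orderOf_eq_one_iff] at h2
    calc g * u * g⁻¹ = g * u⁻¹ * g⁻¹ := by rw [hui]
      _ = u⁻¹ * (u * g * u⁻¹ * g⁻¹) := by group
      _ = u⁻¹ := by rw [h2, mul_one]
      _ = u := hui

end Cfsg.Agent.S0216
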