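import Mathlib
import Cfsg.Statements.S0218

set_option autoImplicit false
open Cfsg

namespace Cfsg.Agent.S0218

/-- The generalized quaternion group of order 2^(n+3) contains exactly one element of order 2. -/
theorem result (n : ℕ) : Nat.card {x : QuaternionGroup (2 ^ (n + 1)) // orderOf x = 2} = 1 := by
  have hN : 0 < 2 ^ (n + 1) := by positivity
  have : NeZero (2 ^ (n + 1)) := ⟨hN.ne'⟩
  have : NeZero (2 * 2 ^ (n + 1)) := ⟨by positivity⟩
  have hNne : ((2 ^ (n + 1) : ℕ) : ZMod (2 * 2 ^ (n + 1))) ≠ 0 := by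
    intro h
    rw [ZMod.natCast_eq_zero_iff] at h
    have := Nat.le_of_dvd hN h
    omega
  have h2N : ((2 ^ (n + 1) : ℕ) : ZMod (2 * 2 ^ (n + 1))) + ((2 ^ (n + 1) : ℕ) : ZMod (2 * 2 ^ (n + 1))) = 0 := by
    rw [← Nat.cast_add, ZMod.natCast_eq_zero_iff]
    exact ⟨1, by ring⟩
  have hz : orderOf (QuaternionGroup.a ((2 ^ (n + 1) : ℕ) : ZMod (2 * 2 ^ (n + 1)))) = 2 := by
    apply orderOf_eq_prime
    · rw [sq, QuaternionGroup.a_mul_a, h2N, QuaternionGroup.a_zero]
    · rw [QuaternionGroup.one_def]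
      intro h
      injection h with h
      exact hNne h
  rw [Nat.card_eq_one_iff_exists]
  refine ⟨⟨_, hz⟩, ?_⟩
  rintro ⟨x, hx⟩
  apply Subtype.ext
  show x = _
  cases x with
  | a i =>
    have h1 : (QuaternionGroup.a i) ^ 2 = 1 := by
      have h0 := pow_orderOf_eq_one (QuaternionGroup.a i)
      rwa [hx] at h0
    rw [sq, QuaternionGroup.a_mul_a, QuaternionGroup.one_def] at h1
    injection h1 with h1
    have hi : ((i.val : ℕ) : ZMod (2 * 2 ^ (n + 1))) = i := ZMod.natCast_zmod_val i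
    have hlt : i.val < 2 * 2 ^ (n + 1) := ZMod.val_lt i
    rw [← hi, ← Nat.cast_add, ZMod.natCast_eq_zero_iff] at h1
    obtain ⟨c, hc⟩ := h1
    have hv : i.val = 0 ∨ i.val = 2 ^ (n + 1) := by
      have hc' : i.val = 2 ^ (n + 1) * c := by
        have : 2 * i.val = 2 * (2 ^ (n + 1) * c) := by rw [← mul_assoc, ← hc]; ring
        omega
      have hc2 : c < 2 := by
        by_contra hcon
        have hcon : 2 ≤ c := by omega
        have : 2 ^ (n + 1) * 2 ≤ 2 ^ (n + 1) * c := Nat.mul_le_mul_left _ hcon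
        omega
      interval_cases c
      · left; simpa using hc'
      · right; simpa using hc'
    rcases hv with hv | hv
    · exfalso
      rw [hv] at hi
      rw [← hi, Nat.cast_zero, QuaternionGroup.a_zero, orderOf_one] at hx
      omega
    · rw [← hi, hv]
  | xa i =>
    rw [QuaternionGroup.orderOf_xa] at hx
    omega

end Cfsg.Agent.S0218
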