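import Mathlib
import Cfsg.Agent.Lib.Helper1.Inv
import Cfsg.Statements.S0220

set_option autoImplicit false
open Cfsg

namespace Cfsg.Agent.S0220

/-- If x is an involution of a finite group G and a Sylow 2-subgroup of the centralizer of x is cyclic, then G has a subgroup of index 2; in particular G is not simple unless it has order 2. -/
theorem result {G : Type*} [Group G] [Finite G] (x : G) (hx : orderOf x = 2) (S : Sylow 2 ↥(Subgroup.centralizer ({x} : Set G))) (hS : IsCyclic (S : Subgroup ↥(Subgroup.centralizer ({x} : Set G)))) : ∃ H : Subgroup G, H.index = 2 := by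
  have : Fact (Nat.Prime 2) := ⟨Nat.prime_two⟩
  obtain ⟨C, hC⟩ : ∃ C : Subgroup G, C = Subgroup.centralizer ({x} : Set G) := ⟨_, rfl⟩
  subst hC
  have hxC : x ∈ Subgroup.centralizer ({x} : Set G) := Subgroup.mem_centralizer_singleton_iff.mpr rfl
  obtain ⟨xC, hxCdef⟩ : ∃ xC : Subgroup.centralizer ({x} : Set G), xC = ⟨x, hxC⟩ := ⟨_, rfl⟩
  have hxC2 : orderOf xC = 2 := by rw [hxCdef, Subgroup.orderOf_mk]; exact hx
  have hcomm : ∀ g : Subgroup.centralizer ({x} : Set G), g * xC = xC * g := fun g => by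
    rw [hxCdef]
    exact Subtype.ext (Subgroup.mem_centralizer_singleton_iff.mp g.2)
  have hN : (Subgroup.zpowers xC).Normal := ⟨fun n hn g => by
    obtain ⟨k, rfl⟩ := Subgroup.mem_zpowers_iff.mp hn
    have h0 : g * xC ^ k * g⁻¹ = xC ^ k := by
      have hc : Commute g (xC ^ k) := (show Commute g xC from hcomm g).zpow_right k
      rw [hc.eq, mul_inv_cancel_right]
    rw [h0]
    exact hn⟩
  have hNp : IsPGroup 2 (Subgroup.zpowers xC) :=
    IsPGroup.of_card (n := 1) (by rw [Nat.card_zpowers, hxC2, pow_one])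
  have hxS : xC ∈ S := hNp.le_sylow_of_normal S (Subgroup.mem_zpowers xC)
  obtain ⟨S', hS'⟩ : ∃ S' : Subgroup G,
      S' = (S : Subgroup (Subgroup.centralizer ({x} : Set G))).map (Subgroup.subtype _) := ⟨_, rfl⟩
  have hS'p : IsPGroup 2 S' := by rw [hS']; exact S.2.map _
  obtain ⟨T, hT⟩ := hS'p.exists_le_sylow
  have hxS' : x ∈ S' := by
    rw [hS']
    exact ⟨xC, hxS, by rw [hxCdef]; rfl⟩
  have hS'cyc : IsCyclic S' := by
    rw [hS']
    exact (Subgroup.equivMapOfInjective (S : Subgroup (Subgroup.centralizer ({x} : Set G)))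
      (Subgroup.subtype _) (Subgroup.subtype_injective _)).isCyclic.mp hS
  have hTS : (T : Subgroup G) = S' := by
    by_contra hne
    obtain ⟨n, hnT, hnS, hnorm⟩ :=
      Lib.Helper1.exists_normalizing_not_mem S' T T.2 hT (Ne.symm hne)
    have h1 : n * x * n⁻¹ ∈ S' := hnorm x hxS'
    have h2 : n * x * n⁻¹ = x := by
      have h3 := Lib.Helper1.cyclic_unique_involution (H := S') ⟨n * x * n⁻¹, h1⟩ ⟨x, hxS'⟩
        (by rw [Subgroup.orderOf_mk]; exact Lib.Helper1.orderOf_conj_two hx n)
        (by rw [Subgroup.orderOf_mk]; exact hx)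
      exact congrArg Subtype.val h3
    have hnC : n ∈ Subgroup.centralizer ({x} : Set G) := by
      rw [Subgroup.mem_centralizer_singleton_iff]
      calc n * x = (n * x * n⁻¹) * n := by group
        _ = x * n := by rw [h2]
    have hQ : IsPGroup 2 ((T : Subgroup G).subgroupOf (Subgroup.centralizer ({x} : Set G))) :=
      T.2.comap_subtype
    have hle : (S : Subgroup (Subgroup.centralizer ({x} : Set G))) ≤
        (T : Subgroup G).subgroupOf (Subgroup.centralizer ({x} : Set G)) := by
      intro c hc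
      rw [Subgroup.mem_subgroupOf]
      apply hT
      rw [hS']
      exact ⟨c, hc, rfl⟩
    have heq := S.3 hQ hle
    have h4 : (⟨n, hnC⟩ : Subgroup.centralizer ({x} : Set G)) ∈
        (S : Subgroup (Subgroup.centralizer ({x} : Set G))) := by
      rw [← heq, Subgroup.mem_subgroupOf]
      exact hnT
    apply hnS
    rw [hS']
    exact ⟨⟨n, hnC⟩, h4, rfl⟩
  have hTcyc : IsCyclic (T : Subgroup G) := by rw [hTS]; exact hS'cyc
  have heven : Even (Nat.card G) := by
    rw [even_iff_two_dvd, ← hx]
    exact orderOf_dvd_natCard x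
  exact Lib.Helper1.exists_index_two_of_cyclic_sylow heven T hTcyc

end Cfsg.Agent.S0220
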