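import Mathlib
import Cfsg.Statements.S0226

set_option autoImplicit false
open Cfsg

namespace Cfsg.Agent.S0226

theorem mul_self_of_orderOf_two {G : Type*} [Group G] {a : G} (ha : orderOf a = 2) : a * a = 1 := by
  have h : a ^ 2 = 1 := by rw [← ha]; exact pow_orderOf_eq_one a
  rwa [sq] at h

theorem inv_of_orderOf_two {G : Type*} [Group G] {a : G} (ha : orderOf a = 2) : a⁻¹ = a := by
  rw [inv_eq_iff_mul_eq_one]; exact mul_self_of_orderOf_two ha

theorem orderOf_two_of {G : Type*} [Group G] {a : G} (h1 : a * a = 1) (h2 : a ≠ 1) : orderOf a = 2 := by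
  have h : a ^ 2 = 1 := by rw [sq]; exact h1
  exact orderOf_eq_prime h h2

/-- A finite group of even order has an odd number of involutions. -/
theorem result {G : Type*} [Group G] [Finite G] (heven : Even (Nat.card G)) : Odd (Nat.card {t : G // orderOf t = 2}) := by
  classical
  haveI := Fintype.ofFinite G
  let f : Function.End G := fun g => g⁻¹
  have hf : f ^ 2 ^ 1 = 1 := by
    rw [pow_one, sq]
    funext g
    show (g⁻¹)⁻¹ = g
    exact inv_inv g
  have h := Equiv.Perm.card_fixedPoints_modEq (p := 2) (n := 1) hf
  rw [Fintype.card_eq_nat_card, Fintype.card_eq_nat_card] at h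
  have hfix : Function.fixedPoints f = insert 1 {t : G | orderOf t = 2} := by
    ext g
    simp only [Function.mem_fixedPoints, Function.IsFixedPt, Set.mem_insert_iff, Set.mem_setOf_eq]
    constructor
    · intro hg
      have hg' : g⁻¹ = g := hg
      by_cases h1 : g = 1
      · left; exact h1
      · right
        apply orderOf_two_of _ h1
        calc g * g = g⁻¹ * g := by rw [hg']
          _ = 1 := inv_mul_cancel g
    · rintro (rfl | hg)
      · show (1 : G)⁻¹ = 1
        exact inv_one
      · exact inv_of_orderOf_two hg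
  have h1 : (1 : G) ∉ {t : G | orderOf t = 2} := by
    simp
  have hcard : Nat.card (Function.fixedPoints f) = Nat.card {t : G // orderOf t = 2} + 1 := by
    rw [Nat.card_coe_set_eq, hfix, Set.ncard_insert_of_notMem h1 (Set.toFinite _)]
    rw [← Nat.card_coe_set_eq]
    rfl
  rw [hcard] at h
  have h2 := Nat.even_iff.mp heven
  unfold Nat.ModEq at h
  rw [Nat.odd_iff]
  omega

end Cfsg.Agent.S0226
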