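import Mathlib
import Cfsg.Agent.Lib.Helper1.PermEmb
import Cfsg.Statements.S0228

set_option autoImplicit false
open Cfsg

namespace Cfsg.Agent.S0228

/-- A group of order 12 in which no involution is central is isomorphic to the alternating group on four letters. -/
theorem result {G : Type*} [Group G] [Finite G] (hG : Nat.card G = 12) (hz : ∀ z : G, orderOf z = 2 → z ∉ Subgroup.center G) : Nonempty (G ≃* alternatingGroup (Fin 4)) := by
  classical
  haveI : Fact (Nat.Prime 3) := ⟨by norm_num⟩
  haveI : Fact (Nat.Prime 2) := ⟨Nat.prime_two⟩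
  obtain ⟨P⟩ : Nonempty (Sylow 3 G) := inferInstance
  have hcard3 : ∀ Q : Sylow 3 G, Nat.card (Q : Subgroup G) = 3 := by
    intro Q
    obtain ⟨k, hk⟩ := IsPGroup.iff_card.1 Q.isPGroup'
    have h1 : 3 ^ 1 ∣ Nat.card (Q : Subgroup G) :=
      Q.pow_dvd_card_of_pow_dvd_card (by rw [hG]; norm_num)
    have h2 : Nat.card (Q : Subgroup G) ∣ 12 := hG ▸ Subgroup.card_subgroup_dvd_card _
    rw [hk] at h1 h2 ⊢
    have hk1 : 1 ≤ k := (Nat.pow_dvd_pow_iff_le_right (by norm_num)).1 h1
    have hk2 : k ≤ 1 := by
      by_contra hcon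
      have h9 : 3 ^ 2 ∣ 3 ^ k := pow_dvd_pow 3 (by omega)
      have := h9.trans h2
      norm_num at this
    have : k = 1 := by omega
    rw [this]
    norm_num
  have hidx : ∀ Q : Sylow 3 G, (Q : Subgroup G).index = 4 := by
    intro Q
    have h1 := Subgroup.card_mul_index (Q : Subgroup G)
    rw [hcard3 Q, hG] at h1
    omega
  have hn3 : Nat.card (Sylow 3 G) = 1 ∨ Nat.card (Sylow 3 G) = 4 := by
    have h1 := card_sylow_modEq_one 3 G
    have h2 := P.card_dvd_index
    rw [hidx P] at h2
    have h3 : Nat.card (Sylow 3 G) ≤ 4 := Nat.le_of_dvd (by norm_num) h2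
    have h4 : 0 < Nat.card (Sylow 3 G) := Nat.card_pos
    unfold Nat.ModEq at h1
    interval_cases h : Nat.card (Sylow 3 G) <;> simp_all
  rcases hn3 with hn | hn
  · exfalso
    have hPn : (P : Subgroup G).Normal := by
      have h1 := P.card_eq_index_normalizer
      rw [hn] at h1
      have h2 := Subgroup.index_eq_one.1 h1.symm
      exact Subgroup.normalizer_eq_top_iff.1 h2
    obtain ⟨S⟩ : Nonempty (Sylow 2 G) := inferInstance
    have hcardS : Nat.card (S : Subgroup G) = 4 := by
      obtain ⟨k, hk⟩ := IsPGroup.iff_card.1 S.isPGroup'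
      have h1 : 2 ^ 2 ∣ Nat.card (S : Subgroup G) :=
        S.pow_dvd_card_of_pow_dvd_card (by rw [hG]; norm_num)
      have h2 : Nat.card (S : Subgroup G) ∣ 12 := hG ▸ Subgroup.card_subgroup_dvd_card _
      rw [hk] at h1 h2 ⊢
      have hk1 : 2 ≤ k := (Nat.pow_dvd_pow_iff_le_right (by norm_num)).1 h1
      have hk2 : k ≤ 2 := by
        by_contra hcon
        have h9 : 2 ^ 3 ∣ 2 ^ k := pow_dvd_pow 2 (by omega)
        have := h9.trans h2
        norm_num at this
      have : k = 2 := by omega
      rw [this]
      norm_num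
    have hSab : ∀ a ∈ (S : Subgroup G), ∀ b ∈ (S : Subgroup G), a * b = b * a := by
      intro a ha b hb
      have h1 : Nat.card (S : Subgroup G) = 2 ^ 2 := by rw [hcardS]; norm_num
      have h2 := (IsPGroup.isMulCommutative_of_card_eq_prime_sq h1).is_comm.comm ⟨a, ha⟩ ⟨b, hb⟩
      exact congrArg Subtype.val h2
    obtain ⟨x₀, hx₀⟩ := exists_prime_orderOf_dvd_card' (G := (P : Subgroup G)) 3
      (by rw [hcard3 P])
    have hxo' : orderOf (x₀ : G) = 3 := by
      rw [Subgroup.orderOf_coe]
      exact hx₀
    obtain ⟨x, hxP, hxo⟩ : ∃ x : G, x ∈ (P : Subgroup G) ∧ orderOf x = 3 := ⟨x₀, x₀.2, hxo'⟩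
    clear hxo' hx₀ x₀
    have hPx : (P : Subgroup G) = Subgroup.zpowers x := by
      symm
      apply Subgroup.eq_of_le_of_card_ge ((Subgroup.zpowers_le).2 hxP)
      rw [Nat.card_zpowers, hxo, hcard3 P]
    have hconj : ∀ s : G, s * x * s⁻¹ = x ∨ s * x * s⁻¹ = x⁻¹ := by
      intro s
      have h1 : s * x * s⁻¹ ∈ (P : Subgroup G) := hPn.conj_mem _ hxP s
      rw [hPx] at h1
      obtain ⟨k, hk⟩ := Subgroup.mem_zpowers_iff.1 h1
      have h3 : x ^ (3 : ℤ) = 1 := by
        have := pow_orderOf_eq_one x
        rw [hxo] at this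
        exact_mod_cast this
      have hk3 : k % 3 = 0 ∨ k % 3 = 1 ∨ k % 3 = 2 := by omega
      have hkd : x ^ k = x ^ (k % 3) := by
        conv_lhs => rw [← Int.emod_add_mul_ediv k 3]
        rw [zpow_add, zpow_mul, h3, one_zpow, mul_one]
      rw [← hk, hkd]
      rcases hk3 with h | h | h
      · exfalso
        rw [h, zpow_zero] at hkd
        rw [hkd] at hk
        have h4 : x = 1 := by
          have e : x = s⁻¹ * (s * x * s⁻¹) * s := by group
          rw [e, ← hk]
          group
        rw [h4, orderOf_one] at hxo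
        omega
      · left
        rw [h, zpow_one]
      · right
        rw [h]
        have h5 : x ^ (2 : ℤ) * x = 1 := by
          rw [← zpow_add_one]
          exact h3
        exact eq_inv_of_mul_eq_one_left h5
    have hex : ∃ z ∈ (S : Subgroup G), z ≠ 1 ∧ z * x = x * z := by
      by_contra hcon
      simp only [not_exists, not_and] at hcon
      have hinv : ∀ s ∈ (S : Subgroup G), s ≠ 1 → s * x * s⁻¹ = x⁻¹ := by
        intro s hs hs1
        rcases hconj s with h | h
        · exfalso
          apply hcon s hs hs1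
          exact mul_inv_eq_iff_eq_mul.1 h
        · exact h
      haveI : Nontrivial (S : Subgroup G) := by
        rw [← Finite.one_lt_card_iff_nontrivial, hcardS]
        norm_num
      obtain ⟨s, hs1⟩ := exists_ne (1 : (S : Subgroup G))
      have hthree : ∃ t : (S : Subgroup G), t ≠ 1 ∧ t ≠ s := by
        by_contra hc
        simp only [not_exists, not_and, not_not] at hc
        have hle : Nat.card (S : Subgroup G) ≤ 2 := by
          have hsub : (Set.univ : Set (S : Subgroup G)) ⊆ {1, s} := by
            intro t _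
            by_cases ht : t = 1
            · exact Or.inl ht
            · exact Or.inr (hc t ht)
          have := Set.ncard_le_ncard hsub (Set.toFinite _)
          rw [Set.ncard_univ] at this
          exact this.trans (Set.ncard_insert_le _ _ |>.trans (by simp))
        omega
      obtain ⟨t, ht1, hts⟩ := hthree
      have hs1' : (s : G) ≠ 1 := fun h => hs1 (Subtype.ext h)
      have ht1' : (t : G)⁻¹ ≠ 1 := fun h => ht1 (Subtype.ext (inv_eq_one.1 h))
      have h1 := hinv (s : G) s.2 hs1'
      have h2 := hinv (t : G)⁻¹ (inv_mem t.2) ht1'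
      have hst : (s : G) * (t : G)⁻¹ ≠ 1 := by
        intro h
        apply hts
        apply Subtype.ext
        exact (mul_inv_eq_one.1 h).symm
      apply hcon ((s : G) * (t : G)⁻¹) (mul_mem s.2 (inv_mem t.2)) hst
      have e : (s : G) * (t : G)⁻¹ * x = (s : G) * ((t : G)⁻¹ * x * (t : G)⁻¹⁻¹) * (t : G)⁻¹ := by
        group
      rw [e, h2]
      have e2 : (s : G) * x⁻¹ * (t : G)⁻¹ = ((s : G) * x * (s : G)⁻¹)⁻¹ * ((s : G) * (t : G)⁻¹) := by
        group
      rw [e2, h1, inv_inv]
    obtain ⟨z, hzS, hz1, hzx⟩ := hex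
    have hzcentP : (P : Subgroup G) ≤ Subgroup.centralizer {z} := by
      rw [hPx, Subgroup.zpowers_le, Subgroup.mem_centralizer_singleton_iff]
      exact hzx.symm
    have hzcentS : (S : Subgroup G) ≤ Subgroup.centralizer {z} := by
      intro s hs
      rw [Subgroup.mem_centralizer_singleton_iff]
      exact hSab s hs z hzS
    have htop : Subgroup.centralizer {z} = ⊤ := by
      apply Subgroup.eq_top_of_card_eq
      have h3 : 3 ∣ Nat.card (Subgroup.centralizer {z}) := by
        rw [← hcard3 P]
        exact Subgroup.card_dvd_of_le hzcentP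
      have h4 : 4 ∣ Nat.card (Subgroup.centralizer {z}) := by
        rw [← hcardS]
        exact Subgroup.card_dvd_of_le hzcentS
      have h12 : Nat.card (Subgroup.centralizer {z}) ∣ 12 := by
        rw [← hG]
        exact Subgroup.card_subgroup_dvd_card _
      have hle := Nat.le_of_dvd (by norm_num) h12
      have hpos : 0 < Nat.card (Subgroup.centralizer {z}) := Nat.card_pos
      rw [hG]
      obtain ⟨a, ha⟩ := h3
      obtain ⟨b, hb⟩ := h4
      omega
    have hzo : ∃ z' : G, orderOf z' = 2 ∧ z' ∈ Subgroup.zpowers z := by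
      have ho : orderOf z ∣ 4 := by
        have := Subgroup.orderOf_dvd_natCard (S : Subgroup G) hzS
        rw [hcardS] at this
        exact this
      have hne1 : orderOf z ≠ 1 := fun h => hz1 (orderOf_eq_one_iff.1 h)
      have h24 : orderOf z = 2 ∨ orderOf z = 4 := by
        have ho' : orderOf z ∣ 2 ^ 2 := by
          norm_num
          exact ho
        obtain ⟨m, hm, hm'⟩ := (Nat.dvd_prime_pow Nat.prime_two).1 ho'
        have hm3 : m = 0 ∨ m = 1 ∨ m = 2 := by omega
        rcases hm3 with h | h | h
        · rw [h, pow_zero] at hm'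
          exact absurd hm' hne1
        · left
          rw [hm', h, pow_one]
        · right
          rw [hm', h]
          norm_num
      rcases h24 with h | h
      · exact ⟨z, h, Subgroup.mem_zpowers z⟩
      · refine ⟨z ^ 2, ?_, Subgroup.pow_mem _ (Subgroup.mem_zpowers z) _⟩
        rw [orderOf_pow, h]
        norm_num
    obtain ⟨z', hz'o, hz'm⟩ := hzo
    apply hz z' hz'o
    rw [Subgroup.mem_center_iff]
    intro g
    have hg : g ∈ Subgroup.centralizer {z} := by
      rw [htop]
      exact Subgroup.mem_top g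
    rw [Subgroup.mem_centralizer_singleton_iff] at hg
    obtain ⟨k, rfl⟩ := Subgroup.mem_zpowers_iff.1 hz'm
    have hc : Commute g z := hg
    exact (hc.zpow_right k).eq
  · haveI : Finite (Sylow 3 G) := inferInstance
    apply Cfsg.Agent.Lib.Helper1.PermEmb.iso_alt_of_embedding 4 hn
      (MulAction.toPermHom G (Sylow 3 G)) _ (by rw [hG]; decide)
    rw [injective_iff_map_eq_one]
    intro g hg
    have hfix : ∀ Q : Sylow 3 G, g • Q = Q := by
      intro Q
      have := congrArg (fun σ : Equiv.Perm (Sylow 3 G) => σ Q) hg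
      simpa using this
    have hnorm : ∀ Q : Sylow 3 G, g ∈ (Q : Subgroup G) := by
      intro Q
      have h1 : g ∈ Subgroup.normalizer ((Q : Subgroup G) : Set G) :=
        Sylow.smul_eq_iff_mem_normalizer.1 (hfix Q)
      have h2 : (Q : Subgroup G) = Subgroup.normalizer ((Q : Subgroup G) : Set G) := by
        apply Subgroup.eq_of_le_of_card_ge Subgroup.le_normalizer
        have h3 := Q.card_eq_index_normalizer
        rw [hn] at h3
        have h3' : (Subgroup.normalizer ((Q : Subgroup G) : Set G)).index = 4 := h3.symm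
        have h4 := Subgroup.card_mul_index (Subgroup.normalizer ((Q : Subgroup G) : Set G))
        rw [h3', hG] at h4
        rw [hcard3 Q]
        omega
      rw [h2]
      exact h1
    by_contra hg1
    haveI : Nontrivial (Sylow 3 G) := by
      rw [← Finite.one_lt_card_iff_nontrivial, hn]
      norm_num
    obtain ⟨Q₁, Q₂, hne⟩ := exists_pair_ne (Sylow 3 G)
    apply hne
    have hgo : orderOf g = 3 := by
      have h1 := Subgroup.orderOf_dvd_natCard (Q₁ : Subgroup G) (hnorm Q₁)
      rw [hcard3 Q₁] at h1
      rcases (Nat.dvd_prime (by norm_num : Nat.Prime 3)).1 h1 with h | h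
      · exact absurd (orderOf_eq_one_iff.1 h) hg1
      · exact h
    have hz : ∀ Q : Sylow 3 G, (Q : Subgroup G) = Subgroup.zpowers g := by
      intro Q
      symm
      apply Subgroup.eq_of_le_of_card_ge ((Subgroup.zpowers_le).2 (hnorm Q))
      rw [Nat.card_zpowers, hgo, hcard3 Q]
    exact Sylow.ext ((hz Q₁).trans (hz Q₂).symm)

end Cfsg.Agent.S0228
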