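import Mathlib
import Cfsg.Agent.Lib.Helper1.Inv
import Cfsg.Statements.S0229

set_option autoImplicit false
open Cfsg

namespace Cfsg.Agent.S0229

/-- Let t be an involution of a Sylow 2-subgroup S of a finite group G, conjugate in G to no other element of S, and let s be an involution of G not conjugate to t. Then the order of st is twice an odd number. -/
theorem result {G : Type*} [Group G] [Finite G] (S : Sylow 2 G) (t : G) (ht : orderOf t = 2) (htS : t ∈ S) (hiso : ∀ g : G, g * t * g⁻¹ ∈ S → g * t * g⁻¹ = t) (s : G) (hs : orderOf s = 2) (hns : ¬ IsConj s t) : orderOf (s * t) % 4 = 2 := by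
  have htt := Lib.Helper1.mul_self_of_orderOf_two ht
  have hss := Lib.Helper1.mul_self_of_orderOf_two hs
  rw [Lib.Helper1.orderOf_mul_swap s t]
  rcases Nat.even_or_odd (orderOf (t * s)) with ⟨k, hk⟩ | hodd
  · have hk' : orderOf (t * s) = 2 * k := by omega
    rcases Nat.even_or_odd k with ⟨j, hj⟩ | ⟨j, hj⟩
    · exfalso
      apply Lib.Helper1.isolated_half_false S t ht hiso s hs k hk' (t * (t * s) ^ (j : ℤ))
      rw [Lib.Helper1.conjB t s htt hss (j : ℤ), ← zpow_natCast, hj]
      push_cast
      rfl
    · omega
  · exfalso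
    apply hns
    exact (Lib.Helper1.isConj_of_odd_orderOf_mul t s ht hs hodd).symm

end Cfsg.Agent.S0229
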