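import Mathlib
import Cfsg.Agent.Lib.Helper1.Inv
import Cfsg.Statements.S0230

set_option autoImplicit false
open Cfsg

namespace Cfsg.Agent.S0230

/-- Let G be a finite group with two non-conjugate involutions, and let t be an involution whose centralizer has maximal order among centralizers of involutions. Then |G| < |C_G(t)|^3. -/
theorem result {G : Type*} [Group G] [Finite G] (s t : G) (hs : orderOf s = 2) (ht : orderOf t = 2) (hnc : ¬ IsConj s t) (hmax : ∀ u : G, orderOf u = 2 → Nat.card (Subgroup.centralizer ({u} : Set G)) ≤ Nat.card (Subgroup.centralizer ({t} : Set G))) : Nat.card G < Nat.card (Subgroup.centralizer ({t} : Set G)) ^ 3 := by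
  classical
  have := Fintype.ofFinite G
  have hcardH : ∀ H : Subgroup G, Nat.card H = (Finset.univ.filter (fun u : G => u ∈ H)).card := by
    intro H
    rw [Nat.card_eq_fintype_card, Fintype.card_subtype]
  have hcl := Lib.Helper1.card_eq_card_conj_mul_card_centralizer t
  have hA : Nat.card {u : G // IsConj t u} = (Finset.univ.filter (fun u : G => IsConj t u)).card := by
    rw [Nat.card_eq_fintype_card, Fintype.card_subtype]
  obtain ⟨c, hc⟩ : ∃ c, c = Nat.card (Subgroup.centralizer ({t} : Set G)) := ⟨_, rfl⟩
  rw [← hc] at hcl ⊢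
  obtain ⟨Z, hZ⟩ : ∃ Z : Finset G, Z = Finset.univ.filter
      (fun z : G => orderOf z = 2 ∧ z ∈ Subgroup.centralizer ({s} : Set G)) := ⟨_, rfl⟩
  have hsub : Finset.univ.filter (fun u : G => IsConj t u) ⊆ Z.biUnion
      (fun z => Finset.univ.filter (fun u : G => u ∈ Subgroup.centralizer ({z} : Set G))) := by
    intro u hu
    rw [Finset.mem_filter] at hu
    have hu2 : orderOf u = 2 := by
      obtain ⟨g, hg⟩ := isConj_iff.mp hu.2
      rw [← hg]
      exact Lib.Helper1.orderOf_conj_two ht g
    have hnsu : ¬ IsConj s u := fun h => hnc (h.trans hu.2.symm)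
    obtain ⟨z, hz2, hsz, huz, -⟩ :=
      Lib.Helper1.exists_central_involution_of_not_conj s u hs hu2 hnsu
    rw [Finset.mem_biUnion]
    refine ⟨z, ?_, ?_⟩
    · rw [hZ, Finset.mem_filter]
      exact ⟨Finset.mem_univ _, hz2, Subgroup.mem_centralizer_singleton_iff.mpr hsz.symm⟩
    · rw [Finset.mem_filter]
      exact ⟨Finset.mem_univ _, Subgroup.mem_centralizer_singleton_iff.mpr huz⟩
  have h1 := Finset.card_le_card hsub
  have h2 : (Z.biUnion (fun z => Finset.univ.filter
      (fun u : G => u ∈ Subgroup.centralizer ({z} : Set G)))).card ≤ Z.card * c := by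
    refine (Finset.card_biUnion_le).trans ?_
    rw [← smul_eq_mul]
    apply Finset.sum_le_card_nsmul
    intro z hz
    rw [hZ, Finset.mem_filter] at hz
    rw [← hcardH, hc]
    exact hmax z hz.2.1
  have h3 : Z.card + 1 ≤ c := by
    have h4 : Z ⊆ (Finset.univ.filter
        (fun u : G => u ∈ Subgroup.centralizer ({s} : Set G))).erase 1 := by
      intro z hz
      rw [hZ, Finset.mem_filter] at hz
      rw [Finset.mem_erase, Finset.mem_filter]
      exact ⟨Lib.Helper1.ne_one_of_orderOf_two hz.2.1, Finset.mem_univ _, hz.2.2⟩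
    have h5 := Finset.card_le_card h4
    rw [Finset.card_erase_of_mem (by simp), ← hcardH] at h5
    have h6 := hmax s hs
    have h7 : 0 < Nat.card (Subgroup.centralizer ({s} : Set G)) := Nat.card_pos
    omega
  rw [hA] at hcl
  have h8 : (Finset.univ.filter (fun u : G => IsConj t u)).card ≤ Z.card * c := h1.trans h2
  have h9 : Z.card < c := by omega
  have hcpos : 0 < c := by omega
  calc Nat.card G = (Finset.univ.filter (fun u : G => IsConj t u)).card * c := hcl
    _ ≤ (Z.card * c) * c := Nat.mul_le_mul_right c h8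
    _ < c * c * c :=
        Nat.mul_lt_mul_of_pos_right (Nat.mul_lt_mul_of_pos_right h9 hcpos) hcpos
    _ = c ^ 3 := by ring

end Cfsg.Agent.S0230
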