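import Mathlib
import Cfsg.Agent.Lib.Helper1.Inv
import Cfsg.Statements.S0231

set_option autoImplicit false
open scoped Pointwise
open Cfsg

namespace Cfsg.Agent.S0231

theorem ti_unique {G : Type*} [Group G] [Finite G] (T : Sylow 2 G)
    (hTI : ∀ g : G, MulAut.conj g • (T : Subgroup G) ≠ T → MulAut.conj g • (T : Subgroup G) ⊓ T = ⊥)
    (P Q : Sylow 2 G) (s : G) (hs1 : s ≠ 1) (hP : s ∈ P) (hQ : s ∈ Q) : P = Q := by
  obtain ⟨a, rfl⟩ := MulAction.exists_smul_eq G T P
  obtain ⟨b, rfl⟩ := MulAction.exists_smul_eq G T Q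
  rw [Lib.Helper1.mem_sylow_smul_iff] at hP hQ
  by_contra hne
  have h1 : MulAut.conj (a⁻¹ * b) • (T : Subgroup G) ≠ T := by
    intro h
    apply hne
    have h2 : (a⁻¹ * b) • T = T := Sylow.ext h
    calc a • T = a • ((a⁻¹ * b) • T) := by rw [h2]
      _ = b • T := by rw [smul_smul, mul_inv_cancel_left]
  have h3 := hTI _ h1
  have h4 : a⁻¹ * s * a ∈ MulAut.conj (a⁻¹ * b) • (T : Subgroup G) ⊓ T := by
    refine ⟨?_, hP⟩
    have := (Lib.Helper1.mem_sylow_smul_iff T (a⁻¹ * b) (a⁻¹ * s * a)).mpr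
      (by convert hQ using 1; group)
    exact this
  rw [h3, Subgroup.mem_bot] at h4
  apply hs1
  have : s = a * (a⁻¹ * s * a) * a⁻¹ := by group
  rw [this, h4]
  group

theorem sylow_of_commuting {G : Type*} [Group G] [Finite G] (u w : G) (hu : u * u = 1)
    (hw : w * w = 1) (hc : u * w = w * u) : ∃ Q : Sylow 2 G, u ∈ Q ∧ w ∈ Q := by
  obtain ⟨Q, hQ⟩ := (Lib.Helper1.isPGroup_closure_pair_comm u w hu hw hc).exists_le_sylow
  exact ⟨Q, hQ (Subgroup.subset_closure (by simp)), hQ (Subgroup.subset_closure (by simp))⟩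

theorem ti_same_sylow {G : Type*} [Group G] [Finite G] (T : Sylow 2 G)
    (hTI : ∀ g : G, MulAut.conj g • (T : Subgroup G) ≠ T → MulAut.conj g • (T : Subgroup G) ⊓ T = ⊥)
    (s t : G) (hs : orderOf s = 2) (ht : orderOf t = 2) (hns : ¬ IsConj s t) (Q : Sylow 2 G)
    (hsQ : s ∈ Q) : t ∈ Q := by
  have hss := Lib.Helper1.mul_self_of_orderOf_two hs
  have htt := Lib.Helper1.mul_self_of_orderOf_two ht
  have heven : Even (orderOf (s * t)) := by
    by_contra h
    rw [Nat.not_even_iff_odd] at h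
    exact hns (Lib.Helper1.isConj_of_odd_orderOf_mul s t hs ht h)
  obtain ⟨k, hk⟩ := heven
  have hkpos : 0 < k := by
    have := orderOf_pos (s * t)
    omega
  obtain ⟨z, hz⟩ : ∃ z, z = (s * t) ^ k := ⟨_, rfl⟩
  have hz2 : z * z = 1 := by rw [hz, ← pow_add, ← hk]; exact pow_orderOf_eq_one _
  have hz1 : z ≠ 1 := by
    intro h
    rw [hz] at h
    have hdvd := orderOf_dvd_of_pow_eq_one h
    have := Nat.le_of_dvd hkpos hdvd
    omega
  have hzi : z⁻¹ = z := inv_eq_of_mul_eq_one_right hz2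
  have hsz : s * z = z * s := by
    have h := Lib.Helper1.conj_zpow_prod s t hss htt (k : ℤ)
    rw [zpow_natCast, ← hz, hzi] at h
    calc s * z = s * z * (s * s) := by rw [hss, mul_one]
      _ = (s * z * s) * s := by simp only [mul_assoc]
      _ = z * s := by rw [h]
  have htz : t * z = z * t := by
    have hz' : z = (t * s) ^ (-(k : ℤ)) := by
      rw [hz, zpow_neg, ← inv_zpow, mul_inv_rev, Lib.Helper1.inv_of_orderOf_two ht,
        Lib.Helper1.inv_of_orderOf_two hs, zpow_natCast]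
    have h := Lib.Helper1.conj_zpow_prod t s htt hss (-(k : ℤ))
    rw [← hz', hzi] at h
    calc t * z = t * z * (t * t) := by rw [htt, mul_one]
      _ = (t * z * t) * t := by simp only [mul_assoc]
      _ = z * t := by rw [h]
  obtain ⟨Q1, h1s, h1z⟩ := sylow_of_commuting s z hss hz2 hsz
  obtain ⟨Q2, h2t, h2z⟩ := sylow_of_commuting t z htt hz2 htz
  have e1 : Q1 = Q := ti_unique T hTI Q1 Q s (Lib.Helper1.ne_one_of_orderOf_two hs) h1s hsQ
  have e2 : Q2 = Q1 := ti_unique T hTI Q2 Q1 z hz1 h2z h1z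
  rw [← e1, ← e2]
  exact h2t

/-- Let T be a Sylow 2-subgroup of the finite group G which is not normal and which intersects every other Sylow 2-subgroup trivially. Then G has a single conjugacy class of involutions. -/
theorem result {G : Type*} [Group G] [Finite G] (T : Sylow 2 G) (hnn : ¬ (T : Subgroup G).Normal) (hTI : ∀ g : G, MulAut.conj g • (T : Subgroup G) ≠ T → MulAut.conj g • (T : Subgroup G) ⊓ T = ⊥) (s t : G) (hs : orderOf s = 2) (ht : orderOf t = 2) : IsConj s t := by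
  by_contra hns
  have hss := Lib.Helper1.mul_self_of_orderOf_two hs
  obtain ⟨Q, hsQ, -⟩ := sylow_of_commuting s s hss hss rfl
  have htQ := ti_same_sylow T hTI s t hs ht hns Q hsQ
  obtain ⟨a, rfl⟩ := MulAction.exists_smul_eq G T Q
  have hex : ∃ g : G, g • T ≠ T := by
    by_contra hall
    apply hnn
    constructor
    intro n hn g
    have h1 : g • T = T := by
      by_contra h
      exact hall ⟨g, h⟩
    have h2 : g * n * g⁻¹ ∈ g • T := by
      rw [Lib.Helper1.mem_sylow_smul_iff]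
      have h0 : g⁻¹ * (g * n * g⁻¹) * g = n := by group
      rw [h0]
      exact hn
    rw [h1] at h2
    exact h2
  obtain ⟨g, hg⟩ := hex
  obtain ⟨r, hr⟩ : ∃ r, r = (a * g * a⁻¹) * s * (a * g * a⁻¹)⁻¹ := ⟨_, rfl⟩
  have hr2 : orderOf r = 2 := by rw [hr]; exact Lib.Helper1.orderOf_conj_two hs _
  have hrQ' : r ∈ (a * g) • T := by
    rw [Lib.Helper1.mem_sylow_smul_iff]
    rw [Lib.Helper1.mem_sylow_smul_iff] at hsQ
    convert hsQ using 1
    rw [hr]
    group
  have hsr : IsConj s r := isConj_iff.mpr ⟨_, hr.symm⟩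
  by_cases hrt : IsConj r t
  · exact hns (hsr.trans hrt)
  · have htQ' := ti_same_sylow T hTI r t hr2 ht hrt _ hrQ'
    have h3 := ti_unique T hTI (a • T) ((a * g) • T) t (Lib.Helper1.ne_one_of_orderOf_two ht) htQ htQ'
    apply hg
    rw [mul_smul] at h3
    exact (smul_left_cancel a h3).symm

end Cfsg.Agent.S0231
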