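import Mathlib
import Cfsg.Statements.S0235

set_option autoImplicit false
open Cfsg

namespace Cfsg.Agent.S0235

theorem mul_self_of_orderOf_two {G : Type*} [Group G] {a : G} (ha : orderOf a = 2) : a * a = 1 := by
  have h : a ^ 2 = 1 := by rw [← ha]; exact pow_orderOf_eq_one a
  rwa [sq] at h

theorem inv_of_orderOf_two {G : Type*} [Group G] {a : G} (ha : orderOf a = 2) : a⁻¹ = a := by
  rw [inv_eq_iff_mul_eq_one]; exact mul_self_of_orderOf_two ha

theorem orderOf_two_of {G : Type*} [Group G] {a : G} (h1 : a * a = 1) (h2 : a ≠ 1) : orderOf a = 2 := by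
  have h : a ^ 2 = 1 := by rw [sq]; exact h1
  exact orderOf_eq_prime h h2

/-- If x² ≠ 1, the ordered pairs (u, v) of involutions with uv = x correspond bijectively to the involutions t with t x t⁻¹ = x⁻¹ (via (u, v) ↦ u), so the two counts agree. -/
theorem result {G : Type*} [Group G] [Finite G] (x : G) (hx : x ^ 2 ≠ 1) : Nat.card {p : G × G // orderOf p.1 = 2 ∧ orderOf p.2 = 2 ∧ p.1 * p.2 = x} = Nat.card {t : G // orderOf t = 2 ∧ t * x * t⁻¹ = x⁻¹} := by
  apply Nat.card_congr
  refine
    { toFun := fun p => ⟨p.1.1, p.2.1, ?_⟩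
      invFun := fun t => ⟨(t.1, t.1 * x), t.2.1, ?_, ?_⟩
      left_inv := ?_
      right_inv := ?_ }
  · obtain ⟨⟨u, v⟩, hu, hv, huv⟩ := p
    simp only at hu hv huv ⊢
    have huu : u * u = 1 := mul_self_of_orderOf_two hu
    have hui : u⁻¹ = u := inv_of_orderOf_two hu
    have hvi : v⁻¹ = v := inv_of_orderOf_two hv
    subst huv
    rw [mul_inv_rev, hui, hvi, ← mul_assoc, huu, one_mul]
  · obtain ⟨t, ht, htx⟩ := t
    simp only
    have htt : t * t = 1 := mul_self_of_orderOf_two ht
    have hti : t⁻¹ = t := inv_of_orderOf_two ht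
    have h1 : (t * x) * (t * x) = 1 := by
      calc t * x * (t * x) = (t * x * t⁻¹) * x := by rw [hti]; group
        _ = 1 := by rw [htx]; group
    have h2 : t * x ≠ 1 := by
      intro h
      have h3 : x = t := by
        calc x = t⁻¹ * (t * x) := by group
          _ = t := by rw [h, mul_one, hti]
      apply hx; rw [h3, sq, htt]
    exact orderOf_two_of h1 h2
  · obtain ⟨t, ht, htx⟩ := t
    simp only
    have htt : t * t = 1 := mul_self_of_orderOf_two ht
    rw [← mul_assoc, htt, one_mul]
  · rintro ⟨⟨u, v⟩, hu, hv, huv⟩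
    simp only at hu hv huv ⊢
    have huu : u * u = 1 := mul_self_of_orderOf_two hu
    apply Subtype.ext
    simp only
    rw [← huv, ← mul_assoc, huu, one_mul]
  · rintro ⟨t, ht, htx⟩; rfl

end Cfsg.Agent.S0235
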