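import Mathlib
import Cfsg.Statements.S0236

set_option autoImplicit false
open Cfsg

namespace Cfsg.Agent.S0236

theorem mul_self_of_orderOf_two {G : Type*} [Group G] {a : G} (ha : orderOf a = 2) : a * a = 1 := by
  have h : a ^ 2 = 1 := by rw [← ha]; exact pow_orderOf_eq_one a
  rwa [sq] at h

theorem inv_of_orderOf_two {G : Type*} [Group G] {a : G} (ha : orderOf a = 2) : a⁻¹ = a := by
  rw [inv_eq_iff_mul_eq_one]; exact mul_self_of_orderOf_two ha

theorem orderOf_two_of {G : Type*} [Group G] {a : G} (h1 : a * a = 1) (h2 : a ≠ 1) : orderOf a = 2 := by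
  have h : a ^ 2 = 1 := by rw [sq]; exact h1
  exact orderOf_eq_prime h h2

/-- If x is an involution, the number of ordered pairs (u, v) of involutions with uv = x, plus one, equals the number of involutions in the centralizer of x. -/
theorem result {G : Type*} [Group G] [Finite G] (x : G) (hx : orderOf x = 2) : Nat.card {p : G × G // orderOf p.1 = 2 ∧ orderOf p.2 = 2 ∧ p.1 * p.2 = x} + 1 = Nat.card {t : G // orderOf t = 2 ∧ Commute t x} := by
  have hxx : x * x = 1 := mul_self_of_orderOf_two hx
  have hxi : x⁻¹ = x := inv_of_orderOf_two hx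
  have hx1 : x ≠ 1 := by
    intro h; rw [h, orderOf_one] at hx; exact absurd hx (by decide)
  let A : Set G := {t | orderOf t = 2 ∧ Commute t x}
  have hxA : x ∈ A := ⟨hx, Commute.refl x⟩
  have e : {p : G × G // orderOf p.1 = 2 ∧ orderOf p.2 = 2 ∧ p.1 * p.2 = x} ≃ ↥(A \ {x}) := by
    refine
      { toFun := fun p => ⟨p.1.1, ⟨p.2.1, ?_⟩, ?_⟩
        invFun := fun t => ⟨(t.1, t.1 * x), t.2.1.1, ?_, ?_⟩
        left_inv := ?_
        right_inv := ?_ }
    · obtain ⟨⟨u, v⟩, hu, hv, huv⟩ := p
      simp only at hu hv huv ⊢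
      have huu : u * u = 1 := mul_self_of_orderOf_two hu
      have hui : u⁻¹ = u := inv_of_orderOf_two hu
      have hvi : v⁻¹ = v := inv_of_orderOf_two hv
      have h1 : u * x * u⁻¹ = x⁻¹ := by
        subst huv
        rw [mul_inv_rev, hui, hvi, ← mul_assoc, huu, one_mul]
      rw [hxi] at h1
      show u * x = x * u
      calc u * x = u * x * u⁻¹ * u := by group
        _ = x * u := by rw [h1]
    · obtain ⟨⟨u, v⟩, hu, hv, huv⟩ := p
      simp only at hu hv huv ⊢
      rw [Set.mem_singleton_iff]
      intro h
      have hv1 : v = 1 := by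
        have h2 : u * v = u * 1 := by rw [huv, mul_one, h]
        exact mul_left_cancel h2
      rw [hv1, orderOf_one] at hv; exact absurd hv (by decide)
    · obtain ⟨t, ⟨ht, htx⟩, htne⟩ := t
      simp only
      have htt : t * t = 1 := mul_self_of_orderOf_two ht
      have hti : t⁻¹ = t := inv_of_orderOf_two ht
      have h1 : (t * x) * (t * x) = 1 := by
        calc t * x * (t * x) = t * (x * t) * x := by group
          _ = t * (t * x) * x := by rw [htx.eq]
          _ = (t * t) * (x * x) := by group
          _ = 1 := by rw [htt, hxx, one_mul]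
      have h2 : t * x ≠ 1 := by
        intro h
        apply htne
        rw [Set.mem_singleton_iff]
        calc t = t * (x * x) := by rw [hxx, mul_one]
          _ = (t * x) * x := by group
          _ = x := by rw [h, one_mul]
      exact orderOf_two_of h1 h2
    · obtain ⟨t, ⟨ht, htx⟩, htne⟩ := t
      simp only
      have htt : t * t = 1 := mul_self_of_orderOf_two ht
      rw [← mul_assoc, htt, one_mul]
    · rintro ⟨⟨u, v⟩, hu, hv, huv⟩
      simp only at hu hv huv ⊢
      have huu : u * u = 1 := mul_self_of_orderOf_two hu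
      apply Subtype.ext
      simp only
      rw [← huv, ← mul_assoc, huu, one_mul]
    · rintro ⟨t, ⟨ht, htx⟩, htne⟩; rfl
  rw [Nat.card_congr e, Nat.card_coe_set_eq, Set.ncard_sdiff_singleton_add_one hxA (Set.toFinite A)]
  exact (Nat.card_coe_set_eq A).symm

end Cfsg.Agent.S0236
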