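import Mathlib
import Cfsg.Statements.S0237

set_option autoImplicit false
open Cfsg

namespace Cfsg.Agent.S0237

/-- If x is real (conjugate to x⁻¹) in a finite group G, the number of g with g x g⁻¹ = x⁻¹ equals |C_G(x)|. -/
theorem result {G : Type*} [Group G] [Finite G] (x : G) (hreal : IsConj x x⁻¹) : Nat.card {g : G // g * x * g⁻¹ = x⁻¹} = Nat.card (Subgroup.centralizer ({x} : Set G)) := by
  obtain ⟨g0, hg0⟩ := isConj_iff.mp hreal
  apply Nat.card_congr
  refine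
    { toFun := fun g => ⟨g0⁻¹ * g.1, ?_⟩
      invFun := fun c => ⟨g0 * c.1, ?_⟩
      left_inv := ?_
      right_inv := ?_ }
  · rw [Subgroup.mem_centralizer_singleton_iff]
    have h1 : g.1 * x = x⁻¹ * g.1 := by
      have := g.2
      calc g.1 * x = (g.1 * x * g.1⁻¹) * g.1 := by group
        _ = x⁻¹ * g.1 := by rw [this]
    have h2 : g0⁻¹ * x⁻¹ = x * g0⁻¹ := by
      calc g0⁻¹ * x⁻¹ = g0⁻¹ * (g0 * x * g0⁻¹) := by rw [hg0]
        _ = x * g0⁻¹ := by group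
    calc g0⁻¹ * g.1 * x = g0⁻¹ * (g.1 * x) := by group
      _ = g0⁻¹ * x⁻¹ * g.1 := by rw [h1]; group
      _ = x * (g0⁻¹ * g.1) := by rw [h2]; group
  · have hc := Subgroup.mem_centralizer_singleton_iff.mp c.2
    calc g0 * c.1 * x * (g0 * c.1)⁻¹ = g0 * (c.1 * x) * c.1⁻¹ * g0⁻¹ := by group
      _ = g0 * (x * c.1) * c.1⁻¹ * g0⁻¹ := by rw [hc]
      _ = g0 * x * g0⁻¹ := by group
      _ = x⁻¹ := hg0
  · intro g; ext; simp
  · intro c; ext; simp

end Cfsg.Agent.S0237
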