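import Mathlib
import Cfsg.Statements.S0238

set_option autoImplicit false
open Cfsg

namespace Cfsg.Agent.S0238

theorem mul_self_of_orderOf_two {G : Type*} [Group G] {a : G} (ha : orderOf a = 2) : a * a = 1 := by
  have h : a ^ 2 = 1 := by rw [← ha]; exact pow_orderOf_eq_one a
  rwa [sq] at h

theorem inv_of_orderOf_two {G : Type*} [Group G] {a : G} (ha : orderOf a = 2) : a⁻¹ = a := by
  rw [inv_eq_iff_mul_eq_one]; exact mul_self_of_orderOf_two ha

theorem orderOf_two_of {G : Type*} [Group G] {a : G} (h1 : a * a = 1) (h2 : a ≠ 1) : orderOf a = 2 := by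
  have h : a ^ 2 = 1 := by rw [sq]; exact h1
  exact orderOf_eq_prime h h2
theorem pair_conj {G : Type*} [Group G] {x u v : G} (hu : orderOf u = 2) (hv : orderOf v = 2)
    (huv : u * v = x) : u * x * u⁻¹ = x⁻¹ := by
  have huu : u * u = 1 := mul_self_of_orderOf_two hu
  have hui : u⁻¹ = u := inv_of_orderOf_two hu
  have hvi : v⁻¹ = v := inv_of_orderOf_two hv
  subst huv
  rw [mul_inv_rev, hui, hvi, ← mul_assoc, huu, one_mul]

/-- For every x in a finite group G, the number c of ordered pairs (u, v) of involutions with uv = x is at most |C_G(x)|; c = 0 when x is not conjugate to x⁻¹; and c + 2 ≤ |C_G(x)| when x is an involution. -/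
theorem result {G : Type*} [Group G] [Finite G] (x : G) : Nat.card {p : G × G // orderOf p.1 = 2 ∧ orderOf p.2 = 2 ∧ p.1 * p.2 = x} ≤ Nat.card (Subgroup.centralizer ({x} : Set G)) ∧ (¬ IsConj x x⁻¹ → Nat.card {p : G × G // orderOf p.1 = 2 ∧ orderOf p.2 = 2 ∧ p.1 * p.2 = x} = 0) ∧ (orderOf x = 2 → Nat.card {p : G × G // orderOf p.1 = 2 ∧ orderOf p.2 = 2 ∧ p.1 * p.2 = x} + 2 ≤ Nat.card (Subgroup.centralizer ({x} : Set G))) := by
  refine ⟨?_, ?_, ?_⟩
  · by_cases hemp : IsEmpty {p : G × G // orderOf p.1 = 2 ∧ orderOf p.2 = 2 ∧ p.1 * p.2 = x}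
    · rw [Nat.card_of_isEmpty]; exact Nat.zero_le _
    · rw [not_isEmpty_iff] at hemp
      obtain ⟨⟨⟨u0, v0⟩, hu0, hv0, huv0⟩⟩ := hemp
      simp only at hu0 hv0 huv0
      have h0 : u0 * x * u0⁻¹ = x⁻¹ := pair_conj hu0 hv0 huv0
      have h0' : u0⁻¹ * x⁻¹ = x * u0⁻¹ := by
        calc u0⁻¹ * x⁻¹ = u0⁻¹ * (u0 * x * u0⁻¹) := by rw [h0]
          _ = x * u0⁻¹ := by group
      let f : {p : G × G // orderOf p.1 = 2 ∧ orderOf p.2 = 2 ∧ p.1 * p.2 = x} →
          Subgroup.centralizer ({x} : Set G) := fun p => ⟨u0⁻¹ * p.1.1, by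
        obtain ⟨⟨u, v⟩, hu, hv, huv⟩ := p
        simp only at hu hv huv ⊢
        rw [Subgroup.mem_centralizer_singleton_iff]
        have h1 : u * x * u⁻¹ = x⁻¹ := pair_conj hu hv huv
        have h2 : u * x = x⁻¹ * u := by
          calc u * x = (u * x * u⁻¹) * u := by group
            _ = x⁻¹ * u := by rw [h1]
        calc u0⁻¹ * u * x = u0⁻¹ * (u * x) := by group
          _ = u0⁻¹ * x⁻¹ * u := by rw [h2]; group
          _ = x * (u0⁻¹ * u) := by rw [h0']; group⟩
      have hf : Function.Injective f := by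
        rintro ⟨⟨u, v⟩, hu, hv, huv⟩ ⟨⟨u', v'⟩, hu', hv', huv'⟩ h
        simp only at hu hv huv hu' hv' huv'
        have h1 : u0⁻¹ * u = u0⁻¹ * u' := congrArg Subtype.val h
        have h2 : u = u' := mul_left_cancel h1
        subst h2
        have h3 : v = v' := mul_left_cancel (huv.trans huv'.symm)
        subst h3
        rfl
      exact Nat.card_le_card_of_injective f hf
  · intro hnc
    have hemp : IsEmpty {p : G × G // orderOf p.1 = 2 ∧ orderOf p.2 = 2 ∧ p.1 * p.2 = x} := by
      refine ⟨fun p => hnc ?_⟩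
      obtain ⟨⟨u, v⟩, hu, hv, huv⟩ := p
      simp only at hu hv huv
      exact isConj_iff.mpr ⟨u, pair_conj hu hv huv⟩
    exact Nat.card_of_isEmpty
  · intro hx
    have hxx : x * x = 1 := mul_self_of_orderOf_two hx
    have hxi : x⁻¹ = x := inv_of_orderOf_two hx
    have hx1 : x ≠ 1 := by
      intro h; rw [h, orderOf_one] at hx; exact absurd hx (by decide)
    let C : Set G := (Subgroup.centralizer ({x} : Set G) : Set G)
    have hsub : ({1, x} : Set G) ⊆ C := by
      intro y hy
      rcases hy with rfl | hy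
      · exact Subgroup.one_mem _
      · rw [Set.mem_singleton_iff] at hy; subst hy
        show y ∈ Subgroup.centralizer ({y} : Set G)
        rw [Subgroup.mem_centralizer_singleton_iff]
    let f : {p : G × G // orderOf p.1 = 2 ∧ orderOf p.2 = 2 ∧ p.1 * p.2 = x} → ↥(C \ {1, x}) :=
      fun p => ⟨p.1.1, by
        obtain ⟨⟨u, v⟩, hu, hv, huv⟩ := p
        simp only at hu hv huv ⊢
        refine ⟨?_, ?_⟩
        · show u ∈ Subgroup.centralizer ({x} : Set G)
          rw [Subgroup.mem_centralizer_singleton_iff]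
          have h1 : u * x * u⁻¹ = x⁻¹ := pair_conj hu hv huv
          rw [hxi] at h1
          calc u * x = u * x * u⁻¹ * u := by group
            _ = x * u := by rw [h1]
        · intro h
          rcases h with h | h
          · rw [h, orderOf_one] at hu; exact absurd hu (by decide)
          · rw [Set.mem_singleton_iff] at h
            have hv1 : v = 1 := by
              have h2 : u * v = u * 1 := by rw [huv, mul_one, h]
              exact mul_left_cancel h2
            rw [hv1, orderOf_one] at hv; exact absurd hv (by decide)⟩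
    have hf : Function.Injective f := by
      rintro ⟨⟨u, v⟩, hu, hv, huv⟩ ⟨⟨u', v'⟩, hu', hv', huv'⟩ h
      simp only at hu hv huv hu' hv' huv'
      have h2 : u = u' := congrArg Subtype.val h
      subst h2
      have h3 : v = v' := mul_left_cancel (huv.trans huv'.symm)
      subst h3
      rfl
    have h1 := Nat.card_le_card_of_injective f hf
    rw [Nat.card_coe_set_eq] at h1
    have h2 : (C \ {1, x}).ncard + ({1, x} : Set G).ncard = C.ncard :=
      Set.ncard_sdiff_add_ncard_of_subset hsub (Set.toFinite C)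
    rw [Set.ncard_pair (Ne.symm hx1)] at h2
    have h3 : C.ncard = Nat.card (Subgroup.centralizer ({x} : Set G)) :=
      (Nat.card_coe_set_eq C).symm
    omega

end Cfsg.Agent.S0238
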