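import Mathlib
import Cfsg.Statements.S0239

set_option autoImplicit false
open Cfsg

namespace Cfsg.Agent.S0239

/-- If some nontrivial element x of a finite group G is conjugate to x⁻¹, then |G| is even. -/
theorem result {G : Type*} [Group G] [Finite G] (x : G) (hx : x ≠ 1) (hreal : IsConj x x⁻¹) : Even (Nat.card G) := by
  by_contra hodd
  rw [Nat.not_even_iff_odd] at hodd
  obtain ⟨g, hg⟩ := isConj_iff.mp hreal
  have hgo : Odd (orderOf g) := Odd.of_dvd_nat hodd (orderOf_dvd_natCard g)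
  obtain ⟨k, hk⟩ := hgo
  have h2 : g ^ 2 * x * (g ^ 2)⁻¹ = x := by
    have h3 : g ^ 2 * x * (g ^ 2)⁻¹ = g * (g * x * g⁻¹) * g⁻¹ := by rw [sq]; group
    rw [h3, hg]
    have h4 : g * x⁻¹ * g⁻¹ = (g * x * g⁻¹)⁻¹ := by group
    rw [h4, hg, inv_inv]
  have hcomm2 : Commute (g ^ 2) x := by
    unfold Commute SemiconjBy
    calc g ^ 2 * x = g ^ 2 * x * (g ^ 2)⁻¹ * g ^ 2 := by group
      _ = x * g ^ 2 := by rw [h2]
  have hg' : g = (g ^ 2) ^ (k + 1) := by
    rw [← pow_mul]
    have h5 : 2 * (k + 1) = orderOf g + 1 := by omega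
    rw [h5, pow_succ, pow_orderOf_eq_one, one_mul]
  have hcomm : Commute g x := by rw [hg']; exact hcomm2.pow_left _
  have hxx : x = x⁻¹ := by
    rw [← hg, hcomm.eq]; group
  have hx2 : x ^ 2 = 1 := by
    rw [sq]; nth_rewrite 2 [hxx]; exact mul_inv_cancel x
  have hd : orderOf x ∣ 2 := orderOf_dvd_of_pow_eq_one hx2
  have hxo : Odd (orderOf x) := Odd.of_dvd_nat hodd (orderOf_dvd_natCard x)
  have h1 : orderOf x = 1 := by
    rcases (Nat.dvd_prime Nat.prime_two).mp hd with h | h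
    · exact h
    · rw [h] at hxo; exact absurd hxo (by decide)
  exact hx (orderOf_eq_one_iff.mp h1)

end Cfsg.Agent.S0239
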