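import Mathlib
import Cfsg.Statements.S0240

set_option autoImplicit false
open Cfsg

namespace Cfsg.Agent.S0240

theorem mul_self_of_orderOf_two {G : Type*} [Group G] {a : G} (ha : orderOf a = 2) : a * a = 1 := by
  have h : a ^ 2 = 1 := by rw [← ha]; exact pow_orderOf_eq_one a
  rwa [sq] at h

theorem inv_of_orderOf_two {G : Type*} [Group G] {a : G} (ha : orderOf a = 2) : a⁻¹ = a := by
  rw [inv_eq_iff_mul_eq_one]; exact mul_self_of_orderOf_two ha

theorem orderOf_two_of {G : Type*} [Group G] {a : G} (h1 : a * a = 1) (h2 : a ≠ 1) : orderOf a = 2 := by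
  have h : a ^ 2 = 1 := by rw [sq]; exact h1
  exact orderOf_eq_prime h h2

/-- Let G be a finite group with n involutions and H a subgroup with |H|·(n+1) > |G|. Then some nontrivial h ∈ H is strongly real in G: an involution t of G satisfies t h t⁻¹ = h⁻¹. -/
theorem result {G : Type*} [Group G] [Finite G] (H : Subgroup G) (hH : Nat.card G < Nat.card H * (Nat.card {t : G // orderOf t = 2} + 1)) : ∃ h : G, h ∈ H ∧ h ≠ 1 ∧ ∃ t : G, orderOf t = 2 ∧ t * h * t⁻¹ = h⁻¹ := by
  let f : Option {t : G // orderOf t = 2} → G ⧸ H := fun o =>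
    match o with
    | none => ((1 : G) : G ⧸ H)
    | some t => ((t.1 : G) : G ⧸ H)
  have hcard : Nat.card (G ⧸ H) < Nat.card (Option {t : G // orderOf t = 2}) := by
    have h1 : Nat.card G = Nat.card (G ⧸ H) * Nat.card H :=
      Subgroup.card_eq_card_quotient_mul_card_subgroup H
    rw [Finite.card_option]
    rw [h1, mul_comm] at hH
    exact lt_of_mul_lt_mul_left hH (Nat.zero_le _)
  have hninj : ¬ Function.Injective f := by
    intro hinj
    exact absurd (Nat.card_le_card_of_injective f hinj) (not_le.mpr hcard)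
  rw [Function.not_injective_iff] at hninj
  obtain ⟨a, b, hab, hne⟩ := hninj
  have key1 : ∀ t : G, orderOf t = 2 → t ∈ H →
      ∃ h : G, h ∈ H ∧ h ≠ 1 ∧ ∃ t : G, orderOf t = 2 ∧ t * h * t⁻¹ = h⁻¹ := by
    intro t ht htH
    refine ⟨t, htH, ?_, t, ht, ?_⟩
    · intro h; rw [h, orderOf_one] at ht; exact absurd ht (by decide)
    · rw [inv_of_orderOf_two ht, mul_self_of_orderOf_two ht, one_mul]
  match a, b, hab, hne with
  | none, none, _, hne => exact absurd rfl hne
  | none, some t, hab, _ =>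
    have h1 : ((1 : G) : G ⧸ H) = ((t.1 : G) : G ⧸ H) := hab
    rw [QuotientGroup.eq] at h1
    have h2 : t.1 ∈ H := by simpa using h1
    exact key1 t.1 t.2 h2
  | some t, none, hab, _ =>
    have h1 : ((t.1 : G) : G ⧸ H) = ((1 : G) : G ⧸ H) := hab
    rw [QuotientGroup.eq] at h1
    have h2 : t.1 ∈ H := by
      have h3 : t.1⁻¹ ∈ H := by simpa using h1
      simpa using H.inv_mem h3
    exact key1 t.1 t.2 h2
  | some s, some t, hab, hne =>
    have h1 : ((s.1 : G) : G ⧸ H) = ((t.1 : G) : G ⧸ H) := hab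
    rw [QuotientGroup.eq] at h1
    have hst : s.1 ≠ t.1 := by
      intro h; apply hne; exact congrArg some (Subtype.ext h)
    have hsi : s.1⁻¹ = s.1 := inv_of_orderOf_two s.2
    have hti : t.1⁻¹ = t.1 := inv_of_orderOf_two t.2
    refine ⟨s.1⁻¹ * t.1, h1, ?_, s.1, s.2, ?_⟩
    · intro h
      apply hst
      calc s.1 = s.1 * (s.1⁻¹ * t.1) := by rw [h, mul_one]
        _ = t.1 := by group
    · rw [mul_inv_rev, inv_inv, hti]
      generalize s.1 = s' at hsi ⊢
      generalize t.1 = t' at hti ⊢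
      calc s' * (s'⁻¹ * t') * s'⁻¹ = t' * s'⁻¹ := by group
        _ = t' * s' := by rw [hsi]

end Cfsg.Agent.S0240
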