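import Mathlib
import Cfsg.Statements.S0241

set_option autoImplicit false
open Cfsg

namespace Cfsg.Agent.S0241

theorem mul_self_of_orderOf_two {G : Type*} [Group G] {a : G} (ha : orderOf a = 2) : a * a = 1 := by
  have h : a ^ 2 = 1 := by rw [← ha]; exact pow_orderOf_eq_one a
  rwa [sq] at h

theorem inv_of_orderOf_two {G : Type*} [Group G] {a : G} (ha : orderOf a = 2) : a⁻¹ = a := by
  rw [inv_eq_iff_mul_eq_one]; exact mul_self_of_orderOf_two ha

theorem orderOf_two_of {G : Type*} [Group G] {a : G} (h1 : a * a = 1) (h2 : a ≠ 1) : orderOf a = 2 := by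
  have h : a ^ 2 = 1 := by rw [sq]; exact h1
  exact orderOf_eq_prime h h2

/-- If x ≠ 1 is conjugate to x⁻¹ in a finite group G and |C_G(x)| is odd, then some involution t satisfies t x t⁻¹ = x⁻¹. -/
theorem result {G : Type*} [Group G] [Finite G] (x : G) (hx : x ≠ 1) (hreal : IsConj x x⁻¹) (hodd : Odd (Nat.card (Subgroup.centralizer ({x} : Set G)))) : ∃ t : G, orderOf t = 2 ∧ t * x * t⁻¹ = x⁻¹ := by
  obtain ⟨g, hg⟩ := isConj_iff.mp hreal
  have hg2 : g ^ 2 ∈ Subgroup.centralizer ({x} : Set G) := by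
    rw [Subgroup.mem_centralizer_singleton_iff]
    have h3 : g ^ 2 * x * (g ^ 2)⁻¹ = x := by
      have h3 : g ^ 2 * x * (g ^ 2)⁻¹ = g * (g * x * g⁻¹) * g⁻¹ := by rw [sq]; group
      rw [h3, hg]
      have h4 : g * x⁻¹ * g⁻¹ = (g * x * g⁻¹)⁻¹ := by group
      rw [h4, hg, inv_inv]
    generalize g ^ 2 = a at h3 ⊢
    calc a * x = a * x * a⁻¹ * a := by group
      _ = x * a := by rw [h3]
  have hk : Odd (orderOf (g ^ 2)) := by
    have h5 : orderOf (⟨g ^ 2, hg2⟩ : Subgroup.centralizer ({x} : Set G)) ∣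
        Nat.card (Subgroup.centralizer ({x} : Set G)) := orderOf_dvd_natCard _
    rw [Subgroup.orderOf_mk] at h5
    exact Odd.of_dvd_nat hodd h5
  obtain ⟨j, hj⟩ := hk
  have ht2 : g ^ (orderOf (g ^ 2)) * g ^ (orderOf (g ^ 2)) = 1 := by
    rw [← pow_add, ← two_mul, pow_mul]; exact pow_orderOf_eq_one _
  have hcomm : Commute (g ^ 2) x := Subgroup.mem_centralizer_singleton_iff.mp hg2
  have htx : g ^ (orderOf (g ^ 2)) * x * (g ^ (orderOf (g ^ 2)))⁻¹ = x⁻¹ := by
    have ht : g ^ (orderOf (g ^ 2)) = (g ^ 2) ^ j * g := by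
      rw [hj, ← pow_mul, ← pow_succ]
    have hc : Commute ((g ^ 2) ^ j) x⁻¹ := (hcomm.pow_left j).inv_right
    rw [ht]
    generalize (g ^ 2) ^ j = a at hc ⊢
    calc a * g * x * (a * g)⁻¹ = a * (g * x * g⁻¹) * a⁻¹ := by group
      _ = a * x⁻¹ * a⁻¹ := by rw [hg]
      _ = x⁻¹ := by rw [hc.eq]; group
  have ht1 : g ^ (orderOf (g ^ 2)) ≠ 1 := by
    intro h
    rw [h] at htx
    have hxx : x = x⁻¹ := by simpa using htx
    have hx2 : x ^ 2 = 1 := by rw [sq]; nth_rewrite 2 [hxx]; exact mul_inv_cancel x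
    have hd : orderOf x ∣ 2 := orderOf_dvd_of_pow_eq_one hx2
    have hxC : x ∈ Subgroup.centralizer ({x} : Set G) := by
      rw [Subgroup.mem_centralizer_singleton_iff]
    have hxo : Odd (orderOf x) := by
      have h5 : orderOf (⟨x, hxC⟩ : Subgroup.centralizer ({x} : Set G)) ∣
          Nat.card (Subgroup.centralizer ({x} : Set G)) := orderOf_dvd_natCard _
      rw [Subgroup.orderOf_mk] at h5
      exact Odd.of_dvd_nat hodd h5
    have h1 : orderOf x = 1 := by
      rcases (Nat.dvd_prime Nat.prime_two).mp hd with h | h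
      · exact h
      · rw [h] at hxo; exact absurd hxo (by decide)
    exact hx (orderOf_eq_one_iff.mp h1)
  exact ⟨g ^ (orderOf (g ^ 2)), orderOf_two_of ht2 ht1, htx⟩

end Cfsg.Agent.S0241
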