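import Mathlib
import Cfsg.Statements.S0244

set_option autoImplicit false
open Cfsg

namespace Cfsg.Agent.S0244

/-- Sp_2 = SL_2: a matrix on Fin 1 ⊕ Fin 1 lies in Mathlib's symplectic group iff its determinant is 1. -/
theorem result {R : Type*} [CommRing R] (A : Matrix (Fin 1 ⊕ Fin 1) (Fin 1 ⊕ Fin 1) R) : A ∈ Matrix.symplecticGroup (Fin 1) R ↔ A.det = 1 := by
  constructor
  · exact SymplecticGroup.det_eq_one
  · intro h
    have hdet : A.det = A (Sum.inl 0) (Sum.inl 0) * A (Sum.inr 0) (Sum.inr 0) -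
        A (Sum.inl 0) (Sum.inr 0) * A (Sum.inr 0) (Sum.inl 0) := by
      rw [← Matrix.det_reindex_self finSumFinEquiv A, Matrix.det_fin_two]
      have e0 : (finSumFinEquiv : Fin 1 ⊕ Fin 1 ≃ Fin 2).symm 0 = Sum.inl 0 := rfl
      have e1 : (finSumFinEquiv : Fin 1 ⊕ Fin 1 ≃ Fin 2).symm 1 = Sum.inr 0 := rfl
      simp only [Matrix.reindex_apply, Matrix.submatrix_apply, e0, e1]
    rw [hdet] at h
    rw [← Matrix.fromBlocks_toBlocks A, SymplecticGroup.fromBlocks_mem_iff]
    refine ⟨?_, ?_, ?_⟩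
    · ext i j
      have hi : i = 0 := Subsingleton.elim _ _
      have hj : j = 0 := Subsingleton.elim _ _
      subst hi; subst hj
      simp [Matrix.mul_apply, Matrix.toBlocks₁₁, Matrix.toBlocks₂₁]
      ring
    · ext i j
      have hi : i = 0 := Subsingleton.elim _ _
      have hj : j = 0 := Subsingleton.elim _ _
      subst hi; subst hj
      simp [Matrix.mul_apply, Matrix.toBlocks₁₂, Matrix.toBlocks₂₂]
      ring
    · ext i j
      have hi : i = 0 := Subsingleton.elim _ _
      have hj : j = 0 := Subsingleton.elim _ _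
      subst hi; subst hj
      simp [Matrix.mul_apply, Matrix.toBlocks₁₁, Matrix.toBlocks₂₁, Matrix.toBlocks₁₂,
        Matrix.toBlocks₂₂]
      linear_combination h

end Cfsg.Agent.S0244
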