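import Mathlib
import Cfsg.Agent.Lib.Helper1.SL2R
import Cfsg.Statements.S0262

set_option autoImplicit false
open Cfsg

namespace Cfsg.Agent.S0262

/-- For an odd prime r different from the characteristic, the Sylow r-subgroups of SL_2(q) are cyclic. -/
theorem result {F : Type*} [Field F] [Fintype F] (p : ℕ) [Fact p.Prime] [CharP F p] (r : ℕ) [Fact r.Prime] (hr : r ≠ 2) (hrp : r ≠ p) (R : Sylow r (Matrix.SpecialLinearGroup (Fin 2) F)) : IsCyclic (R : Subgroup (Matrix.SpecialLinearGroup (Fin 2) F)) := by
  classical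
  have hrP : r.Prime := Fact.out
  have hpP : p.Prime := Fact.out
  have hrF : (r : F) ≠ 0 := by
    intro h
    rw [CharP.cast_eq_zero_iff F p] at h
    exact hrp ((Nat.prime_dvd_prime_iff_eq hpP hrP).1 h).symm
  have hG : IsPGroup r (R : Subgroup (Matrix.SpecialLinearGroup (Fin 2) F)) := R.isPGroup'
  have hkey : ∃ z : (R : Subgroup (Matrix.SpecialLinearGroup (Fin 2) F)),
      ∀ H : Subgroup (R : Subgroup (Matrix.SpecialLinearGroup (Fin 2) F)),
        Nat.card H = r → H = Subgroup.zpowers z := by
    by_cases hnt : Nontrivial (R : Subgroup (Matrix.SpecialLinearGroup (Fin 2) F))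
    · haveI := hnt
      haveI := IsPGroup.center_nontrivial hG
      obtain ⟨c, hc1⟩ := exists_ne (1 : Subgroup.center
        (R : Subgroup (Matrix.SpecialLinearGroup (Fin 2) F)))
      obtain ⟨e, he⟩ := Cfsg.Agent.Lib.Helper1.UniqP.orderOf_eq_pow hG c.1
      have he0 : e ≠ 0 := by
        intro h
        rw [h, pow_zero, orderOf_eq_one_iff] at he
        exact hc1 (Subtype.ext he)
      obtain ⟨m, rfl⟩ : ∃ m, e = m + 1 := ⟨e - 1, by omega⟩
      have hz := Cfsg.Agent.Lib.Helper1.UniqP.orderOf_pow_prime_pow_pred he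
      have hzc : c.1 ^ r ^ m ∈ Subgroup.center
          (R : Subgroup (Matrix.SpecialLinearGroup (Fin 2) F)) := Subgroup.pow_mem _ c.2 _
      refine ⟨c.1 ^ r ^ m, ?_⟩
      intro H hH
      have hne : H ≠ ⊥ := by
        intro h
        rw [h, Subgroup.card_bot] at hH
        exact hrP.one_lt.ne hH
      obtain ⟨h, hh1⟩ := (Subgroup.ne_bot_iff_exists_ne_one).1 hne
      have hh1' : (h : (R : Subgroup (Matrix.SpecialLinearGroup (Fin 2) F))) ≠ 1 := by
        intro h'
        exact hh1 (Subtype.ext h')
      have hhr : (h : (R : Subgroup (Matrix.SpecialLinearGroup (Fin 2) F))) ^ r = 1 := by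
        have := Subgroup.orderOf_dvd_natCard H h.2
        rw [hH] at this
        exact orderOf_dvd_iff_pow_eq_one.1 this
      have hoh : orderOf (h : (R : Subgroup (Matrix.SpecialLinearGroup (Fin 2) F))) = r :=
        orderOf_eq_prime hhr hh1'
      have hzr : (c.1 ^ r ^ m) ^ r = 1 := by
        have h' := pow_orderOf_eq_one (c.1 ^ r ^ m)
        rw [hz] at h'
        exact h'
      have hz1 : c.1 ^ r ^ m ≠ 1 := by
        intro h'
        rw [h', orderOf_one] at hz
        exact hrP.one_lt.ne hz
      have hcomm : (c.1 ^ r ^ m) * (h : (R : Subgroup (Matrix.SpecialLinearGroup (Fin 2) F))) =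
          (h : (R : Subgroup (Matrix.SpecialLinearGroup (Fin 2) F))) * (c.1 ^ r ^ m) :=
        (Subgroup.mem_center_iff.1 hzc h.1).symm
      have hmem := Cfsg.Agent.Lib.Helper1.SL2R.main_field
        ((c.1 ^ r ^ m : (R : Subgroup (Matrix.SpecialLinearGroup (Fin 2) F))) :
          Matrix.SpecialLinearGroup (Fin 2) F)
        ((h : (R : Subgroup (Matrix.SpecialLinearGroup (Fin 2) F))) :
          Matrix.SpecialLinearGroup (Fin 2) F)
        (by
          have := congrArg Subtype.val hcomm
          simpa using this) r hrP hr hrF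
        (by
          have := congrArg Subtype.val hzr
          simpa using this)
        (by
          have := congrArg Subtype.val hhr
          simpa using this)
        (by
          intro h'
          apply hz1
          apply Subtype.ext
          simpa using h')
      have hmem' : (h : (R : Subgroup (Matrix.SpecialLinearGroup (Fin 2) F))) ∈
          Subgroup.zpowers (c.1 ^ r ^ m) := by
        rw [Subgroup.mem_zpowers_iff] at hmem ⊢
        obtain ⟨k, hk⟩ := hmem
        refine ⟨k, ?_⟩
        apply Subtype.ext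
        simpa using hk
      have hle1 : Subgroup.zpowers (h : (R : Subgroup (Matrix.SpecialLinearGroup (Fin 2) F))) ≤ H :=
        (Subgroup.zpowers_le).2 h.2
      have heq1 : Subgroup.zpowers (h : (R : Subgroup (Matrix.SpecialLinearGroup (Fin 2) F))) = H :=
        Subgroup.eq_of_le_of_card_ge hle1 (by rw [Nat.card_zpowers, hoh, hH])
      have hle2 : Subgroup.zpowers (h : (R : Subgroup (Matrix.SpecialLinearGroup (Fin 2) F))) ≤
          Subgroup.zpowers (c.1 ^ r ^ m) := (Subgroup.zpowers_le).2 hmem'
      have heq2 := Subgroup.eq_of_le_of_card_ge hle2 (by rw [Nat.card_zpowers, Nat.card_zpowers, hoh, hz])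
      rw [← heq1, heq2]
    · refine ⟨1, ?_⟩
      intro H hH
      exfalso
      rw [not_nontrivial_iff_subsingleton] at hnt
      have : Nat.card H = 1 := Nat.card_eq_one_iff_unique.2 ⟨inferInstance, ⟨1⟩⟩
      rw [this] at hH
      exact hrP.one_lt.ne hH
  obtain ⟨z, hz⟩ := hkey
  have huniq : ∀ H K : Subgroup (R : Subgroup (Matrix.SpecialLinearGroup (Fin 2) F)),
      Nat.card H = r → Nat.card K = r → H = K := by
    intro H K hH hK
    rw [hz H hH, hz K hK]
  rcases Cfsg.Agent.Lib.Helper1.UniqP.cyclic_or_quat hG huniq with h | ⟨h, -⟩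
  · exact h
  · exact absurd h hr

end Cfsg.Agent.S0262
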