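import Mathlib
import Cfsg.Agent.Lib.Helper1.GLn
import Cfsg.Agent.Lib.Helper1.PermEmb
import Cfsg.Agent.Lib.Helper1.SL2Syl
import Cfsg.Statements.S0276

set_option autoImplicit false
open Cfsg

namespace Cfsg.Agent.S0276

/-- For q = 3 or 5 mod 8 the Sylow 2-subgroups of PSL_2(q) are elementary abelian of order 4. -/
theorem result {F : Type*} [Field F] [Fintype F] {q : ℕ} (hF : Fintype.card F = q) (hq : q % 8 = 3 ∨ q % 8 = 5) (P : Sylow 2 (Matrix.ProjectiveSpecialLinearGroup (Fin 2) F)) : IsKleinFour (P : Subgroup (Matrix.ProjectiveSpecialLinearGroup (Fin 2) F)) := by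
  classical
  haveI : Fact (Nat.Prime 2) := ⟨Nat.prime_two⟩
  haveI := Cfsg.Agent.Lib.Helper1.PermEmb.finite_PSL2 (F := F)
  have hodd : Odd (Fintype.card F) := by
    rw [hF, Nat.odd_iff]
    omega
  have h2 := Cfsg.Agent.Lib.Helper1.SL2Syl.two_ne_zero_of_odd hodd
  have hgcd : Nat.gcd 2 (Fintype.card F - 1) = 2 := by
    apply Nat.gcd_eq_left
    rw [hF]
    omega
  have hN : ∃ m, Nat.card (Matrix.ProjectiveSpecialLinearGroup (Fin 2) F) = 4 * m ∧ m % 2 = 1 := by
    have hc := Cfsg.Agent.Lib.Helper1.PermEmb.card_PSL2 hF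
    obtain ⟨t, rfl | rfl⟩ : ∃ t, q = 8 * t + 3 ∨ q = 8 * t + 5 := by
      rcases hq with h | h
      · exact ⟨q / 8, Or.inl (by omega)⟩
      · exact ⟨q / 8, Or.inr (by omega)⟩
    · have e1 : 8 * t + 3 - 1 = 2 * (4 * t + 1) := by omega
      have e2 : (8 * t + 3) ^ 2 - 1 = 8 * ((4 * t + 1) * (2 * t + 1)) := by
        have : (8 * t + 3) ^ 2 = 8 * ((4 * t + 1) * (2 * t + 1)) + 1 := by ring
        omega
      have e3 : (8 * t + 3) ^ 2 - (8 * t + 3) = (8 * t + 3) * (2 * (4 * t + 1)) := by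
        have : (8 * t + 3) ^ 2 = (8 * t + 3) * (2 * (4 * t + 1)) + (8 * t + 3) := by ring
        omega
      rw [e1, e2, e3] at hc
      have hg : Nat.gcd 2 (2 * (4 * t + 1)) = 2 := Nat.gcd_eq_left (dvd_mul_right 2 _)
      rw [hg] at hc
      refine ⟨(4 * t + 1) * ((2 * t + 1) * (8 * t + 3)), ?_, ?_⟩
      · have hpos : 0 < 2 * (2 * (4 * t + 1)) := by omega
        apply Nat.eq_of_mul_eq_mul_left hpos
        rw [mul_assoc, hc]
        ring
      · have : Odd ((4 * t + 1) * ((2 * t + 1) * (8 * t + 3))) :=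
          Odd.mul ⟨2 * t, by ring⟩ (Odd.mul ⟨t, by ring⟩ ⟨4 * t + 1, by ring⟩)
        exact Nat.odd_iff.1 this
    · have e1 : 8 * t + 5 - 1 = 4 * (2 * t + 1) := by omega
      have e2 : (8 * t + 5) ^ 2 - 1 = 8 * ((2 * t + 1) * (4 * t + 3)) := by
        have : (8 * t + 5) ^ 2 = 8 * ((2 * t + 1) * (4 * t + 3)) + 1 := by ring
        omega
      have e3 : (8 * t + 5) ^ 2 - (8 * t + 5) = (8 * t + 5) * (4 * (2 * t + 1)) := by
        have : (8 * t + 5) ^ 2 = (8 * t + 5) * (4 * (2 * t + 1)) + (8 * t + 5) := by ring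
        omega
      rw [e1, e2, e3] at hc
      have hg : Nat.gcd 2 (4 * (2 * t + 1)) = 2 :=
        Nat.gcd_eq_left ⟨2 * (2 * t + 1), by ring⟩
      rw [hg] at hc
      refine ⟨(2 * t + 1) * ((4 * t + 3) * (8 * t + 5)), ?_, ?_⟩
      · have hpos : 0 < 2 * (4 * (2 * t + 1)) := by omega
        apply Nat.eq_of_mul_eq_mul_left hpos
        rw [mul_assoc, hc]
        ring
      · have : Odd ((2 * t + 1) * ((4 * t + 3) * (8 * t + 5))) :=
          Odd.mul ⟨t, by ring⟩ (Odd.mul ⟨2 * t + 1, by ring⟩ ⟨4 * t + 2, by ring⟩)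
        exact Nat.odd_iff.1 this
  obtain ⟨m, hNm, hmodd⟩ := hN
  have hP4 : Nat.card (P : Subgroup (Matrix.ProjectiveSpecialLinearGroup (Fin 2) F)) = 4 := by
    have h1 : 2 ^ 2 ∣ Nat.card (P : Subgroup (Matrix.ProjectiveSpecialLinearGroup (Fin 2) F)) := by
      apply Sylow.pow_dvd_card_of_pow_dvd_card
      rw [hNm]
      exact ⟨m, by norm_num⟩
    obtain ⟨k, hk⟩ := IsPGroup.iff_card.1 P.isPGroup'
    have h3 : Nat.card (P : Subgroup (Matrix.ProjectiveSpecialLinearGroup (Fin 2) F)) ∣ 4 * m := by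
      rw [← hNm]
      exact Subgroup.card_subgroup_dvd_card _
    rw [hk] at h1 h3 ⊢
    have hk2 : k ≤ 2 := by
      by_contra hcon
      have h8 : 2 ^ 3 ∣ 2 ^ k := pow_dvd_pow 2 (by omega)
      have h8' : 8 ∣ 4 * m := by
        have := h8.trans h3
        norm_num at this
        exact this
      omega
    have hk2' : 2 ≤ k := (Nat.pow_dvd_pow_iff_le_right (by norm_num)).1 h1
    have : k = 2 := by omega
    rw [this]
    norm_num
  have hSL : Nat.card (Matrix.SpecialLinearGroup (Fin 2) F) = 8 * m := by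
    have h := Subgroup.card_eq_card_quotient_mul_card_subgroup
      (Subgroup.center (Matrix.SpecialLinearGroup (Fin 2) F))
    rw [Cfsg.Agent.Lib.Helper1.GLn.card_center_SL 2 (by norm_num), hgcd] at h
    have hNm' : Nat.card (Matrix.SpecialLinearGroup (Fin 2) F ⧸
        Subgroup.center (Matrix.SpecialLinearGroup (Fin 2) F)) = 4 * m := hNm
    rw [hNm'] at h
    omega
  have hsq : ∀ x : Matrix.ProjectiveSpecialLinearGroup (Fin 2) F,
      x ∈ (P : Subgroup (Matrix.ProjectiveSpecialLinearGroup (Fin 2) F)) → x ^ 2 = 1 := by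
    intro x hx
    obtain ⟨y, rfl⟩ := QuotientGroup.mk_surjective x
    have hx4 : (QuotientGroup.mk y : Matrix.SpecialLinearGroup (Fin 2) F ⧸
        Subgroup.center (Matrix.SpecialLinearGroup (Fin 2) F)) ^ 4 = 1 := by
      have := Subgroup.orderOf_dvd_natCard _ hx
      rw [hP4] at this
      exact orderOf_dvd_iff_pow_eq_one.1 this
    have hy4 : y ^ 4 ∈ Subgroup.center (Matrix.SpecialLinearGroup (Fin 2) F) := by
      rw [← QuotientGroup.eq_one_iff, QuotientGroup.mk_pow]
      exact hx4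
    have hcen : ∀ z ∈ Subgroup.center (Matrix.SpecialLinearGroup (Fin 2) F), z * z = 1 := by
      intro z hz
      rw [Matrix.SpecialLinearGroup.mem_center_iff] at hz
      obtain ⟨r, hr, hz⟩ := hz
      have hr2 : r * r = 1 := by
        rw [Fintype.card_fin] at hr
        rw [← hr]
        ring
      apply Subtype.ext
      have : (z : Matrix (Fin 2) (Fin 2) F) * (z : Matrix (Fin 2) (Fin 2) F) = 1 := by
        rw [← hz, ← map_mul, hr2, map_one]
      simpa using this
    have hy8 : y ^ 8 = 1 := by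
      have := hcen _ hy4
      rw [← pow_add] at this
      exact this
    have hzp : IsPGroup 2 (Subgroup.zpowers y) := by
      have hd : orderOf y ∣ 2 ^ 3 := orderOf_dvd_of_pow_eq_one hy8
      obtain ⟨j, -, hj⟩ := (Nat.dvd_prime_pow Nat.prime_two).1 hd
      apply IsPGroup.of_card (n := j)
      rw [Nat.card_zpowers, hj]
    obtain ⟨Q, hQ⟩ := IsPGroup.exists_le_sylow hzp
    obtain ⟨k, hk1, ⟨e⟩⟩ := Cfsg.Agent.Lib.Helper1.SL2Syl.sylow_two_quat hodd Q
    have hk : k = 1 := by
      have hcQ : Nat.card (Q : Subgroup (Matrix.SpecialLinearGroup (Fin 2) F)) = 4 * 2 ^ k := by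
        rw [Nat.card_congr e.toEquiv, Nat.card_eq_fintype_card, QuaternionGroup.card]
      have hdv : Nat.card (Q : Subgroup (Matrix.SpecialLinearGroup (Fin 2) F)) ∣
          Nat.card (Matrix.SpecialLinearGroup (Fin 2) F) := Subgroup.card_subgroup_dvd_card _
      rw [hcQ, hSL] at hdv
      by_contra hne
      have h4 : 2 ^ 2 ∣ 2 ^ k := pow_dvd_pow 2 (by omega)
      have h16 : 16 ∣ 8 * m := by
        have := (Nat.mul_dvd_mul_left 4 h4).trans hdv
        norm_num at this
        exact this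
      omega
    subst hk
    have hyQ : y ∈ (Q : Subgroup (Matrix.SpecialLinearGroup (Fin 2) F)) :=
      hQ (Subgroup.mem_zpowers y)
    have he4 : (e ⟨y, hyQ⟩) ^ 4 = 1 := by
      have h := Monoid.pow_exponent_eq_one (e ⟨y, hyQ⟩)
      rw [QuaternionGroup.exponent] at h
      norm_num at h
      exact h
    have hy4' : y ^ 4 = 1 := by
      rw [← map_pow] at he4
      have := e.injective (he4.trans (map_one e).symm)
      have := congrArg Subtype.val this
      simpa using this
    have hyy : (y ^ 2) * (y ^ 2) = 1 := by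
      rw [← pow_add]
      exact hy4'
    have hmem : y ^ 2 ∈ Subgroup.center (Matrix.SpecialLinearGroup (Fin 2) F) := by
      rw [Matrix.SpecialLinearGroup.mem_center_iff]
      rcases Cfsg.Agent.Lib.Helper1.SL2Syl.sl2_invol h2 (y ^ 2) hyy with h | h
      · exact ⟨1, by simp, by rw [h, map_one]⟩
      · exact ⟨-1, by simp, by rw [h, map_neg, map_one]⟩
    rw [← QuotientGroup.mk_pow]
    exact (QuotientGroup.eq_one_iff _).2 hmem
  refine ⟨hP4, ?_⟩
  have hdvd : Monoid.exponent (P : Subgroup (Matrix.ProjectiveSpecialLinearGroup (Fin 2) F)) ∣ 2 := by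
    apply Monoid.exponent_dvd_of_forall_pow_eq_one
    intro x
    apply Subtype.ext
    simpa using hsq x.1 x.2
  rcases (Nat.dvd_prime Nat.prime_two).1 hdvd with h | h
  · exfalso
    rw [Monoid.exp_eq_one_iff] at h
    have := Nat.card_eq_one_iff_unique.2 ⟨h, ⟨1⟩⟩
    omega
  · exact h

end Cfsg.Agent.S0276
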