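import Mathlib
import Cfsg.Agent.Lib.Helper1.O3b
import Cfsg.Statements.S0298

set_option autoImplicit false
open Cfsg

namespace Cfsg.Agent.S0298

/-- PΩ_3(q) is isomorphic to PSL_2(q) for q odd. -/
theorem result {F : Type*} [Field F] [Fintype F] (hodd : Odd (Fintype.card F)) : Nonempty (Cfsg.POmega F (Cfsg.quadFormOdd 1 F) ≃* Matrix.ProjectiveSpecialLinearGroup (Fin 2) F) := by
  have h2 := Lib.Helper1.Orth.one_ne_neg_one_of_odd hodd
  let E0 := Lib.Helper1.O3.commEquiv (Lib.Helper1.Orth.isoOQ (Cfsg.quadFormOdd 1 F))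
  let E1 := MulEquiv.subgroupCongr (Lib.Helper1.O3.fSL_range h2).symm
  let E2 := (QuotientGroup.quotientKerEquivRange (Lib.Helper1.O3.fSL (F := F))).symm
  let E3 := QuotientGroup.quotientMulEquivOfEq (Lib.Helper1.O3.fSL_ker (F := F))
  let E : Cfsg.Omega F (Cfsg.quadFormOdd 1 F) ≃*
      Matrix.ProjectiveSpecialLinearGroup (Fin 2) F := ((E0.trans E1).trans E2).trans E3
  have hc : Subgroup.center (Cfsg.Omega F (Cfsg.quadFormOdd 1 F)) = ⊥ :=
    Lib.Helper1.O3.center_eq_bot_of_equiv E (Lib.Helper1.O3.center_PSL2 h2)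
  exact ⟨((QuotientGroup.quotientMulEquivOfEq hc).trans QuotientGroup.quotientBot).trans E⟩

end Cfsg.Agent.S0298
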