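import Mathlib
import Cfsg.Statements.S0307

set_option autoImplicit false
open Cfsg

namespace Cfsg.Agent.S0307

/-- PSL_n(q) is normal in PGL_n(q) with cyclic quotient of order gcd(n, q-1): the image of the natural map PSL_n → PGL_n is the kernel of a surjective homomorphism onto the cyclic group of that order. -/
theorem result {F : Type*} [Field F] [Fintype F] {q : ℕ} (hF : Fintype.card F = q) (n : ℕ) (hn : 1 ≤ n) : ∃ g : Matrix.ProjGenLinGroup (Fin n) F →* Multiplicative (ZMod (Nat.gcd n (q - 1))), Function.Surjective g ∧ g.ker = (Matrix.ProjectiveSpecialLinearGroup.toPGL : Matrix.ProjectiveSpecialLinearGroup (Fin n) F →* Matrix.ProjGenLinGroup (Fin n) F).range := by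
  classical
  haveI : NeZero n := ⟨by omega⟩
  have hq : 2 ≤ q := hF ▸ Fintype.one_lt_card
  have hdn : Nat.gcd n (q - 1) ∣ n := Nat.gcd_dvd_left _ _
  have hdq : Nat.gcd n (q - 1) ∣ q - 1 := Nat.gcd_dvd_right _ _
  haveI : NeZero (q - 1) := ⟨by omega⟩
  have hcard : Nat.card Fˣ = q - 1 := by rw [Nat.card_units, Nat.card_eq_fintype_card, hF]
  obtain ⟨ζ, hζ⟩ := IsCyclic.exists_generator (α := Fˣ)
  let e : Multiplicative (ZMod (q - 1)) ≃* Fˣ := zmodMulEquivOfGenerator hζ hcard
  let c : Multiplicative (ZMod (q - 1)) →* Multiplicative (ZMod (Nat.gcd n (q - 1))) :=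
    AddMonoidHom.toMultiplicative (ZMod.castHom hdq (ZMod (Nat.gcd n (q - 1)))).toAddMonoidHom
  let ψ : Fˣ →* Multiplicative (ZMod (Nat.gcd n (q - 1))) := c.comp e.symm.toMonoidHom
  have hc : ∀ x : Multiplicative (ZMod (q - 1)), c x = 1 ↔ ∃ y, y ^ n = x := by
    intro x
    constructor
    · intro hx
      have hx' : ((Multiplicative.toAdd x : ZMod (q - 1)).val : ZMod (Nat.gcd n (q - 1))) = 0 := by
        have : (ZMod.castHom hdq (ZMod (Nat.gcd n (q - 1)))) (Multiplicative.toAdd x) = 0 := hx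
        rw [← this, ZMod.natCast_val]; rfl
      rw [ZMod.natCast_eq_zero_iff] at hx'
      obtain ⟨m, hm⟩ := hx'
      have hbez := Nat.gcd_eq_gcd_ab n (q - 1)
      refine ⟨Multiplicative.ofAdd (((Nat.gcdA n (q - 1) * m : ℤ) : ZMod (q - 1))), ?_⟩
      apply Multiplicative.toAdd.injective
      show n • (((Nat.gcdA n (q - 1) * m : ℤ) : ZMod (q - 1))) = Multiplicative.toAdd x
      have h1 : (Multiplicative.toAdd x : ZMod (q - 1)) = (((Multiplicative.toAdd x : ZMod (q - 1)).val : ℤ) : ZMod (q - 1)) := by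
        simp
      rw [h1, hm]
      have h2 : (((Nat.gcd n (q - 1) * m : ℕ) : ℤ) : ZMod (q - 1)) = (((n : ℤ) * Nat.gcdA n (q - 1) + ((q - 1 : ℕ) : ℤ) * Nat.gcdB n (q - 1)) * m : ℤ) := by
        rw [← hbez]; push_cast; rfl
      rw [h2]
      push_cast
      rw [ZMod.natCast_self]
      simp only [nsmul_eq_mul]
      ring
    · rintro ⟨y, rfl⟩
      rw [map_pow]
      apply Multiplicative.toAdd.injective
      show n • Multiplicative.toAdd (c y) = 0
      rw [nsmul_eq_mul, (ZMod.natCast_eq_zero_iff n _).2 hdn, zero_mul]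
  have hψ : ∀ u : Fˣ, ψ u = 1 ↔ ∃ k : Fˣ, k ^ n = u := by
    intro u
    show c (e.symm u) = 1 ↔ _
    rw [hc]
    constructor
    · rintro ⟨y, hy⟩
      refine ⟨e y, ?_⟩
      rw [← map_pow, hy, MulEquiv.apply_symm_apply]
    · rintro ⟨k, rfl⟩
      exact ⟨e.symm k, by rw [map_pow]⟩
  have hψs : Function.Surjective ψ := by
    intro y
    obtain ⟨x, hx⟩ := ZMod.castHom_surjective hdq (Multiplicative.toAdd y)
    exact ⟨e (Multiplicative.ofAdd x), by
      show c (e.symm (e _)) = y
      rw [MulEquiv.symm_apply_apply]; exact congrArg Multiplicative.ofAdd hx⟩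
  have hker : Subgroup.center (GL (Fin n) F) ≤ (ψ.comp Matrix.GeneralLinearGroup.det).ker := by
    intro z hz
    rw [Matrix.GeneralLinearGroup.center_eq_range_scalar] at hz
    obtain ⟨u, rfl⟩ := hz
    rw [MonoidHom.mem_ker, MonoidHom.comp_apply, Matrix.GeneralLinearGroup.det_scalar, hψ]
    exact ⟨u, by rw [Fintype.card_fin]⟩
  let g : Matrix.ProjGenLinGroup (Fin n) F →* Multiplicative (ZMod (Nat.gcd n (q - 1))) :=
    QuotientGroup.lift _ (ψ.comp Matrix.GeneralLinearGroup.det) hker
  have hg : ∀ A : GL (Fin n) F, g (Matrix.ProjGenLinGroup.mk A) = ψ (Matrix.GeneralLinearGroup.det A) :=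
    fun A => rfl
  refine ⟨g, ?_, ?_⟩
  · intro y
    obtain ⟨u, hu⟩ := hψs y
    obtain ⟨A, hA⟩ := Matrix.GeneralLinearGroup.det_surjective (n := Fin n) (R := F) u
    exact ⟨Matrix.ProjGenLinGroup.mk A, by rw [hg, hA, hu]⟩
  · ext x
    induction x using Matrix.ProjGenLinGroup.induction_on with | mk A =>
    rw [MonoidHom.mem_ker, hg, hψ]
    constructor
    · rintro ⟨k, hk⟩
      have hdet : Matrix.GeneralLinearGroup.det (A * Matrix.GeneralLinearGroup.scalar (Fin n) k⁻¹) = 1 := by
        rw [map_mul, Matrix.GeneralLinearGroup.det_scalar, Fintype.card_fin, ← hk, inv_pow, mul_inv_cancel]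
      have hdet' : (A * Matrix.GeneralLinearGroup.scalar (Fin n) k⁻¹ : GL (Fin n) F).1.det = 1 := by
        have := congrArg Units.val hdet
        simpa using this
      let s : Matrix.SpecialLinearGroup (Fin n) F := ⟨_, hdet'⟩
      refine ⟨QuotientGroup.mk s, ?_⟩
      rw [Matrix.ProjectiveSpecialLinearGroup.toPGL_mk]
      have : Matrix.SpecialLinearGroup.toGL s = A * Matrix.GeneralLinearGroup.scalar (Fin n) k⁻¹ := by
        ext; rfl
      rw [this, map_mul, Matrix.ProjGenLinGroup.mk_scalar, mul_one]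
    · rintro ⟨y, hy⟩
      induction y using QuotientGroup.induction_on with | H s =>
      rw [Matrix.ProjectiveSpecialLinearGroup.toPGL_mk] at hy
      have h1 : g (Matrix.ProjGenLinGroup.mk (Matrix.SpecialLinearGroup.toGL s)) = 1 := by
        rw [hg]
        have : Matrix.GeneralLinearGroup.det (Matrix.SpecialLinearGroup.toGL s) = 1 := by
          ext; simp
        rw [this, map_one]
      rw [hy, hg] at h1
      rw [← hψ]; exact h1

end Cfsg.Agent.S0307
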