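import Mathlib
import Cfsg.Agent.Lib.Helper1.BN
import Cfsg.Statements.S0312

set_option autoImplicit false
open Cfsg

namespace Cfsg.Agent.S0312

/-- Every standard parabolic subgroup of a group with a (B,N)-pair equals its own normaliser. -/
theorem result {G : Type*} [Group G] (P : Cfsg.BNPair G) {J : Set G}
    (hJ : J ⊆ P.S) : Subgroup.normalizer (P.parabolic J : Set G) = P.parabolic J := by
  apply le_antisymm
  · intro g hg
    apply Lib.Helper1.BN.mem_of_conj_B P _ (Lib.Helper1.BN.B_le_parabolic P J) g
    intro c hc
    rw [Subgroup.mem_normalizer_iff] at hg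
    exact (hg c).mp (Lib.Helper1.BN.B_le_parabolic P J hc)
  · exact Subgroup.le_normalizer

end Cfsg.Agent.S0312
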