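import Mathlib
import Cfsg.Agent.Lib.Helper1.BN
import Cfsg.Statements.S0313

set_option autoImplicit false
open Cfsg

namespace Cfsg.Agent.S0313

/-- Two standard parabolic subgroups of a group with a (B,N)-pair which are conjugate in `G` coincide. -/
theorem result {G : Type*} [Group G] (P : Cfsg.BNPair G) {J K : Set G}
    (hJ : J ⊆ P.S) (hK : K ⊆ P.S) (g : G)
    (h : (P.parabolic J).map (MulAut.conj g).toMonoidHom = P.parabolic K) :
    P.parabolic J = P.parabolic K := by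
  have hmem : ∀ x : G, x ∈ P.parabolic K ↔ ∃ y ∈ P.parabolic J, g * y * g⁻¹ = x := by
    intro x
    rw [← h, Subgroup.mem_map]
    constructor
    · rintro ⟨y, hy, rfl⟩
      exact ⟨y, hy, rfl⟩
    · rintro ⟨y, hy, rfl⟩
      exact ⟨y, hy, rfl⟩
  have hgK : g ∈ P.parabolic K := by
    apply Lib.Helper1.BN.mem_of_conj_B P _ (Lib.Helper1.BN.B_le_parabolic P K) g
    intro c hc
    exact (hmem _).mpr ⟨c, Lib.Helper1.BN.B_le_parabolic P J hc, rfl⟩
  have hgJ : g⁻¹ ∈ P.parabolic J := by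
    apply Lib.Helper1.BN.mem_of_conj_B P _ (Lib.Helper1.BN.B_le_parabolic P J) g⁻¹
    intro c hc
    obtain ⟨y, hy, hyc⟩ := (hmem c).mp (Lib.Helper1.BN.B_le_parabolic P K hc)
    have e : g⁻¹ * c * g⁻¹⁻¹ = y := by
      rw [← hyc]
      group
    rw [e]
    exact hy
  apply le_antisymm
  · intro x hx
    have h1 : g * x * g⁻¹ ∈ P.parabolic K := (hmem _).mpr ⟨x, hx, rfl⟩
    have e : x = g⁻¹ * (g * x * g⁻¹) * g := by group
    rw [e]
    exact Subgroup.mul_mem _ (Subgroup.mul_mem _ (Subgroup.inv_mem _ hgK) h1) hgK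
  · intro x hx
    obtain ⟨y, hy, hyx⟩ := (hmem x).mp hx
    rw [← hyx]
    have hgJ' : g ∈ P.parabolic J := by
      have := Subgroup.inv_mem _ hgJ
      rwa [inv_inv] at this
    exact Subgroup.mul_mem _ (Subgroup.mul_mem _ hgJ' hy) hgJ

end Cfsg.Agent.S0313
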