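import Mathlib
import Cfsg.Agent.Lib.Helper1.BN
import Cfsg.Statements.S0315

set_option autoImplicit false
open Cfsg

namespace Cfsg.Agent.S0315

/-- Standard parabolic subgroups intersect as the index sets do: `P_J ⊓ P_K = P_{J ∩ K}`. -/
theorem result {G : Type*} [Group G] (P : Cfsg.BNPair G) {J K : Set G}
    (hJ : J ⊆ P.S) (hK : K ⊆ P.S) : P.parabolic J ⊓ P.parabolic K = P.parabolic (J ∩ K) := by
  apply le_antisymm
  · have hM : P.B ≤ P.parabolic J ⊓ P.parabolic K :=
      le_inf (Lib.Helper1.BN.B_le_parabolic P J) (Lib.Helper1.BN.B_le_parabolic P K)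
    have h1 := Lib.Helper1.BN.subgroup_eq_parabolic P _ hM
    rw [h1]
    apply Lib.Helper1.BN.parabolic_mono P
    rintro s ⟨hsS, hsM⟩
    have hsM' : s ∈ P.parabolic J ⊓ P.parabolic K := hsM
    rw [Subgroup.mem_inf] at hsM'
    exact ⟨Lib.Helper1.BN.S_inter_parabolic P hJ hsS hsM'.1,
      Lib.Helper1.BN.S_inter_parabolic P hK hsS hsM'.2⟩
  · exact le_inf (Lib.Helper1.BN.parabolic_mono P Set.inter_subset_left)
      (Lib.Helper1.BN.parabolic_mono P Set.inter_subset_right)

end Cfsg.Agent.S0315
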