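import Mathlib
import Cfsg.Agent.Lib.Helper1.BN
import Cfsg.Statements.S0316

set_option autoImplicit false
open Cfsg
open Cfsg.Agent.Lib.Helper1.BN

namespace Cfsg.Agent.S0316

/-- The map `J ↦ P_J` is a lattice isomorphism from the power set of the set of distinguished generators onto the
subgroups containing `B`. -/
theorem result {G : Type*} [Group G] (P : Cfsg.BNPair G) :
    ∃ e : Set P.S ≃o {M : Subgroup G // P.B ≤ M},
      ∀ J : Set P.S, ((e J : {M : Subgroup G // P.B ≤ M}) : Subgroup G) = P.parabolic (Subtype.val '' J) := by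
  have himg : ∀ J : Set P.S, Subtype.val '' J ⊆ P.S := by
    rintro J _ ⟨s, -, rfl⟩
    exact s.2
  have hle : ∀ J K : Set P.S,
      P.parabolic (Subtype.val '' J) ≤ P.parabolic (Subtype.val '' K) ↔ J ≤ K := by
    intro J K
    constructor
    · intro h s hs
      have h1 : (s : G) ∈ P.parabolic (Subtype.val '' K) :=
        h (closure_le_parabolic P _ (Subgroup.subset_closure ⟨s, hs, rfl⟩))
      obtain ⟨s', hs', heq⟩ := S_inter_parabolic P (himg K) s.2 h1
      rw [Subtype.val_injective heq] at hs'
      exact hs'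
    · intro h
      exact parabolic_mono P (Set.image_mono h)
  let f : Set P.S → {M : Subgroup G // P.B ≤ M} :=
    fun J => ⟨P.parabolic (Subtype.val '' J), B_le_parabolic P _⟩
  have hinj : Function.Injective f := by
    intro J K hJK
    have h1 : P.parabolic (Subtype.val '' J) = P.parabolic (Subtype.val '' K) :=
      congrArg Subtype.val hJK
    exact le_antisymm ((hle J K).mp h1.le) ((hle K J).mp h1.ge)
  have hsurj : Function.Surjective f := by
    rintro ⟨M, hM⟩
    refine ⟨{s : P.S | (s : G) ∈ M}, ?_⟩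
    apply Subtype.ext
    show P.parabolic (Subtype.val '' {s : P.S | (s : G) ∈ M}) = M
    have h2 := subgroup_eq_parabolic P M hM
    have h3 : Subtype.val '' {s : P.S | (s : G) ∈ M} = P.S ∩ (M : Set G) := by
      ext x
      constructor
      · rintro ⟨s, hs, rfl⟩
        exact ⟨s.2, hs⟩
      · rintro ⟨hxS, hxM⟩
        exact ⟨⟨x, hxS⟩, hxM, rfl⟩
    rw [h3]
    exact h2.symm
  refine ⟨{ toEquiv := Equiv.ofBijective f ⟨hinj, hsurj⟩, map_rel_iff' := ?_ }, fun J => rfl⟩
  intro J K
  exact hle J K

end Cfsg.Agent.S0316
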