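import Mathlib
import Cfsg.Agent.Lib.Helper1.BN
import Cfsg.Statements.S0318

set_option autoImplicit false
open Cfsg

namespace Cfsg.Agent.S0318

/-- For `n ∈ N`, the subgroup generated by `B` and `n` coincides with the subgroup generated by `B` and the
conjugate `n B n⁻¹`. -/
theorem result {G : Type*} [Group G] (P : Cfsg.BNPair G) {n : G}
    (hn : n ∈ P.N) :
    P.B ⊔ Subgroup.closure {n} = P.B ⊔ P.B.map (MulAut.conj n).toMonoidHom := by
  apply le_antisymm
  · apply sup_le le_sup_left
    rw [Subgroup.closure_le, Set.singleton_subset_iff]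
    apply Lib.Helper1.BN.mem_of_conj_B P _ le_sup_left n
    intro c hc
    have : n * c * n⁻¹ ∈ P.B.map (MulAut.conj n).toMonoidHom := ⟨c, hc, rfl⟩
    exact (le_sup_right : P.B.map (MulAut.conj n).toMonoidHom ≤ _) this
  · apply sup_le le_sup_left
    rintro x ⟨c, hc, rfl⟩
    have hn' : n ∈ P.B ⊔ Subgroup.closure {n} :=
      (le_sup_right : Subgroup.closure {n} ≤ _) (Subgroup.subset_closure rfl)
    have hc' : c ∈ P.B ⊔ Subgroup.closure {n} := (le_sup_left : P.B ≤ _) hc
    show n * c * n⁻¹ ∈ _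
    exact Subgroup.mul_mem _ (Subgroup.mul_mem _ hn' hc') (Subgroup.inv_mem _ hn')

end Cfsg.Agent.S0318
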