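import Mathlib
import Cfsg.Agent.Lib.Helper1.BN
import Cfsg.Statements.S0319

set_option autoImplicit false
open Cfsg
open Cfsg.Agent.Lib.Helper1.BN
open Pointwise

namespace Cfsg.Agent.S0319

/-- Simplicity criterion for groups with a (B,N)-pair: if the distinguished generators admit no
splitting into two non-empty mutually commuting parts, `B` is solvable, `G` is perfect and the intersection
of all conjugates of `B` is trivial, then `G` is simple. -/
theorem result {G : Type*} [Group G] [Nontrivial G]
    (P : Cfsg.BNPair G) (hirr : P.Irreducible) (hsolv : Group.IsSolvable P.B) (hperf : commutator G = ⊤)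
    (hcore : P.B.normalCore = ⊥) : IsSimpleGroup G := by
  refine ⟨fun H hH => ?_⟩
  have hHB : P.B ≤ H ⊔ P.B := le_sup_right
  have hM := subgroup_eq_parabolic P (H ⊔ P.B) hHB
  obtain ⟨X, hX⟩ : ∃ X, X = P.S ∩ ((H ⊔ P.B : Subgroup G) : Set G) := ⟨_, rfl⟩
  rw [← hX] at hM
  have hXS : X ⊆ P.S := by
    rw [hX]
    exact Set.inter_subset_left
  by_cases hXe : X = ∅
  · left
    rw [hXe, parabolic_empty] at hM
    have hHB' : H ≤ P.B := by
      rw [← hM]
      exact le_sup_left
    have h1 : H ≤ P.B.normalCore := Subgroup.normal_le_normalCore.mpr hHB'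
    rw [hcore] at h1
    exact le_bot_iff.mp h1
  by_cases hYe : P.S \ X = ∅
  · right
    have hXeq : X = P.S := by
      apply Set.Subset.antisymm hXS
      intro s hs
      by_contra hsX
      have h1 : s ∈ P.S \ X := ⟨hs, hsX⟩
      rw [hYe] at h1
      exact h1
    rw [hXeq, parabolic_S] at hM
    have hsurj : Function.Surjective ((QuotientGroup.mk' H).comp P.B.subtype) := by
      intro q
      induction q using QuotientGroup.induction_on with
      | H g =>
        have hg : g ∈ ((H ⊔ P.B : Subgroup G) : Set G) := by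
          rw [hM]
          exact Set.mem_univ g
        rw [Subgroup.normal_mul] at hg
        obtain ⟨h, hh, b, hb, rfl⟩ := Set.mem_mul.mp hg
        refine ⟨⟨b, hb⟩, ?_⟩
        show ((b : G) : G ⧸ H) = ((h * b : G) : G ⧸ H)
        rw [QuotientGroup.eq]
        have h2 := hH.conj_mem h hh b⁻¹
        rw [inv_inv] at h2
        rw [← mul_assoc]
        exact h2
    haveI : Group.IsSolvable (G ⧸ H) := Group.isSolvable_of_surjective hsurj
    by_contra hne
    haveI : Nontrivial (G ⧸ H) := by
      rw [← not_subsingleton_iff_nontrivial]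
      intro hsub
      exact hne (QuotientGroup.subgroup_eq_top_of_subsingleton H hsub)
    have hlt := Group.IsSolvable.commutator_lt_top_of_nontrivial (G ⧸ H)
    apply hlt.ne
    rw [commutator_def, ← Subgroup.map_top_of_surjective (QuotientGroup.mk' H)
      (QuotientGroup.mk'_surjective H), ← Subgroup.map_commutator, ← commutator_def, hperf]
  · exfalso
    obtain ⟨x, hxX, y, hyY, hxy⟩ := hirr X hXS (Set.nonempty_iff_ne_empty.mpr hXe)
      (Set.nonempty_iff_ne_empty.mpr hYe)
    apply hxy
    have hxS := hXS hxX
    have hyS := hyY.1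
    have hxM : x ∈ H ⊔ P.B := by
      rw [hX] at hxX
      exact hxX.2
    have hyM : y ∉ H ⊔ P.B := by
      intro hy
      apply hyY.2
      rw [hX]
      exact ⟨hyS, hy⟩
    have hxN := P.subset hxS
    have hyN := P.subset hyS
    obtain ⟨h, hh, b, hb, hhb⟩ : ∃ h ∈ H, ∃ b ∈ P.B, h * b = x := by
      have h1 : x ∈ ((H ⊔ P.B : Subgroup G) : Set G) := hxM
      rw [Subgroup.normal_mul] at h1
      exact Set.mem_mul.mp h1
    have hhdc : h ∈ dc P x := by
      rw [mem_dc]
      refine ⟨1, P.B.one_mem, b⁻¹, P.B.inv_mem hb, ?_⟩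
      rw [← hhb]
      group
    have hne : x ≠ y := fun e => hyY.2 (e ▸ hxX)
    have hlen : len P x ≤ len P (y * x) := by
      rw [len_S P hxS]
      by_contra hlt
      have h0 : len P (y * x) = 0 := by omega
      have h1 := mem_B_of_len_zero P (P.N.mul_mem hyN hxN) h0
      have h2 : y⁻¹ * x ∈ P.B := by
        have e : y⁻¹ * x = (y * y)⁻¹ * (y * x) := by group
        rw [e]
        exact P.B.mul_mem (P.B.inv_mem (P.sq_mem y hyS)) h1
      exact hne (P.inj y hyS x hxS h2).symm
    have h1 : y * h ∈ dc P (y * x) := key_a P _ x hxN rfl y hyS hlen h hhdc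
    have h2 := t3_right_inv P hyS (P.N.mul_mem hyN hxN) h1
    have hgH : y * h * y⁻¹ ∈ H := hH.conj_mem h hh y
    have hgM : y * h * y⁻¹ ∈ H ⊔ P.B := (le_sup_left : H ≤ H ⊔ P.B) hgH
    have hdcM : ∀ n : G, y * h * y⁻¹ ∈ dc P n → n ∈ H ⊔ P.B := by
      intro n hn
      obtain ⟨b1, hb1, b2, hb2, e⟩ := (mem_dc P).mp hn
      have e' : n = b1⁻¹ * (y * h * y⁻¹) * b2⁻¹ := by
        rw [e]
        group
      rw [e']
      exact Subgroup.mul_mem _ (Subgroup.mul_mem _ (Subgroup.inv_mem _ (hHB hb1)) hgM)
        (Subgroup.inv_mem _ (hHB hb2))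
    rcases h2 with h2 | h2
    · have hnM := hdcM _ h2
      have hnN : y * x * y ∈ P.N := P.N.mul_mem (P.N.mul_mem hyN hxN) hyN
      have hW : IsWord P [y, x, y] := by
        intro z hz
        simp only [List.mem_cons, List.not_mem_nil, or_false] at hz
        rcases hz with hz | hz | hz
        · rw [hz]; exact hyS
        · rw [hz]; exact hxS
        · rw [hz]; exact hyS
      have hprod : [y, x, y].prod = y * x * y := by simp [mul_assoc]
      by_cases hl3 : len P (y * x * y) = 3
      · exfalso
        apply hyM
        exact key_c P (H ⊔ P.B) hHB [y, x, y] hW (y * x * y) hnN (by simp [hl3])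
          (eqv_of_eq P hprod)
          (fun c hc => Subgroup.mul_mem _ (Subgroup.mul_mem _ hnM (hHB hc))
            (Subgroup.inv_mem _ hnM)) y (by simp)
      · have hlt : len P [y, x, y].prod < [y, x, y].length := by
          have h3 := len_le P hW (eqv_refl P _)
          rw [hprod] at h3 ⊢
          simp only [List.length_cons, List.length_nil] at h3 ⊢
          omega
        obtain ⟨L', hlen', hmem', heq'⟩ := deletion P [y, x, y] hW hlt
        have hL1 : L'.length = 1 := by
          simp only [List.length_cons, List.length_nil] at hlen'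
          omega
        obtain ⟨z, hz⟩ := List.length_eq_one_iff.mp hL1
        rw [hz, List.prod_singleton, hprod] at heq'
        have hzm := hmem' z (by rw [hz]; simp)
        simp only [List.mem_cons, List.not_mem_nil, or_false] at hzm
        have hz' : z = y ∨ z = x := by tauto
        rcases hz' with hzy | hzx
        · exfalso
          rw [hzy] at heq'
          unfold eqv at heq'
          have h3 : x⁻¹ * y ∈ P.B := by
            have e : x⁻¹ * y = (x * x)⁻¹ * (y⁻¹ * (y * x * y)) := by group
            rw [e]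
            exact P.B.mul_mem (P.B.inv_mem (P.sq_mem x hxS)) heq'
          exact hne (P.inj x hxS y hyS h3)
        · rw [hzx] at heq'
          unfold eqv at heq'
          have hyy := P.B.inv_mem (P.sq_mem y hyS)
          have h3 := conjT P hxN (P.B.mul_mem heq' hyy)
            (P.N.mul_mem (P.N.mul_mem (P.N.inv_mem hxN) hnN) (P.N.inv_mem (sq_mem_N P hyS)))
          have e : x * y * x⁻¹ * y⁻¹ = (x * (x⁻¹ * (y * x * y) * (y * y)⁻¹) * x⁻¹)⁻¹ := by group
          rw [e]
          exact P.B.inv_mem h3
    · exfalso
      have hyxM := hdcM _ h2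
      apply hyM
      have e : y = (y * x) * x⁻¹ := by group
      rw [e]
      exact Subgroup.mul_mem _ hyxM (Subgroup.inv_mem _ hxM)

end Cfsg.Agent.S0319
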