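import Mathlib
import Cfsg.Agent.Lib.Helper1.BN
import Cfsg.Statements.S0321

set_option autoImplicit false
open Cfsg
open Cfsg.Agent.Lib.Helper1.BN

namespace Cfsg.Agent.S0321

/-- For `n ∈ N` not in `B`, the union `B ∪ B n B` is (the underlying set of) a subgroup exactly when `n` agrees
modulo `B ⊓ N` with one of the distinguished representatives; thus the distinguished involutions are
determined by `B` and `N`. -/
theorem result {G : Type*} [Group G] (P : Cfsg.BNPair G) {n : G}
    (hn : n ∈ P.N) (hnB : n ∉ P.B) :
    (∃ H : Subgroup G, (H : Set G) = (P.B : Set G) ∪ DoubleCoset.doubleCoset n (P.B : Set G) P.B) ↔ ∃ s ∈ P.S, s⁻¹ * n ∈ P.B := by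
  constructor
  · rintro ⟨H, hH⟩
    have hBH : P.B ≤ H := by
      intro b hb
      have : b ∈ (H : Set G) := by
        rw [hH]
        left
        exact hb
      exact this
    have hnH : n ∈ H := by
      have : n ∈ (H : Set G) := by
        rw [hH]
        right
        exact mem_dc_self P n
      exact this
    have h1 := subgroup_eq_parabolic P H hBH
    have hne : (P.S ∩ (H : Set G)).Nonempty := by
      by_contra hempty
      rw [Set.not_nonempty_iff_eq_empty] at hempty
      rw [hempty, parabolic_empty] at h1
      rw [h1] at hnH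
      exact hnB hnH
    obtain ⟨s, hsS, hsH⟩ := hne
    refine ⟨s, hsS, ?_⟩
    have h2 : s ∈ (P.B : Set G) ∪ dc P n := by
      rw [← hH]
      exact hsH
    rcases h2 with h2 | h2
    · exact absurd h2 (S_not_mem_B P hsS)
    · exact bruhat_unique P (P.subset hsS) hn (dc_eq_of_mem P h2)
  · rintro ⟨s, hs, hsn⟩
    refine ⟨P.parabolic {s}, ?_⟩
    have h3 : dc P s = dc P n := eqv_dc P hsn
    rw [parabolic_singleton P hs, h3]

end Cfsg.Agent.S0321
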