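import Mathlib
import Cfsg.Agent.Lib.Helper1.BN
import Cfsg.Statements.S0322

set_option autoImplicit false
open Cfsg
open Cfsg.Agent.Lib.Helper1.BN

namespace Cfsg.Agent.S0322

/-- A group with a (B,N)-pair of rank one acts doubly transitively on the left cosets of `B`. -/
theorem result {G : Type*} [Group G] (P : Cfsg.BNPair G) (h : P.rank = 1) : MulAction.IsMultiplyPretransitive G (G ⧸ P.B) 2 := by
  rw [MulAction.is_two_pretransitive_iff]
  have hcard : Nat.card P.S = 1 := h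
  obtain ⟨s, hs⟩ : ∃ s, s ∈ P.S := by
    have h0 : 0 < Nat.card P.S := by
      rw [hcard]
      norm_num
    obtain ⟨⟨s, hs⟩⟩ := (Nat.card_pos_iff.mp h0).1
    exact ⟨s, hs⟩
  have hS : P.S = {s} := by
    ext x
    constructor
    · intro hx
      have hsub : Subsingleton P.S := (Nat.card_eq_one_iff_unique.mp hcard).1
      have := Subsingleton.elim (⟨x, hx⟩ : P.S) ⟨s, hs⟩
      exact congrArg Subtype.val this
    · intro hx
      rw [Set.mem_singleton_iff] at hx
      rw [hx]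
      exact hs
  have hG : ∀ g : G, g ∉ P.B → g ∈ dc P s := by
    intro g hg
    have h1 : g ∈ (P.parabolic {s} : Set G) := by
      rw [← hS, parabolic_S]
      exact Set.mem_univ g
    rw [parabolic_singleton P hs] at h1
    rcases h1 with h1 | h1
    · exact absurd h1 hg
    · exact h1
  intro a b c d hab hcd
  induction a using QuotientGroup.induction_on with
  | H x =>
  induction b using QuotientGroup.induction_on with
  | H y =>
  induction c using QuotientGroup.induction_on with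
  | H z =>
  induction d using QuotientGroup.induction_on with
  | H w =>
  have hxy : x⁻¹ * y ∉ P.B := fun hh => hab (QuotientGroup.eq.mpr hh)
  have hzw : z⁻¹ * w ∉ P.B := fun hh => hcd (QuotientGroup.eq.mpr hh)
  obtain ⟨b1, hb1, b2, hb2, e1⟩ := (mem_dc P).mp (hG _ hxy)
  obtain ⟨b3, hb3, b4, hb4, e2⟩ := (mem_dc P).mp (hG _ hzw)
  refine ⟨z * b3 * b1⁻¹ * x⁻¹, ?_, ?_⟩
  · show ((z * b3 * b1⁻¹ * x⁻¹ * x : G) : G ⧸ P.B) = (z : G ⧸ P.B)
    rw [QuotientGroup.eq]
    have e : (z * b3 * b1⁻¹ * x⁻¹ * x)⁻¹ * z = b1 * b3⁻¹ := by group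
    rw [e]
    exact P.B.mul_mem hb1 (P.B.inv_mem hb3)
  · show ((z * b3 * b1⁻¹ * x⁻¹ * y : G) : G ⧸ P.B) = (w : G ⧸ P.B)
    rw [QuotientGroup.eq]
    have e : (z * b3 * b1⁻¹ * x⁻¹ * y)⁻¹ * w = (x⁻¹ * y)⁻¹ * b1 * b3⁻¹ * (z⁻¹ * w) := by group
    rw [e, e1, e2]
    have e' : (b1 * s * b2)⁻¹ * b1 * b3⁻¹ * (b3 * s * b4) = b2⁻¹ * b4 := by group
    rw [e']
    exact P.B.mul_mem (P.B.inv_mem hb2) hb4

end Cfsg.Agent.S0322
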