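import Mathlib
import Cfsg.Statements.S0323

set_option autoImplicit false
open scoped Pointwise
open Cfsg

namespace Cfsg.Agent.S0323

/-- A doubly transitive action on a set with at least three points yields a (B,N)-pair of rank one:
`B` is the stabiliser of a point `x`, `N` the setwise stabiliser of a pair `{x, y}`. -/
theorem result {G Ω : Type*} [Group G] [MulAction G Ω]
    (h2 : MulAction.IsMultiplyPretransitive G Ω 2) {x y z : Ω} (hxy : x ≠ y) (hyz : y ≠ z) (hxz : x ≠ z) :
    ∃ P : Cfsg.BNPair G, P.B = MulAction.stabilizer G x ∧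
      P.N = MulAction.stabilizer G ({x, y} : Set Ω) ∧ P.rank = 1 := by
  classical
  have tw : ∀ (a b c d : Ω), a ≠ b → c ≠ d → ∃ g : G, g • a = c ∧ g • b = d :=
    fun a b c d hab hcd => MulAction.is_two_pretransitive_iff.mp h2 hab hcd
  obtain ⟨s, hsx, hsy⟩ := tw x y y x hxy hxy.symm
  have hN : ∀ n : G, n ∈ MulAction.stabilizer G ({x, y} : Set Ω) ↔
      (n • x = x ∧ n • y = y) ∨ (n • x = y ∧ n • y = x) := by
    intro n
    rw [MulAction.mem_stabilizer_iff, ← Set.image_smul, Set.image_pair, Set.pair_eq_pair_iff]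
  have hB : ∀ g : G, g ∈ MulAction.stabilizer G x ↔ g • x = x :=
    fun g => MulAction.mem_stabilizer_iff
  have hsN : s ∈ MulAction.stabilizer G ({x, y} : Set Ω) := (hN s).mpr (Or.inr ⟨hsx, hsy⟩)
  have hsinv : s⁻¹ • y = x := by rw [← hsx, inv_smul_smul]
  have hclaim : ∀ g : G, g • x ≠ x → ∃ b ∈ MulAction.stabilizer G x,
      ∃ b' ∈ MulAction.stabilizer G x, g = b * s * b' := by
    intro g hg
    obtain ⟨b, hbx, hby⟩ := tw x (g • x) x y (Ne.symm hg) hxy
    refine ⟨b⁻¹, (Subgroup.inv_mem _ ((hB b).mpr hbx)), s⁻¹ * b * g, ?_, by group⟩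
    rw [hB, mul_smul, mul_smul, hby, hsinv]
  refine ⟨{ B := MulAction.stabilizer G x, N := MulAction.stabilizer G ({x, y} : Set Ω),
            S := {s}, sup_eq_top := ?_, conj_mem := ?_, subset := ?_, sq_mem := ?_, inj := ?_,
            closure_sup := ?_, mul_mem_union := ?_, conj_ne := ?_ }, rfl, rfl, ?_⟩
  · rw [eq_top_iff]
    intro g _
    by_cases hg : g • x = x
    · exact (le_sup_left : MulAction.stabilizer G x ≤ _) ((hB g).mpr hg)
    · obtain ⟨b, hb, b', hb', rfl⟩ := hclaim g hg
      exact Subgroup.mul_mem _ (Subgroup.mul_mem _ (Subgroup.mem_sup_left hb)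
        (Subgroup.mem_sup_right hsN)) (Subgroup.mem_sup_left hb')
  · intro n hn t ht
    rw [Subgroup.mem_inf] at ht
    have htx := (hB t).mp ht.1
    have hty : t • y = y := by
      rcases (hN t).mp ht.2 with h | h
      · exact h.2
      · exact absurd (htx.symm.trans h.1) hxy
    rw [hB, mul_smul, mul_smul]
    have hninv := (hN n⁻¹).mp (Subgroup.inv_mem _ hn)
    rcases hninv with h | h
    · rw [h.1, htx]
      exact (inv_smul_eq_iff.mp h.1).symm
    · rw [h.1, hty]
      exact (inv_smul_eq_iff.mp h.1).symm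
  · intro s' hs'
    rw [Set.mem_singleton_iff] at hs'
    rw [hs']
    exact hsN
  · intro s' hs'
    rw [Set.mem_singleton_iff] at hs'
    rw [hs', hB, mul_smul, hsx, hsy]
  · intro a ha b hb _
    rw [Set.mem_singleton_iff] at ha hb
    rw [ha, hb]
  · apply le_antisymm
    · apply sup_le
      · rw [Subgroup.closure_le, Set.singleton_subset_iff]
        exact hsN
      · exact inf_le_right
    · intro n hn
      rcases (hN n).mp hn with h | h
      · exact Subgroup.mem_sup_right (Subgroup.mem_inf.mpr ⟨(hB n).mpr h.1, hn⟩)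
      · have h1 : s⁻¹ * n ∈ MulAction.stabilizer G x ⊓
            MulAction.stabilizer G ({x, y} : Set Ω) := by
          rw [Subgroup.mem_inf]
          refine ⟨?_, Subgroup.mul_mem _ (Subgroup.inv_mem _ hsN) hn⟩
          rw [hB, mul_smul, h.1, hsinv]
        have e : n = s * (s⁻¹ * n) := by group
        rw [e]
        exact Subgroup.mul_mem _ (Subgroup.mem_sup_left (Subgroup.subset_closure rfl))
          (Subgroup.mem_sup_right h1)
  · intro s' hs' n hn b hb
    rw [Set.mem_singleton_iff] at hs'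
    rw [hs']
    have hbx := (hB b).mp hb
    by_cases hnB : n • x = x
    · left
      rw [DoubleCoset.mem_doubleCoset]
      refine ⟨1, Subgroup.one_mem _, n⁻¹ * b * n, ?_, by group⟩
      rw [SetLike.mem_coe, hB, mul_smul, mul_smul, hnB, hbx, inv_smul_eq_iff, hnB]
    · by_cases hg : (s * b * n) • x = x
      · left
        rw [DoubleCoset.mem_doubleCoset]
        have hsn : (s * n) • x = x := by
          rcases (hN n).mp hn with h | h
          · exact absurd h.1 hnB
          · rw [mul_smul, h.1, hsy]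
        refine ⟨s * b * n * (s * n)⁻¹, ?_, 1, Subgroup.one_mem _, by group⟩
        rw [SetLike.mem_coe, hB, mul_smul, inv_smul_eq_iff.mpr hsn.symm, hg]
      · right
        obtain ⟨b1, hb1, b2, hb2, e1⟩ := hclaim _ hg
        obtain ⟨b3, hb3, b4, hb4, e2⟩ := hclaim n hnB
        rw [DoubleCoset.mem_doubleCoset]
        refine ⟨b1 * b3⁻¹, Subgroup.mul_mem _ hb1 (Subgroup.inv_mem _ hb3), b4⁻¹ * b2,
          Subgroup.mul_mem _ (Subgroup.inv_mem _ hb4) hb2, ?_⟩
        rw [e1]
        have e3 : b1 * b3⁻¹ * n * (b4⁻¹ * b2) = b1 * b3⁻¹ * (b3 * s * b4) * (b4⁻¹ * b2) := by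
          rw [← e2]
        rw [e3]
        group
  · intro s' hs'
    rw [Set.mem_singleton_iff] at hs'
    rw [hs']
    obtain ⟨b, hbx, hby⟩ := tw x y x z hxy hxz
    intro heq
    have h1 : s * b * s ∈ (fun b : G => s * b * s) '' (MulAction.stabilizer G x : Set G) :=
      ⟨b, (hB b).mpr hbx, rfl⟩
    rw [heq] at h1
    have h2 := (hB _).mp h1
    rw [mul_smul, mul_smul, hsx, hby] at h2
    have h3 : s • z = s • y := by rw [h2, hsy]
    exact hyz (MulAction.injective s h3).symm
  · show Nat.card ({s} : Set G) = 1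
    rw [Nat.card_coe_set_eq, Set.ncard_singleton]

end Cfsg.Agent.S0323
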