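import Mathlib
import Cfsg.Agent.Lib.Helper1.Sz4
import Cfsg.Statements.S0327

set_option autoImplicit false
open Cfsg

namespace Cfsg.Agent.S0327

/-- The Suzuki group (`m ≥ 1`) is a Zassenhaus group on the `q² + 1` points of the Suzuki–Tits ovoid. -/
theorem result {F : Type*} [Field F] [Fintype F] {m : ℕ} (hm : 1 ≤ m)
    (hF : Fintype.card F = 2 ^ (2 * m + 1)) :
    Cfsg.IsZassenhausGroup (Cfsg.Sz F m) (Cfsg.suzukiOvoid F m) := by
  obtain ⟨D⟩ := Cfsg.Agent.Lib.Helper1.Sz.exists_dat hm hF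
  have hI : (Cfsg.Agent.Lib.Helper1.Sz.pI : Projectivization F (Fin 4 → F)) ∈ Cfsg.suzukiOvoid F m :=
    Cfsg.Agent.Lib.Helper1.Sz.pI_mem
  have hne1 : Cfsg.Agent.Lib.Helper1.Sz.pt D 0 0 ≠ Cfsg.Agent.Lib.Helper1.Sz.pt D 1 0 := fun h => by
    have := (Cfsg.Agent.Lib.Helper1.Sz.pt_inj D h).1
    exact zero_ne_one this
  refine ⟨⟨?_⟩, ?_, ?_, ?_, ?_⟩
  · intro g g' h
    have key : ∀ p ∈ Cfsg.suzukiOvoid F m,
        ((g'⁻¹ * g : Cfsg.Sz F m) : Matrix.SpecialLinearGroup (Fin 4) F) • p = p := by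
      intro p hp
      have h1 : (g : Matrix.SpecialLinearGroup (Fin 4) F) • p =
          (g' : Matrix.SpecialLinearGroup (Fin 4) F) • p := congrArg Subtype.val (h ⟨p, hp⟩)
      show ((g' : Matrix.SpecialLinearGroup (Fin 4) F)⁻¹ *
        (g : Matrix.SpecialLinearGroup (Fin 4) F)) • p = p
      rw [mul_smul, inv_smul_eq_iff]
      exact h1
    have h1 : ((g'⁻¹ * g : Cfsg.Sz F m) : Matrix.SpecialLinearGroup (Fin 4) F) = 1 :=
      Cfsg.Agent.Lib.Helper1.Sz.fix3 D (g'⁻¹ * g).2 hI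
        (Cfsg.Agent.Lib.Helper1.Sz.pt_mem D 0 0) (Cfsg.Agent.Lib.Helper1.Sz.pt_mem D 1 0)
        (Cfsg.Agent.Lib.Helper1.Sz.pt_ne_pI D 0 0).symm hne1
        (Cfsg.Agent.Lib.Helper1.Sz.pt_ne_pI D 1 0).symm (key _ hI)
        (key _ (Cfsg.Agent.Lib.Helper1.Sz.pt_mem D 0 0))
        (key _ (Cfsg.Agent.Lib.Helper1.Sz.pt_mem D 1 0))
    have h2 : g'⁻¹ * g = 1 := Subtype.ext h1
    exact (inv_mul_eq_one.mp h2).symm
  · rw [MulAction.is_two_pretransitive_iff]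
    intro a b c d hab hcd
    obtain ⟨g, hg, e1, e2⟩ := Cfsg.Agent.Lib.Helper1.Sz.two_trans D a.2 b.2
      (fun h => hab (Subtype.ext h)) c.2 d.2 (fun h => hcd (Subtype.ext h))
    exact ⟨⟨g, hg⟩, Subtype.ext e1, Subtype.ext e2⟩
  · intro g a b c hab hbc hac ha hb hc
    exact Subtype.ext (Cfsg.Agent.Lib.Helper1.Sz.fix3 D g.2 a.2 b.2 c.2
      (fun h => hab (Subtype.ext h)) (fun h => hbc (Subtype.ext h)) (fun h => hac (Subtype.ext h))
      (congrArg Subtype.val ha) (congrArg Subtype.val hb) (congrArg Subtype.val hc))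
  · obtain ⟨t, ht⟩ := D.exists_unit_ne
    refine ⟨Cfsg.Agent.Lib.Helper1.Sz.hG D t, fun h => ht (Cfsg.Agent.Lib.Helper1.Sz.hG_inj D
      (h.trans (Cfsg.Agent.Lib.Helper1.Sz.hG_one D).symm)),
      ⟨Cfsg.Agent.Lib.Helper1.Sz.pI, hI⟩,
      ⟨Cfsg.Agent.Lib.Helper1.Sz.pt D 0 0, Cfsg.Agent.Lib.Helper1.Sz.pt_mem D 0 0⟩,
      fun h => (Cfsg.Agent.Lib.Helper1.Sz.pt_ne_pI D 0 0) (congrArg Subtype.val h).symm,
      Subtype.ext (Cfsg.Agent.Lib.Helper1.Sz.Hs_pI D t),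
      Subtype.ext (Cfsg.Agent.Lib.Helper1.Sz.Hs_pt0 D t)⟩
  · intro N hN htrans
    by_contra hcon
    simp only [not_exists, not_not] at hcon
    apply Cfsg.Agent.Lib.Helper1.Sz.no_regular D hN
    · intro n hn h
      have h1 : (⟨n, hn⟩ : N) ∈ MulAction.stabilizer N
          (⟨Cfsg.Agent.Lib.Helper1.Sz.pI, hI⟩ : Cfsg.suzukiOvoid F m) := by
        rw [MulAction.mem_stabilizer_iff]
        exact Subtype.ext h
      rw [hcon, Subgroup.mem_bot] at h1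
      exact congrArg Subtype.val h1
    · obtain ⟨n, hn⟩ := MulAction.exists_smul_eq N
        (⟨Cfsg.Agent.Lib.Helper1.Sz.pI, hI⟩ : Cfsg.suzukiOvoid F m)
        ⟨Cfsg.Agent.Lib.Helper1.Sz.pt D 0 0, Cfsg.Agent.Lib.Helper1.Sz.pt_mem D 0 0⟩
      refine ⟨n, n.2, ?_⟩
      intro h1
      have e : ((n : Cfsg.Sz F m) : Matrix.SpecialLinearGroup (Fin 4) F) •
          (Cfsg.Agent.Lib.Helper1.Sz.pI : Projectivization F (Fin 4 → F)) =
          Cfsg.Agent.Lib.Helper1.Sz.pt D 0 0 := congrArg Subtype.val hn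
      rw [h1] at e
      exact Cfsg.Agent.Lib.Helper1.Sz.pt_ne_pI D 0 0 (by simpa using e.symm)

end Cfsg.Agent.S0327
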