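import Mathlib
import Cfsg.Agent.Lib.Helper1.Sz3
import Cfsg.Statements.S0328

set_option autoImplicit false
open Cfsg

namespace Cfsg.Agent.S0328

/-- The stabiliser in the Suzuki group of the two ovoid points spanned by `(1,0,0,0)` and `(0,0,0,1)` is
isomorphic to the multiplicative group of the field (cyclic of order `q - 1`). -/
theorem result {F : Type*} [Field F] [Fintype F] {m : ℕ} (hm : 1 ≤ m)
    (hF : Fintype.card F = 2 ^ (2 * m + 1)) :
    Nonempty (↥(MulAction.stabilizer (Cfsg.Sz F m) (Cfsg.suzukiPointInfinity F) ⊓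
        MulAction.stabilizer (Cfsg.Sz F m) (Cfsg.suzukiPointZero F)) ≃* Fˣ) := by
  obtain ⟨D⟩ := Cfsg.Agent.Lib.Helper1.Sz.exists_dat hm hF
  let φ : Fˣ →* Cfsg.Sz F m := (Cfsg.Agent.Lib.Helper1.Sz.HsHom D).codRestrict (Cfsg.Sz F m)
    (fun t => Cfsg.Agent.Lib.Helper1.Sz.Hs_mem D t)
  have hinj : Function.Injective φ := by
    intro s t h
    exact Cfsg.Agent.Lib.Helper1.Sz.Hs_inj D (congrArg Subtype.val h)
  have hrange : φ.range = MulAction.stabilizer (Cfsg.Sz F m) (Cfsg.suzukiPointInfinity F) ⊓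
      MulAction.stabilizer (Cfsg.Sz F m) (Cfsg.suzukiPointZero F) := by
    ext ⟨g, hg⟩
    simp only [MonoidHom.mem_range, Subgroup.mem_inf, MulAction.mem_stabilizer_iff]
    constructor
    · rintro ⟨t, ht⟩
      have : g = Cfsg.Agent.Lib.Helper1.Sz.Hs D t := (congrArg Subtype.val ht).symm
      subst this
      exact ⟨Cfsg.Agent.Lib.Helper1.Sz.Hs_pI D t, by
        rw [Cfsg.Agent.Lib.Helper1.Sz.pZ_eq D]
        exact Cfsg.Agent.Lib.Helper1.Sz.Hs_pt0 D t⟩
    · rintro ⟨h1, h0⟩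
      rw [Cfsg.Agent.Lib.Helper1.Sz.pZ_eq D] at h0
      obtain ⟨t, ht⟩ := Cfsg.Agent.Lib.Helper1.Sz.stab2 D hg h1 h0
      exact ⟨t, Subtype.ext ht.symm⟩
  exact ⟨(MulEquiv.subgroupCongr hrange.symm).trans (MonoidHom.ofInjective hinj).symm⟩

end Cfsg.Agent.S0328
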