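import Mathlib
import Cfsg.Agent.Lib.Helper1.Sz3
import Cfsg.Statements.S0334

set_option autoImplicit false
open Cfsg

namespace Cfsg.Agent.S0334

/-- Every element of the Suzuki group preserves the alternating form with antidiagonal matrix:
`gᵀ J g = J`. Hence the Suzuki group is a subgroup of a 4-dimensional symplectic group. -/
theorem result {F : Type*} [Field F] [Fintype F] {m : ℕ} (hm : 1 ≤ m)
    (hF : Fintype.card F = 2 ^ (2 * m + 1)) {g : Matrix.SpecialLinearGroup (Fin 4) F}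
    (hg : g ∈ Cfsg.Sz F m) :
    (g : Matrix (Fin 4) (Fin 4) F).transpose * Cfsg.suzukiForm F * (g : Matrix (Fin 4) (Fin 4) F) =
      Cfsg.suzukiForm F := by
  obtain ⟨D⟩ := Cfsg.Agent.Lib.Helper1.Sz.exists_dat hm hF
  have hJ : Cfsg.suzukiForm F = Cfsg.Agent.Lib.Helper1.Sz.WW := rfl
  rw [hJ]
  have mulJ : ∀ A B : Matrix (Fin 4) (Fin 4) F,
      A.transpose * Cfsg.Agent.Lib.Helper1.Sz.WW * A = Cfsg.Agent.Lib.Helper1.Sz.WW →
      B.transpose * Cfsg.Agent.Lib.Helper1.Sz.WW * B = Cfsg.Agent.Lib.Helper1.Sz.WW →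
      (A * B).transpose * Cfsg.Agent.Lib.Helper1.Sz.WW * (A * B) = Cfsg.Agent.Lib.Helper1.Sz.WW := by
    intro A B hA hB
    rw [Matrix.transpose_mul]
    calc B.transpose * A.transpose * Cfsg.Agent.Lib.Helper1.Sz.WW * (A * B)
        = B.transpose * (A.transpose * Cfsg.Agent.Lib.Helper1.Sz.WW * A) * B := by
          simp only [Matrix.mul_assoc]
      _ = Cfsg.Agent.Lib.Helper1.Sz.WW := by rw [hA, hB]
  have hT : ∀ a b, (Cfsg.Agent.Lib.Helper1.Sz.Ts D a b).1.transpose * Cfsg.Agent.Lib.Helper1.Sz.WW *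
      (Cfsg.Agent.Lib.Helper1.Sz.Ts D a b).1 = Cfsg.Agent.Lib.Helper1.Sz.WW :=
    fun a b => Cfsg.Agent.Lib.Helper1.Sz.TT_form D.h2 D.hθ a b
  have hH : ∀ t, (Cfsg.Agent.Lib.Helper1.Sz.Hs D t).1.transpose * Cfsg.Agent.Lib.Helper1.Sz.WW *
      (Cfsg.Agent.Lib.Helper1.Sz.Hs D t).1 = Cfsg.Agent.Lib.Helper1.Sz.WW :=
    fun t => Cfsg.Agent.Lib.Helper1.Sz.HH_form D.h2 D.hθ t.ne_zero
  have hW : (Cfsg.Agent.Lib.Helper1.Sz.Ws D).1.transpose * Cfsg.Agent.Lib.Helper1.Sz.WW *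
      (Cfsg.Agent.Lib.Helper1.Sz.Ws D).1 = Cfsg.Agent.Lib.Helper1.Sz.WW :=
    Cfsg.Agent.Lib.Helper1.Sz.WW_form D.h2 D.hθ
  rcases Cfsg.Agent.Lib.Helper1.Sz.decomp D hg with ⟨a, b, t, rfl⟩ | ⟨a, b, c, d, t, rfl⟩
  · rw [Matrix.SpecialLinearGroup.coe_mul]
    exact mulJ _ _ (hT a b) (hH t)
  · simp only [Matrix.SpecialLinearGroup.coe_mul]
    exact mulJ _ _ (mulJ _ _ (hT a b) hW) (mulJ _ _ (hT c d) (hH t))

end Cfsg.Agent.S0334
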