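import Mathlib
import Cfsg.Agent.Lib.Helper1.Sz3
import Cfsg.Statements.S0335

set_option autoImplicit false
open Cfsg

namespace Cfsg.Agent.S0335

/-- The Suzuki–Tits point set is an ovoid: any three distinct points of it are projectively independent
(no line of projective 3-space meets it in more than two points). -/
theorem result {F : Type*} [Field F] [Fintype F] {m : ℕ} (hm : 1 ≤ m)
    (hF : Fintype.card F = 2 ^ (2 * m + 1)) (p : Fin 3 ↪ Cfsg.suzukiOvoid F m) :
    Projectivization.Independent (fun i => (p i : Projectivization F (Fin 4 → F))) := by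
  obtain ⟨D⟩ := Cfsg.Agent.Lib.Helper1.Sz.exists_dat hm hF
  have h01 : (p 0 : Projectivization F (Fin 4 → F)) ≠ p 1 := fun h => by
    have := p.injective (Subtype.ext h)
    simp at this
  obtain ⟨g, hg, e0, e1⟩ := Cfsg.Agent.Lib.Helper1.Sz.two_trans0 D (p 0).2 (p 1).2 h01
  have h2mem := Cfsg.Agent.Lib.Helper1.Sz.smul_mem hg (p 2).2
  have h02 : g • (p 2 : Projectivization F (Fin 4 → F)) ≠ Cfsg.Agent.Lib.Helper1.Sz.pI := by
    rw [← e0]
    intro h
    have := p.injective (Subtype.ext (MulAction.injective g h))
    simp at this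
  have h12 : g • (p 2 : Projectivization F (Fin 4 → F)) ≠ Cfsg.Agent.Lib.Helper1.Sz.pt D 0 0 := by
    rw [← e1]
    intro h
    have := p.injective (Subtype.ext (MulAction.injective g h))
    simp at this
  rcases (Cfsg.Agent.Lib.Helper1.Sz.mem_ovoid D _).mp h2mem with h | ⟨x, y, h⟩
  · exact absurd h h02
  · have hxy : x ≠ 0 ∨ y ≠ 0 := by
      by_contra hc
      simp only [not_or, not_not] at hc
      obtain ⟨rfl, rfl⟩ := hc
      exact h12 h
    let u : Fin 3 → (Fin 4 → F) := ![Cfsg.Agent.Lib.Helper1.Sz.e0,
      Cfsg.Agent.Lib.Helper1.Sz.vc D.θ 0 0, Cfsg.Agent.Lib.Helper1.Sz.vc D.θ x y]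
    have hu : LinearIndependent F u := by
      rw [Fintype.linearIndependent_iff]
      intro c hc
      simp only [Fin.sum_univ_three, u, Matrix.cons_val_zero, Matrix.cons_val_one,
        Matrix.cons_val_two, Matrix.head_cons, Matrix.tail_cons] at hc
      have k0 := congrFun hc 0
      have k1 := congrFun hc 1
      have k2 := congrFun hc 2
      have k3 := congrFun hc 3
      simp [Cfsg.Agent.Lib.Helper1.Sz.e0, Cfsg.Agent.Lib.Helper1.Sz.vc,
        Cfsg.Agent.Lib.Helper1.Sz.ff] at k0 k1 k2 k3
      have c2 : c 2 = 0 := by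
        rcases hxy with hx | hy
        · rcases k2 with h | h
          · exact h
          · exact absurd h hx
        · rcases k1 with h | h
          · exact h
          · exact absurd h hy
      rw [c2] at k0 k3
      simp at k0 k3
      intro i
      fin_cases i
      · exact k0
      · exact k3
      · exact c2
    have hL : LinearMap.ker (Matrix.mulVecLin (g⁻¹).1) = ⊥ := by
      rw [Matrix.ker_mulVecLin_eq_bot_iff]
      intro v hv
      exact (smul_eq_zero_iff_eq g⁻¹).mp hv
    have hf := hu.map' (Matrix.mulVecLin (g⁻¹).1) hL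
    have hne : ∀ i, (Matrix.mulVecLin (g⁻¹).1 ∘ u) i ≠ 0 := fun i => hf.ne_zero i
    have hgu : ∀ i, g • (p i : Projectivization F (Fin 4 → F)) =
        Projectivization.mk F (u i) (hu.ne_zero i) := by
      intro i
      fin_cases i
      · exact e0
      · exact e1
      · exact h
    have hp : (fun i => (p i : Projectivization F (Fin 4 → F))) =
        fun i => Projectivization.mk F ((Matrix.mulVecLin (g⁻¹).1 ∘ u) i) (hne i) := by
      funext i
      rw [eq_inv_smul_iff.mpr (hgu i)]
      rfl
    rw [hp]
    exact Projectivization.Independent.mk _ hne hf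

end Cfsg.Agent.S0335
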