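import Mathlib
import Cfsg.Agent.Lib.Helper1.Steiner
import Cfsg.Agent.S0352
import Cfsg.Statements.S0354

set_option autoImplicit false
open Cfsg

namespace Cfsg.Agent.S0354

/-- In an S(5, 8, 24), each block is disjoint from exactly 30 blocks. -/
theorem result {α : Type*} [Fintype α] [DecidableEq α] (hα : Fintype.card α = 24) {B : Set (Finset α)} (hB : Cfsg.IsSteinerSystem 5 8 B) {b : Finset α} (hb : b ∈ B) : {c : Finset α | c ∈ B ∧ Disjoint b c}.ncard = 30 := by
  have m0 := Lib.Helper1.steiner_moment_erase hB hb 0 (by norm_num)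
  have m2 := Lib.Helper1.steiner_moment_erase hB hb 2 (by norm_num)
  have m4 := Lib.Helper1.steiner_moment_erase hB hb 4 (by norm_num)
  rw [hα] at m0 m2 m4
  obtain ⟨S, hS⟩ : ∃ S, S = (Lib.Helper1.blocks B).erase b := ⟨_, rfl⟩
  rw [← hS] at m0 m2 m4
  have e0 : ∑ c ∈ S, (b ∩ c).card.choose 0 = 758 := by
    have h : (∑ c ∈ S, (b ∩ c).card.choose 0 + 1) * 56 = 1 * 42504 := by
      have c1 : Nat.choose 8 0 = 1 := by decide
      have c2 : Nat.choose (8 - 0) (5 - 0) = 56 := by decide
      have c3 : Nat.choose (24 - 0) (5 - 0) = 42504 := by decide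
      rw [c1, c2, c3] at m0
      exact m0
    omega
  have e2 : ∑ c ∈ S, (b ∩ c).card.choose 2 = 2128 := by
    have h : (∑ c ∈ S, (b ∩ c).card.choose 2 + 28) * 20 = 28 * 1540 := by
      have c1 : Nat.choose 8 2 = 28 := by decide
      have c2 : Nat.choose (8 - 2) (5 - 2) = 20 := by decide
      have c3 : Nat.choose (24 - 2) (5 - 2) = 1540 := by decide
      rw [c1, c2, c3] at m2
      exact m2
    omega
  have e4 : ∑ c ∈ S, (b ∩ c).card.choose 4 = 280 := by
    have h : (∑ c ∈ S, (b ∩ c).card.choose 4 + 70) * 4 = 70 * 20 := by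
      have c1 : Nat.choose 8 4 = 70 := by decide
      have c2 : Nat.choose (8 - 4) (5 - 4) = 4 := by decide
      have c3 : Nat.choose (24 - 4) (5 - 4) = 20 := by decide
      rw [c1, c2, c3] at m4
      exact m4
    omega
  have hset : {c : Finset α | c ∈ B ∧ Disjoint b c}
      = ↑(S.filter (fun c => (b ∩ c).card = 0)) := by
    ext c
    simp only [Set.mem_setOf_eq, Finset.coe_filter, hS, Finset.mem_erase, Lib.Helper1.mem_blocks,
      Finset.card_eq_zero, ← Finset.disjoint_iff_inter_eq_empty]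
    constructor
    · rintro ⟨hcB, hd⟩
      refine ⟨⟨?_, hcB⟩, hd⟩
      rintro rfl
      have h8 := hB.1 c hcB
      rw [disjoint_self, Finset.bot_eq_empty] at hd
      rw [hd] at h8
      simp at h8
    · rintro ⟨⟨-, hcB⟩, hd⟩
      exact ⟨hcB, hd⟩
  rw [hset, Set.ncard_coe_finset, Finset.card_filter]
  have hterm : ∀ c ∈ S, (if (b ∩ c).card = 0 then 1 else 0) + (b ∩ c).card.choose 2
      = (b ∩ c).card.choose 0 + 5 * (b ∩ c).card.choose 4 := by
    intro c hc
    rw [hS] at hc
    have hcB : c ∈ B := Lib.Helper1.mem_blocks.mp (Finset.mem_of_mem_erase hc)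
    have hne : b ≠ c := (Finset.ne_of_mem_erase hc).symm
    rcases Cfsg.Agent.S0352.result hα hB hb hcB hne with h | h | h <;> rw [h] <;> decide
  have hsum := Finset.sum_congr (rfl : S = S) hterm
  rw [Finset.sum_add_distrib, Finset.sum_add_distrib, ← Finset.mul_sum, e0, e2, e4] at hsum
  omega

end Cfsg.Agent.S0354
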