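import Mathlib
import Cfsg.Agent.Lib.Helper1.Steiner
import Cfsg.Statements.S0355

set_option autoImplicit false
open Cfsg

namespace Cfsg.Agent.S0355

/-- In a Steiner system S(4, 7, 23), two distinct blocks intersect in 1 or 3 points. -/
theorem result {α : Type*} [Fintype α] [DecidableEq α] (hα : Fintype.card α = 23) {B : Set (Finset α)} (hB : Cfsg.IsSteinerSystem 4 7 B) {b c : Finset α} (hb : b ∈ B) (hc : c ∈ B) (hbc : b ≠ c) : (b ∩ c).card = 1 ∨ (b ∩ c).card = 3 := by
  have m0 := Lib.Helper1.steiner_moment_erase hB hb 0 (by norm_num)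
  have m1 := Lib.Helper1.steiner_moment_erase hB hb 1 (by norm_num)
  have m2 := Lib.Helper1.steiner_moment_erase hB hb 2 (by norm_num)
  have m3 := Lib.Helper1.steiner_moment_erase hB hb 3 (by norm_num)
  rw [hα] at m0 m1 m2 m3
  obtain ⟨S, hS⟩ : ∃ S, S = (Lib.Helper1.blocks B).erase b := ⟨_, rfl⟩
  rw [← hS] at m0 m1 m2 m3
  have e0 : ∑ c ∈ S, (b ∩ c).card.choose 0 = 252 := by
    have h : (∑ c ∈ S, (b ∩ c).card.choose 0 + 1) * 35 = 1 * 8855 := by
      have c1 : Nat.choose 7 0 = 1 := by decide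
      have c2 : Nat.choose (7 - 0) (4 - 0) = 35 := by decide
      have c3 : Nat.choose (23 - 0) (4 - 0) = 8855 := by decide
      rw [c1, c2, c3] at m0
      exact m0
    omega
  have e1 : ∑ c ∈ S, (b ∩ c).card.choose 1 = 532 := by
    have h : (∑ c ∈ S, (b ∩ c).card.choose 1 + 7) * 20 = 7 * 1540 := by
      have c1 : Nat.choose 7 1 = 7 := by decide
      have c2 : Nat.choose (7 - 1) (4 - 1) = 20 := by decide
      have c3 : Nat.choose (23 - 1) (4 - 1) = 1540 := by decide
      rw [c1, c2, c3] at m1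
      exact m1
    omega
  have e2 : ∑ c ∈ S, (b ∩ c).card.choose 2 = 420 := by
    have h : (∑ c ∈ S, (b ∩ c).card.choose 2 + 21) * 10 = 21 * 210 := by
      have c1 : Nat.choose 7 2 = 21 := by decide
      have c2 : Nat.choose (7 - 2) (4 - 2) = 10 := by decide
      have c3 : Nat.choose (23 - 2) (4 - 2) = 210 := by decide
      rw [c1, c2, c3] at m2
      exact m2
    omega
  have e3 : ∑ c ∈ S, (b ∩ c).card.choose 3 = 140 := by
    have h : (∑ c ∈ S, (b ∩ c).card.choose 3 + 35) * 4 = 35 * 20 := by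
      have c1 : Nat.choose 7 3 = 35 := by decide
      have c2 : Nat.choose (7 - 3) (4 - 3) = 4 := by decide
      have c3 : Nat.choose (23 - 3) (4 - 3) = 20 := by decide
      rw [c1, c2, c3] at m3
      exact m3
    omega
  have hle : ∀ c ∈ S, 3 * (b ∩ c).card.choose 1 + 6 * (b ∩ c).card.choose 3
      ≤ 3 * (b ∩ c).card.choose 0 + 4 * (b ∩ c).card.choose 2 := by
    intro c hc
    rw [hS] at hc
    have hcB : c ∈ B := Lib.Helper1.mem_blocks.mp (Finset.mem_of_mem_erase hc)
    have hne : b ≠ c := (Finset.ne_of_mem_erase hc).symm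
    have hlt := Lib.Helper1.steiner_inter_lt hB hb hcB hne
    generalize (b ∩ c).card = f at hlt
    interval_cases f <;> decide
  have hsum : ∑ c ∈ S, (3 * (b ∩ c).card.choose 1 + 6 * (b ∩ c).card.choose 3)
      = ∑ c ∈ S, (3 * (b ∩ c).card.choose 0 + 4 * (b ∩ c).card.choose 2) := by
    rw [Finset.sum_add_distrib, Finset.sum_add_distrib, ← Finset.mul_sum, ← Finset.mul_sum,
      ← Finset.mul_sum, ← Finset.mul_sum, e0, e1, e2, e3]
    norm_num
  have hcS : c ∈ S := by
    rw [hS]
    exact Finset.mem_erase.mpr ⟨Ne.symm hbc, Lib.Helper1.mem_blocks.mpr hc⟩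
  have heq := (Finset.sum_eq_sum_iff_of_le hle).mp hsum c hcS
  have hlt := Lib.Helper1.steiner_inter_lt hB hb hc hbc
  generalize (b ∩ c).card = f at hlt heq ⊢
  interval_cases f
  · exact absurd heq (by decide)
  · left; rfl
  · exact absurd heq (by decide)
  · right; rfl

end Cfsg.Agent.S0355
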