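import Mathlib
import Cfsg.Agent.Lib.Helper1.Steiner
import Cfsg.Statements.S0357

set_option autoImplicit false
open Cfsg

namespace Cfsg.Agent.S0357

/-- In a Steiner system S(5, 6, 12), the complement of every block is again a block. -/
theorem result {α : Type*} [Fintype α] [DecidableEq α] (hα : Fintype.card α = 12) {B : Set (Finset α)} (hB : Cfsg.IsSteinerSystem 5 6 B) {b : Finset α} (hb : b ∈ B) : bᶜ ∈ B := by
  have m0 := Lib.Helper1.steiner_moment_erase hB hb 0 (by norm_num)
  have m1 := Lib.Helper1.steiner_moment_erase hB hb 1 (by norm_num)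
  have m2 := Lib.Helper1.steiner_moment_erase hB hb 2 (by norm_num)
  have m3 := Lib.Helper1.steiner_moment_erase hB hb 3 (by norm_num)
  have m4 := Lib.Helper1.steiner_moment_erase hB hb 4 (by norm_num)
  rw [hα] at m0 m1 m2 m3 m4
  obtain ⟨S, hS⟩ : ∃ S, S = (Lib.Helper1.blocks B).erase b := ⟨_, rfl⟩
  rw [← hS] at m0 m1 m2 m3 m4
  have e0 : ∑ c ∈ S, (b ∩ c).card.choose 0 = 131 := by
    have h : (∑ c ∈ S, (b ∩ c).card.choose 0 + 1) * 6 = 1 * 792 := by
      have c1 : Nat.choose 6 0 = 1 := by decide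
      have c2 : Nat.choose (6 - 0) (5 - 0) = 6 := by decide
      have c3 : Nat.choose (12 - 0) (5 - 0) = 792 := by decide
      rw [c1, c2, c3] at m0
      exact m0
    omega
  have e1 : ∑ c ∈ S, (b ∩ c).card.choose 1 = 390 := by
    have h : (∑ c ∈ S, (b ∩ c).card.choose 1 + 6) * 5 = 6 * 330 := by
      have c1 : Nat.choose 6 1 = 6 := by decide
      have c2 : Nat.choose (6 - 1) (5 - 1) = 5 := by decide
      have c3 : Nat.choose (12 - 1) (5 - 1) = 330 := by decide
      rw [c1, c2, c3] at m1
      exact m1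
    omega
  have e2 : ∑ c ∈ S, (b ∩ c).card.choose 2 = 435 := by
    have h : (∑ c ∈ S, (b ∩ c).card.choose 2 + 15) * 4 = 15 * 120 := by
      have c1 : Nat.choose 6 2 = 15 := by decide
      have c2 : Nat.choose (6 - 2) (5 - 2) = 4 := by decide
      have c3 : Nat.choose (12 - 2) (5 - 2) = 120 := by decide
      rw [c1, c2, c3] at m2
      exact m2
    omega
  have e3 : ∑ c ∈ S, (b ∩ c).card.choose 3 = 220 := by
    have h : (∑ c ∈ S, (b ∩ c).card.choose 3 + 20) * 3 = 20 * 36 := by
      have c1 : Nat.choose 6 3 = 20 := by decide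
      have c2 : Nat.choose (6 - 3) (5 - 3) = 3 := by decide
      have c3 : Nat.choose (12 - 3) (5 - 3) = 36 := by decide
      rw [c1, c2, c3] at m3
      exact m3
    omega
  have e4 : ∑ c ∈ S, (b ∩ c).card.choose 4 = 45 := by
    have h : (∑ c ∈ S, (b ∩ c).card.choose 4 + 15) * 2 = 15 * 8 := by
      have c1 : Nat.choose 6 4 = 15 := by decide
      have c2 : Nat.choose (6 - 4) (5 - 4) = 2 := by decide
      have c3 : Nat.choose (12 - 4) (5 - 4) = 8 := by decide
      rw [c1, c2, c3] at m4
      exact m4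
    omega
  have hterm : ∀ c ∈ S, (if (b ∩ c).card = 0 then 1 else 0) + (b ∩ c).card.choose 1
      + (b ∩ c).card.choose 3
      = (b ∩ c).card.choose 0 + (b ∩ c).card.choose 2 + (b ∩ c).card.choose 4 := by
    intro c hc
    rw [hS] at hc
    have hcB : c ∈ B := Lib.Helper1.mem_blocks.mp (Finset.mem_of_mem_erase hc)
    have hne : b ≠ c := (Finset.ne_of_mem_erase hc).symm
    have hlt := Lib.Helper1.steiner_inter_lt hB hb hcB hne
    generalize (b ∩ c).card = f at hlt
    interval_cases f <;> decide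
  have hsum := Finset.sum_congr (rfl : S = S) hterm
  rw [Finset.sum_add_distrib, Finset.sum_add_distrib, Finset.sum_add_distrib,
    Finset.sum_add_distrib, e0, e1, e2, e3, e4, ← Finset.card_filter] at hsum
  have hcard : (S.filter (fun c => (b ∩ c).card = 0)).card = 1 := by omega
  obtain ⟨c, hc⟩ := Finset.card_eq_one.mp hcard
  have hcmem : c ∈ S.filter (fun c => (b ∩ c).card = 0) := by rw [hc]; exact Finset.mem_singleton_self c
  rw [Finset.mem_filter, hS, Finset.mem_erase, Lib.Helper1.mem_blocks, Finset.card_eq_zero,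
    ← Finset.disjoint_iff_inter_eq_empty] at hcmem
  obtain ⟨⟨-, hcB⟩, hdisj⟩ := hcmem
  have hsub : c ⊆ bᶜ := by
    intro x hx
    rw [Finset.mem_compl]
    intro hxb
    exact (Finset.disjoint_left.mp hdisj hxb) hx
  have hcardc : bᶜ.card ≤ c.card := by
    rw [Finset.card_compl, hα, hB.1 b hb, hB.1 c hcB]
  have := Finset.eq_of_subset_of_card_le hsub hcardc
  rw [← this]
  exact hcB

end Cfsg.Agent.S0357
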