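import Cfsg.Statements.S0359
import Cfsg.Agent.Lib.Helper9.GolayWt

set_option autoImplicit false
open Cfsg

namespace Cfsg.Agent.S0359

open Cfsg.Agent.Lib.Helper9.Leech

theorem result (w : Cfsg.GolayPt → ZMod 2) (hw : w ∈ Cfsg.golayCode) : hammingNorm w = 0 ∨ hammingNorm w = 8 ∨ hammingNorm w = 12 ∨ hammingNorm w = 16 ∨ hammingNorm w = 24 := by
  have h := wt_cases w hw
  rw [wt_eq_hamming] at h
  omega

end Cfsg.Agent.S0359
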