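import Cfsg.Statements.S0360
import Cfsg.Agent.Lib.Helper9.GolayEnum

set_option autoImplicit false
open Cfsg

namespace Cfsg.Agent.S0360

open Cfsg.Agent.Lib.Helper9.Leech

theorem result : Cfsg.octads.ncard = 759 :=
  ncard_octads

end Cfsg.Agent.S0360
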