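import Cfsg.Statements.S0363
import Cfsg.Agent.Lib.Helper9.GolaySteiner

set_option autoImplicit false
open Cfsg

namespace Cfsg.Agent.S0363

open Cfsg.Agent.Lib.Helper9.Leech

theorem result : Cfsg.IsSteinerSystem 5 8 Cfsg.octads :=
  steiner_octads

end Cfsg.Agent.S0363
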