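import Cfsg.Statements.S0365
import Cfsg.Agent.Lib.Helper9.M24Simple

set_option autoImplicit false
open Cfsg

namespace Cfsg.Agent.S0365

open Cfsg.Agent.Lib.Helper9.Leech Cfsg.Agent.S5393

/-- The permutation group preserving the length-24 code is simple. -/
theorem result : IsSimpleGroup Cfsg.M24 := by
  have : Nontrivial Cfsg.M24 := by
    refine ⟨⟨⟨shift 1, shift_mem 1⟩, 1, ?_⟩⟩
    intro h
    exact shift_ne_one (congrArg Subtype.val h)
  refine ⟨fun N' hN' => ?_⟩
  by_cases hbot : N' = ⊥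
  · exact Or.inl hbot
  · right
    have hle : N'.map Cfsg.M24.subtype ≤ Cfsg.M24 := by
      rintro x ⟨y, _, rfl⟩
      exact y.2
    have hconj : ∀ g ∈ Cfsg.M24, ∀ n ∈ N'.map Cfsg.M24.subtype,
        g * n * g⁻¹ ∈ N'.map Cfsg.M24.subtype := by
      rintro g hg n ⟨y, hy, rfl⟩
      exact ⟨⟨g, hg⟩ * y * ⟨g, hg⟩⁻¹, hN'.conj_mem y hy ⟨g, hg⟩, rfl⟩
    have hne : N'.map Cfsg.M24.subtype ≠ ⊥ := by
      intro h
      apply hbot
      rw [Subgroup.eq_bot_iff_forall]
      intro x hx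
      have h1 : (x : Equiv.Perm GolayPt) ∈ N'.map Cfsg.M24.subtype := ⟨x, hx, rfl⟩
      rw [h, Subgroup.mem_bot] at h1
      exact Subtype.ext h1
    have key := simple_core _ hle hconj hne
    rw [Subgroup.eq_top_iff']
    intro x
    have h1 : (x : Equiv.Perm GolayPt) ∈ N'.map Cfsg.M24.subtype := by
      rw [key]
      exact x.2
    obtain ⟨y, hy, hyx⟩ := h1
    have : y = x := Subtype.ext hyx
    rw [← this]
    exact hy

end Cfsg.Agent.S0365
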