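import Cfsg.Statements.S0374
import Cfsg.Agent.Lib.Helper9.M24Chain

set_option autoImplicit false
open Cfsg

namespace Cfsg.Agent.S0374

open Cfsg.Agent.Lib.Helper9.Leech Cfsg.Agent.S5393

theorem shift_eq : Equiv.optionCongr (Equiv.addRight (1 : ZMod 23)) = shift 1 := by
  apply Equiv.ext
  intro p
  cases p with
  | none => rfl
  | some x => rfl

/-- The group of the length-24 code is generated by x ↦ x+1, x ↦ -1/x and the cube-twist permutation. -/
theorem result : Subgroup.closure {Equiv.optionCongr (Equiv.addRight (1 : ZMod 23)), Cfsg.projInv, Cfsg.cubeTwist} = Cfsg.M24 := by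
  rw [shift_eq, M24_eq_Gcl]
  rfl

end Cfsg.Agent.S0374
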