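import Cfsg.Statements.S0376
import Cfsg.Agent.Lib.Helper9.M24Stab

set_option autoImplicit false
open Cfsg

namespace Cfsg.Agent.S0376

open Cfsg.Agent.Lib.Helper9.Leech

/-- A point stabiliser in the group of the length-24 code has order 10200960 = 2^7·3^2·5·7·11·23. -/
theorem result (p : Cfsg.GolayPt) : Nat.card (MulAction.stabilizer Cfsg.M24 p) = 10200960 := by
  rw [← card_ptStab1 p]
  apply card_sub M24 _ _ _ (ptStab_le _)
  intro g
  rw [MulAction.mem_stabilizer_iff, mem_ptStab]
  constructor
  · intro h
    refine ⟨g.2, ?_⟩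
    intro q hq
    rw [List.mem_singleton] at hq
    rw [hq]
    exact h
  · intro h
    exact h.2 p List.mem_cons_self

end Cfsg.Agent.S0376
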