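import Cfsg.Statements.S0377
import Cfsg.Agent.Lib.Helper9.SimpGroups

set_option autoImplicit false
open Cfsg

namespace Cfsg.Agent.S0377

open Cfsg.Agent.Lib.Helper9.Leech

/-- A point stabiliser in the group of the length-24 code is simple. -/
theorem result (p : Cfsg.GolayPt) : IsSimpleGroup (MulAction.stabilizer Cfsg.M24 p) := by
  have := m23_simple p
  exact (subEquiv M24 (MulAction.stabilizer M24 p) (stabSub [] [p]) (fun g => by
    rw [MulAction.mem_stabilizer_iff, mem_stabSub]
    constructor
    · intro h
      refine ⟨g.2, fun s hs => absurd hs (by simp), fun q hq => ?_⟩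
      rw [List.mem_singleton] at hq
      rw [hq]
      exact h
    · rintro ⟨_, _, h3⟩
      exact h3 p (List.mem_singleton_self _)) (stabSub_le _ _)).isSimpleGroup

end Cfsg.Agent.S0377
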