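import Cfsg.Statements.S0378
import Cfsg.Agent.Lib.Helper9.M24Stab

set_option autoImplicit false
open Cfsg

namespace Cfsg.Agent.S0378

open Cfsg.Agent.Lib.Helper9.Leech

/-- A two-point stabiliser in the group of the length-24 code has order 443520 = 2^7·3^2·5·7·11. -/
theorem result (p q : Cfsg.GolayPt) (hpq : p ≠ q) : Nat.card ↥(MulAction.stabilizer Cfsg.M24 p ⊓ MulAction.stabilizer Cfsg.M24 q) = 443520 := by
  rw [← card_ptStab2 p q hpq]
  apply card_sub M24 _ _ _ (ptStab_le _)
  intro g
  rw [Subgroup.mem_inf, MulAction.mem_stabilizer_iff, MulAction.mem_stabilizer_iff, mem_ptStab]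
  constructor
  · intro h
    refine ⟨g.2, ?_⟩
    intro r hr
    rw [List.mem_cons, List.mem_singleton] at hr
    rcases hr with rfl | rfl
    · exact h.1
    · exact h.2
  · intro h
    exact ⟨h.2 p List.mem_cons_self, h.2 q (List.mem_cons_of_mem _ List.mem_cons_self)⟩

end Cfsg.Agent.S0378
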