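import Cfsg.Statements.S0379
import Cfsg.Agent.Lib.Helper9.SimpGroups

set_option autoImplicit false
open Cfsg

namespace Cfsg.Agent.S0379

open Cfsg.Agent.Lib.Helper9.Leech

/-- A two-point stabiliser in the group of the length-24 code is simple. -/
theorem result (p q : Cfsg.GolayPt) (hpq : p ≠ q) : IsSimpleGroup ↥(MulAction.stabilizer Cfsg.M24 p ⊓ MulAction.stabilizer Cfsg.M24 q) := by
  have := m22_simple p q hpq
  exact (subEquiv M24 (MulAction.stabilizer M24 p ⊓ MulAction.stabilizer M24 q)
    (stabSub [] [p, q]) (fun g => by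
    rw [Subgroup.mem_inf, MulAction.mem_stabilizer_iff, MulAction.mem_stabilizer_iff, mem_stabSub]
    constructor
    · rintro ⟨h1, h2⟩
      refine ⟨g.2, fun s hs => absurd hs (by simp), fun r hr => ?_⟩
      rw [List.mem_cons, List.mem_singleton] at hr
      rcases hr with rfl | rfl
      · exact h1
      · exact h2
    · rintro ⟨_, _, h3⟩
      exact ⟨h3 p (by simp), h3 q (by simp)⟩) (stabSub_le _ _)).isSimpleGroup

end Cfsg.Agent.S0379
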