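import Cfsg.Statements.S0381
import Cfsg.Agent.Lib.Helper9.M24Oct

set_option autoImplicit false
open Cfsg

namespace Cfsg.Agent.S0381

open Cfsg.Agent.Lib.Helper9.Leech

theorem fix_eq (o : Finset Cfsg.GolayPt) :
    Cfsg.M24 ⊓ fixingSubgroup (Equiv.Perm Cfsg.GolayPt) (o : Set Cfsg.GolayPt) =
      ptStab o.toList := by
  ext g
  rw [Subgroup.mem_inf, mem_fixingSubgroup_iff, mem_ptStab]
  constructor
  · rintro ⟨h1, h2⟩
    refine ⟨h1, ?_⟩
    intro p hp
    rw [Finset.mem_toList] at hp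
    exact h2 p (Finset.mem_coe.2 hp)
  · rintro ⟨h1, h2⟩
    refine ⟨h1, ?_⟩
    intro p hp
    exact h2 p (Finset.mem_toList.2 (Finset.mem_coe.1 hp))

/-- The pointwise stabiliser of an octad in the group of the length-24 code has order 16 and every element of it squares to the identity. -/
theorem result (o : Finset Cfsg.GolayPt) (ho : o ∈ Cfsg.octads) : Nat.card ↥(Cfsg.M24 ⊓ fixingSubgroup (Equiv.Perm Cfsg.GolayPt) (o : Set Cfsg.GolayPt)) = 16 ∧ ∀ g ∈ Cfsg.M24 ⊓ fixingSubgroup (Equiv.Perm Cfsg.GolayPt) (o : Set Cfsg.GolayPt), g * g = 1 := by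
  rw [fix_eq]
  exact oct_fix o ho

end Cfsg.Agent.S0381
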