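import Cfsg.Statements.S0382
import Cfsg.Agent.Lib.Helper9.M24Stab

set_option autoImplicit false
open scoped Pointwise
open Cfsg

namespace Cfsg.Agent.S0382

open Cfsg.Agent.Lib.Helper9.Leech

theorem orbit_dod (d : Finset Cfsg.GolayPt) (hd : d ∈ Cfsg.dodecads) :
    MulAction.orbit Cfsg.M24 d = Cfsg.dodecads := by
  ext e
  rw [MulAction.mem_orbit_iff]
  constructor
  · rintro ⟨g, rfl⟩
    exact dodecads_smul g.1 g.2 d hd
  · intro he
    exact dodecads_trans d e hd he

/-- A dodecad stabiliser in the group of the length-24 code has order 95040 = 2^6·3^3·5·11. -/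
theorem result (d : Finset Cfsg.GolayPt) (hd : d ∈ Cfsg.dodecads) : Nat.card (MulAction.stabilizer Cfsg.M24 d) = 95040 := by
  have h := Subgroup.card_mul_index (MulAction.stabilizer Cfsg.M24 d)
  rw [MulAction.index_stabilizer, orbit_dod d hd, ncard_dodecads, card_M24] at h
  omega

end Cfsg.Agent.S0382
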