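import Cfsg.Statements.S0383
import Cfsg.Agent.Lib.Helper9.SimpGroups

set_option autoImplicit false
open scoped Pointwise
open Cfsg

namespace Cfsg.Agent.S0383

open Cfsg.Agent.Lib.Helper9.Leech

/-- A dodecad stabiliser in the group of the length-24 code is simple. -/
theorem result (d : Finset Cfsg.GolayPt) (hd : d ∈ Cfsg.dodecads) : IsSimpleGroup (MulAction.stabilizer Cfsg.M24 d) := by
  have := m12_simple d hd
  exact (subEquiv M24 (MulAction.stabilizer M24 d) (stabSub [d] []) (fun g => by
    rw [MulAction.mem_stabilizer_iff, mem_stabSub]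
    constructor
    · intro h
      refine ⟨g.2, fun s hs => ?_, fun q hq => absurd hq (by simp)⟩
      rw [List.mem_singleton] at hs
      rw [hs]
      exact h
    · rintro ⟨_, h2, _⟩
      exact h2 d (List.mem_singleton_self _)) (stabSub_le _ _)).isSimpleGroup

end Cfsg.Agent.S0383
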