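import Cfsg.Statements.S0384
import Cfsg.Agent.Lib.Helper9.M12

set_option autoImplicit false
open scoped Pointwise
open Cfsg

namespace Cfsg.Agent.S0384

open Cfsg.Agent.Lib.Helper9.Leech

/-- A dodecad stabiliser is sharply 5-transitive on the dodecad. -/
theorem result (d : Finset Cfsg.GolayPt) (hd : d ∈ Cfsg.dodecads) (x y : Fin 5 ↪ Cfsg.GolayPt) (hx : ∀ i, x i ∈ d) (hy : ∀ i, y i ∈ d) : ∃! g : MulAction.stabilizer Cfsg.M24 d, ∀ i, ((g : Cfsg.M24) : Equiv.Perm Cfsg.GolayPt) (x i) = y i := by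
  obtain ⟨g, hg, hgd, hgx⟩ := m12_trans_d d hd x y hx hy
  refine ⟨⟨⟨g, hg⟩, MulAction.mem_stabilizer_iff.2 hgd⟩, hgx, ?_⟩
  intro g' hg'
  have hg'd : ((g' : Cfsg.M24) : Equiv.Perm Cfsg.GolayPt) • d = d :=
    MulAction.mem_stabilizer_iff.1 g'.2
  have hk : g⁻¹ * ((g' : Cfsg.M24) : Equiv.Perm Cfsg.GolayPt) = 1 := by
    apply m12_fix_d d hd x hx _ (Subgroup.mul_mem _ (inv_mem hg) (g' : Cfsg.M24).2)
    · rw [mul_smul, hg'd, inv_smul_eq_iff, hgd]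
    · intro i
      rw [Equiv.Perm.mul_apply, hg' i, ← hgx i]
      change g.symm (g (x i)) = x i
      rw [Equiv.symm_apply_apply]
  have hgg : ((g' : Cfsg.M24) : Equiv.Perm Cfsg.GolayPt) = g := by
    have : ((g' : Cfsg.M24) : Equiv.Perm Cfsg.GolayPt) =
        g * (g⁻¹ * ((g' : Cfsg.M24) : Equiv.Perm Cfsg.GolayPt)) := by group
    rw [this, hk, mul_one]
  exact Subtype.ext (Subtype.ext hgg)

end Cfsg.Agent.S0384
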