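import Cfsg.Statements.S0385
import Cfsg.Agent.Lib.Helper9.GolayCount

set_option autoImplicit false
open Cfsg

namespace Cfsg.Agent.S0385

open Cfsg.Agent.Lib.Helper9.Leech

theorem oct_dod_inter (o d : Finset GolayPt) (ho : o ∈ octads) (hd : d ∈ dodecads) :
    (o ∩ d).card = 2 ∨ (o ∩ d).card = 4 ∨ (o ∩ d).card = 6 := by
  obtain ⟨u, hu, rfl, hwu⟩ := (mem_wordsOfWeight' 8 o).1 ho
  obtain ⟨v, hv, rfl, hwv⟩ := (mem_wordsOfWeight' 12 d).1 hd
  have h4 := wt_add_card u v
  rw [hwu, hwv] at h4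
  have h5 := wt_cases (u + v) (Submodule.add_mem _ hu hv)
  have h6 : (support₂ u ∩ support₂ v).card ≤ (support₂ u).card :=
    Finset.card_le_card Finset.inter_subset_left
  have h7 : ((support₂ u).card : ℤ) = 8 := by
    rw [← wt_eq_card]
    exact hwu
  have h8 : ((support₂ u ∩ support₂ v).card : ℤ) ≤ 8 := by
    rw [← h7]
    exact_mod_cast h6
  omega

theorem card_sub (d o : Finset GolayPt) :
    (Finset.subtype (fun p => p ∈ d) o).card = (o ∩ d).card := by
  rw [Finset.card_subtype, Finset.filter_mem_eq_inter]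

theorem result (d : Finset Cfsg.GolayPt) (hd : d ∈ Cfsg.dodecads) : Cfsg.IsSteinerSystem 5 6 {h : Finset {p : Cfsg.GolayPt // p ∈ d} | ∃ o ∈ Cfsg.octads, (o ∩ d).card = 6 ∧ h = Finset.subtype (fun p => p ∈ d) o} := by
  refine ⟨?_, ?_⟩
  · rintro b ⟨o, _, ho6, rfl⟩
    rw [card_sub, ho6]
  · intro s hs
    obtain ⟨s', hs'⟩ : ∃ s' : Finset GolayPt, s' = s.map (Function.Embedding.subtype _) :=
      ⟨_, rfl⟩
    have hs'card : s'.card = 5 := by
      rw [hs', Finset.card_map, hs]
    have hs'd : s' ⊆ d := by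
      intro x hx
      rw [hs', Finset.mem_map] at hx
      obtain ⟨y, _, rfl⟩ := hx
      exact y.2
    have hmem : ∀ x : {p : GolayPt // p ∈ d}, x ∈ s → (x : GolayPt) ∈ s' := by
      intro x hx
      rw [hs', Finset.mem_map]
      exact ⟨x, hx, rfl⟩
    obtain ⟨o, ho, hso⟩ := octad_exists s' hs'card
    have h5 : 5 ≤ (o ∩ d).card := by
      rw [← hs'card]
      exact Finset.card_le_card (Finset.subset_inter hso hs'd)
    have h6 : (o ∩ d).card = 6 := by
      rcases oct_dod_inter o d ho hd with h | h | h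
      · omega
      · omega
      · exact h
    refine ⟨Finset.subtype (fun p => p ∈ d) o, ⟨⟨o, ho, h6, rfl⟩, ?_⟩, ?_⟩
    · intro x hx
      rw [Finset.mem_subtype]
      exact hso (hmem x hx)
    · rintro b' ⟨⟨o', ho', _, rfl⟩, hsb⟩
      have hso' : s' ⊆ o' := by
        intro x hx
        rw [hs', Finset.mem_map] at hx
        obtain ⟨y, hy, rfl⟩ := hx
        have h7 := hsb hy
        rw [Finset.mem_subtype] at h7
        exact h7
      rw [octad_unique o' o s' ho' ho hs'card hso' hso]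

end Cfsg.Agent.S0385
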