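import Cfsg.Statements.S0386
import Cfsg.Agent.Lib.Helper9.GolayCount

set_option autoImplicit false
open Cfsg

namespace Cfsg.Agent.S0386

open Cfsg.Agent.Lib.Helper9.Leech

theorem result (d : Finset Cfsg.GolayPt) (hd : d ∈ Cfsg.dodecads) : {o : Finset Cfsg.GolayPt | o ∈ Cfsg.octads ∧ (o ∩ d).card = 6}.ncard = 132 ∧ {o : Finset Cfsg.GolayPt | o ∈ Cfsg.octads ∧ (o ∩ d).card = 2}.ncard = 132 ∧ {o : Finset Cfsg.GolayPt | o ∈ Cfsg.octads ∧ (o ∩ d).card = 4}.ncard = 495 := by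
  refine ⟨?_, ?_, ?_⟩
  · rw [oct_meet_dod d hd 6, oct_dod_6]
  · rw [oct_meet_dod d hd 2, oct_dod_2]
  · rw [oct_meet_dod d hd 4, oct_dod_4]

end Cfsg.Agent.S0386
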