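import Cfsg.Statements.S0398
import Cfsg.Agent.Lib.Helper9.Co0

set_option autoImplicit false
open Cfsg

namespace Cfsg.Agent.S0398

open scoped Pointwise
open Cfsg.Agent.S5393 Cfsg.Agent.S5548 Cfsg.Agent.Lib.Helper9.Leech

def B (i : GolayPt) : leechLattice := ⟨bvec i, bvec_mem i⟩

theorem sign_B (u : GolayPt → ZMod 2) (hu : u ∈ golayCode) (i : GolayPt) (hi : u i = 0) :
    signPerm u hu (B i) = B i := by
  apply Subtype.ext
  funext k
  change signMap u (bvec i) k = bvec i k
  rw [signMap_apply]
  by_cases h : k = i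
  · rw [h, if_neg (by rw [hi]; decide)]
  · unfold bvec
    rw [Pi.single_eq_of_ne h, neg_zero, ite_self]

theorem perm_B (σ : Equiv.Perm GolayPt) (hσ : σ ∈ M24) (i : GolayPt) :
    permPerm σ hσ (B i) = B (σ.symm i) := by
  apply Subtype.ext
  funext k
  change bvec i (σ k) = bvec (σ.symm i) k
  unfold bvec
  rw [Pi.single_apply, Pi.single_apply]
  congr 1
  apply propext
  exact (Equiv.eq_symm_apply σ).symm

theorem coe_sum_smul (c : GolayPt → ℤ) (w : GolayPt → leechLattice) (k : GolayPt) :
    ((∑ i, c i • w i : leechLattice) : GolayPt → ℤ) k =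
      ∑ i, c i * ((w i : leechLattice) : GolayPt → ℤ) k := by
  have h : ((∑ i, c i • w i : leechLattice) : GolayPt → ℤ) =
      ∑ i, c i • ((w i : leechLattice) : GolayPt → ℤ) := by
    have h1 := map_sum leechLattice.subtype (fun i => c i • w i) Finset.univ
    simp only [map_zsmul] at h1
    exact h1
  rw [h, Finset.sum_apply]
  rfl

theorem sum_single (c : GolayPt → ℤ) (d : GolayPt → ℤ) (k : GolayPt) :
    ∑ i, c i * (Pi.single i (d i) : GolayPt → ℤ) k = c k * d k := by
  rw [Finset.sum_eq_single k]
  · rw [Pi.single_eq_same]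
  · intro b _ hb
    rw [Pi.single_eq_of_ne (Ne.symm hb), mul_zero]
  · intro h
    exact absurd (Finset.mem_univ k) h

theorem center_form (z : Co0) (hz : z ∈ Subgroup.center Co0) : z = 1 ∨ z = negCo := by
  have hcomm : ∀ g : Co0, g * z = z * g := Subgroup.mem_center_iff.1 hz
  have hcomm' : ∀ (g : Co0) (v : leechLattice),
      (g : Equiv.Perm leechLattice) ((z : Equiv.Perm leechLattice) v) =
        (z : Equiv.Perm leechLattice) ((g : Equiv.Perm leechLattice) v) := by
    intro g v
    exact congrArg (fun f : Co0 => (f : Equiv.Perm leechLattice) v) (hcomm g)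
  obtain ⟨a, ha⟩ : ∃ a : GolayPt → ℤ,
      a = fun i => ((z : Equiv.Perm leechLattice) (B i) : GolayPt → ℤ) i := ⟨_, rfl⟩
  have ha' : ∀ i, a i = ((z : Equiv.Perm leechLattice) (B i) : GolayPt → ℤ) i :=
    fun i => by rw [ha]
  have hoff : ∀ i j, j ≠ i → ((z : Equiv.Perm leechLattice) (B i) : GolayPt → ℤ) j = 0 := by
    intro i j hji
    obtain ⟨u, hu, hui, huj⟩ := sep' i j (Ne.symm hji)
    have h1 : signPerm u hu ((z : Equiv.Perm leechLattice) (B i)) =
        (z : Equiv.Perm leechLattice) (signPerm u hu (B i)) :=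
      hcomm' ⟨signPerm u hu, signPerm_mem u hu⟩ (B i)
    rw [sign_B u hu i hui] at h1
    have h3 : signMap u ((z : Equiv.Perm leechLattice) (B i) : GolayPt → ℤ) j =
        ((z : Equiv.Perm leechLattice) (B i) : GolayPt → ℤ) j :=
      congrArg (fun w : leechLattice => (w : GolayPt → ℤ) j) h1
    rw [signMap_apply, if_pos huj] at h3
    omega
  have hform : ∀ i, ((z : Equiv.Perm leechLattice) (B i) : GolayPt → ℤ) = Pi.single i (a i) := by
    intro i
    funext k
    by_cases h : k = i
    · rw [h, Pi.single_eq_same, ha' i]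
    · rw [Pi.single_eq_of_ne h, hoff i k h]
  have hval : ∀ i, a i = 8 ∨ a i = -8 := by
    intro i
    have h1 := z.2.2 (B i)
    have h2 : sqNorm ((B i : leechLattice) : GolayPt → ℤ) = 64 := bvec_norm i
    rw [h2, hform i] at h1
    have h3 : sqNorm (Pi.single i (a i)) = a i ^ 2 := by
      unfold sqNorm
      rw [Finset.sum_eq_single i]
      · rw [Pi.single_eq_same]
      · intro b _ hb
        rw [Pi.single_eq_of_ne hb]
        rfl
      · intro h
        exact absurd (Finset.mem_univ i) h
    rw [h3] at h1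
    have h4 : (a i - 8) * (a i + 8) = 0 := by
      have h5 : (a i - 8) * (a i + 8) = a i ^ 2 - 64 := by ring
      rw [h5, h1]
      rfl
    rcases mul_eq_zero.1 h4 with h5 | h5
    · left
      omega
    · right
      omega
  have hinv : ∀ σ ∈ M24, ∀ i, a (σ.symm i) = a i := by
    intro σ hσ i
    have h1 : permPerm σ hσ ((z : Equiv.Perm leechLattice) (B i)) =
        (z : Equiv.Perm leechLattice) (permPerm σ hσ (B i)) :=
      hcomm' ⟨permPerm σ hσ, permPerm_mem σ hσ⟩ (B i)
    rw [perm_B σ hσ i] at h1
    have h3 : ((z : Equiv.Perm leechLattice) (B i) : GolayPt → ℤ) (σ (σ.symm i)) =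
        ((z : Equiv.Perm leechLattice) (B (σ.symm i)) : GolayPt → ℤ) (σ.symm i) :=
      congrArg (fun w : leechLattice => (w : GolayPt → ℤ) (σ.symm i)) h1
    rw [Equiv.apply_symm_apply, ← ha' i, ← ha' (σ.symm i)] at h3
    exact h3.symm
  have hconst : ∀ i, a i = a (some 0) := by
    intro i
    cases i with
    | none =>
      have h : a (some 0) = a none := hinv projInv projInv_mem none
      exact h.symm
    | some y =>
      have h := hinv (shift (-y)) (shift_mem _) (some 0)
      rw [shift_symm_some, neg_neg, zero_add] at h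
      exact h
  have hsum : ∀ v : leechLattice, (8 : ℤ) • v = ∑ i, ((v : GolayPt → ℤ) i) • B i := by
    intro v
    apply Subtype.ext
    funext k
    rw [coe_sum_smul]
    have h1 : ∀ i, ((B i : leechLattice) : GolayPt → ℤ) = Pi.single i ((fun _ => (8 : ℤ)) i) :=
      fun i => rfl
    rw [Finset.sum_congr rfl (fun i _ => by rw [h1 i]), sum_single]
    change (8 : ℤ) • (v : GolayPt → ℤ) k = _
    rw [smul_eq_mul, mul_comm]
  have hz8 : ∀ (v : leechLattice) (k : GolayPt),
      8 * ((z : Equiv.Perm leechLattice) v : GolayPt → ℤ) k = (v : GolayPt → ℤ) k * a (some 0) := by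
    intro v k
    have h1 : co0Hom z ((8 : ℤ) • v) = (8 : ℤ) • co0Hom z v := map_zsmul _ _ _
    rw [hsum v, map_sum] at h1
    simp only [map_zsmul] at h1
    have h2 := congrArg (fun w : leechLattice => (w : GolayPt → ℤ) k) h1
    beta_reduce at h2
    rw [coe_sum_smul] at h2
    have h3 : ∀ i, ((co0Hom z (B i) : leechLattice) : GolayPt → ℤ) = Pi.single i (a i) :=
      fun i => hform i
    rw [Finset.sum_congr rfl (fun i _ => by rw [h3 i]), sum_single, hconst k] at h2
    rw [h2]
    rfl
  rcases hval (some 0) with h8 | h8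
  · left
    apply Subtype.ext
    apply Equiv.ext
    intro v
    apply Subtype.ext
    funext k
    have h := hz8 v k
    rw [h8] at h
    change ((z : Equiv.Perm leechLattice) v : GolayPt → ℤ) k = (v : GolayPt → ℤ) k
    omega
  · right
    apply Subtype.ext
    apply Equiv.ext
    intro v
    apply Subtype.ext
    funext k
    have h := hz8 v k
    rw [h8] at h
    change ((z : Equiv.Perm leechLattice) v : GolayPt → ℤ) k = - (v : GolayPt → ℤ) k
    omega

theorem result : Nat.card (Subgroup.center Cfsg.Co0) = 2 := by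
  have hset : ((Subgroup.center Co0 : Subgroup Co0) : Set Co0) = {1, negCo} := by
    ext z
    constructor
    · intro hz
      exact center_form z hz
    · rintro (rfl | rfl)
      · exact Subgroup.one_mem _
      · exact Subgroup.mem_center_iff.2 negCo_comm
  change Nat.card ((Subgroup.center Co0 : Subgroup Co0) : Set Co0) = 2
  rw [Nat.card_coe_set_eq, hset, Set.ncard_pair (Ne.symm negCo_ne_one)]

end Cfsg.Agent.S0398
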