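import Mathlib
import Cfsg.Agent.Lib.Helper1.Jordan3
import Cfsg.Statements.S0419

set_option autoImplicit false
open Cfsg

namespace Cfsg.Agent.S0419

/-- A sharply 5-transitive group of degree 12 is simple of order 95040. -/
theorem result {α : Type*} [Fintype α] [DecidableEq α] (hα : Fintype.card α = 12) (G : Subgroup (Equiv.Perm α)) [MulAction.IsMultiplyPretransitive G α 5] (hsharp : ∀ x : Fin 5 ↪ α, MulAction.stabilizer G x = ⊥) : Cfsg.IsM12 G := by
  exact Lib.Helper1.Jordan.m12_core (Lib.Helper1.Jordan.sharp_of 5 hsharp)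
    (by rw [Nat.card_eq_fintype_card]; exact hα)

end Cfsg.Agent.S0419
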