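import Mathlib
import Cfsg.Agent.Lib.Helper1.S22
import Cfsg.Statements.S0427

set_option autoImplicit false
open Cfsg

namespace Cfsg.Agent.S0427

/-- The block graph (adjacent = disjoint) of an S(3, 6, 22) is strongly regular with parameters (77, 16, 0, 4). -/
theorem result {α : Type*} [Fintype α] (hα : Fintype.card α = 22) {B : Set (Finset α)} (hB : Cfsg.IsSteinerSystem 3 6 B) [Fintype B] [DecidableRel (Cfsg.blockGraph B).Adj] : (Cfsg.blockGraph B).IsSRGWith 77 16 0 4 := by
  classical
  have hadj : ∀ v w : B, (blockGraph B).Adj v w ↔ Disjoint v.1 w.1 := by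
    intro v w
    unfold blockGraph
    rw [SimpleGraph.fromRel_adj]
    constructor
    · rintro ⟨h, h' | h'⟩
      · exact h'
      · exact h'.symm
    · intro h
      refine ⟨?_, Or.inl h⟩
      rintro rfl
      exact Lib.Helper1.S22.not_disj_self hB v.2 h
  refine ⟨?_, ?_, ?_, ?_⟩
  · rw [Fintype.card_eq_nat_card, Nat.card_coe_set_eq, Lib.Helper1.ncard_eq_card_blocks,
      Lib.Helper1.S22.card_blocks hα hB]
  · intro v
    rw [← SimpleGraph.card_neighborSet_eq_degree, Fintype.card_eq_nat_card, Nat.card_coe_set_eq]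
    have : (blockGraph B).neighborSet v = {c : B | Disjoint v.1 c.1} := by
      ext c
      simp [hadj]
    rw [this, Lib.Helper1.S22.ncard_sub, Lib.Helper1.S22.card_disj hα hB v.2]
  · intro v w h
    rw [Fintype.card_eq_nat_card, Nat.card_coe_set_eq]
    have : (blockGraph B).commonNeighbors v w = {c : B | Disjoint v.1 c.1 ∧ Disjoint w.1 c.1} := by
      ext c
      simp [SimpleGraph.commonNeighbors, hadj]
    have hne : v.1 ≠ w.1 := fun h' => (blockGraph B).ne_of_adj h (Subtype.ext h')
    rw [this, Lib.Helper1.S22.ncard_sub B (fun c => Disjoint v.1 c ∧ Disjoint w.1 c), Lib.Helper1.S22.card_disj2 hα hB v.2 w.2 hne,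
      (Lib.Helper1.S22.disj_iff _ _).mp ((hadj v w).mp h)]
  · intro v w hvw h
    rw [Fintype.card_eq_nat_card, Nat.card_coe_set_eq]
    have : (blockGraph B).commonNeighbors v w = {c : B | Disjoint v.1 c.1 ∧ Disjoint w.1 c.1} := by
      ext c
      simp [SimpleGraph.commonNeighbors, hadj]
    have hne : v.1 ≠ w.1 := fun h' => hvw (Subtype.ext h')
    rw [this, Lib.Helper1.S22.ncard_sub B (fun c => Disjoint v.1 c ∧ Disjoint w.1 c), Lib.Helper1.S22.card_disj2 hα hB v.2 w.2 hne]
    rw [hadj, Lib.Helper1.S22.disj_iff] at h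
    rcases Lib.Helper1.S22.inter_cases hα hB v.2 w.2 hne with h' | h'
    · exact absurd h' h
    · rw [h']

end Cfsg.Agent.S0427
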