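import Mathlib
import Cfsg.Agent.Lib.Helper1.S22
import Cfsg.Statements.S0428

set_option autoImplicit false
open Cfsg

namespace Cfsg.Agent.S0428

/-- The point-block graph of an S(3, 6, 22) is strongly regular with parameters (100, 22, 0, 6). -/
theorem result {α : Type*} [Fintype α] (hα : Fintype.card α = 22) {B : Set (Finset α)} (hB : Cfsg.IsSteinerSystem 3 6 B) [Fintype B] [DecidableRel (Cfsg.pointBlockGraph B).Adj] : (Cfsg.pointBlockGraph B).IsSRGWith 100 22 0 6 := by
  classical
  have hrel : ∀ u v, (pointBlockGraph B).Adj u v ↔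
      u ≠ v ∧ (pointBlockRel B u v ∨ pointBlockRel B v u) := fun u v => SimpleGraph.fromRel_adj _ _ _
  have A0 : ∀ v, ¬ (pointBlockGraph B).Adj v v := fun v => (pointBlockGraph B).loopless.irrefl v
  have A1 : ∀ a : α, (pointBlockGraph B).Adj none (some (Sum.inl a)) := by
    intro a; rw [hrel]; simp [pointBlockRel]
  have A1' : ∀ a : α, (pointBlockGraph B).Adj (some (Sum.inl a)) none := fun a => (A1 a).symm
  have A2 : ∀ b : B, ¬ (pointBlockGraph B).Adj none (some (Sum.inr b)) := by
    intro b; rw [hrel]; simp [pointBlockRel]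
  have A2' : ∀ b : B, ¬ (pointBlockGraph B).Adj (some (Sum.inr b)) none :=
    fun b h => A2 b h.symm
  have A3 : ∀ a a' : α, ¬ (pointBlockGraph B).Adj (some (Sum.inl a)) (some (Sum.inl a')) := by
    intro a a'; rw [hrel]; simp [pointBlockRel]
  have A4 : ∀ (a : α) (b : B),
      (pointBlockGraph B).Adj (some (Sum.inl a)) (some (Sum.inr b)) ↔ a ∈ b.1 := by
    intro a b; rw [hrel]; simp [pointBlockRel]
  have A4' : ∀ (a : α) (b : B),
      (pointBlockGraph B).Adj (some (Sum.inr b)) (some (Sum.inl a)) ↔ a ∈ b.1 := by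
    intro a b; rw [SimpleGraph.adj_comm]; exact A4 a b
  have A5 : ∀ b c : B,
      (pointBlockGraph B).Adj (some (Sum.inr b)) (some (Sum.inr c)) ↔ Disjoint b.1 c.1 := by
    intro b c; rw [hrel]
    simp only [pointBlockRel]
    constructor
    · rintro ⟨h, h' | h'⟩
      · exact h'
      · exact h'.symm
    · intro h
      refine ⟨?_, Or.inl h⟩
      intro h'
      have : b = c := by simpa using h'
      subst this
      exact Lib.Helper1.S22.not_disj_self hB b.2 h
  have hcn : ∀ v w x, x ∈ (pointBlockGraph B).commonNeighbors v w ↔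
      (pointBlockGraph B).Adj v x ∧ (pointBlockGraph B).Adj w x := fun v w x => Iff.rfl
  have hnb : ∀ v x, x ∈ (pointBlockGraph B).neighborSet v ↔ (pointBlockGraph B).Adj v x :=
    fun v x => Iff.rfl
  have hαc : (Set.univ : Set α).ncard = 22 := by
    rw [Set.ncard_univ, Nat.card_eq_fintype_card, hα]
  have hBc : Nat.card B = 77 := by
    rw [Nat.card_coe_set_eq, Lib.Helper1.ncard_eq_card_blocks, Lib.Helper1.S22.card_blocks hα hB]
  have key : ∀ v w : Option (α ⊕ B),
      ((pointBlockGraph B).Adj v w → ((pointBlockGraph B).commonNeighbors v w).ncard = 0) ∧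
      (v ≠ w → ¬ (pointBlockGraph B).Adj v w →
        ((pointBlockGraph B).commonNeighbors v w).ncard = 6) := by
    have sym : ∀ v w : Option (α ⊕ B),
        (((pointBlockGraph B).Adj v w → ((pointBlockGraph B).commonNeighbors v w).ncard = 0) ∧
        (v ≠ w → ¬ (pointBlockGraph B).Adj v w →
          ((pointBlockGraph B).commonNeighbors v w).ncard = 6)) →
        (((pointBlockGraph B).Adj w v → ((pointBlockGraph B).commonNeighbors w v).ncard = 0) ∧
        (w ≠ v → ¬ (pointBlockGraph B).Adj w v →
          ((pointBlockGraph B).commonNeighbors w v).ncard = 6)) := by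
      intro v w h
      rw [SimpleGraph.commonNeighbors_symm]
      exact ⟨fun h' => h.1 h'.symm, fun h1 h2 => h.2 h1.symm (fun h' => h2 h'.symm)⟩
    have c1 : ∀ a : α, ((pointBlockGraph B).Adj none (some (Sum.inl a)) →
        ((pointBlockGraph B).commonNeighbors none (some (Sum.inl a))).ncard = 0) ∧
        ((none : Option (α ⊕ B)) ≠ some (Sum.inl a) → ¬ (pointBlockGraph B).Adj none (some (Sum.inl a)) →
          ((pointBlockGraph B).commonNeighbors none (some (Sum.inl a))).ncard = 6) := by
      intro a
      refine ⟨fun _ => ?_, fun _ h => absurd (A1 a) h⟩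
      rw [Set.ncard_eq_zero]
      ext x
      rcases x with _ | a' | c <;> simp [hcn, A0, A1, A2, A3]
    have c2 : ∀ b : B, ((pointBlockGraph B).Adj none (some (Sum.inr b)) →
        ((pointBlockGraph B).commonNeighbors none (some (Sum.inr b))).ncard = 0) ∧
        ((none : Option (α ⊕ B)) ≠ some (Sum.inr b) → ¬ (pointBlockGraph B).Adj none (some (Sum.inr b)) →
          ((pointBlockGraph B).commonNeighbors none (some (Sum.inr b))).ncard = 6) := by
      intro b
      refine ⟨fun h => absurd h (A2 b), fun _ _ => ?_⟩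
      rw [Lib.Helper1.S22.ncard_opt_sum]
      have e1 : {a : α | some (Sum.inl a) ∈
          (pointBlockGraph B).commonNeighbors none (some (Sum.inr b))} = ↑(b.1) := by
        ext a; simp [hcn, A1, A4']
      have e2 : {c : B | some (Sum.inr c) ∈
          (pointBlockGraph B).commonNeighbors none (some (Sum.inr b))} = ∅ := by
        ext c; simp [hcn, A2]
      rw [e1, e2, if_neg (by simp [hcn, A0]), Set.ncard_coe_finset, hB.1 b.1 b.2, Set.ncard_empty]
    have c3 : ∀ a a' : α, ((pointBlockGraph B).Adj (some (Sum.inl a)) (some (Sum.inl a')) →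
        ((pointBlockGraph B).commonNeighbors (some (Sum.inl a)) (some (Sum.inl a'))).ncard = 0) ∧
        ((some (Sum.inl a) : Option (α ⊕ B)) ≠ some (Sum.inl a') →
          ¬ (pointBlockGraph B).Adj (some (Sum.inl a)) (some (Sum.inl a')) →
          ((pointBlockGraph B).commonNeighbors (some (Sum.inl a)) (some (Sum.inl a'))).ncard = 6) := by
      intro a a'
      refine ⟨fun h => absurd h (A3 a a'), fun hne _ => ?_⟩
      have haa : a ≠ a' := fun h => hne (by rw [h])
      rw [Lib.Helper1.S22.ncard_opt_sum]
      have e1 : {x : α | some (Sum.inl x) ∈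
          (pointBlockGraph B).commonNeighbors (some (Sum.inl a)) (some (Sum.inl a'))} = ∅ := by
        ext x; simp [hcn, A3]
      have e2 : {c : B | some (Sum.inr c) ∈
          (pointBlockGraph B).commonNeighbors (some (Sum.inl a)) (some (Sum.inl a'))}
          = {c : B | a ∈ c.1 ∧ a' ∈ c.1} := by
        ext c; simp [hcn, A4]
      rw [e1, e2, if_pos (by simp [hcn, A1']), Set.ncard_empty,
        Lib.Helper1.S22.ncard_sub B (fun c => a ∈ c ∧ a' ∈ c), Lib.Helper1.S22.lam2 hα hB haa]
    have c4 : ∀ (a : α) (b : B), ((pointBlockGraph B).Adj (some (Sum.inl a)) (some (Sum.inr b)) →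
        ((pointBlockGraph B).commonNeighbors (some (Sum.inl a)) (some (Sum.inr b))).ncard = 0) ∧
        ((some (Sum.inl a) : Option (α ⊕ B)) ≠ some (Sum.inr b) →
          ¬ (pointBlockGraph B).Adj (some (Sum.inl a)) (some (Sum.inr b)) →
          ((pointBlockGraph B).commonNeighbors (some (Sum.inl a)) (some (Sum.inr b))).ncard = 6) := by
      intro a b
      have e0 : none ∉ (pointBlockGraph B).commonNeighbors (some (Sum.inl a)) (some (Sum.inr b)) := by
        simp [hcn, A2']
      have e1 : {x : α | some (Sum.inl x) ∈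
          (pointBlockGraph B).commonNeighbors (some (Sum.inl a)) (some (Sum.inr b))} = ∅ := by
        ext x; simp [hcn, A3]
      have e2 : {c : B | some (Sum.inr c) ∈
          (pointBlockGraph B).commonNeighbors (some (Sum.inl a)) (some (Sum.inr b))}
          = {c : B | a ∈ c.1 ∧ Disjoint b.1 c.1} := by
        ext c; simp [hcn, A4, A5]
      rw [Lib.Helper1.S22.ncard_opt_sum, e1, e2, if_neg e0, Set.ncard_empty,
        Lib.Helper1.S22.ncard_sub B (fun c => a ∈ c ∧ Disjoint b.1 c)]
      refine ⟨fun h => ?_, fun _ h => ?_⟩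
      · rw [A4] at h
        have : ((Lib.Helper1.blocks B).filter (fun c => a ∈ c ∧ Disjoint b.1 c)).card = 0 := by
          rw [Finset.card_eq_zero, Finset.filter_eq_empty_iff]
          rintro c - ⟨h1, h2⟩
          exact (Finset.disjoint_left.mp h2 h) h1
        rw [this]
      · rw [A4] at h
        rw [Lib.Helper1.S22.card_through_disj hα hB b.2 h]
    have c5 : ∀ (b c : B), ((pointBlockGraph B).Adj (some (Sum.inr b)) (some (Sum.inr c)) →
        ((pointBlockGraph B).commonNeighbors (some (Sum.inr b)) (some (Sum.inr c))).ncard = 0) ∧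
        ((some (Sum.inr b) : Option (α ⊕ B)) ≠ some (Sum.inr c) →
          ¬ (pointBlockGraph B).Adj (some (Sum.inr b)) (some (Sum.inr c)) →
          ((pointBlockGraph B).commonNeighbors (some (Sum.inr b)) (some (Sum.inr c))).ncard = 6) := by
      intro b c
      have e0 : none ∉ (pointBlockGraph B).commonNeighbors (some (Sum.inr b)) (some (Sum.inr c)) := by
        simp [hcn, A2']
      have e1 : {x : α | some (Sum.inl x) ∈
          (pointBlockGraph B).commonNeighbors (some (Sum.inr b)) (some (Sum.inr c))}
          = ↑(b.1 ∩ c.1) := by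
        ext x; simp [hcn, A4']
      have e2 : {d : B | some (Sum.inr d) ∈
          (pointBlockGraph B).commonNeighbors (some (Sum.inr b)) (some (Sum.inr c))}
          = {d : B | Disjoint b.1 d.1 ∧ Disjoint c.1 d.1} := by
        ext d; simp [hcn, A5]
      rw [Lib.Helper1.S22.ncard_opt_sum, e1, e2, if_neg e0, Set.ncard_coe_finset,
        Lib.Helper1.S22.ncard_sub B (fun d => Disjoint b.1 d ∧ Disjoint c.1 d)]
      refine ⟨fun h => ?_, fun hne h => ?_⟩
      · have hbc : b.1 ≠ c.1 := by
          intro h'
          have : b = c := Subtype.ext h'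
          subst this
          exact A0 _ h
        rw [A5, Lib.Helper1.S22.disj_iff] at h
        rw [Lib.Helper1.S22.card_disj2 hα hB b.2 c.2 hbc, h]
      · have hbc : b.1 ≠ c.1 := by
          intro h'
          have : b = c := Subtype.ext h'
          subst this
          exact hne rfl
        rw [A5, Lib.Helper1.S22.disj_iff] at h
        rw [Lib.Helper1.S22.card_disj2 hα hB b.2 c.2 hbc]
        rcases Lib.Helper1.S22.inter_cases hα hB b.2 c.2 hbc with h' | h'
        · exact absurd h' h
        · rw [h']
    rintro (_ | a | b) (_ | a' | b')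
    · exact ⟨fun h => absurd h (A0 _), fun h _ => absurd rfl h⟩
    · exact c1 a'
    · exact c2 b'
    · exact sym _ _ (c1 a)
    · exact c3 a a'
    · exact c4 a b'
    · exact sym _ _ (c2 b)
    · exact sym _ _ (c4 a' b)
    · exact c5 b b'
  refine ⟨?_, ?_, ?_, ?_⟩
  · rw [Fintype.card_option, Fintype.card_sum, hα, Fintype.card_eq_nat_card (α := B), hBc]
  · intro v
    rw [← SimpleGraph.card_neighborSet_eq_degree, Fintype.card_eq_nat_card, Nat.card_coe_set_eq,
      Lib.Helper1.S22.ncard_opt_sum]
    rcases v with _ | a | b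
    · have e1 : {a : α | some (Sum.inl a) ∈ (pointBlockGraph B).neighborSet none} = Set.univ := by
        ext a; simp [hnb, A1]
      have e2 : {c : B | some (Sum.inr c) ∈ (pointBlockGraph B).neighborSet none} = ∅ := by
        ext c; simp [hnb, A2]
      rw [e1, e2, if_neg (by simp [hnb, A0]), hαc, Set.ncard_empty]
    · have e1 : {x : α | some (Sum.inl x) ∈ (pointBlockGraph B).neighborSet (some (Sum.inl a))}
          = ∅ := by
        ext x; simp [hnb, A3]
      have e2 : {c : B | some (Sum.inr c) ∈ (pointBlockGraph B).neighborSet (some (Sum.inl a))}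
          = {c : B | a ∈ c.1} := by
        ext c; simp [hnb, A4]
      rw [e1, e2, if_pos (by simp [hnb, A1']), Set.ncard_empty,
        Lib.Helper1.S22.ncard_sub B (fun c => a ∈ c), Lib.Helper1.S22.lam1 hα hB a]
    · have e1 : {x : α | some (Sum.inl x) ∈ (pointBlockGraph B).neighborSet (some (Sum.inr b))}
          = ↑(b.1) := by
        ext x; simp [hnb, A4']
      have e2 : {c : B | some (Sum.inr c) ∈ (pointBlockGraph B).neighborSet (some (Sum.inr b))}
          = {c : B | Disjoint b.1 c.1} := by
        ext c; simp [hnb, A5]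
      rw [e1, e2, if_neg (by simp [hnb, A2']), Set.ncard_coe_finset, hB.1 b.1 b.2,
        Lib.Helper1.S22.ncard_sub B (fun c => Disjoint b.1 c), Lib.Helper1.S22.card_disj hα hB b.2]
  · intro v w h
    rw [Fintype.card_eq_nat_card, Nat.card_coe_set_eq]
    exact (key v w).1 h
  · intro v w hvw h
    rw [Fintype.card_eq_nat_card, Nat.card_coe_set_eq]
    exact (key v w).2 hvw h

end Cfsg.Agent.S0428
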