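import Cfsg.Statements.S0432
import Cfsg.Agent.Lib.Helper9.Leech

set_option autoImplicit false
open Cfsg

namespace Cfsg.Agent.S0432

open Cfsg.Agent.Lib.Helper9.Leech

theorem result (σ : Equiv.Perm Cfsg.GolayPt) (hσ : σ ∈ Cfsg.M24) (x : Cfsg.GolayPt → ℤ) (hx : x ∈ Cfsg.leechLattice) : (fun i => x (σ i)) ∈ Cfsg.leechLattice :=
  (mem_leechLattice_iff _).2 (isL_perm σ hσ x ((mem_leechLattice_iff x).1 hx))

end Cfsg.Agent.S0432
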