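import Cfsg.Statements.S0433
import Cfsg.Agent.Lib.Helper9.Leech

set_option autoImplicit false
open Cfsg

namespace Cfsg.Agent.S0433

open Cfsg.Agent.Lib.Helper9.Leech

theorem result (c : Finset Cfsg.GolayPt) (hc : c ∈ Cfsg.supports (Cfsg.golayCode : Set (Cfsg.GolayPt → ZMod 2))) (x : Cfsg.GolayPt → ℤ) (hx : x ∈ Cfsg.leechLattice) : (fun i => if i ∈ c then -x i else x i) ∈ Cfsg.leechLattice := by
  obtain ⟨u, hu, rfl⟩ := hc
  have e : (fun i => if i ∈ support₂ u then -x i else x i) =
      (fun i => if u i = 1 then - x i else x i) := by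
    funext i
    by_cases h : u i = 1
    · rw [if_pos h, if_pos ((mem_support u i).2 h)]
    · rw [if_neg h, if_neg (fun h2 => h ((mem_support u i).1 h2))]
  rw [e]
  exact (mem_leechLattice_iff _).2 (isL_sign u hu x ((mem_leechLattice_iff x).1 hx))

end Cfsg.Agent.S0433
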