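import Mathlib
import Cfsg.Statements.S0439

set_option autoImplicit false
open Cfsg

namespace Cfsg.Agent.S0439

/-- In the symmetric group of degree n ≥ 2, the set of transpositions is a conjugacy class of 3-transpositions which generates the group. -/
theorem result (n : ℕ) (hn : 2 ≤ n) : Cfsg.IsThreeTranspositionClass {σ : Equiv.Perm (Fin n) | σ.IsSwap} := by
  refine ⟨⟨?_, ?_⟩, ?_, Equiv.Perm.closure_isSwap⟩
  · intro d hd
    exact Equiv.Perm.IsSwap.orderOf hd
  · rintro σ ⟨a, b, hab, rfl⟩ τ ⟨c, d, hcd, rfl⟩
    by_cases hac : a = c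
    · subst hac
      by_cases hbd : b = d
      · subst hbd; left; rw [Equiv.swap_mul_self, one_pow]
      · right
        have := (Equiv.Perm.isThreeCycle_swap_mul_swap_same hab hcd hbd).orderOf
        rw [← this]; exact pow_orderOf_eq_one _
    by_cases had : a = d
    · subst had
      rw [Equiv.swap_comm c a]
      by_cases hbc : b = c
      · subst hbc; left; rw [Equiv.swap_mul_self, one_pow]
      · right
        have := (Equiv.Perm.isThreeCycle_swap_mul_swap_same hab (Ne.symm hcd) hbc).orderOf
        rw [← this]; exact pow_orderOf_eq_one _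
    by_cases hbc : b = c
    · subst hbc
      rw [Equiv.swap_comm a b]
      right
      have := (Equiv.Perm.isThreeCycle_swap_mul_swap_same (Ne.symm hab) hcd had).orderOf
      rw [← this]; exact pow_orderOf_eq_one _
    by_cases hbd : b = d
    · subst hbd
      rw [Equiv.swap_comm a b, Equiv.swap_comm c b]
      right
      have := (Equiv.Perm.isThreeCycle_swap_mul_swap_same (Ne.symm hab) (Ne.symm hcd) hac).orderOf
      rw [← this]; exact pow_orderOf_eq_one _
    left
    have hdisj : Equiv.Perm.Disjoint (Equiv.swap a b) (Equiv.swap c d) :=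
      Equiv.Perm.disjoint_swap_swap (by simp [hab, hac, had, hbc, hbd, hcd])
    rw [hdisj.commute.mul_pow, pow_two, pow_two, Equiv.swap_mul_self, Equiv.swap_mul_self, one_mul]
  · have h01 : (⟨0, by omega⟩ : Fin n) ≠ ⟨1, by omega⟩ := by simp [Fin.ext_iff]
    refine ⟨Equiv.swap ⟨0, by omega⟩ ⟨1, by omega⟩, ⟨_, _, h01, rfl⟩, ?_⟩
    ext σ
    constructor
    · rintro ⟨a, b, hab, rfl⟩
      exact Equiv.Perm.isConj_swap h01 hab
    · intro h
      obtain ⟨g, hg⟩ := isConj_iff.mp h
      rw [← hg]
      refine ⟨g _, g _, fun h' => h01 (g.injective h'), ?_⟩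
      exact (Equiv.swap_apply_apply g _ _).symm

end Cfsg.Agent.S0439
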