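import Mathlib
import Cfsg.Statements.S0442

set_option autoImplicit false
open Cfsg

namespace Cfsg.Agent.S0442

theorem inv_of_order_two {G : Type*} [Group G] (a : G) (ha : orderOf a = 2) : a⁻¹ = a := by
  have h : a ^ 2 = 1 := by rw [← ha]; exact pow_orderOf_eq_one a
  rw [inv_eq_iff_mul_eq_one, ← sq]; exact h

theorem conj_pow_prod {G : Type*} [Group G] (a b : G) (ha : a * a = 1) (hb : b * b = 1) (m : ℕ) :
    a * (a * b) ^ m * a = ((a * b) ^ m)⁻¹ := by
  have h1 : a * (a * b) * a⁻¹ = (a * b)⁻¹ := by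
    have : a⁻¹ = a := by rw [inv_eq_iff_mul_eq_one]; exact ha
    have hb' : b⁻¹ = b := by rw [inv_eq_iff_mul_eq_one]; exact hb
    rw [mul_inv_rev, this, hb', ← mul_assoc, ha, one_mul]
  have ha' : a⁻¹ = a := by rw [inv_eq_iff_mul_eq_one]; exact ha
  have h2 : a * (a * b) ^ m * a⁻¹ = ((a * b)⁻¹) ^ m := by
    rw [← h1, conj_pow]
  rw [ha'] at h2
  rw [h2, inv_pow]

/-- A standard trick for producing elements of an involution centraliser: for an involution a and an element g, let b be the conjugate g⁻¹ * a * g. If a * b has odd order 2m + 1 then g * (a * b) ^ m commutes with a; if a * b has even order 2m then (a * b) ^ m and (a * (g * a * g⁻¹)) ^ m commute with a. -/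
theorem result {G : Type*} [Group G] (a g : G) (ha : orderOf a = 2) : (∀ m : ℕ, orderOf (a * (g⁻¹ * a * g)) = 2 * m + 1 → Commute (g * (a * (g⁻¹ * a * g)) ^ m) a) ∧ (∀ m : ℕ, orderOf (a * (g⁻¹ * a * g)) = 2 * m → Commute ((a * (g⁻¹ * a * g)) ^ m) a ∧ Commute ((a * (g * a * g⁻¹)) ^ m) a) := by
  have haa : a * a = 1 := by
    have h : a ^ 2 = 1 := by rw [← ha]; exact pow_orderOf_eq_one a
    rwa [sq] at h
  have ha' : a⁻¹ = a := by rw [inv_eq_iff_mul_eq_one]; exact haa
  have hbb : (g⁻¹ * a * g) * (g⁻¹ * a * g) = 1 := by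
    calc (g⁻¹ * a * g) * (g⁻¹ * a * g) = g⁻¹ * (a * a) * g := by group
      _ = 1 := by rw [haa]; group
  have hbb' : (g * a * g⁻¹) * (g * a * g⁻¹) = 1 := by
    calc (g * a * g⁻¹) * (g * a * g⁻¹) = g * (a * a) * g⁻¹ := by group
      _ = 1 := by rw [haa]; group
  refine ⟨?_, ?_⟩
  · intro m hm
    set b := g⁻¹ * a * g with hb
    set c := a * b with hc
    have hc1 : c ^ (2 * m + 1) = 1 := by rw [← hm]; exact pow_orderOf_eq_one c
    have hconj : a * c ^ m * a = (c ^ m)⁻¹ := conj_pow_prod a b haa hbb m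
    have hgb : g * b = a * g := by rw [hb]; group
    have hcinv : c⁻¹ * a = b := by
      rw [hc, mul_inv_rev, ha']
      have hb' : b⁻¹ = b := by rw [inv_eq_iff_mul_eq_one]; exact hbb
      rw [hb', mul_assoc, haa, mul_one]
    have hc2 : c ^ m * c ^ m = c⁻¹ := by
      rw [← pow_add, eq_inv_iff_mul_eq_one, ← pow_succ]
      have : m + m + 1 = 2 * m + 1 := by ring
      rw [this]; exact hc1
    have hkey : c ^ m * a = b * c ^ m := by
      have h3 : c ^ m * a = (c ^ m) * (c ^ m) * ((c ^ m)⁻¹ * a) := by group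
      have h4 : (c ^ m)⁻¹ * a = a * c ^ m := by
        rw [← hconj]; simp [mul_assoc, haa]
      rw [h3, hc2, h4, ← mul_assoc, hcinv]
    show g * c ^ m * a = a * (g * c ^ m)
    rw [mul_assoc, hkey, ← mul_assoc, hgb, mul_assoc]
  · intro m hm
    have key : ∀ b : G, b * b = 1 → (a * b) ^ (2 * m) = 1 → Commute ((a * b) ^ m) a := by
      intro b hbb hc1
      have hconj : a * (a * b) ^ m * a = ((a * b) ^ m)⁻¹ := conj_pow_prod a b haa hbb m
      have hinv : ((a * b) ^ m)⁻¹ = (a * b) ^ m := by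
        rw [inv_eq_iff_mul_eq_one, ← pow_add]
        have : m + m = 2 * m := by ring
        rw [this]; exact hc1
      rw [hinv] at hconj
      show (a * b) ^ m * a = a * (a * b) ^ m
      calc (a * b) ^ m * a = (a * (a * b) ^ m * a) * a := by rw [hconj]
        _ = a * (a * b) ^ m * (a * a) := by group
        _ = a * (a * b) ^ m := by rw [haa, mul_one]
    refine ⟨key _ hbb (by rw [← hm]; exact pow_orderOf_eq_one _), key _ hbb' ?_⟩
    have hconj : g⁻¹ * (a * (g * a * g⁻¹)) * g = (a * (g⁻¹ * a * g))⁻¹ := by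
      rw [mul_inv_rev, ha']
      have : (g⁻¹ * a * g)⁻¹ = g⁻¹ * a * g := by rw [inv_eq_iff_mul_eq_one]; exact hbb
      rw [this]; group
    have hord : orderOf (a * (g * a * g⁻¹)) = 2 * m := by
      rw [← hm, ← orderOf_inv (a * (g⁻¹ * a * g)), ← hconj]
      have hs : SemiconjBy g⁻¹ (a * (g * a * g⁻¹)) (g⁻¹ * (a * (g * a * g⁻¹)) * g) := by
        unfold SemiconjBy; group
      exact hs.orderOf_eq
    rw [← hord]; exact pow_orderOf_eq_one _

end Cfsg.Agent.S0442
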