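import Mathlib
import Cfsg.Agent.Lib.Helper1.Dih
import Cfsg.Statements.S0444

set_option autoImplicit false
open Cfsg

namespace Cfsg.Agent.S0444

/-- Two members of a set of 3-transpositions which do not commute generate a subgroup isomorphic to the symmetric group on three letters. -/
theorem result {G : Type*} [Group G] {E : Set G} (hE : Cfsg.IsThreeTranspositionSet E) {d e : G} (hd : d ∈ E) (he : e ∈ E) (h : ¬ Commute d e) : Nonempty (Subgroup.closure ({d, e} : Set G) ≃* Equiv.Perm (Fin 3)) := by
  obtain ⟨hord, h3⟩ := hE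
  have sq : ∀ d ∈ E, d * d = 1 := fun d hd => by
    have := hord d hd
    rw [← pow_two, ← this, pow_orderOf_eq_one]
  have hd2 := sq d hd
  have he2 := sq e he
  have hcube : (d * e) ^ 3 = 1 := by
    rcases h3 d hd e he with h' | h'
    · exfalso
      apply h
      have h'' : d * e * (d * e) = 1 := by rw [← pow_two]; exact h'
      have h2 : e * d * (d * e) = 1 := by
        calc e * d * (d * e) = e * (d * d) * e := by simp only [mul_assoc]
          _ = 1 := by rw [hd2, mul_one, he2]
      exact mul_right_cancel (h''.trans h2.symm)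
    · exact h'
  have hne : d * e ≠ 1 := by
    intro h1
    apply h
    have : d = e⁻¹ := mul_eq_one_iff_eq_inv.mp h1
    rw [this]
    exact (Commute.refl e).inv_left
  have hord3 : orderOf (d * e) = 3 := by
    have hdvd := orderOf_dvd_of_pow_eq_one hcube
    rcases (Nat.dvd_prime Nat.prime_three).mp hdvd with h1 | h1
    · exact absurd (orderOf_eq_one_iff.mp h1) hne
    · exact h1
  obtain ⟨φ⟩ := Lib.Helper1.dihedral_closure d e (hord d hd) (hord e he) (by rw [hord3]; norm_num)
  rw [hord3] at φ
  obtain ⟨ψ⟩ := Lib.Helper1.dih3_equiv_perm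
  exact ⟨φ.trans ψ⟩

end Cfsg.Agent.S0444
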