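import Mathlib
import Cfsg.Agent.Lib.Helper1.Inv
import Cfsg.Statements.S0481

set_option autoImplicit false
open Cfsg

namespace Cfsg.Agent.S0481

/-- Large extraspecial subgroups: let z be an involution of a finite group G whose centraliser C contains a normal 2-subgroup Q with centre of order 2 and all squares central, such that every element of G centralising Q lies in Q. Then C contains a Sylow 2-subgroup of G, and any involution of G whose centraliser contains a Sylow 2-subgroup of G is conjugate to z. -/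
theorem result {G : Type*} [Group G] [Finite G] (z : G) (hz : orderOf z = 2) (Q : Subgroup G) (hQC : Q ≤ Subgroup.centralizer ({z} : Set G)) (hQn : ∀ g ∈ Subgroup.centralizer ({z} : Set G), ∀ q ∈ Q, g * q * g⁻¹ ∈ Q) (hQ2 : IsPGroup 2 Q) (hZ : Nat.card (Subgroup.center Q) = 2) (hsq : ∀ x : Q, x ^ 2 ∈ Subgroup.center Q) (hlarge : Subgroup.centralizer (Q : Set G) ≤ Q) : (∃ P : Sylow 2 G, (P : Subgroup G) ≤ Subgroup.centralizer ({z} : Set G)) ∧ ∀ u : G, orderOf u = 2 → (∃ P : Sylow 2 G, (P : Subgroup G) ≤ Subgroup.centralizer ({u} : Set G)) → IsConj z u := by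
  have hz1 : z ≠ 1 := Lib.Helper1.ne_one_of_orderOf_two hz
  have hzQcomm : ∀ q ∈ Q, z * q = q * z := by
    intro q hq
    have := hQC hq
    rw [Subgroup.mem_centralizer_iff] at this
    exact this z rfl
  have hzQ : z ∈ Q := by
    apply hlarge
    rw [Subgroup.mem_centralizer_iff]
    intro h hh
    exact (hzQcomm h hh).symm
  have hzZ : (⟨z, hzQ⟩ : Q) ∈ Subgroup.center Q := by
    rw [Subgroup.mem_center_iff]
    rintro ⟨q, hq⟩
    apply Subtype.ext
    exact (hzQcomm q hq).symm
  obtain ⟨y0, -, huniq⟩ := (Nat.card_eq_two_iff' (1 : Subgroup.center Q)).mp hZ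
  have key : ∀ w : G, w ≠ 1 → (∀ q ∈ Q, q * w = w * q) → w = z := by
    intro w hw1 hwc
    have hwQ : w ∈ Q := by
      apply hlarge
      rw [Subgroup.mem_centralizer_iff]
      exact hwc
    have hwZ : (⟨w, hwQ⟩ : Q) ∈ Subgroup.center Q := by
      rw [Subgroup.mem_center_iff]
      rintro ⟨q, hq⟩
      apply Subtype.ext
      exact hwc q hq
    have e1 : (⟨⟨w, hwQ⟩, hwZ⟩ : Subgroup.center Q) = y0 := by
      apply huniq
      intro h
      apply hw1
      exact congrArg (fun x : Subgroup.center Q => ((x : Q) : G)) h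
    have e2 : (⟨⟨z, hzQ⟩, hzZ⟩ : Subgroup.center Q) = y0 := by
      apply huniq
      intro h
      apply hz1
      exact congrArg (fun x : Subgroup.center Q => ((x : Q) : G)) h
    exact congrArg (fun x : Subgroup.center Q => ((x : Q) : G)) (e1.trans e2.symm)
  obtain ⟨T, hQT⟩ := hQ2.exists_le_sylow
  have hTz : ∀ x ∈ (T : Subgroup G), x * z = z * x := by
    have hnt : Nontrivial (T : Subgroup G) :=
      ⟨⟨⟨z, hQT hzQ⟩, 1, fun h => hz1 (congrArg Subtype.val h)⟩⟩
    have hZT : Nontrivial (Subgroup.center (T : Subgroup G)) := T.isPGroup'.center_nontrivial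
    obtain ⟨w, hw⟩ := exists_ne (1 : Subgroup.center (T : Subgroup G))
    have hwc : ∀ x ∈ (T : Subgroup G), x * ((w : (T : Subgroup G)) : G) = ((w : (T : Subgroup G)) : G) * x := by
      intro x hx
      have := Subgroup.mem_center_iff.mp w.2 ⟨x, hx⟩
      exact congrArg Subtype.val this
    have hwz : ((w : (T : Subgroup G)) : G) = z := by
      apply key
      · intro h
        apply hw
        apply Subtype.ext
        apply Subtype.ext
        exact h
      · intro q hq
        exact hwc q (hQT hq)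
    rw [← hwz]
    exact hwc
  have hTC : (T : Subgroup G) ≤ Subgroup.centralizer ({z} : Set G) := by
    intro x hx
    rw [Subgroup.mem_centralizer_iff]
    intro h hh
    rw [Set.mem_singleton_iff] at hh
    rw [hh]
    exact (hTz x hx).symm
  refine ⟨⟨T, hTC⟩, ?_⟩
  rintro u hu ⟨P, hP⟩
  have huP : u ∈ P := Lib.Helper1.mem_sylow_of_two_centralizes u hu P hP
  obtain ⟨g, hg⟩ := MulAction.exists_smul_eq G P T
  have hu1 : u ≠ 1 := Lib.Helper1.ne_one_of_orderOf_two hu
  have hconj : g * u * g⁻¹ = z := by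
    apply key
    · intro h
      apply hu1
      have h2 : g * u * g⁻¹ = g * 1 * g⁻¹ := by rw [h]; group
      exact mul_left_cancel (mul_right_cancel h2)
    · intro q hq
      have hqT : q ∈ g • P := by rw [hg]; exact hQT hq
      rw [Lib.Helper1.mem_sylow_smul_iff] at hqT
      have h3 := hP hqT
      rw [Subgroup.mem_centralizer_iff] at h3
      have h4 : u * (g⁻¹ * q * g) = g⁻¹ * q * g * u := h3 u rfl
      calc q * (g * u * g⁻¹) = g * (g⁻¹ * q * g * u) * g⁻¹ := by group
        _ = g * (u * (g⁻¹ * q * g)) * g⁻¹ := by rw [h4]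
        _ = g * u * g⁻¹ * q := by group
  rw [isConj_iff]
  refine ⟨g⁻¹, ?_⟩
  rw [← hconj]
  group

end Cfsg.Agent.S0481
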