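import Mathlib
import Cfsg.Agent.Lib.Helper1.Small
import Cfsg.Statements.S0493

set_option autoImplicit false
open Cfsg

namespace Cfsg.Agent.S0493

/-- A finite simple group of order at most 100 that is not cyclic has order 60. -/
theorem result {G : Type*} [Group G] [Finite G] [IsSimpleGroup G]
    (hG : ¬ IsCyclic G) (h : Nat.card G ≤ 100) : Nat.card G = 60 := by
  exact Lib.Helper1.Small.simple_le_100 hG h

end Cfsg.Agent.S0493
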