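import Mathlib
import Cfsg.Agent.Lib.Helper1.Frob2
import Cfsg.Statements.S0499

set_option autoImplicit false
open Cfsg

namespace Cfsg.Agent.S0499

/-- A non-abelian finite simple group of even order has order divisible by 12, 16 or 56. -/
theorem result {G : Type*} [Group G] [Finite G] [IsSimpleGroup G]
    (hG : ¬ IsMulCommutative G) (h2 : Even (Nat.card G)) :
    12 ∣ Nat.card G ∨ 16 ∣ Nat.card G ∨ 56 ∣ Nat.card G := by
  by_contra hcon
  simp only [not_or] at hcon
  obtain ⟨h12, h16, h56⟩ := hcon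
  haveI : Fact (Nat.Prime 2) := ⟨Nat.prime_two⟩
  obtain ⟨P⟩ : Nonempty (Sylow 2 G) := inferInstance
  have hP := P.card_eq_multiplicity
  have hGpos : Nat.card G ≠ 0 := Nat.card_pos.ne'
  have ha : (Nat.card G).factorization 2 ≤ 3 := by
    by_contra hlt
    apply h16
    have h4 : 2 ^ 4 ∣ 2 ^ (Nat.card G).factorization 2 := pow_dvd_pow 2 (by omega)
    exact dvd_trans h4 (Nat.ordProj_dvd _ _)
  have hP8 : Nat.card (P : Subgroup G) ∣ 8 := by
    rw [hP]
    exact pow_dvd_pow 2 ha
  have hC : ∀ Q : Subgroup G, Q ≤ (P : Subgroup G) → ∀ g ∈ Subgroup.normalizer (Q : Set G),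
      (orderOf g).Coprime 2 → g ∈ Subgroup.centralizer (Q : Set G) := by
    intro Q hQ g hg hgo
    have hQG : Nat.card Q ∣ Nat.card G := Subgroup.card_subgroup_dvd_card Q
    have hgG : orderOf g ∣ Nat.card G := orderOf_dvd_natCard g
    apply Cfsg.Agent.Lib.Helper1.Frob.centralizes_of_small Q
      (dvd_trans (Subgroup.card_dvd_of_le hQ) hP8) g hg hgo
    · intro h4 h3
      apply h12
      have : (4 : ℕ).Coprime 3 := by decide
      exact this.mul_dvd_of_dvd_of_dvd (dvd_trans h4 hQG) (dvd_trans h3 hgG)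
    · intro h8 h7
      apply h56
      have : (8 : ℕ).Coprime 7 := by decide
      exact this.mul_dvd_of_dvd_of_dvd (dvd_trans h8 hQG) (dvd_trans h7 hgG)
  obtain ⟨N, hN, hNP⟩ := Cfsg.Agent.Lib.Helper1.Frob.exists_normal_complement P hC
  have hcm := hNP.card_mul_card
  rcases hN.eq_bot_or_eq_top with hb | ht
  · rw [hb, Subgroup.card_bot, one_mul] at hcm
    have hPtop : (P : Subgroup G) = ⊤ := (Subgroup.card_eq_iff_eq_top _).1 hcm
    have hG2 : IsPGroup 2 G := IsPGroup.of_card (hcm.symm.trans hP)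
    haveI : Nontrivial G := IsSimpleGroup.toNontrivial
    have hcn : Nontrivial (Subgroup.center G) := hG2.center_nontrivial
    have hcne : Subgroup.center G ≠ ⊥ := (Subgroup.nontrivial_iff_ne_bot _).1 hcn
    have hctop : Subgroup.center G = ⊤ :=
      ((inferInstance : (Subgroup.center G).Normal).eq_bot_or_eq_top).resolve_left hcne
    apply hG
    refine ⟨⟨fun a b => ?_⟩⟩
    have hb' : b ∈ Subgroup.center G := by
      rw [hctop]
      trivial
    exact (Subgroup.mem_center_iff.1 hb' a)
  · rw [ht, Subgroup.card_top] at hcm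
    have hP1 : Nat.card (P : Subgroup G) = 1 := by
      have hpos : 0 < Nat.card G := Nat.card_pos
      nlinarith [Nat.eq_of_mul_eq_mul_left hpos (by rw [hcm, mul_one] : Nat.card G * Nat.card (P : Subgroup G) = Nat.card G * 1)]
    rw [hP] at hP1
    have hf : (Nat.card G).factorization 2 = 0 := by
      by_contra hne
      have : 2 ∣ 2 ^ (Nat.card G).factorization 2 := dvd_pow_self 2 hne
      rw [hP1] at this
      omega
    have h2dvd : 2 ∣ Nat.card G := even_iff_two_dvd.1 h2
    have := (Nat.Prime.factorization_pos_of_dvd Nat.prime_two hGpos h2dvd)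
    omega

end Cfsg.Agent.S0499
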