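import Mathlib
import Cfsg.Agent.Lib.Helper1.K4
import Cfsg.Statements.S0502

set_option autoImplicit false
open Cfsg

namespace Cfsg.Agent.S0502

theorem mkFour {G : Type*} [Group G] (a b : G) (ha : a ≠ 1) (hb : b ≠ 1) (hab : a ≠ b)
    (ha2 : a * a = 1) (hb2 : b * b = 1) (hc : a * b = b * a) :
    ∃ W : Subgroup G, IsKleinFour W ∧ ∀ z, z ∈ W ↔ (z = 1 ∨ z = a ∨ z = b ∨ z = a * b) := by
  classical
  have h1 : a * (a * b) = b := by rw [← mul_assoc, ha2, one_mul]
  have h2 : b * (a * b) = a := by rw [hc, ← mul_assoc, hb2, one_mul]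
  have h3 : a * b * a = b := by rw [hc, mul_assoc, ha2, mul_one]
  have h4 : a * b * b = a := by rw [mul_assoc, hb2, mul_one]
  have h5 : a * b * (a * b) = 1 := by rw [mul_assoc, h2, ha2]
  have hba : b * a = a * b := hc.symm
  let W : Subgroup G :=
    { carrier := {z | z = 1 ∨ z = a ∨ z = b ∨ z = a * b}
      mul_mem' := by
        rintro x y (hx | hx | hx | hx) (hy | hy | hy | hy) <;>
          simp only [hx, hy, Set.mem_ofPred_eq, one_mul, mul_one, h1, h2, h3, h4, h5, ha2, hb2, hba,
            true_or, or_true]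
      one_mem' := Or.inl rfl
      inv_mem' := by
        rintro x (hx | hx | hx | hx)
        · left; rw [hx, inv_one]
        · right; left; rw [hx]; exact inv_eq_of_mul_eq_one_right ha2
        · right; right; left; rw [hx]; exact inv_eq_of_mul_eq_one_right hb2
        · right; right; right; rw [hx]; exact inv_eq_of_mul_eq_one_right h5 }
  have hmem : ∀ z, z ∈ W ↔ (z = 1 ∨ z = a ∨ z = b ∨ z = a * b) := fun z => Iff.rfl
  refine ⟨W, ?_, hmem⟩
  have hab1 : a * b ≠ 1 := by
    intro h
    apply hab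
    have : a * b = a * a := by rw [h, ha2]
    exact (mul_left_cancel this).symm
  have hab2 : a * b ≠ a := by
    intro h; apply hb; simpa using h
  have hab3 : a * b ≠ b := by
    intro h; apply ha; simpa using h
  have hcard : Nat.card W = 4 := by
    have hset : (W : Set G) = ((({1, a, b, a * b} : Finset G)) : Set G) := by
      ext z
      simp only [Finset.coe_insert, Finset.coe_singleton, Set.mem_insert_iff, Set.mem_singleton_iff]
      exact hmem z
    have e1 : Nat.card W = Set.ncard (W : Set G) := rfl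
    rw [e1, hset, Set.ncard_coe_finset]
    rw [Finset.card_insert_of_notMem, Finset.card_insert_of_notMem, Finset.card_insert_of_notMem,
      Finset.card_singleton]
    · simp [Ne.symm hab3]
    · simp [hab, Ne.symm hab2]
    · simp [Ne.symm ha, Ne.symm hb, Ne.symm hab1]
  refine ⟨hcard, ?_⟩
  have hdvd : Monoid.exponent W ∣ 2 := by
    apply Monoid.exponent_dvd_of_forall_pow_eq_one
    intro x
    apply Subtype.ext
    rcases (hmem x.1).1 x.2 with h | h | h | h
    · simp [h]
    · simp [h, pow_two, ha2]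
    · simp [h, pow_two, hb2]
    · simp [h, pow_two, h5]
  rcases (Nat.dvd_prime Nat.prime_two).1 hdvd with h | h
  · exfalso
    rw [Monoid.exp_eq_one_iff] at h
    have := Nat.card_eq_one_iff_unique.2 ⟨h, ⟨1⟩⟩
    omega
  · exact h

theorem exists_not_mem_of_card {G : Type*} [Group G] (H : Subgroup G) (s : Finset G)
    (h : s.card < Nat.card H) : ∃ x ∈ H, x ∉ s := by
  by_contra hcon
  have hsub : (H : Set G) ⊆ (s : Set G) := by
    intro x hx
    by_contra hxs
    exact hcon ⟨x, hx, hxs⟩
  have h1 : Set.ncard (H : Set G) ≤ Set.ncard (s : Set G) :=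
    Set.ncard_le_ncard hsub (Finset.finite_toSet s)
  rw [Set.ncard_coe_finset] at h1
  have h2 : Set.ncard (H : Set G) = Nat.card H := rfl
  omega

theorem g_mem {P : Type*} [Group P] (E : Subgroup P) [E.Normal] (u e : P) (hu : u * u = 1)
    (he : e ∈ E) : u * e * u ∈ E := by
  have hu' : u⁻¹ = u := inv_eq_of_mul_eq_one_right hu
  have := ‹E.Normal›.conj_mem e he u
  rwa [hu'] at this

theorem g_comm {P : Type*} [Group P] (E : Subgroup P) [E.Normal]
    (hEc : ∀ x ∈ E, ∀ y ∈ E, x * y = y * x) (u e : P) (hu : u * u = 1) (he : e ∈ E) :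
    e * (u * e * u) * u = u * (e * (u * e * u)) := by
  have h1 : e * (u * e * u) = (u * e * u) * e := hEc e he _ (g_mem E u e hu he)
  calc e * (u * e * u) * u = e * u * e * (u * u) := by group
    _ = e * u * e := by rw [hu, mul_one]
    _ = (u * u) * e * u * e := by rw [hu, one_mul]
    _ = u * ((u * e * u) * e) := by group
    _ = u * (e * (u * e * u)) := by rw [h1]

theorem g_one {P : Type*} [Group P] (u e : P) (hu : u * u = 1) (hee : e * e = 1)
    (h : e * (u * e * u) = 1) : e * u = u * e := by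
  have h1 : u * e * u = e := by
    have : e * (u * e * u) = e * e := by rw [h, hee]
    exact mul_left_cancel this
  calc e * u = (u * u) * e * u := by rw [hu, one_mul]
    _ = u * (u * e * u) := by group
    _ = u * e := by rw [h1]

theorem g_mul {P : Type*} [Group P] (E : Subgroup P) [E.Normal]
    (hEc : ∀ x ∈ E, ∀ y ∈ E, x * y = y * x) (u e1 e2 : P) (hu : u * u = 1) (h1 : e1 ∈ E)
    (h2 : e2 ∈ E) :
    e1 * e2 * (u * (e1 * e2) * u) = e1 * (u * e1 * u) * (e2 * (u * e2 * u)) := by
  have hc := hEc e2 h2 (u * e1 * u) (g_mem E u e1 hu h1)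
  have h3 : u * (e1 * e2) * u = (u * e1 * u) * (u * e2 * u) := by
    calc u * (e1 * e2) * u = u * e1 * 1 * e2 * u := by group
      _ = u * e1 * (u * u) * e2 * u := by rw [hu]
      _ = (u * e1 * u) * (u * e2 * u) := by group
  calc e1 * e2 * (u * (e1 * e2) * u) = e1 * (e2 * (u * e1 * u)) * (u * e2 * u) := by
        rw [h3]; group
    _ = e1 * ((u * e1 * u) * e2) * (u * e2 * u) := by rw [hc]
    _ = e1 * (u * e1 * u) * (e2 * (u * e2 * u)) := by group

theorem key {P : Type*} [Group P] (E : Subgroup P) [E.Normal]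
    (hEc : ∀ x ∈ E, ∀ y ∈ E, x * y = y * x) (hEs : ∀ e ∈ E, e * e = 1) (hE8 : 8 ≤ Nat.card E)
    (u : P) (hu : u * u = 1) (c : P) : ∃ e ∈ E, e * u = u * e ∧ e ≠ 1 ∧ e ≠ c := by
  classical
  by_contra hcon
  have hC : ∀ e ∈ E, e * u = u * e → e = 1 ∨ e = c := by
    intro e he hcomm
    by_contra h
    rw [not_or] at h
    exact hcon ⟨e, he, hcomm, h.1, h.2⟩
  have hg : ∀ e ∈ E, e ≠ 1 → e ≠ c → e * (u * e * u) = c ∧ c ≠ 1 := by
    intro e he h1 h2
    have hne : e * (u * e * u) ≠ 1 := by
      intro h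
      rcases hC e he (g_one u e hu (hEs e he) h) with h' | h'
      · exact h1 h'
      · exact h2 h'
    rcases hC _ (E.mul_mem he (g_mem E u e hu he)) (g_comm E hEc u e hu he) with h' | h'
    · exact absurd h' hne
    · exact ⟨h', fun hc1 => hne (h'.trans hc1)⟩
  obtain ⟨e1, he1E, he1⟩ := exists_not_mem_of_card E {1, c}
    (lt_of_le_of_lt Finset.card_le_two (by omega))
  obtain ⟨e2, he2E, he2⟩ := exists_not_mem_of_card E {1, c, e1, e1 * c}
    (lt_of_le_of_lt Finset.card_le_four (by omega))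
  simp only [Finset.mem_insert, Finset.mem_singleton, not_or] at he1 he2
  obtain ⟨hc1, hc⟩ := hg e1 he1E he1.1 he1.2
  obtain ⟨hc2, -⟩ := hg e2 he2E he2.1 he2.2.1
  have h12a : e1 * e2 ≠ 1 := by
    intro h
    apply he2.2.2.1
    have : e1 * e2 = e1 * e1 := by rw [h, hEs e1 he1E]
    exact mul_left_cancel this
  have h12b : e1 * e2 ≠ c := by
    intro h
    apply he2.2.2.2
    have : e1 * e2 = e1 * (e1 * c) := by rw [h, ← mul_assoc, hEs e1 he1E, one_mul]
    exact mul_left_cancel this
  obtain ⟨hc3, -⟩ := hg (e1 * e2) (E.mul_mem he1E he2E) h12a h12b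
  rw [g_mul E hEc u e1 e2 hu he1E he2E, hc1, hc2] at hc3
  have hcE : c ∈ E := by
    rw [← hc1]
    exact E.mul_mem he1E (g_mem E u e1 hu he1E)
  rw [hEs c hcE] at hc3
  exact hc hc3.symm

/-- If a finite 2-group has a normal elementary abelian subgroup of order at least 8, then any two of its Klein
four-subgroups are joined by a chain of Klein four-subgroups with consecutive members commuting elementwise. -/
theorem result {P : Type*} [Group P] [Finite P] (hP : IsPGroup 2 P)
    (E : Subgroup P) [E.Normal] (hE : IsMulCommutative E) (hE2 : ∀ e ∈ E, e ^ 2 = 1) (hE8 : 8 ≤ Nat.card E) :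
    Cfsg.IsFourConnected P := by
  classical
  have hEc : ∀ x ∈ E, ∀ y ∈ E, x * y = y * x := by
    intro x hx y hy
    have := hE.is_comm.comm ⟨x, hx⟩ ⟨y, hy⟩
    exact congrArg Subtype.val this
  have hEs : ∀ e ∈ E, e * e = 1 := fun e he => by rw [← pow_two]; exact hE2 e he
  obtain ⟨a, haE, ha⟩ := exists_not_mem_of_card E {1} (by rw [Finset.card_singleton]; omega)
  obtain ⟨b, hbE, hb⟩ := exists_not_mem_of_card E {1, a}
    (lt_of_le_of_lt Finset.card_le_two (by omega))
  simp only [Finset.mem_insert, Finset.mem_singleton, not_or] at ha hb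
  obtain ⟨E0, hE0, hE0mem⟩ := mkFour a b ha hb.1 (Ne.symm hb.2) (hEs a haE) (hEs b hbE)
    (hEc a haE b hbE)
  have hE0E : E0 ≤ E := by
    intro z hz
    rcases (hE0mem z).1 hz with h | h | h | h <;> rw [h]
    exacts [E.one_mem, haE, hbE, E.mul_mem haE hbE]
  have hmain : ∀ U : Subgroup P, IsKleinFour U → Relation.ReflTransGen
      (fun A B : Subgroup P => IsKleinFour A ∧ IsKleinFour B ∧ ∀ a ∈ A, ∀ b ∈ B, a * b = b * a)
      U E0 := by
    intro U hU
    obtain ⟨x, y, hxU, hyU, hx1, hy1, hxy, hxx, hyy, hcomm, hall⟩ :=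
      Cfsg.Agent.Lib.Helper1.K4.k4_elements U hU
    have hUc : ∀ a ∈ U, ∀ b ∈ U, a * b = b * a := by
      intro a ha b hb
      have hmc : IsMulCommutative U := IsKleinFour.isMulCommutative
      have := hmc.is_comm.comm ⟨a, ha⟩ ⟨b, hb⟩
      exact congrArg Subtype.val this
    have hfix : ∃ e ∈ E, e ≠ 1 ∧ e * x = x * e ∧ e * y = y * e := by
      obtain ⟨e, heE, hex, he1, -⟩ := key E hEc hEs hE8 x hxx 1
      by_cases h : e * (y * e * y) = 1
      · exact ⟨e, heE, he1, hex, g_one y e hyy (hEs e heE) h⟩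
      · refine ⟨e * (y * e * y), E.mul_mem heE (g_mem E y e hyy heE), h, ?_, g_comm E hEc y e hyy heE⟩
        have hyx : y * x = x * y := hcomm.symm
        calc e * (y * e * y) * x = e * y * e * (y * x) := by group
          _ = e * y * e * (x * y) := by rw [hyx]
          _ = e * y * (e * x) * y := by group
          _ = e * y * (x * e) * y := by rw [hex]
          _ = e * (y * x) * e * y := by group
          _ = e * (x * y) * e * y := by rw [hyx]
          _ = (e * x) * y * e * y := by group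
          _ = (x * e) * y * e * y := by rw [hex]
          _ = x * (e * (y * e * y)) := by group
    obtain ⟨e, heE, he1, hex, hey⟩ := hfix
    have heU : ∀ a ∈ U, e * a = a * e := by
      intro a ha
      rcases hall a ha with h | h | h | h
      · rw [h, mul_one, one_mul]
      · rw [h]; exact hex
      · rw [h]; exact hey
      · rw [h, ← mul_assoc, hex, mul_assoc, hey, mul_assoc]
    obtain ⟨u, huU, hu1, hue⟩ : ∃ u ∈ U, u ≠ 1 ∧ u ≠ e := by
      by_cases h : x = e
      · exact ⟨y, hyU, hy1, fun h' => hxy (h.trans h'.symm)⟩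
      · exact ⟨x, hxU, hx1, h⟩
    have huu : u * u = 1 := by
      have := IsKleinFour.mul_self (⟨u, huU⟩ : U)
      exact congrArg Subtype.val this
    obtain ⟨e', he'E, he'u, he'1, he'e⟩ := key E hEc hEs hE8 u huu e
    obtain ⟨W, hW, hWmem⟩ := mkFour u e hu1 he1 hue huu (hEs e heE) (heU u huU).symm
    obtain ⟨W', hW', hW'mem⟩ := mkFour e e' he1 he'1 (Ne.symm he'e) (hEs e heE) (hEs e' he'E)
      (hEc e heE e' he'E)
    have hW'E : W' ≤ E := by
      intro z hz
      rcases (hW'mem z).1 hz with h | h | h | h <;> rw [h]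
      exacts [E.one_mem, heE, he'E, E.mul_mem heE he'E]
    have r1 : IsKleinFour U ∧ IsKleinFour W ∧ ∀ a ∈ U, ∀ b ∈ W, a * b = b * a := by
      refine ⟨hU, hW, ?_⟩
      intro a ha b hb
      rcases (hWmem b).1 hb with h | h | h | h
      · rw [h, mul_one, one_mul]
      · rw [h]; exact hUc a ha u huU
      · rw [h]; exact (heU a ha).symm
      · rw [h, ← mul_assoc, hUc a ha u huU, mul_assoc, ← heU a ha, mul_assoc]
    have r2 : IsKleinFour W ∧ IsKleinFour W' ∧ ∀ a ∈ W, ∀ b ∈ W', a * b = b * a := by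
      refine ⟨hW, hW', ?_⟩
      have hu_e : u * e = e * u := (heU u huU).symm
      have hu_e' : u * e' = e' * u := he'u.symm
      have he_e' : e * e' = e' * e := hEc e heE e' he'E
      have hgen : ∀ b ∈ W', u * b = b * u ∧ e * b = b * e := by
        intro b hb
        rcases (hW'mem b).1 hb with h | h | h | h
        · rw [h]; simp
        · rw [h]; exact ⟨hu_e, rfl⟩
        · rw [h]; exact ⟨hu_e', he_e'⟩
        · rw [h]
          refine ⟨?_, ?_⟩
          · rw [← mul_assoc, hu_e, mul_assoc, hu_e', mul_assoc]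
          · rw [mul_assoc, ← he_e']
      intro a ha b hb
      obtain ⟨hb1, hb2⟩ := hgen b hb
      rcases (hWmem a).1 ha with h | h | h | h
      · rw [h, mul_one, one_mul]
      · rw [h]; exact hb1
      · rw [h]; exact hb2
      · rw [h, mul_assoc, hb2, ← mul_assoc, hb1, mul_assoc]
    have r3 : IsKleinFour W' ∧ IsKleinFour E0 ∧ ∀ a ∈ W', ∀ b ∈ E0, a * b = b * a :=
      ⟨hW', hE0, fun a ha b hb => hEc a (hW'E ha) b (hE0E hb)⟩
    exact Relation.ReflTransGen.head r1 (Relation.ReflTransGen.head r2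
      (Relation.ReflTransGen.single r3))
  intro U V hU hV
  haveI hsymm : Std.Symm (fun A B : Subgroup P =>
      IsKleinFour A ∧ IsKleinFour B ∧ ∀ a ∈ A, ∀ b ∈ B, a * b = b * a) :=
    ⟨fun A B h => ⟨h.2.1, h.1, fun a ha b hb => (h.2.2 b hb a ha).symm⟩⟩
  exact (hmain U hU).trans (Relation.ReflTransGen.stdSymm.symm _ _ (hmain V hV))

end Cfsg.Agent.S0502
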