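import Mathlib
import Cfsg.Agent.Lib.Helper1.DihCent
import Cfsg.Statements.S0514

set_option autoImplicit false
open Cfsg

namespace Cfsg.Agent.S0514

/-- In a finite group whose Sylow 2-subgroups are dihedral of order at least 4, the centralizer of any involution has a
normal subgroup of odd order whose index in the centralizer is a power of 2. -/
theorem result {X : Type*} [Group X] [Finite X]
    (S : Sylow 2 X) (n : ℕ) (hn : 2 ≤ n) (hS : Nonempty ((S : Subgroup X) ≃* DihedralGroup n)) (t : X)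
    (ht : orderOf t = 2) :
    ∃ N : Subgroup (Subgroup.centralizer ({t} : Set X)), N.Normal ∧ Odd (Nat.card N) ∧ ∃ k : ℕ, N.index = 2 ^ k := by
  haveI : Fact (Nat.Prime 2) := ⟨Nat.prime_two⟩
  obtain ⟨φ⟩ := hS
  have htC : t ∈ Subgroup.centralizer ({t} : Set X) := Subgroup.mem_centralizer_singleton_iff.2 rfl
  have ht1 : t ≠ 1 := by
    intro h
    rw [h, orderOf_one] at ht
    omega
  have ht2 : t * t = 1 := by
    rw [← pow_two, ← ht]
    exact pow_orderOf_eq_one t
  have htcomm : ∀ c : Subgroup.centralizer ({t} : Set X),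
      c * (⟨t, htC⟩ : Subgroup.centralizer ({t} : Set X)) = ⟨t, htC⟩ * c :=
    fun c => Subtype.ext (Subgroup.mem_centralizer_singleton_iff.1 c.2)
  haveI hZn : (Subgroup.zpowers (⟨t, htC⟩ : Subgroup.centralizer ({t} : Set X))).Normal := by
    refine ⟨fun n hn c => ?_⟩
    obtain ⟨k, rfl⟩ := Subgroup.mem_zpowers_iff.1 hn
    have h1 : c * (⟨t, htC⟩ : Subgroup.centralizer ({t} : Set X)) ^ k * c⁻¹ =
        (⟨t, htC⟩ : Subgroup.centralizer ({t} : Set X)) ^ k := by
      rw [← conj_zpow, htcomm c]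
      group
    rw [h1]
    exact hn
  have hZ2 : IsPGroup 2 (Subgroup.zpowers (⟨t, htC⟩ : Subgroup.centralizer ({t} : Set X))) := by
    apply IsPGroup.of_card (n := 1)
    rw [Nat.card_zpowers, Subgroup.orderOf_mk, ht]
    rfl
  obtain ⟨N, hN, hc, j, hj⟩ := Cfsg.Agent.Lib.Helper1.Frob.exists_normal_complement_aux (p := 2)
    (Nat.card (Subgroup.centralizer ({t} : Set X))) (Subgroup.centralizer ({t} : Set X)) rfl (by
    intro Q hQ g hg hgo
    have hQ1p : IsPGroup 2 (Q ⊔ Subgroup.zpowers (⟨t, htC⟩ : Subgroup.centralizer ({t} : Set X)) :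
        Subgroup (Subgroup.centralizer ({t} : Set X))) := hQ.to_sup_of_normal_right hZ2
    obtain ⟨S', hS'⟩ := IsPGroup.exists_le_sylow
      (hQ1p.map (Subgroup.centralizer ({t} : Set X)).subtype)
    obtain ⟨h, rfl⟩ := MulAction.exists_smul_eq X S S'
    obtain ⟨Rot, hD⟩ := Cfsg.Agent.Lib.Helper1.DihCent.dihLike_of_equiv
      ((h • S : Sylow 2 X) : Subgroup X)
      ((Subgroup.equivSMul (MulAut.conj h) (S : Subgroup X)).symm.trans φ)
    have hgN : (g : X) ∈ Subgroup.normalizer
        (((Q ⊔ Subgroup.zpowers (⟨t, htC⟩ : Subgroup.centralizer ({t} : Set X))).map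
          (Subgroup.centralizer ({t} : Set X)).subtype : Subgroup X) : Set X) := by
      apply Subgroup.mem_normalizer_fintype
      rintro _ ⟨q, hq, rfl⟩
      refine ⟨g * q * g⁻¹, ?_, rfl⟩
      have hmap : (Q ⊔ Subgroup.zpowers (⟨t, htC⟩ : Subgroup.centralizer ({t} : Set X))).map
          (MulAut.conj g).toMonoidHom ≤
          Q ⊔ Subgroup.zpowers (⟨t, htC⟩ : Subgroup.centralizer ({t} : Set X)) := by
        rw [Subgroup.map_sup]
        apply sup_le_sup
        · rintro _ ⟨a, ha, rfl⟩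
          exact (Subgroup.mem_normalizer_iff.1 hg a).1 ha
        · rintro _ ⟨a, ha, rfl⟩
          exact hZn.conj_mem a ha g
      exact hmap ⟨q, hq, rfl⟩
    have hcent := Cfsg.Agent.Lib.Helper1.DihCent.dih_centralizes hD (h • S : Sylow 2 X).2
      ((Q ⊔ Subgroup.zpowers (⟨t, htC⟩ : Subgroup.centralizer ({t} : Set X))).map
          (Subgroup.centralizer ({t} : Set X)).subtype) hS' (g : X) hgN
      (by rw [Subgroup.orderOf_coe]; exact hgo) t
      ⟨⟨t, htC⟩, Subgroup.mem_sup_right (Subgroup.mem_zpowers _), rfl⟩ ht1 ht2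
      (Subgroup.mem_centralizer_singleton_iff.1 g.2)
    rw [Subgroup.mem_centralizer_iff] at hcent ⊢
    intro q hq
    have h9 := hcent (q : X) ⟨q, Subgroup.mem_sup_left hq, rfl⟩
    exact Subtype.ext h9)
  exact ⟨N, hN, Nat.Coprime.odd_of_right hc, j, hj⟩

end Cfsg.Agent.S0514
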