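import Cfsg.Statements.S0520
import Mathlib

set_option autoImplicit false
open Cfsg

namespace Cfsg.Agent.S0520

variable {G : Type*} [Group G]

theorem kf_iff (A : Subgroup G) : IsKleinFour ↥A ↔ Nat.card A = 4 ∧ ∀ a ∈ A, a ^ 2 = 1 := by
  constructor
  · intro h
    refine ⟨h.card_four, fun a ha => ?_⟩
    have := Monoid.pow_exponent_eq_one (⟨a, ha⟩ : ↥A)
    rw [h.exponent_two] at this
    exact congrArg Subtype.val this
  · rintro ⟨hc, he⟩
    refine ⟨hc, ?_⟩
    have hd : Monoid.exponent ↥A ∣ 2 :=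
      Monoid.exponent_dvd_of_forall_pow_eq_one (fun a => Subtype.ext (by simpa using he a.1 a.2))
    rcases (Nat.dvd_prime Nat.prime_two).1 hd with h1 | h1
    · exfalso
      rw [Monoid.exp_eq_one_iff] at h1
      have := Nat.card_eq_one_iff_unique.2 ⟨h1, ⟨1⟩⟩
      omega
    · exact h1

def cj (g : G) (W : Subgroup G) : Subgroup G := W.map (MulAut.conj g).toMonoidHom

theorem mem_cj (g : G) (W : Subgroup G) (x : G) : x ∈ cj g W ↔ g⁻¹ * x * g ∈ W := by
  unfold cj
  rw [Subgroup.mem_map]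
  constructor
  · rintro ⟨a, ha, rfl⟩
    simpa [mul_assoc] using ha
  · intro h
    exact ⟨g⁻¹ * x * g, h, by simp [mul_assoc]⟩

theorem cj_one (W : Subgroup G) : cj 1 W = W := by
  ext x; rw [mem_cj]; simp

theorem cj_mul (g h : G) (W : Subgroup G) : cj (g * h) W = cj g (cj h W) := by
  ext x; rw [mem_cj, mem_cj, mem_cj]; simp [mul_assoc]

theorem card_cj (g : G) (W : Subgroup G) : Nat.card (cj g W) = Nat.card W :=
  Subgroup.card_map_of_injective (MulAut.conj g).injective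

theorem kf_cj (g : G) (W : Subgroup G) (h : IsKleinFour ↥W) : IsKleinFour ↥(cj g W) := by
  rw [kf_iff] at h ⊢
  refine ⟨by rw [card_cj]; exact h.1, fun a ha => ?_⟩
  rw [mem_cj] at ha
  have := h.2 _ ha
  have h2 : a ^ 2 = g * (g⁻¹ * a * g) ^ 2 * g⁻¹ := by
    simp [pow_two, mul_assoc]
  rw [h2, this]; simp

theorem kf_map {H : Type*} [Group H] (f : G →* H) (hf : Function.Injective f) (W : Subgroup G)
    (h : IsKleinFour ↥W) : IsKleinFour ↥(W.map f) := by
  rw [kf_iff] at h ⊢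
  refine ⟨by rw [Subgroup.card_map_of_injective hf]; exact h.1, ?_⟩
  rintro a ⟨b, hb, rfl⟩
  rw [← map_pow, h.2 b hb, map_one]

theorem kf_subgroupOf (V Q : Subgroup G) (hV : IsKleinFour ↥V) (hVQ : V ≤ Q) :
    IsKleinFour ↥(V.subgroupOf Q) := by
  rw [kf_iff] at hV ⊢
  refine ⟨by rw [Nat.card_congr (Subgroup.subgroupOfEquivOfLe hVQ).toEquiv]; exact hV.1, ?_⟩
  intro a ha
  rw [Subgroup.mem_subgroupOf] at ha
  exact Subtype.ext (by simpa using hV.2 _ ha)

theorem rank_of_kf (V Q : Subgroup G) (hV : IsKleinFour ↥V) (hVQ : V ≤ Q) :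
    ¬ Cfsg.PRankLE 2 1 ↥Q := by
  intro h
  haveI := kf_subgroupOf V Q hV hVQ
  have h1 := h (V.subgroupOf Q) IsKleinFour.isMulCommutative
    (fun a ha => ((kf_iff _).1 this).2 a ha)
  rw [IsKleinFour.card_four] at h1
  omega

theorem exists_kf {X : Type*} [Group X] [Finite X] (h : ¬ Cfsg.PRankLE 2 1 X) :
    ∃ W : Subgroup X, IsKleinFour ↥W := by
  unfold Cfsg.PRankLE at h
  simp only [not_forall, not_le] at h
  obtain ⟨A, hA, hexp, hcard⟩ := h
  have hp : IsPGroup 2 ↥A := by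
    intro a
    exact ⟨1, Subtype.ext (by simpa using hexp a.1 a.2)⟩
  obtain ⟨n, hn⟩ := (IsPGroup.iff_card (p := 2) (G := ↥A)).1 hp
  have hn2 : 2 ≤ n := by
    by_contra hlt
    have h1 : n ≤ 1 := by omega
    have h3 : 2 ^ n ≤ 2 ^ 1 := Nat.pow_le_pow_right (by norm_num) h1
    rw [hn] at hcard
    exact absurd h3 (not_le.2 hcard)
  obtain ⟨K, hK⟩ := Sylow.exists_subgroup_card_pow_prime_of_le_card (n := 2) Nat.prime_two hp
    (by rw [hn]; exact Nat.pow_le_pow_right (by norm_num) hn2)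
  refine ⟨K.map A.subtype, (kf_iff _).2 ⟨?_, ?_⟩⟩
  · rw [Subgroup.card_map_of_injective A.subtype_injective, hK]; norm_num
  · rintro a ⟨b, hb, rfl⟩
    exact hexp _ b.2

theorem conj_le_sylow {X : Type*} [Group X] [Finite X] (P : Sylow 2 X) (T : Subgroup X)
    (hT : IsPGroup 2 ↥T) : ∃ k : X, ∀ t ∈ T, k⁻¹ * t * k ∈ (P : Subgroup X) := by
  obtain ⟨P', hP'⟩ := hT.exists_le_sylow
  obtain ⟨k, hk⟩ := MulAction.exists_smul_eq X P P'
  refine ⟨k, fun t ht => ?_⟩
  have h1 : t ∈ ((k • P : Sylow 2 X) : Subgroup X) := by rw [hk]; exact hP' ht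
  rw [Sylow.coe_subgroup_smul, Subgroup.mem_pointwise_smul_iff_inv_smul_mem] at h1
  simpa [MulAut.smul_def, mul_assoc] using h1

def adj (A B : Subgroup G) : Prop :=
  IsKleinFour ↥A ∧ IsKleinFour ↥B ∧ ∀ a ∈ A, ∀ b ∈ B, a * b = b * a

theorem adj_symm {A B : Subgroup G} (h : adj A B) : adj B A :=
  ⟨h.2.1, h.1, fun b hb a ha => (h.2.2 a ha b hb).symm⟩

theorem adj_cj (g : G) {A B : Subgroup G} (h : adj A B) : adj (cj g A) (cj g B) := by
  obtain ⟨hA, hB, hc⟩ := h
  refine ⟨kf_cj g A hA, kf_cj g B hB, fun a ha b hb => ?_⟩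
  rw [mem_cj] at ha hb
  have h0 := hc _ ha _ hb
  have h1 : a * b = g * ((g⁻¹ * a * g) * (g⁻¹ * b * g)) * g⁻¹ := by simp [mul_assoc]
  have h2 : b * a = g * ((g⁻¹ * b * g) * (g⁻¹ * a * g)) * g⁻¹ := by simp [mul_assoc]
  rw [h1, h2, h0]

theorem rel_lift {α β : Type*} {r : α → α → Prop} {p : β → β → Prop} (f : α → β)
    (h : ∀ a b, r a b → p (f a) (f b)) {a b : α} (hab : Relation.ReflTransGen r a b) :
    Relation.ReflTransGen p (f a) (f b) := by
  induction hab with
  | refl => exact Relation.ReflTransGen.refl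
  | tail _ hbc ih => exact ih.tail (h _ _ hbc)

theorem rel_cj (g : G) {A B : Subgroup G} (h : Relation.ReflTransGen adj A B) :
    Relation.ReflTransGen adj (cj g A) (cj g B) :=
  rel_lift (cj g) (fun _ _ hab => adj_cj g hab) h

theorem rel_symm {A B : Subgroup G} (h : Relation.ReflTransGen adj A B) :
    Relation.ReflTransGen adj B A := by
  induction h with
  | refl => exact Relation.ReflTransGen.refl
  | tail _ hbc ih => exact Relation.ReflTransGen.head (adj_symm hbc) ih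

theorem lift_conn (H : Subgroup G) (hH : Cfsg.IsFourConnected ↥H) (V W : Subgroup G)
    (hV : IsKleinFour ↥V) (hW : IsKleinFour ↥W) (hVH : V ≤ H) (hWH : W ≤ H) :
    Relation.ReflTransGen adj V W := by
  have h1 := hH (V.subgroupOf H) (W.subgroupOf H) (kf_subgroupOf V H hV hVH)
    (kf_subgroupOf W H hW hWH)
  have h2 : Relation.ReflTransGen adj ((V.subgroupOf H).map H.subtype)
      ((W.subgroupOf H).map H.subtype) := by
    refine rel_lift (fun X : Subgroup ↥H => X.map H.subtype) ?_ h1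
    rintro A B ⟨hA, hB, hc⟩
    refine ⟨kf_map _ H.subtype_injective A hA, kf_map _ H.subtype_injective B hB, ?_⟩
    rintro a ⟨a', ha', rfl⟩ b ⟨b', hb', rfl⟩
    exact congrArg Subtype.val (hc a' ha' b' hb')
  rwa [Subgroup.subgroupOf_map_subtype, Subgroup.subgroupOf_map_subtype, inf_eq_left.2 hVH,
    inf_eq_left.2 hWH] at h2

theorem lemN [Finite G] (S : Sylow 2 G) (K : Subgroup G) (hSK : (S : Subgroup G) ≤ K)
    (hK : ∀ Q : Subgroup G, Q ≤ (S : Subgroup G) → ¬ Cfsg.PRankLE 2 1 ↥Q →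
      Subgroup.normalizer (Q : Set G) ≤ K)
    (T V : Subgroup G) (hTK : T ≤ K) (hT : IsPGroup 2 ↥T) (hV : IsKleinFour ↥V) (hVT : V ≤ T) :
    Subgroup.normalizer (T : Set G) ≤ K := by
  have hp : IsPGroup 2 ↥(T.subgroupOf K) := hT.comap_subtype
  obtain ⟨k, hk⟩ := conj_le_sylow (S.subtype hSK) (T.subgroupOf K) hp
  have hk' : ∀ t ∈ T, (k : G)⁻¹ * t * k ∈ (S : Subgroup G) := by
    intro t ht
    have h0 := hk ⟨t, hTK ht⟩ (by rw [Subgroup.mem_subgroupOf]; exact ht)
    rw [Sylow.coe_subtype, Subgroup.mem_subgroupOf] at h0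
    simpa using h0
  have hQS : cj (k : G)⁻¹ T ≤ (S : Subgroup G) := by
    intro x hx
    rw [mem_cj, inv_inv] at hx
    have h0 := hk' _ hx
    simpa [mul_assoc] using h0
  have hQr : ¬ Cfsg.PRankLE 2 1 ↥(cj (k : G)⁻¹ T) :=
    rank_of_kf (cj (k : G)⁻¹ V) _ (kf_cj _ V hV) (by
      intro x hx; rw [mem_cj] at hx ⊢; exact hVT hx)
  have hN := hK _ hQS hQr
  intro n hn
  have h1 : (k : G)⁻¹ * n * k ∈ Subgroup.normalizer ((cj (k : G)⁻¹ T : Subgroup G) : Set G) := by
    rw [Subgroup.mem_set_normalizer_iff] at hn ⊢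
    intro x
    rw [SetLike.mem_coe, SetLike.mem_coe, mem_cj, mem_cj, inv_inv]
    have h0 := hn (k * x * (k : G)⁻¹)
    rw [SetLike.mem_coe, SetLike.mem_coe] at h0
    have e : (k : G) * ((k : G)⁻¹ * n * k * x * ((k : G)⁻¹ * n * k)⁻¹) * (k : G)⁻¹
        = n * (k * x * (k : G)⁻¹) * n⁻¹ := by simp [mul_assoc]
    rw [e]
    exact h0
  have h2 := hN h1
  have h3 : n = k * ((k : G)⁻¹ * n * k) * (k : G)⁻¹ := by simp [mul_assoc]
  rw [h3]
  exact K.mul_mem (K.mul_mem k.2 h2) (K.inv_mem k.2)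

theorem result {G : Type*} [Group G] [Finite G] (h2 : ¬ Cfsg.PRankLE 2 1 G)
    (S : Sylow 2 G) (hS : Cfsg.IsFourConnected (S : Subgroup G)) :
    ¬ Cfsg.IsFourConnected G ↔
      (⨆ Q : {Q : Subgroup G // Q ≤ (S : Subgroup G) ∧ ¬ Cfsg.PRankLE 2 1 Q},
          Subgroup.normalizer ((Q : Subgroup G) : Set G)) ≠ ⊤ := by
  classical
  obtain ⟨W, hW⟩ := exists_kf h2
  have hWp : IsPGroup 2 ↥W := IsPGroup.of_card (n := 2) (by rw [hW.card_four]; norm_num)
  obtain ⟨x, hx⟩ := conj_le_sylow S W hWp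
  have hU₀k : IsKleinFour ↥(cj x⁻¹ W) := kf_cj _ W hW
  have hU₀S : cj x⁻¹ W ≤ (S : Subgroup G) := by
    intro y hy
    rw [mem_cj, inv_inv] at hy
    simpa [mul_assoc] using hx _ hy
  generalize cj x⁻¹ W = U₀ at hU₀k hU₀S
  have hK : ∀ Q : Subgroup G, Q ≤ (S : Subgroup G) → ¬ Cfsg.PRankLE 2 1 ↥Q →
      Subgroup.normalizer (Q : Set G) ≤
        (⨆ Q : {Q : Subgroup G // Q ≤ (S : Subgroup G) ∧ ¬ Cfsg.PRankLE 2 1 Q},
          Subgroup.normalizer ((Q : Subgroup G) : Set G)) := by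
    intro Q hQ hr
    exact le_iSup (fun Q : {Q : Subgroup G // Q ≤ (S : Subgroup G) ∧ ¬ Cfsg.PRankLE 2 1 Q} =>
      Subgroup.normalizer ((Q : Subgroup G) : Set G)) ⟨Q, hQ, hr⟩
  have hΓi : ∀ g : G, g ∈ (⨆ Q : {Q : Subgroup G // Q ≤ (S : Subgroup G) ∧ ¬ Cfsg.PRankLE 2 1 Q},
      Subgroup.normalizer ((Q : Subgroup G) : Set G)) →
      ∀ W : Subgroup G, Relation.ReflTransGen adj W U₀ → Relation.ReflTransGen adj (cj g W) U₀ := by
    intro g hg
    refine Subgroup.iSup_induction (C := fun g => ∀ W : Subgroup G,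
      Relation.ReflTransGen adj W U₀ → Relation.ReflTransGen adj (cj g W) U₀) _ hg ?_ ?_ ?_
    · rintro ⟨Q, hQS, hQr⟩ n hn W hW
      obtain ⟨W₀', hW₀'⟩ := exists_kf hQr
      have hW₀k : IsKleinFour ↥(W₀'.map Q.subtype) := kf_map _ Q.subtype_injective _ hW₀'
      have hW₀Q : W₀'.map Q.subtype ≤ Q := Subgroup.map_subtype_le _
      have hW₀nS : cj n (W₀'.map Q.subtype) ≤ (S : Subgroup G) := by
        intro y hy
        rw [mem_cj] at hy
        have h0 := hW₀Q hy
        exact hQS ((Subgroup.mem_set_normalizer_iff''.1 hn y).2 h0)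
      have r1 : Relation.ReflTransGen adj W (W₀'.map Q.subtype) :=
        hW.trans (rel_symm (lift_conn (S : Subgroup G) hS _ _ hW₀k hU₀k (hW₀Q.trans hQS) hU₀S))
      have r2 := rel_cj n r1
      exact r2.trans (lift_conn (S : Subgroup G) hS _ _ (kf_cj n _ hW₀k) hU₀k hW₀nS hU₀S)
    · intro W hW
      rw [cj_one]; exact hW
    · intro x y hx hy W hW
      rw [cj_mul]; exact hx _ (hy _ hW)
  generalize (⨆ Q : {Q : Subgroup G // Q ≤ (S : Subgroup G) ∧ ¬ Cfsg.PRankLE 2 1 Q},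
          Subgroup.normalizer ((Q : Subgroup G) : Set G)) = Γ at hK hΓi ⊢
  have hSΓ : (S : Subgroup G) ≤ Γ :=
    le_trans Subgroup.le_normalizer (hK _ le_rfl (rank_of_kf U₀ _ hU₀k hU₀S))
  rw [not_iff_not]
  constructor
  · intro hconn
    have hall : ∀ V : Subgroup G, IsKleinFour ↥V → V ≤ Γ := by
      intro V hV
      have hr := hconn U₀ V hU₀k hV
      clear hV
      induction hr with
      | refl => exact hU₀S.trans hSΓ
      | tail _ hbc ih =>
        obtain ⟨hb, hc, hcomm⟩ := hbc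
        have hNb := lemN S Γ hSΓ hK _ _ ih
          (IsPGroup.of_card (n := 2) (by rw [hb.card_four]; norm_num)) hb le_rfl
        intro y hy
        apply hNb
        rw [Subgroup.mem_set_normalizer_iff]
        intro z
        constructor
        · intro hz
          have h0 := hcomm z hz y hy
          have e : y * z * y⁻¹ = z := by rw [← h0]; simp
          rw [e]; exact hz
        · intro hz
          have h0 := hcomm _ hz y hy
          have e : z = y * z * y⁻¹ := by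
            have h1 : y * z = y * (y * z * y⁻¹) := by rw [← h0]; simp [mul_assoc]
            exact mul_left_cancel h1
          rw [e]; exact hz
    rw [eq_top_iff]
    intro g _
    have hRp : IsPGroup 2 ↥(cj g (S : Subgroup G)) := S.isPGroup'.map _
    have hUR : cj g U₀ ≤ cj g (S : Subgroup G) := by
      intro y hy; rw [mem_cj] at hy ⊢; exact hU₀S hy
    have hUΓ : cj g U₀ ≤ Γ := hall _ (kf_cj g U₀ hU₀k)
    have hN1 := lemN S Γ hSΓ hK (cj g (S : Subgroup G) ⊓ Γ) (cj g U₀) inf_le_right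
      (hRp.to_le inf_le_left) (kf_cj g U₀ hU₀k) (le_inf hUR hUΓ)
    have hRΓ : cj g (S : Subgroup G) ≤ Γ := by
      by_contra hnot
      haveI : Group.IsNilpotent ↥(cj g (S : Subgroup G)) := hRp.isNilpotent
      have hlt : (cj g (S : Subgroup G) ⊓ Γ).subgroupOf (cj g (S : Subgroup G)) < ⊤ := by
        rw [lt_top_iff_ne_top, Ne, Subgroup.subgroupOf_eq_top]
        exact fun h => hnot (h.trans inf_le_right)
      have hnc := Group.normalizerCondition_of_isNilpotent (G := ↥(cj g (S : Subgroup G))) _ hlt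
      obtain ⟨x, hxN, hxn⟩ := SetLike.exists_of_lt hnc
      apply hxn
      rw [Subgroup.mem_subgroupOf]
      refine ⟨x.2, hN1 ?_⟩
      apply Subgroup.mem_normalizer_fintype
      intro n hn
      have hnR : n ∈ cj g (S : Subgroup G) := hn.1
      have h0 := (Subgroup.mem_normalizer_iff.1 hxN ⟨n, hnR⟩).1
        (by rw [Subgroup.mem_subgroupOf]; exact hn)
      rw [Subgroup.mem_subgroupOf] at h0
      simpa using h0
    obtain ⟨k, hk⟩ := conj_le_sylow (S.subtype hSΓ) ((cj g (S : Subgroup G)).subgroupOf Γ)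
      hRp.comap_subtype
    have hm : (k : G)⁻¹ * g ∈ Subgroup.normalizer ((S : Subgroup G) : Set G) := by
      apply Subgroup.mem_normalizer_fintype
      intro s hs
      have hs1 : s ∈ (S : Subgroup G) := hs
      have hs' : g * s * g⁻¹ ∈ cj g (S : Subgroup G) := by
        rw [mem_cj]
        have e : g⁻¹ * (g * s * g⁻¹) * g = s := by simp [mul_assoc]
        rw [e]; exact hs1
      have h0 := hk ⟨g * s * g⁻¹, hRΓ hs'⟩ (by rw [Subgroup.mem_subgroupOf]; exact hs')
      rw [Sylow.coe_subtype, Subgroup.mem_subgroupOf] at h0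
      have e2 : (k : G)⁻¹ * g * s * ((k : G)⁻¹ * g)⁻¹ = (k : G)⁻¹ * (g * s * g⁻¹) * k := by
        simp [mul_assoc]
      rw [e2]
      exact h0
    have h5 := (hK _ le_rfl (rank_of_kf U₀ _ hU₀k hU₀S)) hm
    have h6 : g = k * ((k : G)⁻¹ * g) := by simp
    rw [h6]; exact Γ.mul_mem k.2 h5
  · intro htop
    have hall : ∀ V : Subgroup G, IsKleinFour ↥V → Relation.ReflTransGen adj V U₀ := by
      intro V hV
      obtain ⟨x, hx⟩ := conj_le_sylow S V
        (IsPGroup.of_card (n := 2) (by rw [hV.card_four]; norm_num))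
      have h1 : cj x⁻¹ V ≤ (S : Subgroup G) := by
        intro y hy
        rw [mem_cj, inv_inv] at hy
        simpa [mul_assoc] using hx _ hy
      have h2 := hΓi x (by rw [htop]; trivial) _
        (lift_conn (S : Subgroup G) hS _ _ (kf_cj _ V hV) hU₀k h1 hU₀S)
      rwa [← cj_mul, mul_inv_cancel, cj_one] at h2
    intro U V hU hV
    exact (hall U hU).trans (rel_symm (hall V hV))

end Cfsg.Agent.S0520
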