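import Mathlib
import Cfsg.Statements.S0530
import Cfsg.Agent.S0528

namespace Cfsg.Agent.S0530

open Subgroup Cfsg.Agent.S0528

theorem exists_central_order_p {P : Type*} [Group P] [Finite P] [Nontrivial P] (p : ℕ)
    [Fact p.Prime] (hP : IsPGroup p P) : ∃ z : P, z ∈ center P ∧ orderOf z = p := by
  haveI := hP.center_nontrivial
  have hc : IsPGroup p (center P) := hP.to_subgroup _
  obtain ⟨k, hk⟩ := IsPGroup.iff_card.mp hc
  have hk0 : k ≠ 0 := by
    rintro rfl
    rw [pow_zero] at hk
    exact (Finite.one_lt_card (α := center P)).ne' hk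
  have hdvd : p ∣ Nat.card (center P) := by rw [hk]; exact dvd_pow_self p hk0
  obtain ⟨z, hz⟩ := exists_prime_orderOf_dvd_card' p hdvd
  exact ⟨z, z.2, by rw [Subgroup.orderOf_coe]; exact hz⟩

theorem mem_normalizer_zpowers_of_conj {G : Type*} [Group G] (g v : G) (k : ℤ)
    (h1 : g * v * g⁻¹ = v ^ k) (l : ℤ) (h2 : g⁻¹ * v * g = v ^ l) :
    g ∈ normalizer (zpowers v : Set G) := by
  rw [mem_normalizer_iff]
  intro h
  constructor
  · rintro ⟨j, rfl⟩
    refine ⟨k * j, ?_⟩
    show v ^ (k * j) = g * v ^ j * g⁻¹
    rw [← conj_zpow, h1, zpow_mul]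
  · rintro ⟨j, hj⟩
    refine ⟨l * j, ?_⟩
    have hj' : v ^ j = g * h * g⁻¹ := hj
    show v ^ (l * j) = h
    have : h = g⁻¹ * v ^ j * g := by rw [hj']; group
    rw [this, zpow_mul, ← h2]
    have h3 := conj_zpow (a := g⁻¹) (b := v) (i := j)
    rw [inv_inv] at h3
    exact h3

theorem exists_normal_zpowers_order_p {G : Type*} [Group G] [Finite G] (p : ℕ) [Fact p.Prime]
    (P : Subgroup G) [hPn : P.Normal] (hP : IsPGroup p P) (hPne : P ≠ ⊥) (t : G)
    (ht2 : t * t ∈ P) (hsup : P ⊔ zpowers t = ⊤) :
    ∃ u : G, orderOf u = p ∧ (zpowers u).Normal := by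
  haveI : Nontrivial P := (Subgroup.nontrivial_iff_ne_bot P).mpr hPne
  obtain ⟨z, hzc, hzo⟩ := exists_central_order_p p hP
  have hv : ∀ x ∈ P, x * (z : G) = (z : G) * x := by
    intro x hx
    have := (Subgroup.mem_center_iff.mp hzc) ⟨x, hx⟩
    exact congrArg Subtype.val this
  have hvo : orderOf (z : G) = p := by rw [Subgroup.orderOf_coe]; exact hzo
  have hvP : (z : G) ∈ P := z.2
  generalize (z : G) = v at hv hvo hvP
  have htvP : t * v * t⁻¹ ∈ P := hPn.conj_mem v hvP t
  have htvc : ∀ x ∈ P, x * (t * v * t⁻¹) = (t * v * t⁻¹) * x := by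
    intro x hx
    have h1 : t⁻¹ * x * t ∈ P := by simpa using hPn.conj_mem x hx t⁻¹
    have h2 := hv _ h1
    calc x * (t * v * t⁻¹) = t * ((t⁻¹ * x * t) * v) * t⁻¹ := by group
      _ = t * (v * (t⁻¹ * x * t)) * t⁻¹ := by rw [h2]
      _ = (t * v * t⁻¹) * x := by group
  have hcomm : v * (t * v * t⁻¹) = (t * v * t⁻¹) * v := htvc v hvP
  have htt : (t * t) * v = v * (t * t) := hv _ ht2
  by_cases hw : v * (t * v * t⁻¹) = 1
  · refine ⟨v, hvo, ?_⟩
    rw [← Subgroup.normalizer_eq_top_iff, ← top_le_iff, ← hsup]
    apply sup_le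
    · intro x hx
      have hx' := hv x hx
      apply mem_normalizer_zpowers_of_conj x v 1 _ 1
      · rw [zpow_one, mul_assoc, ← hx']; group
      · rw [zpow_one, hx']; group
    · rw [zpowers_le]
      have e1 : t * v * t⁻¹ = v⁻¹ := by
        rw [eq_inv_iff_mul_eq_one, ← hcomm]; exact hw
      apply mem_normalizer_zpowers_of_conj t v (-1) _ (-1)
      · rw [zpow_neg, zpow_one]
        have : v = t⁻¹ * v⁻¹ * t := by rw [← e1]; group
        calc t⁻¹ * v * t = t⁻¹ * (t⁻¹ * v⁻¹ * t) * t := by rw [← this]
          _ = (t * t)⁻¹ * v⁻¹ * (t * t) := by group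
          _ = v⁻¹ := by
            have h5 : v⁻¹ * (t * t) = (t * t) * v⁻¹ := by
              have := congrArg (fun y => v⁻¹ * y * v⁻¹) htt
              simpa [mul_assoc] using this
            rw [mul_assoc, h5]; group
      · rw [zpow_neg, zpow_one]; exact e1
  · refine ⟨v * (t * v * t⁻¹), ?_, ?_⟩
    · apply orderOf_eq_prime _ hw
      rw [(show Commute v (t * v * t⁻¹) from hcomm).mul_pow, conj_pow, ← hvo, pow_orderOf_eq_one]
      simp
    · have hcent : ∀ g : G, g * (v * (t * v * t⁻¹)) = (v * (t * v * t⁻¹)) * g := by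
        have h1 : P ⊔ zpowers t ≤ centralizer {v * (t * v * t⁻¹)} := by
          apply sup_le
          · intro x hx
            rw [mem_centralizer_iff]
            rintro _ rfl
            rw [mul_assoc, ← htvc x hx, ← mul_assoc, ← hv x hx, mul_assoc]
          · rw [zpowers_le, mem_centralizer_iff]
            rintro _ rfl
            calc v * (t * v * t⁻¹) * t = (t * v * t⁻¹) * v * t := by rw [hcomm]
              _ = t * v * t⁻¹ * (v * (t * t)) * t⁻¹ := by group
              _ = t * v * t⁻¹ * ((t * t) * v) * t⁻¹ := by rw [htt]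
              _ = t * (v * (t * v * t⁻¹)) := by group
        intro g
        have hg : g ∈ centralizer {v * (t * v * t⁻¹)} := h1 (hsup ▸ mem_top g)
        rw [mem_centralizer_iff] at hg
        exact (hg _ rfl).symm
      constructor
      intro y hy g
      obtain ⟨k, rfl⟩ := hy
      have hc : Commute g (v * (t * v * t⁻¹)) := hcent g
      have := (hc.zpow_right k).eq
      show g * (v * (t * v * t⁻¹)) ^ k * g⁻¹ ∈ _
      rw [this, mul_inv_cancel_right]
      exact zpow_mem (mem_zpowers _) k

universe u in
theorem aux (p : ℕ) (hp : p.Prime) (n : ℕ) : ∀ (G : Type u) [Group G] [Finite G],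
    Nat.card G = 2 * p ^ n → Cfsg.IsSupersolvable G := by
  haveI : Fact p.Prime := ⟨hp⟩
  induction n with
  | zero =>
    intro G _ _ hG
    rw [pow_zero, mul_one] at hG
    haveI : Fact (Nat.Prime 2) := ⟨Nat.prime_two⟩
    haveI : IsCyclic G := isCyclic_of_prime_card hG
    haveI : IsCyclic (⊤ : Subgroup G) := by
      obtain ⟨g, hg⟩ := IsCyclic.exists_generator (α := G)
      exact ⟨⟨⟨g, mem_top g⟩, fun x => by
        obtain ⟨k, hk⟩ := hg x.1
        exact ⟨k, Subtype.ext (by simpa using hk)⟩⟩⟩
    rw [supersolvable_iff_reach]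
    exact reach_of_cyclic ⊤
  | succ n ih =>
    intro G _ _ hG
    have key : ∃ u : G, orderOf u = p ∧ (zpowers u).Normal := by
      by_cases h2 : p = 2
      · subst h2
        have hPG : IsPGroup 2 G := IsPGroup.of_card (n := n + 2) (by rw [hG]; ring)
        have hcard : 1 < Nat.card G := by
          rw [hG]
          have : 0 < 2 ^ (n + 1) := by positivity
          omega
        haveI : Nontrivial G := Finite.one_lt_card_iff_nontrivial.mp hcard
        exact exists_normal_zpowers_order_p 2 ⊤ (hPG.to_subgroup _) top_ne_bot 1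
          (mem_top _) (by simp)
      · obtain ⟨P⟩ : Nonempty (Sylow p G) := inferInstance
        have hpd : p ∣ Nat.card G := by
          rw [hG]; exact Dvd.dvd.mul_left (dvd_pow_self p (Nat.succ_ne_zero n)) 2
        have hPne : (P : Subgroup G) ≠ ⊥ := P.ne_bot_of_dvd_card hpd
        have hidx : (P : Subgroup G).index = 2 := by
          have h1 := Subgroup.card_mul_index (P : Subgroup G)
          have h3 : ¬ p ∣ (P : Subgroup G).index := P.not_dvd_index
          have h4 : (P : Subgroup G).index ∣ 2 * p ^ (n + 1) := by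
            rw [← hG]; exact Subgroup.index_dvd_card _
          have h5 : Nat.Coprime (P : Subgroup G).index (p ^ (n + 1)) :=
            Nat.Coprime.pow_right _ ((Nat.Prime.coprime_iff_not_dvd hp).mpr h3).symm
          have h6 : (P : Subgroup G).index ∣ 2 := h5.dvd_of_dvd_mul_right h4
          rcases (Nat.dvd_prime Nat.prime_two).mp h6 with h7 | h7
          · exfalso
            rw [h7, mul_one] at h1
            obtain ⟨k, hk⟩ := IsPGroup.iff_card.mp P.isPGroup'
            rw [hk, hG] at h1
            have h8 : 2 ∣ p ^ k := by rw [h1]; exact dvd_mul_right 2 _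
            have h9 := (Nat.prime_dvd_prime_iff_eq Nat.prime_two hp).mp
              (Nat.Prime.dvd_of_dvd_pow Nat.prime_two h8)
            exact h2 h9.symm
          · exact h7
        haveI hPn : (P : Subgroup G).Normal := Subgroup.normal_of_index_eq_two hidx
        have hne_top : (P : Subgroup G) ≠ ⊤ := by
          intro h
          rw [h, Subgroup.index_top] at hidx
          omega
        obtain ⟨t, ht⟩ : ∃ t : G, t ∉ (P : Subgroup G) := by
          by_contra hcon
          push_neg at hcon
          exact hne_top (eq_top_iff.mpr fun x _ => hcon x)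
        have hsup : (P : Subgroup G) ⊔ zpowers t = ⊤ := by
          have h1 : ((P : Subgroup G) ⊔ zpowers t).index ∣ 2 := by
            rw [← hidx]; exact Subgroup.index_dvd_of_le le_sup_left
          rcases (Nat.dvd_prime Nat.prime_two).mp h1 with h7 | h7
          · exact Subgroup.index_eq_one.mp h7
          · exfalso
            apply ht
            have h8 : Nat.card ((P : Subgroup G) ⊔ zpowers t : Subgroup G) ≤
                Nat.card (P : Subgroup G) := by
              have e1 := Subgroup.card_mul_index (P : Subgroup G)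
              have e2 := Subgroup.card_mul_index ((P : Subgroup G) ⊔ zpowers t)
              rw [hidx] at e1
              rw [h7] at e2
              omega
            have h9 := Subgroup.eq_of_le_of_card_ge (le_sup_left (b := zpowers t)) h8
            rw [h9]
            exact mem_sup_right (mem_zpowers t)
        exact exists_normal_zpowers_order_p p (P : Subgroup G) P.isPGroup' hPne t
          (Subgroup.mul_self_mem_of_index_two hidx t) hsup
    obtain ⟨u, huo, hun⟩ := key
    haveI := hun
    have hNcard : Nat.card (zpowers u) = p := by rw [Nat.card_zpowers, huo]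
    have hq : Nat.card (G ⧸ zpowers u) = 2 * p ^ n := by
      have h1 := Subgroup.card_mul_index (zpowers u)
      rw [Subgroup.index_eq_card, hNcard, hG] at h1
      have h2 : p * Nat.card (G ⧸ zpowers u) = p * (2 * p ^ n) := by rw [h1]; ring
      exact Nat.eq_of_mul_eq_mul_left hp.pos h2
    exact Cfsg.Agent.S0528.result (zpowers u) (ih (G ⧸ zpowers u) hq)

theorem result {G : Type*} [Group G] [Finite G] (p n : ℕ) (hp : p.Prime) (hG : Nat.card G = 2 * p ^ n) : Cfsg.IsSupersolvable G := by
  exact aux p hp n G hG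

end Cfsg.Agent.S0530
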