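import Mathlib
import Cfsg.Statements.S0534
import Cfsg.Agent.S0003

set_option autoImplicit false
open Pointwise
open Cfsg

namespace Cfsg.Agent.S0534

open Cfsg.Agent.S0003

universe u in
/-- finite abelian groups satisfy the converse of Lagrange's theorem -/
theorem abelian_clt (n : ℕ) : ∀ (A : Type u) [CommGroup A] [Finite A], Nat.card A = n →
    ∀ e : ℕ, e ∣ n → ∃ B : Subgroup A, Nat.card B = e := by
  induction n using Nat.strong_induction_on with
  | _ n ih =>
  intro A _ _ hcard e he
  by_cases he1 : e = 1
  · exact ⟨⊥, by rw [he1]; exact Subgroup.card_bot⟩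
  obtain ⟨p, hp, hpe⟩ := Nat.exists_prime_and_dvd he1
  haveI : Fact p.Prime := ⟨hp⟩
  obtain ⟨x, hx⟩ := exists_prime_orderOf_dvd_card' p (G := A) (by rw [hcard]; exact hpe.trans he)
  have hZ : Nat.card (Subgroup.zpowers x) = p := by rw [Nat.card_zpowers, hx]
  have hq : Nat.card (A ⧸ Subgroup.zpowers x) * p = n := by
    rw [← hcard, Subgroup.card_eq_card_quotient_mul_card_subgroup (Subgroup.zpowers x), hZ]
  have hqlt : Nat.card (A ⧸ Subgroup.zpowers x) < n := by
    have h2 : 0 < Nat.card (A ⧸ Subgroup.zpowers x) := Nat.card_pos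
    have := hp.one_lt
    nlinarith
  obtain ⟨e', rfl⟩ := hpe
  have he' : e' ∣ Nat.card (A ⧸ Subgroup.zpowers x) := by
    rw [← hq, mul_comm] at he
    exact Nat.dvd_of_mul_dvd_mul_right hp.pos he
  obtain ⟨K, hK⟩ := ih _ hqlt (A ⧸ Subgroup.zpowers x) rfl e' he'
  refine ⟨K.comap (QuotientGroup.mk' (Subgroup.zpowers x)), ?_⟩
  rw [card_comap_mk', hZ, hK]

theorem result {G A : Type*} [Group G] [CommGroup A] [Finite G] [Finite A] [Group.IsSolvable G] (hA : ∀ p : ℕ, p.Prime → p ∣ Nat.card A → p ∣ Nat.card G) (hexp : ∀ p : ℕ, p.Prime → p ∣ Nat.card G → (Nat.card A).factorization p + 1 = (Nat.card G).factorization p) : Cfsg.HasSubgroupOfEveryOrder (G × A) := by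
  intro d hd
  rw [Nat.card_prod] at hd
  have hN0 : Nat.card G ≠ 0 := Nat.card_pos.ne'
  have hM0 : Nat.card A ≠ 0 := Nat.card_pos.ne'
  have hd0 : d ≠ 0 := by
    rintro rfl
    rw [zero_dvd_iff] at hd
    exact (mul_ne_zero hN0 hM0) hd
  set N := Nat.card G with hN
  set M := Nat.card A with hM
  let Pr : ℕ → Prop := fun p => N.factorization p ≤ d.factorization p
  classical
  set f1 : ℕ →₀ ℕ := N.factorization.filter Pr with hf1
  set f2 : ℕ →₀ ℕ := N.factorization.filter (fun p => ¬ Pr p) with hf2
  set m := f1.prod (· ^ ·) with hm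
  set n := f2.prod (· ^ ·) with hn
  have hmn : N = m * n := by
    rw [hm, hn, hf1, hf2, Finsupp.prod_filter_mul_prod_filter_not]
    exact (Nat.prod_factorization_pow_eq_self hN0).symm
  have hf1p : ∀ p ∈ f1.support, p.Prime := by
    intro p hp
    rw [hf1, Finsupp.support_filter, Finset.mem_filter] at hp
    exact Nat.prime_of_mem_primeFactors (by simpa using hp.1)
  have hf2p : ∀ p ∈ f2.support, p.Prime := by
    intro p hp
    rw [hf2, Finsupp.support_filter, Finset.mem_filter] at hp
    exact Nat.prime_of_mem_primeFactors (by simpa using hp.1)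
  have hmf : m.factorization = f1 := Nat.prod_pow_factorization_eq_self hf1p
  have hnf : n.factorization = f2 := Nat.prod_pow_factorization_eq_self hf2p
  have hm0 : m ≠ 0 := by
    rintro e; rw [e, zero_mul] at hmn; exact hN0 hmn
  have hn0 : n ≠ 0 := by
    rintro e; rw [e, mul_zero] at hmn; exact hN0 hmn
  have hcop : m.Coprime n := by
    rw [← Nat.disjoint_primeFactors hm0 hn0, ← Nat.support_factorization,
      ← Nat.support_factorization, hmf, hnf, hf1, hf2, Finsupp.support_filter,
      Finsupp.support_filter]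
    exact Finset.disjoint_filter_filter_not _ _ _
  obtain ⟨H, hH⟩ := hall_exists N G rfl m n hmn hcop
  have hmd : m ∣ d := by
    rw [← Nat.factorization_le_iff_dvd hm0 hd0, hmf]
    intro p
    rw [hf1, Finsupp.filter_apply]
    split_ifs with h
    · exact h
    · exact Nat.zero_le _
  obtain ⟨e, hde⟩ := hmd
  have he0 : e ≠ 0 := by
    rintro rfl; exact hd0 (by rw [hde, mul_zero])
  have hdf : ∀ p, d.factorization p = m.factorization p + e.factorization p := by
    intro p
    rw [hde, Nat.factorization_mul hm0 he0]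
    rfl
  have heM : e ∣ M := by
    rw [← Nat.factorization_le_iff_dvd he0 hM0]
    intro p
    have h1 : d.factorization p ≤ N.factorization p + M.factorization p := by
      have := (Nat.factorization_le_iff_dvd hd0 (mul_ne_zero hN0 hM0)).2 hd p
      rwa [Nat.factorization_mul hN0 hM0] at this
    have h2 : m.factorization p = if Pr p then N.factorization p else 0 := by
      rw [hmf, hf1, Finsupp.filter_apply]
    have h4 := hdf p
    by_cases hP : Pr p
    · rw [if_pos hP] at h2
      omega
    · have h3 : ¬ (N.factorization p ≤ d.factorization p) := hP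
      rw [if_neg hP] at h2
      have hpos : 0 < N.factorization p := by omega
      have hpp : p.Prime := by
        by_contra hnp
        rw [Nat.factorization_eq_zero_of_not_prime N hnp] at hpos
        exact lt_irrefl _ hpos
      have hpN : p ∣ N := Nat.dvd_of_factorization_pos (by omega)
      have := hexp p hpp hpN
      omega
  obtain ⟨B, hB⟩ := abelian_clt M A rfl e heM
  refine ⟨H.prod B, ?_⟩
  rw [Nat.card_congr (Subgroup.prodEquiv H B).toEquiv, Nat.card_prod, hH, hB, hde]

end Cfsg.Agent.S0534
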