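import Mathlib
import Cfsg.Statements.S0535
import Cfsg.Agent.S0003
import Cfsg.Agent.S0006

set_option autoImplicit false
open Pointwise
open Cfsg

namespace Cfsg.Agent.S0535

theorem hyp_sub {G : Type*} [Group G] [Finite G]
    (h : ∀ H : Subgroup G, H ≠ ⊥ → ∀ p : ℕ, p.Prime → p ∣ Nat.card H →
      ∃ K : Subgroup H, K ≠ ⊤ ∧ ∃ k : ℕ, K.index = p ^ k) (H : Subgroup G) :
    ∀ H' : Subgroup ↥H, H' ≠ ⊥ → ∀ p : ℕ, p.Prime → p ∣ Nat.card H' →
      ∃ K : Subgroup H', K ≠ ⊤ ∧ ∃ k : ℕ, K.index = p ^ k := by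
  intro H' hH' p hp hpd
  have e : ↥H' ≃* ↥(H'.map H.subtype) :=
    H'.equivMapOfInjective H.subtype (Subgroup.subtype_injective H)
  have hcard : Nat.card ↥(H'.map H.subtype) = Nat.card H' := (Nat.card_congr e.toEquiv).symm
  have hne : H'.map H.subtype ≠ ⊥ := by
    intro h0
    rw [Subgroup.map_eq_bot_iff_of_injective _ (Subgroup.subtype_injective H)] at h0
    exact hH' h0
  obtain ⟨K, hK, k, hk⟩ := h (H'.map H.subtype) hne p hp (hcard ▸ hpd)
  refine ⟨K.comap e.toMonoidHom, ?_, k, ?_⟩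
  · intro htop
    apply hK
    rw [← Subgroup.index_eq_one] at htop ⊢
    rwa [Subgroup.index_comap_of_surjective _ e.surjective] at htop
  · rw [Subgroup.index_comap_of_surjective _ e.surjective, hk]

universe u in
theorem aux (n : ℕ) : ∀ (G : Type u) [Group G] [Finite G], Nat.card G = n →
    (∀ H : Subgroup G, H ≠ ⊥ → ∀ p : ℕ, p.Prime → p ∣ Nat.card H →
      ∃ K : Subgroup H, K ≠ ⊤ ∧ ∃ k : ℕ, K.index = p ^ k) → Group.IsSolvable G := by
  induction n using Nat.strong_induction_on with
  | _ n ih =>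
    intro G _ _ hn h
    have hN0 : Nat.card G ≠ 0 := Nat.card_pos.ne'
    apply Cfsg.Agent.S0006.result
    intro p hp
    by_cases hpd : p ∣ Nat.card G
    · have htop : (⊤ : Subgroup G) ≠ ⊥ := by
        intro h0
        have h1 : Nat.card (⊤ : Subgroup G) = 1 := by rw [h0]; exact Subgroup.card_bot
        rw [Subgroup.card_top] at h1
        rw [h1] at hpd; exact hp.one_lt.ne' (Nat.dvd_one.1 hpd)
      obtain ⟨K, hK, k, hk⟩ := h ⊤ htop p hp (by rw [Subgroup.card_top]; exact hpd)
      set K₀ : Subgroup G := K.map (⊤ : Subgroup G).subtype with hK₀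
      have hidx : K₀.index = p ^ k := by
        rw [hK₀, Subgroup.index_map_subtype, Subgroup.index_top, mul_one, hk]
      have hk0 : k ≠ 0 := by
        rintro rfl
        rw [pow_zero, Subgroup.index_eq_one] at hk
        exact hK hk
      have hcardK := Subgroup.card_mul_index K₀
      have hlt : Nat.card K₀ < n := by
        rw [← hn, ← hcardK, hidx]
        have h1 : 1 < p ^ k := Nat.one_lt_pow hk0 hp.one_lt
        have h2 : 0 < Nat.card K₀ := Nat.card_pos
        nlinarith
      haveI : Group.IsSolvable K₀ := ih _ hlt ↥K₀ rfl (hyp_sub h K₀)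
      have hN0' : Nat.card K₀ ≠ 0 := Nat.card_pos.ne'
      have hdvd : p ^ (Nat.card K₀).factorization p ∣ Nat.card K₀ := Nat.ordProj_dvd _ p
      obtain ⟨L, hL⟩ := Cfsg.Agent.S0003.hall_exists (Nat.card K₀) ↥K₀ rfl
        (Nat.card K₀ / p ^ (Nat.card K₀).factorization p) (p ^ (Nat.card K₀).factorization p)
        (Nat.div_mul_cancel hdvd).symm ((Nat.coprime_ordCompl hp hN0').symm.pow_right _)
      refine ⟨L.map K₀.subtype, ?_⟩
      have hcardL : Nat.card (L.map K₀.subtype) =
          Nat.card K₀ / p ^ (Nat.card K₀).factorization p := by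
        rw [← hL]
        exact (Nat.card_congr
          (L.equivMapOfInjective K₀.subtype (Subgroup.subtype_injective K₀)).toEquiv).symm
      have h1 := Subgroup.card_mul_index (L.map K₀.subtype)
      rw [hcardL] at h1
      have h2 : Nat.card G = (Nat.card K₀ / p ^ (Nat.card K₀).factorization p) *
          p ^ ((Nat.card K₀).factorization p + k) := by
        rw [← hcardK, hidx, pow_add, ← mul_assoc, Nat.div_mul_cancel hdvd]
      have hm0 : Nat.card K₀ / p ^ (Nat.card K₀).factorization p ≠ 0 :=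
        (Nat.div_pos (Nat.le_of_dvd (Nat.pos_of_ne_zero hN0') hdvd) (pow_pos hp.pos _)).ne'
      have h3 : (Nat.card G).factorization p = (Nat.card K₀).factorization p + k := by
        have h4 : (Nat.card K₀ / p ^ (Nat.card K₀).factorization p).factorization p = 0 :=
          Nat.factorization_eq_zero_of_not_dvd (Nat.not_dvd_ordCompl hp hN0')
        rw [h2, Nat.factorization_mul hm0 (pow_ne_zero _ hp.ne_zero)]
        simp [h4, hp.factorization_pow]
      rw [h3]
      apply Nat.eq_of_mul_eq_mul_left (Nat.pos_of_ne_zero hm0)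
      rw [h1, h2]
    · refine ⟨⊤, ?_⟩
      rw [Subgroup.index_top, Nat.factorization_eq_zero_of_not_dvd hpd, pow_zero]

theorem result {G : Type*} [Group G] [Finite G] (h : ∀ H : Subgroup G, H ≠ ⊥ → ∀ p : ℕ, p.Prime → p ∣ Nat.card H → ∃ K : Subgroup H, K ≠ ⊤ ∧ ∃ k : ℕ, K.index = p ^ k) : Group.IsSolvable G :=
  aux _ G rfl h

end Cfsg.Agent.S0535
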