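import Cfsg.Statements.S0537
import Mathlib
import Cfsg.Agent.S0536
import Cfsg.Agent.Lib.Helper5.Coprime

set_option autoImplicit false
open Cfsg

namespace Cfsg.Agent.S0537

open Cfsg.Agent.Lib.Helper5.Coprime
open Cfsg.Agent.S0536
open scoped commutatorElement

theorem nilp_case {G : Type*} [Group G] [Finite G] (hna : ¬ IsMulCommutative G)
    (h : ∀ H : Subgroup G, H ≠ ⊤ → IsMulCommutative H) (hnil : Group.IsNilpotent G) :
    ∃ p : ℕ, p.Prime ∧ IsPGroup p G := by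
  by_contra hno
  push Not at hno
  have hc1 : Nat.card G ≠ 1 := by
    intro h1
    apply hna
    haveI : Subsingleton G := (Nat.card_eq_one_iff_unique.1 h1).1
    exact ⟨⟨fun a b => Subsingleton.elim _ _⟩⟩
  have hp : (Nat.card G).minFac.Prime := Nat.minFac_prime hc1
  have hpd : (Nat.card G).minFac ∣ Nat.card G := Nat.minFac_dvd _
  obtain ⟨p, hpdef⟩ : ∃ p, p = (Nat.card G).minFac := ⟨_, rfl⟩
  rw [← hpdef] at hp hpd
  haveI : Fact p.Prime := ⟨hp⟩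
  obtain ⟨P, N, hN, hc⟩ := nilp_pcomp p hnil
  have hPn : (P : Subgroup G).Normal := inferInstance
  have hPt : (P : Subgroup G) ≠ ⊤ := by
    intro hPt
    apply hno p hp
    intro x
    obtain ⟨k, hk⟩ := P.isPGroup' ⟨x, by rw [hPt]; exact Subgroup.mem_top x⟩
    exact ⟨k, by simpa using congrArg Subtype.val hk⟩
  have hNt : N ≠ ⊤ := by
    rintro rfl
    have hPb : (P : Subgroup G) = ⊥ := Subgroup.isComplement'_top_left.1 hc
    have h1 := P.not_dvd_index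
    rw [hPb, Subgroup.index_bot] at h1
    exact h1 hpd
  have hPc := h _ hPt
  have hNc := h _ hNt
  have hbot : N ⊓ (P : Subgroup G) = ⊥ := disjoint_iff.1 hc.disjoint
  have hcomm : ∀ n ∈ N, ∀ u ∈ (P : Subgroup G), n * u = u * n := by
    intro n hn u hu
    have h1 : n * u * n⁻¹ * u⁻¹ ∈ N ⊓ (P : Subgroup G) := by
      refine Subgroup.mem_inf.2 ⟨?_, ?_⟩
      · have e1 : n * u * n⁻¹ * u⁻¹ = n * (u * n⁻¹ * u⁻¹) := by group
        rw [e1]
        exact N.mul_mem hn (hN.conj_mem _ (N.inv_mem hn) u)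
      · exact (P : Subgroup G).mul_mem (hPn.conj_mem _ hu n) ((P : Subgroup G).inv_mem hu)
    rw [hbot, Subgroup.mem_bot] at h1
    calc n * u = (n * u * n⁻¹ * u⁻¹) * (u * n) := by group
      _ = u * n := by rw [h1, one_mul]
  apply hna
  refine ⟨⟨fun x y => ?_⟩⟩
  have hx : x ∈ N ⊔ (P : Subgroup G) := by
    rw [hc.sup_eq_top]
    exact Subgroup.mem_top x
  have hy : y ∈ N ⊔ (P : Subgroup G) := by
    rw [hc.sup_eq_top]
    exact Subgroup.mem_top y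
  obtain ⟨n₁, hn₁, u₁, hu₁, rfl⟩ := (Subgroup.mem_sup_of_normal_left (hs := hN)).1 hx
  obtain ⟨n₂, hn₂, u₂, hu₂, rfl⟩ := (Subgroup.mem_sup_of_normal_left (hs := hN)).1 hy
  have hnn : n₁ * n₂ = n₂ * n₁ :=
    congrArg Subtype.val (hNc.is_comm.comm (⟨n₁, hn₁⟩ : ↥N) ⟨n₂, hn₂⟩)
  have huu : u₁ * u₂ = u₂ * u₁ :=
    congrArg Subtype.val (hPc.is_comm.comm (⟨u₁, hu₁⟩ : ↥(P : Subgroup G)) ⟨u₂, hu₂⟩)
  calc n₁ * u₁ * (n₂ * u₂) = n₁ * (u₁ * n₂) * u₂ := by group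
    _ = n₁ * (n₂ * u₁) * u₂ := by rw [← hcomm n₂ hn₂ u₁ hu₁]
    _ = (n₁ * n₂) * (u₁ * u₂) := by group
    _ = (n₂ * n₁) * (u₂ * u₁) := by rw [hnn, huu]
    _ = n₂ * (n₁ * u₂) * u₁ := by group
    _ = n₂ * (u₂ * n₁) * u₁ := by rw [hcomm n₁ hn₁ u₂ hu₂]
    _ = n₂ * u₂ * (n₁ * u₁) := by group

theorem elem_ab {G : Type*} [Group G] [Finite G] (q : ℕ) [Fact q.Prime]
    (h : ∀ H : Subgroup G, H ≠ ⊤ → IsMulCommutative H) (Q : Subgroup G) (g : G)
    (hQn : Q.Normal) (hQp : IsPGroup q Q) (hcop : Nat.Coprime (orderOf g) q)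
    (hgc : g ∉ Subgroup.centralizer (Q : Set G)) (hQc : IsMulCommutative Q) :
    ∀ a ∈ Q, a ^ q = 1 := by
  have hinf := inf_triv Q g hQp hcop
  have hQcomm : ∀ a ∈ Q, ∀ b ∈ Q, a * b = b * a := fun a ha b hb =>
    congrArg Subtype.val (hQc.is_comm.comm (⟨a, ha⟩ : ↥Q) ⟨b, hb⟩)
  obtain ⟨Ω, hΩ⟩ : ∃ Ω : Subgroup G, ∀ a, a ∈ Ω ↔ a ∈ Q ∧ a ^ q = 1 :=
    ⟨{ carrier := {a | a ∈ Q ∧ a ^ q = 1}
       mul_mem' := fun {a b} ha hb => ⟨Q.mul_mem ha.1 hb.1, by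
         have hab : Commute a b := hQcomm a ha.1 b hb.1
         rw [hab.mul_pow, ha.2, hb.2, one_mul]⟩
       one_mem' := ⟨Q.one_mem, one_pow q⟩
       inv_mem' := fun {a} ha => ⟨Q.inv_mem ha.1, by rw [inv_pow, ha.2, inv_one]⟩ },
      fun a => Iff.rfl⟩
  have hΩn : Ω.Normal := ⟨fun a ha t => (hΩ _).2 ⟨hQn.conj_mem a ((hΩ a).1 ha).1 t, by
    rw [conj_pow, ((hΩ a).1 ha).2, mul_one, mul_inv_cancel]⟩⟩
  by_contra hcon
  push Not at hcon
  obtain ⟨x₀, hx₀Q, hx₀⟩ := hcon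
  have hne : Ω ⊔ Subgroup.zpowers g ≠ ⊤ := by
    intro htop'
    have hx' : x₀ ∈ Ω ⊔ Subgroup.zpowers g := by
      rw [htop']
      exact Subgroup.mem_top x₀
    obtain ⟨w, hw, z, hz, hwz⟩ := (Subgroup.mem_sup_of_normal_left (hs := hΩn)).1 hx'
    obtain ⟨i, rfl⟩ := Subgroup.mem_zpowers_iff.1 hz
    have h1 : w⁻¹ * x₀ ∈ Q := Q.mul_mem (Q.inv_mem ((hΩ w).1 hw).1) hx₀Q
    have h2 : w⁻¹ * x₀ = g ^ i := by
      rw [← hwz]
      group
    have h3 := hinf _ h1 i h2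
    have h4 : x₀ = w := by
      have h5 := congrArg (fun t => w * t) h3
      simpa using h5
    rw [h4] at hx₀
    exact hx₀ ((hΩ w).1 hw).2
  have hHc := h _ hne
  have hΩg : ∀ w ∈ Ω, w * g = g * w := by
    intro w hw
    exact congrArg Subtype.val (hHc.is_comm.comm
      (⟨w, (le_sup_left : Ω ≤ Ω ⊔ Subgroup.zpowers g) hw⟩ : ↥(Ω ⊔ Subgroup.zpowers g))
      ⟨g, (le_sup_right : Subgroup.zpowers g ≤ Ω ⊔ Subgroup.zpowers g) (Subgroup.mem_zpowers g)⟩)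
  have hkey : ∀ k : ℕ, ∀ x ∈ Q, x ^ q ^ k = 1 → x * g = g * x := by
    intro k
    induction k with
    | zero =>
      intro x _ hx
      rw [pow_zero, pow_one] at hx
      rw [hx, one_mul, mul_one]
    | succ k ih =>
      intro x hxQ hx
      have hxq : (x ^ q) ^ q ^ k = 1 := by
        rw [← pow_mul, ← pow_succ']
        exact hx
      have hcg : x ^ q * g = g * x ^ q := ih _ (Q.pow_mem hxQ q) hxq
      have hgx : g * x⁻¹ * g⁻¹ ∈ Q := hQn.conj_mem _ (Q.inv_mem hxQ) g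
      have hcQ : ⁅x, g⁆ ∈ Q := by
        have e1 : ⁅x, g⁆ = x * (g * x⁻¹ * g⁻¹) := by
          rw [commutatorElement_def]
          group
        rw [e1]
        exact Q.mul_mem hxQ hgx
      have hcq : ⁅x, g⁆ ^ q = 1 := by
        have e1 : ⁅x, g⁆ = x * (g * x⁻¹ * g⁻¹) := by
          rw [commutatorElement_def]
          group
        have hab : Commute x (g * x⁻¹ * g⁻¹) := hQcomm x hxQ _ hgx
        rw [e1, hab.mul_pow, conj_pow, inv_pow]
        have e2 : g * (x ^ q)⁻¹ * g⁻¹ = (x ^ q)⁻¹ := by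
          have e3 : g * (x ^ q)⁻¹ * g⁻¹ = (g * x ^ q * g⁻¹)⁻¹ := by group
          rw [e3, ← hcg]
          group
        rw [e2, mul_inv_cancel]
      have hcΩ : ⁅x, g⁆ ∈ Ω := (hΩ _).2 ⟨hcQ, hcq⟩
      refine commute_of_step g x (orderOf g) (pow_orderOf_eq_one g) (hΩg _ hcΩ) ?_
      intro hm
      exact eq_one_of_pow_of_pow _ 1 (orderOf g) hcop (by rw [pow_one]; exact hcq) hm
  apply hgc
  rw [Subgroup.mem_centralizer_iff]
  intro y hy
  obtain ⟨k, hk⟩ := hQp ⟨y, hy⟩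
  have hk' : y ^ q ^ k = 1 := by simpa using congrArg Subtype.val hk
  exact hkey k y hy hk'

theorem result {G : Type*} [Group G] [Finite G] (hna : ¬ IsMulCommutative G) (h : ∀ H : Subgroup G, H ≠ ⊤ → IsMulCommutative H) : (∃ p : ℕ, p.Prime ∧ IsPGroup p G) ∨ ∃ p q : ℕ, p.Prime ∧ q.Prime ∧ p ≠ q ∧ ∃ (P : Sylow p G) (Q : Sylow q G), IsCyclic P ∧ (Q : Subgroup G).Normal ∧ Cfsg.IsElementaryAbelian q (Q : Subgroup G) ∧ (P : Subgroup G) ⊔ Q = ⊤ := by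
  by_cases hnil : Group.IsNilpotent G
  · exact Or.inl (nilp_case hna h hnil)
  · right
    have hG : Cfsg.IsMinimalNonNilpotent G :=
      ⟨hnil, fun H hH => ⟨⟨1, Subgroup.upperCentralSeries_one_eq_top_iff.2 (h H hH)⟩⟩⟩
    obtain ⟨p, q, Q, g, e, hp, hq, hpq, hQn, hQp, hord, hgc, htop⟩ := schmidt hG
    haveI : Fact p.Prime := ⟨hp⟩
    haveI : Fact q.Prime := ⟨hq⟩
    obtain ⟨P', Q', hP', hQ'⟩ := sylows p q hpq Q g e hQn hQp hord htop
    have hcop : Nat.Coprime (orderOf g) q := by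
      rw [hord]
      exact Nat.Coprime.pow_left e ((Nat.coprime_primes hp hq).2 hpq)
    have hQt : Q ≠ ⊤ := by
      intro hQt
      apply hgc
      have hg1 : g = 1 :=
        inf_triv Q g hQp hcop g (by rw [hQt]; exact Subgroup.mem_top g) 1 (zpow_one g).symm
      rw [hg1]
      exact Subgroup.one_mem _
    have hQc := h Q hQt
    have hexp := elem_ab q h Q g hQn hQp hcop hgc hQc
    refine ⟨p, q, hp, hq, hpq, P', Q', ?_, ?_, ?_, ?_⟩
    · rw [hP']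
      infer_instance
    · rw [hQ']
      exact hQn
    · rw [hQ']
      exact ⟨hQc, hexp⟩
    · rw [hP', hQ', sup_comm]
      exact htop

end Cfsg.Agent.S0537
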