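import Mathlib
import Cfsg.Statements.S0541
import Cfsg.Agent.S0067

set_option autoImplicit false
open Pointwise
open Cfsg
open Cfsg.Agent.Lib.Helper2.Sub

namespace Cfsg.Agent.S0541

open Cfsg.Agent.S0538 Cfsg.Agent.S0539 Cfsg.Agent.S0540

/-- the weak closure of `Z` in `Q` -/
def gen {G : Type*} [Group G] (Z Q : Subgroup G) : Subgroup G :=
  ⨆ g ∈ {g : G | MulAut.conj g • Z ≤ Q}, MulAut.conj g • Z

theorem gen_le {G : Type*} [Group G] (Z Q : Subgroup G) : gen Z Q ≤ Q :=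
  iSup₂_le (fun _ hg => hg)

theorem gen_mono {G : Type*} [Group G] (Z : Subgroup G) {Q R : Subgroup G} (h : Q ≤ R) :
    gen Z Q ≤ gen Z R :=
  iSup₂_le (fun g hg => le_iSup₂ (f := fun g (_ : g ∈ {g : G | MulAut.conj g • Z ≤ R}) =>
    MulAut.conj g • Z) g (le_trans hg h))

theorem le_gen {G : Type*} [Group G] (Z Q : Subgroup G) (g : G) (h : MulAut.conj g • Z ≤ Q) :
    MulAut.conj g • Z ≤ gen Z Q :=
  le_iSup₂ (f := fun g (_ : g ∈ {g : G | MulAut.conj g • Z ≤ Q}) => MulAut.conj g • Z) g h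

theorem gen_eq_sSup {G : Type*} [Group G] (Z Q : Subgroup G) :
    gen Z Q = sSup {X : Subgroup G | (∃ g : G, X = MulAut.conj g • Z) ∧ X ≤ Q} := by
  apply le_antisymm
  · exact iSup₂_le (fun g hg => le_sSup ⟨⟨g, rfl⟩, hg⟩)
  · apply sSup_le
    rintro X ⟨⟨g, rfl⟩, hX⟩
    exact le_gen Z Q g hX

def Cand {G : Type*} [Group G] (p : ℕ) (Z Y W : Subgroup G) : Prop :=
  IsPGroup p W ∧ Y ≤ Subgroup.normalizer (W : Set G) ∧ W = gen Z W

theorem result {G : Type*} [Group G] [Finite G] (p : ℕ) [Fact p.Prime] (Z Y : Subgroup G) (h : ∀ g : G, IsPGroup p ↥(⨆ y ∈ Y, MulAut.conj (y * g) • Z)) : ∃ P : Sylow p G, Y ≤ Subgroup.normalizer ((⨆ g ∈ {g : G | MulAut.conj g • Z ≤ (P : Subgroup G)}, MulAut.conj g • Z : Subgroup G) : Set G) := by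
  have hbot : Cand p Z Y ⊥ := by
    refine ⟨IsPGroup.of_bot, ?_, ?_⟩
    · intro y _
      rw [mem_normalizer_iff_smul, Subgroup.smul_bot]
    · exact le_antisymm bot_le (gen_le Z ⊥)
  obtain ⟨W, -, hW⟩ := Finite.exists_le_maximal (p := Cand p Z Y) hbot
  obtain ⟨hWp, hYW, hWgen⟩ := hW.prop
  obtain ⟨P, hWP⟩ := hWp.exists_le_sylow
  refine ⟨P, ?_⟩
  show Y ≤ Subgroup.normalizer ((gen Z (P : Subgroup G) : Subgroup G) : Set G)
  suffices hgen : gen Z (P : Subgroup G) = W by rw [hgen]; exact hYW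
  by_contra hne
  set S : Set (Subgroup G) := {X : Subgroup G | (∃ g : G, X = MulAut.conj g • Z) ∧ X ≤ (P : Subgroup G)} with hS
  set S₀ : Set (Subgroup G) := {X : Subgroup G | (∃ g : G, X = MulAut.conj g • Z) ∧ X ≤ W} with hS₀
  have hsub : S₀ ⊆ S := fun X hX => ⟨hX.1, hX.2.trans hWP⟩
  have hsS₀ : sSup S₀ = W := by rw [hS₀, ← gen_eq_sSup]; exact hWgen.symm
  have hss : S₀ ⊂ S := by
    refine lt_of_le_of_ne hsub ?_
    intro e
    apply hne
    rw [gen_eq_sSup, ← hS, ← e, hsS₀]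
  haveI : Group.IsNilpotent ↥(P : Subgroup G) := P.2.isNilpotent
  obtain ⟨X, hXS, hXS₀, hXn⟩ := Cfsg.Agent.S0539.rel (P : Subgroup G) S S₀
    (fun B hB => ⟨hB.2, Cfsg.Agent.S0067.subnormal_of_nilpotent _⟩)
    (by
      rintro B ⟨⟨g, rfl⟩, hB⟩ x hx
      refine ⟨⟨x * g, by rw [map_mul, mul_smul]⟩, ?_⟩
      have := (Subgroup.pointwise_smul_le_pointwise_smul_iff (a := MulAut.conj x)).2 hB
      rwa [Subgroup.conj_smul_eq_self_of_mem hx] at this) hss
  rw [hsS₀] at hXn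
  obtain ⟨⟨g, rfl⟩, hXP⟩ := hXS
  set T : Subgroup G := ⨆ y ∈ Y, MulAut.conj (y * g) • Z with hT
  have hTp : IsPGroup p T := h g
  have hTN : T ≤ Subgroup.normalizer (W : Set G) := by
    apply iSup₂_le
    intro y hy
    rw [map_mul, mul_smul]
    have := (Subgroup.pointwise_smul_le_pointwise_smul_iff (a := MulAut.conj y)).2 hXn
    rwa [Subgroup.conj_smul_eq_self_of_mem (hYW hy)] at this
  have hYT : Y ≤ Subgroup.normalizer (T : Set G) := by
    intro y hy
    rw [mem_normalizer_iff_smul]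
    apply smul_eq_of_le
    rw [Subgroup.pointwise_smul_subset_iff]
    apply iSup₂_le
    intro y' hy'
    rw [← Subgroup.pointwise_smul_subset_iff, ← mul_smul, ← map_mul, ← mul_assoc]
    exact le_iSup₂ (f := fun y (_ : y ∈ Y) => MulAut.conj (y * g) • Z) (y * y') (Y.mul_mem hy hy')
  have hW' : Cand p Z Y (W ⊔ T) := by
    refine ⟨IsPGroup.to_sup_of_normal_left' hWp hTp hTN, ?_, ?_⟩
    · intro y hy
      exact Subgroup.normalizer_inf_normalizer_le_normalizer_sup W T ⟨hYW hy, hYT hy⟩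
    · apply le_antisymm _ (gen_le Z _)
      apply sup_le
      · calc W = gen Z W := hWgen
          _ ≤ gen Z (W ⊔ T) := gen_mono Z le_sup_left
      · apply iSup₂_le
        intro y hy
        apply le_gen
        exact le_trans (le_iSup₂ (f := fun y (_ : y ∈ Y) => MulAut.conj (y * g) • Z) y hy) le_sup_right
  have hle : W ⊔ T ≤ W := hW.le_of_ge hW' le_sup_left
  apply hXS₀
  refine ⟨⟨g, rfl⟩, ?_⟩
  have h1 : MulAut.conj g • Z ≤ T := by
    have := le_iSup₂ (f := fun y (_ : y ∈ Y) => MulAut.conj (y * g) • Z) 1 Y.one_mem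
    simp only [one_mul] at this
    exact this
  exact h1.trans (le_sup_right.trans hle)

end Cfsg.Agent.S0541
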