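import Mathlib
import Cfsg.Statements.S0543
import Cfsg.Agent.S0004
import Cfsg.Agent.S0020
import Cfsg.Agent.S0538

set_option autoImplicit false
open Pointwise
open Cfsg

namespace Cfsg.Agent.S0543

section basics
variable {G : Type*} [Group G] [Finite G]

theorem cs_card {K : Nat.Primes → Subgroup G} (hK : IsComplementSystem K) (p : Nat.Primes) :
    Nat.card (K p) * (p : ℕ) ^ (Nat.card G).factorization p = Nat.card G := by
  rw [← hK p]; exact Subgroup.card_mul_index _

theorem cs_card' {K : Nat.Primes → Subgroup G} (hK : IsComplementSystem K) (p : Nat.Primes) :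
    Nat.card (K p) = Nat.card G / (p : ℕ) ^ (Nat.card G).factorization p := by
  have h := cs_card hK p
  exact (Nat.div_eq_of_eq_mul_left (pow_pos p.2.pos _) h.symm).symm

theorem cs_coprime {K : Nat.Primes → Subgroup G} (hK : IsComplementSystem K) (p : Nat.Primes) :
    (p : ℕ).Coprime (Nat.card (K p)) := by
  rw [cs_card' hK p]
  exact Nat.coprime_ordCompl p.2 Nat.card_pos.ne'

theorem cs_not_dvd {K : Nat.Primes → Subgroup G} (hK : IsComplementSystem K) (p : Nat.Primes) :
    ¬ (p : ℕ) ∣ Nat.card (K p) :=
  (Nat.Prime.coprime_iff_not_dvd p.2).1 (cs_coprime hK p)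

/-- A subgroup with `p`-power index and order prime to `p` has the `p`-complement index. -/
theorem index_eq_of_pow {H : Subgroup G} (p : Nat.Primes) (k : ℕ) (hidx : H.index = (p : ℕ) ^ k)
    (hc : ¬ (p : ℕ) ∣ Nat.card H) : H.index = (p : ℕ) ^ (Nat.card G).factorization p := by
  have h := Subgroup.card_mul_index H
  rw [hidx] at h ⊢
  congr 1
  have h2 : (Nat.card G).factorization p =
      (Nat.card H).factorization p + ((p : ℕ) ^ k).factorization p := by
    rw [← h, Nat.factorization_mul (Nat.card_pos.ne') (pow_pos p.2.pos _).ne']; rfl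
  rw [h2, Nat.factorization_eq_zero_of_not_dvd hc, zero_add, Nat.Prime.factorization_pow p.2]
  simp

theorem index_conj (g : G) (H : Subgroup G) : (MulAut.conj g • H).index = H.index := by
  rw [Subgroup.pointwise_smul_def]
  exact Subgroup.index_map_of_bijective (MulEquiv.bijective (MulAut.conj g)) H

theorem cs_conj {K : Nat.Primes → Subgroup G} (hK : IsComplementSystem K) (g : G) :
    IsComplementSystem (fun p => MulAut.conj g • K p) := fun p => by
  show (MulAut.conj g • K p).index = _
  rw [index_conj]; exact hK p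

theorem pc_conj [Group.IsSolvable G] (p : Nat.Primes) (X Y : Subgroup G)
    (hX : X.index = (p : ℕ) ^ (Nat.card G).factorization p)
    (hY : Y.index = (p : ℕ) ^ (Nat.card G).factorization p) :
    ∃ g : G, MulAut.conj g • X = Y := by
  have hd : (p : ℕ) ^ (Nat.card G).factorization p ∣ Nat.card G := Nat.ordProj_dvd _ _
  have hcX : Nat.card X = Nat.card G / (p : ℕ) ^ (Nat.card G).factorization p := by
    have h := Subgroup.card_mul_index X; rw [hX] at h
    exact (Nat.div_eq_of_eq_mul_left (pow_pos p.2.pos _) h.symm).symm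
  have hcY : Nat.card Y = Nat.card G / (p : ℕ) ^ (Nat.card G).factorization p := by
    have h := Subgroup.card_mul_index Y; rw [hY] at h
    exact (Nat.div_eq_of_eq_mul_left (pow_pos p.2.pos _) h.symm).symm
  exact Cfsg.Agent.S0004.hall_conj (Nat.card G) G rfl _ _ (Nat.div_mul_cancel hd).symm
    ((Nat.coprime_ordCompl p.2 Nat.card_pos.ne').symm.pow_right _) X Y hcX hcY

/-- Subgroups of coprime index factorize the group. -/
theorem exists_mul_of_coprime_index (A B : Subgroup G) (h : Nat.Coprime A.index B.index) (g : G) :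
    ∃ a ∈ A, ∃ b ∈ B, g = a * b := by
  have h1 := Cfsg.Agent.S0020.index_inf_of_coprime A B h
  have h2 : (A ⊓ B).relIndex A * A.index = (A ⊓ B).index :=
    Subgroup.relIndex_mul_index inf_le_left
  have h3 : B.relIndex A = B.index := by
    rw [Subgroup.inf_relIndex_left] at h2
    rw [h1, mul_comm] at h2
    exact Nat.eq_of_mul_eq_mul_left (Nat.pos_of_ne_zero Subgroup.index_ne_zero_of_finite) h2
  have hst : MulAction.stabilizer A (QuotientGroup.mk (1 : G) : G ⧸ B) = B.subgroupOf A := by
    ext a
    rw [MulAction.mem_stabilizer_iff, Subgroup.mem_subgroupOf]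
    show (QuotientGroup.mk ((a : G) * 1) : G ⧸ B) = QuotientGroup.mk 1 ↔ _
    rw [QuotientGroup.eq]; simp
  have horb : (MulAction.orbit A (QuotientGroup.mk (1 : G) : G ⧸ B)).ncard = Nat.card (G ⧸ B) := by
    rw [← MulAction.index_stabilizer, hst]; exact h3
  have huniv : MulAction.orbit A (QuotientGroup.mk (1 : G) : G ⧸ B) = Set.univ :=
    (Set.eq_univ_iff_ncard _).2 horb
  have hg : (QuotientGroup.mk g : G ⧸ B) ∈ MulAction.orbit A (QuotientGroup.mk (1 : G) : G ⧸ B) := by
    rw [huniv]; trivial
  obtain ⟨a, ha⟩ := hg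
  have ha' : (QuotientGroup.mk ((a : G) * 1) : G ⧸ B) = QuotientGroup.mk g := ha
  rw [QuotientGroup.eq] at ha'
  exact ⟨a, a.2, ((a : G) * 1)⁻¹ * g, ha', by group⟩

theorem index_finset_inf {K : Nat.Primes → Subgroup G} (hK : IsComplementSystem K)
    (T : Finset Nat.Primes) :
    (T.inf K).index = ∏ p ∈ T, (p : ℕ) ^ (Nat.card G).factorization p := by
  classical
  induction T using Finset.induction_on with
  | empty => simp
  | insert q T hqT ih =>
    have hcop : Nat.Coprime (K q).index (T.inf K).index := by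
      rw [hK q, ih]
      apply Nat.Coprime.prod_right
      intro r hr
      exact Nat.coprime_pow_primes _ _ q.2 r.2 (fun h => hqT (Subtype.ext h ▸ hr))
    rw [Finset.inf_insert, Cfsg.Agent.S0020.index_inf_of_coprime _ _ hcop, hK q, ih,
      Finset.prod_insert hqT]

theorem conj_on_finset [Group.IsSolvable G] (K L : Nat.Primes → Subgroup G)
    (hK : IsComplementSystem K) (hL : IsComplementSystem L) (T : Finset Nat.Primes) :
    ∃ g : G, ∀ p ∈ T, MulAut.conj g • K p = L p := by
  classical
  induction T using Finset.induction_on with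
  | empty => exact ⟨1, by simp⟩
  | insert q T hqT ih =>
    obtain ⟨g, hg⟩ := ih
    obtain ⟨x, hx⟩ := pc_conj q (MulAut.conj g • K q) (L q)
      (by rw [index_conj]; exact hK q) (hL q)
    have hcop : Nat.Coprime (Subgroup.normalizer (L q : Set G)).index (T.inf L).index := by
      have h1 : (Subgroup.normalizer (L q : Set G)).index ∣
          (q : ℕ) ^ (Nat.card G).factorization q := by
        rw [← hL q]; exact Subgroup.index_dvd_of_le Subgroup.le_normalizer
      rw [index_finset_inf hL]
      apply Nat.Coprime.coprime_dvd_left h1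
      apply Nat.Coprime.prod_right
      intro r hr
      exact Nat.coprime_pow_primes _ _ q.2 r.2 (fun h => hqT (Subtype.ext h ▸ hr))
    obtain ⟨n, hn, h, hh, rfl⟩ := exists_mul_of_coprime_index _ _ hcop x
    refine ⟨h * g, ?_⟩
    intro p hp
    rw [Finset.mem_insert] at hp
    rw [map_mul, mul_smul]
    rcases hp with rfl | hp
    · rw [map_mul, mul_smul] at hx
      have hnY : MulAut.conj n • L p = L p :=
        (Cfsg.Agent.S0538.mem_normalizer_iff_smul n (L p)).1 hn
      rw [← hnY] at hx
      exact smul_left_cancel _ hx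
    · rw [hg p hp]
      exact Subgroup.conj_smul_eq_self_of_mem ((Finset.inf_le hp : T.inf L ≤ L p) hh)

omit [Finite G] in
theorem eq_top_of_not_dvd {K : Nat.Primes → Subgroup G} (hK : IsComplementSystem K)
    (p : Nat.Primes) (hp : ¬ (p : ℕ) ∣ Nat.card G) : K p = ⊤ := by
  rw [← Subgroup.index_eq_one, hK p, Nat.factorization_eq_zero_of_not_dvd hp, pow_zero]

end basics

theorem result {G : Type*} [Group G] [Finite G] [Group.IsSolvable G] (K L : Nat.Primes → Subgroup G) (hK : Cfsg.IsComplementSystem K) (hL : Cfsg.IsComplementSystem L) : ∃ g : G, ∀ p : Nat.Primes, MulAut.conj g • K p = L p := by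
  classical
  obtain ⟨g, hg⟩ := conj_on_finset K L hK hL ((Nat.card G).primeFactors.subtype Nat.Prime)
  refine ⟨g, fun p => ?_⟩
  by_cases hp : (p : ℕ) ∣ Nat.card G
  · exact hg p ((Finset.mem_subtype (p := Nat.Prime)).2
      (Nat.mem_primeFactors.2 ⟨p.2, hp, Nat.card_pos.ne'⟩))
  · rw [eq_top_of_not_dvd hK p hp, eq_top_of_not_dvd hL p hp]
    exact Subgroup.conj_smul_eq_self_of_mem (Subgroup.mem_top g)

end Cfsg.Agent.S0543
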