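import Mathlib
import Cfsg.Statements.S0545
import Cfsg.Agent.S0543
import Cfsg.Agent.S0544
import Cfsg.Agent.S0547
import Cfsg.Agent.S0538

set_option autoImplicit false
open Pointwise
open Cfsg

namespace Cfsg.Agent.S0545

theorem cs_map {G H : Type*} [Group G] [Finite G] [Group H] (f : G →* H)
    (hf : Function.Surjective f) {K : Nat.Primes → Subgroup G} (hK : IsComplementSystem K) :
    IsComplementSystem (fun p => (K p).map f) := by
  haveI : Finite H := Finite.of_surjective f hf
  intro p
  have h1 : ((K p).map f).index ∣ (K p).index := Subgroup.index_map_dvd (K p) hf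
  rw [hK p] at h1
  obtain ⟨k, -, hk⟩ := (Nat.dvd_prime_pow p.2).1 h1
  exact Cfsg.Agent.S0543.index_eq_of_pow p k hk
    (fun hd => Cfsg.Agent.S0543.cs_not_dvd hK p (hd.trans (Subgroup.card_map_dvd (K p) f)))

theorem map_sn_le {G H : Type*} [Group G] [Group H] (f : G →* H) (K : Nat.Primes → Subgroup G) :
    (systemNormalizer K).map f ≤ systemNormalizer (fun p => (K p).map f) := by
  rintro _ ⟨x, hx, rfl⟩
  unfold systemNormalizer
  rw [Subgroup.mem_iInf]
  intro p
  exact Subgroup.le_normalizer_map f ⟨x, (Subgroup.mem_iInf.1 hx) p, rfl⟩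

theorem sn_map_step {G : Type*} [Group G] [Finite G] [Group.IsSolvable G] (N : Subgroup G)
    [N.Normal] (hNc : ∀ x ∈ N, ∀ y ∈ N, x * y = y * x) (r d : ℕ) (hr : r.Prime) (hd : 0 < d)
    (hNcard : Nat.card N = r ^ d) (K : Nat.Primes → Subgroup G) (hK : IsComplementSystem K) :
    systemNormalizer (fun p => (K p).map (QuotientGroup.mk' N)) =
      (systemNormalizer K).map (QuotientGroup.mk' N) := by
  apply le_antisymm _ (map_sn_le _ K)
  intro y hy
  obtain ⟨x, rfl⟩ := QuotientGroup.mk'_surjective N y
  have hxn : ∀ p : Nat.Primes, x ∈ Subgroup.normalizer ((K p ⊔ N : Subgroup G) : Set G) := by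
    intro p
    have h1 : (QuotientGroup.mk' N) x ∈ Subgroup.normalizer
        (((K p).map (QuotientGroup.mk' N) : Subgroup (G ⧸ N)) : Set (G ⧸ N)) :=
      (Subgroup.mem_iInf.1 hy) p
    have h2 : x ∈ (Subgroup.normalizer
        (((K p).map (QuotientGroup.mk' N) : Subgroup (G ⧸ N)) : Set (G ⧸ N))).comap
        (QuotientGroup.mk' N) := h1
    rw [Subgroup.comap_normalizer_eq_of_surjective _ (QuotientGroup.mk'_surjective N),
      Subgroup.comap_map_eq, QuotientGroup.ker_mk'] at h2
    exact h2
  set rr : Nat.Primes := ⟨r, hr⟩ with hrr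
  have hNle : ∀ p : Nat.Primes, p ≠ rr → N ≤ K p := by
    intro p hp
    have hrm : r ∣ Nat.card (K p) := by
      have h1 : r ∣ Nat.card G :=
        (dvd_pow_self r hd.ne').trans (hNcard ▸ Subgroup.card_subgroup_dvd_card N)
      rw [← Cfsg.Agent.S0543.cs_card hK p] at h1
      exact Nat.Coprime.dvd_of_dvd_mul_right (Nat.Coprime.pow_right _
        ((Nat.coprime_primes hr p.2).2 (fun h => hp (Subtype.ext h.symm)))) h1
    exact Cfsg.Agent.S0004.normal_pgroup_le_hall N (K p) r d _ _ hr hNcard rfl
      (Cfsg.Agent.S0543.cs_card hK p).symm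
      ((Cfsg.Agent.S0543.cs_coprime hK p).symm.pow_right _) hrm
  have hcopr : (Nat.card (K rr)).Coprime (r ^ d) :=
    Nat.Coprime.pow_right _ (Cfsg.Agent.S0543.cs_coprime hK rr).symm
  have hKrN : K rr ⊓ N = ⊥ := by
    apply Subgroup.inf_eq_bot_of_coprime
    rw [hNcard]
    exact hcopr
  set X : Subgroup G := MulAut.conj x • K rr with hX
  have hXcard : Nat.card X = Nat.card (K rr) := Cfsg.Agent.S0004.card_conj_smul x (K rr)
  have hXN : X ⊓ N = ⊥ := by
    apply Subgroup.inf_eq_bot_of_coprime
    rw [hNcard, hXcard]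
    exact hcopr
  have hsup : X ⊔ N = K rr ⊔ N := by
    have h1 : MulAut.conj x • (K rr ⊔ N) = K rr ⊔ N :=
      (Cfsg.Agent.S0538.mem_normalizer_iff_smul x _).1 (hxn rr)
    rw [Subgroup.smul_sup, Subgroup.Normal.conj_smul_eq_self x N] at h1
    exact h1
  obtain ⟨n, hn, hnx⟩ := Cfsg.Agent.S0004.conj_of_complements N hNc X (K rr) hsup hXN hKrN hXcard
    (by rw [hNcard, hXcard]; exact hcopr.symm)
  refine ⟨n * x, ?_, ?_⟩
  · rw [SetLike.mem_coe]
    unfold systemNormalizer
    rw [Subgroup.mem_iInf]
    intro p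
    by_cases hp : p = rr
    · rw [hp, Cfsg.Agent.S0538.mem_normalizer_iff_smul, map_mul, mul_smul]; exact hnx
    · have h1 : x ∈ Subgroup.normalizer (K p : Set G) := by
        have := hxn p
        rwa [sup_of_le_left (hNle p hp)] at this
      exact Subgroup.mul_mem _ (Subgroup.le_normalizer (hNle p hp hn)) h1
  · show (QuotientGroup.mk' N) (n * x) = (QuotientGroup.mk' N) x
    rw [map_mul, show (QuotientGroup.mk' N) n = 1 from (QuotientGroup.eq_one_iff n).2 hn, one_mul]

universe u in
theorem sn_map_aux (n : ℕ) : ∀ (G : Type u) [Group G] [Finite G] [Group.IsSolvable G],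
    Nat.card G = n → ∀ (H : Type u) [Group H] (f : G →* H), Function.Surjective f →
    ∀ K : Nat.Primes → Subgroup G, IsComplementSystem K →
    systemNormalizer (fun p => (K p).map f) = (systemNormalizer K).map f := by
  induction n using Nat.strong_induction_on with
  | _ n ih =>
    intro G _ _ _ hn H _ f hf K hK
    by_cases hker : f.ker = ⊥
    · have hinj : Function.Injective f := (MonoidHom.ker_eq_bot_iff f).1 hker
      unfold systemNormalizer
      rw [Subgroup.map_iInf f hinj]
      congr 1
      funext p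
      exact (Subgroup.map_normalizer_eq_of_bijective (K p) ⟨hinj, hf⟩).symm
    · obtain ⟨L, hLmin, hLle⟩ :=
        Cfsg.Agent.S0538.exists_minNormal_le f.ker (MonoidHom.normal_ker f) hker
      haveI := hLmin.1
      obtain ⟨hLc, r, d, hr, hd, hLcard, -⟩ :=
        Cfsg.Agent.S0547.minimal_normal_solvable L hLmin.2.1
          (fun K' hK' hK'L => by
            by_cases h : K' = ⊥
            · exact Or.inl h
            · exact Or.inr (hLmin.2.2 K' hK' hK'L h))
      have hstep := sn_map_step L hLc r d hr hd hLcard K hK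
      have hK' := cs_map (QuotientGroup.mk' L) (QuotientGroup.mk'_surjective L) hK
      let f2 : G ⧸ L →* H := QuotientGroup.lift L f hLle
      have hf2 : Function.Surjective f2 := by
        intro h
        obtain ⟨g, rfl⟩ := hf h
        exact ⟨QuotientGroup.mk' L g, rfl⟩
      have hcomp : f2.comp (QuotientGroup.mk' L) = f := by
        ext g; rfl
      have hcard : Nat.card (G ⧸ L) < n := by
        rw [← hn, ← Cfsg.Agent.S0003.card_quot L]
        have h1 : 1 < Nat.card L := by
          rw [hLcard]; exact Nat.one_lt_pow hd.ne' hr.one_lt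
        nlinarith [Nat.card_pos (α := G ⧸ L)]
      have h2 := ih _ hcard (G ⧸ L) rfl H f2 hf2 _ hK'
      rw [hstep, Subgroup.map_map, hcomp] at h2
      rw [← h2]
      congr 1
      funext p
      show (K p).map f = ((K p).map (QuotientGroup.mk' L)).map f2
      rw [Subgroup.map_map, hcomp]

universe u in
theorem sn_map {G H : Type u} [Group G] [Finite G] [Group.IsSolvable G] [Group H] (f : G →* H)
    (hf : Function.Surjective f) {K : Nat.Primes → Subgroup G} (hK : IsComplementSystem K) :
    systemNormalizer (fun p => (K p).map f) = (systemNormalizer K).map f :=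
  sn_map_aux _ G rfl H f hf K hK

theorem result {G : Type*} [Group G] [Finite G] [Group.IsSolvable G] (K : Nat.Primes → Subgroup G) (hK : Cfsg.IsComplementSystem K) (N : Subgroup G) [N.Normal] : Cfsg.IsComplementSystem (fun p => (K p).map (QuotientGroup.mk' N)) ∧ Cfsg.systemNormalizer (fun p => (K p).map (QuotientGroup.mk' N)) = (Cfsg.systemNormalizer K).map (QuotientGroup.mk' N) :=
  ⟨cs_map _ (QuotientGroup.mk'_surjective N) hK, sn_map _ (QuotientGroup.mk'_surjective N) hK⟩

end Cfsg.Agent.S0545
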