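import Mathlib
import Cfsg.Statements.S0546
import Cfsg.Agent.S0545

set_option autoImplicit false
open Pointwise
open Cfsg

namespace Cfsg.Agent.S0546

/-- In a commutative group every system normalizer is everything. -/
theorem sn_comm {A : Type*} [CommGroup A] (K : Nat.Primes → Subgroup A) :
    systemNormalizer K = ⊤ := by
  unfold systemNormalizer
  rw [iInf_eq_top]
  intro p
  exact Subgroup.normalizer_eq_top_iff.2 inferInstance

theorem result {G : Type*} [Group G] [Finite G] [Group.IsSolvable G] (K : Nat.Primes → Subgroup G) (hK : Cfsg.IsComplementSystem K) : Subgroup.normalClosure ((Cfsg.systemNormalizer K : Subgroup G) : Set G) = ⊤ := by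
  by_contra hne
  set M : Subgroup G := Subgroup.normalClosure ((Cfsg.systemNormalizer K : Subgroup G) : Set G)
    with hM
  haveI hMn : M.Normal := Subgroup.normalClosure_normal
  haveI : Nontrivial (G ⧸ M) := by
    rw [← not_subsingleton_iff_nontrivial]
    intro hs
    apply hne
    rw [← Subgroup.index_eq_one]
    exact Nat.card_eq_one_iff_unique.2 ⟨hs, ⟨1⟩⟩
  have hlt := IsSolvable.commutator_lt_top_of_nontrivial (G ⧸ M)
  obtain ⟨q, -, hq⟩ := SetLike.exists_of_lt hlt
  let f : G →* Abelianization (G ⧸ M) := (Abelianization.of).comp (QuotientGroup.mk' M)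
  have hf : Function.Surjective f := by
    intro y
    obtain ⟨z, rfl⟩ := QuotientGroup.mk'_surjective _ y
    obtain ⟨g, rfl⟩ := QuotientGroup.mk'_surjective M z
    exact ⟨g, rfl⟩
  haveI : Nontrivial (Abelianization (G ⧸ M)) := by
    refine nontrivial_of_ne (Abelianization.of q) 1 ?_
    intro h
    exact hq ((QuotientGroup.eq_one_iff q).1 h)
  have h1 := Cfsg.Agent.S0545.sn_map f hf hK
  rw [sn_comm] at h1
  have h2 : (Cfsg.systemNormalizer K).map f = ⊥ := by
    rw [eq_bot_iff]
    rintro _ ⟨x, hx, rfl⟩
    have hxM : x ∈ M := Subgroup.subset_normalClosure hx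
    have : (QuotientGroup.mk' M) x = 1 := (QuotientGroup.eq_one_iff x).2 hxM
    show Abelianization.of ((QuotientGroup.mk' M) x) = 1
    rw [this, map_one]
  rw [h2] at h1
  exact bot_ne_top h1.symm

end Cfsg.Agent.S0546
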