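import Mathlib
import Cfsg.Statements.S0548
import Cfsg.Agent.S0547

set_option autoImplicit false
open Pointwise
open Cfsg

namespace Cfsg.Agent.S0548

theorem result {G : Type*} [Group G] [Finite G] [Group.IsSolvable G] {Ω : Type*} [MulAction G Ω] [FaithfulSMul G Ω] (hprim : MulAction.IsPreprimitive G Ω) (M : Subgroup G) [M.Normal] (hM : M ≠ ⊥) (hmin : ∀ K : Subgroup G, K.Normal → K ≤ M → K = ⊥ ∨ K = M) (ω : Ω) : Subgroup.IsComplement' M (MulAction.stabilizer G ω) ∧ MulAction.stabilizer G ω ⊓ Subgroup.centralizer (M : Set G) = ⊥ ∧ ∀ K : Subgroup G, K ≤ M → MulAction.stabilizer G ω ≤ Subgroup.normalizer (K : Set G) → K = ⊥ ∨ K = M := by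
  classical
  haveI : Nonempty Ω := ⟨ω⟩
  obtain ⟨hab, -⟩ := Cfsg.Agent.S0547.minimal_normal_solvable M hM hmin
  obtain ⟨htr, hreg⟩ := Cfsg.Agent.S0547.regular_of_abelian_normal hprim M hM hab
  have hdecomp : ∀ g : G, ∃ m ∈ M, ∃ s ∈ MulAction.stabilizer G ω, g = m * s := by
    intro g
    obtain ⟨n, hn⟩ := htr.exists_smul_eq ω (g • ω)
    have hn' : (n : G) • ω = g • ω := hn
    refine ⟨n, n.2, (n : G)⁻¹ * g, ?_, by rw [mul_inv_cancel_left]⟩
    rw [MulAction.mem_stabilizer_iff, mul_smul, ← hn', ← mul_smul, inv_mul_cancel, one_smul]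
  refine ⟨?_, ?_, ?_⟩
  · apply Subgroup.isComplement'_stabilizer
    · intro h hh
      apply Subtype.ext
      exact hreg ω h h.2 hh
    · intro g
      obtain ⟨n, hn⟩ := htr.exists_smul_eq (g • ω) ω
      exact ⟨n, hn⟩
  · rw [eq_bot_iff]
    intro g hg
    obtain ⟨hg1, hg2⟩ := Subgroup.mem_inf.1 hg
    rw [Subgroup.mem_bot]
    apply FaithfulSMul.eq_of_smul_eq_smul (α := Ω)
    intro ω'
    rw [one_smul]
    obtain ⟨n, hn⟩ := htr.exists_smul_eq ω ω'
    have hn' : (n : G) • ω = ω' := hn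
    rw [Subgroup.mem_centralizer_iff] at hg2
    rw [MulAction.mem_stabilizer_iff] at hg1
    rw [← hn', smul_smul, ← hg2 n n.2, ← smul_smul, hg1]
  · intro K hKM hK
    have hKn : K.Normal := by
      constructor
      intro k hk g
      obtain ⟨m, hm, s, hs, rfl⟩ := hdecomp g
      have h1 : s * k * s⁻¹ ∈ K := by
        have := hK hs
        rw [Subgroup.mem_normalizer_iff] at this
        exact (this k).1 hk
      have h2 : m * s * k * (m * s)⁻¹ = m * (s * k * s⁻¹) * m⁻¹ := by group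
      rw [h2, hab m hm _ (hKM h1), mul_assoc, mul_inv_cancel, mul_one]
      exact h1
    exact hmin K hKn hKM

end Cfsg.Agent.S0548
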