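import Mathlib
import Cfsg.Statements.S0549

set_option autoImplicit false
open Cfsg
open scoped Pointwise

namespace Cfsg.Agent.S0549

theorem result {G : Type*} [Group G] [Finite G] (U : Subgroup G) (hU : IsCoatom U) (hcore : U.normalCore = ⊥) (N : Subgroup G) [N.Normal] (hN : N ≠ ⊥) : Subgroup.centralizer (N : Set G) ⊓ U = ⊥ ∧ (Subgroup.centralizer (N : Set G) = ⊥ ∨ (Subgroup.centralizer (N : Set G) ≠ ⊥ ∧ ∀ K : Subgroup G, K.Normal → K ≤ Subgroup.centralizer (N : Set G) → K = ⊥ ∨ K = Subgroup.centralizer (N : Set G))) := by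
  have hnotle : ∀ K : Subgroup G, K.Normal → K ≠ ⊥ → ¬ K ≤ U := by
    intro K hK hK1 hle
    haveI := hK
    have : K ≤ U.normalCore := Subgroup.normal_le_normalCore.mpr hle
    rw [hcore] at this
    exact hK1 (le_bot_iff.mp this)
  have hmul : ∀ K : Subgroup G, K.Normal → K ≠ ⊥ → ∀ g : G, ∃ u ∈ U, ∃ k ∈ K, u * k = g := by
    intro K hK hK1 g
    haveI := hK
    have htop : U ⊔ K = ⊤ := hU.2 _ (left_lt_sup.mpr (hnotle K hK hK1))
    have : g ∈ ((U ⊔ K : Subgroup G) : Set G) := by rw [htop]; trivial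
    rw [Subgroup.mul_normal, Set.mem_mul] at this
    exact this
  have hCn : (Subgroup.centralizer (N : Set G)).Normal := inferInstance
  have hD : Subgroup.centralizer (N : Set G) ⊓ U = ⊥ := by
    have hDn : (Subgroup.centralizer (N : Set G) ⊓ U).Normal := by
      constructor
      intro d hd g
      obtain ⟨u, hu, n, hn, rfl⟩ := hmul N inferInstance hN g
      have h1 : n * d * n⁻¹ = d := by
        have := Subgroup.mem_centralizer_iff.mp hd.1 n hn
        rw [this]; group
      have h2 : u * n * d * (u * n)⁻¹ = u * d * u⁻¹ := by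
        calc u * n * d * (u * n)⁻¹ = u * (n * d * n⁻¹) * u⁻¹ := by group
          _ = u * d * u⁻¹ := by rw [h1]
      rw [h2]
      exact ⟨hCn.conj_mem d hd.1 u, U.mul_mem (U.mul_mem hu hd.2) (U.inv_mem hu)⟩
    have : Subgroup.centralizer (N : Set G) ⊓ U ≤ U.normalCore := Subgroup.normal_le_normalCore.mpr inf_le_right
    rw [hcore] at this
    exact le_bot_iff.mp this
  refine ⟨hD, ?_⟩
  by_cases hC : Subgroup.centralizer (N : Set G) = ⊥
  · exact Or.inl hC
  · refine Or.inr ⟨hC, ?_⟩
    intro K hK hKC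
    by_cases hK1 : K = ⊥
    · exact Or.inl hK1
    · refine Or.inr (le_antisymm hKC ?_)
      intro c hc
      obtain ⟨u, hu, k, hk, rfl⟩ := hmul K hK hK1 c
      have huC : u ∈ Subgroup.centralizer (N : Set G) := by
        have : u = (u * k) * k⁻¹ := by group
        rw [this]
        exact Subgroup.mul_mem _ hc (Subgroup.inv_mem _ (hKC hk))
      have hu1 : u ∈ (⊥ : Subgroup G) := hD ▸ (⟨huC, hu⟩ : u ∈ Subgroup.centralizer (N : Set G) ⊓ U)
      rw [Subgroup.mem_bot] at hu1
      rw [hu1, one_mul]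
      exact hk

end Cfsg.Agent.S0549
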