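import Mathlib
import Cfsg.Statements.S0587
import Cfsg.Agent.Lib.Helper2.Fit

set_option autoImplicit false
open Pointwise
open Cfsg

namespace Cfsg.Agent.S0587

/-- A nontrivial normal subgroup supplements a core-free maximal subgroup. -/
theorem sup_eq_top {G : Type*} [Group G] (U : Subgroup G) (hU : IsCoatom U)
    (hcore : U.normalCore = ⊥) (N : Subgroup G) [N.Normal] (hN : N ≠ ⊥) : U ⊔ N = ⊤ := by
  have hNU : ¬ N ≤ U := fun h =>
    hN (le_bot_iff.1 (hcore ▸ Subgroup.normal_le_normalCore.2 h))
  exact hU.2 _ (lt_of_le_of_ne le_sup_left (fun e => hNU (e ▸ le_sup_right)))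

/-- A subgroup of `U` normalized by `U` and by a nontrivial normal subgroup is trivial. -/
theorem eq_bot_of_normalized {G : Type*} [Group G] (U : Subgroup G) (hU : IsCoatom U)
    (hcore : U.normalCore = ⊥) (N : Subgroup G) [N.Normal] (hN : N ≠ ⊥) (X : Subgroup G)
    (hXU : X ≤ U) (h1 : U ≤ Subgroup.normalizer (X : Set G))
    (h2 : N ≤ Subgroup.normalizer (X : Set G)) : X = ⊥ := by
  have hn : X.Normal := by
    rw [← Subgroup.normalizer_eq_top_iff]
    exact top_le_iff.1 (sup_eq_top U hU hcore N hN ▸ sup_le h1 h2)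
  exact le_bot_iff.1 (hcore ▸ Subgroup.normal_le_normalCore.2 hXU)

/-- An abelian normal subgroup meets a core-free maximal subgroup trivially. -/
theorem abelian_inf {G : Type*} [Group G] (U : Subgroup G) (hU : IsCoatom U)
    (hcore : U.normalCore = ⊥) (A : Subgroup G) [A.Normal] (hA : A ≠ ⊥)
    (hab : ∀ x ∈ A, ∀ y ∈ A, x * y = y * x) : A ⊓ U = ⊥ := by
  apply eq_bot_of_normalized U hU hcore A hA _ inf_le_right
  · intro u hu
    rw [Subgroup.mem_normalizer_iff]
    intro x
    constructor
    · intro hx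
      exact Subgroup.mem_inf.2 ⟨‹A.Normal›.conj_mem _ (Subgroup.mem_inf.1 hx).1 _,
        U.mul_mem (U.mul_mem hu (Subgroup.mem_inf.1 hx).2) (U.inv_mem hu)⟩
    · intro hx
      have h1 := (Subgroup.mem_inf.1 hx).1
      have h2 := (Subgroup.mem_inf.1 hx).2
      refine Subgroup.mem_inf.2 ⟨?_, ?_⟩
      · have := ‹A.Normal›.conj_mem _ h1 u⁻¹
        simpa [mul_assoc] using this
      · have := U.mul_mem (U.mul_mem (U.inv_mem hu) h2) hu
        simpa [mul_assoc] using this
  · intro a ha
    rw [Subgroup.mem_normalizer_iff]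
    intro x
    constructor
    · intro hx
      have : a * x * a⁻¹ = x := by
        rw [hab a ha x (Subgroup.mem_inf.1 hx).1]; group
      rw [this]; exact hx
    · intro hx
      have h1 : x ∈ A := by
        have := ‹A.Normal›.conj_mem _ (Subgroup.mem_inf.1 hx).1 a⁻¹
        simpa [mul_assoc] using this
      have : a * x * a⁻¹ = x := by
        rw [hab a ha x h1]; group
      rw [this] at hx; exact hx

/-- Decomposition `g = u * n` from `U ⊔ N = ⊤`. -/
theorem exists_mul {G : Type*} [Group G] (U : Subgroup G) (hU : IsCoatom U)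
    (hcore : U.normalCore = ⊥) (N : Subgroup G) [N.Normal] (hN : N ≠ ⊥) (g : G) :
    ∃ u ∈ U, ∃ n ∈ N, g = u * n := by
  have h : g ∈ ((U ⊔ N : Subgroup G) : Set G) := by
    rw [sup_eq_top U hU hcore N hN]; trivial
  rw [Subgroup.mul_normal] at h
  obtain ⟨u, hu, n, hn, rfl⟩ := h
  exact ⟨u, hu, n, hn, rfl⟩

/-- An abelian normal subgroup is minimal normal. -/
theorem abelian_minimal {G : Type*} [Group G] (U : Subgroup G) (hU : IsCoatom U)
    (hcore : U.normalCore = ⊥) (A : Subgroup G) [A.Normal] (hA : A ≠ ⊥)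
    (hab : ∀ x ∈ A, ∀ y ∈ A, x * y = y * x) (K : Subgroup G) (hK : K.Normal) (hKA : K ≤ A) :
    K = ⊥ ∨ K = A := by
  by_cases hKb : K = ⊥
  · exact Or.inl hKb
  right
  apply le_antisymm hKA
  intro a ha
  obtain ⟨u, hu, k, hk, rfl⟩ := exists_mul U hU hcore K hKb a
  have hu' : u ∈ A ⊓ U := by
    refine Subgroup.mem_inf.2 ⟨?_, hu⟩
    have := A.mul_mem ha (A.inv_mem (hKA hk))
    simpa using this
  rw [abelian_inf U hU hcore A hA hab, Subgroup.mem_bot] at hu'
  rw [hu', one_mul]; exact hk

/-- An abelian normal subgroup is self-centralizing. -/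
theorem abelian_centralizer {G : Type*} [Group G] (U : Subgroup G) (hU : IsCoatom U)
    (hcore : U.normalCore = ⊥) (A : Subgroup G) [A.Normal] (hA : A ≠ ⊥)
    (hab : ∀ x ∈ A, ∀ y ∈ A, x * y = y * x) : Subgroup.centralizer (A : Set G) = A := by
  have hAC : A ≤ Subgroup.centralizer (A : Set G) := by
    intro a ha
    rw [Subgroup.mem_centralizer_iff]
    intro b hb
    exact hab b hb a ha
  have hinf : Subgroup.centralizer (A : Set G) ⊓ U = ⊥ := by
    apply eq_bot_of_normalized U hU hcore A hA _ inf_le_right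
    · intro u hu
      rw [Subgroup.mem_normalizer_iff]
      intro x
      constructor
      · intro hx
        exact Subgroup.mem_inf.2 ⟨(Subgroup.normal_centralizer (H := A)).conj_mem _
          (Subgroup.mem_inf.1 hx).1 _,
          U.mul_mem (U.mul_mem hu (Subgroup.mem_inf.1 hx).2) (U.inv_mem hu)⟩
      · intro hx
        have h1 := (Subgroup.mem_inf.1 hx).1
        have h2 := (Subgroup.mem_inf.1 hx).2
        refine Subgroup.mem_inf.2 ⟨?_, ?_⟩
        · have := (Subgroup.normal_centralizer (H := A)).conj_mem _ h1 u⁻¹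
          simpa [mul_assoc] using this
        · have := U.mul_mem (U.mul_mem (U.inv_mem hu) h2) hu
          simpa [mul_assoc] using this
    · intro a ha
      rw [Subgroup.mem_normalizer_iff]
      intro x
      constructor
      · intro hx
        have hc := (Subgroup.mem_inf.1 hx).1
        rw [Subgroup.mem_centralizer_iff] at hc
        have : a * x * a⁻¹ = x := by
          rw [hc a ha]; group
        rw [this]; exact hx
      · intro hx
        have h1 : x ∈ Subgroup.centralizer (A : Set G) := by
          have := (Subgroup.normal_centralizer (H := A)).conj_mem _ (Subgroup.mem_inf.1 hx).1 a⁻¹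
          simpa [mul_assoc] using this
        rw [Subgroup.mem_centralizer_iff] at h1
        have : a * x * a⁻¹ = x := by
          rw [h1 a ha]; group
        rw [this] at hx; exact hx
  apply le_antisymm _ hAC
  intro c hc
  obtain ⟨u, hu, a, ha, rfl⟩ := exists_mul U hU hcore A hA c
  have hu' : u ∈ Subgroup.centralizer (A : Set G) ⊓ U := by
    refine Subgroup.mem_inf.2 ⟨?_, hu⟩
    have := (Subgroup.centralizer (A : Set G)).mul_mem hc
      ((Subgroup.centralizer (A : Set G)).inv_mem (hAC ha))
    simpa using this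
  rw [hinf, Subgroup.mem_bot] at hu'
  rw [hu', one_mul]; exact ha

/-- A nontrivial normal subgroup meeting `U` trivially is a complement. -/
theorem complement_of_inf {G : Type*} [Group G] (U : Subgroup G) (hU : IsCoatom U)
    (hcore : U.normalCore = ⊥) (A : Subgroup G) [A.Normal] (hA : A ≠ ⊥) (hinf : A ⊓ U = ⊥) :
    Subgroup.IsComplement' A U := by
  apply Subgroup.isComplement'_of_disjoint_and_mul_eq_univ (disjoint_iff.2 hinf)
  rw [← Subgroup.normal_mul, sup_comm, sup_eq_top U hU hcore A hA]; rfl

theorem result {G : Type*} [Group G] [Finite G] (p : ℕ) [Fact p.Prime] (hL : Cfsg.pCore p G ≠ ⊥) (M : Subgroup G) (hM : IsCoatom M) (hcore : M.normalCore = ⊥) : Cfsg.IsElementaryAbelian p (Cfsg.pCore p G) ∧ Subgroup.IsComplement' (Cfsg.pCore p G) M ∧ (∀ K : Subgroup G, K.Normal → K ≤ Cfsg.pCore p G → K = ⊥ ∨ K = Cfsg.pCore p G) ∧ Subgroup.centralizer ((Cfsg.pCore p G : Subgroup G) : Set G) = Cfsg.pCore p G ∧ ∀ (q : ℕ) [Fact q.Prime], Cfsg.pCore q ↥M ≠ ⊥ → Nat.card (Cfsg.pCore p G) % q = 1 % q ∧ q ≠ p := by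
  have hp : p.Prime := Fact.out
  set L := Cfsg.pCore p G with hLdef
  haveI hLn : L.Normal := Cfsg.Agent.Lib.Helper2.Fit.pCore_normal p
  have hLp : IsPGroup p L := Cfsg.Agent.Lib.Helper2.Fit.pCore_isPGroup p
  -- A = L ⊓ C(L)
  set A : Subgroup G := L ⊓ Subgroup.centralizer (L : Set G) with hAdef
  haveI hAn : A.Normal := Subgroup.normal_inf_normal _ _
  have hAab : ∀ x ∈ A, ∀ y ∈ A, x * y = y * x := by
    intro x hx y hy
    have h1 := (Subgroup.mem_inf.1 hx).2
    rw [Subgroup.mem_centralizer_iff] at h1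
    exact (h1 y (Subgroup.mem_inf.1 hy).1).symm
  have hAne : A ≠ ⊥ := by
    haveI : Nontrivial L := by
      rw [← not_subsingleton_iff_nontrivial]
      intro hs
      exact hL ((Subgroup.eq_bot_iff_forall _).2 (fun x hx => by
        have := Subsingleton.elim (⟨x, hx⟩ : L) 1
        exact congrArg Subtype.val this))
    obtain ⟨z, hz, hz1⟩ := (Subgroup.nontrivial_iff_exists_ne_one _).1 (hLp.center_nontrivial)
    intro hAb
    have : (z : G) ∈ A := by
      refine Subgroup.mem_inf.2 ⟨z.2, ?_⟩
      rw [Subgroup.mem_centralizer_iff]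
      intro l hl
      have := Subgroup.mem_center_iff.1 hz ⟨l, hl⟩
      exact congrArg Subtype.val this
    rw [hAb, Subgroup.mem_bot] at this
    exact hz1 (Subtype.ext this)
  have hCA := abelian_centralizer M hM hcore A hAne hAab
  have hLA : L = A := by
    apply le_antisymm _ inf_le_left
    have hLC' : L ≤ Subgroup.centralizer (A : Set G) := by
      intro l hl
      rw [Subgroup.mem_centralizer_iff]
      intro a ha
      have h1 := (Subgroup.mem_inf.1 ha).2
      rw [Subgroup.mem_centralizer_iff] at h1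
      exact (h1 l hl).symm
    rw [hCA] at hLC'
    exact hLC'
  have hLab : ∀ x ∈ L, ∀ y ∈ L, x * y = y * x := by
    rw [hLA]; exact hAab
  have hLinf : L ⊓ M = ⊥ := abelian_inf M hM hcore L hL hLab
  have hLmin := abelian_minimal M hM hcore L hL hLab
  have hLC : Subgroup.centralizer (L : Set G) = L := abelian_centralizer M hM hcore L hL hLab
  refine ⟨⟨?_, ?_⟩, complement_of_inf M hM hcore L hL hLinf, hLmin, hLC, ?_⟩
  · exact ⟨⟨fun x y => Subtype.ext (hLab x x.2 y y.2)⟩⟩
  · -- Ω₁
    let K : Subgroup G :=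
      { carrier := {x | x ∈ L ∧ x ^ p = 1}
        one_mem' := ⟨L.one_mem, one_pow _⟩
        mul_mem' := by
          rintro x y ⟨hx, hx1⟩ ⟨hy, hy1⟩
          refine ⟨L.mul_mem hx hy, ?_⟩
          rw [(show Commute x y from hLab x hx y hy).mul_pow, hx1, hy1, one_mul]
        inv_mem' := by
          rintro x ⟨hx, hx1⟩
          exact ⟨L.inv_mem hx, by rw [inv_pow, hx1, inv_one]⟩ }
    have hKn : K.Normal := by
      constructor
      rintro x ⟨hx, hx1⟩ g
      refine ⟨hLn.conj_mem _ hx _, ?_⟩
      rw [conj_pow, hx1]; simp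
    have hKL : K ≤ L := fun x hx => hx.1
    have hKne : K ≠ ⊥ := by
      have hdvd : p ∣ Nat.card L := by
        rcases hLp.card_eq_or_dvd with h | h
        · exfalso
          apply hL
          exact (Subgroup.card_eq_one).1 h
        · exact h
      obtain ⟨x, hx⟩ := exists_prime_orderOf_dvd_card' p hdvd
      intro hKb
      have : (x : G) ∈ K := by
        refine ⟨x.2, ?_⟩
        have := pow_orderOf_eq_one x
        rw [hx] at this
        exact congrArg Subtype.val this
      rw [hKb, Subgroup.mem_bot] at this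
      have hx1 : x = 1 := Subtype.ext this
      rw [hx1, orderOf_one] at hx
      exact hp.one_lt.ne hx
    rcases hLmin K hKn hKL with h | h
    · exact absurd h hKne
    · intro a ha
      have : a ∈ K := h ▸ ha
      exact this.2
  · intro q hq hQ
    have hqp : q.Prime := hq.out
    set Q : Subgroup G := (Cfsg.pCore q ↥M).map M.subtype with hQdef
    have hQM : Q ≤ M := by
      rintro _ ⟨x, -, rfl⟩; exact x.2
    have hQne : Q ≠ ⊥ := by
      intro h
      apply hQ
      rw [← Subgroup.map_eq_bot_iff_of_injective _ (Subgroup.subtype_injective M)]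
      exact h
    have hQq : IsPGroup q Q :=
      (Cfsg.Agent.Lib.Helper2.Fit.pCore_isPGroup (G := M) q).map M.subtype
    have hQnM : ∀ m ∈ M, ∀ x ∈ Q, m * x * m⁻¹ ∈ Q := by
      rintro m hm _ ⟨x, hx, rfl⟩
      exact ⟨⟨m, hm⟩ * x * ⟨m, hm⟩⁻¹,
        (Cfsg.Agent.Lib.Helper2.Fit.pCore_normal (G := M) q).conj_mem _ hx _, rfl⟩
    -- F = L ⊓ C(Q)
    set F : Subgroup G := L ⊓ Subgroup.centralizer (Q : Set G) with hFdef
    have hFnM : ∀ m ∈ M, ∀ x ∈ F, m * x * m⁻¹ ∈ F := by
      intro m hm x hx
      refine Subgroup.mem_inf.2 ⟨hLn.conj_mem _ (Subgroup.mem_inf.1 hx).1 _, ?_⟩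
      have hc := (Subgroup.mem_inf.1 hx).2
      rw [Subgroup.mem_centralizer_iff] at hc ⊢
      intro y hy
      have h1 := hQnM m⁻¹ (M.inv_mem hm) y hy
      rw [inv_inv] at h1
      have h2 := hc _ h1
      have : y = m * (m⁻¹ * y * m) * m⁻¹ := by group
      calc y * (m * x * m⁻¹) = m * ((m⁻¹ * y * m) * x) * m⁻¹ := by group
        _ = m * (x * (m⁻¹ * y * m)) * m⁻¹ := by rw [h2]
        _ = m * x * m⁻¹ * y := by group
    have hFn : F.Normal := by
      constructor
      intro x hx g
      obtain ⟨m, hm, l, hl, rfl⟩ := exists_mul M hM hcore L hL g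
      have hlx : l * x * l⁻¹ = x := by
        rw [hLab l hl x (Subgroup.mem_inf.1 hx).1]; group
      have : m * l * x * (m * l)⁻¹ = m * (l * x * l⁻¹) * m⁻¹ := by group
      rw [this, hlx]
      exact hFnM m hm x hx
    have hFbot : F = ⊥ := by
      rcases hLmin F hFn inf_le_left with h | h
      · exact h
      · exfalso
        apply hQne
        have hQL : Q ≤ L := by
          rw [← hLC]
          intro y hy
          rw [Subgroup.mem_centralizer_iff]
          intro l hl
          have hlF : l ∈ F := h ▸ hl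
          have hc := (Subgroup.mem_inf.1 hlF).2
          rw [Subgroup.mem_centralizer_iff] at hc
          exact (hc y hy).symm
        exact le_bot_iff.1 (hLinf ▸ le_inf hQL hQM)
    -- counting
    let φ : Q →* MulAut L := (MulAut.conjNormal (H := L)).comp Q.subtype
    letI : MulAction Q L := MulAction.compHom L φ
    have hmod := hQq.card_modEq_card_fixedPoints (α := L)
    have hfix : Nat.card (MulAction.fixedPoints Q L) = 1 := by
      rw [Nat.card_eq_one_iff_unique]
      refine ⟨⟨?_⟩, ⟨⟨1, ?_⟩⟩⟩
      · rintro ⟨a, ha⟩ ⟨b, hb⟩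
        have key : ∀ c : L, c ∈ MulAction.fixedPoints Q L → c = 1 := by
          intro c hc
          have hcF : (c : G) ∈ F := by
            refine Subgroup.mem_inf.2 ⟨c.2, ?_⟩
            rw [Subgroup.mem_centralizer_iff]
            intro y hy
            have h1 : (⟨y, hy⟩ : Q) • c = c := hc ⟨y, hy⟩
            have h2 : ((⟨y, hy⟩ : Q) • c : L) = MulAut.conjNormal (H := L) y c := rfl
            rw [h2] at h1
            have h3 := congrArg Subtype.val h1
            rw [MulAut.conjNormal_apply] at h3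
            calc y * (c : G) = y * c * y⁻¹ * y := by group
              _ = c * y := by rw [h3]
          rw [hFbot, Subgroup.mem_bot] at hcF
          exact Subtype.ext hcF
        have e1 := key a ha
        have e2 := key b hb
        subst e1; subst e2; rfl
      · intro g
        show (MulAut.conjNormal (H := L) (g : G)) 1 = 1
        exact map_one _
    rw [hfix] at hmod
    refine ⟨hmod, ?_⟩
    rintro rfl
    have hdvd : q ∣ Nat.card L := by
      rcases hLp.card_eq_or_dvd with h | h
      · exfalso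
        apply hL
        exact (Subgroup.card_eq_one).1 h
      · exact h
    have h0 : Nat.card L % q = 0 := Nat.mod_eq_zero_of_dvd hdvd
    have h1 : Nat.card L % q = 1 % q := hmod
    rw [h0, Nat.mod_eq_of_lt hqp.one_lt] at h1
    exact absurd h1 (by norm_num)

end Cfsg.Agent.S0587
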