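import Mathlib
import Cfsg.Statements.S0550
import Cfsg.Agent.S0587

set_option autoImplicit false
open Pointwise
open Cfsg

namespace Cfsg.Agent.S0550

open Cfsg.Agent.S0587

/-- The centralizer of a nontrivial normal subgroup meets `U` trivially. -/
theorem centralizer_inf {G : Type*} [Group G] (U : Subgroup G) (hU : IsCoatom U)
    (hcore : U.normalCore = ⊥) (A : Subgroup G) [A.Normal] (hA : A ≠ ⊥) :
    Subgroup.centralizer (A : Set G) ⊓ U = ⊥ := by
  apply eq_bot_of_normalized U hU hcore A hA _ inf_le_right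
  · intro u hu
    rw [Subgroup.mem_normalizer_iff]
    intro x
    constructor
    · intro hx
      exact Subgroup.mem_inf.2 ⟨(Subgroup.normal_centralizer (H := A)).conj_mem _
        (Subgroup.mem_inf.1 hx).1 _,
        U.mul_mem (U.mul_mem hu (Subgroup.mem_inf.1 hx).2) (U.inv_mem hu)⟩
    · intro hx
      have h1 := (Subgroup.mem_inf.1 hx).1
      have h2 := (Subgroup.mem_inf.1 hx).2
      refine Subgroup.mem_inf.2 ⟨?_, ?_⟩
      · have := (Subgroup.normal_centralizer (H := A)).conj_mem _ h1 u⁻¹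
        simpa [mul_assoc] using this
      · have := U.mul_mem (U.mul_mem (U.inv_mem hu) h2) hu
        simpa [mul_assoc] using this
  · intro a ha
    rw [Subgroup.mem_normalizer_iff]
    intro x
    constructor
    · intro hx
      have hc := (Subgroup.mem_inf.1 hx).1
      rw [Subgroup.mem_centralizer_iff] at hc
      have : a * x * a⁻¹ = x := by
        rw [hc a ha]; group
      rw [this]; exact hx
    · intro hx
      have h1 : x ∈ Subgroup.centralizer (A : Set G) := by
        have := (Subgroup.normal_centralizer (H := A)).conj_mem _ (Subgroup.mem_inf.1 hx).1 a⁻¹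
        simpa [mul_assoc] using this
      rw [Subgroup.mem_centralizer_iff] at h1
      have : a * x * a⁻¹ = x := by
        rw [h1 a ha]; group
      rw [this] at hx; exact hx

theorem iso_aux {G : Type*} [Group G] (U : Subgroup G) (hU : IsCoatom U)
    (hcore : U.normalCore = ⊥) (A B : Subgroup G) [A.Normal] [B.Normal] (hB : B ≠ ⊥)
    (hAB : A ⊓ B = ⊥) (hBU : B ⊓ U = ⊥) : Nonempty (A ≃* ↥((A ⊔ B) ⊓ U)) := by
  let fA : A →* G ⧸ B := (QuotientGroup.mk' B).comp A.subtype
  let fD : ↥((A ⊔ B) ⊓ U) →* G ⧸ B := (QuotientGroup.mk' B).comp ((A ⊔ B) ⊓ U).subtype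
  have hfA : Function.Injective fA := by
    rw [← MonoidHom.ker_eq_bot_iff, eq_bot_iff]
    intro a ha
    have h1 : (a : G) ∈ B := (QuotientGroup.eq_one_iff (a : G)).1 ha
    have h2 : (a : G) ∈ A ⊓ B := Subgroup.mem_inf.2 ⟨a.2, h1⟩
    rw [hAB, Subgroup.mem_bot] at h2
    exact Subtype.ext h2
  have hfD : Function.Injective fD := by
    rw [← MonoidHom.ker_eq_bot_iff, eq_bot_iff]
    intro d hd
    have h1 : (d : G) ∈ B := (QuotientGroup.eq_one_iff (d : G)).1 hd
    have h2 : (d : G) ∈ B ⊓ U := Subgroup.mem_inf.2 ⟨h1, (Subgroup.mem_inf.1 d.2).2⟩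
    rw [hBU, Subgroup.mem_bot] at h2
    exact Subtype.ext h2
  have hrange : fA.range = fD.range := by
    apply le_antisymm
    · rintro _ ⟨a, rfl⟩
      obtain ⟨u, hu, b, hb, e⟩ := exists_mul U hU hcore B hB (a : G)
      have hu' : u = (a : G) * b⁻¹ := by rw [e]; group
      have huD : u ∈ (A ⊔ B) ⊓ U := by
        refine Subgroup.mem_inf.2 ⟨?_, hu⟩
        rw [hu']
        exact Subgroup.mul_mem _ (Subgroup.mem_sup_left a.2)
          (Subgroup.inv_mem _ (Subgroup.mem_sup_right hb))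
      refine ⟨⟨u, huD⟩, ?_⟩
      show (QuotientGroup.mk' B) u = (QuotientGroup.mk' B) (a : G)
      rw [e, map_mul, show (QuotientGroup.mk' B) b = 1 from (QuotientGroup.eq_one_iff b).2 hb,
        mul_one]
    · rintro _ ⟨d, rfl⟩
      have hd : (d : G) ∈ ((A ⊔ B : Subgroup G) : Set G) := (Subgroup.mem_inf.1 d.2).1
      rw [Subgroup.mul_normal] at hd
      obtain ⟨a, ha, b, hb, e⟩ := hd
      refine ⟨⟨a, ha⟩, ?_⟩
      show (QuotientGroup.mk' B) a = (QuotientGroup.mk' B) (d : G)
      rw [← e]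
      show (QuotientGroup.mk' B) a = (QuotientGroup.mk' B) (a * b)
      rw [map_mul, show (QuotientGroup.mk' B) b = 1 from (QuotientGroup.eq_one_iff b).2 hb,
        mul_one]
  exact ⟨(MonoidHom.ofInjective hfA).trans ((MulEquiv.subgroupCongr hrange).trans
    (MonoidHom.ofInjective hfD).symm)⟩

theorem result {G : Type*} [Group G] [Finite G] (U : Subgroup G) (hU : IsCoatom U) (hcore : U.normalCore = ⊥) (A B : Subgroup G) [A.Normal] [B.Normal] (hA : A ≠ ⊥) (hB : B ≠ ⊥) (hAmin : ∀ K : Subgroup G, K.Normal → K ≤ A → K = ⊥ ∨ K = A) (hBmin : ∀ K : Subgroup G, K.Normal → K ≤ B → K = ⊥ ∨ K = B) (hAB : A ≠ B) : Subgroup.centralizer (B : Set G) = A ∧ Subgroup.centralizer (A : Set G) = B ∧ Subgroup.IsComplement' A U ∧ Subgroup.IsComplement' B U ∧ ¬ IsMulCommutative A ∧ Nonempty (A ≃* B) ∧ Nonempty (A ≃* ↥((A ⊔ B) ⊓ U)) := by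
  have hinf : A ⊓ B = ⊥ := by
    rcases hAmin (A ⊓ B) (Subgroup.normal_inf_normal _ _) inf_le_left with h | h
    · exact h
    · exfalso
      have hle : A ≤ B := h ▸ inf_le_right
      rcases hBmin A inferInstance hle with h' | h'
      · exact hA h'
      · exact hAB h'
  have hcomm : ∀ a ∈ A, ∀ b ∈ B, a * b = b * a := by
    intro a ha b hb
    have h1 : a * b * a⁻¹ * b⁻¹ ∈ A ⊓ B := by
      refine Subgroup.mem_inf.2 ⟨?_, ?_⟩
      · have h2 : b * a⁻¹ * b⁻¹ ∈ A := ‹A.Normal›.conj_mem _ (A.inv_mem ha) b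
        have h3 := A.mul_mem ha h2
        have e : a * (b * a⁻¹ * b⁻¹) = a * b * a⁻¹ * b⁻¹ := by group
        rw [e] at h3; exact h3
      · exact B.mul_mem (‹B.Normal›.conj_mem _ hb a) (B.inv_mem hb)
    rw [hinf, Subgroup.mem_bot] at h1
    have e : a * b = (a * b * a⁻¹ * b⁻¹) * (b * a) := by group
    rw [e, h1, one_mul]
  have hBC : B ≤ Subgroup.centralizer (A : Set G) := by
    intro b hb
    rw [Subgroup.mem_centralizer_iff]
    intro a ha
    exact hcomm a ha b hb
  have hAC : A ≤ Subgroup.centralizer (B : Set G) := by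
    intro a ha
    rw [Subgroup.mem_centralizer_iff]
    intro b hb
    exact (hcomm a ha b hb).symm
  have key : ∀ (X Y : Subgroup G) [X.Normal] [Y.Normal], X ≠ ⊥ → Y ≠ ⊥ →
      Y ≤ Subgroup.centralizer (X : Set G) → Subgroup.centralizer (X : Set G) = Y := by
    intro X Y _ _ hX hY hle
    apply le_antisymm _ hle
    intro c hc
    obtain ⟨u, hu, y, hy, rfl⟩ := exists_mul U hU hcore Y hY c
    have hu' : u ∈ Subgroup.centralizer (X : Set G) ⊓ U := by
      refine Subgroup.mem_inf.2 ⟨?_, hu⟩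
      have := (Subgroup.centralizer (X : Set G)).mul_mem hc
        ((Subgroup.centralizer (X : Set G)).inv_mem (hle hy))
      simpa using this
    rw [centralizer_inf U hU hcore X hX, Subgroup.mem_bot] at hu'
    rw [hu', one_mul]; exact hy
  have hCA : Subgroup.centralizer (A : Set G) = B := key A B hA hB hBC
  have hCB : Subgroup.centralizer (B : Set G) = A := key B A hB hA hAC
  have hBU : B ⊓ U = ⊥ := by
    rw [← hCA]; exact centralizer_inf U hU hcore A hA
  have hAU : A ⊓ U = ⊥ := by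
    rw [← hCB]; exact centralizer_inf U hU hcore B hB
  have hAnc : ¬ IsMulCommutative A := by
    intro hc
    apply hA
    rw [eq_bot_iff, ← hinf]
    intro a ha
    refine Subgroup.mem_inf.2 ⟨ha, ?_⟩
    rw [← hCA, Subgroup.mem_centralizer_iff]
    intro a' ha'
    exact setLike_mul_comm ha' ha
  obtain ⟨eA⟩ := iso_aux U hU hcore A B hB hinf hBU
  obtain ⟨eB⟩ := iso_aux U hU hcore B A hA (by rw [inf_comm]; exact hinf) hAU
  have hD : (B ⊔ A) ⊓ U = (A ⊔ B) ⊓ U := by rw [sup_comm]
  exact ⟨hCB, hCA, complement_of_inf U hU hcore A hA hAU, complement_of_inf U hU hcore B hB hBU,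
    hAnc, ⟨eA.trans ((MulEquiv.subgroupCongr hD.symm).trans eB.symm)⟩, ⟨eA⟩⟩

end Cfsg.Agent.S0550
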