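import Mathlib
import Cfsg.Statements.S0551
import Cfsg.Agent.S0587
import Cfsg.Agent.S0003
import Cfsg.Agent.S0004

set_option autoImplicit false
open Pointwise
open Cfsg

namespace Cfsg.Agent.S0551

open Cfsg.Agent.S0587 Cfsg.Agent.S0003

theorem result {G : Type*} [Group G] [Finite G] [Group.IsSolvable G] (U V : Subgroup G) (hU : IsCoatom U) (hV : IsCoatom V) (hUc : U.normalCore = ⊥) (hVc : V.normalCore = ⊥) : ∃ g : G, MulAut.conj g • U = V := by
  haveI : Nontrivial G := by
    rw [← not_subsingleton_iff_nontrivial]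
    intro hs
    exact hU.1 (Subsingleton.elim _ _)
  obtain ⟨p, N, hp, hNn, hNc, hNne, hNp⟩ := exists_normal_abelian_pgroup G
  haveI := hNn
  haveI : Fact p.Prime := ⟨hp⟩
  have hNU : N ⊓ U = ⊥ := abelian_inf U hU hUc N hNne hNc
  have hNV : N ⊓ V = ⊥ := abelian_inf V hV hVc N hNne hNc
  have hcardU : Nat.card U * Nat.card N = Nat.card G := by
    have h := card_sup_mul_card_inf U N
    rw [sup_eq_top U hU hUc N hNne, inf_comm, hNU, Subgroup.card_top, Subgroup.card_bot,
      mul_one] at h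
    exact h.symm
  have hcardV : Nat.card V * Nat.card N = Nat.card G := by
    have h := card_sup_mul_card_inf V N
    rw [sup_eq_top V hV hVc N hNne, inf_comm, hNV, Subgroup.card_top, Subgroup.card_bot,
      mul_one] at h
    exact h.symm
  have hcardUV : Nat.card U = Nat.card V :=
    Nat.eq_of_mul_eq_mul_right Nat.card_pos (hcardU.trans hcardV.symm)
  by_cases hNtop : N = ⊤
  · refine ⟨1, ?_⟩
    rw [hNtop, top_inf_eq] at hNU hNV
    rw [hNU, hNV, map_one, one_smul]
  haveI : Nontrivial (G ⧸ N) := by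
    rw [← not_subsingleton_iff_nontrivial]
    intro hs
    apply hNtop
    rw [← Subgroup.index_eq_one]
    exact Nat.card_eq_one_iff_unique.2 ⟨hs, ⟨1⟩⟩
  obtain ⟨q, Lb, hq, hLbn, -, hLbne, hLbq⟩ := exists_normal_abelian_pgroup (G ⧸ N)
  haveI := hLbn
  haveI : Fact q.Prime := ⟨hq⟩
  set L : Subgroup G := Lb.comap (QuotientGroup.mk' N) with hL
  haveI hLn : L.Normal := hLbn.comap _
  have hNL : N ≤ L := by
    intro n hn
    show (QuotientGroup.mk' N) n ∈ Lb
    have h0 : (QuotientGroup.mk' N) n = 1 := (QuotientGroup.eq_one_iff n).2 hn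
    rw [h0]; exact Lb.one_mem
  have hLcard : Nat.card L = Nat.card N * Nat.card Lb := card_comap_mk' N Lb
  obtain ⟨a, ha⟩ := IsPGroup.iff_card.1 hNp
  obtain ⟨j, hj⟩ := IsPGroup.iff_card.1 hLbq
  have hLbcard1 : 1 < Nat.card Lb := (Subgroup.one_lt_card_iff_ne_bot Lb).2 hLbne
  have hLneN : L ≠ N := by
    intro h
    rw [h] at hLcard
    have : Nat.card N * 1 = Nat.card N * Nat.card Lb := by rw [mul_one]; exact hLcard
    have := Nat.eq_of_mul_eq_mul_left Nat.card_pos this
    omega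
  -- q ≠ p
  have hqp : q ≠ p := by
    rintro rfl
    have hLp : IsPGroup q L := IsPGroup.of_card (n := a + j) (by rw [hLcard, ha, hj, pow_add])
    have hOne : Cfsg.pCore q G ≠ ⊥ := by
      intro h
      have := Cfsg.Agent.Lib.Helper2.Fit.le_pCore N hNn hNp
      rw [h] at this
      exact hNne (le_bot_iff.1 this)
    obtain ⟨-, -, hmin, -, -⟩ := Cfsg.Agent.S0587.result q hOne U hU hUc
    have hNO : N = Cfsg.pCore q G := by
      rcases hmin N hNn (Cfsg.Agent.Lib.Helper2.Fit.le_pCore N hNn hNp) with h | h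
      · exact absurd h hNne
      · exact h
    have hLO : L ≤ Cfsg.pCore q G := Cfsg.Agent.Lib.Helper2.Fit.le_pCore L hLn hLp
    rw [← hNO] at hLO
    exact hLneN (le_antisymm hLO hNL)
  -- the complements in L
  have hsupL : ∀ W : Subgroup G, IsCoatom W → W.normalCore = ⊥ → (L ⊓ W) ⊔ N = L := by
    intro W hW hWc
    apply le_antisymm (sup_le inf_le_left hNL)
    intro l hl
    obtain ⟨u, hu, n, hn, rfl⟩ := exists_mul W hW hWc N hNne l
    have huL : u ∈ L := by
      have := L.mul_mem hl (L.inv_mem (hNL hn))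
      simpa using this
    exact Subgroup.mul_mem _ (Subgroup.mem_sup_left (Subgroup.mem_inf.2 ⟨huL, hu⟩))
      (Subgroup.mem_sup_right hn)
  have hinfL : ∀ W : Subgroup G, N ⊓ W = ⊥ → (L ⊓ W) ⊓ N = ⊥ := by
    intro W hW
    rw [eq_bot_iff, ← hW]
    intro x hx
    exact Subgroup.mem_inf.2 ⟨(Subgroup.mem_inf.1 hx).2, (Subgroup.mem_inf.1 (Subgroup.mem_inf.1 hx).1).2⟩
  have hcardL : ∀ W : Subgroup G, IsCoatom W → W.normalCore = ⊥ → N ⊓ W = ⊥ →
      Nat.card ↥(L ⊓ W) = Nat.card Lb := by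
    intro W hW hWc hNW
    have h := card_sup_mul_card_inf (L ⊓ W) N
    rw [hsupL W hW hWc, hinfL W hNW, Subgroup.card_bot, mul_one, hLcard, mul_comm] at h
    exact (Nat.eq_of_mul_eq_mul_right Nat.card_pos h).symm
  have hcop : (Nat.card N).Coprime (Nat.card ↥(L ⊓ U)) := by
    rw [hcardL U hU hUc hNU, ha, hj]
    exact Nat.coprime_pow_primes _ _ hp hq (fun h => hqp h.symm)
  obtain ⟨x, -, hx⟩ := Cfsg.Agent.S0004.conj_of_complements N hNc (L ⊓ U) (L ⊓ V)
    ((hsupL U hU hUc).trans (hsupL V hV hVc).symm) (hinfL U hNU) (hinfL V hNV)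
    ((hcardL U hU hUc hNU).trans (hcardL V hV hVc hNV).symm) hcop
  refine ⟨x, ?_⟩
  by_contra hne
  rw [Subgroup.smul_inf, Subgroup.Normal.conj_smul_eq_self x L] at hx
  set U' : Subgroup G := MulAut.conj x • U with hU'
  have hnle : ¬ U' ≤ V := by
    intro hle
    apply hne
    apply Subgroup.eq_of_le_of_card_ge hle
    rw [hU', Cfsg.Agent.S0004.card_conj_smul, hcardUV]
  have hsup : U' ⊔ V = ⊤ := by
    rw [sup_comm]
    exact hV.2 _ (lt_of_le_of_ne le_sup_left (fun e => hnle (e ▸ le_sup_right)))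
  have hQn : (L ⊓ V).Normal := by
    rw [← Subgroup.normalizer_eq_top_iff, eq_top_iff, ← hsup]
    apply sup_le
    · rw [← hx]
      intro u hu
      rw [Subgroup.mem_normalizer_iff]
      intro y
      constructor
      · intro hy
        exact Subgroup.mem_inf.2 ⟨hLn.conj_mem _ (Subgroup.mem_inf.1 hy).1 _,
          U'.mul_mem (U'.mul_mem hu (Subgroup.mem_inf.1 hy).2) (U'.inv_mem hu)⟩
      · intro hy
        refine Subgroup.mem_inf.2 ⟨?_, ?_⟩
        · have := hLn.conj_mem _ (Subgroup.mem_inf.1 hy).1 u⁻¹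
          simpa [mul_assoc] using this
        · have := U'.mul_mem (U'.mul_mem (U'.inv_mem hu) (Subgroup.mem_inf.1 hy).2) hu
          simpa [mul_assoc] using this
    · intro u hu
      rw [Subgroup.mem_normalizer_iff]
      intro y
      constructor
      · intro hy
        exact Subgroup.mem_inf.2 ⟨hLn.conj_mem _ (Subgroup.mem_inf.1 hy).1 _,
          V.mul_mem (V.mul_mem hu (Subgroup.mem_inf.1 hy).2) (V.inv_mem hu)⟩
      · intro hy
        refine Subgroup.mem_inf.2 ⟨?_, ?_⟩
        · have := hLn.conj_mem _ (Subgroup.mem_inf.1 hy).1 u⁻¹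
          simpa [mul_assoc] using this
        · have := V.mul_mem (V.mul_mem (V.inv_mem hu) (Subgroup.mem_inf.1 hy).2) hu
          simpa [mul_assoc] using this
  have hQbot : L ⊓ V = ⊥ :=
    le_bot_iff.1 (hVc ▸ Subgroup.normal_le_normalCore.2 inf_le_right)
  have := hsupL V hV hVc
  rw [hQbot, bot_sup_eq] at this
  exact hLneN this.symm

end Cfsg.Agent.S0551
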