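import Mathlib
import Cfsg.Statements.S0552
import Cfsg.Agent.S0044
import Cfsg.Agent.Lib.Helper2.Fit

set_option autoImplicit false
open Pointwise
open Cfsg

namespace Cfsg.Agent.S0552

theorem result {G : Type*} [Group G] [Finite G] [Group.IsSolvable G] (σ : G ≃* G) (hσ : ∀ x ∈ Cfsg.fittingSubgroup G, σ x = x) (hne : σ ≠ MulEquiv.refl G) : ¬ (orderOf σ).Coprime (Nat.card G) := by
  intro hcop
  apply hne
  have hFn : (Cfsg.fittingSubgroup G).Normal := Cfsg.Agent.Lib.Helper2.Fit.fitting_normal (G := G)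
  have hC := Cfsg.Agent.S0044.result (G := G)
  ext g
  show σ g = g
  set z := g⁻¹ * σ g with hz
  have hzF : z ∈ Cfsg.fittingSubgroup G := by
    apply hC
    rw [Subgroup.mem_centralizer_iff]
    intro f hf
    have h1 : σ (g * f * g⁻¹) = g * f * g⁻¹ := hσ _ (hFn.conj_mem f hf g)
    rw [map_mul, map_mul, map_inv, hσ f hf] at h1
    have h2 : σ g * f = g * f * g⁻¹ * σ g := by rw [← h1]; group
    calc f * z = g⁻¹ * (g * f * g⁻¹ * σ g) := by rw [hz]; group
      _ = g⁻¹ * (σ g * f) := by rw [h2]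
      _ = z * f := by rw [hz]; group
  have hσz : σ z = z := hσ z hzF
  have hσg : σ g = g * z := by rw [hz]; group
  have hpow : ∀ k : ℕ, (σ ^ k) g = g * z ^ k := by
    intro k
    induction k with
    | zero => simp
    | succ k ih =>
      rw [pow_succ', MulAut.mul_apply, ih, map_mul, map_pow, hσz, hσg, pow_succ', mul_assoc]
  have h1 : z ^ orderOf σ = 1 := by
    have h0 := hpow (orderOf σ)
    rw [pow_orderOf_eq_one, MulAut.one_apply] at h0
    exact (mul_eq_left (a := g)).1 h0.symm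
  have h2 : z ^ Nat.card G = 1 := pow_card_eq_one'
  have h3 := pow_gcd_eq_one.2 ⟨h1, h2⟩
  rw [Nat.Coprime] at hcop
  rw [hcop, pow_one] at h3
  rw [hσg, h3, mul_one]

end Cfsg.Agent.S0552
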