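import Mathlib
import Cfsg.Statements.S0553
import Cfsg.Agent.S0003
import Cfsg.Agent.Lib.Helper2.SylowAux

set_option autoImplicit false
open Pointwise
open Cfsg

namespace Cfsg.Agent.S0553

universe u in
theorem aux (n : ℕ) : ∀ (G : Type u) [Group G] [Finite G] [Group.IsSolvable G] [Nontrivial G],
    Nat.card G = n →
    (∀ M : Subgroup G, IsCoatom M → (Nat.card M).Coprime M.index) →
    ∃ p : ℕ, p.Prime ∧ p ∣ Nat.card G ∧ ∀ P : Sylow p G, (P : Subgroup G).Normal := by
  induction n using Nat.strong_induction_on with
  | _ n ih =>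
    intro G _ _ _ _ hn h
    obtain ⟨p, N, hp, hNn, -, hNne, hNp⟩ := Cfsg.Agent.S0003.exists_normal_abelian_pgroup G
    haveI := Fact.mk hp
    haveI := hNn
    by_cases hΦ : N ≤ frattini G
    · have hNtop : N ≠ ⊤ := by
        intro h1
        have h2 : frattini G = ⊤ := top_le_iff.1 (h1 ▸ hΦ)
        have h3 : (⊥ : Subgroup G) = ⊤ := frattini_nongenerating (by rw [h2, bot_sup_eq])
        exact bot_ne_top h3
      haveI : Nontrivial (G ⧸ N) := QuotientGroup.nontrivial_iff.2 hNtop
      have hcardlt : Nat.card (G ⧸ N) < n := by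
        rw [← hn, ← Subgroup.index_eq_card]
        have h1 := Subgroup.card_mul_index N
        have h2 : 1 < Nat.card N := (Subgroup.one_lt_card_iff_ne_bot N).2 hNne
        have h3 : 0 < N.index := Nat.pos_of_ne_zero Subgroup.index_ne_zero_of_finite
        nlinarith
      have hπs : Function.Surjective (QuotientGroup.mk' N) := QuotientGroup.mk'_surjective N
      obtain ⟨q, hq, hqd, hQ⟩ := ih _ hcardlt (G ⧸ N) rfl (by
        intro M hM
        have hM' : IsCoatom (M.comap (QuotientGroup.mk' N)) :=
          Subgroup.isCoatom_comap_of_surjective hπs hM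
        have h1 := h _ hM'
        rw [Subgroup.index_comap_of_surjective _ hπs] at h1
        have h2 : Nat.card (M.comap (QuotientGroup.mk' N)) = Nat.card N * Nat.card M :=
          Cfsg.Agent.S0003.card_comap_mk' N M
        rw [h2] at h1
        exact Nat.Coprime.coprime_mul_left h1)
      haveI := Fact.mk hq
      refine ⟨q, hq, ?_, ?_⟩
      · have h1 : Nat.card (G ⧸ N) ∣ Nat.card G := by
          rw [← Subgroup.index_eq_card]; exact Subgroup.index_dvd_card N
        exact hqd.trans h1
      · intro Q
        have h1 : ((Q.mapSurjective hπs : Sylow q (G ⧸ N)) : Subgroup (G ⧸ N)).Normal := hQ _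
        rw [Sylow.coe_mapSurjective] at h1
        haveI hK : ((Q : Subgroup G) ⊔ N).Normal := by
          have h2 : ((Q : Subgroup G).map (QuotientGroup.mk' N)).comap (QuotientGroup.mk' N) =
              (Q : Subgroup G) ⊔ N := by
            rw [Subgroup.comap_map_eq, QuotientGroup.ker_mk']
          rw [← h2]
          exact h1.comap _
        have h3 := Q.normalizer_sup_eq_top' (le_sup_left : (Q : Subgroup G) ≤ (Q : Subgroup G) ⊔ N)
        have h4 : Subgroup.normalizer ((Q : Subgroup G) : Set G) ⊔ frattini G = ⊤ := by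
          rw [eq_top_iff, ← h3]
          exact sup_le le_sup_left (sup_le (le_sup_of_le_left Subgroup.le_normalizer)
            (le_sup_of_le_right hΦ))
        exact Subgroup.normalizer_eq_top_iff.1 (frattini_nongenerating h4)
    · have hex : ∃ M : Subgroup G, IsCoatom M ∧ ¬ N ≤ M := by
        by_contra hall
        push_neg at hall
        apply hΦ
        simp_rw [frattini, Order.radical, le_iInf_iff]
        exact hall
      obtain ⟨M, hM, hNM⟩ := hex
      have hsup : M ⊔ N = ⊤ :=
        hM.2 _ (lt_of_le_of_ne le_sup_left (fun h1 => hNM (h1 ▸ le_sup_right)))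
      have h1 := Cfsg.Agent.S0003.card_sup_mul_card_inf M N
      rw [hsup, Subgroup.card_top] at h1
      have h2 := Subgroup.card_mul_index M
      have hcop := h M hM
      have h3 : M.index * Nat.card ↥(M ⊓ N) = Nat.card N := by
        have hMpos : 0 < Nat.card M := Nat.card_pos
        apply Nat.eq_of_mul_eq_mul_left hMpos
        rw [← mul_assoc, h2, h1]
      obtain ⟨a, ha⟩ := hNp.exists_card_eq
      have h4 : M.index ∣ p ^ a := by rw [← ha, ← h3]; exact dvd_mul_right _ _
      obtain ⟨j, hja, hj⟩ := (Nat.dvd_prime_pow hp).1 h4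
      have hj0 : j ≠ 0 := by
        rintro rfl
        rw [pow_zero, Subgroup.index_eq_one] at hj
        exact hM.1 hj
      have hpM : ¬ p ∣ Nat.card M := by
        intro hd
        rw [hj] at hcop
        have h5 : p ∣ Nat.gcd (Nat.card M) (p ^ j) := Nat.dvd_gcd hd (dvd_pow_self p hj0)
        rw [hcop] at h5
        exact hp.one_lt.ne' (Nat.dvd_one.1 h5)
      have h5 : Nat.card ↥(M ⊓ N) = 1 := by
        have d1 : Nat.card ↥(M ⊓ N) ∣ Nat.card M := Subgroup.card_dvd_of_le inf_le_left
        have d2 : Nat.card ↥(M ⊓ N) ∣ p ^ a := by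
          rw [← ha]; exact Subgroup.card_dvd_of_le inf_le_right
        obtain ⟨i, -, hi⟩ := (Nat.dvd_prime_pow hp).1 d2
        rcases Nat.eq_zero_or_pos i with rfl | hipos
        · simpa using hi
        · exfalso
          apply hpM
          rw [hi] at d1
          exact (dvd_pow_self p hipos.ne').trans d1
      rw [h5, mul_one, hj] at h3
      have h6 : (Nat.card G).factorization p = j := by
        rw [← h2, hj, Nat.factorization_mul Nat.card_pos.ne' (pow_ne_zero _ hp.ne_zero)]
        simp [Nat.factorization_eq_zero_of_not_dvd hpM, hp.factorization_pow]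
      refine ⟨p, hp, ?_, ?_⟩
      · rw [← h2, hj]; exact Dvd.dvd.mul_left (dvd_pow_self p hj0) _
      · intro P
        have hNP : N ≤ (P : Subgroup G) := by
          obtain ⟨g, hg⟩ := Cfsg.Agent.Lib.Helper2.SylowAux.exists_conj_le_sylow P hNp
          intro b hb
          have h7 := hg (g * b * g⁻¹) (hNn.conj_mem b hb g)
          simpa [mul_assoc] using h7
        have hcard : Nat.card (P : Subgroup G) ≤ Nat.card N := by
          rw [Sylow.card_eq_multiplicity, h6, h3]
        have h8 : N = (P : Subgroup G) := Subgroup.eq_of_le_of_card_ge hNP hcard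
        rw [← h8]; exact hNn

theorem result {G : Type*} [Group G] [Finite G] [Group.IsSolvable G] [Nontrivial G] (h : ∀ M : Subgroup G, IsCoatom M → (Nat.card M).Coprime M.index) : ∃ p : ℕ, p.Prime ∧ p ∣ Nat.card G ∧ ∀ P : Sylow p G, (P : Subgroup G).Normal :=
  aux _ G rfl h

end Cfsg.Agent.S0553
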