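import Mathlib
import Cfsg.Statements.S0554
import Cfsg.Agent.S0003

set_option autoImplicit false
open Pointwise
open Cfsg

namespace Cfsg.Agent.S0554

open Cfsg.Agent.S0003

theorem absorb {G : Type*} [Group G] (N : Subgroup G) [hN : N.Normal] : ∀ (t : ℕ) (s : Fin t → G)
    (j : Fin t) (n : G), n ∈ N →
    ∃ n' ∈ N, (List.ofFn s).prod * n = (List.ofFn (Function.update s j (s j * n'))).prod := by
  intro t
  induction t with
  | zero => intro s j; exact j.elim0
  | succ t ih =>
    intro s j n hn
    rw [List.ofFn_succ, List.prod_cons]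
    refine Fin.cases ?_ (fun j' => ?_) j
    · refine ⟨(List.ofFn fun i => s i.succ).prod * n * (List.ofFn fun i => s i.succ).prod⁻¹,
        hN.conj_mem n hn _, ?_⟩
      rw [List.ofFn_succ, List.prod_cons, Function.update_self]
      have : (fun i : Fin t => Function.update s 0 (s 0 * ((List.ofFn fun i => s i.succ).prod * n *
          (List.ofFn fun i => s i.succ).prod⁻¹)) i.succ) = fun i => s i.succ := by
        funext i; rw [Function.update_of_ne (Fin.succ_ne_zero i)]
      rw [this]; group
    · obtain ⟨n', hn', h⟩ := ih (fun i => s i.succ) j' n hn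
      refine ⟨n', hn', ?_⟩
      rw [List.ofFn_succ, List.prod_cons, Function.update_of_ne (Fin.succ_ne_zero j').symm,
        mul_assoc, h]
      congr 3
      funext i
      by_cases hij : i = j'
      · subst hij; simp
      · rw [Function.update_of_ne hij,
          Function.update_of_ne (fun e => hij (Fin.succ_injective _ e))]

universe u in
theorem aux (n : ℕ) : ∀ (G : Type u) [Group G] [Finite G] [Group.IsSolvable G], Nat.card G = n →
    ∀ (t : ℕ) (p : Fin t → ℕ) (_ : ∀ i, (p i).Prime)
    (_ : ∀ q : ℕ, q.Prime → q ∣ Nat.card G → ∃ i, p i = q) (S : (i : Fin t) → Sylow (p i) G),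
    ∀ g : G, ∃ s : (i : Fin t) → G, (∀ i, s i ∈ (S i : Subgroup G)) ∧ g = (List.ofFn s).prod := by
  induction n using Nat.strong_induction_on with
  | _ n ih =>
  intro G _ _ _ hcard t p hp hall S g
  haveI : ∀ i, Fact (p i).Prime := fun i => ⟨hp i⟩
  by_cases htriv : Nontrivial G
  swap
  · rw [not_nontrivial_iff_subsingleton] at htriv
    exact ⟨fun _ => 1, fun i => Subgroup.one_mem _, Subsingleton.elim _ _⟩
  obtain ⟨q, M, hq, hMn, -, hMne, hMq⟩ := exists_normal_abelian_pgroup G
  haveI := hMn
  haveI : Fact q.Prime := ⟨hq⟩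
  have hqdvd : q ∣ Nat.card G := by
    obtain ⟨k, hk⟩ := (IsPGroup.iff_card).1 hMq
    have hk1 : k ≠ 0 := by
      rintro rfl
      rw [pow_zero] at hk
      exact hMne (Subgroup.card_eq_one.1 hk)
    exact (dvd_pow_self q hk1).trans (hk ▸ Subgroup.card_subgroup_dvd_card M)
  obtain ⟨j, hj⟩ := hall q hq hqdvd
  subst hj
  have hMS : M ≤ (S j : Subgroup G) := by
    obtain ⟨P₀, hMP₀⟩ := hMq.exists_le_sylow
    obtain ⟨x, hx⟩ := MulAction.exists_smul_eq G P₀ (S j)
    rw [← hx, Sylow.coe_subgroup_smul]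
    have h1 := (Subgroup.pointwise_smul_le_pointwise_smul_iff (a := MulAut.conj x)).2 hMP₀
    rwa [Subgroup.Normal.conj_smul_eq_self] at h1
  have hqcard : Nat.card (G ⧸ M) < n := by
    rw [← hcard, Subgroup.card_eq_card_quotient_mul_card_subgroup M]
    have h1 : 1 < Nat.card M := (Subgroup.one_lt_card_iff_ne_bot M).2 hMne
    have h2 : 0 < Nat.card (G ⧸ M) := Nat.card_pos
    nlinarith
  have hsurj := QuotientGroup.mk'_surjective M
  obtain ⟨s', hs', hg'⟩ := ih _ hqcard (G ⧸ M) rfl t p hp (by
    intro r hr hrd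
    apply hall r hr
    rw [Subgroup.card_eq_card_quotient_mul_card_subgroup M]
    exact hrd.mul_right _) (fun i => (S i).mapSurjective hsurj) (QuotientGroup.mk' M g)
  have hch : ∀ i, ∃ x ∈ (S i : Subgroup G), QuotientGroup.mk' M x = s' i := by
    intro i
    have := hs' i
    rw [Sylow.coe_mapSurjective] at this
    exact this
  choose s₀ hs₀ hs₀' using hch
  have hprod : QuotientGroup.mk' M (List.ofFn s₀).prod = QuotientGroup.mk' M g := by
    rw [hg', map_list_prod, List.map_ofFn]
    congr 2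
    funext i
    exact hs₀' i
  have hn : (List.ofFn s₀).prod⁻¹ * g ∈ M := by
    rw [← QuotientGroup.ker_mk' M, MonoidHom.mem_ker, map_mul, map_inv, hprod]
    simp
  obtain ⟨n', hn', h⟩ := absorb M t s₀ j _ hn
  refine ⟨Function.update s₀ j (s₀ j * n'), ?_, ?_⟩
  · intro i
    by_cases hij : i = j
    · subst hij
      rw [Function.update_self]
      exact Subgroup.mul_mem _ (hs₀ i) (hMS hn')
    · rw [Function.update_of_ne hij]
      exact hs₀ i
  · rw [← h]; group

theorem result {G : Type*} [Group G] [Finite G] [Group.IsSolvable G] (t : ℕ) (p : Fin t → ℕ) (hp : ∀ i, (p i).Prime) (hinj : Function.Injective p) (hall : ∀ q : ℕ, q.Prime → q ∣ Nat.card G → ∃ i, p i = q) (S : (i : Fin t) → Sylow (p i) G) : ∀ g : G, ∃ s : (i : Fin t) → G, (∀ i, s i ∈ (S i : Subgroup G)) ∧ g = (List.ofFn s).prod :=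
  aux _ G rfl t p hp hall S

end Cfsg.Agent.S0554
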