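import Mathlib
import Cfsg.Statements.S0555

set_option autoImplicit false
open Pointwise
open Cfsg
open scoped commutatorElement

namespace Cfsg.Agent.S0555

/-- A cyclic quotient `A / (B ∩ A)` gives a generator `a ∈ A` with every element of `A`
of the form `a ^ k * u`, `u ∈ B`. -/
theorem cyclic_decomp {G : Type*} [Group G] (A B : Subgroup G) [(B.subgroupOf A).Normal]
    (h : IsCyclic (↥A ⧸ B.subgroupOf A)) :
    ∃ a ∈ A, ∀ x ∈ A, ∃ k : ℤ, (a ^ k)⁻¹ * x ∈ B := by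
  haveI := h
  obtain ⟨c₀, hc₀⟩ := IsCyclic.exists_generator (α := ↥A ⧸ B.subgroupOf A)
  obtain ⟨c, rfl⟩ := QuotientGroup.mk_surjective c₀
  refine ⟨c, c.2, fun x hx => ?_⟩
  obtain ⟨k, hk⟩ := Subgroup.mem_zpowers_iff.1 (hc₀ (QuotientGroup.mk ⟨x, hx⟩))
  refine ⟨k, ?_⟩
  rw [← QuotientGroup.mk_zpow, QuotientGroup.eq] at hk
  have hk' := Subgroup.mem_subgroupOf.1 hk
  simpa using hk'

theorem result {G : Type*} [Group G] (i : ℕ) (hi : 1 ≤ i) (h₁ : IsCyclic (↥(derivedSeries G i) ⧸ (derivedSeries G (i + 1)).subgroupOf (derivedSeries G i))) (h₂ : IsCyclic (↥(derivedSeries G (i + 1)) ⧸ (derivedSeries G (i + 2)).subgroupOf (derivedSeries G (i + 1)))) : derivedSeries G (i + 1) = derivedSeries G (i + 2) := by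
  obtain ⟨j, rfl⟩ : ∃ j, i = j + 1 := ⟨i - 1, by omega⟩
  apply le_antisymm _ (derivedSeries_antitone G (by omega))
  set E := derivedSeries G (j + 1 + 2) with hE
  haveI hEn : E.Normal := derivedSeries_normal G _
  haveI hD1n : (derivedSeries G (j + 1 + 1)).Normal := derivedSeries_normal G _
  obtain ⟨c, hc, hC⟩ := cyclic_decomp _ _ h₂
  obtain ⟨a, ha, hA⟩ := cyclic_decomp _ _ h₁
  set π := QuotientGroup.mk' E with hπ
  have hπ1 : ∀ x : G, x ∈ E → π x = 1 := fun x hx => (QuotientGroup.eq_one_iff x).2 hx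
  set κ := π c with hκ
  have hC' : ∀ y ∈ derivedSeries G (j + 1 + 1), ∃ k : ℤ, π y = κ ^ k := by
    intro y hy
    obtain ⟨k, hk⟩ := hC y hy
    refine ⟨k, ?_⟩
    have h1 := hπ1 _ hk
    rw [map_mul, map_inv, map_zpow, inv_mul_eq_one] at h1
    exact h1.symm
  have hconj : ∀ g ∈ derivedSeries G j, ∃ m : ℤ, π g * κ * (π g)⁻¹ = κ ^ m := by
    intro g hg
    have h1 : g * c * g⁻¹ ∈ derivedSeries G (j + 1 + 1) := hD1n.conj_mem _ hc g
    obtain ⟨m, hm⟩ := hC' _ h1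
    exact ⟨m, by rw [← hm, map_mul, map_mul, map_inv]⟩
  have hcomm : ∀ g ∈ derivedSeries G j, ∀ h ∈ derivedSeries G j, Commute (π ⁅g, h⁆) κ := by
    intro g hg h hh
    obtain ⟨m, hm⟩ := hconj g⁻¹ (inv_mem hg)
    obtain ⟨l, hl⟩ := hconj h⁻¹ (inv_mem hh)
    set p := π g⁻¹ with hp
    set q := π h⁻¹ with hq
    have f1 : p * (q * κ * q⁻¹) * p⁻¹ = κ ^ (m * l) := by
      rw [hl, ← conj_zpow, hm, ← zpow_mul]
    have f2 : q * (p * κ * p⁻¹) * q⁻¹ = κ ^ (m * l) := by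
      rw [hm, ← conj_zpow, hl, ← zpow_mul, mul_comm]
    have f : p * q * κ * q⁻¹ * p⁻¹ = q * p * κ * p⁻¹ * q⁻¹ := by
      have e1 : p * q * κ * q⁻¹ * p⁻¹ = p * (q * κ * q⁻¹) * p⁻¹ := by group
      have e2 : q * p * κ * p⁻¹ * q⁻¹ = q * (p * κ * p⁻¹) * q⁻¹ := by group
      rw [e1, e2, f1, f2]
    have hw : π ⁅g, h⁆ = p⁻¹ * q⁻¹ * p * q := by
      rw [hp, hq, commutatorElement_def]
      simp
    show π ⁅g, h⁆ * κ = κ * π ⁅g, h⁆
    rw [hw]
    calc p⁻¹ * q⁻¹ * p * q * κ = p⁻¹ * q⁻¹ * (p * q * κ * q⁻¹ * p⁻¹) * p * q := by group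
      _ = p⁻¹ * q⁻¹ * (q * p * κ * p⁻¹ * q⁻¹) * p * q := by rw [f]
      _ = κ * (p⁻¹ * q⁻¹ * p * q) := by group
  have hle : derivedSeries G (j + 1) ≤ (Subgroup.centralizer {κ}).comap π := by
    rw [derivedSeries_succ, Subgroup.commutator_le]
    intro g hg h hh
    rw [Subgroup.mem_comap, Subgroup.mem_centralizer_iff]
    intro z hz
    rw [Set.mem_singleton_iff] at hz
    rw [hz]
    exact (hcomm g hg h hh).eq.symm
  have hcomm2 : ∀ x ∈ derivedSeries G (j + 1), Commute (π x) κ := by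
    intro x hx
    have h1 := hle hx
    rw [Subgroup.mem_comap, Subgroup.mem_centralizer_iff] at h1
    exact (h1 κ rfl).symm
  have hα : Commute (π a) κ := hcomm2 a ha
  have hform : ∀ x ∈ derivedSeries G (j + 1), ∃ k s : ℤ, π x = (π a) ^ k * κ ^ s := by
    intro x hx
    obtain ⟨k, hk⟩ := hA x hx
    obtain ⟨s, hs⟩ := hC' _ hk
    refine ⟨k, s, ?_⟩
    rw [← hs, map_mul, map_inv, map_zpow, mul_inv_cancel_left]
  show derivedSeries G (j + 1 + 1) ≤ E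
  rw [derivedSeries_succ, Subgroup.commutator_le]
  intro x hx y hy
  rw [← QuotientGroup.eq_one_iff (N := E)]
  show π ⁅x, y⁆ = 1
  rw [map_commutatorElement, commutatorElement_eq_one_iff_commute]
  obtain ⟨k, s, e1⟩ := hform x hx
  obtain ⟨l, t, e2⟩ := hform y hy
  rw [e1, e2]
  exact Commute.mul_left
    (Commute.mul_right ((Commute.refl (π a)).zpow_zpow k l) (hα.zpow_zpow k t))
    (Commute.mul_right (hα.symm.zpow_zpow s l) ((Commute.refl κ).zpow_zpow s t))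

end Cfsg.Agent.S0555
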