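import Mathlib
import Cfsg.Statements.S0556
import Cfsg.Agent.S0035
import Cfsg.Agent.S0034
import Cfsg.Agent.S0019
import Cfsg.Agent.S0003
import Cfsg.Agent.S0004
import Cfsg.Agent.S0538
import Cfsg.Agent.S0539

set_option autoImplicit false
open Pointwise
open Cfsg
open scoped commutatorElement

namespace Cfsg.Agent.S0556

open Cfsg.Agent.S0538 (mem_normalizer_iff_smul)

theorem d3_of_d2_le_center {G : Type*} [Group G] (h : derivedSeries G 2 ≤ Subgroup.center G) :
    derivedSeries G 3 = ⊥ := by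
  rw [eq_bot_iff]
  show ⁅derivedSeries G 2, derivedSeries G 2⁆ ≤ ⊥
  rw [Subgroup.commutator_le]
  intro x hx y _
  rw [Subgroup.mem_bot, commutatorElement_eq_one_iff_commute]
  exact (Subgroup.mem_center_iff.1 (h hx) y).symm

theorem comm_le_of_supp {X : Type*} [Group X] (K B : Subgroup X) [K.Normal] (hsup : K ⊔ B = ⊤)
    (hB : ∀ a ∈ B, ∀ b ∈ B, a * b = b * a) : commutator X ≤ K := by
  rw [commutator_def, Subgroup.commutator_le]
  intro x _ y _
  have hx : x ∈ K ⊔ B := hsup ▸ Subgroup.mem_top x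
  have hy : y ∈ K ⊔ B := hsup ▸ Subgroup.mem_top y
  rw [← SetLike.mem_coe, Subgroup.normal_mul] at hx hy
  obtain ⟨k1, hk1, a1, ha1, e1⟩ := hx
  obtain ⟨k2, hk2, a2, ha2, e2⟩ := hy
  have e1' : x = k1 * a1 := e1.symm
  have e2' : y = k2 * a2 := e2.symm
  subst e1' e2'
  have key : (QuotientGroup.mk' K) ⁅k1 * a1, k2 * a2⁆ = 1 := by
    rw [map_commutatorElement, map_mul, map_mul]
    have e1 : (QuotientGroup.mk' K) k1 = 1 := (QuotientGroup.eq_one_iff k1).2 hk1
    have e2 : (QuotientGroup.mk' K) k2 = 1 := (QuotientGroup.eq_one_iff k2).2 hk2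
    rw [e1, e2, one_mul, one_mul, ← map_commutatorElement]
    have : ⁅a1, a2⁆ = 1 := commutatorElement_eq_one_iff_commute.2 (hB a1 ha1 a2 ha2)
    rw [this, map_one]
  exact (QuotientGroup.eq_one_iff _).1 key

theorem invariant_of_fpf {X : Type*} [Group X] [Finite X] (K B R : Subgroup X) [hKn : K.Normal]
    (hBc : ∀ a ∈ B, ∀ b ∈ B, a * b = b * a)
    (hfpf : ∀ b ∈ B, b ≠ 1 → ∀ k ∈ K, k * b = b * k → k = 1)
    (hFr : ∀ x : X, ∃ n ∈ Subgroup.normalizer (R : Set X), ∃ k ∈ K, x = n * k)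
    (a : X) (haB : a ∈ B) (ha1 : a ≠ 1) (haN : a ∈ Subgroup.normalizer (R : Set X)) :
    B ≤ Subgroup.normalizer (R : Set X) := by
  intro b hb
  obtain ⟨n, hn, k, hk, e⟩ := hFr b⁻¹
  have hb' : b = k⁻¹ * n⁻¹ := by rw [← mul_inv_rev, ← e, inv_inv]
  have hn' : MulAut.conj n⁻¹ • R = R := (mem_normalizer_iff_smul _ R).1 (Subgroup.inv_mem _ hn)
  have hbR : MulAut.conj b • R = MulAut.conj k⁻¹ • R := by
    rw [hb', map_mul, mul_smul, hn']
  have haR : MulAut.conj a • R = R := (mem_normalizer_iff_smul a R).1 haN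
  have h1 : MulAut.conj a • MulAut.conj b • R = MulAut.conj b • R := by
    rw [smul_smul, ← map_mul, hBc a haB b hb, map_mul, mul_smul, haR]
  rw [hbR] at h1
  have h2 : MulAut.conj (k * a * k⁻¹) • R = R := by
    have e2 : MulAut.conj (k * a * k⁻¹) • R
        = MulAut.conj k • (MulAut.conj a • MulAut.conj k⁻¹ • R) := by
      rw [smul_smul, smul_smul, ← map_mul, ← map_mul, mul_assoc]
    rw [e2, h1, smul_smul, ← map_mul, mul_inv_cancel, map_one, one_smul]
  have h3 : k * a * k⁻¹ ∈ Subgroup.normalizer (R : Set X) := (mem_normalizer_iff_smul _ R).2 h2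
  have hmemM : ∀ n : X, n ∈ Subgroup.normalizer (R : Set X) ⊓ K →
      a⁻¹ * n * a * n⁻¹ ∈ Subgroup.normalizer (R : Set X) ⊓ K := by
    intro n hn
    refine Subgroup.mem_inf.2 ⟨?_, ?_⟩
    · exact Subgroup.mul_mem _ (Subgroup.mul_mem _ (Subgroup.mul_mem _ (Subgroup.inv_mem _ haN)
        (Subgroup.mem_inf.1 hn).1) haN) (Subgroup.inv_mem _ (Subgroup.mem_inf.1 hn).1)
    · have h := hKn.conj_mem _ (Subgroup.mem_inf.1 hn).2 a⁻¹
      rw [inv_inv] at h
      exact Subgroup.mul_mem _ h (Subgroup.inv_mem _ (Subgroup.mem_inf.1 hn).2)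
  have hcomm_of : ∀ n m : X, n ∈ K → m ∈ K → a⁻¹ * n * a * n⁻¹ = a⁻¹ * m * a * m⁻¹ → n = m := by
    intro n m hn hm h4
    have h6 : n * a * n⁻¹ = m * a * m⁻¹ := by
      calc n * a * n⁻¹ = a * (a⁻¹ * n * a * n⁻¹) := by group
        _ = a * (a⁻¹ * m * a * m⁻¹) := by rw [h4]
        _ = m * a * m⁻¹ := by group
    have h5 : (m⁻¹ * n) * a = a * (m⁻¹ * n) := by
      calc m⁻¹ * n * a = m⁻¹ * (n * a * n⁻¹) * n := by group
        _ = m⁻¹ * (m * a * m⁻¹) * n := by rw [h6]
        _ = a * (m⁻¹ * n) := by group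
    have h7 := hfpf a haB ha1 _ (Subgroup.mul_mem _ (Subgroup.inv_mem _ hm) hn) h5
    have : n = m * (m⁻¹ * n) := by group
    rw [this, h7, mul_one]
  let φ : ↥(Subgroup.normalizer (R : Set X) ⊓ K) → ↥(Subgroup.normalizer (R : Set X) ⊓ K) :=
    fun n => ⟨a⁻¹ * (n : X) * a * (n : X)⁻¹, hmemM _ n.2⟩
  have hφ : Function.Injective φ := by
    intro n m hnm
    have h4 : a⁻¹ * (n : X) * a * (n : X)⁻¹ = a⁻¹ * (m : X) * a * (m : X)⁻¹ :=
      congrArg Subtype.val hnm
    exact Subtype.ext (hcomm_of _ _ (Subgroup.mem_inf.1 n.2).2 (Subgroup.mem_inf.1 m.2).2 h4)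
  have hφs := Finite.surjective_of_injective hφ
  have hc : a⁻¹ * k * a * k⁻¹ ∈ Subgroup.normalizer (R : Set X) ⊓ K := by
    refine Subgroup.mem_inf.2 ⟨?_, ?_⟩
    · have : a⁻¹ * k * a * k⁻¹ = a⁻¹ * (k * a * k⁻¹) := by group
      rw [this]; exact Subgroup.mul_mem _ (Subgroup.inv_mem _ haN) h3
    · have h := hKn.conj_mem _ hk a⁻¹
      rw [inv_inv] at h
      exact Subgroup.mul_mem _ h (Subgroup.inv_mem _ hk)
  obtain ⟨n', hn2⟩ := hφs ⟨_, hc⟩
  have h8 : a⁻¹ * (n' : X) * a * (n' : X)⁻¹ = a⁻¹ * k * a * k⁻¹ := congrArg Subtype.val hn2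
  have hkn : (n' : X) = k := hcomm_of _ _ (Subgroup.mem_inf.1 n'.2).2 hk h8
  have hkN : k ∈ Subgroup.normalizer (R : Set X) := hkn ▸ (Subgroup.mem_inf.1 n'.2).1
  rw [mem_normalizer_iff_smul, hbR]
  exact (mem_normalizer_iff_smul _ R).1 (Subgroup.inv_mem _ hkN)

theorem result {G : Type*} [Group G] [Finite G] (A : Subgroup G) (hA : IsCoatom A) [IsMulCommutative A] : derivedSeries G 3 = ⊥ := by
  have hAc : ∀ a ∈ A, ∀ b ∈ A, a * b = b * a := fun a ha b hb => setLike_mul_comm ha hb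
  have hsupg : ∀ g : G, g ∉ A → ∀ L : Subgroup G, A ≤ L → g ∈ L → L = ⊤ := fun g hg L hAL hgL =>
    hA.2 L (SetLike.lt_iff_le_and_exists.2 ⟨hAL, g, hgL, hg⟩)
  obtain ⟨g0, hg0⟩ : ∃ g : G, g ∉ A := by
    by_contra h
    exact hA.1 (eq_top_iff.2 (fun x _ => by_contra (fun hx => h ⟨x, hx⟩)))
  by_cases hAn : A.Normal
  · haveI := hAn
    have h1 : commutator G ≤ A := comm_le_of_supp A (Subgroup.zpowers g0)
      (hsupg g0 hg0 _ le_sup_left (Subgroup.mem_sup_right (Subgroup.mem_zpowers g0)))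
      (fun a ha b hb => by
        obtain ⟨i, rfl⟩ := Subgroup.mem_zpowers_iff.1 ha
        obtain ⟨j, rfl⟩ := Subgroup.mem_zpowers_iff.1 hb
        rw [← zpow_add, ← zpow_add, add_comm])
    apply d3_of_d2_le_center
    have h2 : derivedSeries G 2 = ⊥ := by
      rw [eq_bot_iff]
      show ⁅derivedSeries G 1, derivedSeries G 1⁆ ≤ ⊥
      rw [derivedSeries_one, Subgroup.commutator_le]
      intro x hx y hy
      rw [Subgroup.mem_bot, commutatorElement_eq_one_iff_commute]
      exact hAc x (h1 hx) y (h1 hy)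
    rw [h2]; exact bot_le
  have hNA : Subgroup.normalizer (A : Set G) = A := by
    by_contra hne
    have hlt : A < Subgroup.normalizer (A : Set G) :=
      lt_of_le_of_ne Subgroup.le_normalizer (Ne.symm hne)
    exact hAn (Subgroup.normalizer_eq_top_iff.1 (hA.2 _ hlt))
  have hZA : Subgroup.center G ≤ A := by
    intro z hz
    have h1 : z ∈ Subgroup.normalizer (A : Set G) := by
      rw [Subgroup.mem_normalizer_iff]
      intro h
      have e : z * h * z⁻¹ = h := by
        rw [← Subgroup.mem_center_iff.1 hz h]; group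
      rw [e]
    rwa [hNA] at h1
  have hconj_ne : ∀ g : G, g ∉ A → A ⊔ MulAut.conj g • A = ⊤ := by
    intro g hg
    by_contra hne
    have hle : MulAut.conj g • A ≤ A := by
      by_contra hnle
      obtain ⟨y, hy, hyA⟩ := SetLike.not_le_iff_exists.1 hnle
      exact hne (hsupg y hyA _ le_sup_left (Subgroup.mem_sup_right hy))
    have h1 := Cfsg.Agent.S0539.smul_eq_of_le g A hle
    have hgN : g ∈ Subgroup.normalizer (A : Set G) := (mem_normalizer_iff_smul g A).2 h1
    rw [hNA] at hgN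
    exact hg hgN
  have hinter : ∀ g : G, g ∉ A → A ⊓ MulAut.conj g • A ≤ Subgroup.center G := by
    intro g hg x hx
    obtain ⟨hxA, hxg⟩ := Subgroup.mem_inf.1 hx
    have hcent : A ⊔ MulAut.conj g • A ≤ Subgroup.centralizer {x} := by
      apply sup_le
      · intro a ha
        rw [Subgroup.mem_centralizer_iff]
        intro h hh
        rw [Set.mem_singleton_iff.1 hh]
        exact hAc x hxA a ha
      · rintro _ ⟨a, ha, rfl⟩
        obtain ⟨b, hb, rfl⟩ := hxg
        rw [Subgroup.mem_centralizer_iff]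
        intro h hh
        rw [Set.mem_singleton_iff.1 hh]
        show g * b * g⁻¹ * (g * a * g⁻¹) = g * a * g⁻¹ * (g * b * g⁻¹)
        have h1 := hAc b hb a ha
        calc g * b * g⁻¹ * (g * a * g⁻¹) = g * (b * a) * g⁻¹ := by group
          _ = g * (a * b) * g⁻¹ := by rw [h1]
          _ = _ := by group
    rw [hconj_ne g hg] at hcent
    rw [Subgroup.mem_center_iff]
    intro y
    have h1 := hcent (Subgroup.mem_top y)
    rw [Subgroup.mem_centralizer_iff] at h1
    exact (h1 x rfl).symm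
  -- the quotient
  set π := QuotientGroup.mk' (Subgroup.center G) with hπ
  have hπs : Function.Surjective π := QuotientGroup.mk'_surjective _
  have hker : π.ker = Subgroup.center G := QuotientGroup.ker_mk' _
  have hcomapA : (A.map π).comap π = A := by
    rw [Subgroup.comap_map_eq, hker, sup_of_le_left hZA]
  have hFrob : Cfsg.IsFrobeniusComplement (A.map π) := by
    refine ⟨?_, ?_, ?_⟩
    · intro h
      have hAZ : A ≤ Subgroup.center G := by
        rw [← hker]; exact (Subgroup.map_eq_bot_iff _).1 h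
      have hAeq : A = Subgroup.center G := le_antisymm hAZ hZA
      exact hAn (hAeq ▸ (inferInstance : (Subgroup.center G).Normal))
    · intro h
      have h1 : (A.map π).comap π = ⊤ := by rw [h, Subgroup.comap_top]
      rw [hcomapA] at h1
      exact hA.1 h1
    · intro gq hgq
      obtain ⟨g, rfl⟩ := hπs gq
      have hg : g ∉ A := fun hgA => hgq (Subgroup.mem_map_of_mem π hgA)
      rw [← Cfsg.Agent.S0004.map_conj_smul, eq_bot_iff]
      rintro _ ⟨⟨a, ha, rfl⟩, ⟨b, hb, hab⟩⟩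
      have h1 : a⁻¹ * b ∈ Subgroup.center G := by
        rw [← hker, MonoidHom.mem_ker, map_mul, map_inv, hab, inv_mul_cancel]
      have h2 : a ∈ MulAut.conj g • A := by
        have hzg : (a⁻¹ * b)⁻¹ ∈ MulAut.conj g • A := by
          have hz' := Subgroup.inv_mem _ h1
          refine ⟨(a⁻¹ * b)⁻¹, hZA hz', ?_⟩
          show g * (a⁻¹ * b)⁻¹ * g⁻¹ = (a⁻¹ * b)⁻¹
          rw [Subgroup.mem_center_iff.1 hz' g]; group
        have e : a = b * (a⁻¹ * b)⁻¹ := by group
        rw [e]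
        exact Subgroup.mul_mem _ hb hzg
      have h3 : a ∈ Subgroup.center G := hinter g hg (Subgroup.mem_inf.2 ⟨ha, h2⟩)
      rw [Subgroup.mem_bot]
      rw [← hker] at h3
      exact h3
  obtain ⟨K, -, hKn, hKc⟩ := Cfsg.Agent.S0035.result (A.map π) hFrob
  obtain ⟨-, hmod⟩ := Cfsg.Agent.S0034.result (A.map π) hFrob
  haveI := hKn
  have hKcard : Nat.card K = (A.map π).index := hKc.index_eq_card.symm
  have hcop : (Nat.card K).Coprime (Nat.card ↥(A.map π)) := by
    rw [hKcard]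
    have h1 : Nat.ModEq (Nat.card ↥(A.map π)) (A.map π).index 1 := hmod
    have h2 := h1.gcd_eq
    rw [Nat.Coprime, h2, Nat.gcd_one_left]
  have hdisj : K ⊓ A.map π = ⊥ := disjoint_iff.1 hKc.disjoint
  have hsup : K ⊔ A.map π = ⊤ := hKc.sup_eq_top
  have hcardQ : Nat.card K * Nat.card ↥(A.map π) = Nat.card (G ⧸ Subgroup.center G) :=
    hKc.card_mul_card
  have hBc : ∀ a ∈ A.map π, ∀ b ∈ A.map π, a * b = b * a := by
    rintro _ ⟨a, ha, rfl⟩ _ ⟨b, hb, rfl⟩
    rw [← map_mul, ← map_mul, hAc a ha b hb]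
  have hfpf : ∀ b ∈ A.map π, b ≠ 1 → ∀ k ∈ K, k * b = b * k → k = 1 := by
    intro b hb hb1 k hk hkb
    by_contra hk1
    have hkA : k ∉ A.map π := fun h => hk1 (by
      have h0 : k ∈ K ⊓ A.map π := Subgroup.mem_inf.2 ⟨hk, h⟩
      rwa [hdisj, Subgroup.mem_bot] at h0)
    have h1 := hFrob.2.2 k hkA
    have h2 : b ∈ A.map π ⊓ MulAut.conj k • A.map π := by
      refine Subgroup.mem_inf.2 ⟨hb, ⟨b, hb, ?_⟩⟩
      show k * b * k⁻¹ = b
      rw [hkb]; group
    rw [h1, Subgroup.mem_bot] at h2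
    exact hb1 h2
  have hmaxQ : ∀ L : Subgroup (G ⧸ Subgroup.center G), A.map π ≤ L → L ≠ A.map π → L = ⊤ := by
    intro L hL hne
    have h1 : A ≤ L.comap π := le_of_eq_of_le hcomapA.symm (Subgroup.comap_mono hL)
    have h2 : L.comap π ≠ A := by
      intro h
      apply hne
      rw [← Subgroup.map_comap_eq_self_of_surjective hπs L, h]
    have h3 := hA.2 _ (lt_of_le_of_ne h1 (Ne.symm h2))
    rw [← Subgroup.map_comap_eq_self_of_surjective hπs L, h3, Subgroup.map_top_of_surjective π hπs]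
  have hmin : ∀ X : Subgroup (G ⧸ Subgroup.center G), X.Normal → X ≤ K → X ≠ ⊥ → X = K := by
    intro X hXn hXK hX1
    haveI := hXn
    have h1 : A.map π ⊔ X = ⊤ := by
      apply hmaxQ _ le_sup_left
      intro h
      have hXA : X ≤ A.map π := le_sup_right.trans h.le
      apply hX1
      rw [eq_bot_iff, ← hdisj]
      exact le_inf hXK hXA
    have h2 := Cfsg.Agent.S0003.card_sup_mul_card_inf (A.map π) X
    rw [h1, Subgroup.card_top] at h2
    have h3 : A.map π ⊓ X = ⊥ := by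
      rw [eq_bot_iff, ← hdisj]; exact le_inf (inf_le_right.trans hXK) inf_le_left
    rw [h3, Subgroup.card_bot, mul_one, ← hcardQ, mul_comm] at h2
    have h4 : Nat.card K = Nat.card X := Nat.eq_of_mul_eq_mul_left Nat.card_pos h2
    exact Subgroup.eq_of_le_of_card_ge hXK h4.le
  have hK1 : K ≠ ⊥ := by
    intro h
    rw [h, Subgroup.card_bot, one_mul] at hcardQ
    exact hFrob.2.1 (Subgroup.eq_top_of_card_eq _ hcardQ)
  have hKc1 : Nat.card K ≠ 1 := fun h => hK1 (Subgroup.card_eq_one.1 h)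
  obtain ⟨r, hr, hrK⟩ := Nat.exists_prime_and_dvd hKc1
  haveI : Fact r.Prime := ⟨hr⟩
  obtain ⟨R₀⟩ : Nonempty (Sylow r K) := inferInstance
  have hFr := Sylow.normalizer_sup_eq_top R₀
  set R : Subgroup (G ⧸ Subgroup.center G) := (R₀ : Subgroup K).map K.subtype with hR
  have hRK : R ≤ K := Subgroup.map_subtype_le _
  have hR1 : R ≠ ⊥ := by
    intro h
    exact R₀.ne_bot_of_dvd_card hrK
      ((Subgroup.map_eq_bot_iff_of_injective _ (Subgroup.subtype_injective K)).1 h)
  have hB1 : Nat.card ↥(A.map π) ≠ 1 := fun h => hFrob.1 (Subgroup.card_eq_one.1 h)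
  obtain ⟨q, hq, hqB⟩ := Nat.exists_prime_and_dvd hB1
  haveI : Fact q.Prime := ⟨hq⟩
  obtain ⟨a0, ha0⟩ := exists_prime_orderOf_dvd_card' (G := ↥(A.map π)) q hqB
  have haord : orderOf (a0 : G ⧸ Subgroup.center G) = q := by rw [Subgroup.orderOf_coe, ha0]
  have ha1 : (a0 : G ⧸ Subgroup.center G) ≠ 1 := by
    intro h
    rw [h, orderOf_one] at haord
    exact hq.one_lt.ne haord
  have haq : IsPGroup q (Subgroup.zpowers (a0 : G ⧸ Subgroup.center G)) := by
    apply IsPGroup.of_card (n := 1)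
    rw [Nat.card_zpowers, haord, pow_one]
  have hidx : (Subgroup.normalizer (R : Set (G ⧸ Subgroup.center G))).index ∣ Nat.card K := by
    have h1 := Cfsg.Agent.S0003.card_sup_mul_card_inf
      (Subgroup.normalizer (R : Set (G ⧸ Subgroup.center G))) K
    rw [hFr, Subgroup.card_top] at h1
    have h2 := Subgroup.card_mul_index (Subgroup.normalizer (R : Set (G ⧸ Subgroup.center G)))
    rw [← h2, mul_assoc] at h1
    have h3 := Nat.eq_of_mul_eq_mul_left Nat.card_pos h1
    exact Dvd.intro _ h3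
  have hqidx : ¬ q ∣ (Subgroup.normalizer (R : Set (G ⧸ Subgroup.center G))).index := by
    intro h
    have h1 : q ∣ Nat.card K := h.trans hidx
    exact hq.one_lt.ne' (Nat.eq_one_of_dvd_coprimes hcop h1 hqB)
  obtain ⟨g, hg⟩ := Cfsg.Agent.S0019.exists_conj_le
    (Subgroup.zpowers (a0 : G ⧸ Subgroup.center G))
    (Subgroup.normalizer (R : Set (G ⧸ Subgroup.center G))) haq hqidx
  have hga := hg _ (Subgroup.mem_zpowers _)
  have haR' : (a0 : G ⧸ Subgroup.center G) ∈
      Subgroup.normalizer ((MulAut.conj g • R : Subgroup _) : Set (G ⧸ Subgroup.center G)) := by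
    rw [mem_normalizer_iff_smul, smul_smul, ← map_mul]
    have e : (a0 : G ⧸ Subgroup.center G) * g = g * (g⁻¹ * (a0 : G ⧸ Subgroup.center G) * g) := by
      group
    rw [e, map_mul, mul_smul, (mem_normalizer_iff_smul _ R).1 hga]
  have hR'K : MulAut.conj g • R ≤ K := by
    have h1 : MulAut.conj g • R ≤ MulAut.conj g • K :=
      Subgroup.pointwise_smul_le_pointwise_smul_iff.2 hRK
    rwa [Subgroup.Normal.conj_smul_eq_self g K] at h1
  have hR'1 : MulAut.conj g • R ≠ ⊥ := by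
    intro h
    apply hR1
    have h1 : Nat.card ↥(MulAut.conj g • R) = 1 := by rw [h, Subgroup.card_bot]
    rw [Cfsg.Agent.S0004.card_conj_smul] at h1
    exact Subgroup.card_eq_one.1 h1
  have hFr' : ∀ x : G ⧸ Subgroup.center G, ∃ n ∈ Subgroup.normalizer
      ((MulAut.conj g • R : Subgroup _) : Set (G ⧸ Subgroup.center G)), ∃ k ∈ K, x = n * k := by
    intro x
    have hx : g⁻¹ * x * g ∈ Subgroup.normalizer (R : Set (G ⧸ Subgroup.center G)) ⊔ K := by
      rw [hFr]; exact Subgroup.mem_top _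
    rw [← SetLike.mem_coe, Subgroup.mul_normal] at hx
    obtain ⟨n, hn, k, hk, e⟩ := hx
    refine ⟨g * n * g⁻¹, ?_, g * k * g⁻¹, hKn.conj_mem k hk g, ?_⟩
    · rw [mem_normalizer_iff_smul, smul_smul, ← map_mul]
      have e2 : g * n * g⁻¹ * g = g * n := by group
      rw [e2, map_mul, mul_smul, (mem_normalizer_iff_smul _ R).1 hn]
    · have e3 : n * k = g⁻¹ * x * g := e
      calc x = g * (g⁻¹ * x * g) * g⁻¹ := by group
        _ = g * (n * k) * g⁻¹ := by rw [e3]
        _ = g * n * g⁻¹ * (g * k * g⁻¹) := by group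
  have hBN : A.map π ≤ Subgroup.normalizer
      ((MulAut.conj g • R : Subgroup _) : Set (G ⧸ Subgroup.center G)) :=
    invariant_of_fpf K (A.map π) (MulAut.conj g • R) hBc hfpf hFr' a0 a0.2 ha1 haR'
  have hsupR : A.map π ⊔ MulAut.conj g • R = ⊤ := by
    apply hmaxQ _ le_sup_left
    intro h
    have hXA : MulAut.conj g • R ≤ A.map π := le_sup_right.trans h.le
    apply hR'1
    rw [eq_bot_iff, ← hdisj]
    exact le_inf hR'K hXA
  have hR'n : (MulAut.conj g • R).Normal := by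
    rw [← Subgroup.normalizer_eq_top_iff, eq_top_iff, ← hsupR]
    exact sup_le hBN Subgroup.le_normalizer
  have hKR : MulAut.conj g • R = K := hmin _ hR'n hR'K hR'1
  have hKr : IsPGroup r K := by
    have h1 : IsPGroup r R := R₀.isPGroup'.map _
    have h2 : IsPGroup r ↥(MulAut.conj g • R) := by
      rw [Subgroup.pointwise_smul_def]; exact h1.map _
    rwa [hKR] at h2
  have hKab : ⁅K, K⁆ = ⊥ := by
    by_contra hne
    have h1 : ⁅K, K⁆ ≤ K := Subgroup.commutator_le_left K K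
    have h2 := hmin ⁅K, K⁆ inferInstance h1 hne
    haveI : Nontrivial K := (Subgroup.nontrivial_iff_ne_bot K).2 hK1
    haveI : Group.IsNilpotent K := hKr.isNilpotent
    have h3 := IsSolvable.commutator_lt_top_of_nontrivial K
    have h4 : (commutator K).map K.subtype = ⁅K, K⁆ := by
      rw [commutator_def, Subgroup.map_commutator, ← MonoidHom.range_eq_map, Subgroup.range_subtype]
    have h5 : (commutator K).map K.subtype = (⊤ : Subgroup K).map K.subtype := by
      rw [h4, h2, ← MonoidHom.range_eq_map, Subgroup.range_subtype]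
    have h6 := Subgroup.map_injective (Subgroup.subtype_injective K) h5
    exact h3.ne h6
  have hQ1 : commutator (G ⧸ Subgroup.center G) ≤ K := comm_le_of_supp K (A.map π) hsup hBc
  have hQ2 : derivedSeries (G ⧸ Subgroup.center G) 2 = ⊥ := by
    rw [eq_bot_iff, ← hKab]
    show ⁅derivedSeries _ 1, derivedSeries _ 1⁆ ≤ ⁅K, K⁆
    rw [derivedSeries_one]
    exact Subgroup.commutator_mono hQ1 hQ1
  apply d3_of_d2_le_center
  have h := map_derivedSeries_eq hπs 2
  rw [hQ2] at h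
  exact le_of_le_of_eq ((Subgroup.map_eq_bot_iff _).1 h) hker

end Cfsg.Agent.S0556
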