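import Mathlib
import Cfsg.Statements.S0558
import Cfsg.Agent.S0557
import Cfsg.Agent.S0003
import Cfsg.Agent.Lib.Helper2.Local

set_option autoImplicit false
open Pointwise
open Cfsg
open scoped commutatorElement

namespace Cfsg.Agent.S0558

open Cfsg.Agent.S0557 Cfsg.Agent.S0003

theorem orderOf_dvd_card_of_mem {G : Type*} [Group G] (K : Subgroup G) (x : G) (hx : x ∈ K) :
    orderOf x ∣ Nat.card K := by
  have := orderOf_dvd_natCard (⟨x, hx⟩ : K)
  rwa [Subgroup.orderOf_mk] at this

theorem result {G : Type*} [Group G] [Finite G] (H : Subgroup G) (hnot : ∀ p : ℕ, p.Prime → ∀ P : Sylow p G, (P : Subgroup G) ≠ H) (hnorm : ∀ p : ℕ, p.Prime → p ∣ Nat.card H → ∀ P : Sylow p H, Subgroup.normalizer (((P : Subgroup H).map H.subtype : Subgroup G) : Set G) = H) : ∃ N : Subgroup G, N.Normal ∧ Subgroup.IsComplement' N H := by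
  classical
  have hH0 : Nat.card H ≠ 0 := Nat.card_pos.ne'
  -- Step 1: Sylow subgroups of H are Sylow in G
  have step1 : ∀ (p : ℕ) [Fact p.Prime], p ∣ Nat.card H → ∀ P : Sylow p H,
      ¬ p ∣ ((P : Subgroup H).map H.subtype).index := by
    intro p _ hp P
    have hcard : Nat.card ((P : Subgroup H).map H.subtype) = p ^ (Nat.card H).factorization p := by
      rw [Subgroup.card_map_of_injective (Subgroup.subtype_injective H)]
      exact P.card_eq_multiplicity
    have hmod := Sylow.card_quotient_normalizer_modEq_card_quotient hcard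
    have hn := hnorm p Fact.out hp P
    have h1 : Nat.card (Subgroup.normalizer (((P : Subgroup H).map H.subtype : Subgroup G) : Set G) ⧸
        ((P : Subgroup H).map H.subtype).comap
        (Subgroup.normalizer (((P : Subgroup H).map H.subtype : Subgroup G) : Set G)).subtype) =
        ((P : Subgroup H).map H.subtype).relIndex
        (Subgroup.normalizer (((P : Subgroup H).map H.subtype : Subgroup G) : Set G)) := rfl
    rw [h1, hn] at hmod
    have h2 : ((P : Subgroup H).map H.subtype).relIndex H = (P : Subgroup H).index := by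
      unfold Subgroup.relIndex Subgroup.subgroupOf
      rw [Subgroup.comap_map_eq_self_of_injective (Subgroup.subtype_injective H)]
    rw [h2] at hmod
    intro hdvd
    have h3 : Nat.card (G ⧸ (P : Subgroup H).map H.subtype) =
        ((P : Subgroup H).map H.subtype).index := rfl
    rw [h3] at hmod
    exact P.not_dvd_index (Nat.modEq_zero_iff_dvd.1 (hmod.trans (Nat.modEq_zero_iff_dvd.2 hdvd)))
  -- a second prime
  have hsecond : ∀ (p : ℕ) [Fact p.Prime], p ∣ Nat.card H → ∃ q : ℕ, q.Prime ∧ q ≠ p ∧
      q ∣ Nat.card H := by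
    intro p _ hp
    by_contra hcon
    push Not at hcon
    have hpow := Nat.eq_prime_pow_of_unique_prime_dvd hH0 (p := p) (fun {d} hd hdd => by
      by_contra hne
      exact hcon d hd hne hdd)
    obtain ⟨P⟩ : Nonempty (Sylow p H) := inferInstance
    have hPc := P.card_eq_multiplicity
    obtain ⟨k, hk⟩ : ∃ k, Nat.card H = p ^ k := ⟨_, hpow⟩
    have hPtop : (P : Subgroup H) = ⊤ := by
      apply Subgroup.eq_top_of_card_eq
      rw [hPc, hk, Nat.Prime.factorization_pow Fact.out, Finsupp.single_eq_same]
    have hidx := step1 p hp P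
    have hPp : IsPGroup p ((P : Subgroup H).map H.subtype) := P.2.map _
    have hmap : (P : Subgroup H).map H.subtype = H := by
      rw [hPtop, ← MonoidHom.range_eq_map, Subgroup.range_subtype]
    have := hnot p Fact.out (hPp.toSylow hidx)
    rw [IsPGroup.toSylow_coe] at this
    exact this hmap
  -- H is nilpotent
  have hnil : Group.IsNilpotent H := by
    apply ((Group.isNilpotent_of_finite_tfae (G := H)).out 0 3).mpr
    intro p hp P
    by_cases hpd : p ∣ Nat.card H
    · have hn := hnorm p hp.out hpd P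
      constructor
      intro x hx g
      have hg : (g : G) ∈ Subgroup.normalizer
          (((P : Subgroup H).map H.subtype : Subgroup G) : Set G) := by rw [hn]; exact g.2
      have h1 := (Subgroup.mem_normalizer_iff.1 hg (x : G)).1 ⟨x, hx, rfl⟩
      obtain ⟨y, hy, hyx⟩ := h1
      have h2 : y = g * x * g⁻¹ := Subtype.ext (by simpa using hyx)
      rw [← h2]; exact hy
    · have h1 : (P : Subgroup H) = ⊥ := by
        have h2 := P.card_eq_multiplicity
        rw [Nat.factorization_eq_zero_of_not_dvd hpd, pow_zero] at h2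
        exact Subgroup.card_eq_one.1 h2
      rw [h1]; infer_instance
  obtain ⟨c, hc⟩ := (Subgroup.isNilpotent_iff_lowerCentralSeries H).1 hnil
  -- normal p-complements
  have ex : ∀ p : (Nat.card H).primeFactors, ∃ N : Subgroup G, N.Normal ∧
      (Nat.card N).Coprime p ∧ N.index ∣ (p : ℕ) ^ (Nat.card H).factorization p := by
    rintro ⟨p, hpm⟩
    have hpp : p.Prime := Nat.prime_of_mem_primeFactors hpm
    have hpd : p ∣ Nat.card H := Nat.dvd_of_mem_primeFactors hpm
    haveI : Fact p.Prime := ⟨hpp⟩
    obtain ⟨P⟩ : Nonempty (Sylow p H) := inferInstance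
    set P' : Subgroup G := (P : Subgroup H).map H.subtype with hP'
    have hP'H : P' ≤ H := Subgroup.map_subtype_le _
    have hP'p : IsPGroup p P' := P.2.map _
    have hP'card : Nat.card P' = p ^ (Nat.card H).factorization p := by
      rw [hP', Subgroup.card_map_of_injective (Subgroup.subtype_injective H)]
      exact P.card_eq_multiplicity
    have hP'idx := step1 p hpd P
    have hP'n := hnorm p hpp hpd P
    have hHall : (Nat.card P').Coprime P'.index := by
      rw [hP'card]
      exact Nat.Coprime.pow_left _ ((Nat.Prime.coprime_iff_not_dvd hpp).2 hP'idx)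
    -- fusion
    obtain ⟨q, hq, hqp, hqd⟩ := hsecond p hpd
    haveI : Fact q.Prime := ⟨hq⟩
    obtain ⟨R⟩ : Nonempty (Sylow q H) := inferInstance
    set R' : Subgroup G := (R : Subgroup H).map H.subtype with hR'
    have hR'p : IsPGroup q R' := R.2.map _
    have hR'n := hnorm q hq hqd R
    have hR'idx := step1 q hqd R
    have hcomm : ⁅P', R'⁆ = ⊥ := by
      apply Cfsg.Agent.Lib.Helper2.Local.comm_of_normal_disjoint
      · rw [hR'n]; exact hP'H
      · rw [hP'n]; exact Subgroup.map_subtype_le _
      · exact IsPGroup.disjoint_of_ne p q hqp.symm P' R' hP'p hR'p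
    have hcent : P' ≤ Subgroup.centralizer (R' : Set G) :=
      Subgroup.commutator_eq_bot_iff_le_centralizer.1 hcomm
    have fus : ∀ x ∈ P', ∀ u : G, u * x * u⁻¹ ∈ P' → ∃ h ∈ H, h * x * h⁻¹ = u * x * u⁻¹ := by
      intro x hx u hu
      obtain ⟨n, hn, hnx⟩ := (hR'p.toSylow hR'idx).conj_eq_normalizer_conj_of_mem_centralizer x u⁻¹
        (show x ∈ Subgroup.centralizer ((R' : Subgroup G) : Set G) from hcent hx)
        (show u⁻¹⁻¹ * x * u⁻¹ ∈ Subgroup.centralizer ((R' : Subgroup G) : Set G) by
          rw [inv_inv]; exact hcent hu)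
      have hn' : n ∈ Subgroup.normalizer ((R' : Subgroup G) : Set G) := hn
      rw [hR'n] at hn'
      have hn := hn'
      refine ⟨n⁻¹, H.inv_mem hn, ?_⟩
      rw [inv_inv] at hnx ⊢
      exact hnx.symm
    have key : ∀ i, (fun K : Subgroup G => Subgroup.focalSubgroup K)^[i] P' ≤
        P' ⊓ H.lowerCentralSeries i := by
      intro i
      induction i with
      | zero => exact le_inf le_rfl hP'H
      | succ i ih =>
        rw [Function.iterate_succ_apply']
        refine le_inf ((Subgroup.focalSubgroup_le _).trans (ih.trans inf_le_left)) ?_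
        rw [Subgroup.focalSubgroup_def, Subgroup.closure_le]
        rintro g ⟨hg, x, hx, u, rfl⟩
        have hxP : x ∈ P' := (ih hx).1
        have h1 : u * x⁻¹ * u⁻¹ ∈ P' := by
          have : u * x⁻¹ * u⁻¹ = x⁻¹ * ⁅x, u⁆ := by
            simp only [commutatorElement_def]; group
          rw [this]
          exact P'.mul_mem (P'.inv_mem hxP) (ih hg).1
        obtain ⟨h, hh, hconj⟩ := fus x⁻¹ (P'.inv_mem hxP) u h1
        have h2 : ⁅x, u⁆ = ⁅x, h⁆ := by
          simp only [commutatorElement_def]
          calc x * u * x⁻¹ * u⁻¹ = x * (u * x⁻¹ * u⁻¹) := by group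
            _ = x * (h * x⁻¹ * h⁻¹) := by rw [hconj]
            _ = x * h * x⁻¹ * h⁻¹ := by group
        rw [SetLike.mem_coe, h2, Subgroup.lowerCentralSeries_succ]
        exact Subgroup.commutator_mem_commutator (ih hx).2 hh
    have hfoc : (fun K : Subgroup G => Subgroup.focalSubgroup K)^[c] P' = ⊥ :=
      le_bot_iff.1 ((key c).trans (hc ▸ inf_le_right))
    obtain ⟨N, hNn, hNc⟩ := Cfsg.Agent.S0557.result P' hHall c hfoc
    have hNcard : Nat.card N = P'.index := by
      have h1 := hNc.card_mul
      have h2 := Subgroup.card_mul_index P'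
      have hpos : 0 < Nat.card P' := Nat.card_pos
      nlinarith
    have hNidx : N.index = Nat.card P' := by
      have h1 := hNc.card_mul
      have h2 := Subgroup.card_mul_index N
      have hpos : 0 < Nat.card N := Nat.card_pos
      exact Nat.eq_of_mul_eq_mul_left hpos (h2.trans h1.symm)
    refine ⟨N, hNn, ?_, ?_⟩
    · rw [hNcard]
      exact ((Nat.Prime.coprime_iff_not_dvd hpp).2 hP'idx).symm
    · rw [hNidx, hP'card]
  choose Nf hNn hNcop hNidx using ex
  set N : Subgroup G := ⨅ p, Nf p with hN
  have hNnormal : N.Normal := Subgroup.normal_iInf_normal hNn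
  haveI := hNnormal
  have hdisj : N ⊓ H = ⊥ := by
    rw [eq_bot_iff]
    rintro x ⟨hxN, hxH⟩
    rw [Subgroup.mem_bot]
    by_contra hx1
    have hord : orderOf x ≠ 1 := fun e => hx1 (orderOf_eq_one_iff.1 e)
    obtain ⟨p, hp, hpx⟩ := Nat.exists_prime_and_dvd hord
    have hpH : p ∣ Nat.card H := hpx.trans (orderOf_dvd_card_of_mem H x hxH)
    have hpm : p ∈ (Nat.card H).primeFactors := Nat.mem_primeFactors.2 ⟨hp, hpH, hH0⟩
    have hxNp : x ∈ Nf ⟨p, hpm⟩ := (Subgroup.mem_iInf.1 hxN) ⟨p, hpm⟩
    have h1 : p ∣ Nat.card (Nf ⟨p, hpm⟩) := hpx.trans (orderOf_dvd_card_of_mem _ x hxNp)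
    have h2 := hNcop ⟨p, hpm⟩
    exact hp.one_lt.ne' (Nat.eq_one_of_dvd_coprimes h2 h1 dvd_rfl)
  have hidx : N.index ≤ Nat.card H := by
    calc N.index ≤ ∏ p, (Nf p).index := Subgroup.index_iInf_le Nf
      _ ≤ ∏ p : (Nat.card H).primeFactors, (p : ℕ) ^ (Nat.card H).factorization p := by
          apply Finset.prod_le_prod
          · intro i _; exact Nat.zero_le _
          · intro i _
            exact Nat.le_of_dvd (pow_pos (Nat.prime_of_mem_primeFactors i.2).pos _) (hNidx i)
      _ = Nat.card H := by
          rw [Finset.prod_coe_sort (Nat.card H).primeFactors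
            (fun p => p ^ (Nat.card H).factorization p)]
          exact Nat.prod_factorization_pow_eq_self hH0
  have h1 := card_sup_mul_card_inf H N
  rw [inf_comm, hdisj, Subgroup.card_bot, mul_one] at h1
  have h2 := Subgroup.card_le_card_group (H ⊔ N)
  have h3 := Subgroup.card_mul_index N
  have hcard : Nat.card N * Nat.card H = Nat.card G := by
    apply le_antisymm
    · rw [mul_comm, ← h1]; exact h2
    · rw [← h3]; exact Nat.mul_le_mul_left _ hidx
  exact ⟨N, hNnormal, Subgroup.isComplement'_of_card_mul_and_disjoint hcard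
    (disjoint_iff.2 hdisj)⟩

end Cfsg.Agent.S0558
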