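import Mathlib
import Cfsg.Statements.S0559

set_option autoImplicit false
open Pointwise
open Cfsg

namespace Cfsg.Agent.S0559

theorem result {G : Type*} [Group G] [Finite G] (H K A B : Subgroup G) (hHK : ∀ g : G, ∃ h ∈ H, ∃ k ∈ K, g = h * k) (hA : ∃ x : G, A = MulAut.conj x • H) (hB : ∃ y : G, B = MulAut.conj y • K) : (∀ g : G, ∃ a ∈ A, ∃ b ∈ B, g = a * b) ∧ ∃ g : G, A = MulAut.conj g • H ∧ B = MulAut.conj g • K := by
  obtain ⟨x, rfl⟩ := hA
  obtain ⟨y, rfl⟩ := hB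
  obtain ⟨h, hh, k, hk, hxy⟩ := hHK (x⁻¹ * y)
  have key : ∃ g : G, MulAut.conj x • H = MulAut.conj g • H ∧ MulAut.conj y • K = MulAut.conj g • K := by
    refine ⟨x * h, ?_, ?_⟩
    · rw [map_mul, mul_smul, Subgroup.conj_smul_eq_self_of_mem hh]
    · have hy : x * h = y * k⁻¹ := by
        have : y = x * (h * k) := by rw [← hxy]; group
        rw [this]; group
      rw [hy, map_mul, mul_smul, Subgroup.conj_smul_eq_self_of_mem (K.inv_mem hk)]
  refine ⟨?_, key⟩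
  obtain ⟨g, hgH, hgK⟩ := key
  rw [hgH, hgK]
  intro g'
  obtain ⟨h', hh', k', hk', e⟩ := hHK (g⁻¹ * g' * g)
  refine ⟨g * h' * g⁻¹, ?_, g * k' * g⁻¹, ?_, ?_⟩
  · exact Subgroup.smul_mem_pointwise_smul h' (MulAut.conj g) H hh'
  · exact Subgroup.smul_mem_pointwise_smul k' (MulAut.conj g) K hk'
  · have : g' = g * (h' * k') * g⁻¹ := by rw [← e]; group
    rw [this]; group

end Cfsg.Agent.S0559
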