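import Mathlib
import Cfsg.Statements.S0561
import Cfsg.Agent.S0543
import Cfsg.Agent.S0004
import Cfsg.Agent.S0005
import Cfsg.Agent.S0538

set_option autoImplicit false
open Pointwise
open Cfsg

namespace Cfsg.Agent.S0561

theorem coprime_cofactors (a b m iA iB : ℕ) (hm : m = Nat.lcm a b) (hm0 : 0 < m)
    (hA : a * iA = m) (hB : b * iB = m) : iA.Coprime iB := by
  by_contra hcon
  obtain ⟨p, hp, hpA, hpB⟩ := Nat.Prime.not_coprime_iff_dvd.1 hcon
  obtain ⟨iA', rfl⟩ := hpA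
  obtain ⟨iB', rfl⟩ := hpB
  have h1 : a * iA' = b * iB' := by
    have : p * (a * iA') = p * (b * iB') := by
      rw [← mul_assoc, mul_comm p a, mul_assoc, hA, ← mul_assoc, mul_comm p b, mul_assoc, hB]
    exact Nat.eq_of_mul_eq_mul_left hp.pos this
  have h2 : m = p * (a * iA') := by rw [← hA]; ring
  have h3 : Nat.lcm a b ∣ a * iA' := Nat.lcm_dvd (Dvd.intro _ rfl) (h1 ▸ Dvd.intro _ rfl)
  rw [← hm, h2] at h3
  have h4 : 0 < a * iA' := by
    rcases Nat.eq_zero_or_pos (a * iA') with h | h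
    · rw [h, mul_zero] at h2; omega
    · exact h
  have h5 := Nat.le_of_dvd h4 h3
  have h6 := hp.one_lt
  nlinarith

theorem core {G : Type*} [Group G] [Finite G] [Group.IsSolvable G] (H K A B : Subgroup G)
    (hHK : ∀ g : G, ∃ h ∈ H, ∃ k ∈ K, g = h * k)
    (hAn : ∀ h ∈ H, MulAut.conj h • A = A) (hBn : ∀ k ∈ K, MulAut.conj k • B = B)
    (hAh : (Nat.card A).Coprime A.index) (hBh : (Nat.card B).Coprime B.index) :
    ∃ S : Subgroup G, (S : Set G) = (A : Set G) * (B : Set G) := by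
  have haN : Nat.card A * A.index = Nat.card G := Subgroup.card_mul_index A
  have hbN : Nat.card B * B.index = Nat.card G := Subgroup.card_mul_index B
  obtain ⟨n, hn⟩ : Nat.lcm (Nat.card A) (Nat.card B) ∣ Nat.card G :=
    Nat.lcm_dvd (Dvd.intro _ haN) (Dvd.intro _ hbN)
  have hnA : n ∣ A.index := by
    obtain ⟨c, hc⟩ := Nat.dvd_lcm_left (Nat.card A) (Nat.card B)
    have h1 : Nat.card A * A.index = Nat.card A * (c * n) := by rw [haN, hn, hc, mul_assoc]
    have h2 := Nat.eq_of_mul_eq_mul_left Nat.card_pos h1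
    exact Dvd.intro_left _ h2.symm
  have hnB : n ∣ B.index := by
    obtain ⟨c, hc⟩ := Nat.dvd_lcm_right (Nat.card A) (Nat.card B)
    have h1 : Nat.card B * B.index = Nat.card B * (c * n) := by rw [hbN, hn, hc, mul_assoc]
    have h2 := Nat.eq_of_mul_eq_mul_left Nat.card_pos h1
    exact Dvd.intro_left _ h2.symm
  have hcA : (Nat.card A).Coprime n := Nat.Coprime.coprime_dvd_right hnA hAh
  have hcB : (Nat.card B).Coprime n := Nat.Coprime.coprime_dvd_right hnB hBh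
  have hcop : (Nat.lcm (Nat.card A) (Nat.card B)).Coprime n := Nat.Coprime.coprime_dvd_left (Nat.lcm_dvd_mul _ _) (Nat.Coprime.mul_left hcA hcB)
  obtain ⟨S0, hS0, hAS0⟩ := Cfsg.Agent.S0005.result _ n hn hcop A hcA
  obtain ⟨S1, hS1, hBS1⟩ := Cfsg.Agent.S0005.result _ n hn hcop B hcB
  obtain ⟨g, hg⟩ := Cfsg.Agent.S0004.hall_conj _ G rfl _ n hn hcop S0 S1 hS0 hS1
  obtain ⟨h1, hh1, k1, hk1, hgk⟩ := hHK g⁻¹
  have hAS : A ≤ MulAut.conj h1⁻¹ • S0 := by
    rw [← hAn h1⁻¹ (H.inv_mem hh1)]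
    exact Subgroup.pointwise_smul_le_pointwise_smul_iff.2 hAS0
  have hSeq : MulAut.conj h1⁻¹ • S0 = MulAut.conj k1 • S1 := by
    rw [← hg, smul_smul, ← map_mul]
    have h2 : g = k1⁻¹ * h1⁻¹ := by rw [← mul_inv_rev, ← hgk, inv_inv]
    have h3 : k1 * g = h1⁻¹ := by rw [h2]; group
    rw [h3]
  have hBS : B ≤ MulAut.conj h1⁻¹ • S0 := by
    rw [hSeq, ← hBn k1 hk1]
    exact Subgroup.pointwise_smul_le_pointwise_smul_iff.2 hBS1
  have hScard : Nat.card ↥(MulAut.conj h1⁻¹ • S0) = Nat.lcm (Nat.card A) (Nat.card B) := by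
    rw [Cfsg.Agent.S0004.card_conj_smul, hS0]
  generalize MulAut.conj h1⁻¹ • S0 = S at hAS hBS hScard
  refine ⟨S, ?_⟩
  have hiA : Nat.card A * (A.subgroupOf S).index = Nat.lcm (Nat.card A) (Nat.card B) := by
    have h1 := Subgroup.card_mul_index (A.subgroupOf S)
    rw [Cfsg.Agent.S0003.card_subgroupOf_eq', inf_of_le_left hAS, hScard] at h1
    exact h1
  have hiB : Nat.card B * (B.subgroupOf S).index = Nat.lcm (Nat.card A) (Nat.card B) := by
    have h1 := Subgroup.card_mul_index (B.subgroupOf S)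
    rw [Cfsg.Agent.S0003.card_subgroupOf_eq', inf_of_le_left hBS, hScard] at h1
    exact h1
  have hcop' : ((A.subgroupOf S).index).Coprime ((B.subgroupOf S).index) :=
    coprime_cofactors _ _ _ _ _ rfl (hScard ▸ Nat.card_pos) hiA hiB
  ext x
  constructor
  · intro hx
    obtain ⟨a, ha, b, hb, hab⟩ :=
      Cfsg.Agent.S0543.exists_mul_of_coprime_index (A.subgroupOf S) (B.subgroupOf S) hcop' ⟨x, hx⟩
    refine ⟨(a : G), Subgroup.mem_subgroupOf.1 ha, (b : G), Subgroup.mem_subgroupOf.1 hb, ?_⟩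
    have := congrArg Subtype.val hab
    exact this.symm
  · rintro ⟨a, ha, b, hb, rfl⟩
    exact S.mul_mem (hAS ha) (hBS hb)

theorem result {G : Type*} [Group G] [Finite G] [Group.IsSolvable G] (H K A B : Subgroup G) (hHK : ∀ g : G, ∃ h ∈ H, ∃ k ∈ K, g = h * k) (hA : A ≤ H) (hAn : (A.subgroupOf H).Normal) (hB : B ≤ K) (hBn : (B.subgroupOf K).Normal) (hAh : (Nat.card A).Coprime A.index) (hBh : (Nat.card B).Coprime B.index) (x y : G) : ∃ S : Subgroup G, (S : Set G) = ((MulAut.conj x • A : Subgroup G) : Set G) * ((MulAut.conj y • B : Subgroup G) : Set G) := by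
  have hHN : H ≤ Subgroup.normalizer (A : Set G) :=
    (Subgroup.normal_subgroupOf_iff_le_normalizer hA).1 hAn
  have hKN : K ≤ Subgroup.normalizer (B : Set G) :=
    (Subgroup.normal_subgroupOf_iff_le_normalizer hB).1 hBn
  apply core (MulAut.conj x • H) (MulAut.conj y • K) (MulAut.conj x • A) (MulAut.conj y • B)
  · intro g
    obtain ⟨h0, hh0, k0, hk0, e0⟩ := hHK (x⁻¹ * y)
    obtain ⟨h2, hh2, k2, hk2, e2⟩ := hHK (x⁻¹ * g * y)
    refine ⟨x * (h2 * h0⁻¹) * x⁻¹, ⟨h2 * h0⁻¹, H.mul_mem hh2 (H.inv_mem hh0), rfl⟩,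
      y * (k0⁻¹ * k2) * y⁻¹, ⟨k0⁻¹ * k2, K.mul_mem (K.inv_mem hk0) hk2, rfl⟩, ?_⟩
    have e3 : g = x * (h2 * k2) * y⁻¹ := by rw [← e2]; group
    rw [e3]
    calc x * (h2 * k2) * y⁻¹ = x * h2 * h0⁻¹ * (h0 * k0) * k0⁻¹ * k2 * y⁻¹ := by group
      _ = x * h2 * h0⁻¹ * (x⁻¹ * y) * k0⁻¹ * k2 * y⁻¹ := by rw [e0]
      _ = x * (h2 * h0⁻¹) * x⁻¹ * (y * (k0⁻¹ * k2) * y⁻¹) := by group
  · rintro _ ⟨h, hh, rfl⟩
    show MulAut.conj (x * h * x⁻¹) • MulAut.conj x • A = MulAut.conj x • A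
    rw [smul_smul, ← map_mul]
    have : x * h * x⁻¹ * x = x * h := by group
    rw [this, map_mul, mul_smul, (Cfsg.Agent.S0538.mem_normalizer_iff_smul h A).1 (hHN hh)]
  · rintro _ ⟨k, hk, rfl⟩
    show MulAut.conj (y * k * y⁻¹) • MulAut.conj y • B = MulAut.conj y • B
    rw [smul_smul, ← map_mul]
    have : y * k * y⁻¹ * y = y * k := by group
    rw [this, map_mul, mul_smul, (Cfsg.Agent.S0538.mem_normalizer_iff_smul k B).1 (hKN hk)]
  · rw [Cfsg.Agent.S0004.card_conj_smul, Cfsg.Agent.S0543.index_conj]; exact hAh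
  · rw [Cfsg.Agent.S0004.card_conj_smul, Cfsg.Agent.S0543.index_conj]; exact hBh

end Cfsg.Agent.S0561
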