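import Mathlib
import Cfsg.Statements.S0562

set_option autoImplicit false
open Cfsg

namespace Cfsg.Agent.S0562

theorem result {G : Type*} [Group G] [Finite G] (H K A B : Subgroup G) (hHK : ∀ g : G, ∃ h ∈ H, ∃ k ∈ K, g = h * k) (hA : A ≤ H) (hAn : (A.subgroupOf H).Normal) (hB : B ≤ K) (hBn : (B.subgroupOf K).Normal) : ∀ g ∈ Subgroup.normalizer ((A ⊔ B : Subgroup G) : Set G), ∃ h ∈ Subgroup.normalizer ((A ⊔ B : Subgroup G) : Set G) ⊓ H, ∃ k ∈ Subgroup.normalizer ((A ⊔ B : Subgroup G) : Set G) ⊓ K, g = h * k := by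
  intro g hg
  obtain ⟨h, hh, k, hk, rfl⟩ := hHK g
  have hHA : H ≤ Subgroup.normalizer (A : Set G) := (Subgroup.normal_subgroupOf_iff_le_normalizer hA).mp hAn
  have hKB : K ≤ Subgroup.normalizer (B : Set G) := (Subgroup.normal_subgroupOf_iff_le_normalizer hB).mp hBn
  have hAh : A.map (MulAut.conj h⁻¹ : G →* G) = A := Subgroup.mem_normalizer_iff_map_conj_eq.mp (hHA (H.inv_mem hh))
  have hBk : B.map (MulAut.conj k : G →* G) = B := Subgroup.mem_normalizer_iff_map_conj_eq.mp (hKB hk)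
  rw [Subgroup.mem_normalizer_iff_map_conj_eq] at hg
  have e : (A ⊔ B).map (MulAut.conj k : G →* G) = (A ⊔ B).map (MulAut.conj h⁻¹ : G →* G) := by
    have : (MulAut.conj h⁻¹ : G →* G).comp (MulAut.conj (h * k) : G →* G) = (MulAut.conj k : G →* G) := by
      ext x; simp [MulAut.conj_apply]; group
    rw [← this, ← Subgroup.map_map, hg]
  have hle : A ⊔ B ≤ (A ⊔ B).map (MulAut.conj k : G →* G) := by
    refine sup_le ?_ ?_
    · rw [e, Subgroup.map_sup, hAh]; exact le_sup_left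
    · rw [Subgroup.map_sup, hBk]; exact le_sup_right
  have hcard : Nat.card ((A ⊔ B).map (MulAut.conj k : G →* G) : Subgroup G) = Nat.card (A ⊔ B : Subgroup G) :=
    Subgroup.card_map_of_injective (MulAut.conj k).injective
  have hk' : (A ⊔ B).map (MulAut.conj k : G →* G) = A ⊔ B :=
    (Subgroup.eq_of_le_of_card_ge hle hcard.le).symm
  have hh' : (A ⊔ B).map (MulAut.conj h⁻¹ : G →* G) = A ⊔ B := e ▸ hk'
  refine ⟨h, ⟨?_, hh⟩, k, ⟨Subgroup.mem_normalizer_iff_map_conj_eq.mpr hk', hk⟩, rfl⟩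
  have := Subgroup.mem_normalizer_iff_map_conj_eq.mpr hh'
  simpa using (Subgroup.normalizer ((A ⊔ B : Subgroup G) : Set G)).inv_mem this

end Cfsg.Agent.S0562
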