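import Mathlib
import Cfsg.Statements.S0566
import Cfsg.Agent.S0539

set_option autoImplicit false
open Pointwise
open Cfsg

namespace Cfsg.Agent.S0566

/-- If `X Z` and `Y Z` are subgroups then so is `⟨X, Y⟩ Z`. -/
theorem perm_sup {G : Type*} [Group G] (X Y Z SX SY : Subgroup G)
    (hX : (SX : Set G) = (X : Set G) * (Z : Set G)) (hY : (SY : Set G) = (Y : Set G) * (Z : Set G)) :
    ((SX ⊔ SY : Subgroup G) : Set G) = ((X ⊔ Y : Subgroup G) : Set G) * (Z : Set G) := by
  have hXS : X ≤ SX := by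
    intro x hx
    have : x ∈ (SX : Set G) := by
      rw [hX]; exact ⟨x, hx, 1, Z.one_mem, mul_one x⟩
    exact this
  have hYS : Y ≤ SY := by
    intro x hx
    have : x ∈ (SY : Set G) := by
      rw [hY]; exact ⟨x, hx, 1, Z.one_mem, mul_one x⟩
    exact this
  have hZS : Z ≤ SX := by
    intro z hz
    have : z ∈ (SX : Set G) := by
      rw [hX]; exact ⟨1, X.one_mem, z, hz, one_mul z⟩
    exact this
  have hZS' : Z ≤ SY := by
    intro z hz
    have : z ∈ (SY : Set G) := by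
      rw [hY]; exact ⟨1, Y.one_mem, z, hz, one_mul z⟩
    exact this
  have hW : X ⊔ Y = Subgroup.closure ((X : Set G) ∪ (Y : Set G)) := by
    rw [Subgroup.closure_union, Subgroup.closure_eq, Subgroup.closure_eq]
  -- the key commutation property
  have base : ∀ (T ST : Subgroup G), (ST : Set G) = (T : Set G) * (Z : Set G) → T ≤ X ⊔ Y →
      T ≤ ST → Z ≤ ST → ∀ w ∈ T,
      (∀ z ∈ Z, ∃ w' ∈ X ⊔ Y, ∃ z' ∈ Z, z * w = w' * z') ∧
      (∀ z ∈ Z, ∃ w' ∈ X ⊔ Y, ∃ z' ∈ Z, w * z = z' * w') := by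
    intro T ST hT hTW hTS hZT w hw
    constructor
    · intro z hz
      have h1 : z * w ∈ (ST : Set G) := ST.mul_mem (hZT hz) (hTS hw)
      rw [hT] at h1
      obtain ⟨t, ht, z', hz', e⟩ := h1
      exact ⟨t, hTW ht, z', hz', e.symm⟩
    · intro z hz
      have h1 : (w * z)⁻¹ ∈ (ST : Set G) := ST.inv_mem (ST.mul_mem (hTS hw) (hZT hz))
      rw [hT] at h1
      obtain ⟨t, ht, z', hz', e⟩ := h1
      refine ⟨t⁻¹, Subgroup.inv_mem _ (hTW ht), z'⁻¹, Z.inv_mem hz', ?_⟩
      have e' : t * z' = (w * z)⁻¹ := e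
      calc w * z = ((w * z)⁻¹)⁻¹ := by group
        _ = (t * z')⁻¹ := by rw [e']
        _ = z'⁻¹ * t⁻¹ := by group
  have key : ∀ w ∈ X ⊔ Y,
      (∀ z ∈ Z, ∃ w' ∈ X ⊔ Y, ∃ z' ∈ Z, z * w = w' * z') ∧
      (∀ z ∈ Z, ∃ w' ∈ X ⊔ Y, ∃ z' ∈ Z, w * z = z' * w') := by
    intro w hw
    rw [hW] at hw
    induction hw using Subgroup.closure_induction with
    | mem x hx =>
      rcases hx with hx | hx
      · exact base X SX hX le_sup_left hXS hZS x hx
      · exact base Y SY hY le_sup_right hYS hZS' x hx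
    | one =>
      exact ⟨fun z hz => ⟨1, Subgroup.one_mem _, z, hz, by group⟩,
        fun z hz => ⟨1, Subgroup.one_mem _, z, hz, by group⟩⟩
    | mul x y _ _ ihx ihy =>
      constructor
      · intro z hz
        obtain ⟨w1, hw1, z1, hz1, e1⟩ := ihx.1 z hz
        obtain ⟨w2, hw2, z2, hz2, e2⟩ := ihy.1 z1 hz1
        refine ⟨w1 * w2, Subgroup.mul_mem _ hw1 hw2, z2, hz2, ?_⟩
        calc z * (x * y) = (z * x) * y := by group
          _ = w1 * (z1 * y) := by rw [e1]; group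
          _ = w1 * w2 * z2 := by rw [e2]; group
      · intro z hz
        obtain ⟨w2, hw2, z2, hz2, e2⟩ := ihy.2 z hz
        obtain ⟨w1, hw1, z1, hz1, e1⟩ := ihx.2 z2 hz2
        refine ⟨w1 * w2, Subgroup.mul_mem _ hw1 hw2, z1, hz1, ?_⟩
        calc x * y * z = x * (y * z) := by group
          _ = (x * z2) * w2 := by rw [e2]; group
          _ = z1 * (w1 * w2) := by rw [e1]; group
    | inv x _ ih =>
      constructor
      · intro z hz
        obtain ⟨w1, hw1, z1, hz1, e1⟩ := ih.2 z⁻¹ (Z.inv_mem hz)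
        refine ⟨w1⁻¹, Subgroup.inv_mem _ hw1, z1⁻¹, Z.inv_mem hz1, ?_⟩
        calc z * x⁻¹ = (x * z⁻¹)⁻¹ := by group
          _ = (z1 * w1)⁻¹ := by rw [e1]
          _ = w1⁻¹ * z1⁻¹ := by group
      · intro z hz
        obtain ⟨w1, hw1, z1, hz1, e1⟩ := ih.1 z⁻¹ (Z.inv_mem hz)
        refine ⟨w1⁻¹, Subgroup.inv_mem _ hw1, z1⁻¹, Z.inv_mem hz1, ?_⟩
        calc x⁻¹ * z = (z⁻¹ * x)⁻¹ := by group
          _ = (w1 * z1)⁻¹ := by rw [e1]
          _ = z1⁻¹ * w1⁻¹ := by group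
  let T : Subgroup G :=
    { carrier := ((X ⊔ Y : Subgroup G) : Set G) * (Z : Set G)
      one_mem' := ⟨1, Subgroup.one_mem _, 1, Z.one_mem, mul_one 1⟩
      mul_mem' := by
        rintro _ _ ⟨w1, hw1, z1, hz1, rfl⟩ ⟨w2, hw2, z2, hz2, rfl⟩
        obtain ⟨w', hw', z', hz', e⟩ := (key w2 hw2).1 z1 hz1
        refine ⟨w1 * w', Subgroup.mul_mem _ hw1 hw', z' * z2, Z.mul_mem hz' hz2, ?_⟩
        show w1 * w' * (z' * z2) = w1 * z1 * (w2 * z2)
        calc w1 * w' * (z' * z2) = w1 * (w' * z') * z2 := by group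
          _ = w1 * (z1 * w2) * z2 := by rw [e]
          _ = w1 * z1 * (w2 * z2) := by group
      inv_mem' := by
        rintro _ ⟨w1, hw1, z1, hz1, rfl⟩
        obtain ⟨w', hw', z', hz', e⟩ := (key w1⁻¹ (Subgroup.inv_mem _ hw1)).1 z1⁻¹ (Z.inv_mem hz1)
        refine ⟨w', hw', z', hz', ?_⟩
        show w' * z' = (w1 * z1)⁻¹
        rw [← e]; group }
  apply Set.Subset.antisymm
  · have hle : SX ⊔ SY ≤ T := by
      apply sup_le
      · intro s hs
        have hs' : s ∈ (SX : Set G) := hs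
        rw [hX] at hs'
        obtain ⟨x, hx, z, hz, rfl⟩ := hs'
        exact ⟨x, Subgroup.mem_sup_left hx, z, hz, rfl⟩
      · intro s hs
        have hs' : s ∈ (SY : Set G) := hs
        rw [hY] at hs'
        obtain ⟨y, hy, z, hz, rfl⟩ := hs'
        exact ⟨y, Subgroup.mem_sup_right hy, z, hz, rfl⟩
    exact hle
  · rintro _ ⟨w, hw, z, hz, rfl⟩
    exact Subgroup.mul_mem _ ((sup_le_sup hXS hYS) hw) (Subgroup.mem_sup_left (hZS hz))

theorem aux {G : Type*} [Group G] [Finite G] (B : Subgroup G) (k : ℕ) : ∀ A : Subgroup G,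
    Nat.card G - Nat.card A = k →
    (∀ x : G, ∃ S : Subgroup G, S ≠ ⊤ ∧
      (S : Set G) = (A : Set G) * ((MulAut.conj x • B : Subgroup G) : Set G)) →
    ∃ N : Subgroup G, N.Normal ∧ N ≠ ⊤ ∧ (A ≤ N ∨ B ≤ N) := by
  induction k using Nat.strong_induction_on with
  | _ k ih =>
  intro A hk h
  by_cases hNB : Subgroup.normalClosure (B : Set G) = ⊤
  swap
  · exact ⟨_, Subgroup.normalClosure_normal, hNB, Or.inr Subgroup.le_normalClosure⟩
  have hAS : ∀ x : G, ∀ S : Subgroup G,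
      (S : Set G) = (A : Set G) * ((MulAut.conj x • B : Subgroup G) : Set G) → A ≤ S := by
    intro x S hS a ha
    have : a ∈ (S : Set G) := by
      rw [hS]; exact ⟨a, ha, 1, Subgroup.one_mem _, mul_one a⟩
    exact this
  have hBS : ∀ x : G, ∀ S : Subgroup G,
      (S : Set G) = (A : Set G) * ((MulAut.conj x • B : Subgroup G) : Set G) →
      MulAut.conj x • B ≤ S := by
    intro x S hS b hb
    have : b ∈ (S : Set G) := by
      rw [hS]; exact ⟨1, A.one_mem, b, hb, one_mul b⟩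
    exact this
  by_cases hAn : A.Normal
  · obtain ⟨S, hS, hSe⟩ := h 1
    refine ⟨A, hAn, ?_, Or.inl le_rfl⟩
    intro hA
    apply hS
    rw [eq_top_iff, ← hA]
    exact hAS 1 S hSe
  -- some conjugate of B does not normalize A
  have hex : ∃ g : G, ∃ b ∈ MulAut.conj g • B, MulAut.conj b • A ≠ A := by
    by_contra hcon
    push Not at hcon
    apply hAn
    rw [← Subgroup.normalizer_eq_top_iff, eq_top_iff, ← hNB]
    unfold Subgroup.normalClosure
    rw [Subgroup.closure_le]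
    intro y hy
    rw [Group.mem_conjugatesOfSet_iff] at hy
    obtain ⟨b, hb, hconj⟩ := hy
    rw [isConj_iff] at hconj
    obtain ⟨c, rfl⟩ := hconj
    have hmem : c * b * c⁻¹ ∈ MulAut.conj c • B := ⟨b, hb, rfl⟩
    have h1 := hcon c _ hmem
    rw [SetLike.mem_coe, Subgroup.mem_normalizer_iff]
    intro a
    constructor
    · intro ha
      rw [← h1]
      exact ⟨a, ha, rfl⟩
    · intro ha
      rw [← h1] at ha
      obtain ⟨a', ha', e⟩ := ha
      have e' : c * b * c⁻¹ * a' * (c * b * c⁻¹)⁻¹ = c * b * c⁻¹ * a * (c * b * c⁻¹)⁻¹ := e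
      have : a' = a := by
        have := mul_left_cancel (mul_right_cancel e')
        exact this
      rw [← this]; exact ha'
  obtain ⟨g, b, hb, hbA⟩ := hex
  obtain ⟨Sg, hSg, hSge⟩ := h g
  have hbS : b ∈ Sg := hBS g Sg hSge hb
  set A' : Subgroup G := A ⊔ MulAut.conj b • A with hA'
  have hA'S : A' ≤ Sg := by
    apply sup_le (hAS g Sg hSge)
    rintro _ ⟨a, ha, rfl⟩
    exact Sg.mul_mem (Sg.mul_mem hbS (hAS g Sg hSge ha)) (Sg.inv_mem hbS)
  have hlt : Nat.card A < Nat.card A' := by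
    by_contra hcon
    push Not at hcon
    have hAA' : A = A' := Subgroup.eq_of_le_of_card_ge le_sup_left hcon
    apply hbA
    apply Cfsg.Agent.S0539.smul_eq_of_le
    exact le_of_le_of_eq le_sup_right hAA'.symm
  have hh' : ∀ x : G, ∃ S : Subgroup G, S ≠ ⊤ ∧
      (S : Set G) = (A' : Set G) * ((MulAut.conj x • B : Subgroup G) : Set G) := by
    intro x
    obtain ⟨S1, -, hS1e⟩ := h x
    obtain ⟨S2, -, hS2e⟩ := h (b⁻¹ * x)
    have hT2 : ((MulAut.conj b • S2 : Subgroup G) : Set G) =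
        ((MulAut.conj b • A : Subgroup G) : Set G) * ((MulAut.conj x • B : Subgroup G) : Set G) := by
      ext y
      constructor
      · rintro ⟨s, hs, rfl⟩
        have hs' : s ∈ (S2 : Set G) := hs
        rw [hS2e] at hs'
        obtain ⟨a, ha, c, hc, rfl⟩ := hs'
        refine ⟨b * a * b⁻¹, ⟨a, ha, rfl⟩, b * c * b⁻¹, ?_, ?_⟩
        · have : MulAut.conj x • B = MulAut.conj b • (MulAut.conj (b⁻¹ * x) • B) := by
            rw [← mul_smul, ← map_mul, mul_inv_cancel_left]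
          rw [this]
          exact ⟨c, hc, rfl⟩
        · show b * a * b⁻¹ * (b * c * b⁻¹) = b * (a * c) * b⁻¹
          group
      · rintro ⟨_, ⟨a, ha, rfl⟩, c', hc', rfl⟩
        have : MulAut.conj x • B = MulAut.conj b • (MulAut.conj (b⁻¹ * x) • B) := by
          rw [← mul_smul, ← map_mul, mul_inv_cancel_left]
        rw [this] at hc'
        obtain ⟨c, hc, rfl⟩ := hc'
        refine ⟨a * c, ?_, ?_⟩
        · show a * c ∈ (S2 : Set G)
          rw [hS2e]; exact ⟨a, ha, c, hc, rfl⟩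
        · show b * (a * c) * b⁻¹ = b * a * b⁻¹ * (b * c * b⁻¹)
          group
    have hS := perm_sup A (MulAut.conj b • A) (MulAut.conj x • B) S1 (MulAut.conj b • S2) hS1e hT2
    refine ⟨S1 ⊔ MulAut.conj b • S2, ?_, hS⟩
    intro htop
    -- G = A' B^x ⊆ Sg B^x
    have hall : ∀ y : G, ∃ s ∈ Sg, ∃ c ∈ MulAut.conj x • B, y = s * c := by
      intro y
      have hy : y ∈ ((S1 ⊔ MulAut.conj b • S2 : Subgroup G) : Set G) := by
        rw [htop]; trivial
      rw [hS] at hy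
      obtain ⟨w, hw, c, hc, rfl⟩ := hy
      exact ⟨w, hA'S hw, c, hc, rfl⟩
    obtain ⟨s, hs, c, hc, e⟩ := hall (g * x⁻¹)
    have hBx : MulAut.conj x • B ≤ Sg := by
      have h1 : MulAut.conj g • B = MulAut.conj s • (MulAut.conj x • B) := by
        have h2 : MulAut.conj c • (MulAut.conj x • B) = MulAut.conj x • B :=
          Subgroup.conj_smul_eq_self_of_mem hc
        have h3 : g = s * c * x := by
          calc g = (g * x⁻¹) * x := by group
            _ = s * c * x := by rw [e]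
        rw [h3, map_mul, map_mul, mul_smul, mul_smul, h2]
      have h4 : MulAut.conj x • B = MulAut.conj s⁻¹ • (MulAut.conj g • B) := by
        rw [h1, ← mul_smul, ← map_mul, inv_mul_cancel, map_one, one_smul]
      rw [h4]
      rintro _ ⟨d, hd, rfl⟩
      exact Sg.mul_mem (Sg.mul_mem (Sg.inv_mem hs) (hBS g Sg hSge hd)) (Sg.inv_mem (Sg.inv_mem hs))
    apply hSg
    rw [eq_top_iff]
    intro y _
    obtain ⟨s', hs', c', hc', rfl⟩ := hall y
    exact Sg.mul_mem hs' (hBx hc')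
  have hcardle : Nat.card A' ≤ Nat.card G := Subgroup.card_le_card_group A'
  have hlt2 : Nat.card G - Nat.card A' < k := by omega
  obtain ⟨N, hN, hNtop, hNle⟩ := ih (Nat.card G - Nat.card A') hlt2 A' rfl hh'
  refine ⟨N, hN, hNtop, ?_⟩
  rcases hNle with h1 | h1
  · exact Or.inl (le_sup_left.trans h1)
  · exact Or.inr h1

theorem result {G : Type*} [Group G] [Finite G] (A B : Subgroup G) (hA : A ≠ ⊥) (hB : B ≠ ⊥) (h : ∀ x : G, ∃ S : Subgroup G, S ≠ ⊤ ∧ (S : Set G) = (A : Set G) * ((MulAut.conj x • B : Subgroup G) : Set G)) : ∃ N : Subgroup G, N.Normal ∧ N ≠ ⊤ ∧ (A ≤ N ∨ B ≤ N) := by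
  have _ := hA
  have _ := hB
  exact aux B _ A rfl h

end Cfsg.Agent.S0566
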