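import Mathlib
import Cfsg.Statements.S0568
import Cfsg.Agent.S0545

set_option autoImplicit false
open Pointwise
open Cfsg
open scoped commutatorElement

namespace Cfsg.Agent.S0568

/-- A normal `q`-subgroup lies in every Hall `p`-complement for `p ≠ q`. -/
theorem normal_pgroup_le_cs {G : Type*} [Group G] [Finite G] {K : Nat.Primes → Subgroup G}
    (hK : IsComplementSystem K) (N : Subgroup G) [N.Normal] (q : ℕ) (hq : q.Prime)
    (hN : IsPGroup q N) (p : Nat.Primes) (hp : (p : ℕ) ≠ q) : N ≤ K p := by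
  haveI : Fact q.Prime := ⟨hq⟩
  obtain ⟨a, ha⟩ := IsPGroup.iff_card.1 hN
  by_cases ha0 : a = 0
  · rw [ha0, pow_zero] at ha
    rw [Subgroup.card_eq_one.1 ha]; exact bot_le
  have hrm : q ∣ Nat.card (K p) := by
    have h1 : q ∣ Nat.card G :=
      (dvd_pow_self q ha0).trans (ha ▸ Subgroup.card_subgroup_dvd_card N)
    rw [← Cfsg.Agent.S0543.cs_card hK p] at h1
    exact Nat.Coprime.dvd_of_dvd_mul_right (Nat.Coprime.pow_right _
      ((Nat.coprime_primes hq p.2).2 (fun h => hp h.symm))) h1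
  exact Cfsg.Agent.S0004.normal_pgroup_le_hall N (K p) q a _ _ hq ha rfl
    (Cfsg.Agent.S0543.cs_card hK p).symm
    ((Cfsg.Agent.S0543.cs_coprime hK p).symm.pow_right _) hrm

/-- A system normalizer avoids every non-central minimal normal subgroup. -/
theorem avoid {G : Type*} [Group G] [Finite G] [Group.IsSolvable G]
    (K : Nat.Primes → Subgroup G) (hK : IsComplementSystem K) (B : Subgroup G) [B.Normal]
    (hB : B ≠ ⊥) (hmin : ∀ N : Subgroup G, N.Normal → N ≤ B → N = ⊥ ∨ N = B)
    (hnc : ∃ b ∈ B, ∃ g : G, b * g ≠ g * b) : B ⊓ systemNormalizer K = ⊥ := by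
  obtain ⟨hBc, r, d, hr, hd, hBcard, -⟩ :=
    Cfsg.Agent.S0547.minimal_normal_solvable B hB hmin
  haveI : Fact r.Prime := ⟨hr⟩
  set rr : Nat.Primes := ⟨r, hr⟩ with hrr
  set C : Subgroup G := Subgroup.centralizer (B : Set G) with hC
  haveI hCn : C.Normal := Subgroup.normal_centralizer
  have hCtop : C ≠ ⊤ := by
    intro h
    obtain ⟨b, hb, g, hbg⟩ := hnc
    have hg : g ∈ C := h ▸ Subgroup.mem_top g
    rw [hC, Subgroup.mem_centralizer_iff] at hg
    exact hbg (hg b hb)
  haveI : Nontrivial (G ⧸ C) := by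
    rw [← not_subsingleton_iff_nontrivial]
    intro hs
    apply hCtop
    rw [← Subgroup.index_eq_one]
    exact Nat.card_eq_one_iff_unique.2 ⟨hs, ⟨1⟩⟩
  obtain ⟨q, Rb, hq, hRbn, -, hRbne, hRbq⟩ :=
    Cfsg.Agent.S0003.exists_normal_abelian_pgroup (G ⧸ C)
  haveI := hRbn
  set R : Subgroup G := Rb.comap (QuotientGroup.mk' C) with hR
  haveI hRn : R.Normal := hRbn.comap _
  set F : Subgroup G := B ⊓ Subgroup.centralizer (R : Set G) with hF
  have hFn : F.Normal := Subgroup.normal_inf_normal _ _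
  have hFbot : F = ⊥ := by
    rcases hmin F hFn inf_le_left with h | h
    · exact h
    · exfalso
      apply hRbne
      rw [eq_bot_iff]
      intro y hy
      obtain ⟨g, rfl⟩ := QuotientGroup.mk'_surjective C y
      have hgR : g ∈ R := hy
      rw [Subgroup.mem_bot]
      apply (QuotientGroup.eq_one_iff g).2
      rw [hC, Subgroup.mem_centralizer_iff]
      intro b hb
      have hbF : b ∈ F := h ▸ hb
      have := (Subgroup.mem_inf.1 hbF).2
      rw [Subgroup.mem_centralizer_iff] at this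
      exact (this g hgR).symm
  -- the case q = r is impossible
  have hqr : q ≠ r := by
    rintro rfl
    have hker : C ≤ (MulAut.conjNormal (H := B)).ker := by
      intro c hc
      rw [MonoidHom.mem_ker]
      ext b
      rw [MulAut.conjNormal_apply]
      rw [hC, Subgroup.mem_centralizer_iff] at hc
      have := hc b b.2
      show c * (b : G) * c⁻¹ = b
      rw [← this]; group
    let φ : (G ⧸ C) →* MulAut B := QuotientGroup.lift C (MulAut.conjNormal (H := B)) hker
    letI : MulAction Rb B := MulAction.compHom B (φ.comp Rb.subtype)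
    have hdvd : q ∣ Nat.card B := by
      rw [hBcard]; exact dvd_pow_self q hd.ne'
    have h1 : (1 : B) ∈ MulAction.fixedPoints Rb B := by
      intro y
      show (φ (y : G ⧸ C)) 1 = 1
      exact map_one _
    obtain ⟨b, hb, hb1⟩ := hRbq.exists_fixed_point_of_prime_dvd_card_of_fixed_point B hdvd h1
    have hbF : (b : G) ∈ F := by
      refine Subgroup.mem_inf.2 ⟨b.2, ?_⟩
      rw [Subgroup.mem_centralizer_iff]
      intro y hy
      have h2 : (⟨QuotientGroup.mk' C y, hy⟩ : Rb) • b = b := hb _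
      have h3 : ((⟨QuotientGroup.mk' C y, hy⟩ : Rb) • b : B) = MulAut.conjNormal (H := B) y b := rfl
      rw [h3] at h2
      have h4 := congrArg Subtype.val h2
      rw [MulAut.conjNormal_apply] at h4
      calc y * (b : G) = y * b * y⁻¹ * y := by group
        _ = b * y := by rw [h4]
    rw [hFbot, Subgroup.mem_bot] at hbF
    exact hb1 (Subtype.ext hbF).symm
  -- q ≠ r
  have hBK : B ⊓ K rr = ⊥ := by
    apply Subgroup.inf_eq_bot_of_coprime
    rw [hBcard]
    exact Nat.Coprime.pow_left _ (Cfsg.Agent.S0543.cs_coprime hK rr)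
  have hK' := Cfsg.Agent.S0545.cs_map (QuotientGroup.mk' C) (QuotientGroup.mk'_surjective C) hK
  have hRbK : Rb ≤ (K rr).map (QuotientGroup.mk' C) :=
    normal_pgroup_le_cs hK' Rb q hq hRbq rr (fun h => hqr h.symm)
  rw [eq_bot_iff]
  intro x hx
  have hxB := (Subgroup.mem_inf.1 hx).1
  have hxD := (Subgroup.mem_inf.1 hx).2
  have hxN : x ∈ Subgroup.normalizer (K rr : Set G) := Cfsg.Agent.S0544.sn_le K rr hxD
  have hxF : x ∈ F := by
    refine Subgroup.mem_inf.2 ⟨hxB, ?_⟩
    rw [Subgroup.mem_centralizer_iff]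
    intro y hy
    obtain ⟨k, hk, hky⟩ := hRbK (show QuotientGroup.mk' C y ∈ Rb from hy)
    have hc : k⁻¹ * y ∈ C := by
      rw [← QuotientGroup.eq_one_iff]
      show (QuotientGroup.mk' C) (k⁻¹ * y) = 1
      rw [map_mul, map_inv, hky, inv_mul_cancel]
    rw [hC, Subgroup.mem_centralizer_iff] at hc
    have hxk : x * k * x⁻¹ * k⁻¹ ∈ B ⊓ K rr := by
      refine Subgroup.mem_inf.2 ⟨?_, ?_⟩
      · have h1 : k * x⁻¹ * k⁻¹ ∈ B := ‹B.Normal›.conj_mem _ (B.inv_mem hxB) k
        have h2 := B.mul_mem hxB h1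
        have e : x * (k * x⁻¹ * k⁻¹) = x * k * x⁻¹ * k⁻¹ := by group
        rw [e] at h2; exact h2
      · have h1 : x * k * x⁻¹ ∈ K rr := (Subgroup.mem_normalizer_iff.1 hxN k).1 hk
        exact (K rr).mul_mem h1 ((K rr).inv_mem hk)
    rw [hBK, Subgroup.mem_bot] at hxk
    have hxk' : x * k = k * x := by
      have e : x * k = (x * k * x⁻¹ * k⁻¹) * (k * x) := by group
      rw [e, hxk, one_mul]
    have hxc := hc x hxB
    calc y * x = k * ((k⁻¹ * y) * x) := by group
      _ = k * (x * (k⁻¹ * y)) := by rw [hxc]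
      _ = (k * x) * (k⁻¹ * y) := by group
      _ = (x * k) * (k⁻¹ * y) := by rw [hxk']
      _ = x * y := by group
  rw [hFbot] at hxF
  exact hxF

theorem result {G : Type*} [Group G] [Finite G] [Group.IsSolvable G] (K : Nat.Primes → Subgroup G) (hK : Cfsg.IsComplementSystem K) (A B : Subgroup G) [A.Normal] [B.Normal] (hAB : A < B) (hchief : ∀ N : Subgroup G, N.Normal → A ≤ N → N ≤ B → N = A ∨ N = B) : (⁅B, (⊤ : Subgroup G)⁆ ≤ A → B ≤ A ⊔ Cfsg.systemNormalizer K) ∧ (¬ ⁅B, (⊤ : Subgroup G)⁆ ≤ A → B ⊓ Cfsg.systemNormalizer K ≤ A) := by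
  have hsn := Cfsg.Agent.S0545.sn_map (QuotientGroup.mk' A) (QuotientGroup.mk'_surjective A) hK
  have hK' := Cfsg.Agent.S0545.cs_map (QuotientGroup.mk' A) (QuotientGroup.mk'_surjective A) hK
  constructor
  · intro hcen b hb
    have hb' : (QuotientGroup.mk' A) b ∈
        systemNormalizer (fun p => (K p).map (QuotientGroup.mk' A)) := by
      unfold systemNormalizer
      rw [Subgroup.mem_iInf]
      intro p
      rw [Subgroup.mem_normalizer_iff]
      intro h
      obtain ⟨g, rfl⟩ := QuotientGroup.mk'_surjective A h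
      have h1 : ⁅b, g⁆ ∈ A := hcen (Subgroup.commutator_mem_commutator hb (Subgroup.mem_top g))
      have h2 : (QuotientGroup.mk' A) b * (QuotientGroup.mk' A) g * ((QuotientGroup.mk' A) b)⁻¹ =
          (QuotientGroup.mk' A) g := by
        have h3 : (QuotientGroup.mk' A) ⁅b, g⁆ = 1 := (QuotientGroup.eq_one_iff _).2 h1
        rw [commutatorElement_def, map_mul, map_mul, map_mul, map_inv, map_inv] at h3
        have e : (QuotientGroup.mk' A) b * (QuotientGroup.mk' A) g * ((QuotientGroup.mk' A) b)⁻¹ =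
            ((QuotientGroup.mk' A) b * (QuotientGroup.mk' A) g * ((QuotientGroup.mk' A) b)⁻¹ *
              ((QuotientGroup.mk' A) g)⁻¹) * (QuotientGroup.mk' A) g := by group
        rw [e, h3, one_mul]
      rw [h2]
    rw [hsn] at hb'
    obtain ⟨d, hd, hdb⟩ := hb'
    have hda : d⁻¹ * b ∈ A := by
      rw [← QuotientGroup.eq_one_iff]
      show (QuotientGroup.mk' A) (d⁻¹ * b) = 1
      rw [map_mul, map_inv, hdb, inv_mul_cancel]
    have e : b = d * (d⁻¹ * b) := by group
    rw [e]
    exact Subgroup.mul_mem _ (Subgroup.mem_sup_right hd) (Subgroup.mem_sup_left hda)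
  · intro hnc x hx
    have hxB := (Subgroup.mem_inf.1 hx).1
    have hxD := (Subgroup.mem_inf.1 hx).2
    set Bb : Subgroup (G ⧸ A) := B.map (QuotientGroup.mk' A) with hBb
    haveI hBbn : Bb.Normal := Subgroup.Normal.map ‹B.Normal› _ (QuotientGroup.mk'_surjective A)
    have hcm : Bb.comap (QuotientGroup.mk' A) = B := by
      rw [hBb, Subgroup.comap_map_eq, QuotientGroup.ker_mk', sup_of_le_left hAB.le]
    have hBbne : Bb ≠ ⊥ := by
      intro h
      obtain ⟨b, hb, hbA⟩ := SetLike.exists_of_lt hAB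
      have : (QuotientGroup.mk' A) b ∈ Bb := ⟨b, hb, rfl⟩
      rw [h, Subgroup.mem_bot] at this
      exact hbA ((QuotientGroup.eq_one_iff b).1 this)
    have hBbmin : ∀ N : Subgroup (G ⧸ A), N.Normal → N ≤ Bb → N = ⊥ ∨ N = Bb := by
      intro N hN hNB
      have h1 : A ≤ N.comap (QuotientGroup.mk' A) := by
        intro a ha
        show (QuotientGroup.mk' A) a ∈ N
        have h0 : (QuotientGroup.mk' A) a = 1 := (QuotientGroup.eq_one_iff a).2 ha
        rw [h0]; exact N.one_mem
      have h2 : N.comap (QuotientGroup.mk' A) ≤ B := by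
        rw [← hcm]; exact Subgroup.comap_mono hNB
      have h3 : N = (N.comap (QuotientGroup.mk' A)).map (QuotientGroup.mk' A) :=
        (Subgroup.map_comap_eq_self_of_surjective (QuotientGroup.mk'_surjective A) N).symm
      rcases hchief _ (hN.comap _) h1 h2 with h | h
      · left
        rw [h3, h, eq_bot_iff]
        rintro _ ⟨a, ha, rfl⟩
        exact (QuotientGroup.eq_one_iff a).2 ha
      · right
        rw [h3, h]
    have hncb : ∃ b ∈ Bb, ∃ g : G ⧸ A, b * g ≠ g * b := by
      by_contra hcon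
      push Not at hcon
      apply hnc
      rw [Subgroup.commutator_le]
      intro b hb g _
      rw [← QuotientGroup.eq_one_iff]
      show (QuotientGroup.mk' A) ⁅b, g⁆ = 1
      rw [commutatorElement_def, map_mul, map_mul, map_mul, map_inv, map_inv,
        hcon _ ⟨b, hb, rfl⟩ ((QuotientGroup.mk' A) g)]
      group
    have hav := avoid _ hK' Bb hBbne hBbmin hncb
    have hx' : (QuotientGroup.mk' A) x ∈ Bb ⊓
        systemNormalizer (fun p => (K p).map (QuotientGroup.mk' A)) :=
      Subgroup.mem_inf.2 ⟨⟨x, hxB, rfl⟩, Cfsg.Agent.S0545.map_sn_le _ K ⟨x, hxD, rfl⟩⟩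
    rw [hav, Subgroup.mem_bot] at hx'
    exact (QuotientGroup.eq_one_iff x).1 hx'

end Cfsg.Agent.S0568
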