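import Mathlib
import Cfsg.Statements.S0570
import Cfsg.Agent.S0569

set_option autoImplicit false
open Pointwise
open Cfsg
open scoped commutatorElement

namespace Cfsg.Agent.S0570

open Cfsg.Agent.S0045 Cfsg.Agent.S0569

theorem center_ne_bot_of_nilpotent {F : Type*} [Group F] [Group.IsNilpotent F] [Nontrivial F] :
    Subgroup.center F ≠ ⊥ := by
  intro h
  obtain ⟨n, hn⟩ := Group.IsNilpotent.nilpotent F
  have hall : ∀ k, Subgroup.upperCentralSeries F k = ⊥ := by
    intro k
    induction k with
    | zero => exact Subgroup.upperCentralSeries_zero F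
    | succ k ih =>
      rw [eq_bot_iff]
      intro x hx
      rw [Subgroup.mem_upperCentralSeries_succ_iff] at hx
      rw [← h, Subgroup.mem_center_iff]
      intro y
      have h1 := hx y
      rw [ih, Subgroup.mem_bot, commutatorElement_def] at h1
      have e : x * y = (x * y * x⁻¹ * y⁻¹) * (y * x) := by group
      rw [e, h1, one_mul]
  rw [hall n] at hn
  exact bot_ne_top hn

/-- In a nilpotent group the system normalizer of a complement system is everything. -/
theorem sn_nilpotent {G : Type*} [Group G] [Finite G] [Group.IsNilpotent G]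
    (K : Nat.Primes → Subgroup G) (hK : IsComplementSystem K) : systemNormalizer K = ⊤ := by
  unfold systemNormalizer
  rw [iInf_eq_top]
  intro p
  rw [Subgroup.normalizer_eq_top_iff]
  exact nilp_pc_normal (K p) p p.2 _ (hK p) (Cfsg.Agent.S0543.cs_not_dvd hK p)

universe u in
theorem self_norm (n : ℕ) : ∀ (G : Type u) [Group G] [Finite G] [Group.IsSolvable G],
    Nat.card G = n → ∀ (F : Subgroup G) [F.Normal], Group.IsNilpotent F →
    Group.IsNilpotent (G ⧸ F) → ∀ K : Nat.Primes → Subgroup G, IsComplementSystem K →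
    Subgroup.normalizer ((systemNormalizer K : Subgroup G) : Set G) ≤ systemNormalizer K := by
  induction n using Nat.strong_induction_on with
  | _ n ih =>
  intro G _ _ _ hcard F hFn hF hGF K hK
  haveI := hF
  haveI := hGF
  have hDF : systemNormalizer K ⊔ F = ⊤ := by
    have h1 := Cfsg.Agent.S0545.sn_map (QuotientGroup.mk' F) (QuotientGroup.mk'_surjective F) hK
    rw [sn_nilpotent _ (Cfsg.Agent.S0545.cs_map (QuotientGroup.mk' F)
      (QuotientGroup.mk'_surjective F) hK)] at h1
    have h2 := congrArg (Subgroup.comap (QuotientGroup.mk' F)) h1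
    rw [Subgroup.comap_map_eq, QuotientGroup.ker_mk', Subgroup.comap_top] at h2
    exact h2.symm
  by_cases hF0 : F = ⊥
  · rw [hF0, sup_bot_eq] at hDF
    rw [hDF]; exact le_top
  -- Z = F ⊓ C(F)
  set Z : Subgroup G := F ⊓ Subgroup.centralizer (F : Set G) with hZ
  haveI hZn : Z.Normal := Subgroup.normal_inf_normal _ _
  have hZne : Z ≠ ⊥ := by
    haveI : Nontrivial F := by
      rw [← not_subsingleton_iff_nontrivial]
      intro hs
      exact hF0 ((Subgroup.eq_bot_iff_forall _).2 (fun x hx => by
        have := Subsingleton.elim (⟨x, hx⟩ : F) 1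
        exact congrArg Subtype.val this))
    have hc := center_ne_bot_of_nilpotent (F := F)
    obtain ⟨z, hz1⟩ := (Subgroup.ne_bot_iff_exists_ne_one).1 hc
    intro hb
    have hzZ : ((z : F) : G) ∈ Z := by
      refine Subgroup.mem_inf.2 ⟨(z : F).2, ?_⟩
      rw [Subgroup.mem_centralizer_iff]
      intro f hf
      have := Subgroup.mem_center_iff.1 z.2 ⟨f, hf⟩
      exact congrArg Subtype.val this
    rw [hb, Subgroup.mem_bot] at hzZ
    apply hz1
    exact Subtype.ext (Subtype.ext hzZ)
  obtain ⟨N, hNmin, hNZ⟩ := Cfsg.Agent.S0538.exists_minNormal_le Z hZn hZne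
  haveI hNn := hNmin.1
  have hNmin' : ∀ K' : Subgroup G, K'.Normal → K' ≤ N → K' = ⊥ ∨ K' = N := fun K' hK' hK'L => by
    by_cases h : K' = ⊥
    · exact Or.inl h
    · exact Or.inr (hNmin.2.2 K' hK' hK'L h)
  obtain ⟨hNc, r, d, hr, hd, hNcard, -⟩ :=
    Cfsg.Agent.S0547.minimal_normal_solvable N hNmin.2.1 hNmin'
  have hNF : ∀ m ∈ N, ∀ f ∈ F, f * m = m * f := by
    intro m hm f hf
    have := (Subgroup.mem_inf.1 (hNZ hm)).2
    rw [Subgroup.mem_centralizer_iff] at this
    exact this f hf
  -- quotient by N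
  have hK' := Cfsg.Agent.S0545.cs_map (QuotientGroup.mk' N) (QuotientGroup.mk'_surjective N) hK
  have hsn := Cfsg.Agent.S0545.sn_map (QuotientGroup.mk' N) (QuotientGroup.mk'_surjective N) hK
  have hcardq : Nat.card (G ⧸ N) < n := by
    rw [← hcard, ← Cfsg.Agent.S0003.card_quot N]
    have h1 : 1 < Nat.card N := by
      rw [hNcard]; exact Nat.one_lt_pow hd.ne' hr.one_lt
    nlinarith [Nat.card_pos (α := G ⧸ N)]
  haveI hFbn : (F.map (QuotientGroup.mk' N)).Normal :=
    Subgroup.Normal.map hFn _ (QuotientGroup.mk'_surjective N)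
  have hFb : Group.IsNilpotent (F.map (QuotientGroup.mk' N)) :=
    Group.nilpotent_of_surjective ((QuotientGroup.mk' N).subgroupMap F)
      ((QuotientGroup.mk' N).subgroupMap_surjective F)
  have hGFb : Group.IsNilpotent ((G ⧸ N) ⧸ F.map (QuotientGroup.mk' N)) := by
    have hle : F ≤ (F.map (QuotientGroup.mk' N)).comap (QuotientGroup.mk' N) :=
      Subgroup.le_comap_map _ _
    refine Group.nilpotent_of_surjective
      (QuotientGroup.map F (F.map (QuotientGroup.mk' N)) (QuotientGroup.mk' N) hle) ?_
    intro y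
    obtain ⟨z, rfl⟩ := QuotientGroup.mk'_surjective _ y
    obtain ⟨g, rfl⟩ := QuotientGroup.mk'_surjective N z
    exact ⟨QuotientGroup.mk' F g, rfl⟩
  have hq := ih _ hcardq (G ⧸ N) rfl (F.map (QuotientGroup.mk' N)) hFb hGFb _ hK'
  rw [hsn] at hq
  have hND : Subgroup.normalizer ((systemNormalizer K : Subgroup G) : Set G) ≤
      systemNormalizer K ⊔ N := by
    intro x hx
    have h1 : (QuotientGroup.mk' N) x ∈ (systemNormalizer K).map (QuotientGroup.mk' N) :=
      hq (Subgroup.le_normalizer_map _ ⟨x, hx, rfl⟩)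
    have h2 : x ∈ ((systemNormalizer K).map (QuotientGroup.mk' N)).comap (QuotientGroup.mk' N) := h1
    rwa [Subgroup.comap_map_eq, QuotientGroup.ker_mk'] at h2
  by_cases hcen : ∀ m ∈ N, ∀ g : G, m * g = g * m
  · have hNle : N ≤ systemNormalizer K := by
      intro m hm
      unfold systemNormalizer
      rw [Subgroup.mem_iInf]
      intro p
      rw [Subgroup.mem_normalizer_iff]
      intro h
      have : m * h * m⁻¹ = h := by
        rw [hcen m hm h]; group
      rw [this]
    rw [sup_of_le_left hNle] at hND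
    exact hND
  · push Not at hcen
    obtain ⟨m0, hm0, g0, hmg0⟩ := hcen
    have hav := Cfsg.Agent.S0568.avoid K hK N hNmin.2.1 hNmin' ⟨m0, hm0, g0, hmg0⟩
    have hW : N ⊓ Subgroup.center G = ⊥ := by
      rcases hNmin' (N ⊓ Subgroup.center G) (Subgroup.normal_inf_normal _ _) inf_le_left with h | h
      · exact h
      · exfalso
        have hm0' : m0 ∈ N ⊓ Subgroup.center G := by
          rw [h]; exact hm0
        have : m0 ∈ Subgroup.center G := (Subgroup.mem_inf.1 hm0').2
        exact hmg0 (Subgroup.mem_center_iff.1 this g0).symm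
    intro x hx
    have hx' : x ∈ ((systemNormalizer K ⊔ N : Subgroup G) : Set G) := hND hx
    rw [Subgroup.mul_normal] at hx'
    obtain ⟨e, he, m, hm, rfl⟩ := hx'
    change e * m ∈ Subgroup.normalizer ((systemNormalizer K : Subgroup G) : Set G) at hx
    show e * m ∈ systemNormalizer K
    have hmn : m ∈ Subgroup.normalizer ((systemNormalizer K : Subgroup G) : Set G) := by
      have := Subgroup.mul_mem _ (Subgroup.inv_mem _ (Subgroup.le_normalizer he)) hx
      simpa using this
    have hmD : ∀ y ∈ systemNormalizer K, m * y = y * m := by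
      intro y hy
      have h1 : m * y * m⁻¹ * y⁻¹ ∈ N ⊓ systemNormalizer K := by
        refine Subgroup.mem_inf.2 ⟨?_, ?_⟩
        · have h2 : y * m⁻¹ * y⁻¹ ∈ N := hNn.conj_mem _ (N.inv_mem hm) y
          have h3 := N.mul_mem hm h2
          have e1 : m * (y * m⁻¹ * y⁻¹) = m * y * m⁻¹ * y⁻¹ := by group
          rw [e1] at h3; exact h3
        · exact Subgroup.mul_mem _ ((Subgroup.mem_normalizer_iff.1 hmn y).1 hy)
            (Subgroup.inv_mem _ hy)
      rw [hav, Subgroup.mem_bot] at h1
      have e1 : m * y = (m * y * m⁻¹ * y⁻¹) * (y * m) := by group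
      rw [e1, h1, one_mul]
    have hmc : m ∈ N ⊓ Subgroup.center G := by
      refine Subgroup.mem_inf.2 ⟨hm, ?_⟩
      rw [Subgroup.mem_center_iff]
      intro g
      have hg : g ∈ ((systemNormalizer K ⊔ F : Subgroup G) : Set G) := by
        rw [hDF]; trivial
      rw [Subgroup.mul_normal] at hg
      obtain ⟨y, hy, f, hf, rfl⟩ := hg
      calc y * f * m = y * (f * m) := by group
        _ = y * (m * f) := by rw [hNF m hm f hf]
        _ = (y * m) * f := by group
        _ = (m * y) * f := by rw [hmD y hy]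
        _ = m * (y * f) := by group
    rw [hW, Subgroup.mem_bot] at hmc
    rw [hmc, mul_one]; exact he

theorem result {G : Type*} [Group G] [Finite G] (F : Subgroup G) [F.Normal] (hF : Group.IsNilpotent F) (hGF : Group.IsNilpotent (G ⧸ F)) (C : Subgroup G) : Cfsg.IsCarterSubgroup C ↔ ∃ K : Nat.Primes → Subgroup G, Cfsg.IsComplementSystem K ∧ C = Cfsg.systemNormalizer K := by
  haveI := hF
  haveI := hGF
  haveI : Group.IsSolvable G :=
    Group.isSolvable_of_ker_le_range F.subtype (QuotientGroup.mk' F) (by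
      rw [QuotientGroup.ker_mk', Subgroup.range_subtype])
  have hcarter : ∀ K : Nat.Primes → Subgroup G, IsComplementSystem K →
      IsCarterSubgroup (systemNormalizer K) := fun K hK =>
    ⟨Cfsg.Agent.S0544.result K hK,
      le_antisymm (self_norm _ G rfl F hF hGF K hK) Subgroup.le_normalizer⟩
  constructor
  · intro hC
    obtain ⟨K, hK, hDC⟩ := Cfsg.Agent.S0569.result.1 C hC
    refine ⟨K, hK, le_antisymm ?_ hDC⟩
    haveI := hC.1
    have hrc : RC (systemNormalizer K) C := rc_of_le ((rc_top _).2 (hcarter K hK)) hDC le_top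
    have h1 := carter_eq_top_of_nilpotent (carter_of_rc hrc)
    exact Subgroup.subgroupOf_eq_top.1 h1
  · rintro ⟨K, hK, rfl⟩
    exact hcarter K hK

end Cfsg.Agent.S0570
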