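import Mathlib
import Cfsg.Statements.S0573
import Cfsg.Agent.S0572

set_option autoImplicit false
open Pointwise
open Cfsg
open scoped commutatorElement

namespace Cfsg.Agent.S0573

/-- If no nontrivial normal subgroup lies in a factor, the centre is trivial. -/
theorem center_trivial {G : Type*} [Group G] (A B : Subgroup G) [IsMulCommutative A]
    [IsMulCommutative B] (hAB : ∀ g : G, ∃ a ∈ A, ∃ b ∈ B, g = a * b)
    (hNA : ∀ N : Subgroup G, N.Normal → N ≤ A → N = ⊥)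
    (hNB : ∀ N : Subgroup G, N.Normal → N ≤ B → N = ⊥) : Subgroup.center G = ⊥ := by
  have hsubn : ∀ X : Subgroup G, (Subgroup.center G ⊓ X).Normal := by
    intro X
    constructor
    intro x hx g
    have h1 := Subgroup.mem_center_iff.1 (Subgroup.mem_inf.1 hx).1 g
    have : g * x * g⁻¹ = x := by rw [h1]; group
    rw [this]; exact hx
  have h1 : Subgroup.center G ⊓ A = ⊥ := hNA _ (hsubn A) inf_le_right
  have h2 : Subgroup.center G ⊓ B = ⊥ := hNB _ (hsubn B) inf_le_right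
  rw [eq_bot_iff]
  intro z hz
  obtain ⟨a, ha, b, hb, rfl⟩ := hAB z
  have hac : a ∈ Subgroup.center G := by
    rw [Subgroup.mem_center_iff]
    intro g
    obtain ⟨a', ha', b', hb', rfl⟩ := hAB g
    have e1 : a * a' = a' * a := setLike_mul_comm ha ha'
    have e2 : a * b' = b' * a := by
      have hzb := Subgroup.mem_center_iff.1 hz b'
      have hbb : b * b' = b' * b := setLike_mul_comm hb hb'
      calc a * b' = a * (b * b') * b⁻¹ := by rw [hbb]; group
        _ = (a * b) * b' * b⁻¹ := by group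
        _ = b' * (a * b) * b⁻¹ := by rw [hzb]
        _ = b' * a := by group
    calc a' * b' * a = a' * (b' * a) := by group
      _ = a' * (a * b') := by rw [e2]
      _ = (a' * a) * b' := by group
      _ = (a * a') * b' := by rw [e1]
      _ = a * (a' * b') := by group
  have ha1 : a = 1 := by
    have : a ∈ Subgroup.center G ⊓ A := Subgroup.mem_inf.2 ⟨hac, ha⟩
    rw [h1, Subgroup.mem_bot] at this; exact this
  have hbc : b ∈ Subgroup.center G := by
    have := (Subgroup.center G).mul_mem ((Subgroup.center G).inv_mem hac) hz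
    simpa using this
  have hb1 : b = 1 := by
    have : b ∈ Subgroup.center G ⊓ B := Subgroup.mem_inf.2 ⟨hbc, hb⟩
    rw [h2, Subgroup.mem_bot] at this; exact this
  rw [ha1, hb1, mul_one]; exact Subgroup.one_mem _

/-- An element of `A` centralizing the commutator subgroup is trivial. -/
theorem cent_trivial {G : Type*} [Group G] (A B : Subgroup G) [IsMulCommutative A]
    [IsMulCommutative B] (hAB : ∀ g : G, ∃ a ∈ A, ∃ b ∈ B, g = a * b)
    (hZ : Subgroup.center G = ⊥)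
    (hNA : ∀ N : Subgroup G, N.Normal → N ≤ A → N = ⊥) (x : G) (hx : x ∈ A)
    (hxV : ∀ v ∈ commutator G, x * v = v * x) : x = 1 := by
  have hAVn : (A ⊔ commutator G).Normal := by
    constructor
    intro h hh g
    have e : g * h * g⁻¹ = ⁅g, h⁆ * h := by rw [commutatorElement_def]; group
    rw [e]
    exact Subgroup.mul_mem _ (Subgroup.mem_sup_right
      (Subgroup.commutator_mem_commutator (Subgroup.mem_top g) (Subgroup.mem_top h))) hh
  haveI := hAVn
  set Z : Subgroup G := (A ⊔ commutator G) ⊓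
    Subgroup.centralizer ((A ⊔ commutator G : Subgroup G) : Set G) with hZdef
  have hZn : Z.Normal := Subgroup.normal_inf_normal _ _
  have hZA : Z ≤ A := by
    intro z hz
    have hzc := (Subgroup.mem_inf.1 hz).2
    rw [Subgroup.mem_centralizer_iff] at hzc
    obtain ⟨a, ha, b, hb, rfl⟩ := hAB z
    have hbc : b ∈ Subgroup.center G := by
      rw [Subgroup.mem_center_iff]
      intro g
      obtain ⟨a', ha', b', hb', rfl⟩ := hAB g
      have e1 : b * b' = b' * b := setLike_mul_comm hb hb'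
      have e2 : a' * b = b * a' := by
        have h1 := hzc a' (Subgroup.mem_sup_left ha')
        have h2 : a' * a = a * a' := setLike_mul_comm ha' ha
        calc a' * b = a⁻¹ * (a * a') * b := by group
          _ = a⁻¹ * (a' * a) * b := by rw [h2]
          _ = a⁻¹ * (a' * (a * b)) := by group
          _ = a⁻¹ * (a * b * a') := by rw [h1]
          _ = b * a' := by group
      calc a' * b' * b = a' * (b' * b) := by group
        _ = a' * (b * b') := by rw [e1]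
        _ = (a' * b) * b' := by group
        _ = (b * a') * b' := by rw [e2]
        _ = b * (a' * b') := by group
    rw [hZ, Subgroup.mem_bot] at hbc
    rw [hbc, mul_one]; exact ha
  have hZb := hNA Z hZn hZA
  have hxZ : x ∈ Z := by
    refine Subgroup.mem_inf.2 ⟨Subgroup.mem_sup_left hx, ?_⟩
    rw [Subgroup.mem_centralizer_iff]
    intro h hh
    have hh' : h ∈ ((A ⊔ commutator G : Subgroup G) : Set G) := hh
    rw [Subgroup.mul_normal] at hh'
    obtain ⟨a, ha, v, hv, rfl⟩ := hh'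
    have e1 : a * x = x * a := setLike_mul_comm ha hx
    calc a * v * x = a * (v * x) := by group
      _ = a * (x * v) := by rw [hxV v hv]
      _ = (a * x) * v := by group
      _ = (x * a) * v := by rw [e1]
      _ = x * (a * v) := by group
  rw [hZb, Subgroup.mem_bot] at hxZ
  exact hxZ

theorem result {G : Type*} [Group G] [Finite G] [Nontrivial G] (A B : Subgroup G) [IsMulCommutative A] [IsMulCommutative B] (hAB : ∀ g : G, ∃ a ∈ A, ∃ b ∈ B, g = a * b) : ∃ N : Subgroup G, N.Normal ∧ N ≠ ⊥ ∧ (N ≤ A ∨ N ≤ B) := by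
  by_contra hcon
  push Not at hcon
  have hNA : ∀ N : Subgroup G, N.Normal → N ≤ A → N = ⊥ := fun N hN hle => by
    by_contra h; exact (hcon N hN h).1 hle
  have hNB : ∀ N : Subgroup G, N.Normal → N ≤ B → N = ⊥ := fun N hN hle => by
    by_contra h; exact (hcon N hN h).2 hle
  have hBA : ∀ g : G, ∃ b ∈ B, ∃ a ∈ A, g = b * a := by
    intro g
    obtain ⟨a, ha, b, hb, e⟩ := hAB g⁻¹
    refine ⟨b⁻¹, B.inv_mem hb, a⁻¹, A.inv_mem ha, ?_⟩
    have : g = (g⁻¹)⁻¹ := by group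
    rw [this, e]; group
  have hZ := center_trivial A B hAB hNA hNB
  have hcA := cent_trivial A B hAB hZ hNA
  have hcB := cent_trivial B A hBA hZ hNB
  set V : Subgroup G := commutator G with hV
  haveI hVn : V.Normal := by
    rw [hV, commutator_def]; infer_instance
  have hVab : ∀ x ∈ V, ∀ y ∈ V, x * y = y * x := by
    intro x hx y hy
    have h2 : ⁅commutator G, commutator G⁆ = ⊥ := by
      rw [← derivedSeries_one, ← derivedSeries_succ]
      exact Cfsg.Agent.S0572.result A B hAB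
    have h3 : ⁅x, y⁆ ∈ ⁅commutator G, commutator G⁆ := Subgroup.commutator_mem_commutator hx hy
    rw [h2, Subgroup.mem_bot, commutatorElement_def] at h3
    have e : x * y = (x * y * x⁻¹ * y⁻¹) * (y * x) := by group
    rw [e, h3, one_mul]
  have hVne : V ≠ ⊥ := by
    intro h
    obtain ⟨x, hx⟩ := exists_ne (1 : G)
    apply hx
    have : x ∈ Subgroup.center G := by
      rw [Subgroup.mem_center_iff]
      intro g
      have h3 : ⁅g, x⁆ ∈ V := Subgroup.commutator_mem_commutator (Subgroup.mem_top g) (Subgroup.mem_top x)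
      rw [h, Subgroup.mem_bot, commutatorElement_def] at h3
      have e : g * x = (g * x * g⁻¹ * x⁻¹) * (x * g) := by group
      rw [e, h3, one_mul]
    rw [hZ, Subgroup.mem_bot] at this
    exact this
  have hAV : ∀ x, x ∈ A → x ∈ V → x = 1 := fun x hxA hxV =>
    hcA x hxA (fun v hv => hVab x hxV v hv)
  have hBV : ∀ x, x ∈ B → x ∈ V → x = 1 := fun x hxB hxV =>
    hcB x hxB (fun v hv => hVab x hxV v hv)
  have hconjV : ∀ (g : G) (v : G), v ∈ V → g⁻¹ * v * g ∈ V := by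
    intro g v hv
    have := hVn.conj_mem v hv g⁻¹
    simpa using this
  -- the relation
  let R : G → G → Prop := fun a v => a ∈ A ∧ v ∈ V ∧ a * v⁻¹ ∈ B
  have R1 : ∀ v ∈ V, ∃ a, R a v := by
    intro v hv
    obtain ⟨b, hb, a, ha, e⟩ := hBA v
    refine ⟨a, ha, hv, ?_⟩
    have : a * v⁻¹ = b⁻¹ := by rw [e]; group
    rw [this]; exact B.inv_mem hb
  have R2 : ∀ a v v₁, R a v → R a v₁ → v = v₁ := by
    rintro a v v₁ ⟨ha, hv, hb⟩ ⟨-, hv₁, hb₁⟩
    have h1 : v * v₁⁻¹ ∈ B := by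
      have := B.mul_mem (B.inv_mem hb) hb₁
      have e : (a * v⁻¹)⁻¹ * (a * v₁⁻¹) = v * v₁⁻¹ := by group
      rw [e] at this; exact this
    have h2 := hBV _ h1 (V.mul_mem hv (V.inv_mem hv₁))
    calc v = (v * v₁⁻¹) * v₁ := by group
      _ = v₁ := by rw [h2, one_mul]
  have R3 : ∀ a v a' v', R a v → R a' v' → R (a * a') ((a'⁻¹ * v * a') * v') := by
    rintro a v a' v' ⟨ha, hv, hb⟩ ⟨ha', hv', hb'⟩
    refine ⟨A.mul_mem ha ha', V.mul_mem (hconjV a' v hv) hv', ?_⟩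
    have hu : a'⁻¹ * v⁻¹ * a' ∈ V := hconjV a' v⁻¹ (V.inv_mem hv)
    have hcomm := hVab _ (V.inv_mem hv') _ hu
    have e : a * a' * ((a'⁻¹ * v * a') * v')⁻¹ = (a * v⁻¹) * (a' * v'⁻¹) := by
      calc a * a' * ((a'⁻¹ * v * a') * v')⁻¹ = a * a' * (v'⁻¹ * (a'⁻¹ * v⁻¹ * a')) := by group
        _ = a * a' * ((a'⁻¹ * v⁻¹ * a') * v'⁻¹) := by rw [hcomm]
        _ = (a * v⁻¹) * (a' * v'⁻¹) := by group
    rw [e]
    exact B.mul_mem hb hb'
  have RI : ∀ a v a' v', R a v → R a' v' →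
      v⁻¹ * (a'⁻¹ * v * a') = v'⁻¹ * (a⁻¹ * v' * a) := by
    intro a v a' v' h h'
    have h1 := R3 a v a' v' h h'
    have h2 := R3 a' v' a v h' h
    have hc : a * a' = a' * a := setLike_mul_comm h.1 h'.1
    rw [hc] at h1
    have h3 := R2 _ _ _ h1 h2
    -- h3 : a'⁻¹ * v * a' * v' = a⁻¹ * v' * a * v
    have hX : a'⁻¹ * v * a' ∈ V := hconjV a' v h.2.1
    have hY : a⁻¹ * v' * a ∈ V := hconjV a v' h'.2.1
    have c1 := hVab _ (V.inv_mem h.2.1) _ hX
    have c2 := hVab _ (V.inv_mem h'.2.1) _ hY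
    have c3 := hVab _ h.2.1 _ (V.inv_mem h'.2.1)
    calc v⁻¹ * (a'⁻¹ * v * a') = (a'⁻¹ * v * a') * v⁻¹ := c1
      _ = ((a'⁻¹ * v * a') * v') * (v'⁻¹ * v⁻¹) := by group
      _ = ((a⁻¹ * v' * a) * v) * (v'⁻¹ * v⁻¹) := by rw [h3]
      _ = (a⁻¹ * v' * a) * (v * v'⁻¹) * v⁻¹ := by group
      _ = (a⁻¹ * v' * a) * (v'⁻¹ * v) * v⁻¹ := by rw [c3]
      _ = (a⁻¹ * v' * a) * v'⁻¹ := by group
      _ = v'⁻¹ * (a⁻¹ * v' * a) := c2.symm
  have R0 : R 1 1 := ⟨A.one_mem, V.one_mem, by simp⟩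
  -- minimal invariant subgroup
  let Inv : Subgroup G → Prop := fun I => I ≠ ⊥ ∧ I ≤ V ∧
    ∀ a v, R a v → ∀ x ∈ I, a⁻¹ * x * a ∈ I
  have hInvV : Inv V := ⟨hVne, le_rfl, fun a v _ x hx => hconjV a x hx⟩
  obtain ⟨I, -, hI⟩ := Finite.exists_le_minimal (p := Inv) (a := V) hInvV
  obtain ⟨hIne, hIV, hIinv⟩ := hI.prop
  obtain ⟨x, hxI, hx1⟩ : ∃ x ∈ I, x ≠ 1 := by
    by_contra h
    push Not at h
    exact hIne ((Subgroup.eq_bot_iff_forall I).2 h)
  have hxV : x ∈ V := hIV hxI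
  obtain ⟨ax, hax⟩ := R1 x hxV
  let J : Subgroup G :=
    { carrier := {y | ∃ w ∈ V, y = w⁻¹ * (ax⁻¹ * w * ax)}
      one_mem' := ⟨1, V.one_mem, by group⟩
      mul_mem' := by
        rintro _ _ ⟨w, hw, rfl⟩ ⟨w', hw', rfl⟩
        refine ⟨w * w', V.mul_mem hw hw', ?_⟩
        have hc := hVab _ (hconjV ax w hw) _ (V.inv_mem hw')
        calc w⁻¹ * (ax⁻¹ * w * ax) * (w'⁻¹ * (ax⁻¹ * w' * ax))
            = w⁻¹ * ((ax⁻¹ * w * ax) * w'⁻¹) * (ax⁻¹ * w' * ax) := by group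
          _ = w⁻¹ * (w'⁻¹ * (ax⁻¹ * w * ax)) * (ax⁻¹ * w' * ax) := by rw [hc]
          _ = w⁻¹ * w'⁻¹ * (ax⁻¹ * (w * w') * ax) := by group
          _ = (w * w')⁻¹ * (ax⁻¹ * (w * w') * ax) := by
            rw [hVab w hw w' hw']; group
      inv_mem' := by
        rintro _ ⟨w, hw, rfl⟩
        refine ⟨w⁻¹, V.inv_mem hw, ?_⟩
        have hc := hVab _ (hconjV ax w⁻¹ (V.inv_mem hw)) _ hw
        calc (w⁻¹ * (ax⁻¹ * w * ax))⁻¹ = (ax⁻¹ * w⁻¹ * ax) * w := by group
          _ = w * (ax⁻¹ * w⁻¹ * ax) := hc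
          _ = (w⁻¹)⁻¹ * (ax⁻¹ * w⁻¹ * ax) := by group }
  have hJI : J ≤ I := by
    rintro _ ⟨w, hw, rfl⟩
    obtain ⟨aw, haw⟩ := R1 w hw
    rw [RI aw w ax x haw hax]
    exact I.mul_mem (I.inv_mem hxI) (hIinv aw w haw x hxI)
  have hJinv : ∀ a v, R a v → ∀ y ∈ J, a⁻¹ * y * a ∈ J := by
    rintro a v hav _ ⟨w, hw, rfl⟩
    refine ⟨a⁻¹ * w * a, hconjV a w hw, ?_⟩
    have hc : a * ax = ax * a := setLike_mul_comm hav.1 hax.1
    have hc' : ax⁻¹ * a⁻¹ = a⁻¹ * ax⁻¹ := by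
      calc ax⁻¹ * a⁻¹ = (a * ax)⁻¹ := by group
        _ = (ax * a)⁻¹ := by rw [hc]
        _ = a⁻¹ * ax⁻¹ := by group
    calc a⁻¹ * (w⁻¹ * (ax⁻¹ * w * ax)) * a
        = a⁻¹ * w⁻¹ * ax⁻¹ * w * (ax * a) := by group
      _ = a⁻¹ * w⁻¹ * ax⁻¹ * w * (a * ax) := by rw [hc]
      _ = a⁻¹ * w⁻¹ * a * (a⁻¹ * ax⁻¹) * w * a * ax := by group
      _ = a⁻¹ * w⁻¹ * a * (ax⁻¹ * a⁻¹) * w * a * ax := by rw [hc']
      _ = (a⁻¹ * w * a)⁻¹ * (ax⁻¹ * (a⁻¹ * w * a) * ax) := by group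
  by_cases hJ : J = ⊥
  · -- ax centralizes V
    have hcen : ∀ w ∈ V, ax * w = w * ax := by
      intro w hw
      have : w⁻¹ * (ax⁻¹ * w * ax) ∈ J := ⟨w, hw, rfl⟩
      rw [hJ, Subgroup.mem_bot] at this
      calc ax * w = w * ax * (w⁻¹ * (ax⁻¹ * w * ax))⁻¹ := by group
        _ = w * ax := by rw [this]; group
    have hax1 := hcA ax hax.1 hcen
    rw [hax1] at hax
    exact hx1 (R2 1 x 1 hax R0)
  · have hIJ : I ≤ J := hI.le_of_le ⟨hJ, hJI.trans hIV, hJinv⟩ hJI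
    obtain ⟨w, hw, hxw⟩ := hIJ hxI
    obtain ⟨au, hau⟩ := R1 w⁻¹ (V.inv_mem hw)
    have h1 := RI au w⁻¹ ax x hau hax
    have hc := hVab _ (hconjV ax w⁻¹ (V.inv_mem hw)) _ hw
    have h2 : (w⁻¹)⁻¹ * (ax⁻¹ * w⁻¹ * ax) = x⁻¹ := by
      rw [hxw]
      calc (w⁻¹)⁻¹ * (ax⁻¹ * w⁻¹ * ax) = w * (ax⁻¹ * w⁻¹ * ax) := by group
        _ = (ax⁻¹ * w⁻¹ * ax) * w := hc.symm
        _ = (w⁻¹ * (ax⁻¹ * w * ax))⁻¹ := by group
    rw [h2] at h1
    have h3 : au⁻¹ * x * au = 1 := by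
      calc au⁻¹ * x * au = x * (x⁻¹ * (au⁻¹ * x * au)) := by group
        _ = x * x⁻¹ := by rw [← h1]
        _ = 1 := by group
    apply hx1
    calc x = au * (au⁻¹ * x * au) * au⁻¹ := by group
      _ = 1 := by rw [h3]; group

end Cfsg.Agent.S0573
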