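import Mathlib
import Cfsg.Statements.S0571
import Cfsg.Agent.S0573
import Cfsg.Agent.S0528
import Cfsg.Agent.S0003

set_option autoImplicit false
open Pointwise
open Cfsg

namespace Cfsg.Agent.S0571

open Cfsg.Agent.S0528

universe u in
theorem aux (n : ℕ) : ∀ (G : Type u) [Group G] [Finite G], Nat.card G = n →
    ∀ (A B : Subgroup G), IsCyclic A → IsCyclic B →
    (∀ g : G, ∃ a ∈ A, ∃ b ∈ B, g = a * b) → Cfsg.IsSupersolvable G := by
  induction n using Nat.strong_induction_on with
  | _ n ih =>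
  intro G _ _ hcard A B hA hB hAB
  by_cases hG : Subsingleton G
  · rw [supersolvable_iff_reach]
    have : (⊤ : Subgroup G) = ⊥ := Subsingleton.elim _ _
    rw [this]; exact Reach.bot
  rw [not_subsingleton_iff_nontrivial] at hG
  haveI := hA
  haveI := hB
  haveI : IsMulCommutative A := ⟨⟨fun a b => by
    letI := IsCyclic.commGroup (α := A)
    exact mul_comm a b⟩⟩
  haveI : IsMulCommutative B := ⟨⟨fun a b => by
    letI := IsCyclic.commGroup (α := B)
    exact mul_comm a b⟩⟩
  obtain ⟨N, hNn, hNne, hNle⟩ := Cfsg.Agent.S0573.result A B hAB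
  haveI := hNn
  haveI : IsCyclic N := by
    rcases hNle with h | h
    · exact isCyclic_of_surjective (Subgroup.subgroupOfEquivOfLe h)
        (Subgroup.subgroupOfEquivOfLe h).surjective
    · exact isCyclic_of_surjective (Subgroup.subgroupOfEquivOfLe h)
        (Subgroup.subgroupOfEquivOfLe h).surjective
  apply Cfsg.Agent.S0528.result N
  have hcardq : Nat.card (G ⧸ N) < n := by
    rw [← hcard, ← Cfsg.Agent.S0003.card_quot N]
    have h1 : 1 < Nat.card N := (Subgroup.one_lt_card_iff_ne_bot N).2 hNne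
    nlinarith [Nat.card_pos (α := G ⧸ N)]
  refine ih _ hcardq (G ⧸ N) rfl (A.map (QuotientGroup.mk' N)) (B.map (QuotientGroup.mk' N)) ?_ ?_ ?_
  · exact isCyclic_of_surjective ((QuotientGroup.mk' N).subgroupMap A)
      ((QuotientGroup.mk' N).subgroupMap_surjective A)
  · exact isCyclic_of_surjective ((QuotientGroup.mk' N).subgroupMap B)
      ((QuotientGroup.mk' N).subgroupMap_surjective B)
  · intro y
    obtain ⟨g, rfl⟩ := QuotientGroup.mk'_surjective N y
    obtain ⟨a, ha, b, hb, rfl⟩ := hAB g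
    exact ⟨_, ⟨a, ha, rfl⟩, _, ⟨b, hb, rfl⟩, map_mul _ a b⟩

theorem result {G : Type*} [Group G] [Finite G] (A B : Subgroup G) [IsCyclic A] [IsCyclic B] (hAB : ∀ g : G, ∃ a ∈ A, ∃ b ∈ B, g = a * b) : Cfsg.IsSupersolvable G :=
  aux _ G rfl A B inferInstance inferInstance hAB

end Cfsg.Agent.S0571
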