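import Mathlib
import Cfsg.Statements.S0575

set_option autoImplicit false
open Cfsg

namespace Cfsg.Agent.S0575

theorem result {G : Type*} [Group G] [Finite G] (H : Subgroup G) [H.Normal] : (frattini ↥H).map H.subtype ≤ frattini G := by
  have hnorm : ((frattini ↥H).map H.subtype).Normal := inferInstance
  show _ ≤ Order.radical (Subgroup G)
  rw [Order.radical]
  apply le_iInf₂
  intro M hM
  by_contra hnot
  have htop : M ⊔ (frattini ↥H).map H.subtype = ⊤ := hM.2 _ (left_lt_sup.mpr hnot)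
  have key : M.subgroupOf H ⊔ frattini ↥H = ⊤ := by
    rw [eq_top_iff]
    rintro ⟨h, hh⟩ -
    have hmem : h ∈ ((M ⊔ (frattini ↥H).map H.subtype : Subgroup G) : Set G) := by
      rw [htop]; trivial
    rw [Subgroup.mul_normal, Set.mem_mul] at hmem
    obtain ⟨m, hm, φ, hφ, e⟩ := hmem
    obtain ⟨φ', hφ', rfl⟩ := Subgroup.mem_map.mp hφ
    have hmH : m ∈ H := by
      have : m = h * (φ' : G)⁻¹ := by rw [← e]; simp
      rw [this]
      exact H.mul_mem hh (H.inv_mem φ'.2)
    have e2 : (⟨h, hh⟩ : H) = ⟨m, hmH⟩ * φ' := Subtype.ext e.symm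
    rw [e2]
    exact Subgroup.mul_mem_sup (Subgroup.mem_subgroupOf.mpr hm) hφ'
  have h1 := frattini_nongenerating key
  rw [Subgroup.subgroupOf_eq_top] at h1
  exact hnot ((Subgroup.map_subtype_le _).trans h1)

end Cfsg.Agent.S0575
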