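import Mathlib
import Cfsg.Statements.S0576

set_option autoImplicit false
open Pointwise
open Cfsg

namespace Cfsg.Agent.S0576

theorem result {G : Type*} [Group G] [Finite G] (H : Subgroup G) [H.Normal] (hH : H ≤ frattini G) : (MulAut.conj : ↥H →* MulAut ↥H).range ≤ frattini (MulAut ↥H) := by
  classical
  set ψ : G →* MulAut ↥H := MulAut.conjNormal with hψ
  have hψH : ∀ h : ↥H, ψ (h : G) = MulAut.conj h := by
    intro h
    ext x
    simp [hψ]
  simp_rw [frattini, Order.radical, le_iInf_iff]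
  intro M hM
  by_contra hnot
  have htop : (MulAut.conj : ↥H →* MulAut ↥H).range ⊔ M = ⊤ :=
    hM.2 _ (lt_of_le_of_ne le_sup_right (fun h => hnot (h ▸ le_sup_left)))
  haveI hnorm : ((MulAut.conj : ↥H →* MulAut ↥H).range).Normal := by
    constructor
    rintro _ ⟨h, rfl⟩ φ
    refine ⟨φ h, ?_⟩
    ext x
    simp
  set L : Subgroup G := M.comap ψ with hL
  have hHL : H ⊔ L = ⊤ := by
    rw [eq_top_iff]
    intro g _
    have hg : ψ g ∈ (MulAut.conj : ↥H →* MulAut ↥H).range ⊔ M := by rw [htop]; trivial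
    rw [← SetLike.mem_coe, Subgroup.normal_mul] at hg
    obtain ⟨_, ⟨h, rfl⟩, m, hm, e⟩ := hg
    have e' : MulAut.conj h * m = ψ g := e
    have h1 : (h : G)⁻¹ * g ∈ L := by
      rw [hL, Subgroup.mem_comap, map_mul, map_inv, hψH, ← e', inv_mul_cancel_left]
      exact hm
    have h2 : g = (h : G) * ((h : G)⁻¹ * g) := by group
    rw [h2]
    exact Subgroup.mul_mem _ (Subgroup.mem_sup_left h.2) (Subgroup.mem_sup_right h1)
  have hLtop : L = ⊤ := by
    apply frattini_nongenerating
    rw [eq_top_iff, ← hHL]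
    exact sup_le (le_sup_of_le_right hH) le_sup_left
  apply hnot
  rintro _ ⟨h, rfl⟩
  have h3 : (h : G) ∈ L := by rw [hLtop]; trivial
  rw [hL, Subgroup.mem_comap, hψH] at h3
  exact h3

end Cfsg.Agent.S0576
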