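import Cfsg.Statements.S0577
import Mathlib
import Cfsg.Agent.S0536
import Cfsg.Agent.Lib.Helper5.Coprime

set_option autoImplicit false
open Cfsg

namespace Cfsg.Agent.S0577

open Cfsg.Agent.Lib.Helper5.Coprime
open Cfsg.Agent.S0536
open scoped commutatorElement

theorem comm_mem {G : Type*} [Group G] (Q : Subgroup G) (g : G) (hQn : Q.Normal)
    (htop : Q ⊔ Subgroup.zpowers g = ⊤) : ∀ y z : G, y * z * y⁻¹ * z⁻¹ ∈ Q := by
  have hdec : ∀ y : G, ∃ q ∈ Q, ∃ i : ℤ, q * g ^ i = y := by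
    intro y
    have hy : y ∈ Q ⊔ Subgroup.zpowers g := by
      rw [htop]
      exact Subgroup.mem_top y
    obtain ⟨q, hq, z, hz, rfl⟩ := (Subgroup.mem_sup_of_normal_left (hs := hQn)).1 hy
    obtain ⟨i, rfl⟩ := Subgroup.mem_zpowers_iff.1 hz
    exact ⟨q, hq, i, rfl⟩
  have hmk : ∀ y : G, ∃ i : ℤ, (QuotientGroup.mk' Q) y = (QuotientGroup.mk' Q) g ^ i := by
    intro y
    obtain ⟨q, hq, i, rfl⟩ := hdec y
    refine ⟨i, ?_⟩
    have hπq : (QuotientGroup.mk' Q) q = 1 := (QuotientGroup.eq_one_iff q).2 hq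
    rw [map_mul, hπq, one_mul, map_zpow]
  intro y z
  obtain ⟨i, hi⟩ := hmk y
  obtain ⟨j, hj⟩ := hmk z
  rw [← QuotientGroup.eq_one_iff (N := Q)]
  show (QuotientGroup.mk' Q) (y * z * y⁻¹ * z⁻¹) = 1
  rw [map_mul, map_mul, map_mul, map_inv, map_inv, hi, hj]
  have hcm : Commute ((QuotientGroup.mk' Q) g ^ i) ((QuotientGroup.mk' Q) g ^ j) :=
    (Commute.refl _).zpow_zpow i j
  rw [hcm.eq]
  group

theorem nilp_dec {K : Type*} [Group K] [Finite K] (q : ℕ) [Fact q.Prime]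
    (hK : Group.IsNilpotent K) : ∃ N : Subgroup K, N.Normal ∧ Nat.Coprime (Nat.card N) q ∧
      (∀ x : K, ∀ m : ℕ, Nat.Coprime m q → x ^ m = 1 → x ∈ N) ∧
      (∀ x : K, ∃ n ∈ N, ∃ u : K, (∃ k : ℕ, u ^ q ^ k = 1) ∧ x = n * u) := by
  obtain ⟨P, N, hN, hc⟩ := nilp_pcomp q hK
  obtain ⟨k, hk⟩ := (IsPGroup.iff_card).1 P.isPGroup'
  have hidx : N.index = q ^ k := by
    rw [hc.symm.index_eq_card]
    exact hk
  have hNcop : (Nat.card N).Coprime q := by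
    rw [← hc.index_eq_card]
    exact ((Nat.Prime.coprime_iff_not_dvd Fact.out).2 P.not_dvd_index).symm
  refine ⟨N, hN, hNcop, ?_, ?_⟩
  · intro x m hm hx
    exact mem_of_pow' N q k hidx x m hm hx
  · intro x
    have hx : x ∈ N ⊔ (P : Subgroup K) := by
      rw [hc.sup_eq_top]
      exact Subgroup.mem_top x
    obtain ⟨n, hn, u, hu, rfl⟩ := (Subgroup.mem_sup_of_normal_left (hs := hN)).1 hx
    obtain ⟨j, hj⟩ := P.isPGroup' ⟨u, hu⟩
    exact ⟨n, hn, u, ⟨j, by simpa using congrArg Subtype.val hj⟩, rfl⟩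

theorem normal_sylow_eq {G : Type*} [Group G] [Finite G] (hG : Cfsg.IsMinimalNonNilpotent G)
    (q : ℕ) [Fact q.Prime] (hq : q ∣ Nat.card G) (Q : Sylow q G) (hQ : (Q : Subgroup G).Normal) :
    ∃ g : G, Nat.Coprime (orderOf g) q ∧ g ∉ Subgroup.centralizer ((Q : Subgroup G) : Set G) ∧
      (Q : Subgroup G) ⊔ Subgroup.zpowers g = ⊤ := by
  obtain ⟨p₀, q₀, Q₀, g, e, hp₀, hq₀, hpq, hQ₀n, hQ₀p, hord, hgc, htop⟩ := schmidt hG
  have hqp : q.Prime := Fact.out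
  haveI : Fact q₀.Prime := ⟨hq₀⟩
  have hcop₀ : Nat.Coprime (orderOf g) q₀ := by
    rw [hord]
    exact Nat.Coprime.pow_left e ((Nat.coprime_primes hp₀ hq₀).2 hpq)
  have hidx₀ : Q₀.index = p₀ ^ e := by
    rw [idx Q₀ g hQ₀n htop (inf_triv Q₀ g hQ₀p hcop₀), hord]
  have hQi : Nat.Coprime (Q : Subgroup G).index q :=
    ((Nat.Prime.coprime_iff_not_dvd hqp).2 Q.not_dvd_index).symm
  obtain ⟨j, hj⟩ := (IsPGroup.iff_card).1 hQ₀p
  have hcard : Nat.card G = q₀ ^ j * p₀ ^ e := by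
    rw [← Subgroup.card_mul_index Q₀, hidx₀, hj]
  rw [hcard] at hq
  rcases (Nat.Prime.dvd_mul hqp).1 hq with h | h
  · have hqq : q = q₀ := (Nat.prime_dvd_prime_iff_eq hqp hq₀).1 (hqp.dvd_of_dvd_pow h)
    subst hqq
    have hQQ : (Q : Subgroup G) = Q₀ := by
      apply le_antisymm
      · intro y hy
        obtain ⟨a, ha⟩ := Q.isPGroup' ⟨y, hy⟩
        have ha' : y ^ q ^ a = 1 := by simpa using congrArg Subtype.val ha
        have hc : Nat.Coprime Q₀.index q := by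
          rw [hidx₀]
          exact Nat.Coprime.pow_left e ((Nat.coprime_primes hp₀ hqp).2 hpq)
        exact mem_of_pow Q₀ q hc y a ha'
      · intro y hy
        obtain ⟨a, ha⟩ := hQ₀p ⟨y, hy⟩
        have ha' : y ^ q ^ a = 1 := by simpa using congrArg Subtype.val ha
        exact mem_of_pow (Q : Subgroup G) q hQi y a ha'
    subst hQQ
    exact ⟨g, hcop₀, hgc, htop⟩
  · have hqq : q = p₀ := (Nat.prime_dvd_prime_iff_eq hqp hp₀).1 (hqp.dvd_of_dvd_pow h)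
    subst hqq
    exfalso
    apply hgc
    have hgQ : g ∈ (Q : Subgroup G) :=
      mem_of_pow (Q : Subgroup G) q hQi g e (by
        rw [← hord]
        exact pow_orderOf_eq_one g)
    rw [Subgroup.mem_centralizer_iff]
    intro y hy
    have hc1 : y * g * y⁻¹ * g⁻¹ ∈ Q₀ := by
      have e1 : y * g * y⁻¹ * g⁻¹ = y * (g * y⁻¹ * g⁻¹) := by group
      rw [e1]
      exact Q₀.mul_mem hy (hQ₀n.conj_mem _ (Q₀.inv_mem hy) g)
    have hc2 : y * g * y⁻¹ * g⁻¹ ∈ (Q : Subgroup G) :=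
      (Q : Subgroup G).mul_mem (hQ.conj_mem _ hgQ y) ((Q : Subgroup G).inv_mem hgQ)
    obtain ⟨a, ha⟩ := hQ₀p ⟨_, hc1⟩
    have ha' : (y * g * y⁻¹ * g⁻¹) ^ q₀ ^ a = 1 := by simpa using congrArg Subtype.val ha
    obtain ⟨b, hb⟩ := Q.isPGroup' ⟨_, hc2⟩
    have hb' : (y * g * y⁻¹ * g⁻¹) ^ q ^ b = 1 := by simpa using congrArg Subtype.val hb
    have h1 := eq_one_of_pow_of_pow _ a (q ^ b)
      (Nat.Coprime.pow_left b ((Nat.coprime_primes hqp hq₀).2 hpq)) ha' hb'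
    calc y * g = (y * g * y⁻¹ * g⁻¹) * (g * y) := by group
      _ = g * y := by rw [h1, one_mul]

theorem result {G : Type*} [Group G] [Finite G] (hG : Cfsg.IsMinimalNonNilpotent G) (q : ℕ) [Fact q.Prime] (hq : q ∣ Nat.card G) (Q : Sylow q G) (hQ : (Q : Subgroup G).Normal) (D : Subgroup G) [D.Normal] (hD : D = (commutator ↥(Q : Subgroup G)).map (Q : Subgroup G).subtype) : ¬ IsMulCommutative (G ⧸ D) ∧ ∀ K : Subgroup (G ⧸ D), K ≠ ⊤ → IsMulCommutative K := by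
  obtain ⟨g, hcop₀, hgc, htop⟩ := normal_sylow_eq hG q hq Q hQ
  have hqp : q.Prime := Fact.out
  have hQi : Nat.Coprime (Q : Subgroup G).index q :=
    ((Nat.Prime.coprime_iff_not_dvd hqp).2 Q.not_dvd_index).symm
  have hinf := inf_triv (Q : Subgroup G) g Q.isPGroup' hcop₀
  have hcomm := comm_mem (Q : Subgroup G) g hQ htop
  have hDQ : D ≤ (Q : Subgroup G) := by
    rw [hD]
    exact Subgroup.map_subtype_le _
  have hDc : ∀ u ∈ (Q : Subgroup G), ∀ v ∈ (Q : Subgroup G), u * v * u⁻¹ * v⁻¹ ∈ D := by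
    intro u hu v hv
    rw [hD]
    refine ⟨⁅(⟨u, hu⟩ : ↥(Q : Subgroup G)), ⟨v, hv⟩⁆, ?_, ?_⟩
    · rw [commutator_def]
      exact Subgroup.commutator_mem_commutator (Subgroup.mem_top _) (Subgroup.mem_top _)
    · simp [commutatorElement_def]
  have hQD : ¬ (Q : Subgroup G) ≤ D := by
    intro hle
    have hnt : Nontrivial ↥(Q : Subgroup G) := by
      by_contra hnt
      rw [not_nontrivial_iff_subsingleton] at hnt
      apply hgc
      rw [Subgroup.mem_centralizer_iff]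
      intro y hy
      have h1 : (⟨y, hy⟩ : ↥(Q : Subgroup G)) = 1 := Subsingleton.elim _ _
      have h2 : y = 1 := congrArg Subtype.val h1
      rw [h2, one_mul, mul_one]
    haveI : Group.IsNilpotent ↥(Q : Subgroup G) := Q.isPGroup'.isNilpotent
    have hlt := Group.IsSolvable.commutator_lt_top_of_nontrivial ↥(Q : Subgroup G)
    apply hlt.ne
    rw [eq_top_iff]
    intro y _
    have hy : (y : G) ∈ D := hle y.2
    rw [hD] at hy
    obtain ⟨z, hz, hzy⟩ := hy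
    have hzy' : z = y := Subtype.ext hzy
    rw [← hzy']
    exact hz
  have hHne : D ⊔ Subgroup.zpowers g ≠ ⊤ := by
    intro hH
    apply hQD
    intro x hx
    have hx' : x ∈ D ⊔ Subgroup.zpowers g := by
      rw [hH]
      exact Subgroup.mem_top x
    obtain ⟨d, hd, z, hz, hdz⟩ := Subgroup.mem_sup_of_normal_left.1 hx'
    obtain ⟨i, rfl⟩ := Subgroup.mem_zpowers_iff.1 hz
    have h1 : d⁻¹ * x ∈ (Q : Subgroup G) :=
      (Q : Subgroup G).mul_mem ((Q : Subgroup G).inv_mem (hDQ hd)) hx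
    have h2 : d⁻¹ * x = g ^ i := by
      rw [← hdz]
      group
    have h3 := hinf _ h1 i h2
    have h4 : x = d := by
      have h5 := congrArg (fun t => d * t) h3
      simpa using h5
    rw [h4]
    exact hd
  refine ⟨?_, ?_⟩
  · intro hab
    have habD : ∀ y z : G, y * z * y⁻¹ * z⁻¹ ∈ D := by
      intro y z
      rw [← QuotientGroup.eq_one_iff (N := D)]
      show (QuotientGroup.mk' D) (y * z * y⁻¹ * z⁻¹) = 1
      rw [map_mul, map_mul, map_mul, map_inv, map_inv,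
        hab.is_comm.comm ((QuotientGroup.mk' D) y) ((QuotientGroup.mk' D) z)]
      group
    obtain ⟨N, hNn, hNcop, hNmem, -⟩ := nilp_dec q (hG.2 _ hHne)
    apply hgc
    rw [Subgroup.mem_centralizer_iff]
    intro y hy
    have hgH : g ∈ D ⊔ Subgroup.zpowers g :=
      (le_sup_right : Subgroup.zpowers g ≤ D ⊔ Subgroup.zpowers g) (Subgroup.mem_zpowers g)
    have hyH : y * g * y⁻¹ ∈ D ⊔ Subgroup.zpowers g := by
      have e1 : y * g * y⁻¹ = (y * g * y⁻¹ * g⁻¹) * g := by group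
      rw [e1]
      exact Subgroup.mul_mem _ ((le_sup_left : D ≤ D ⊔ Subgroup.zpowers g) (habD y g)) hgH
    have h1 : (⟨g, hgH⟩ : ↥(D ⊔ Subgroup.zpowers g)) ∈ N :=
      hNmem _ (orderOf g) hcop₀ (Subtype.ext (by simp [pow_orderOf_eq_one]))
    have h2 : (⟨y * g * y⁻¹, hyH⟩ : ↥(D ⊔ Subgroup.zpowers g)) ∈ N :=
      hNmem _ (orderOf g) hcop₀ (Subtype.ext (by simp [conj_pow, pow_orderOf_eq_one]))
    have h3 : (⟨y * g * y⁻¹, hyH⟩ : ↥(D ⊔ Subgroup.zpowers g)) * (⟨g, hgH⟩)⁻¹ ∈ N :=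
      N.mul_mem h2 (N.inv_mem h1)
    have h4 := pow_card_eq_one' (G := ↥N) (x := ⟨_, h3⟩)
    have h5 : (y * g * y⁻¹ * g⁻¹) ^ Nat.card N = 1 := by
      have h6 := congrArg (fun z : ↥N => ((z : ↥(D ⊔ Subgroup.zpowers g)) : G)) h4
      simpa only [Subgroup.coe_pow, Subgroup.coe_one, Subgroup.coe_mul, Subgroup.coe_inv] using h6
    have hcQ : y * g * y⁻¹ * g⁻¹ ∈ (Q : Subgroup G) := by
      have e1 : y * g * y⁻¹ * g⁻¹ = y * (g * y⁻¹ * g⁻¹) := by group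
      rw [e1]
      exact (Q : Subgroup G).mul_mem hy (hQ.conj_mem _ ((Q : Subgroup G).inv_mem hy) g)
    obtain ⟨a, ha⟩ := Q.isPGroup' ⟨_, hcQ⟩
    have ha' : (y * g * y⁻¹ * g⁻¹) ^ q ^ a = 1 := by simpa using congrArg Subtype.val ha
    have hc1 := eq_one_of_pow_of_pow _ a (Nat.card N) hNcop ha' h5
    calc y * g = (y * g * y⁻¹ * g⁻¹) * (g * y) := by group
      _ = g * y := by rw [hc1, one_mul]
  · intro K hK
    have hHt : K.comap (QuotientGroup.mk' D) ≠ ⊤ := by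
      intro hH
      apply hK
      rw [eq_top_iff]
      intro a _
      obtain ⟨x, rfl⟩ := QuotientGroup.mk_surjective a
      have hx : x ∈ K.comap (QuotientGroup.mk' D) := by
        rw [hH]
        exact Subgroup.mem_top x
      exact hx
    obtain ⟨N, hNn, hNcop, -, hNdec⟩ := nilp_dec q (hG.2 _ hHt)
    have hcopN : ∀ c : ↥(K.comap (QuotientGroup.mk' D)), c ∈ N → (c : G) ∈ (Q : Subgroup G) →
        (c : G) = 1 := by
      intro c hcN hcQ
      obtain ⟨a, ha⟩ := Q.isPGroup' ⟨_, hcQ⟩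
      have ha' : (c : G) ^ q ^ a = 1 := by simpa using congrArg Subtype.val ha
      have h4 := pow_card_eq_one' (G := ↥N) (x := ⟨c, hcN⟩)
      have h5 : (c : G) ^ Nat.card N = 1 := by
        have h6 := congrArg (fun z : ↥N => ((z : ↥(K.comap (QuotientGroup.mk' D))) : G)) h4
        simpa only [Subgroup.coe_pow, Subgroup.coe_one, Subgroup.coe_mul, Subgroup.coe_inv]
          using h6
      exact eq_one_of_pow_of_pow _ a (Nat.card N) hNcop ha' h5
    have huQ : ∀ u : ↥(K.comap (QuotientGroup.mk' D)), (∃ k : ℕ, u ^ q ^ k = 1) →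
        (u : G) ∈ (Q : Subgroup G) := by
      rintro u ⟨k, hk⟩
      have hk' : (u : G) ^ q ^ k = 1 := by
        have h6 := congrArg Subtype.val hk
        simpa only [Subgroup.coe_pow, Subgroup.coe_one] using h6
      exact mem_of_pow (Q : Subgroup G) q hQi (u : G) k hk'
    have hβ : ∀ n ∈ N, ∀ u : ↥(K.comap (QuotientGroup.mk' D)), (u : G) ∈ (Q : Subgroup G) →
        (n : G) * (u : G) = (u : G) * (n : G) := by
      intro n hn u hu
      have hcN : n * u * n⁻¹ * u⁻¹ ∈ N := by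
        have e1 : n * u * n⁻¹ * u⁻¹ = n * (u * n⁻¹ * u⁻¹) := by group
        rw [e1]
        exact N.mul_mem hn (hNn.conj_mem _ (N.inv_mem hn) u)
      have hcQ : ((n * u * n⁻¹ * u⁻¹ : ↥(K.comap (QuotientGroup.mk' D))) : G) ∈
          (Q : Subgroup G) := by
        show (n : G) * (u : G) * (n : G)⁻¹ * (u : G)⁻¹ ∈ (Q : Subgroup G)
        exact (Q : Subgroup G).mul_mem (hQ.conj_mem _ hu _) ((Q : Subgroup G).inv_mem hu)
      have h1 : (n : G) * (u : G) * (n : G)⁻¹ * (u : G)⁻¹ = 1 := hcopN _ hcN hcQ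
      calc (n : G) * (u : G) = ((n : G) * (u : G) * (n : G)⁻¹ * (u : G)⁻¹) * ((u : G) * (n : G)) := by
            group
        _ = (u : G) * (n : G) := by rw [h1, one_mul]
    have hγ : ∀ n ∈ N, ∀ n' ∈ N, (n : G) * (n' : G) = (n' : G) * (n : G) := by
      intro n hn n' hn'
      have hcN : n * n' * n⁻¹ * n'⁻¹ ∈ N :=
        N.mul_mem (N.mul_mem (N.mul_mem hn hn') (N.inv_mem hn)) (N.inv_mem hn')
      have hcQ : ((n * n' * n⁻¹ * n'⁻¹ : ↥(K.comap (QuotientGroup.mk' D))) : G) ∈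
          (Q : Subgroup G) := by
        show (n : G) * (n' : G) * (n : G)⁻¹ * (n' : G)⁻¹ ∈ (Q : Subgroup G)
        exact hcomm _ _
      have h1 : (n : G) * (n' : G) * (n : G)⁻¹ * (n' : G)⁻¹ = 1 := hcopN _ hcN hcQ
      calc (n : G) * (n' : G)
          = ((n : G) * (n' : G) * (n : G)⁻¹ * (n' : G)⁻¹) * ((n' : G) * (n : G)) := by group
        _ = (n' : G) * (n : G) := by rw [h1, one_mul]
    refine ⟨⟨fun a b => ?_⟩⟩
    apply Subtype.ext
    obtain ⟨x, hx⟩ := QuotientGroup.mk_surjective (a : G ⧸ D)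
    obtain ⟨y, hy⟩ := QuotientGroup.mk_surjective (b : G ⧸ D)
    have hxH : x ∈ K.comap (QuotientGroup.mk' D) := by
      rw [Subgroup.mem_comap]
      show (x : G ⧸ D) ∈ K
      rw [hx]
      exact a.2
    have hyH : y ∈ K.comap (QuotientGroup.mk' D) := by
      rw [Subgroup.mem_comap]
      show (y : G ⧸ D) ∈ K
      rw [hy]
      exact b.2
    obtain ⟨n₁, hn₁, u₁, hu₁, hx1⟩ := hNdec ⟨x, hxH⟩
    obtain ⟨n₂, hn₂, u₂, hu₂, hy1⟩ := hNdec ⟨y, hyH⟩
    have hx1' : x = (n₁ : G) * (u₁ : G) := congrArg Subtype.val hx1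
    have hy1' : y = (n₂ : G) * (u₂ : G) := congrArg Subtype.val hy1
    have hu₁Q := huQ u₁ hu₁
    have hu₂Q := huQ u₂ hu₂
    have e1 : x * y = (n₁ : G) * (n₂ : G) * ((u₁ : G) * (u₂ : G)) := by
      rw [hx1', hy1']
      calc (n₁ : G) * (u₁ : G) * ((n₂ : G) * (u₂ : G))
          = (n₁ : G) * ((u₁ : G) * (n₂ : G)) * (u₂ : G) := by group
        _ = (n₁ : G) * ((n₂ : G) * (u₁ : G)) * (u₂ : G) := by rw [← hβ n₂ hn₂ u₁ hu₁Q]
        _ = (n₁ : G) * (n₂ : G) * ((u₁ : G) * (u₂ : G)) := by group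
    have e2 : y * x = (n₁ : G) * (n₂ : G) * ((u₂ : G) * (u₁ : G)) := by
      rw [hx1', hy1']
      calc (n₂ : G) * (u₂ : G) * ((n₁ : G) * (u₁ : G))
          = (n₂ : G) * ((u₂ : G) * (n₁ : G)) * (u₁ : G) := by group
        _ = (n₂ : G) * ((n₁ : G) * (u₂ : G)) * (u₁ : G) := by rw [← hβ n₁ hn₁ u₂ hu₂Q]
        _ = ((n₂ : G) * (n₁ : G)) * ((u₂ : G) * (u₁ : G)) := by group
        _ = ((n₁ : G) * (n₂ : G)) * ((u₂ : G) * (u₁ : G)) := by rw [hγ n₂ hn₂ n₁ hn₁]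
    have e3 : ((u₁ : G) * (u₂ : G))⁻¹ * ((u₂ : G) * (u₁ : G)) ∈ D := by
      have e4 : ((u₁ : G) * (u₂ : G))⁻¹ * ((u₂ : G) * (u₁ : G))
          = (u₂ : G)⁻¹ * (u₁ : G)⁻¹ * (u₂ : G)⁻¹⁻¹ * (u₁ : G)⁻¹⁻¹ := by group
      rw [e4]
      exact hDc _ ((Q : Subgroup G).inv_mem hu₂Q) _ ((Q : Subgroup G).inv_mem hu₁Q)
    have e5 : (((u₁ : G) * (u₂ : G) : G) : G ⧸ D) = (((u₂ : G) * (u₁ : G) : G) : G ⧸ D) :=
      QuotientGroup.eq.2 e3
    have e6 : ((x * y : G) : G ⧸ D) = ((y * x : G) : G ⧸ D) := by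
      rw [e1, e2]
      show (((n₁ : G) * (n₂ : G) : G) : G ⧸ D) * (((u₁ : G) * (u₂ : G) : G) : G ⧸ D)
        = (((n₁ : G) * (n₂ : G) : G) : G ⧸ D) * (((u₂ : G) * (u₁ : G) : G) : G ⧸ D)
      rw [e5]
    show (a : G ⧸ D) * (b : G ⧸ D) = (b : G ⧸ D) * (a : G ⧸ D)
    rw [← hx, ← hy]
    exact e6

end Cfsg.Agent.S0577
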