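import Mathlib
import Cfsg.Statements.S0578

set_option autoImplicit false
open Cfsg
open scoped commutatorElement

namespace Cfsg.Agent.S0578

/-- a finite `p`-group in which abelian subgroups have normalizer inside centralizer is abelian -/
theorem pgroup_comm {H : Type*} [Group H] [Finite H] {p : ℕ} [Fact p.Prime] (hH : IsPGroup p H)
    (h : ∀ A : Subgroup H, IsMulCommutative A → Subgroup.normalizer (A : Set H) ≤ Subgroup.centralizer (A : Set H)) :
    ∀ x y : H, x * y = y * x := by
  by_contra hne
  have hZ : Subgroup.center H ≠ ⊤ := by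
    intro htop
    apply hne
    intro x y
    have hx : x ∈ Subgroup.center H := htop ▸ Subgroup.mem_top x
    exact (Subgroup.mem_center_iff.mp hx y).symm
  haveI : Nontrivial (H ⧸ Subgroup.center H) := by
    rw [QuotientGroup.nontrivial_iff]
    exact hZ
  have hq : IsPGroup p (H ⧸ Subgroup.center H) := hH.to_quotient _
  haveI := hq.center_nontrivial
  obtain ⟨⟨xb, hxb⟩, hxb1⟩ := exists_ne (1 : Subgroup.center (H ⧸ Subgroup.center H))
  obtain ⟨x, rfl⟩ := QuotientGroup.mk_surjective xb
  have hxZ : x ∉ Subgroup.center H := by
    intro hx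
    apply hxb1
    apply Subtype.ext
    exact (QuotientGroup.eq_one_iff x).mpr hx
  have hcomm : ∀ g : H, ⁅g, x⁆ ∈ Subgroup.center H := by
    intro g
    rw [← QuotientGroup.eq_one_iff]
    have : ((⁅g, x⁆ : H) : H ⧸ Subgroup.center H) = ⁅(g : H ⧸ Subgroup.center H), (x : H ⧸ Subgroup.center H)⁆ := by
      simp [commutatorElement_def]
    rw [this, commutatorElement_eq_one_iff_mul_comm]
    exact (Subgroup.mem_center_iff.mp hxb _)
  set S : Set H := (Subgroup.center H : Set H) ∪ {x} with hS
  have hSc : ∀ y ∈ S, ∀ z ∈ S, y * z = z * y := by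
    rintro y (hy | hy) z (hz | hz)
    · exact (Subgroup.mem_center_iff.mp hy z).symm
    · exact (Subgroup.mem_center_iff.mp hy z).symm
    · exact (Subgroup.mem_center_iff.mp hz y)
    · rw [Set.mem_singleton_iff] at hy hz; subst hy; subst hz; rfl
  have hA : IsMulCommutative (Subgroup.closure S) := Subgroup.isMulCommutative_closure hSc
  have hN : (⊤ : Subgroup H) ≤ Subgroup.normalizer ((Subgroup.closure S : Subgroup H) : Set H) := by
    intro g _
    have hmap : ∀ g : H, (Subgroup.closure S).map (MulAut.conj g : H →* H) ≤ Subgroup.closure S := by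
      intro g
      rw [MonoidHom.map_closure, Subgroup.closure_le]
      rintro y ⟨z, (hz | hz), rfl⟩
      · have : (MulAut.conj g : H →* H) z = z := by
          simp only [MonoidHom.coe_coe, MulAut.conj_apply]
          rw [Subgroup.mem_center_iff.mp hz g]; group
        rw [this]
        exact Subgroup.subset_closure (Or.inl hz)
      · rw [Set.mem_singleton_iff] at hz; subst hz
        have : (MulAut.conj g : H →* H) z = ⁅g, z⁆ * z := by
          simp only [MonoidHom.coe_coe, MulAut.conj_apply, commutatorElement_def]; group
        rw [this]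
        exact Subgroup.mul_mem _ (Subgroup.subset_closure (Or.inl (hcomm g))) (Subgroup.subset_closure (Or.inr rfl))
    rw [Subgroup.mem_normalizer_iff_map_conj_eq]
    apply le_antisymm (hmap g)
    intro y hy
    have h1 : (MulAut.conj g⁻¹ : H →* H) y ∈ Subgroup.closure S := hmap g⁻¹ (Subgroup.mem_map_of_mem _ hy)
    have h2 : y = (MulAut.conj g : H →* H) ((MulAut.conj g⁻¹ : H →* H) y) := by
      simp only [MonoidHom.coe_coe, MulAut.conj_apply]; group
    rw [h2]
    exact Subgroup.mem_map_of_mem _ h1
  have hC := hN.trans (h _ hA)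
  apply hxZ
  rw [Subgroup.mem_center_iff]
  intro g
  have hg : g ∈ Subgroup.centralizer ((Subgroup.closure S : Subgroup H) : Set H) := hC (Subgroup.mem_top g)
  exact (Subgroup.mem_centralizer_iff.mp hg x (Subgroup.subset_closure (Or.inr rfl))).symm

theorem result {G : Type*} [Group G] [Finite G] (h : ∀ A : Subgroup G, IsMulCommutative A → Subgroup.normalizer (A : Set G) = Subgroup.centralizer (A : Set G)) : IsMulCommutative G := by
  -- Sylow subgroups are abelian
  have hSyl : ∀ (p : ℕ) [Fact p.Prime] (P : Sylow p G), IsMulCommutative (P : Subgroup G) := by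
    intro p _ P
    have hP : ∀ A' : Subgroup (P : Subgroup G), IsMulCommutative A' →
        Subgroup.normalizer (A' : Set (P : Subgroup G)) ≤ Subgroup.centralizer (A' : Set (P : Subgroup G)) := by
      intro A' hA' g hg
      have h1 : ((P : Subgroup G).subtype g) ∈ Subgroup.normalizer ((A'.map (P : Subgroup G).subtype : Subgroup G) : Set G) :=
        Subgroup.le_normalizer_map _ (Subgroup.mem_map_of_mem _ hg)
      rw [h _ inferInstance] at h1
      rw [Subgroup.mem_centralizer_iff]
      intro a ha
      apply Subtype.ext
      exact Subgroup.mem_centralizer_iff.mp h1 a (Subgroup.mem_map_of_mem (P : Subgroup G).subtype ha)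
    have := pgroup_comm P.isPGroup' hP
    exact ⟨⟨this⟩⟩
  have hcomm : commutator G = ⊥ := by
    by_contra hne
    have hcard : Nat.card (commutator G) ≠ 1 := by
      intro h1
      exact hne (Subgroup.card_eq_one.mp h1)
    obtain ⟨p, hp, hpd⟩ := Nat.exists_prime_and_dvd hcard
    haveI : Fact p.Prime := ⟨hp⟩
    obtain ⟨P⟩ : Nonempty (Sylow p G) := inferInstance
    haveI := hSyl p P
    have hPN : Subgroup.normalizer ((P : Subgroup G) : Set G) ≤ Subgroup.centralizer ((P : Subgroup G) : Set G) := (h _ inferInstance).le
    have hle : commutator G ≤ (MonoidHom.transferSylow P hPN).ker := by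
      rw [commutator_def, Subgroup.commutator_le]
      intro g _ k _
      rw [MonoidHom.mem_ker, map_commutatorElement, commutatorElement_eq_one_iff_mul_comm]
      exact mul_comm' _ _
    exact MonoidHom.not_dvd_card_ker_transferSylow P hPN (hpd.trans (Subgroup.card_dvd_of_le hle))
  constructor
  constructor
  intro a b
  have : ⁅a, b⁆ ∈ commutator G := by
    rw [commutator_def]
    exact Subgroup.commutator_mem_commutator (Subgroup.mem_top a) (Subgroup.mem_top b)
  rw [hcomm, Subgroup.mem_bot, commutatorElement_eq_one_iff_mul_comm] at this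
  exact this

end Cfsg.Agent.S0578
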