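import Mathlib
import Cfsg.Statements.S0582
import Cfsg.Agent.S0529
import Cfsg.Agent.S0524
import Cfsg.Agent.S0528
import Cfsg.Agent.S0543
import Cfsg.Agent.S0004
import Cfsg.Agent.S0538

set_option autoImplicit false
open Pointwise
open Cfsg

namespace Cfsg.Agent.S0582

theorem ss_of_surjective {G G' : Type*} [Group G] [Group G'] (f : G →* G')
    (hf : Function.Surjective f) (h : Cfsg.IsSupersolvable G) : Cfsg.IsSupersolvable G' := by
  rw [Cfsg.Agent.S0528.supersolvable_iff_reach] at h ⊢
  have := h.map f hf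
  rwa [Subgroup.map_top_of_surjective f hf] at this

universe u in
theorem normal_sylow_max (n : ℕ) : ∀ (G : Type u) [Group G] [Finite G], Nat.card G = n →
    Cfsg.IsSupersolvable G → ∀ p : ℕ, p.Prime → (∀ q : ℕ, q.Prime → q ∣ Nat.card G → q ≤ p) →
    ∃ P : Subgroup G, P.Normal ∧ IsPGroup p P ∧ ¬ p ∣ P.index := by
  induction n using Nat.strong_induction_on with
  | _ n ih =>
    intro G _ _ hn hG p hp hmax
    by_cases hpd : p ∣ Nat.card G
    · obtain ⟨N, hN, hNc⟩ := Cfsg.Agent.S0529.exists_normal_maxprime n G hn hG p hp hpd hmax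
      haveI := hN
      have hlt : Nat.card (G ⧸ N) < n := by
        have h1 := Subgroup.card_mul_index N
        rw [Subgroup.index_eq_card, hNc, hn] at h1
        have h2 : 0 < Nat.card (G ⧸ N) := Nat.card_pos
        have h3 := hp.one_lt
        nlinarith
      have hdvd : Nat.card (G ⧸ N) ∣ Nat.card G := by
        rw [← Subgroup.index_eq_card]; exact Subgroup.index_dvd_card N
      obtain ⟨Q, hQn, hQp, hQi⟩ := ih _ hlt (G ⧸ N) rfl (Cfsg.Agent.S0524.result hG ⊤ N).2 p hp
        (fun q hq hqd => hmax q hq (hqd.trans hdvd))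
      refine ⟨Q.comap (QuotientGroup.mk' N), hQn.comap _, ?_, ?_⟩
      · apply hQp.comap_of_ker_isPGroup
        rw [QuotientGroup.ker_mk']
        exact IsPGroup.of_card (n := 1) (by rw [hNc, pow_one])
      · rw [Subgroup.index_comap_of_surjective _ (QuotientGroup.mk'_surjective N)]
        exact hQi
    · refine ⟨⊥, inferInstance, IsPGroup.of_bot, ?_⟩
      rwa [Subgroup.index_bot]

theorem index_map_subtype {G : Type*} [Group G] (H : Subgroup G) (X : Subgroup H) :
    (X.map H.subtype).index = X.index * H.index := by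
  have h1 : (X.map H.subtype).relIndex H * H.index = (X.map H.subtype).index :=
    Subgroup.relIndex_mul_index (Subgroup.map_subtype_le _)
  have h2 : (X.map H.subtype).relIndex H = X.index := by
    unfold Subgroup.relIndex
    show ((X.map H.subtype).comap H.subtype).index = _
    rw [Subgroup.comap_map_eq_self_of_injective (Subgroup.subtype_injective H)]
  rw [← h1, h2]

theorem le_normalizer_map_subtype {G : Type*} [Group G] (H : Subgroup G) (X : Subgroup H)
    (hX : X.Normal) : H ≤ Subgroup.normalizer ((X.map H.subtype : Subgroup G) : Set G) := by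
  have h1 := Subgroup.le_normalizer_map (H := X) H.subtype
  rw [Subgroup.normalizer_eq_top_iff.2 hX] at h1
  rw [← MonoidHom.range_eq_map, Subgroup.range_subtype] at h1
  exact h1

universe u in
theorem aux (n : ℕ) : ∀ (G : Type u) [Group G] [Finite G] (H K : Subgroup G), Nat.card H = n →
    Nat.card K = n → Cfsg.IsSupersolvable H → Cfsg.IsSupersolvable K →
    (Nat.card H).Coprime H.index → ∃ x : G, MulAut.conj x • H = K := by
  induction n using Nat.strong_induction_on with
  | _ n ih =>
    intro G _ _ H K hHn hKn hH hK hHall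
    by_cases hn1 : n = 1
    · have h1 : H = ⊥ := Subgroup.card_eq_one.1 (hHn.trans hn1)
      have h2 : K = ⊥ := Subgroup.card_eq_one.1 (hKn.trans hn1)
      refine ⟨1, ?_⟩
      rw [h1, h2]; simp
    have hn0 : n ≠ 0 := by rw [← hHn]; exact Nat.card_pos.ne'
    have hne : n.primeFactors.Nonempty := by
      rw [Nat.nonempty_primeFactors]; omega
    obtain ⟨p, hpmem, hpmax⟩ : ∃ p ∈ n.primeFactors, ∀ q ∈ n.primeFactors, q ≤ p :=
      ⟨n.primeFactors.max' hne, Finset.max'_mem _ _, fun q hq => Finset.le_max' _ _ hq⟩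
    have hp : p.Prime := Nat.prime_of_mem_primeFactors hpmem
    have hpn : p ∣ n := Nat.dvd_of_mem_primeFactors hpmem
    have hmax : ∀ q : ℕ, q.Prime → q ∣ n → q ≤ p := fun q hq hqd =>
      hpmax q (Nat.mem_primeFactors.2 ⟨hq, hqd, hn0⟩)
    haveI : Fact p.Prime := ⟨hp⟩
    obtain ⟨PH₀, hPHn, hPHp, hPHi⟩ := normal_sylow_max n H hHn hH p hp
      (fun q hq hqd => hmax q hq (hHn ▸ hqd))
    obtain ⟨PK₀, hPKn, hPKp, hPKi⟩ := normal_sylow_max n K hKn hK p hp
      (fun q hq hqd => hmax q hq (hKn ▸ hqd))
    have hKidx : K.index = H.index := by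
      have h1 := Subgroup.card_mul_index K
      have h2 := Subgroup.card_mul_index H
      rw [hKn] at h1; rw [hHn] at h2
      exact Nat.eq_of_mul_eq_mul_left (Nat.pos_of_ne_zero hn0) (h1.trans h2.symm)
    have hHall' : n.Coprime H.index := hHn ▸ hHall
    have hpHi : ¬ p ∣ H.index := fun hd =>
      hp.one_lt.ne' (Nat.eq_one_of_dvd_coprimes hHall' hpn hd)
    set PH : Subgroup G := PH₀.map H.subtype with hPH
    set PK : Subgroup G := PK₀.map K.subtype with hPK
    have hPHH : PH ≤ H := Subgroup.map_subtype_le _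
    have hPKK : PK ≤ K := Subgroup.map_subtype_le _
    have hPHp' : IsPGroup p PH := hPHp.map _
    have hPKp' : IsPGroup p PK := hPKp.map _
    have hPHi' : ¬ p ∣ PH.index := by
      rw [hPH, index_map_subtype]
      intro hd
      rcases (Nat.Prime.dvd_mul hp).1 hd with h | h
      · exact hPHi h
      · exact hpHi h
    have hPKi' : ¬ p ∣ PK.index := by
      rw [hPK, index_map_subtype]
      intro hd
      rcases (Nat.Prime.dvd_mul hp).1 hd with h | h
      · exact hPKi h
      · exact hpHi (hKidx ▸ h)
    obtain ⟨g, hg⟩ := MulAction.exists_smul_eq G (hPHp'.toSylow hPHi') (hPKp'.toSylow hPKi')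
    have hgP : MulAut.conj g • PH = PK := by
      have h1 := congrArg (fun S : Sylow p G => (S : Subgroup G)) hg
      simpa [Sylow.coe_subgroup_smul] using h1
    -- replace H by its conjugate
    set H1 : Subgroup G := MulAut.conj g • H with hH1
    have hH1n : Nat.card H1 = n := by rw [hH1, Cfsg.Agent.S0004.card_conj_smul, hHn]
    have hH1ss : Cfsg.IsSupersolvable H1 :=
      ss_of_surjective (Subgroup.equivSMul (MulAut.conj g) H).toMonoidHom
        (Subgroup.equivSMul (MulAut.conj g) H).surjective hH
    have hH1idx : H1.index = H.index := Cfsg.Agent.S0543.index_conj g H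
    have hPH1 : PK ≤ H1 := by
      rw [← hgP, hH1]
      exact Subgroup.pointwise_smul_le_pointwise_smul_iff.2 hPHH
    have hHN : H ≤ Subgroup.normalizer (PH : Set G) := le_normalizer_map_subtype H PH₀ hPHn
    have hKN : K ≤ Subgroup.normalizer (PK : Set G) := le_normalizer_map_subtype K PK₀ hPKn
    have hH1N : H1 ≤ Subgroup.normalizer (PK : Set G) := by
      rintro _ ⟨h, hh, rfl⟩
      show g * h * g⁻¹ ∈ _
      rw [Cfsg.Agent.S0538.mem_normalizer_iff_smul, ← hgP, map_mul, map_mul, mul_smul, mul_smul,
        map_inv, inv_smul_smul, (Cfsg.Agent.S0538.mem_normalizer_iff_smul h PH).1 (hHN hh)]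
    -- the quotient
    set N : Subgroup G := Subgroup.normalizer (PK : Set G) with hN
    haveI hPn : (PK.subgroupOf N).Normal := Subgroup.normal_in_normalizer
    set f := QuotientGroup.mk' (PK.subgroupOf N) with hf
    have hfs : Function.Surjective f := QuotientGroup.mk'_surjective _
    have hker : f.ker = PK.subgroupOf N := QuotientGroup.ker_mk' _
    have hPcard : Nat.card (PK.subgroupOf N) = Nat.card PK := by
      rw [Cfsg.Agent.S0003.card_subgroupOf_eq', inf_of_le_left Subgroup.le_normalizer]
    have hPgt : 1 < Nat.card PK := by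
      have h1 : Nat.card PK₀ * PK₀.index = n := by rw [Subgroup.card_mul_index, hKn]
      have h2 : p ∣ Nat.card PK₀ := by
        rcases (Nat.Prime.dvd_mul hp).1 (h1 ▸ hpn) with h | h
        · exact h
        · exact absurd h hPKi
      have h3 : Nat.card PK = Nat.card PK₀ :=
        Subgroup.card_map_of_injective (Subgroup.subtype_injective K)
      rw [h3]
      exact lt_of_lt_of_le hp.one_lt (Nat.le_of_dvd Nat.card_pos h2)
    -- general facts for a subgroup X with PK ≤ X ≤ N, card X = n
    have key : ∀ X : Subgroup G, PK ≤ X → X ≤ N → Nat.card X = n → Cfsg.IsSupersolvable X →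
        X.index = H.index →
        Nat.card ↥((X.subgroupOf N).map f) * Nat.card PK = n ∧
        Cfsg.IsSupersolvable ↥((X.subgroupOf N).map f) ∧
        (Nat.card ↥((X.subgroupOf N).map f)).Coprime ((X.subgroupOf N).map f).index := by
      intro X hPX hXN hXn hXss hXi
      have h1 := Cfsg.Agent.S0003.card_map_mk (X.subgroupOf N) (PK.subgroupOf N)
      have h2 : X.subgroupOf N ⊓ PK.subgroupOf N = PK.subgroupOf N :=
        inf_of_le_right (fun z hz => hPX hz)
      rw [h2, hPcard, Cfsg.Agent.S0003.card_subgroupOf_eq', inf_of_le_left hXN, hXn] at h1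
      refine ⟨h1, ?_, ?_⟩
      · have e1 : Cfsg.IsSupersolvable ↥(X.subgroupOf N) :=
          ss_of_surjective (Subgroup.subgroupOfEquivOfLe hXN).symm.toMonoidHom
            (Subgroup.subgroupOfEquivOfLe hXN).symm.surjective hXss
        exact ss_of_surjective (f.subgroupMap (X.subgroupOf N))
          (f.subgroupMap_surjective (X.subgroupOf N)) e1
      · have h3 : ((X.subgroupOf N).map f).index ∣ H.index := by
          have h4 : ((X.subgroupOf N).map f).index ∣ (X.subgroupOf N).index :=
            Subgroup.index_map_dvd _ hfs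
          rw [← hXi]
          exact h4.trans (Subgroup.relIndex_dvd_index_of_le hXN)
        have h5 : Nat.card ↥((X.subgroupOf N).map f) ∣ n := Dvd.intro _ h1
        exact Nat.Coprime.coprime_dvd_left h5 (Nat.Coprime.coprime_dvd_right h3 hHall')
    obtain ⟨hc1, hs1, hh1⟩ := key H1 hPH1 hH1N hH1n hH1ss hH1idx
    obtain ⟨hc2, hs2, -⟩ := key K hPKK hKN hKn hK hKidx
    have hlt : Nat.card ↥((H1.subgroupOf N).map f) < n := by
      have h0 : 0 < Nat.card ↥((H1.subgroupOf N).map f) := Nat.card_pos
      nlinarith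
    have hceq : Nat.card ↥((K.subgroupOf N).map f) = Nat.card ↥((H1.subgroupOf N).map f) := by
      have := hc1.trans hc2.symm
      exact (Nat.eq_of_mul_eq_mul_right (by omega) this).symm
    obtain ⟨y, hy⟩ := ih _ hlt _ ((H1.subgroupOf N).map f) ((K.subgroupOf N).map f) rfl hceq
      hs1 hs2 hh1
    obtain ⟨x, rfl⟩ := hfs y
    have h6 : (MulAut.conj x • H1.subgroupOf N).map f = (K.subgroupOf N).map f := by
      rw [Cfsg.Agent.S0004.map_conj_smul]; exact hy
    have h7 := congrArg (Subgroup.comap f) h6
    rw [Subgroup.comap_map_eq, Subgroup.comap_map_eq, hker] at h7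
    have h8 : PK.subgroupOf N ≤ MulAut.conj x • H1.subgroupOf N := by
      have h9 : MulAut.conj x • PK.subgroupOf N = PK.subgroupOf N :=
        Subgroup.Normal.conj_smul_eq_self x _
      rw [← h9]
      exact Subgroup.pointwise_smul_le_pointwise_smul_iff.2 (fun z hz => hPH1 hz)
    have h10 : PK.subgroupOf N ≤ K.subgroupOf N := fun z hz => hPKK hz
    rw [sup_of_le_left h8, sup_of_le_left h10] at h7
    have h11 := congrArg (Subgroup.map N.subtype) h7
    rw [Cfsg.Agent.S0004.map_conj_smul, Subgroup.map_subgroupOf_eq_of_le hH1N,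
      Subgroup.map_subgroupOf_eq_of_le hKN] at h11
    refine ⟨(x : G) * g, ?_⟩
    rw [map_mul, mul_smul]
    exact h11

theorem result {G : Type*} [Group G] [Finite G] (H K : Subgroup G) (hH : Cfsg.IsSupersolvable H) (hK : Cfsg.IsSupersolvable K) (hcard : Nat.card H = Nat.card K) (hHall : (Nat.card H).Coprime H.index) : ∃ x : G, MulAut.conj x • H = K :=
  aux _ G H K rfl hcard.symm hH hK hHall

end Cfsg.Agent.S0582
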