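import Mathlib
import Cfsg.Statements.S0583

set_option autoImplicit false
open Cfsg

namespace Cfsg.Agent.S0583

theorem result {G : Type*} [Group G] [Finite G] (M : Subgroup G) [M.Normal] (hM : M ≠ ⊥) (hmin : ∀ K : Subgroup G, K.Normal → K ≤ M → K = ⊥ ∨ K = M) : Cfsg.fittingSubgroup G ≤ Subgroup.centralizer (M : Set G) := by
  unfold Cfsg.fittingSubgroup
  apply sSup_le
  rintro N ⟨hN, hNil⟩
  haveI := hN
  rw [← Subgroup.commutator_eq_bot_iff_le_centralizer]
  have hnorm : (⁅N, M⁆ : Subgroup G).Normal := inferInstance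
  have hle : ⁅N, M⁆ ≤ M := (Subgroup.commutator_le_inf N M).trans inf_le_right
  rcases hmin _ hnorm hle with h | h
  · exact h
  · exfalso
    obtain ⟨n, hn⟩ := (Subgroup.isNilpotent_iff_lowerCentralSeries N).mp hNil
    have key : ∀ k, M ≤ N.lowerCentralSeries k := by
      intro k
      induction k with
      | zero =>
        rw [Subgroup.lowerCentralSeries_zero]
        calc M = ⁅N, M⁆ := h.symm
          _ ≤ N := (Subgroup.commutator_le_inf N M).trans inf_le_left
      | succ k ih =>
        rw [Subgroup.lowerCentralSeries_succ]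
        calc M = ⁅N, M⁆ := h.symm
          _ = ⁅M, N⁆ := Subgroup.commutator_comm _ _
          _ ≤ ⁅N.lowerCentralSeries k, N⁆ := Subgroup.commutator_mono ih le_rfl
    exact hM (le_bot_iff.mp (hn ▸ key n))

end Cfsg.Agent.S0583
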