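import Mathlib
import Cfsg.Statements.S0584
import Cfsg.Agent.S0070

set_option autoImplicit false
open Pointwise
open Cfsg

namespace Cfsg.Agent.S0584

theorem result {G : Type*} [Group G] [Finite G] (A B : Subgroup G) [A.Normal] [B.Normal] (hBA : B ≤ A) (hB : B ≤ frattini G) (h : Group.IsNilpotent (↥A ⧸ B.subgroupOf A)) : Group.IsNilpotent A := by
  set f := QuotientGroup.mk' (frattini G) with hf
  set N : Subgroup G := A ⊔ frattini G with hN
  haveI : N.Normal := by rw [hN]; infer_instance
  have hmap : N.map f = A.map f := by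
    rw [hN, Subgroup.map_sup]
    have h1 : (frattini G).map f = ⊥ := by
      rw [eq_bot_iff]
      rintro _ ⟨x, hx, rfl⟩
      rw [Subgroup.mem_bot, hf, QuotientGroup.mk'_apply, QuotientGroup.eq_one_iff]
      exact hx
    rw [h1, sup_bot_eq]
  have hAf : Group.IsNilpotent (A.map f) := by
    let g : ↥A →* ↥(A.map f) := f.subgroupMap A
    have hg : Function.Surjective g := f.subgroupMap_surjective A
    have hker : B.subgroupOf A ≤ g.ker := by
      intro x hx
      rw [MonoidHom.mem_ker]
      apply Subtype.ext
      show f (x : G) = 1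
      rw [hf, QuotientGroup.mk'_apply, QuotientGroup.eq_one_iff]
      exact hB (Subgroup.mem_subgroupOf.1 hx)
    let g' : ↥A ⧸ B.subgroupOf A →* ↥(A.map f) := QuotientGroup.lift (B.subgroupOf A) g hker
    have hg' : Function.Surjective g' := by
      intro y
      obtain ⟨x, rfl⟩ := hg y
      exact ⟨QuotientGroup.mk x, rfl⟩
    exact Group.nilpotent_of_surjective g' hg'
  have hNnil : Group.IsNilpotent N :=
    Cfsg.Agent.S0070.nilpotent_of_quot N le_sup_right (by rw [hmap]; exact hAf)
  have hAN : A ≤ N := le_sup_left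
  exact Group.nilpotent_of_surjective (Subgroup.subgroupOfEquivOfLe hAN).toMonoidHom
    (Subgroup.subgroupOfEquivOfLe hAN).surjective

end Cfsg.Agent.S0584
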