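import Mathlib
import Cfsg.Statements.S0585

set_option autoImplicit false
open Cfsg
open scoped Pointwise

namespace Cfsg.Agent.S0585

theorem result {G : Type*} [Group G] [Finite G] (hΦ : frattini G = ⊥) (A : Subgroup G) [A.Normal] [IsMulCommutative A] : ∃ H : Subgroup G, Subgroup.IsComplement' A H := by
  obtain ⟨H, hH⟩ := exists_minimal_of_wellFoundedLT (fun H : Subgroup G => A ⊔ H = ⊤) ⟨⊤, sup_top_eq A⟩
  have hAH : A ⊔ H = ⊤ := hH.1
  have hmul : ∀ g : G, ∃ a ∈ A, ∃ h ∈ H, a * h = g := by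
    intro g
    have : g ∈ ((A ⊔ H : Subgroup G) : Set G) := by rw [hAH]; trivial
    rw [Subgroup.normal_mul, Set.mem_mul] at this
    exact this
  have hDn : (A ⊓ H).Normal := by
    constructor
    intro d hd g
    obtain ⟨a, ha, h, hh, rfl⟩ := hmul g
    have h1 : h * d * h⁻¹ ∈ A := ‹A.Normal›.conj_mem d hd.1 h
    have h2 : h * d * h⁻¹ ∈ H := H.mul_mem (H.mul_mem hh hd.2) (H.inv_mem hh)
    have h3 : a * (h * d * h⁻¹) = (h * d * h⁻¹) * a := Subgroup.mul_comm_of_mem_isMulCommutative A ha h1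
    have h4 : a * h * d * (a * h)⁻¹ = h * d * h⁻¹ := by
      calc a * h * d * (a * h)⁻¹ = a * (h * d * h⁻¹) * a⁻¹ := by group
        _ = (h * d * h⁻¹) * a * a⁻¹ := by rw [h3]
        _ = h * d * h⁻¹ := by group
    rw [h4]
    exact ⟨h1, h2⟩
  have hD : A ⊓ H = ⊥ := by
    by_contra hne
    have hex : ∃ M : Subgroup G, IsCoatom M ∧ ¬ (A ⊓ H ≤ M) := by
      by_contra hall
      push_neg at hall
      apply hne
      rw [eq_bot_iff, ← hΦ]
      show _ ≤ Order.radical (Subgroup G)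
      rw [Order.radical]
      exact le_iInf₂ hall
    obtain ⟨M, hM, hnot⟩ := hex
    have htop : M ⊔ (A ⊓ H) = ⊤ := hM.2 _ (left_lt_sup.mpr hnot)
    have hnew : A ⊔ (H ⊓ M) = ⊤ := by
      rw [eq_top_iff]
      intro g _
      obtain ⟨a, ha, h, hh, rfl⟩ := hmul g
      have hmem : h ∈ ((M ⊔ (A ⊓ H) : Subgroup G) : Set G) := by rw [htop]; trivial
      rw [Subgroup.mul_normal, Set.mem_mul] at hmem
      obtain ⟨m, hm, d, hd, e⟩ := hmem
      have hmH : m ∈ H := by
        have : m = h * d⁻¹ := by rw [← e]; group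
        rw [this]
        exact H.mul_mem hh (H.inv_mem hd.2)
      -- h = m * d, with d in A; a * m * d = a * (m d m⁻¹) * m
      have hd' : m * d * m⁻¹ ∈ A := ‹A.Normal›.conj_mem d hd.1 m
      have : a * h = (a * (m * d * m⁻¹)) * m := by rw [← e]; group
      rw [this]
      exact Subgroup.mul_mem_sup (A.mul_mem ha hd') ⟨hmH, hm⟩
    have hle : H ≤ H ⊓ M := hH.2 hnew inf_le_left
    exact hnot (inf_le_right.trans (hle.trans inf_le_right))
  refine ⟨H, Subgroup.isComplement'_of_disjoint_and_mul_eq_univ (disjoint_iff.mpr hD) ?_⟩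
  rw [← Subgroup.normal_mul, hAH]
  rfl

end Cfsg.Agent.S0585
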