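import Mathlib
import Cfsg.Statements.S0590

set_option autoImplicit false
open Cfsg
open scoped commutatorElement

namespace Cfsg.Agent.S0590

theorem conj_eq {G : Type*} [Group G] (v a : G) : a * v * a⁻¹ = ⁅v, a⁆⁻¹ * v := by
  rw [commutatorElement_def]; group

theorem comm_mem {G : Type*} [Group G] (V : Subgroup G) (v a : G) (hv : v ∈ V) (ha : a * v⁻¹ * a⁻¹ ∈ V) :
    ⁅v, a⁆ ∈ V := by
  have : ⁅v, a⁆ = v * (a * v⁻¹ * a⁻¹) := by rw [commutatorElement_def]; group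
  rw [this]; exact V.mul_mem hv ha

theorem result {G : Type*} [Group G] [Finite G] {p : ℕ} [Fact p.Prime] (V H : Subgroup G) (hV : Cfsg.IsElementaryAbelian p V) (hHV : H ≤ Subgroup.normalizer (V : Set G)) (hq : ⁅⁅V, H⁆, H⁆ = ⊥) : ⁅H, H⁆ ≤ Subgroup.centralizer (V : Set G) ∧ ∀ a ∈ H, a ^ p ∈ Subgroup.centralizer (V : Set G) := by
  haveI := hV.1
  have hnorm : ∀ a ∈ H, ∀ v ∈ V, a * v * a⁻¹ ∈ V := Subgroup.le_normalizer_iff.mp hHV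
  have hcV : ∀ v ∈ V, ∀ a ∈ H, ⁅v, a⁆ ∈ V := fun v hv a ha =>
    comm_mem V v a hv (hnorm a ha v⁻¹ (V.inv_mem hv))
  have hcent : ∀ v ∈ V, ∀ a ∈ H, ∀ b ∈ H, b * ⁅v, a⁆⁻¹ = ⁅v, a⁆⁻¹ * b := by
    intro v hv a ha b hb
    have h1 : ⁅V, H⁆ ≤ Subgroup.centralizer (H : Set G) := Subgroup.commutator_eq_bot_iff_le_centralizer.mp hq
    have h2 : ⁅v, a⁆⁻¹ ∈ Subgroup.centralizer (H : Set G) :=
      Subgroup.inv_mem _ (h1 (Subgroup.commutator_mem_commutator hv ha))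
    exact Subgroup.mem_centralizer_iff.mp h2 b hb
  -- conjugation by a*b
  have hab : ∀ a ∈ H, ∀ b ∈ H, ∀ v ∈ V, a * b * v * (a * b)⁻¹ = ⁅v, b⁆⁻¹ * ⁅v, a⁆⁻¹ * v := by
    intro a ha b hb v hv
    have e1 : a * ⁅v, b⁆⁻¹ * a⁻¹ = ⁅v, b⁆⁻¹ := by
      rw [hcent v hv b hb a ha]; group
    calc a * b * v * (a * b)⁻¹ = a * (b * v * b⁻¹) * a⁻¹ := by group
      _ = a * (⁅v, b⁆⁻¹ * v) * a⁻¹ := by rw [conj_eq v b]
      _ = (a * ⁅v, b⁆⁻¹ * a⁻¹) * (a * v * a⁻¹) := by group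
      _ = ⁅v, b⁆⁻¹ * (⁅v, a⁆⁻¹ * v) := by rw [e1, conj_eq v a]
      _ = ⁅v, b⁆⁻¹ * ⁅v, a⁆⁻¹ * v := by group
  constructor
  · rw [Subgroup.commutator_le]
    intro a ha b hb
    rw [Subgroup.mem_centralizer_iff]
    intro v hv
    have h1 := hab a⁻¹ (H.inv_mem ha) b⁻¹ (H.inv_mem hb) v hv
    have h2 := hab b⁻¹ (H.inv_mem hb) a⁻¹ (H.inv_mem ha) v hv
    have hc : ⁅v, b⁻¹⁆⁻¹ * ⁅v, a⁻¹⁆⁻¹ = ⁅v, a⁻¹⁆⁻¹ * ⁅v, b⁻¹⁆⁻¹ :=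
      setLike_mul_comm (V.inv_mem (hcV v hv _ (H.inv_mem hb))) (V.inv_mem (hcV v hv _ (H.inv_mem ha)))
    have h3 : a⁻¹ * b⁻¹ * v * (a⁻¹ * b⁻¹)⁻¹ = b⁻¹ * a⁻¹ * v * (b⁻¹ * a⁻¹)⁻¹ := by
      rw [h1, h2, hc]
    rw [commutatorElement_def]
    calc v * (a * b * a⁻¹ * b⁻¹) = a * b * ((b⁻¹ * a⁻¹) * v * (b⁻¹ * a⁻¹)⁻¹) * a⁻¹ * b⁻¹ := by group
      _ = a * b * ((a⁻¹ * b⁻¹) * v * (a⁻¹ * b⁻¹)⁻¹) * a⁻¹ * b⁻¹ := by rw [h3]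
      _ = a * b * a⁻¹ * b⁻¹ * v := by group
  · intro a ha
    rw [Subgroup.mem_centralizer_iff]
    intro v hv
    have hw : Commute a ⁅v, a⁆⁻¹ := hcent v hv a ha a ha
    have key : ∀ k : ℕ, a ^ k * v * (a ^ k)⁻¹ = (⁅v, a⁆⁻¹) ^ k * v := by
      intro k
      induction k with
      | zero => simp
      | succ k ih =>
        have e1 : a * (⁅v, a⁆⁻¹) ^ k * a⁻¹ = (⁅v, a⁆⁻¹) ^ k := by
          rw [(hw.pow_right k).eq]; group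
        calc a ^ (k + 1) * v * (a ^ (k + 1))⁻¹ = a * (a ^ k * v * (a ^ k)⁻¹) * a⁻¹ := by
              rw [pow_succ']; group
          _ = a * ((⁅v, a⁆⁻¹) ^ k * v) * a⁻¹ := by rw [ih]
          _ = (a * (⁅v, a⁆⁻¹) ^ k * a⁻¹) * (a * v * a⁻¹) := by group
          _ = (⁅v, a⁆⁻¹) ^ k * (⁅v, a⁆⁻¹ * v) := by rw [e1, conj_eq v a]
          _ = (⁅v, a⁆⁻¹) ^ (k + 1) * v := by rw [pow_succ]; group
    have hp := key p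
    rw [hV.2 _ (V.inv_mem (hcV v hv a ha)), one_mul] at hp
    calc v * a ^ p = (a ^ p * v * (a ^ p)⁻¹) * a ^ p := by rw [hp]
      _ = a ^ p * v := by group

end Cfsg.Agent.S0590
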