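import Mathlib
import Cfsg.Statements.S0591

set_option autoImplicit false
open Cfsg
open scoped commutatorElement

namespace Cfsg.Agent.S0591

theorem comm_mem {G : Type*} [Group G] (V : Subgroup G) (v a : G) (hv : v ∈ V) (ha : a * v⁻¹ * a⁻¹ ∈ V) :
    ⁅v, a⁆ ∈ V := by
  have : ⁅v, a⁆ = v * (a * v⁻¹ * a⁻¹) := by rw [commutatorElement_def]; group
  rw [this]; exact V.mul_mem hv ha

theorem result {G : Type*} [Group G] [Finite G] {p : ℕ} [Fact p.Prime] (V : Subgroup G) (hV : Cfsg.IsElementaryAbelian p V) (a : G) (ha : a ∈ Subgroup.normalizer (V : Set G)) (hq : ⁅⁅V, Subgroup.zpowers a⁆, Subgroup.zpowers a⁆ = ⊥) : Nat.card V ≤ Nat.card ↥(V ⊓ Subgroup.centralizer (Subgroup.zpowers a : Set G)) ^ 2 := by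
  haveI := hV.1
  have hnorm : ∀ v ∈ V, a * v * a⁻¹ ∈ V := fun v hv =>
    Subgroup.le_normalizer_iff.mp (Subgroup.zpowers_le.mpr ha) a (Subgroup.mem_zpowers a) v hv
  have hcV : ∀ v ∈ V, ⁅v, a⁆ ∈ V := fun v hv => comm_mem V v a hv (hnorm v⁻¹ (V.inv_mem hv))
  have hmul : ∀ v ∈ V, ∀ w ∈ V, ⁅v * w, a⁆ = ⁅v, a⁆ * ⁅w, a⁆ := by
    intro v hv w hw
    have e1 : v * ⁅w, a⁆ = ⁅w, a⁆ * v := setLike_mul_comm hv (hcV w hw)
    calc ⁅v * w, a⁆ = v * ⁅w, a⁆ * v⁻¹ * ⁅v, a⁆ := by simp only [commutatorElement_def]; group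
      _ = ⁅w, a⁆ * ⁅v, a⁆ := by rw [e1]; group
      _ = ⁅v, a⁆ * ⁅w, a⁆ := setLike_mul_comm (hcV w hw) (hcV v hv)
  let φ : V →* V :=
    { toFun := fun v => ⟨⁅(v : G), a⁆, hcV v v.2⟩
      map_one' := by apply Subtype.ext; simp
      map_mul' := by
        intro v w
        apply Subtype.ext
        exact hmul v v.2 w w.2 }
  have hφ : ∀ v : V, ((φ v : V) : G) = ⁅(v : G), a⁆ := fun v => rfl
  set C : Subgroup G := V ⊓ Subgroup.centralizer (Subgroup.zpowers a : Set G) with hC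
  have hcz : ∀ x : G, x * a = a * x → x ∈ Subgroup.centralizer (Subgroup.zpowers a : Set G) := by
    intro x hx
    rw [Subgroup.mem_centralizer_iff]
    rintro h ⟨k, rfl⟩
    have : Commute a x := hx.symm
    exact (this.zpow_left k).eq
  have h1 : Nat.card φ.ker * Nat.card φ.range = Nat.card V := by
    rw [← Subgroup.index_ker]; exact Subgroup.card_mul_index φ.ker
  have hk : Nat.card φ.ker ≤ Nat.card C := by
    rw [← Subgroup.card_map_of_injective (K := φ.ker) V.subtype_injective]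
    apply Subgroup.card_le_of_le
    rintro x ⟨v, hv, rfl⟩
    refine ⟨v.2, hcz _ ?_⟩
    have hv' : φ v = 1 := MonoidHom.mem_ker.mp hv
    have : ⁅(v : G), a⁆ = 1 := by rw [← hφ, hv']; rfl
    exact commutatorElement_eq_one_iff_mul_comm.mp this
  have hr : Nat.card φ.range ≤ Nat.card C := by
    rw [← Subgroup.card_map_of_injective (K := φ.range) V.subtype_injective]
    apply Subgroup.card_le_of_le
    rintro x ⟨w, ⟨v, rfl⟩, rfl⟩
    refine ⟨(φ v).2, ?_⟩
    have h2 : ⁅V, Subgroup.zpowers a⁆ ≤ Subgroup.centralizer (Subgroup.zpowers a : Set G) :=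
      Subgroup.commutator_eq_bot_iff_le_centralizer.mp hq
    exact h2 (Subgroup.commutator_mem_commutator v.2 (Subgroup.mem_zpowers a))
  calc Nat.card V = Nat.card φ.ker * Nat.card φ.range := h1.symm
    _ ≤ Nat.card C * Nat.card C := Nat.mul_le_mul hk hr
    _ = Nat.card C ^ 2 := (sq _).symm

end Cfsg.Agent.S0591
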