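import Mathlib
import Cfsg.Statements.S0600
import Cfsg.Agent.S0003
import Cfsg.Agent.Lib.Helper2.Fit

set_option autoImplicit false
open Pointwise
open Cfsg

namespace Cfsg.Agent.S0600

/-- For a Sylow subgroup `S` and a normal subgroup `D`, `|D : S ∩ D|` is prime to `p`. -/
theorem not_dvd_relIndex_inf {G : Type*} [Group G] [Finite G] {p : ℕ} [Fact p.Prime]
    (S : Sylow p G) (D : Subgroup G) [D.Normal] :
    ¬ p ∣ ((S : Subgroup G) ⊓ D).relIndex D := by
  have h1 := Cfsg.Agent.S0003.card_sup_mul_card_inf (S : Subgroup G) D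
  have h2 := Subgroup.relIndex_mul_relIndex (⊥ : Subgroup G) ((S : Subgroup G) ⊓ D) D bot_le
    inf_le_right
  rw [Subgroup.relIndex_bot_left, Subgroup.relIndex_bot_left] at h2
  have h3 := Subgroup.relIndex_mul_relIndex (⊥ : Subgroup G) (S : Subgroup G)
    ((S : Subgroup G) ⊔ D) bot_le le_sup_left
  rw [Subgroup.relIndex_bot_left, Subgroup.relIndex_bot_left] at h3
  have h4 : ((S : Subgroup G) ⊓ D).relIndex D = (S : Subgroup G).relIndex ((S : Subgroup G) ⊔ D) := by
    have hpos : 0 < Nat.card (S : Subgroup G) * Nat.card ((S : Subgroup G) ⊓ D : Subgroup G) :=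
      Nat.mul_pos Nat.card_pos Nat.card_pos
    apply Nat.eq_of_mul_eq_mul_left hpos
    calc Nat.card (S : Subgroup G) * Nat.card ((S : Subgroup G) ⊓ D : Subgroup G) *
          ((S : Subgroup G) ⊓ D).relIndex D
        = Nat.card (S : Subgroup G) * Nat.card D := by rw [mul_assoc, h2]
      _ = Nat.card ((S : Subgroup G) ⊔ D : Subgroup G) *
          Nat.card ((S : Subgroup G) ⊓ D : Subgroup G) := h1.symm
      _ = Nat.card (S : Subgroup G) * Nat.card ((S : Subgroup G) ⊓ D : Subgroup G) *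
          (S : Subgroup G).relIndex ((S : Subgroup G) ⊔ D) := by rw [← h3]; ring
  rw [h4]
  intro h
  exact S.not_dvd_index (h.trans (Subgroup.relIndex_dvd_index_of_le le_sup_left))

/-- If `C ≤ D` are normal with `|D : C|` a power of `p`, then `D = C (S ∩ D)` for every Sylow
`p`-subgroup `S`. -/
theorem decomp {G : Type*} [Group G] [Finite G] {p : ℕ} [Fact p.Prime] (S : Sylow p G)
    (C D : Subgroup G) [C.Normal] [D.Normal] (k : ℕ) (hk : C.relIndex D = p ^ k) :
    ∀ d ∈ D, ∃ c ∈ C, ∃ s ∈ (S : Subgroup G) ⊓ D, d = c * s := by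
  have hp : p.Prime := Fact.out
  have h1 : (C ⊔ ((S : Subgroup G) ⊓ D)).relIndex D ∣ p ^ k :=
    hk ▸ Subgroup.relIndex_dvd_of_le_left D le_sup_left
  have h2 : (C ⊔ ((S : Subgroup G) ⊓ D)).relIndex D ∣ ((S : Subgroup G) ⊓ D).relIndex D :=
    Subgroup.relIndex_dvd_of_le_left D le_sup_right
  have h3 : (C ⊔ ((S : Subgroup G) ⊓ D)).relIndex D = 1 := by
    obtain ⟨m, -, hm⟩ := (Nat.dvd_prime_pow hp).1 h1
    rcases Nat.eq_zero_or_pos m with h0 | h0
    · rw [hm, h0, pow_zero]
    · exfalso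
      apply not_dvd_relIndex_inf S D
      refine Dvd.dvd.trans ?_ h2
      rw [hm]
      exact dvd_pow_self p h0.ne'
  rw [Subgroup.relIndex_eq_one] at h3
  intro d hd
  have h4 : d ∈ ((C ⊔ ((S : Subgroup G) ⊓ D) : Subgroup G) : Set G) := h3 hd
  rw [Subgroup.normal_mul] at h4
  obtain ⟨c, hc, s, hs, rfl⟩ := h4
  exact ⟨c, hc, s, hs, rfl⟩

theorem result {G : Type*} [Group G] [Finite G] {p : ℕ} [Fact p.Prime] (V : Subgroup G) [V.Normal] (hV : Cfsg.IsElementaryAbelian p V) (hgen : V = ⨆ S : Sylow p G, V ⊓ Subgroup.centralizer ((S : Subgroup G) : Set G)) : Cfsg.pCore p (G ⧸ Subgroup.centralizer (V : Set G)) = ⊥ := by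
  classical
  set C := Subgroup.centralizer (V : Set G) with hC
  set O := Cfsg.pCore p (G ⧸ C) with hO
  haveI hOn : O.Normal := Cfsg.Agent.Lib.Helper2.Fit.pCore_normal p
  have hOp : IsPGroup p O := Cfsg.Agent.Lib.Helper2.Fit.pCore_isPGroup p
  set D := O.comap (QuotientGroup.mk' C) with hD
  haveI hDn : D.Normal := Subgroup.Normal.comap hOn _
  have hCD : C ≤ D := by
    intro c hc
    rw [hD, Subgroup.mem_comap]
    have : (QuotientGroup.mk' C) c = 1 := (QuotientGroup.eq_one_iff c).2 hc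
    rw [this]; exact O.one_mem
  obtain ⟨k, hk⟩ := hOp.exists_card_eq
  have hrel : C.relIndex D = p ^ k := by
    have h1 := Cfsg.Agent.S0003.card_comap_mk' C O
    have h2 := Subgroup.relIndex_mul_relIndex (⊥ : Subgroup G) C D bot_le hCD
    rw [Subgroup.relIndex_bot_left, Subgroup.relIndex_bot_left] at h2
    rw [← hk]
    have hpos : 0 < Nat.card C := Nat.card_pos
    apply Nat.eq_of_mul_eq_mul_left hpos
    rw [h2, ← h1]
  have hDC : D ≤ C := by
    rw [hC, Subgroup.le_centralizer_iff]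
    rw [hgen]
    apply iSup_le
    intro S v hv
    obtain ⟨hvV, hvS⟩ := Subgroup.mem_inf.1 hv
    rw [Subgroup.mem_centralizer_iff]
    intro d hd
    obtain ⟨c, hc, s, hs, rfl⟩ := decomp S C D k hrel d hd
    rw [hC, Subgroup.mem_centralizer_iff] at hc
    rw [Subgroup.mem_centralizer_iff] at hvS
    have e1 := hc v hvV
    have e2 := hvS s hs.1
    calc c * s * v = c * (s * v) := mul_assoc _ _ _
      _ = c * (v * s) := by rw [e2]
      _ = (c * v) * s := (mul_assoc _ _ _).symm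
      _ = (v * c) * s := by rw [e1]
      _ = v * (c * s) := mul_assoc _ _ _
  rw [eq_bot_iff]
  intro x hx
  obtain ⟨g, rfl⟩ := QuotientGroup.mk_surjective x
  rw [Subgroup.mem_bot]
  have hg : g ∈ D := hx
  exact (QuotientGroup.eq_one_iff g).2 (hDC hg)

end Cfsg.Agent.S0600
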