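import Mathlib
import Cfsg.Statements.S0602

set_option autoImplicit false
open Cfsg

namespace Cfsg.Agent.S0602

/-- closure of a pairwise commuting set of elements of order dividing `p` is elementary abelian -/
theorem elemAb_closure {G : Type*} [Group G] (p : ℕ) (S : Set G)
    (hcomm : ∀ x ∈ S, ∀ y ∈ S, x * y = y * x) (hpow : ∀ x ∈ S, x ^ p = 1) :
    Cfsg.IsElementaryAbelian p (Subgroup.closure S) := by
  have hc : IsMulCommutative (Subgroup.closure S) := Subgroup.isMulCommutative_closure hcomm
  refine ⟨hc, ?_⟩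
  intro a ha
  induction ha using Subgroup.closure_induction with
  | mem x hx => exact hpow x hx
  | one => exact one_pow p
  | mul x y hx hy ihx ihy =>
    have : Commute x y := setLike_mul_comm hx hy
    rw [this.mul_pow, ihx, ihy, one_mul]
  | inv x hx ih => rw [inv_pow, ih, inv_one]

theorem elemAb_bot {G : Type*} [Group G] (p : ℕ) : Cfsg.IsElementaryAbelian p (⊥ : Subgroup G) := by
  refine ⟨⟨⟨?_⟩⟩, ?_⟩
  · rintro ⟨a, ha⟩ ⟨b, hb⟩
    rw [Subgroup.mem_bot] at ha hb
    subst ha; subst hb; rfl
  · intro a ha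
    rw [Subgroup.mem_bot] at ha
    rw [ha, one_pow]

/-- a finite group has an elementary abelian `p`-subgroup of largest order -/
theorem exists_max {G : Type*} [Group G] [Finite G] (p : ℕ) :
    ∃ A : Subgroup G, A ∈ Cfsg.maxElementaryAbelianSubgroups p G := by
  haveI : Nonempty {A : Subgroup G // Cfsg.IsElementaryAbelian p A} := ⟨⟨⊥, elemAb_bot p⟩⟩
  obtain ⟨A, hA⟩ := Finite.exists_max (fun A : {A : Subgroup G // Cfsg.IsElementaryAbelian p A} => Nat.card (A : Subgroup G))
  exact ⟨A.1, A.2, fun B hB => hA ⟨B, hB⟩⟩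

theorem le_thompson {G : Type*} [Group G] (p : ℕ) {A : Subgroup G}
    (hA : A ∈ Cfsg.maxElementaryAbelianSubgroups p G) : A ≤ Cfsg.thompsonSubgroup p G :=
  le_sSup hA

theorem elemAb_zpowers {G : Type*} [Group G] (p : ℕ) (x : G) (hx : x ^ p = 1) :
    Cfsg.IsElementaryAbelian p (Subgroup.zpowers x) := by
  rw [Subgroup.zpowers_eq_closure]
  apply elemAb_closure
  · intro a ha b hb
    rw [Set.mem_singleton_iff] at ha hb; subst ha; subst hb; rfl
  · intro a ha
    rw [Set.mem_singleton_iff] at ha; subst ha; exact hx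

theorem result {G : Type*} [Group G] [Finite G] {p : ℕ} [Fact p.Prime] : (Cfsg.thompsonSubgroup p G).Characteristic ∧ (p ∣ Nat.card G → Cfsg.thompsonSubgroup p G ≠ ⊥) := by
  constructor
  · rw [Subgroup.characteristic_iff_map_le]
    intro φ
    rw [Subgroup.map_le_iff_le_comap]
    apply sSup_le
    intro A hA
    rw [← Subgroup.map_le_iff_le_comap]
    apply le_sSup
    haveI := hA.1.1
    refine ⟨⟨inferInstance, ?_⟩, ?_⟩
    · rintro y ⟨a, ha, rfl⟩
      have := hA.1.2 a ha
      rw [← map_pow, this, map_one]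
    · intro B hB
      have : Nat.card (A.map φ.toMonoidHom) = Nat.card A := Subgroup.card_map_of_injective φ.injective
      rw [this]
      exact hA.2 B hB
  · intro hp hbot
    obtain ⟨x, hx⟩ := exists_prime_orderOf_dvd_card' (G := G) p hp
    obtain ⟨A, hA⟩ := exists_max (G := G) p
    have h1 : Nat.card (Subgroup.zpowers x) ≤ Nat.card A :=
      hA.2 _ (elemAb_zpowers p x (by rw [← hx]; exact pow_orderOf_eq_one x))
    rw [Nat.card_zpowers, hx] at h1
    have hAbot : A = ⊥ := le_bot_iff.mp (hbot ▸ le_thompson p hA)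
    rw [hAbot, Subgroup.card_bot] at h1
    exact absurd h1 (by have := (Fact.out : p.Prime).two_le; omega)

end Cfsg.Agent.S0602
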