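import Mathlib
import Cfsg.Statements.S0603
import Cfsg.Agent.S0602

set_option autoImplicit false
open Cfsg

namespace Cfsg.Agent.S0603

theorem elemAb_map_subtype {G : Type*} [Group G] (p : ℕ) (U : Subgroup G) (B : Subgroup U)
    (hB : Cfsg.IsElementaryAbelian p B) : Cfsg.IsElementaryAbelian p (B.map U.subtype) := by
  haveI := hB.1
  refine ⟨inferInstance, ?_⟩
  rintro y ⟨b, hb, rfl⟩
  have := hB.2 b hb
  rw [← map_pow, this, map_one]

theorem elemAb_subgroupOf {G : Type*} [Group G] (p : ℕ) (U A : Subgroup G)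
    (hA : Cfsg.IsElementaryAbelian p A) : Cfsg.IsElementaryAbelian p (A.subgroupOf U) := by
  haveI := hA.1
  refine ⟨inferInstance, ?_⟩
  intro a ha
  apply Subtype.ext
  have := hA.2 (a : G) (Subgroup.mem_subgroupOf.mp ha)
  simpa using this

theorem result {G : Type*} [Group G] [Finite G] {p : ℕ} [Fact p.Prime] (U : Subgroup G) (hU : Cfsg.thompsonSubgroup p G ≤ U) : Cfsg.thompsonSubgroupOf p U = Cfsg.thompsonSubgroup p G := by
  unfold Cfsg.thompsonSubgroupOf
  have hsub : ∀ A ∈ Cfsg.maxElementaryAbelianSubgroups p G,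
      A.subgroupOf U ∈ Cfsg.maxElementaryAbelianSubgroups p U := by
    intro A hA
    have hAU : A ≤ U := (Cfsg.Agent.S0602.le_thompson p hA).trans hU
    refine ⟨elemAb_subgroupOf p U A hA.1, ?_⟩
    intro B hB
    have h1 : Nat.card (B.map U.subtype) = Nat.card B := Subgroup.card_map_of_injective U.subtype_injective
    have h2 : Nat.card (A.subgroupOf U) = Nat.card A := Nat.card_congr (Subgroup.subgroupOfEquivOfLe hAU).toEquiv
    rw [h2, ← h1]
    exact hA.2 _ (elemAb_map_subtype p U B hB)
  have hmap : ∀ B ∈ Cfsg.maxElementaryAbelianSubgroups p U,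
      B.map U.subtype ∈ Cfsg.maxElementaryAbelianSubgroups p G := by
    intro B hB
    refine ⟨elemAb_map_subtype p U B hB.1, ?_⟩
    intro C hC
    obtain ⟨A, hA⟩ := Cfsg.Agent.S0602.exists_max (G := G) p
    have hAU : A ≤ U := (Cfsg.Agent.S0602.le_thompson p hA).trans hU
    have h1 : Nat.card (B.map U.subtype) = Nat.card B := Subgroup.card_map_of_injective U.subtype_injective
    have h2 : Nat.card (A.subgroupOf U) = Nat.card A := Nat.card_congr (Subgroup.subgroupOfEquivOfLe hAU).toEquiv
    calc Nat.card C ≤ Nat.card A := hA.2 C hC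
      _ = Nat.card (A.subgroupOf U) := h2.symm
      _ ≤ Nat.card B := hB.2 _ (hsub A hA).1
      _ = Nat.card (B.map U.subtype) := h1.symm
  apply le_antisymm
  · rw [Subgroup.map_le_iff_le_comap]
    apply sSup_le
    intro B hB
    rw [← Subgroup.map_le_iff_le_comap]
    exact le_sSup (hmap B hB)
  · apply sSup_le
    intro A hA
    have hAU : A ≤ U := (Cfsg.Agent.S0602.le_thompson p hA).trans hU
    have : (A.subgroupOf U).map U.subtype = A := by
      rw [Subgroup.subgroupOf_map_subtype]; exact inf_eq_left.mpr hAU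
    rw [← this]
    exact Subgroup.map_mono (le_sSup (hsub A hA))

end Cfsg.Agent.S0603
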