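import Mathlib
import Cfsg.Statements.S0604
import Cfsg.Agent.S0602
import Cfsg.Agent.S0603

set_option autoImplicit false
open Cfsg
open scoped Pointwise

namespace Cfsg.Agent.S0604

theorem elemAb_map {G H : Type*} [Group G] [Group H] (p : ℕ) (f : G →* H) (A : Subgroup G)
    (hA : Cfsg.IsElementaryAbelian p A) : Cfsg.IsElementaryAbelian p (A.map f) := by
  haveI := hA.1
  refine ⟨inferInstance, ?_⟩
  rintro y ⟨a, ha, rfl⟩
  rw [← map_pow, hA.2 a ha, map_one]

theorem elemAb_isPGroup {G : Type*} [Group G] (p : ℕ) (A : Subgroup G)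
    (hA : Cfsg.IsElementaryAbelian p A) : IsPGroup p A := by
  intro a
  refine ⟨1, ?_⟩
  apply Subtype.ext
  simpa using hA.2 a a.2

/-- an elementary abelian subgroup of largest order, contained in `U`, is one of `U` -/
theorem max_subgroupOf {G : Type*} [Group G] (p : ℕ) (U A : Subgroup G) (hAU : A ≤ U)
    (hA : A ∈ Cfsg.maxElementaryAbelianSubgroups p G) :
    A.subgroupOf U ∈ Cfsg.maxElementaryAbelianSubgroups p U := by
  refine ⟨Cfsg.Agent.S0603.elemAb_subgroupOf p U A hA.1, ?_⟩
  intro B hB
  have h1 : Nat.card (B.map U.subtype) = Nat.card B := Subgroup.card_map_of_injective U.subtype_injective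
  have h2 : Nat.card (A.subgroupOf U) = Nat.card A := Nat.card_congr (Subgroup.subgroupOfEquivOfLe hAU).toEquiv
  rw [h2, ← h1]
  exact hA.2 _ (Cfsg.Agent.S0603.elemAb_map_subtype p U B hB)

theorem result {G : Type*} [Group G] [Finite G] {p : ℕ} [Fact p.Prime] : Cfsg.thompsonSubgroup p G = ⨆ S : Sylow p G, Cfsg.thompsonSubgroupOf p (S : Subgroup G) := by
  apply le_antisymm
  · apply sSup_le
    intro A hA
    obtain ⟨S, hS⟩ := (elemAb_isPGroup p A hA.1).exists_le_sylow
    refine le_trans ?_ (le_iSup _ S)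
    unfold Cfsg.thompsonSubgroupOf
    have : (A.subgroupOf (S : Subgroup G)).map (S : Subgroup G).subtype = A := by
      rw [Subgroup.subgroupOf_map_subtype]; exact inf_eq_left.mpr hS
    rw [← this]
    exact Subgroup.map_mono (le_sSup (max_subgroupOf p _ A hS hA))
  · apply iSup_le
    intro S
    unfold Cfsg.thompsonSubgroupOf
    rw [Subgroup.map_le_iff_le_comap]
    apply sSup_le
    intro B hB
    rw [← Subgroup.map_le_iff_le_comap]
    apply le_sSup
    refine ⟨Cfsg.Agent.S0603.elemAb_map_subtype p _ B hB.1, ?_⟩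
    intro C hC
    obtain ⟨A, hA⟩ := Cfsg.Agent.S0602.exists_max (G := G) p
    obtain ⟨S', hS'⟩ := (elemAb_isPGroup p A hA.1).exists_le_sylow
    obtain ⟨g, hg⟩ := MulAction.exists_smul_eq G S' S
    -- the conjugate of A inside S
    have hle : MulAut.conj g • A ≤ (S : Subgroup G) := by
      have h1 : MulAut.conj g • A ≤ MulAut.conj g • (S' : Subgroup G) :=
        Subgroup.pointwise_smul_le_pointwise_smul_iff.mpr hS'
      have h2 : MulAut.conj g • (S' : Subgroup G) = (S : Subgroup G) := by
        rw [← hg]; rfl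
      rw [← h2]; exact h1
    have hEA : Cfsg.IsElementaryAbelian p (MulAut.conj g • A) := by
      rw [Subgroup.pointwise_smul_def]
      exact elemAb_map p _ A hA.1
    have hcard : Nat.card ↥(MulAut.conj g • A) = Nat.card A := by
      rw [Subgroup.pointwise_smul_def]
      exact Subgroup.card_map_of_injective (MulAut.conj g).injective
    have h1 : Nat.card (B.map (S : Subgroup G).subtype) = Nat.card B :=
      Subgroup.card_map_of_injective (S : Subgroup G).subtype_injective
    have h2 : Nat.card ((MulAut.conj g • A).subgroupOf (S : Subgroup G)) = Nat.card ↥(MulAut.conj g • A) :=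
      Nat.card_congr (Subgroup.subgroupOfEquivOfLe hle).toEquiv
    calc Nat.card C ≤ Nat.card A := hA.2 C hC
      _ = Nat.card ↥(MulAut.conj g • A) := hcard.symm
      _ = Nat.card ((MulAut.conj g • A).subgroupOf (S : Subgroup G)) := h2.symm
      _ ≤ Nat.card B := hB.2 _ (Cfsg.Agent.S0603.elemAb_subgroupOf p _ _ hEA)
      _ = Nat.card (B.map (S : Subgroup G).subtype) := h1.symm

end Cfsg.Agent.S0604
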