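import Mathlib
import Cfsg.Statements.S0605
import Cfsg.Agent.S0602

set_option autoImplicit false
open Cfsg

namespace Cfsg.Agent.S0605

theorem result {G : Type*} [Group G] [Finite G] {p : ℕ} [Fact p.Prime] (x : G) (hx : x ∈ Subgroup.centralizer (Cfsg.thompsonSubgroup p G : Set G)) (ho : orderOf x = p) : x ∈ Cfsg.thompsonSubgroup p G := by
  obtain ⟨A, hA⟩ := Cfsg.Agent.S0602.exists_max (G := G) p
  have hAJ := Cfsg.Agent.S0602.le_thompson p hA
  haveI := hA.1.1
  have hcomm : ∀ y ∈ (A : Set G) ∪ {x}, ∀ z ∈ (A : Set G) ∪ {x}, y * z = z * y := by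
    rintro y (hy | hy) z (hz | hz)
    · exact setLike_mul_comm hy hz
    · rw [Set.mem_singleton_iff] at hz; subst hz
      exact (Subgroup.mem_centralizer_iff.mp hx y (hAJ hy))
    · rw [Set.mem_singleton_iff] at hy; subst hy
      exact (Subgroup.mem_centralizer_iff.mp hx z (hAJ hz)).symm
    · rw [Set.mem_singleton_iff] at hy hz; subst hy; subst hz; rfl
  have hpow : ∀ y ∈ (A : Set G) ∪ {x}, y ^ p = 1 := by
    rintro y (hy | hy)
    · exact hA.1.2 y hy
    · rw [Set.mem_singleton_iff] at hy; subst hy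
      rw [← ho]; exact pow_orderOf_eq_one y
  have hE := Cfsg.Agent.S0602.elemAb_closure p _ hcomm hpow
  have hle : A ≤ Subgroup.closure ((A : Set G) ∪ {x}) := fun a ha => Subgroup.subset_closure (Or.inl ha)
  have heq : A = Subgroup.closure ((A : Set G) ∪ {x}) := Subgroup.eq_of_le_of_card_ge hle (hA.2 _ hE)
  apply hAJ
  rw [heq]
  exact Subgroup.subset_closure (Or.inr rfl)

end Cfsg.Agent.S0605
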