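import Mathlib
import Cfsg.Statements.S0606
import Cfsg.Agent.S0602

set_option autoImplicit false
open Cfsg

namespace Cfsg.Agent.S0606

/-- product formula for two elementwise commuting subgroups -/
theorem card_sup_mul_card_inf_of_commute {G : Type*} [Group G] [Finite G] (B C : Subgroup G)
    (h : ∀ b ∈ B, ∀ c ∈ C, b * c = c * b) :
    Nat.card ↥(B ⊔ C) * Nat.card ↥(B ⊓ C) = Nat.card B * Nat.card C := by
  have comm : ∀ (b : B) (c : C), Commute (B.subtype b) (C.subtype c) := fun b c => h b b.2 c c.2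
  set f : B × C →* G := MonoidHom.noncommCoprod B.subtype C.subtype comm with hf
  have hrange : f.range = B ⊔ C := by
    rw [hf, MonoidHom.noncommCoprod_range, Subgroup.range_subtype, Subgroup.range_subtype]
  have h1 : Nat.card f.ker * Nat.card f.range = Nat.card (B × C) := by
    rw [← Subgroup.index_ker]; exact Subgroup.card_mul_index f.ker
  have hfa : ∀ z : B × C, f z = (z.1 : G) * (z.2 : G) := fun z => rfl
  have hker : Nat.card f.ker = Nat.card ↥(B ⊓ C) := by
    apply Nat.card_congr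
    refine ⟨fun y => ⟨(y.1.1 : G), y.1.1.2, ?_⟩, fun x => ⟨(⟨x.1, x.2.1⟩, ⟨x.1⁻¹, C.inv_mem x.2.2⟩), ?_⟩, ?_, ?_⟩
    · have := y.2
      rw [MonoidHom.mem_ker, hfa] at this
      have e : (y.1.1 : G) = (y.1.2 : G)⁻¹ := eq_inv_of_mul_eq_one_left this
      rw [e]
      exact C.inv_mem y.1.2.2
    · rw [MonoidHom.mem_ker, hfa]
      simp
    · rintro ⟨⟨b, c⟩, hy⟩
      rw [MonoidHom.mem_ker, hfa] at hy
      have e : (b : G) = (c : G)⁻¹ := eq_inv_of_mul_eq_one_left hy
      apply Subtype.ext
      apply Prod.ext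
      · rfl
      · apply Subtype.ext
        simp [e]
    · rintro ⟨x, hx⟩
      rfl
  rw [hrange, hker, Nat.card_prod] at h1
  rw [mul_comm]
  exact h1

theorem result {G : Type*} [Group G] [Finite G] {p : ℕ} [Fact p.Prime] (V : Subgroup G) [V.Normal] (hV : Cfsg.IsElementaryAbelian p V) (A : Subgroup G) (hA : A ∈ Cfsg.maxElementaryAbelianSubgroups p G) : Cfsg.IsBestOffenderOn p V A := by
  haveI := hA.1.1
  haveI := hV.1
  refine ⟨?_, ?_, ?_⟩
  · intro B hBA
    set C : Subgroup G := V ⊓ Subgroup.centralizer (B : Set G) with hC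
    have hcomm : ∀ b ∈ B, ∀ c ∈ C, b * c = c * b := by
      intro b hb c hc
      exact (Subgroup.mem_centralizer_iff.mp hc.2 b hb)
    have hprod := card_sup_mul_card_inf_of_commute B C hcomm
    have hE : Cfsg.IsElementaryAbelian p (B ⊔ C) := by
      have : B ⊔ C = Subgroup.closure ((B : Set G) ∪ (C : Set G)) := by
        rw [Subgroup.closure_union, Subgroup.closure_eq, Subgroup.closure_eq]
      rw [this]
      apply Cfsg.Agent.S0602.elemAb_closure
      · rintro y (hy | hy) z (hz | hz)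
        · exact setLike_mul_comm (hBA hy) (hBA hz)
        · exact hcomm y hy z hz
        · exact (hcomm z hz y hy).symm
        · exact setLike_mul_comm hy.1 hz.1
      · rintro y (hy | hy)
        · exact hA.1.2 y (hBA hy)
        · exact hV.2 y hy.1
    have h1 : Nat.card ↥(B ⊔ C) ≤ Nat.card A := hA.2 _ hE
    have h2 : Nat.card ↥(B ⊓ C) ≤ Nat.card ↥(V ⊓ Subgroup.centralizer (A : Set G)) := by
      apply Subgroup.card_le_of_le
      intro x hx
      exact ⟨hx.2.1, Subgroup.le_centralizer A (hBA hx.1)⟩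
    calc Nat.card B * Nat.card C = Nat.card ↥(B ⊔ C) * Nat.card ↥(B ⊓ C) := hprod.symm
      _ ≤ Nat.card A * Nat.card ↥(V ⊓ Subgroup.centralizer (A : Set G)) := Nat.mul_le_mul h1 h2
  · have : ⁅A, A⁆ = ⊥ := Subgroup.commutator_eq_bot_iff_le_centralizer.mpr (Subgroup.le_centralizer A)
    rw [this]
    exact bot_le
  · intro a ha
    rw [hA.1.2 a ha]
    exact Subgroup.one_mem _

end Cfsg.Agent.S0606
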