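import Mathlib
import Cfsg.Statements.S0607
import Cfsg.Agent.S0597
import Cfsg.Agent.S0598
import Cfsg.Agent.S0599

set_option autoImplicit false
open Pointwise
open Cfsg
open scoped commutatorElement

namespace Cfsg.Agent.S0607

open Cfsg.Agent.S0598 (cv cv_anti card_mul_le)

theorem elemAb_sup {G : Type*} [Group G] {p : ℕ} (X Y : Subgroup G)
    (hX : Cfsg.IsElementaryAbelian p X) (hY : Cfsg.IsElementaryAbelian p Y)
    (hXY : ∀ x ∈ X, ∀ y ∈ Y, x * y = y * x) : Cfsg.IsElementaryAbelian p (X ⊔ Y) := by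
  have hXc : ∀ a ∈ X, ∀ b ∈ X, a * b = b * a := by
    haveI := hX.1
    exact fun a ha b hb => setLike_mul_comm ha hb
  have hYc : ∀ a ∈ Y, ∀ b ∈ Y, a * b = b * a := by
    haveI := hY.1
    exact fun a ha b hb => setLike_mul_comm ha hb
  have hn : Y ≤ Subgroup.normalizer (X : Set G) := by
    intro y hy
    rw [Subgroup.mem_normalizer_iff]
    intro h
    constructor
    · intro hh
      have e : y * h * y⁻¹ = h := by rw [← hXY h hh y hy]; group
      rw [e]; exact hh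
    · intro hh
      have e1 := hXY _ hh y hy
      have e : h = y * h * y⁻¹ := by
        have e3 : y * h = y * (y * h * y⁻¹) := by rw [← e1]; group
        exact mul_left_cancel e3
      rw [e]; exact hh
  have hdec : ∀ g ∈ X ⊔ Y, ∃ x ∈ X, ∃ y ∈ Y, g = x * y := by
    intro g hg
    have hg' : g ∈ ((X ⊔ Y : Subgroup G) : Set G) := hg
    rw [Subgroup.coe_mul_of_right_le_normalizer_left _ _ hn] at hg'
    obtain ⟨x, hx, y, hy, e⟩ := hg'
    exact ⟨x, hx, y, hy, e.symm⟩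
  refine ⟨IsMulCommutative.of_setLike_mul_comm ?_, ?_⟩
  · intro a ha b hb
    obtain ⟨x, hx, y, hy, rfl⟩ := hdec a ha
    obtain ⟨x', hx', y', hy', rfl⟩ := hdec b hb
    calc x * y * (x' * y') = x * (y * x') * y' := by group
      _ = x * (x' * y) * y' := by rw [hXY x' hx' y hy]
      _ = (x * x') * (y * y') := by group
      _ = (x' * x) * (y' * y) := by rw [hXc x hx x' hx', hYc y hy y' hy']
      _ = x' * (x * y') * y := by group
      _ = x' * (y' * x) * y := by rw [hXY x hx y' hy']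
      _ = x' * y' * (x * y) := by group
  · intro a ha
    obtain ⟨x, hx, y, hy, rfl⟩ := hdec a ha
    rw [(show Commute x y from hXY x hx y hy).mul_pow, hX.2 x hx, hY.2 y hy, one_mul]

theorem result {G : Type*} [Group G] [Finite G] {p : ℕ} [Fact p.Prime] (V : Subgroup G) [V.Normal] (hV : Cfsg.IsElementaryAbelian p V) (A : Subgroup G) (hA : A ∈ Cfsg.maxElementaryAbelianSubgroups p G) : (⁅V, A⁆ ⊔ (A ⊓ Subgroup.centralizer ((⁅V, A⁆ : Subgroup G) : Set G))) ∈ Cfsg.maxElementaryAbelianSubgroups p G ∧ ⁅⁅V, ⁅V, A⁆ ⊔ (A ⊓ Subgroup.centralizer ((⁅V, A⁆ : Subgroup G) : Set G))⁆, ⁅V, A⁆ ⊔ (A ⊓ Subgroup.centralizer ((⁅V, A⁆ : Subgroup G) : Set G))⁆ = ⊥ ∧ (⁅V, A⁆ ≠ ⊥ → ⁅V, ⁅V, A⁆ ⊔ (A ⊓ Subgroup.centralizer ((⁅V, A⁆ : Subgroup G) : Set G))⁆ ≠ ⊥) := by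
  obtain ⟨hAe, hAmax⟩ := hA
  have hVc : ∀ v ∈ V, ∀ w ∈ V, v * w = w * v := by
    haveI := hV.1
    exact fun v hv w hw => setLike_mul_comm hv hw
  have hAc : ∀ a ∈ A, ∀ b ∈ A, a * b = b * a := by
    haveI := hAe.1
    exact fun a ha b hb => setLike_mul_comm ha hb
  have hAV : A ≤ Subgroup.normalizer (V : Set G) := by
    rw [Subgroup.normalizer_eq_top_iff.2 (inferInstance : V.Normal)]; exact le_top
  have hab : ⁅A, A⁆ ≤ Subgroup.centralizer (V : Set G) := by
    rw [Subgroup.commutator_le]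
    intro a ha b hb
    rw [commutatorElement_eq_one_iff_commute.2 (hAc a ha b hb)]
    exact Subgroup.one_mem _
  have hpow : ∀ a ∈ A, a ^ p ∈ Subgroup.centralizer (V : Set G) := by
    intro a ha
    rw [hAe.2 a ha]; exact Subgroup.one_mem _
  have hWV : ⁅V, A⁆ ≤ V := Cfsg.Agent.S0599.comm_le_self V A hAV
  -- sub-elementary abelian
  have hsubE : ∀ X : Subgroup G, X ≤ A → Cfsg.IsElementaryAbelian p X := by
    intro X hX
    exact ⟨IsMulCommutative.of_setLike_mul_comm (fun a ha b hb => hAc a (hX ha) b (hX hb)),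
      fun a ha => hAe.2 a (hX ha)⟩
  have hsubV : ∀ X : Subgroup G, X ≤ V → Cfsg.IsElementaryAbelian p X := by
    intro X hX
    exact ⟨IsMulCommutative.of_setLike_mul_comm (fun a ha b hb => hVc a (hX ha) b (hX hb)),
      fun a ha => hV.2 a (hX ha)⟩
  have hXcv : ∀ X : Subgroup G, X ≤ A → Cfsg.IsElementaryAbelian p (X ⊔ cv V X) := by
    intro X hX
    apply elemAb_sup X (cv V X) (hsubE X hX) (hsubV _ inf_le_left)
    intro x hx y hy
    exact Subgroup.mem_centralizer_iff.1 (Subgroup.mem_inf.1 hy).2 x hx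
  have hAVle : A ⊓ V ≤ cv V A := by
    intro g hg
    obtain ⟨hgA, hgV⟩ := Subgroup.mem_inf.1 hg
    refine Subgroup.mem_inf.2 ⟨hgV, ?_⟩
    rw [Subgroup.mem_centralizer_iff]
    intro h hh
    exact hAc h hh g hgA
  have hinf : ∀ X : Subgroup G, X ≤ A → X ⊓ cv V X ≤ cv V A := by
    intro X hX
    exact (inf_le_inf hX inf_le_left).trans hAVle
  have hbest : ∀ X : Subgroup G, X ≤ A →
      Nat.card X * Nat.card (cv V X) ≤ Nat.card A * Nat.card (cv V A) := by
    intro X hX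
    calc Nat.card X * Nat.card (cv V X) ≤ Nat.card ↥(X ⊔ cv V X) * Nat.card ↥(X ⊓ cv V X) :=
          card_mul_le X (cv V X)
      _ ≤ Nat.card A * Nat.card (cv V A) :=
          Nat.mul_le_mul (hAmax _ (hXcv X hX)) (Subgroup.card_le_of_le (hinf X hX))
  obtain ⟨h1, h2⟩ := Cfsg.Agent.S0598.main V A hVc hAV hab hbest V le_rfl
  -- cv V A ≤ A
  have hcvA : cv V A ≤ A := by
    have h3 : Nat.card ↥(A ⊔ cv V A) ≤ Nat.card A := hAmax _ (hXcv A le_rfl)
    have h4 : A = A ⊔ cv V A := Subgroup.eq_of_le_of_card_ge le_sup_left h3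
    exact le_of_le_of_eq le_sup_right h4.symm
  have hVW : V ≤ Subgroup.centralizer ((⁅V, A⁆ : Subgroup G) : Set G) := by
    intro v hv
    rw [Subgroup.mem_centralizer_iff]
    intro h hh
    exact hVc h (hWV hh) v hv
  have hcvB : cv V A ≤ A ⊓ Subgroup.centralizer ((⁅V, A⁆ : Subgroup G) : Set G) :=
    le_inf hcvA (inf_le_left.trans hVW)
  have hA₀ : ⁅V, A⁆ ⊔ (A ⊓ Subgroup.centralizer ((⁅V, A⁆ : Subgroup G) : Set G)) =
      (A ⊓ Subgroup.centralizer ((⁅V, A⁆ : Subgroup G) : Set G)) ⊔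
        cv V (A ⊓ Subgroup.centralizer ((⁅V, A⁆ : Subgroup G) : Set G)) := by
    rw [h2]
    apply le_antisymm
    · exact sup_le (le_sup_left.trans le_sup_right) le_sup_left
    · exact sup_le le_sup_right (sup_le le_sup_left (hcvB.trans le_sup_right))
  have hA₀e : Cfsg.IsElementaryAbelian p
      (⁅V, A⁆ ⊔ (A ⊓ Subgroup.centralizer ((⁅V, A⁆ : Subgroup G) : Set G))) := by
    rw [hA₀]; exact hXcv _ inf_le_left
  have hA₀card : Nat.card A ≤
      Nat.card ↥(⁅V, A⁆ ⊔ (A ⊓ Subgroup.centralizer ((⁅V, A⁆ : Subgroup G) : Set G))) := by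
    rw [hA₀]
    have h3 := card_mul_le (A ⊓ Subgroup.centralizer ((⁅V, A⁆ : Subgroup G) : Set G))
      (cv V (A ⊓ Subgroup.centralizer ((⁅V, A⁆ : Subgroup G) : Set G)))
    rw [h1] at h3
    have h4 := Subgroup.card_le_of_le (hinf _ (inf_le_left :
      A ⊓ Subgroup.centralizer ((⁅V, A⁆ : Subgroup G) : Set G) ≤ A))
    have h5 := h3.trans (Nat.mul_le_mul_left _ h4)
    exact Nat.le_of_mul_le_mul_right h5 Nat.card_pos
  have hA₀K : ⁅V, A⁆ ⊔ (A ⊓ Subgroup.centralizer ((⁅V, A⁆ : Subgroup G) : Set G)) ≤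
      Cfsg.Agent.S0597.kerAct V ⁅V, A⁆ := by
    have hN := Cfsg.Agent.S0597.comm_normalizer V A
    apply sup_le
    · intro w hw
      refine ⟨hN (Subgroup.mem_sup_left (hWV hw)), fun v hv => ?_⟩
      have e : w * v * w⁻¹ * v⁻¹ = 1 := by rw [hVc w (hWV hw) v hv]; group
      rw [e]; exact Subgroup.one_mem _
    · intro a ha
      have haA := (Subgroup.mem_inf.1 ha).1
      refine ⟨hN (Subgroup.mem_sup_right haA), fun v hv => ?_⟩
      have h := Subgroup.commutator_mem_commutator hv haA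
      have e2 : a * v * a⁻¹ * v⁻¹ = ⁅v, a⁆⁻¹ := by rw [commutatorElement_def]; group
      rw [e2]
      exact Subgroup.inv_mem _ h
  have hVA₀ : ⁅V, ⁅V, A⁆ ⊔ (A ⊓ Subgroup.centralizer ((⁅V, A⁆ : Subgroup G) : Set G))⁆ ≤ ⁅V, A⁆ := by
    rw [Subgroup.commutator_le]
    intro v hv g hg
    have h := (hA₀K hg).2 v hv
    have e : ⁅v, g⁆ = (g * v * g⁻¹ * v⁻¹)⁻¹ := by rw [commutatorElement_def]; group
    rw [e]; exact Subgroup.inv_mem _ h
  refine ⟨⟨hA₀e, fun E hE => (hAmax E hE).trans hA₀card⟩, ?_, ?_⟩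
  · rw [eq_bot_iff]
    refine (Subgroup.commutator_mono hVA₀ le_rfl).trans ?_
    rw [← eq_bot_iff, Subgroup.commutator_eq_bot_iff_le_centralizer, Subgroup.le_centralizer_iff]
    exact sup_le (hWV.trans hVW) inf_le_right
  · intro hne hbot
    apply hne
    apply Cfsg.Agent.S0599.comm_eq_bot V A hV hAV hpow
    have h3 : V ≤ Subgroup.centralizer
        ((⁅V, A⁆ ⊔ (A ⊓ Subgroup.centralizer ((⁅V, A⁆ : Subgroup G) : Set G)) : Subgroup G) : Set G) :=
      Subgroup.commutator_eq_bot_iff_le_centralizer.1 hbot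
    have h4 : V ≤ cv V (A ⊓ Subgroup.centralizer ((⁅V, A⁆ : Subgroup G) : Set G)) :=
      le_inf le_rfl (h3.trans (Subgroup.centralizer_le (show
        ((A ⊓ Subgroup.centralizer ((⁅V, A⁆ : Subgroup G) : Set G) : Subgroup G) : Set G) ⊆ _ from
        fun x hx => Subgroup.mem_sup_right hx)))
    rw [h2] at h4
    exact h4

end Cfsg.Agent.S0607
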