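import Cfsg.Statements.S0630
import Mathlib
import Cfsg.Agent.Lib.Helper2.PCons

set_option autoImplicit false
open Cfsg

namespace Cfsg.Agent.S0630

theorem result {G : Type*} [Group G] [Finite G] {p : ℕ} [Fact p.Prime] : Cfsg.IsPConstrained p G ↔ Cfsg.IsPConstrained p (G ⧸ Cfsg.pPrimeCore p G) := by
  have hsurj : Function.Surjective (QuotientGroup.mk' (Cfsg.pPrimeCore p G)) :=
    QuotientGroup.mk'_surjective _
  have hO : Cfsg.pPrimeCore p (G ⧸ Cfsg.pPrimeCore p G) = ⊥ :=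
    Cfsg.Agent.Lib.Helper2.PComp.pPrimeCore_quotient_eq_bot (G := G) p
  rw [Cfsg.Agent.Lib.Helper2.PCons.pConstrained_iff, Cfsg.Agent.Lib.Helper2.PCons.pConstrained_iff]
  constructor
  · intro h
    have hlayer : Cfsg.layer (G ⧸ Cfsg.pPrimeCore p G) = ⊥ := by
      rw [← Cfsg.Agent.Lib.Helper2.PComp.map_pLayer p, h, Subgroup.map_bot]
    exact (Cfsg.Agent.Lib.Helper2.PCons.pLayer_eq_bot_of_surjective p
      (MonoidHom.id (G ⧸ Cfsg.pPrimeCore p G)) Function.surjective_id (by simp) hO hlayer).1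
  · intro h
    have hl' : Cfsg.layer ((G ⧸ Cfsg.pPrimeCore p G) ⧸
        Cfsg.pPrimeCore p (G ⧸ Cfsg.pPrimeCore p G)) = ⊥ := by
      rw [← Cfsg.Agent.Lib.Helper2.PComp.map_pLayer p, h, Subgroup.map_bot]
    have hlayer : Cfsg.layer (G ⧸ Cfsg.pPrimeCore p G) = ⊥ := by
      rw [← Cfsg.Agent.Lib.Helper2.Fstar.layer_map_equiv
        ((QuotientGroup.quotientMulEquivOfEq hO).trans QuotientGroup.quotientBot), hl',
        Subgroup.map_bot]
    have hker : (Nat.card (QuotientGroup.mk' (Cfsg.pPrimeCore p G)).ker).Coprime p := by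
      rw [QuotientGroup.ker_mk']
      exact Cfsg.Agent.Lib.Helper2.Local.pPrimeCore_coprime p
    exact (Cfsg.Agent.Lib.Helper2.PCons.pLayer_eq_bot_of_surjective p
      (QuotientGroup.mk' (Cfsg.pPrimeCore p G)) hsurj hker hO hlayer).1

end Cfsg.Agent.S0630
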