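import Cfsg.Statements.S0635
import Mathlib
import Cfsg.Agent.S0634
import Cfsg.Agent.Lib.Helper3.Core

set_option autoImplicit false
open Cfsg
open scoped commutatorElement

namespace Cfsg.Agent.S0635

open Cfsg.Agent.Lib.Helper3.Core

theorem le_odd {G : Type*} [Group G] (p k : ℕ) :
    (Cfsg.upperPSeries p G (2 * k)).1 ≤ (Cfsg.upperPSeries p G (2 * k + 1)).1 := by
  rw [Cfsg.Agent.S0634.hU]
  intro v hv
  rw [Subgroup.mem_comap]
  have h1 : QuotientGroup.mk' (Cfsg.upperPSeries p G (2 * k)).1 v = 1 :=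
    (QuotientGroup.eq_one_iff v).2 hv
  rw [h1]
  exact Subgroup.one_mem _

theorem le_even {G : Type*} [Group G] (p k : ℕ) :
    (Cfsg.upperPSeries p G (2 * k + 1)).1 ≤ (Cfsg.upperPSeries p G (2 * k + 2)).1 := by
  rw [Cfsg.Agent.S0634.hW]
  intro v hv
  rw [Subgroup.mem_comap]
  have h1 : QuotientGroup.mk' (Cfsg.upperPSeries p G (2 * k + 1)).1 v = 1 :=
    (QuotientGroup.eq_one_iff v).2 hv
  rw [h1]
  exact Subgroup.one_mem _

theorem step {G : Type*} [Group G] [Finite G] {p : ℕ} [Fact p.Prime] (S : Sylow p G)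
    (N : Subgroup G) [N.Normal]
    (hres : Subgroup.centralizer ((Cfsg.pCore p (G ⧸ N) : Subgroup (G ⧸ N)) : Set (G ⧸ N)) ≤
      Cfsg.pCore p (G ⧸ N)) (z : G) (hz : ∀ y ∈ (S : Subgroup G), ⁅z, y⁆ ∈ N) :
    z ∈ (Cfsg.pCore p (G ⧸ N)).comap (QuotientGroup.mk' N) := by
  have hsurj : Function.Surjective (QuotientGroup.mk' N) := QuotientGroup.mk'_surjective _
  rw [Subgroup.mem_comap]
  apply hres
  rw [Subgroup.mem_centralizer_iff]
  intro w hw
  have hw2 : w ∈ ((S.mapSurjective hsurj : Sylow p (G ⧸ N)) : Subgroup (G ⧸ N)) :=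
    pCore_le_sylow _ hw
  rw [Sylow.coe_mapSurjective] at hw2
  obtain ⟨y, hy, rfl⟩ := Subgroup.mem_map.1 hw2
  have h2 : ⁅z, y⁆ ∈ N := hz y hy
  have h3 : QuotientGroup.mk' N ⁅z, y⁆ = 1 := (QuotientGroup.eq_one_iff _).2 h2
  rw [map_commutatorElement, commutatorElement_eq_one_iff_mul_comm] at h3
  exact h3.symm

theorem top_of_le {G : Type*} [Group G] [Finite G] {p : ℕ} [Fact p.Prime] (S : Sylow p G)
    (N : Subgroup G) [N.Normal] (hS : (S : Subgroup G) ≤ N) :
    (Cfsg.pPrimeCore p (G ⧸ N)).comap (QuotientGroup.mk' N) = ⊤ := by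
  have htop : Cfsg.pPrimeCore p (G ⧸ N) = ⊤ := by
    apply le_antisymm le_top
    apply le_sSup
    refine ⟨inferInstance, ?_⟩
    rw [Subgroup.card_top]
    have h1 : Nat.card (G ⧸ N) = N.index := rfl
    rw [h1]
    have h2 : N.index ∣ (S : Subgroup G).index := Subgroup.index_dvd_of_le hS
    have h3 : ¬ p ∣ (S : Subgroup G).index := S.not_dvd_index
    have hp : p.Prime := Fact.out
    exact (Nat.Coprime.symm ((Nat.Prime.coprime_iff_not_dvd hp).2 (fun h => h3 (h.trans h2))))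
  rw [htop]
  exact Subgroup.comap_top _

theorem ucs_le {G : Type*} [Group G] [Finite G] {p : ℕ} [Fact p.Prime]
    (hsol : Cfsg.IsPSolvable p G) (S : Sylow p G) (k : ℕ) :
    ∀ z : ↥(S : Subgroup G), z ∈ Subgroup.upperCentralSeries ↥(S : Subgroup G) k →
      (z : G) ∈ (Cfsg.upperPSeries p G (2 * k)).1 := by
  induction k with
  | zero =>
    intro z hz
    rw [Subgroup.upperCentralSeries_zero, Subgroup.mem_bot] at hz
    rw [hz]
    exact Subgroup.one_mem _
  | succ k ih =>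
    intro z hz
    rw [Subgroup.mem_upperCentralSeries_succ_iff] at hz
    show (z : G) ∈ (Cfsg.upperPSeries p G (2 * k + 2)).1
    have hres := Cfsg.Agent.S0634.result hsol k
    have hmapeq : (Cfsg.upperPSeries p G (2 * k + 2)).1.map
        (QuotientGroup.mk' (Cfsg.upperPSeries p G (2 * k + 1)).1) =
        Cfsg.pCore p (G ⧸ (Cfsg.upperPSeries p G (2 * k + 1)).1) := by
      rw [Cfsg.Agent.S0634.hW, Subgroup.map_comap_eq_self_of_surjective
        (QuotientGroup.mk'_surjective _)]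
    rw [hmapeq] at hres
    rw [Cfsg.Agent.S0634.hW]
    apply step S _ hres
    intro y hy
    have h1 := ih _ (hz ⟨y, hy⟩)
    have h2 : ((⁅z, (⟨y, hy⟩ : ↥(S : Subgroup G))⁆ : ↥(S : Subgroup G)) : G) = ⁅(z : G), y⁆ := rfl
    rw [h2] at h1
    exact le_odd p k h1

theorem result {G : Type*} [Group G] [Finite G] {p : ℕ} [Fact p.Prime] (hsol : Cfsg.IsPSolvable p G) (S : Sylow p G) : Cfsg.PLengthLE p (Group.nilpotencyClass ↥(S : Subgroup G)) G := by
  haveI : Group.IsNilpotent ↥(S : Subgroup G) := S.isPGroup'.isNilpotent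
  unfold Cfsg.PLengthLE
  generalize hc : Group.nilpotencyClass ↥(S : Subgroup G) = c
  have hS : (S : Subgroup G) ≤ (Cfsg.upperPSeries p G (2 * c)).1 := by
    intro z hz
    have h1 : (⟨z, hz⟩ : ↥(S : Subgroup G)) ∈ Subgroup.upperCentralSeries ↥(S : Subgroup G) c := by
      rw [← hc, Subgroup.upperCentralSeries_nilpotencyClass]
      exact Subgroup.mem_top _
    exact ucs_le hsol S c _ h1
  rw [Cfsg.Agent.S0634.hU]
  exact top_of_le S _ hS

end Cfsg.Agent.S0635
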