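import Mathlib
import Cfsg.Statements.S0638
import Cfsg.Agent.S0127

set_option autoImplicit false
open Pointwise
open Cfsg

namespace Cfsg.Agent.S0638

universe u in
theorem aux (p : ℕ) [Fact p.Prime] (hp : p ≠ 2) (n : ℕ) : ∀ (R : Type u) [Group R] [Finite R],
    Nat.card R = n → IsPGroup p R → Cfsg.IsMetacyclic R → ¬ IsCyclic R →
    ∃ K : Subgroup R, (∀ x, x ∈ K ↔ x ^ p = 1) ∧ Nat.card K = p ^ 2 := by
  induction n using Nat.strong_induction_on with
  | _ n ih =>
    intro R _ _ hn hR hm hnc
    classical
    have hpp : p.Prime := Fact.out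
    obtain ⟨N, hNn, hNc, hQc⟩ := hm
    obtain ⟨m, hm⟩ := (hR.to_quotient N).exists_card_eq
    have hidx : N.index = p ^ m := by rw [Subgroup.index_eq_card]; exact hm
    rcases Nat.lt_or_ge m 2 with hm2 | hm2
    · interval_cases m
      · exfalso
        rw [pow_zero, Subgroup.index_eq_one] at hidx
        apply hnc
        have hs : Function.Surjective N.subtype := by
          intro x
          exact ⟨⟨x, hidx ▸ Subgroup.mem_top x⟩, rfl⟩
        exact isCyclic_of_surjective N.subtype hs
      · rw [pow_one] at hidx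
        exact Cfsg.Agent.S0127.main hp hR hnc N hNc hidx
    · obtain ⟨g, hg⟩ := hQc.exists_generator
      have hgord : orderOf g = p ^ m := by
        rw [orderOf_eq_card_of_forall_mem_zpowers hg, hm]
      letI : CommGroup (R ⧸ N) := IsCyclic.commGroup
      let ψ : R →* R ⧸ N := (powMonoidHom (p ^ (m - 1))).comp (QuotientGroup.mk' N)
      have hψ : ∀ x : R, ψ x = (QuotientGroup.mk' N x) ^ (p ^ (m - 1)) := fun x => rfl
      have hrange : ψ.range = Subgroup.zpowers (g ^ (p ^ (m - 1))) := by
        apply le_antisymm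
        · rintro _ ⟨x, rfl⟩
          rw [hψ]
          obtain ⟨i, hi⟩ := Subgroup.mem_zpowers_iff.1 (hg (QuotientGroup.mk' N x))
          rw [← hi]
          refine Subgroup.mem_zpowers_iff.2 ⟨i, ?_⟩
          rw [← zpow_natCast, ← zpow_natCast, ← zpow_mul, ← zpow_mul, mul_comm]
        · rw [Subgroup.zpowers_le]
          obtain ⟨r, hr⟩ := QuotientGroup.mk'_surjective N g
          exact ⟨r, by rw [hψ, hr]⟩
      have hordg : orderOf (g ^ (p ^ (m - 1))) = p := by
        rw [orderOf_pow' g (pow_ne_zero _ hpp.ne_zero), hgord,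
          Nat.gcd_eq_right (pow_dvd_pow p (Nat.sub_le m 1))]
        have e : p ^ m = p ^ (m - 1) * p := by
          rw [← pow_succ]; congr 1; omega
        rw [e, Nat.mul_div_cancel_left _ (pow_pos hpp.pos _)]
      have hMidx : ψ.ker.index = p := by
        rw [Subgroup.index_ker, hrange, Nat.card_zpowers, hordg]
      have hmemM : ∀ x : R, x ^ p = 1 → x ∈ ψ.ker := by
        intro x hx
        rw [MonoidHom.mem_ker, hψ, ← map_pow]
        have e : p ^ (m - 1) = p * p ^ (m - 2) := by
          rw [← pow_succ']; congr 1; omega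
        rw [e, pow_mul, hx, one_pow, map_one]
      by_cases hMc : IsCyclic ↥ψ.ker
      · exact Cfsg.Agent.S0127.main hp hR hnc ψ.ker hMc hMidx
      · have hNM : N ≤ ψ.ker := by
          intro x hx
          rw [MonoidHom.mem_ker, hψ]
          have : QuotientGroup.mk' N x = 1 := (QuotientGroup.eq_one_iff x).2 hx
          rw [this, one_pow]
        have hMcard : Nat.card ↥ψ.ker < n := by
          have h1 := Subgroup.card_mul_index ψ.ker
          rw [hMidx, hn] at h1
          have h2 : 0 < Nat.card ↥ψ.ker := Nat.card_pos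
          have h3 := hpp.two_le
          nlinarith
        have hMmeta : Cfsg.IsMetacyclic ↥ψ.ker := by
          refine ⟨N.subgroupOf ψ.ker, inferInstance, ?_, ?_⟩
          · exact isCyclic_of_surjective (Subgroup.subgroupOfEquivOfLe hNM).symm
              (Subgroup.subgroupOfEquivOfLe hNM).symm.surjective
          · let f : ↥ψ.ker ⧸ N.subgroupOf ψ.ker →* R ⧸ N :=
              QuotientGroup.map (N.subgroupOf ψ.ker) N ψ.ker.subtype (le_refl _)
            have hf : Function.Injective f := by
              rw [injective_iff_map_eq_one]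
              intro q hq
              induction q using QuotientGroup.induction_on with
              | H x =>
                have h1 : f (QuotientGroup.mk x) = QuotientGroup.mk (x : R) := rfl
                rw [h1, QuotientGroup.eq_one_iff] at hq
                exact (QuotientGroup.eq_one_iff x).2 (Subgroup.mem_subgroupOf.2 hq)
            exact isCyclic_of_injective f hf
        obtain ⟨K', hK', hK'c⟩ := ih _ hMcard ↥ψ.ker rfl (hR.to_subgroup _) hMmeta hMc
        refine ⟨K'.map ψ.ker.subtype, ?_, ?_⟩
        · intro x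
          constructor
          · rintro ⟨k, hk, rfl⟩
            have := (hK' k).1 hk
            rw [← map_pow, this, map_one]
          · intro hx
            refine ⟨⟨x, hmemM x hx⟩, ?_, rfl⟩
            rw [SetLike.mem_coe, hK']
            exact Subtype.ext hx
        · rw [Subgroup.card_map_of_injective (Subgroup.subtype_injective _)]
          exact hK'c

theorem result {R : Type*} [Group R] [Finite R] {p : ℕ} [Fact p.Prime] (hp : p ≠ 2) (hR : IsPGroup p R) (hm : Cfsg.IsMetacyclic R) (hnc : ¬ IsCyclic R) : Cfsg.IsElementaryAbelian p (Cfsg.omegaOne p (⊤ : Subgroup R)) ∧ Nat.card ↥(Cfsg.omegaOne p (⊤ : Subgroup R)) = p ^ 2 := by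
  obtain ⟨K, hK, hKc⟩ := aux p hp _ R rfl hR hm hnc
  have hcl : Cfsg.omegaOne p (⊤ : Subgroup R) = K := by
    have : {x : R | x ∈ (⊤ : Subgroup R) ∧ x ^ p = 1} = (K : Set R) := by
      ext x
      simp only [Subgroup.mem_top, true_and, Set.mem_setOf_eq, SetLike.mem_coe]
      exact (hK x).symm
    rw [Cfsg.omegaOne, this, Subgroup.closure_eq]
  rw [hcl]
  exact ⟨⟨⟨⟨fun a b => IsPGroup.commutative_of_card_eq_prime_sq hKc a b⟩⟩,
    fun a ha => (hK a).1 ha⟩, hKc⟩

end Cfsg.Agent.S0638
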