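import Mathlib
import Cfsg.Statements.S0641

set_option autoImplicit false
open Pointwise
open Cfsg

namespace Cfsg.Agent.S0641

theorem powerClosure_map {G H : Type*} [Group G] [Group H] (f : G →* H) (p n : ℕ)
    (K : Subgroup G) :
    (Cfsg.powerClosure p n K).map f = Cfsg.powerClosure p n (K.map f) := by
  unfold Cfsg.powerClosure
  rw [MonoidHom.map_closure]
  congr 1
  ext y
  constructor
  · rintro ⟨_, ⟨x, hx, rfl⟩, rfl⟩
    exact ⟨f x, Subgroup.mem_map_of_mem f hx, by rw [map_pow]⟩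
  · rintro ⟨_, ⟨x, hx, rfl⟩, rfl⟩
    exact ⟨x ^ (p ^ n), ⟨x, hx, rfl⟩, by rw [map_pow]⟩

theorem result {G : Type*} [Group G] {p : ℕ} [Fact p.Prime] (hG : Cfsg.IsRegularPGroup p G) (N : Subgroup G) [N.Normal] : Cfsg.IsRegularPGroup p (G ⧸ N) := by
  obtain ⟨hp, hreg⟩ := hG
  refine ⟨hp.to_quotient N, ?_⟩
  intro a b n
  obtain ⟨a, rfl⟩ := QuotientGroup.mk_surjective a
  obtain ⟨b, rfl⟩ := QuotientGroup.mk_surjective b
  obtain ⟨c, hc, e⟩ := hreg a b n
  refine ⟨QuotientGroup.mk' N c, ?_, ?_⟩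
  · have h1 : QuotientGroup.mk' N c ∈ (Cfsg.powerClosure p n ⁅Subgroup.closure ({a, b} : Set G),
        Subgroup.closure ({a, b} : Set G)⁆).map (QuotientGroup.mk' N) :=
      Subgroup.mem_map_of_mem _ hc
    rw [powerClosure_map, Subgroup.map_commutator, MonoidHom.map_closure, Set.image_pair] at h1
    exact h1
  · have h2 := congrArg (QuotientGroup.mk' N) e
    rw [map_mul, map_mul, map_pow, map_pow, map_pow, map_mul] at h2
    exact h2

end Cfsg.Agent.S0641
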