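import Mathlib
import Cfsg.Statements.S0642
import Cfsg.Agent.S0641

set_option autoImplicit false
open Pointwise
open Cfsg
open scoped commutatorElement

namespace Cfsg.Agent.S0642

theorem powerClosure_mono {G : Type*} [Group G] (p n : ℕ) {H K : Subgroup G} (h : H ≤ K) :
    Cfsg.powerClosure p n H ≤ Cfsg.powerClosure p n K := by
  unfold Cfsg.powerClosure
  apply Subgroup.closure_mono
  rintro y ⟨x, hx, rfl⟩
  exact ⟨x, h hx, rfl⟩

theorem result {G : Type*} [Group G] [Finite G] (hG : IsPGroup 2 G) : Cfsg.IsRegularPGroup 2 G ↔ ∀ a b : G, a * b = b * a := by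
  constructor
  · rintro ⟨-, hreg⟩
    set D := commutator G with hD
    set K := Cfsg.powerClosure 2 1 D with hK
    haveI hDc : D.Characteristic := by
      rw [hD, commutator_def]; infer_instance
    haveI hKc : K.Characteristic := by
      rw [Subgroup.characteristic_iff_map_eq]
      intro φ
      rw [hK, Cfsg.Agent.S0641.powerClosure_map, (Subgroup.characteristic_iff_map_eq.1 hDc) φ]
    have hKn : K.Normal := inferInstance
    have hcomm0 : ∀ a b : G, ⁅b⁻¹, a⁻¹⁆ ∈ K := by
      intro a b
      obtain ⟨c, hc, e⟩ := hreg a b 1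
      have hcK : c ∈ K := by
        refine powerClosure_mono 2 1 ?_ hc
        rw [hD, commutator_def]
        exact Subgroup.commutator_mono le_top le_top
      have e2 : c = b⁻¹ * ⁅b⁻¹, a⁻¹⁆ * b := by
        rw [pow_one, pow_two, pow_two, pow_two] at e
        have e3 : c = (a * a * (b * b))⁻¹ * (a * b * (a * b)) := by rw [e]; group
        rw [e3, commutatorElement_def]; group
      have e4 : ⁅b⁻¹, a⁻¹⁆ = b * c * b⁻¹ := by rw [e2]; group
      rw [e4]
      exact hKn.conj_mem c hcK b
    have hcomm : ∀ a b : G, ⁅a, b⁆ ∈ K := by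
      intro a b
      have h1 := hcomm0 b⁻¹ a⁻¹
      rwa [inv_inv, inv_inv] at h1
    have hDK : D ≤ K := by
      rw [hD, commutator_eq_closure, Subgroup.closure_le]
      rintro g ⟨g₁, g₂, rfl⟩
      exact hcomm g₁ g₂
    have hDbot : D = ⊥ := by
      by_contra hne
      haveI : Fact (Nat.Prime 2) := ⟨Nat.prime_two⟩
      have hDp : IsPGroup 2 ↥D := hG.to_subgroup D
      obtain ⟨m, hm⟩ := hDp.exists_card_eq
      have hm0 : m ≠ 0 := by
        rintro rfl
        rw [pow_zero, Subgroup.card_eq_one] at hm
        exact hne hm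
      obtain ⟨m', rfl⟩ := Nat.exists_eq_succ_of_ne_zero hm0
      obtain ⟨M, hM⟩ := Sylow.exists_subgroup_card_pow_prime (G := ↥D) 2 (n := m')
        (by rw [hm]; exact pow_dvd_pow 2 (Nat.le_succ m'))
      have hidx : M.index = 2 := by
        have h1 := Subgroup.card_mul_index M
        rw [hM, hm, pow_succ] at h1
        exact Nat.eq_of_mul_eq_mul_left (pow_pos (by norm_num) m') h1
      have hKM : K ≤ M.map D.subtype := by
        rw [hK]
        unfold Cfsg.powerClosure
        rw [Subgroup.closure_le]
        rintro y ⟨x, hx, rfl⟩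
        refine ⟨(⟨x, hx⟩ : ↥D) ^ 2, Subgroup.sq_mem_of_index_two hidx _, ?_⟩
        simp
      have hMtop : M = ⊤ := by
        rw [eq_top_iff]
        intro x _
        obtain ⟨y, hy, e⟩ := hKM (hDK x.2)
        have : y = x := Subtype.ext e
        rwa [this] at hy
      rw [hMtop, Subgroup.index_top] at hidx
      exact absurd hidx (by norm_num)
    intro a b
    have h1 : ⁅a, b⁆ ∈ D := by
      rw [hD, commutator_eq_closure]
      exact Subgroup.subset_closure ⟨a, b, rfl⟩
    rw [hDbot, Subgroup.mem_bot, commutatorElement_eq_one_iff_commute] at h1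
    exact h1.eq
  · intro hcomm
    refine ⟨hG, fun a b n => ⟨1, Subgroup.one_mem _, ?_⟩⟩
    rw [mul_one, (show Commute a b from hcomm a b).mul_pow]

end Cfsg.Agent.S0642
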