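import Cfsg.Statements.S0643

import Mathlib
import Cfsg.Agent.Lib.Helper7.Regular
import Cfsg.Agent.Lib.Helper7.RegularLevel

set_option autoImplicit false
open Cfsg
open scoped Pointwise

namespace Cfsg.Agent.S0643

universe u
section
open Subgroup
open scoped commutatorElement
open Cfsg.Agent.Lib.Helper7.Regular (mem_cl_left mem_cl_right comm_le_self)
open Cfsg.Agent.Lib.Helper7.RegularLevel

theorem regAt_of_weak {G : Type u} [Group G] [Finite G] {p : ℕ} [Fact p.Prime]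
    (hG : IsPGroup p G)
    (hW : ∀ a b : G, ∃ c ∈ ⁅closure ({a, b} : Set G), closure ({a, b} : Set G)⁆,
      (a * b) ^ p = a ^ p * b ^ p * c ^ p) : ∀ n : ℕ, RegAt p n G := by
  intro n
  induction n with
  | zero =>
    refine ⟨hG, fun a b => ⟨1, one_mem _, by simp⟩⟩
  | succ n ih =>
    refine ⟨hG, fun a b => ?_⟩
    obtain ⟨K, hK⟩ : ∃ K : Subgroup G, K = closure ({a, b} : Set G) := ⟨_, rfl⟩
    rw [← hK]
    have haK : a ∈ K := hK ▸ mem_cl_left a b
    have hbK : b ∈ K := hK ▸ mem_cl_right a b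
    obtain ⟨c, hc, hreg⟩ := ih.2 a b
    rw [← hK] at hc
    obtain ⟨c₀, hc₀, rfl⟩ := exists_pow_of_mem_powerClosure_aux ih _ _ le_rfl c hc
    obtain ⟨d, hd, hd2⟩ := hW (a ^ p ^ n * b ^ p ^ n) (c₀ ^ p ^ n)
    obtain ⟨f, hf, hf2⟩ := hW (a ^ p ^ n) (b ^ p ^ n)
    have hAK : a ^ p ^ n ∈ powerClosure p n K := Subgroup.subset_closure ⟨a, haK, rfl⟩
    have hBK : b ^ p ^ n ∈ powerClosure p n K := Subgroup.subset_closure ⟨b, hbK, rfl⟩
    have hCK : c₀ ^ p ^ n ∈ powerClosure p n K :=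
      Subgroup.subset_closure ⟨c₀, comm_le_self K hc₀, rfl⟩
    have hle := comm_powerClosure_le ih K
    have hd' : d ∈ powerClosure p n ⁅K, K⁆ := by
      apply hle
      have h1 : closure ({a ^ p ^ n * b ^ p ^ n, c₀ ^ p ^ n} : Set G) ≤ powerClosure p n K := by
        rw [closure_le]; rintro z (rfl | rfl)
        · exact mul_mem hAK hBK
        · exact hCK
      exact commutator_mono h1 h1 hd
    have hf' : f ∈ powerClosure p n ⁅K, K⁆ := by
      apply hle
      have h1 : closure ({a ^ p ^ n, b ^ p ^ n} : Set G) ≤ powerClosure p n K := by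
        rw [closure_le]; rintro z (rfl | rfl)
        · exact hAK
        · exact hBK
      exact commutator_mono h1 h1 hf
    obtain ⟨d₀, hd₀, rfl⟩ := exists_pow_of_mem_powerClosure_aux ih _ _ le_rfl d hd'
    obtain ⟨f₀, hf₀, rfl⟩ := exists_pow_of_mem_powerClosure_aux ih _ _ le_rfl f hf'
    refine ⟨f₀ ^ p ^ (n + 1) * c₀ ^ p ^ (n + 1) * d₀ ^ p ^ (n + 1), ?_, ?_⟩
    · exact mul_mem (mul_mem (Subgroup.subset_closure ⟨f₀, hf₀, rfl⟩)
        (Subgroup.subset_closure ⟨c₀, hc₀, rfl⟩)) (Subgroup.subset_closure ⟨d₀, hd₀, rfl⟩)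
    · rw [pow_succ p n]
      simp only [pow_mul]
      rw [hreg, hd2, hf2]
      simp only [mul_assoc]

end

theorem result {G : Type*} [Group G] [Finite G] {p : ℕ} [Fact p.Prime] (hG : IsPGroup p G) : Cfsg.IsRegularPGroup p G ↔ ∀ a b : G, ∃ c ∈ ⁅Subgroup.closure ({a, b} : Set G), Subgroup.closure ({a, b} : Set G)⁆, (a * b) ^ p = a ^ p * b ^ p * c ^ p := by
  constructor
  · intro hR a b
    obtain ⟨c, hc, h⟩ := hR.2 a b 1
    obtain ⟨x, hx, rfl⟩ :=
      Cfsg.Agent.Lib.Helper7.Regular.exists_pow_of_mem_powerClosure_aux hR 1 _ _ le_rfl c hc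
    refine ⟨x, hx, ?_⟩
    simpa using h
  · intro hW
    exact ⟨hG, fun a b n => (regAt_of_weak hG hW n).2 a b⟩

end Cfsg.Agent.S0643
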