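import Cfsg.Statements.S0644

import Mathlib
import Cfsg.Agent.Lib.Helper7.Regular

set_option autoImplicit false
open Cfsg
open scoped Pointwise

namespace Cfsg.Agent.S0644

theorem result {G : Type*} [Group G] [Finite G] {p : ℕ} [Fact p.Prime] (hG : Cfsg.IsRegularPGroup p G) (H : Subgroup G) (n : ℕ) : {y : G | ∃ x ∈ H, y = x ^ (p ^ n)} = (Cfsg.powerClosure p n H : Set G) ∧ ⁅Cfsg.powerClosure p n H, Cfsg.powerClosure p n H⁆ ≤ Cfsg.powerClosure p n ⁅H, H⁆ := by
  exact ⟨Cfsg.Agent.Lib.Helper7.Regular.powerClosure_coe hG H n,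
    Cfsg.Agent.Lib.Helper7.Regular.comm_powerClosure_le hG H n⟩

end Cfsg.Agent.S0644
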