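import Mathlib
import Cfsg.Statements.S0645
import Cfsg.Agent.S0127

set_option autoImplicit false
open Pointwise
open Cfsg

namespace Cfsg.Agent.S0645

theorem conj_pow_iter {R : Type*} [Group R] (g c : R) (k : ℕ) (h : g * c * g⁻¹ = c ^ k) :
    ∀ j : ℕ, g ^ j * c * (g ^ j)⁻¹ = c ^ (k ^ j) := by
  intro j
  induction j with
  | zero => simp
  | succ j ih =>
    calc g ^ (j + 1) * c * (g ^ (j + 1))⁻¹ = g * (g ^ j * c * (g ^ j)⁻¹) * g⁻¹ := by
          rw [pow_succ']; group
      _ = g * c ^ (k ^ j) * g⁻¹ := by rw [ih]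
      _ = (g * c * g⁻¹) ^ (k ^ j) := (conj_pow).symm
      _ = c ^ (k ^ (j + 1)) := by rw [h, ← pow_mul, pow_succ']

theorem key {R : Type*} [Group R] [Finite R] {p : ℕ} [Fact p.Prime] (hp : p ≠ 2) (c : R) (n : ℕ)
    (hord : orderOf c = p ^ n) (hn1 : 1 ≤ n) [hCn : (Subgroup.zpowers c).Normal]
    (hCi : (Subgroup.zpowers c).index = p) (g : R) :
    ∃ k : ℕ, 1 < k ∧ g * c * g⁻¹ = c ^ k ∧ p ^ (n - 1) ∣ k - 1 := by
  have hpp : p.Prime := Fact.out
  have h1 : g * c * g⁻¹ ∈ Subgroup.zpowers c := hCn.conj_mem c (Subgroup.mem_zpowers c) g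
  rw [← mem_powers_iff_mem_zpowers] at h1
  obtain ⟨k₀, hk₀⟩ := h1
  have hk₀' : c ^ k₀ = g * c * g⁻¹ := hk₀
  have hk1 : 1 < k₀ + p ^ n := by
    have : 2 ≤ p ^ n := (hpp.two_le).trans (Nat.le_self_pow (by omega) p)
    omega
  have hck : g * c * g⁻¹ = c ^ (k₀ + p ^ n) := by
    rw [pow_add, ← hord, pow_orderOf_eq_one, mul_one, hk₀']
  have hiter := conj_pow_iter g c _ hck
  have hgp : g ^ p ∈ Subgroup.zpowers c := by
    have := (Subgroup.zpowers c).pow_index_mem g
    rwa [hCi] at this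
  have hcomm : g ^ p * c * (g ^ p)⁻¹ = c := by
    obtain ⟨i, hi⟩ := Subgroup.mem_zpowers_iff.1 hgp
    rw [← hi]
    group
  have hmod : (k₀ + p ^ n) ^ p ≡ 1 [MOD p ^ n] := by
    have h5 : c ^ ((k₀ + p ^ n) ^ p) = c ^ 1 := by rw [pow_one, ← hiter p, hcomm]
    have h6 := pow_eq_pow_iff_modEq.1 h5
    rwa [hord] at h6
  obtain ⟨h1, -⟩ := Cfsg.Agent.S0127.nt hp n (k₀ + p ^ n) hn1 hk1 hmod
  exact ⟨k₀ + p ^ n, hk1, hck, h1⟩

theorem binom_mod (m q : ℕ) : ∀ i : ℕ, (1 + m * q) ^ i ≡ 1 + i * m * q [MOD q ^ 2] := by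
  intro i
  induction i with
  | zero => simp [Nat.ModEq]
  | succ i ih =>
    have h1 : (1 + m * q) ^ (i + 1) ≡ (1 + i * m * q) * (1 + m * q) [MOD q ^ 2] := by
      rw [pow_succ]
      exact ih.mul_right _
    have h2 : (1 + i * m * q) * (1 + m * q) = 1 + (i + 1) * m * q + (i * m * m) * q ^ 2 := by ring
    rw [h2] at h1
    have h3 : 1 + (i + 1) * m * q + (i * m * m) * q ^ 2 ≡ 1 + (i + 1) * m * q [MOD q ^ 2] := by
      have : (i * m * m) * q ^ 2 ≡ 0 [MOD q ^ 2] :=
        (Nat.modEq_zero_iff_dvd).2 (dvd_mul_left _ _)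
      have h4 := (Nat.ModEq.refl (1 + (i + 1) * m * q)).add this
      simpa using h4
    exact h1.trans h3

theorem result {G : Type*} [Group G] [Finite G] {p : ℕ} [Fact p.Prime] (hp : p ≠ 2) (n : ℕ) (hn : 3 ≤ n) (hG : Nat.card G = p ^ n) (C : Subgroup G) (hC : IsCyclic C) (hCi : C.index = p) (hna : ∃ x y : G, x * y ≠ y * x) : ∃ a b : G, orderOf a = p ^ (n - 1) ∧ orderOf b = p ∧ b ∉ Subgroup.zpowers a ∧ b * a * b⁻¹ = a ^ (1 + p ^ (n - 2)) := by
  classical
  have hpp : p.Prime := Fact.out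
  have hR : IsPGroup p G := IsPGroup.of_card hG
  have hnc : ¬ IsCyclic G := by
    intro hc
    obtain ⟨x, y, hxy⟩ := hna
    exact hxy ((IsCyclic.isMulCommutative (α := G)).is_comm.comm x y)
  haveI hCn : C.Normal := by
    apply Subgroup.normal_of_index_eq_minFac_card
    rw [hCi, hG, hpp.pow_minFac (by omega)]
  obtain ⟨c, hCz⟩ : ∃ c : G, C = Subgroup.zpowers c := by
    obtain ⟨c', hc'⟩ := hC.exists_generator
    refine ⟨(c' : G), ?_⟩
    ext x
    constructor
    · intro hx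
      obtain ⟨i, hi⟩ := Subgroup.mem_zpowers_iff.1 (hc' ⟨x, hx⟩)
      refine Subgroup.mem_zpowers_iff.2 ⟨i, ?_⟩
      have := congrArg Subtype.val hi
      simpa using this
    · intro hx
      exact (Subgroup.zpowers_le.2 c'.2) hx
  subst hCz
  have hcardC : Nat.card (Subgroup.zpowers c) = p ^ (n - 1) := by
    have h1 := Subgroup.card_mul_index (Subgroup.zpowers c)
    rw [hCi, hG] at h1
    apply Nat.eq_of_mul_eq_mul_right hpp.pos
    rw [h1, ← pow_succ]; congr 1; omega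
  have hord : orderOf c = p ^ (n - 1) := by rw [← hcardC, Nat.card_zpowers]
  obtain ⟨K, hK, hKc⟩ := Cfsg.Agent.S0127.main hp hR hnc (Subgroup.zpowers c) hC hCi
  -- an element of order p outside C
  obtain ⟨t, htK, htC⟩ : ∃ t ∈ K, t ∉ Subgroup.zpowers c := by
    by_contra hcon
    push Not at hcon
    have hle : K ≤ Subgroup.zpowers c := hcon
    haveI : IsCyclic ↥K :=
      isCyclic_of_injective (Subgroup.inclusion hle) (Subgroup.inclusion_injective hle)
    obtain ⟨g, hg⟩ := IsCyclic.exists_ofOrder_eq_natCard (α := ↥K)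
    have h1 : (g : G) ^ p = 1 := (hK g).1 g.2
    have h2 : g ^ p = 1 := Subtype.ext (by simpa using h1)
    have h3 := orderOf_dvd_of_pow_eq_one h2
    rw [hg, hKc] at h3
    have h4 := Nat.le_of_dvd hpp.pos h3
    have h5 : p < p ^ 2 := by
      have := hpp.two_le
      nlinarith
    omega
  have htp : t ^ p = 1 := (hK t).1 htK
  have ht1 : t ≠ 1 := fun h => htC (h ▸ Subgroup.one_mem _)
  obtain ⟨k, hk1, hck, hd⟩ := key hp c (n - 1) hord (by omega) hCi t
  have hn2 : n - 1 - 1 = n - 2 := by omega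
  rw [hn2] at hd
  obtain ⟨m, hm⟩ := hd
  have hk : k = 1 + m * p ^ (n - 2) := by
    have : k - 1 = m * p ^ (n - 2) := by rw [hm, mul_comm]
    omega
  -- p ∤ m
  have hpm : ¬ p ∣ m := by
    rintro ⟨s, rfl⟩
    have hck' : t * c * t⁻¹ = c := by
      rw [hck]
      have h1 : c ^ k = c ^ 1 := by
        rw [pow_eq_pow_iff_modEq, hord]
        have h2 : p ^ (n - 1) ∣ k - 1 := by
          rw [hm]
          have e : p ^ (n - 1) = p ^ (n - 2) * p := by rw [← pow_succ]; congr 1; omega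
          rw [e]
          exact ⟨s, by ring⟩
        exact ((Nat.modEq_iff_dvd' hk1.le).2 h2).symm
      rw [h1, pow_one]
    have htc : t * c = c * t := by
      calc t * c = (t * c * t⁻¹) * t := by group
        _ = c * t := by rw [hck']
    -- G = ⟨c, t⟩
    have htop : Subgroup.zpowers c ⊔ Subgroup.zpowers t = ⊤ := by
      apply Subgroup.eq_top_of_card_eq
      obtain ⟨j, hj⟩ := (hR.to_subgroup (Subgroup.zpowers c ⊔ Subgroup.zpowers t)).exists_card_eq
      have hlt : Nat.card (Subgroup.zpowers c) <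
          Nat.card (Subgroup.zpowers c ⊔ Subgroup.zpowers t : Subgroup G) := by
        apply lt_of_le_of_ne (Subgroup.card_le_of_le le_sup_left)
        intro e
        have h1 : Subgroup.zpowers c = Subgroup.zpowers c ⊔ Subgroup.zpowers t :=
          Subgroup.eq_of_le_of_card_ge le_sup_left e.ge
        exact htC (h1 ▸ Subgroup.mem_sup_right (Subgroup.mem_zpowers t))
      rw [hcardC, hj] at hlt
      have h2 : n - 1 < j := (Nat.pow_lt_pow_iff_right hpp.one_lt).1 hlt
      have h3 : p ^ j ∣ p ^ n := hj ▸ hG ▸ Subgroup.card_subgroup_dvd_card _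
      have h4 : j ≤ n := (Nat.pow_dvd_pow_iff_le_right hpp.one_lt).1 h3
      have h5 : j = n := by omega
      rw [hj, h5, hG]
    have hcen : ∀ y : G, y * c = c * y → y * t = t * y → ∀ x : G, x * y = y * x := by
      intro y hyc hyt x
      have hle : Subgroup.zpowers c ⊔ Subgroup.zpowers t ≤ Subgroup.centralizer ({y} : Set G) := by
        apply sup_le
        · rw [Subgroup.zpowers_le, Subgroup.mem_centralizer_iff]
          intro h hh
          rw [Set.mem_singleton_iff] at hh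
          rw [hh]; exact hyc
        · rw [Subgroup.zpowers_le, Subgroup.mem_centralizer_iff]
          intro h hh
          rw [Set.mem_singleton_iff] at hh
          rw [hh]; exact hyt
      have hx : x ∈ Subgroup.centralizer ({y} : Set G) := hle (htop ▸ Subgroup.mem_top x)
      rw [Subgroup.mem_centralizer_iff] at hx
      exact (hx y rfl).symm
    obtain ⟨x, y, hxy⟩ := hna
    have hc_cen : ∀ x : G, x * c = c * x := hcen c rfl htc.symm
    have ht_cen : ∀ x : G, x * t = t * x := hcen t htc rfl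
    exact hxy (hcen y (hc_cen y) (ht_cen y) x)
  have hcop : Nat.Coprime m p := (Nat.coprime_comm.1 ((Nat.Prime.coprime_iff_not_dvd hpp).2 hpm))
  obtain ⟨i, hip, hi⟩ := Nat.exists_mul_mod_eq_one_of_coprime hcop hpp.one_lt
  -- b := t ^ i
  have hbp : (t ^ i) ^ p = 1 := by rw [← pow_mul, mul_comm, pow_mul, htp, one_pow]
  have hordt : orderOf t = p := orderOf_eq_prime htp ht1
  have hpi : ¬ p ∣ i := by
    rintro ⟨s, rfl⟩
    have : m * (p * s) % p = 0 := by
      rw [← mul_assoc, mul_comm m p, mul_assoc]; exact Nat.mul_mod_right _ _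
    omega
  have hbC : t ^ i ∉ Subgroup.zpowers c := by
    intro hb
    apply htC
    -- t ∈ zpowers (t^i)
    have hcop' : Nat.Coprime (orderOf t) i := by
      rw [hordt]; exact (Nat.Prime.coprime_iff_not_dvd hpp).2 hpi
    have h1 : t ∈ Subgroup.zpowers (t ^ i) := by
      obtain ⟨j, hj⟩ := exists_pow_eq_self_of_coprime hcop'.symm
      have h2 : (t ^ i) ^ j ∈ Subgroup.zpowers (t ^ i) :=
        Subgroup.pow_mem _ (Subgroup.mem_zpowers _) j
      rwa [hj] at h2
    exact (Subgroup.zpowers_le.2 hb) h1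
  have hb1 : t ^ i ≠ 1 := fun h => hbC (h ▸ Subgroup.one_mem _)
  refine ⟨c, t ^ i, hord, orderOf_eq_prime hbp hb1, hbC, ?_⟩
  rw [conj_pow_iter t c k hck i, pow_eq_pow_iff_modEq, hord, hk]
  have h1 := binom_mod m (p ^ (n - 2)) i
  have hdvd : p ^ (n - 1) ∣ (p ^ (n - 2)) ^ 2 := by
    rw [← pow_mul]
    exact pow_dvd_pow p (by omega)
  have h2 : (1 + m * p ^ (n - 2)) ^ i ≡ 1 + i * m * p ^ (n - 2) [MOD p ^ (n - 1)] :=
    Nat.ModEq.of_dvd hdvd h1
  refine h2.trans ?_
  -- i * m = 1 + p * s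
  obtain ⟨s, hs⟩ : ∃ s, i * m = p * s + 1 := by
    refine ⟨m * i / p, ?_⟩
    have := Nat.div_add_mod (m * i) p
    rw [mul_comm i m]
    omega
  have h4 : 1 + i * m * p ^ (n - 2) = 1 + p ^ (n - 2) + s * p ^ (n - 1) := by
    have e : p ^ (n - 1) = p ^ (n - 2) * p := by rw [← pow_succ]; congr 1; omega
    rw [e, hs]
    ring
  rw [h4]
  have h5 : s * p ^ (n - 1) ≡ 0 [MOD p ^ (n - 1)] :=
    (Nat.modEq_zero_iff_dvd).2 (dvd_mul_left _ _)
  have h6 := (Nat.ModEq.refl (1 + p ^ (n - 2))).add h5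
  simpa using h6

end Cfsg.Agent.S0645
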