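import Mathlib
import Cfsg.Statements.S0646

set_option autoImplicit false
open Pointwise
open Cfsg
open scoped commutatorElement

namespace Cfsg.Agent.S0646

theorem nt (e : ℕ) (r : ℤ) (h1 : (4 * 2 ^ e : ℤ) ∣ r * r - 1) (h2 : ¬ (4 * 2 ^ e : ℤ) ∣ r - 1) :
    (4 * 2 ^ e : ℤ) ∣ r + 1 ∨ (1 ≤ e ∧ (4 * 2 ^ e : ℤ) ∣ r - 1 - 2 * 2 ^ e) ∨
      (1 ≤ e ∧ (4 * 2 ^ e : ℤ) ∣ r + 1 - 2 * 2 ^ e) := by
  have hodd : ¬ (2 : ℤ) ∣ r := by
    intro h
    have h3 : (2 : ℤ) ∣ r * r - 1 := Dvd.dvd.trans ⟨2 * 2 ^ e, by ring⟩ h1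
    have h4 : (2 : ℤ) ∣ r * r := Dvd.dvd.mul_right h r
    have h5 : (2 : ℤ) ∣ 1 := by
      have := dvd_sub h4 h3
      simpa using this
    omega
  obtain ⟨k, hk⟩ : ∃ k, r = 2 * k + 1 := by
    rcases Int.emod_two_eq_zero_or_one r with h | h
    · exact absurd (Int.dvd_of_emod_eq_zero h) hodd
    · exact ⟨r / 2, by omega⟩
  subst hk
  have h3 : (2 ^ e : ℤ) ∣ k * (k + 1) := by
    have : (4 * 2 ^ e : ℤ) ∣ 4 * (k * (k + 1)) := by
      have e1 : (4 : ℤ) * (k * (k + 1)) = (2 * k + 1) * (2 * k + 1) - 1 := by ring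
      rw [e1]; exact h1
    exact (mul_dvd_mul_iff_left (by norm_num : (4 : ℤ) ≠ 0)).mp this
  have h4 : (2 ^ e : ℤ) ∣ k ∨ (2 ^ e : ℤ) ∣ k + 1 := by
    rcases Int.emod_two_eq_zero_or_one k with hk | hk
    · left
      have hc : IsCoprime (2 ^ e : ℤ) (k + 1) := by
        apply IsCoprime.pow_left
        exact ⟨-(k / 2), 1, by omega⟩
      exact hc.dvd_of_dvd_mul_right h3
    · right
      have hc : IsCoprime (2 ^ e : ℤ) k := by
        apply IsCoprime.pow_left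
        exact ⟨-(k / 2), 1, by omega⟩
      exact hc.dvd_of_dvd_mul_left h3
  rcases h4 with ⟨j, hj⟩ | ⟨j, hj⟩
  · rcases Int.emod_two_eq_zero_or_one j with hj2 | hj2
    · exfalso
      apply h2
      obtain ⟨i, hi⟩ : ∃ i, j = 2 * i := ⟨j / 2, by omega⟩
      exact ⟨i, by rw [hj, hi]; ring⟩
    · obtain ⟨i, hi⟩ : ∃ i, j = 2 * i + 1 := ⟨j / 2, by omega⟩
      rcases Nat.eq_zero_or_pos e with he | he
      · left
        subst he
        exact ⟨i + 1, by rw [hj, hi]; ring⟩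
      · right; left
        exact ⟨he, i, by rw [hj, hi]; ring⟩
  · have hk' : k = 2 ^ e * j - 1 := by linarith
    rcases Int.emod_two_eq_zero_or_one j with hj2 | hj2
    · left
      obtain ⟨i, hi⟩ : ∃ i, j = 2 * i := ⟨j / 2, by omega⟩
      exact ⟨i, by rw [hk', hi]; ring⟩
    · obtain ⟨i, hi⟩ : ∃ i, j = 2 * i + 1 := ⟨j / 2, by omega⟩
      rcases Nat.eq_zero_or_pos e with he | he
      · exfalso
        apply h2
        subst he
        exact ⟨i, by rw [hk', hi]; ring⟩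
      · right; right
        exact ⟨he, i, by rw [hk', hi]; ring⟩

theorem dvd_half {D s : ℤ} (h : 4 * D ∣ 2 * s) : 2 * D ∣ s := by
  obtain ⟨w, hw⟩ := h
  exact ⟨w, mul_left_cancel₀ (two_ne_zero) (by linear_combination hw)⟩

theorem c1 (D r s : ℤ) (h1 : 4 * D ∣ r + 1) (h3 : 4 * D ∣ r * s - s) :
    (4 * D ∣ s) ∨ (4 * D ∣ s - 2 * D) := by
  obtain ⟨q, hq⟩ := h1
  obtain ⟨q3, hq3⟩ := h3
  have h4 : 4 * D ∣ 2 * s := ⟨q * s - q3, by linear_combination s * hq - hq3⟩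
  obtain ⟨j, hj⟩ := dvd_half h4
  rcases Int.emod_two_eq_zero_or_one j with hj2 | hj2
  · left
    obtain ⟨i, hi⟩ : ∃ i, j = 2 * i := ⟨j / 2, by omega⟩
    exact ⟨i, by rw [hj, hi]; ring⟩
  · right
    obtain ⟨i, hi⟩ : ∃ i, j = 2 * i + 1 := ⟨j / 2, by omega⟩
    exact ⟨i, by rw [hj, hi]; ring⟩

theorem c2 (e' : ℕ) (r s : ℤ) (h : (4 * (2 * 2 ^ e') : ℤ) ∣ r - 1 - 2 * (2 * 2 ^ e'))
    (h3 : (4 * (2 * 2 ^ e') : ℤ) ∣ r * s - s) :
    ∃ t : ℤ, (4 * (2 * 2 ^ e') : ℤ) ∣ r * t + s + t := by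
  obtain ⟨q, hq⟩ := h
  obtain ⟨q3, hq3⟩ := h3
  have hD : (2 * (2 * 2 ^ e') : ℤ) ≠ 0 := by positivity
  have hs' : s = 2 * (q3 - q * s) := by
    have : (2 * (2 * 2 ^ e') : ℤ) * s = (2 * (2 * 2 ^ e')) * (2 * (q3 - q * s)) := by
      linear_combination hq3 - s * hq
    exact mul_left_cancel₀ hD this
  have hcop : IsCoprime (1 + (2 * 2 ^ e') + 2 * (2 * 2 ^ e') * q : ℤ) (4 * (2 * 2 ^ e')) := by
    have e1 : (4 * (2 * 2 ^ e') : ℤ) = 2 ^ (e' + 3) := by ring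
    rw [e1]
    apply IsCoprime.pow_right
    exact ⟨1, -(2 ^ e' + 2 * 2 ^ e' * q), by ring⟩
  obtain ⟨w, z, hwz⟩ := hcop
  refine ⟨-(q3 - q * s) * w, 2 * (q3 - q * s) * z, ?_⟩
  linear_combination (-(q3 - q * s) * w) * hq + hs' - 2 * (q3 - q * s) * hwz

theorem c3 (e' : ℕ) (r s : ℤ) (h : (4 * (2 * 2 ^ e') : ℤ) ∣ r + 1 - 2 * (2 * 2 ^ e'))
    (h3 : (4 * (2 * 2 ^ e') : ℤ) ∣ r * s - s) :
    ∃ t : ℤ, (4 * (2 * 2 ^ e') : ℤ) ∣ r * t + s + t := by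
  obtain ⟨q, hq⟩ := h
  obtain ⟨q3, hq3⟩ := h3
  have h4 : (2 * (2 * 2 ^ e') : ℤ) ∣ ((2 * 2 ^ e') - 1 + 2 * (2 * 2 ^ e') * q) * s := by
    refine ⟨q3, ?_⟩
    have : (2 : ℤ) * (((2 * 2 ^ e') - 1 + 2 * (2 * 2 ^ e') * q) * s) =
        2 * (2 * (2 * 2 ^ e') * q3) := by linear_combination hq3 - s * hq
    exact mul_left_cancel₀ two_ne_zero this
  have hcop : IsCoprime (2 * (2 * 2 ^ e') : ℤ) ((2 * 2 ^ e') - 1 + 2 * (2 * 2 ^ e') * q) := by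
    have e1 : (2 * (2 * 2 ^ e') : ℤ) = 2 ^ (e' + 2) := by ring
    rw [e1]
    apply IsCoprime.pow_left
    exact ⟨2 ^ e' + 2 * 2 ^ e' * q, -1, by ring⟩
  obtain ⟨j, hj⟩ := hcop.dvd_of_dvd_mul_left h4
  exact ⟨j, j + q * j, by linear_combination j * hq + hj⟩

theorem result {G : Type*} [Group G] [Finite G] (n : ℕ) (hn : 3 ≤ n) (hG : Nat.card G = 2 ^ n) (C : Subgroup G) (hC : IsCyclic C) (hCi : C.index = 2) (hna : ∃ x y : G, x * y ≠ y * x) : ∃ a b : G, orderOf a = 2 ^ (n - 1) ∧ b ∉ Subgroup.zpowers a ∧ ((b ^ 2 = 1 ∧ b * a * b⁻¹ = a⁻¹) ∨ (b ^ 2 = a ^ (2 ^ (n - 2)) ∧ b * a * b⁻¹ = a⁻¹) ∨ (4 ≤ n ∧ b ^ 2 = 1 ∧ b * a * b⁻¹ = a ^ (1 + 2 ^ (n - 2))) ∨ (4 ≤ n ∧ b ^ 2 = 1 ∧ b * a * b⁻¹ = a ^ (2 ^ (n - 2) - 1))) := by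
  obtain ⟨e, rfl⟩ : ∃ e, n = e + 3 := ⟨n - 3, by omega⟩
  have hCcard : Nat.card C = 2 ^ (e + 2) := by
    have h1 := Subgroup.card_mul_index C
    rw [hCi, hG] at h1
    have : 2 ^ (e + 3) = 2 ^ (e + 2) * 2 := by ring
    rw [this] at h1
    exact Nat.eq_of_mul_eq_mul_right (by norm_num) h1
  haveI hCn : C.Normal := Subgroup.normal_of_index_eq_two hCi
  obtain ⟨a0, ha0⟩ := IsCyclic.exists_generator (α := C)
  have hord : orderOf (a0 : G) = 2 ^ (e + 2) := by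
    rw [Subgroup.orderOf_coe, orderOf_eq_card_of_forall_mem_zpowers ha0, hCcard]
  have hzp : Subgroup.zpowers (a0 : G) = C := by
    apply le_antisymm
    · rw [Subgroup.zpowers_le]; exact a0.2
    · intro x hx
      obtain ⟨k, hk⟩ := Subgroup.mem_zpowers_iff.mp (ha0 ⟨x, hx⟩)
      exact ⟨k, by have := congrArg Subtype.val hk; simpa using this⟩
  obtain ⟨a, haa0⟩ : ∃ a : G, a = (a0 : G) := ⟨_, rfl⟩
  rw [← haa0] at hord hzp
  have haC : a ∈ C := haa0 ▸ a0.2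
  have hmemC : ∀ x ∈ C, ∃ k : ℤ, a ^ k = x := fun x hx => by
    rw [← hzp] at hx; exact Subgroup.mem_zpowers_iff.mp hx
  have hM : ∀ x y : ℤ, a ^ x = a ^ y ↔ (4 * 2 ^ e : ℤ) ∣ y - x := by
    intro x y
    rw [zpow_eq_zpow_iff_modEq, hord, Int.modEq_iff_dvd]
    push_cast
    have : (2 : ℤ) ^ (e + 2) = 4 * 2 ^ e := by ring
    rw [this]
  obtain ⟨b0, hb0⟩ : ∃ b0 : G, b0 ∉ C := by
    by_contra hcon
    have : C = ⊤ := by
      rw [eq_top_iff]; intro x _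
      by_contra hx; exact hcon ⟨x, hx⟩
    rw [this, Subgroup.index_top] at hCi
    omega
  obtain ⟨r, hr⟩ := hmemC _ (hCn.conj_mem a haC b0)
  obtain ⟨s, hs⟩ := hmemC _ (Subgroup.sq_mem_of_index_two hCi b0)
  have R1 : ∀ k : ℤ, b0 * a ^ k * b0⁻¹ = a ^ (r * k) := by
    intro k
    rw [← conj_zpow, ← hr, ← zpow_mul]
  have R2 : (4 * 2 ^ e : ℤ) ∣ r * r - 1 := by
    have h1 : b0 ^ 2 * a * (b0 ^ 2)⁻¹ = a := by
      rw [← hs]
      have : Commute (a ^ s) a := (Commute.refl a).zpow_left s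
      rw [this.eq, mul_inv_cancel_right]
    have h2 : b0 ^ 2 * a * (b0 ^ 2)⁻¹ = a ^ (r * r) := by
      have : b0 ^ 2 * a * (b0 ^ 2)⁻¹ = b0 * (b0 * a * b0⁻¹) * b0⁻¹ := by
        rw [pow_two, mul_inv_rev]; simp only [mul_assoc]
      rw [this, ← hr, R1]
    rw [h1] at h2
    have h3 : a ^ (1 : ℤ) = a ^ (r * r) := by rw [zpow_one]; exact h2
    exact (hM _ _).mp h3
  have R3 : (4 * 2 ^ e : ℤ) ∣ r * s - s := by
    have h1 : b0 * b0 ^ 2 * b0⁻¹ = b0 ^ 2 := by group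
    rw [← hs, R1] at h1
    exact (hM _ _).mp h1.symm
  have R4 : ¬ (4 * 2 ^ e : ℤ) ∣ r - 1 := by
    intro hdiv
    have hcomm : b0 * a = a * b0 := by
      have h1 : a ^ (1 : ℤ) = a ^ r := (hM _ _).mpr hdiv
      rw [zpow_one, hr] at h1
      calc b0 * a = b0 * a * b0⁻¹ * b0 := by group
        _ = a * b0 := by rw [← h1]
    obtain ⟨x, y, hxy⟩ := hna
    apply hxy
    have hform : ∀ g : G, ∃ i : ℤ, g = a ^ i ∨ g = b0 * a ^ i := by
      intro g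
      by_cases hg : g ∈ C
      · obtain ⟨i, hi⟩ := hmemC g hg; exact ⟨i, Or.inl hi.symm⟩
      · have : b0⁻¹ * g ∈ C := by
          rw [Subgroup.mul_mem_iff_of_index_two hCi]
          constructor
          · intro h; exact absurd (by simpa using C.inv_mem h) hb0
          · intro h; exact absurd h hg
        obtain ⟨i, hi⟩ := hmemC _ this
        exact ⟨i, Or.inr (by rw [hi]; group)⟩
    have hca : ∀ i : ℤ, Commute b0 (a ^ i) := fun i =>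
      (show Commute b0 a from hcomm).zpow_right i
    have haa : ∀ i j : ℤ, Commute (a ^ i) (a ^ j) := fun i j =>
      ((Commute.refl a).zpow_left i).zpow_right j
    obtain ⟨i, hi | hi⟩ := hform x <;> obtain ⟨j, hj | hj⟩ := hform y <;> subst hi <;> subst hj
    · exact (haa i j).eq
    · exact ((hca i).symm.mul_right (haa i j)).eq
    · exact ((hca j).mul_left (haa i j)).eq
    · exact (((Commute.refl b0).mul_right (hca j)).mul_left
        ((hca i).symm.mul_right (haa i j))).eq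
  have B : ∀ t : ℤ, (b0 * a ^ t) ∉ Subgroup.zpowers a ∧
      (b0 * a ^ t) * a * (b0 * a ^ t)⁻¹ = a ^ r ∧ (b0 * a ^ t) ^ 2 = a ^ (r * t + s + t) := by
    intro t
    refine ⟨?_, ?_, ?_⟩
    · rw [hzp]; intro h
      have h2 : a ^ t ∈ C := by rw [← hzp]; exact Subgroup.zpow_mem_zpowers a t
      have := C.mul_mem h (C.inv_mem h2)
      rw [mul_inv_cancel_right] at this
      exact hb0 this
    · have h1 : b0 * a ^ t * a * (b0 * a ^ t)⁻¹ = b0 * (a ^ t * a * (a ^ t)⁻¹) * b0⁻¹ := by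
        group
      have h2 : a ^ t * a * (a ^ t)⁻¹ = a := by
        have : Commute (a ^ t) a := (Commute.refl a).zpow_left t
        rw [this.eq, mul_inv_cancel_right]
      rw [h1, h2, hr]
    · have h1 : (b0 * a ^ t) ^ 2 = (b0 * a ^ t * b0⁻¹) * b0 ^ 2 * a ^ t := by
        rw [pow_two, pow_two]; simp only [mul_assoc, inv_mul_cancel_left]
      rw [h1, R1, ← hs, ← zpow_add, ← zpow_add]
  have hpow1 : ∀ x : ℤ, (4 * 2 ^ e : ℤ) ∣ x → a ^ x = 1 := by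
    intro x hx
    have : a ^ (0 : ℤ) = a ^ x := (hM _ _).mpr (by simpa using hx)
    rw [← this, zpow_zero]
  have hord' : orderOf a = 2 ^ (e + 3 - 1) := hord
  rcases nt e r R2 R4 with h1 | ⟨he, h1⟩ | ⟨he, h1⟩
  · have hb := B 0
    simp only [zpow_zero, mul_one, mul_zero, zero_add, add_zero] at hb
    have hinv : a ^ r = a⁻¹ := by
      have : a ^ r = a ^ (-1 : ℤ) := (hM _ _).mpr (by
        have e1 : (-1 : ℤ) - r = -(r + 1) := by ring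
        rw [e1]; exact (dvd_neg).mpr h1)
      rw [this, zpow_neg, zpow_one]
    rcases c1 (2 ^ e) r s h1 R3 with h2 | h2
    · refine ⟨a, b0, hord', hb.1, Or.inl ⟨?_, ?_⟩⟩
      · rw [hb.2.2]; exact hpow1 s h2
      · rw [hb.2.1]; exact hinv
    · refine ⟨a, b0, hord', hb.1, Or.inr (Or.inl ⟨?_, ?_⟩)⟩
      · rw [hb.2.2]
        have e1 : a ^ (2 ^ (e + 3 - 2) : ℕ) = a ^ (((2 ^ (e + 1) : ℕ)) : ℤ) :=
          (zpow_natCast a _).symm
        rw [e1]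
        apply (hM _ _).mpr
        push_cast
        have e2 : (2 : ℤ) ^ (e + 1) - s = -(s - 2 * 2 ^ e) := by ring
        rw [e2]; exact (dvd_neg).mpr h2
      · rw [hb.2.1]; exact hinv
  · obtain ⟨e', rfl⟩ : ∃ e', e = e' + 1 := ⟨e - 1, by omega⟩
    have e0 : (2 : ℤ) ^ (e' + 1) = 2 * 2 ^ e' := by ring
    rw [e0] at h1 R3
    obtain ⟨t, ht⟩ := c2 e' r s h1 R3
    have hb := B t
    refine ⟨a, b0 * a ^ t, hord', hb.1, Or.inr (Or.inr (Or.inl ⟨by omega, ?_, ?_⟩))⟩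
    · rw [hb.2.2]
      apply hpow1
      rw [e0]; exact ht
    · rw [hb.2.1]
      have e1 : a ^ (1 + 2 ^ (e' + 1 + 3 - 2) : ℕ) = a ^ (((1 + 2 ^ (e' + 2) : ℕ)) : ℤ) :=
        (zpow_natCast a _).symm
      rw [e1]
      apply (hM _ _).mpr
      push_cast
      rw [e0]
      have e2 : (1 : ℤ) + 2 ^ (e' + 2) - r = -(r - 1 - 2 * (2 * 2 ^ e')) := by ring
      rw [e2]; exact (dvd_neg).mpr h1
  · obtain ⟨e', rfl⟩ : ∃ e', e = e' + 1 := ⟨e - 1, by omega⟩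
    have e0 : (2 : ℤ) ^ (e' + 1) = 2 * 2 ^ e' := by ring
    rw [e0] at h1 R3
    obtain ⟨t, ht⟩ := c3 e' r s h1 R3
    have hb := B t
    refine ⟨a, b0 * a ^ t, hord', hb.1, Or.inr (Or.inr (Or.inr ⟨by omega, ?_, ?_⟩))⟩
    · rw [hb.2.2]
      apply hpow1
      rw [e0]; exact ht
    · rw [hb.2.1]
      have e1 : a ^ (2 ^ (e' + 1 + 3 - 2) - 1 : ℕ) = a ^ (((2 ^ (e' + 2) - 1 : ℕ)) : ℤ) :=
        (zpow_natCast a _).symm
      rw [e1]
      apply (hM _ _).mpr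
      have hpos : 1 ≤ 2 ^ (e' + 2) := Nat.one_le_two_pow
      rw [Nat.cast_sub hpos]
      push_cast
      rw [e0]
      have e2 : (2 : ℤ) ^ (e' + 2) - 1 - r = -(r + 1 - 2 * (2 * 2 ^ e')) := by ring
      rw [e2]; exact (dvd_neg).mpr h1

end Cfsg.Agent.S0646
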