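import Mathlib
import Cfsg.Statements.S0660

set_option autoImplicit false
open Pointwise
open Cfsg

namespace Cfsg.Agent.S0660

theorem maschke {M : Type*} [CommGroup M] [Finite M] {A : Type*} [Group A] [Finite A]
    (c : A →* MulAut M) (hcop : (Nat.card A).Coprime (Nat.card M)) (U W : Subgroup M)
    (hUW : U ⊓ W = ⊥) (hUW' : U ⊔ W = ⊤) (hU : ∀ a : A, ∀ u ∈ U, c a u ∈ U) :
    ∃ W' : Subgroup M, (∀ a : A, ∀ w ∈ W', c a w ∈ W') ∧ U ⊓ W' = ⊥ ∧ U ⊔ W' = ⊤ := by
  classical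
  haveI : Fintype A := Fintype.ofFinite A
  have hex : ∀ x : M, ∃ u ∈ U, ∃ w ∈ W, u * w = x := by
    intro x
    have h1 : x ∈ U ⊔ W := by rw [hUW']; trivial
    exact Subgroup.mem_sup.1 h1
  choose πf hπU w hwW hπw using hex
  have huniq : ∀ (x u w' : M), u ∈ U → w' ∈ W → u * w' = x → πf x = u := by
    intro x u w' hu hw' e
    have h1 : (πf x)⁻¹ * u ∈ U ⊓ W := by
      refine Subgroup.mem_inf.2 ⟨U.mul_mem (U.inv_mem (hπU x)) hu, ?_⟩
      have h3 : πf x * w x = u * w' := (hπw x).trans e.symm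
      have h2 : (πf x)⁻¹ * u = w x * w'⁻¹ := by
        rw [inv_mul_eq_iff_eq_mul, ← mul_assoc, h3, mul_assoc, mul_inv_cancel, mul_one]
      rw [h2]; exact W.mul_mem (hwW x) (W.inv_mem hw')
    rw [hUW, Subgroup.mem_bot, inv_mul_eq_one] at h1
    exact h1
  let π : M →* M := MonoidHom.mk' πf (by
    intro x y
    apply huniq (x * y) (πf x * πf y) (w x * w y) (U.mul_mem (hπU x) (hπU y))
      (W.mul_mem (hwW x) (hwW y))
    rw [mul_mul_mul_comm, hπw, hπw])
  have hπUm : ∀ x, π x ∈ U := fun x => hπU x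
  have hπU' : ∀ u ∈ U, π u = u := fun u hu => huniq u u 1 hu W.one_mem (mul_one u)
  let π' : M →* M := MonoidHom.mk' (fun x => ∏ a : A, (c a)⁻¹ (π (c a x))) (by
    intro x y
    show ∏ a : A, (c a)⁻¹ (π (c a (x * y))) =
      (∏ a : A, (c a)⁻¹ (π (c a x))) * ∏ a : A, (c a)⁻¹ (π (c a y))
    rw [← Finset.prod_mul_distrib]
    apply Finset.prod_congr rfl
    intro a _
    rw [map_mul, map_mul, map_mul])
  have hπ'def : ∀ x, π' x = ∏ a : A, (c a)⁻¹ (π (c a x)) := fun x => rfl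
  have hcinvU : ∀ a : A, ∀ u ∈ U, (c a)⁻¹ u ∈ U := by
    intro a u hu
    rw [← map_inv]; exact hU a⁻¹ u hu
  have hπ'U : ∀ x, π' x ∈ U := by
    intro x
    rw [hπ'def]
    apply Subgroup.prod_mem
    intro a _
    exact hcinvU a _ (hπUm _)
  have hπ'u : ∀ u ∈ U, π' u = u ^ Nat.card A := by
    intro u hu
    rw [hπ'def]
    have h1 : ∀ a : A, (c a)⁻¹ (π (c a u)) = u := by
      intro a
      rw [hπU' _ (hU a u hu)]
      simp
    simp [h1, Nat.card_eq_fintype_card]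
  have hπ'eq : ∀ (b : A) (x : M), π' (c b x) = c b (π' x) := by
    intro b x
    rw [hπ'def, hπ'def, map_prod]
    apply Fintype.prod_equiv (Equiv.mulRight b)
    intro a
    show (c a)⁻¹ (π (c a (c b x))) = c b ((c (a * b))⁻¹ (π (c (a * b) x)))
    rw [map_mul, mul_inv_rev]
    simp [MulAut.mul_apply]
  by_cases hM : Nat.card M = 1
  · haveI : Subsingleton M := (Nat.card_eq_one_iff_unique.1 hM).1
    refine ⟨⊤, fun a w _ => Subgroup.mem_top _, ?_, sup_top_eq _⟩
    rw [inf_top_eq, eq_bot_iff]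
    intro u _
    rw [Subgroup.mem_bot]
    exact Subsingleton.elim _ _
  · have hM1 : 1 < Nat.card M := by
      have := Nat.card_pos (α := M)
      omega
    obtain ⟨m, -, hm⟩ := Nat.exists_mul_mod_eq_one_of_coprime hcop hM1
    have hpow : ∀ u : M, (u ^ Nat.card A) ^ m = u := by
      intro u
      rw [← pow_mul, ← pow_mod_natCard, hm, pow_one]
    let ρ : M →* M := (powMonoidHom m).comp π'
    have hρ : ∀ x, ρ x = (π' x) ^ m := fun x => rfl
    have hρU : ∀ x, ρ x ∈ U := fun x => U.pow_mem (hπ'U x) m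
    have hρu : ∀ u ∈ U, ρ u = u := by
      intro u hu
      rw [hρ, hπ'u u hu, hpow]
    have hρeq : ∀ b x, ρ (c b x) = c b (ρ x) := by
      intro b x
      rw [hρ, hρ, hπ'eq, map_pow]
    refine ⟨ρ.ker, ?_, ?_, ?_⟩
    · intro a w hw
      rw [MonoidHom.mem_ker] at hw ⊢
      rw [hρeq, hw, map_one]
    · rw [eq_bot_iff]
      intro u hu
      obtain ⟨hu1, hu2⟩ := Subgroup.mem_inf.1 hu
      rw [MonoidHom.mem_ker, hρu u hu1] at hu2
      rw [Subgroup.mem_bot]; exact hu2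
    · rw [eq_top_iff]
      intro x _
      have h1 : x = ρ x * ((ρ x)⁻¹ * x) := by rw [mul_inv_cancel_left]
      rw [h1]
      apply Subgroup.mul_mem _ (Subgroup.mem_sup_left (hρU x)) (Subgroup.mem_sup_right ?_)
      rw [MonoidHom.mem_ker, map_mul, map_inv, hρu _ (hρU x), inv_mul_cancel]

theorem result {G : Type*} [Group G] [Finite G] (V A U : Subgroup G) (hVab : IsMulCommutative V) (hAV : A ≤ Subgroup.normalizer (V : Set G)) (hcop : (Nat.card A).Coprime (Nat.card V)) (hUV : U ≤ V) (hAU : A ≤ Subgroup.normalizer (U : Set G)) (W : Subgroup G) (hWV : W ≤ V) (hUW : U ⊓ W = ⊥) (hUWV : U ⊔ W = V) : ∃ W' : Subgroup G, W' ≤ V ∧ A ≤ Subgroup.normalizer (W' : Set G) ∧ U ⊓ W' = ⊥ ∧ U ⊔ W' = V := by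
  classical
  let _ : CommGroup ↥V :=
    { (inferInstance : Group ↥V) with mul_comm := fun a b => hVab.is_comm.comm a b }
  have hconj : ∀ a ∈ A, ∀ v ∈ V, a * v * a⁻¹ ∈ V := by
    intro a ha v hv
    have h1 := hAV ha
    rw [Subgroup.mem_normalizer_iff] at h1
    exact (h1 v).1 hv
  let c : ↥A →* MulAut ↥V :=
    { toFun := fun a =>
        { toFun := fun v => ⟨(a : G) * v * (a : G)⁻¹, hconj a a.2 v v.2⟩
          invFun := fun v => ⟨(a : G)⁻¹ * v * (a : G), by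
            simpa using hconj (a : G)⁻¹ (A.inv_mem a.2) v v.2⟩
          left_inv := fun v => by apply Subtype.ext; simp [mul_assoc]
          right_inv := fun v => by apply Subtype.ext; simp [mul_assoc]
          map_mul' := fun v w => by apply Subtype.ext; simp [mul_assoc] }
      map_one' := by
        ext v
        simp
      map_mul' := fun a b => by
        ext v
        simp [mul_assoc] }
  have hc : ∀ (a : ↥A) (v : ↥V), ((c a v : ↥V) : G) = (a : G) * v * (a : G)⁻¹ := fun _ _ => rfl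
  have hUW₀ : U.subgroupOf V ⊓ W.subgroupOf V = ⊥ := by
    rw [eq_bot_iff]
    intro x hx
    obtain ⟨h1, h2⟩ := Subgroup.mem_inf.1 hx
    have h3 : (x : G) ∈ U ⊓ W :=
      Subgroup.mem_inf.2 ⟨Subgroup.mem_subgroupOf.1 h1, Subgroup.mem_subgroupOf.1 h2⟩
    rw [hUW, Subgroup.mem_bot] at h3
    rw [Subgroup.mem_bot]
    exact Subtype.ext h3
  have hsup : U.subgroupOf V ⊔ W.subgroupOf V = ⊤ := by
    apply Subgroup.map_injective (Subgroup.subtype_injective V)
    rw [Subgroup.map_sup, Subgroup.map_subgroupOf_eq_of_le hUV, Subgroup.map_subgroupOf_eq_of_le hWV,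
      hUWV, ← MonoidHom.range_eq_map, Subgroup.range_subtype]
  have hU' : ∀ a : ↥A, ∀ u ∈ U.subgroupOf V, c a u ∈ U.subgroupOf V := by
    intro a u hu
    rw [Subgroup.mem_subgroupOf] at hu ⊢
    rw [hc]
    have h1 := hAU a.2
    rw [Subgroup.mem_normalizer_iff] at h1
    exact (h1 u).1 hu
  obtain ⟨W', hinv, hinf, hsup'⟩ := maschke c hcop (U.subgroupOf V) (W.subgroupOf V) hUW₀ hsup hU'
  refine ⟨W'.map V.subtype, Subgroup.map_subtype_le W', ?_, ?_, ?_⟩
  · intro a ha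
    rw [Subgroup.mem_normalizer_iff]
    intro x
    constructor
    · rintro ⟨w, hw, rfl⟩
      exact ⟨c ⟨a, ha⟩ w, hinv ⟨a, ha⟩ w hw, rfl⟩
    · rintro ⟨w, hw, e⟩
      refine ⟨c ⟨a⁻¹, A.inv_mem ha⟩ w, hinv _ w hw, ?_⟩
      show (a⁻¹ : G) * (w : G) * (a⁻¹)⁻¹ = x
      have e' : (w : G) = a * x * a⁻¹ := e
      rw [e']; group
  · rw [eq_bot_iff]
    intro x hx
    obtain ⟨hxU, hxW⟩ := Subgroup.mem_inf.1 hx
    obtain ⟨w, hw, rfl⟩ := hxW
    have h1 : w ∈ U.subgroupOf V ⊓ W' := Subgroup.mem_inf.2 ⟨Subgroup.mem_subgroupOf.2 hxU, hw⟩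
    rw [hinf, Subgroup.mem_bot] at h1
    rw [Subgroup.mem_bot, h1]
    rfl
  · apply le_antisymm (sup_le hUV (Subgroup.map_subtype_le W'))
    intro v hv
    have h1 : (⟨v, hv⟩ : ↥V) ∈ U.subgroupOf V ⊔ W' := by rw [hsup']; trivial
    obtain ⟨u, hu, w, hw, e⟩ := Subgroup.mem_sup.1 h1
    have e' : v = (u : G) * (w : G) := by
      have := congrArg Subtype.val e
      simpa using this.symm
    rw [e']
    exact Subgroup.mul_mem _ (Subgroup.mem_sup_left (Subgroup.mem_subgroupOf.1 hu))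
      (Subgroup.mem_sup_right ⟨w, hw, rfl⟩)

end Cfsg.Agent.S0660
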