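import Mathlib
import Cfsg.Statements.S0661
import Cfsg.Agent.S0003
import Cfsg.Agent.Lib.Helper2.Lift
import Cfsg.Agent.Lib.Helper2.Local
import Cfsg.Agent.Lib.Helper2.Fit
import Cfsg.Agent.Lib.Helper2.PComp
import Cfsg.Agent.Lib.Helper2.AxB
import Cfsg.Agent.Lib.Helper3.Core

set_option autoImplicit false
open Pointwise
open Cfsg
open scoped commutatorElement

namespace Cfsg.Agent.S0661

open Cfsg.Agent.Lib.Helper2

theorem eq_one_of_coprime_of_pgroup {H : Type*} [Group H] {p : ℕ} [Fact p.Prime] (Q : Subgroup H)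
    (hQ : IsPGroup p Q) (z : H) (hzQ : z ∈ Q) (hz : (orderOf z).Coprime p) : z = 1 := by
  obtain ⟨k, hk⟩ := hQ ⟨z, hzQ⟩
  have h1 : z ^ (p ^ k) = 1 := by
    have h0 := congrArg Subtype.val hk
    simpa using h0
  have h2 := orderOf_dvd_of_pow_eq_one h1
  have h3 : Nat.Coprime (orderOf z) (p ^ k) := Nat.Coprime.pow_right k hz
  have h4 : orderOf z ∣ 1 := h3 ▸ Nat.dvd_gcd dvd_rfl h2
  exact orderOf_eq_one_iff.1 (Nat.dvd_one.1 h4)

theorem result {G : Type*} [Group G] [Finite G] {p : ℕ} [Fact p.Prime] (hc : Subgroup.centralizer (Cfsg.pCore p (G ⧸ Cfsg.pPrimeCore p G) : Set (G ⧸ Cfsg.pPrimeCore p G)) ≤ Cfsg.pCore p (G ⧸ Cfsg.pPrimeCore p G)) (P : Subgroup G) (hP : IsPGroup p P) : (Cfsg.pPrimeCore p ↥(Subgroup.normalizer (P : Set G))).map (Subgroup.normalizer (P : Set G)).subtype = Cfsg.pPrimeCore p G ⊓ Subgroup.normalizer (P : Set G) := by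
  classical
  have hpp : p.Prime := Fact.out
  haveI hOn : (Cfsg.pPrimeCore p G).Normal := PComp.pPrimeCore_normal p
  have hOc : (Nat.card (Cfsg.pPrimeCore p G)).Coprime p := Local.pPrimeCore_coprime p
  apply le_antisymm
  · -- the main inclusion
    obtain ⟨X, hXdef⟩ : ∃ X : Subgroup G, X = (Cfsg.pPrimeCore p
        ↥(Subgroup.normalizer (P : Set G))).map (Subgroup.normalizer (P : Set G)).subtype := ⟨_, rfl⟩
    rw [← hXdef]
    have hXN : X ≤ Subgroup.normalizer (P : Set G) := by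
      rw [hXdef]; exact Subgroup.map_subtype_le _
    have hXc : (Nat.card X).Coprime p := by
      rw [hXdef, Subgroup.card_map_of_injective (Subgroup.subtype_injective _)]
      exact Local.pPrimeCore_coprime p
    have hXnorm : ∀ n ∈ Subgroup.normalizer (P : Set G), ∀ x ∈ X, n * x * n⁻¹ ∈ X := by
      intro n hn x hx
      rw [hXdef] at hx ⊢
      obtain ⟨x', hx', rfl⟩ := hx
      haveI : (Cfsg.pPrimeCore p ↥(Subgroup.normalizer (P : Set G))).Normal :=
        PComp.pPrimeCore_normal p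
      exact ⟨⟨n, hn⟩ * x' * ⟨n, hn⟩⁻¹,
        Subgroup.Normal.conj_mem inferInstance x' hx' ⟨n, hn⟩, rfl⟩
    have hXord : ∀ x ∈ X, (orderOf x).Coprime p := by
      intro x hx
      have h1 : orderOf x ∣ Nat.card X := by
        have h2 := orderOf_dvd_natCard (⟨x, hx⟩ : X)
        rwa [Subgroup.orderOf_mk] at h2
      exact Nat.Coprime.coprime_dvd_left h1 hXc
    have hXP : ∀ x ∈ X, ∀ a ∈ P, a * x = x * a := by
      intro x hx a ha
      have h1 : x * a * x⁻¹ ∈ P := ((Subgroup.mem_normalizer_iff.1 (hXN hx)) a).1 ha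
      have h2 : x * a * x⁻¹ * a⁻¹ ∈ P := P.mul_mem h1 (P.inv_mem ha)
      have h3 : a * x⁻¹ * a⁻¹ ∈ X := hXnorm a (Subgroup.le_normalizer ha) _ (X.inv_mem hx)
      have h4 : x * a * x⁻¹ * a⁻¹ ∈ X := by
        have e : x * a * x⁻¹ * a⁻¹ = x * (a * x⁻¹ * a⁻¹) := by group
        rw [e]; exact X.mul_mem hx h3
      have h5 := Local.eq_one_of_mem_pgroup_coprime hP hXc h2 h4
      calc a * x = (x * a * x⁻¹ * a⁻¹)⁻¹ * (x * a) := by group
        _ = x * a := by rw [h5]; group
    haveI hQn : (Cfsg.pCore p (G ⧸ Cfsg.pPrimeCore p G)).Normal := Fit.pCore_normal p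
    have hQp : IsPGroup p (Cfsg.pCore p (G ⧸ Cfsg.pPrimeCore p G)) := Fit.pCore_isPGroup p
    have hYord : ∀ y ∈ X.map (QuotientGroup.mk' (Cfsg.pPrimeCore p G)), (orderOf y).Coprime p := by
      rintro _ ⟨x, hx, rfl⟩
      exact Nat.Coprime.coprime_dvd_left (orderOf_map_dvd _ x) (hXord x hx)
    have hYC : X.map (QuotientGroup.mk' (Cfsg.pPrimeCore p G)) ≤
        Subgroup.centralizer (Cfsg.pCore p (G ⧸ Cfsg.pPrimeCore p G) : Set (G ⧸ Cfsg.pPrimeCore p G)) := by
      apply AxB.axb (Cfsg.pCore p (G ⧸ Cfsg.pPrimeCore p G))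
        (P.map (QuotientGroup.mk' (Cfsg.pPrimeCore p G)))
        (X.map (QuotientGroup.mk' (Cfsg.pPrimeCore p G))) hQp (hP.map _)
      · intro x _
        rw [Subgroup.normalizer_eq_top]; trivial
      · intro x _
        rw [Subgroup.normalizer_eq_top]; trivial
      · rw [← Subgroup.map_commutator]
        have h1 : ⁅X, P⁆ = ⊥ := by
          rw [Subgroup.commutator_eq_bot_iff_le_centralizer]
          intro x hx
          rw [Subgroup.mem_centralizer_iff]
          intro a ha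
          exact hXP x hx a ha
        rw [h1, Subgroup.map_bot]
      · rw [Subgroup.commutator_eq_bot_iff_le_centralizer]
        rintro _ ⟨x, hx, rfl⟩
        rw [Subgroup.mem_centralizer_iff]
        intro dbar hd
        obtain ⟨hdQ, hdC⟩ := Subgroup.mem_inf.1 hd
        obtain ⟨d, rfl⟩ := QuotientGroup.mk'_surjective (Cfsg.pPrimeCore p G) dbar
        obtain ⟨e, he, hed⟩ := Lift.exists_lift_centralizer (Cfsg.pPrimeCore p G) hOc P hP d hdC
        have heN : e ∈ Subgroup.normalizer (P : Set G) := Subgroup.centralizer_le_normalizer _ he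
        have h1 : ⁅x, e⁆ ∈ X := by
          have e1 : ⁅x, e⁆ = x * (e * x⁻¹ * e⁻¹) := by rw [commutatorElement_def]; group
          rw [e1]
          exact X.mul_mem hx (hXnorm e heN _ (X.inv_mem hx))
        have h2 : (QuotientGroup.mk' (Cfsg.pPrimeCore p G)) ⁅x, e⁆ ∈
            Cfsg.pCore p (G ⧸ Cfsg.pPrimeCore p G) := by
          rw [map_commutatorElement, hed, commutatorElement_def]
          exact Subgroup.mul_mem _ (hQn.conj_mem _ hdQ _) (Subgroup.inv_mem _ hdQ)
        have h3 := eq_one_of_coprime_of_pgroup _ hQp _ h2 (hYord _ ⟨_, h1, rfl⟩)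
        rw [map_commutatorElement, hed, commutatorElement_eq_one_iff_mul_comm] at h3
        exact h3.symm
      · intro M _ h y hy
        exact h y hy (hYord y hy)
    intro x hx
    refine Subgroup.mem_inf.2 ⟨?_, hXN hx⟩
    have h1 : (QuotientGroup.mk' (Cfsg.pPrimeCore p G)) x ∈
        Cfsg.pCore p (G ⧸ Cfsg.pPrimeCore p G) := hc (hYC ⟨x, hx, rfl⟩)
    have h2 := eq_one_of_coprime_of_pgroup _ hQp _ h1 (hYord _ ⟨x, hx, rfl⟩)
    exact (QuotientGroup.eq_one_iff x).1 h2
  · intro y hy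
    obtain ⟨hyO, hyN⟩ := Subgroup.mem_inf.1 hy
    refine ⟨⟨y, hyN⟩, ?_, rfl⟩
    have hn : ((Cfsg.pPrimeCore p G).subgroupOf (Subgroup.normalizer (P : Set G))).Normal :=
      inferInstance
    have hcop : (Nat.card ((Cfsg.pPrimeCore p G).subgroupOf
        (Subgroup.normalizer (P : Set G)))).Coprime p := by
      have h1 : Nat.card ((Cfsg.pPrimeCore p G).subgroupOf (Subgroup.normalizer (P : Set G))) ∣
          Nat.card (Cfsg.pPrimeCore p G) := by
        rw [Cfsg.Agent.S0003.card_subgroupOf_eq']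
        exact Subgroup.card_dvd_of_le inf_le_left
      exact Nat.Coprime.coprime_dvd_left h1 hOc
    exact (Cfsg.Agent.Lib.Helper3.Core.le_pPrimeCore _ hn hcop) (Subgroup.mem_subgroupOf.2 hyO)

end Cfsg.Agent.S0661
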