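import Mathlib
import Cfsg.Statements.S0669

set_option autoImplicit false
open Cfsg

namespace Cfsg.Agent.S0669

/-- The rank of a transitive action: orbits on ordered pairs correspond to orbits of a point stabiliser. -/
theorem result {G : Type*} [Group G] {Ω : Type*} [Finite Ω] [MulAction G Ω] [MulAction.IsPretransitive G Ω] (a : Ω) : Nat.card (MulAction.orbitRel.Quotient G (Ω × Ω)) = Nat.card (MulAction.orbitRel.Quotient (MulAction.stabilizer G a) Ω) := by
  let f : MulAction.orbitRel.Quotient (MulAction.stabilizer G a) Ω →
      MulAction.orbitRel.Quotient G (Ω × Ω) :=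
    Quotient.lift (fun b => (Quotient.mk'' (a, b) : MulAction.orbitRel.Quotient G (Ω × Ω))) (by
      intro b b' h
      apply Quotient.sound'
      have h' : (MulAction.orbitRel (MulAction.stabilizer G a) Ω) b b' := h
      rw [MulAction.orbitRel_apply, MulAction.mem_orbit_iff] at h' ⊢
      obtain ⟨s, hs⟩ := h'
      refine ⟨s.1, ?_⟩
      ext
      · exact s.2
      · exact hs)
  have hinj : Function.Injective f := by
    intro q q'
    induction q using Quotient.inductionOn with
    | _ b =>
    induction q' using Quotient.inductionOn with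
    | _ b' =>
    intro h
    have h1 : (MulAction.orbitRel G (Ω × Ω)) (a, b) (a, b') := Quotient.exact' h
    rw [MulAction.orbitRel_apply, MulAction.mem_orbit_iff] at h1
    obtain ⟨g, hg⟩ := h1
    have hga : g • a = a := congrArg Prod.fst hg
    have hgb : g • b' = b := congrArg Prod.snd hg
    apply Quotient.sound'
    rw [MulAction.orbitRel_apply, MulAction.mem_orbit_iff]
    exact ⟨⟨g, hga⟩, hgb⟩
  have hsurj : Function.Surjective f := by
    intro q
    induction q using Quotient.inductionOn with
    | _ xy =>
    obtain ⟨x, y⟩ := xy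
    obtain ⟨g, hg⟩ := MulAction.exists_smul_eq G x a
    refine ⟨Quotient.mk'' (g • y), ?_⟩
    apply Quotient.sound'
    rw [MulAction.orbitRel_apply, MulAction.mem_orbit_iff]
    refine ⟨g, ?_⟩
    ext
    · exact hg
    · rfl
  exact (Nat.card_congr (Equiv.ofBijective f ⟨hinj, hsurj⟩)).symm

end Cfsg.Agent.S0669
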