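import Cfsg.Statements.S0672
import Mathlib

set_option autoImplicit false
open Cfsg

namespace Cfsg.Agent.S0672

open Pointwise

/-- Let a finite group act faithfully and doubly transitively with point stabilisers of even order, and let `K` have characteristic `p` dividing the degree. If the heart of the permutation module admits no non-zero equivariant map to the permutation module on unordered pairs (phrased: every intertwining map from the sum-zero functions vanishing on the constants is zero), the action is triply transitive. -/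
theorem result {G : Type*} [Group G] [Finite G] {K : Type*} [Field K] {p : ℕ} [Fact p.Prime] [CharP K p] {Ω : Type*} [Fintype Ω] [DecidableEq Ω] [MulAction G Ω] [FaithfulSMul G Ω] (h2 : MulAction.IsMultiplyPretransitive G Ω 2) (hp : p ∣ Fintype.card Ω) (heven : ∀ a : Ω, Even (Nat.card (MulAction.stabilizer G a))) (h : ∀ f : Representation.IntertwiningMap (Cfsg.permSumZero K G Ω).toRepresentation (Cfsg.permRep K G (Set.powersetCard Ω 2)), (∀ v : (Cfsg.permSumZero K G Ω).toSubmodule, (v : Ω → K) ∈ (Cfsg.permConstants K G Ω).toSubmodule → f v = 0) → f = 0) : MulAction.IsMultiplyPretransitive G Ω 3 := by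
  classical
  refine ⟨fun ex ey => ?_⟩
  obtain ⟨a0, ha0⟩ : ∃ a0 : Ω, a0 = ex 0 := ⟨_, rfl⟩
  haveI : Fact (Nat.Prime 2) := ⟨Nat.prime_two⟩
  obtain ⟨t, ht⟩ := exists_prime_orderOf_dvd_card' 2 (even_iff_two_dvd.mp (heven a0))
  have hta : (t : G) • a0 = a0 := MulAction.mem_stabilizer_iff.mp t.2
  have ht1 : (t : G) ≠ 1 := by
    intro h1
    have h2 : t = 1 := Subtype.ext h1
    rw [h2, orderOf_one] at ht
    omega
  have htt : (t : G) * (t : G) = 1 := by
    have h1 : t ^ 2 = 1 := by rw [← ht]; exact pow_orderOf_eq_one t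
    have h2 := congrArg Subtype.val h1
    rw [← pow_two]
    exact_mod_cast h2
  obtain ⟨b0, hb0⟩ : ∃ b0 : Ω, (t : G) • b0 ≠ b0 := by
    by_contra hcon
    push Not at hcon
    exact ht1 (FaithfulSMul.eq_of_smul_eq_smul (α := Ω) (fun b => by rw [hcon b, one_smul]))
  obtain ⟨c0, hc0⟩ : ∃ c0 : Ω, c0 = (t : G) • b0 := ⟨_, rfl⟩
  have htc : (t : G) • c0 = b0 := by rw [hc0, smul_smul, htt, one_smul]
  have hbc : b0 ≠ c0 := by rw [hc0]; exact Ne.symm hb0
  have hab : a0 ≠ b0 := by
    intro h1; apply hb0; rw [← h1]; exact hta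
  have hac : a0 ≠ c0 := by
    intro h1
    apply hab
    have h2 : (t : G) • a0 = (t : G) • b0 := by rw [hta, ← hc0, h1]
    exact MulAction.injective _ h2
  rw [MulAction.is_two_pretransitive_iff] at h2
  have claim : ∀ y : Ω, y ≠ b0 → y ≠ c0 → ∃ g : G, g • b0 = b0 ∧ g • c0 = c0 ∧ g • a0 = y := by
    intro y0 hy0b hy0c
    by_contra hnoR
    obtain ⟨l0, hl0⟩ : ∃ l0 : Set.powersetCard Ω 2, (l0 : Finset Ω) = {b0, c0} :=
      ⟨⟨{b0, c0}, Set.powersetCard.mem_iff.mpr (Finset.card_pair hbc)⟩, rfl⟩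
    have hmem : ∀ (g : G) (l : Set.powersetCard Ω 2) (x : Ω),
        x ∈ ((g • l : Set.powersetCard Ω 2) : Finset Ω) ↔ g⁻¹ • x ∈ (l : Finset Ω) := by
      intro g l x
      rw [Set.powersetCard.coe_smul, Finset.inv_smul_mem_iff]
    obtain ⟨R, hR⟩ : ∃ R : Ω → Set.powersetCard Ω 2 → Prop,
        ∀ x l, R x l ↔ ∃ g : G, g • a0 = x ∧ g • l0 = l := ⟨_, fun _ _ => Iff.rfl⟩
    have hRG : ∀ (g : G) x l, R (g • x) (g • l) ↔ R x l := by
      intro g x l
      rw [hR, hR]
      constructor
      · rintro ⟨k, h1, h2⟩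
        exact ⟨g⁻¹ * k, by rw [mul_smul, h1, inv_smul_smul], by rw [mul_smul, h2, inv_smul_smul]⟩
      · rintro ⟨k, h1, h2⟩
        exact ⟨g * k, by rw [mul_smul, h1], by rw [mul_smul, h2]⟩
    have hRnot : ∀ x l, R x l → x ∉ (l : Finset Ω) := by
      intro x l hxl hx
      rw [hR] at hxl
      obtain ⟨g, rfl, rfl⟩ := hxl
      rw [hmem, inv_smul_smul, hl0, Finset.mem_insert, Finset.mem_singleton] at hx
      rcases hx with h | h
      · exact hab h
      · exact hac h
    have hRl0 : ∀ y, R y l0 → ∃ g : G, g • b0 = b0 ∧ g • c0 = c0 ∧ g • a0 = y := by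
      intro y hy
      rw [hR] at hy
      obtain ⟨g, hga, hgl⟩ := hy
      have hb : g • b0 ∈ (l0 : Finset Ω) := by
        have h1 : g • b0 ∈ ((g • l0 : Set.powersetCard Ω 2) : Finset Ω) := by
          rw [hmem, inv_smul_smul, hl0]; simp
        rwa [hgl] at h1
      have hc : g • c0 ∈ (l0 : Finset Ω) := by
        have h1 : g • c0 ∈ ((g • l0 : Set.powersetCard Ω 2) : Finset Ω) := by
          rw [hmem, inv_smul_smul, hl0]; simp
        rwa [hgl] at h1
      rw [hl0, Finset.mem_insert, Finset.mem_singleton] at hb hc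
      rcases hb with hb | hb
      · rcases hc with hc | hc
        · exfalso; exact hbc (MulAction.injective g (hb.trans hc.symm))
        · exact ⟨g, hb, hc, hga⟩
      · rcases hc with hc | hc
        · refine ⟨g * (t : G), ?_, ?_, ?_⟩
          · rw [mul_smul, ← hc0, hc]
          · rw [mul_smul, htc, hb]
          · rw [mul_smul, hta, hga]
        · exfalso; exact hbc (MulAction.injective g (hb.trans hc.symm))
    have hy0R : ¬ R y0 l0 := fun h => hnoR (hRl0 y0 h)
    have htransL : ∀ l : Set.powersetCard Ω 2, ∃ g : G, g • l0 = l := by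
      intro l
      obtain ⟨u, v, huv, hl⟩ := Finset.card_eq_two.mp (Set.powersetCard.mem_iff.mp l.2)
      obtain ⟨g, hgb, hgc⟩ := h2 hbc huv
      refine ⟨g, ?_⟩
      apply Subtype.ext
      apply Finset.ext
      intro x
      rw [hmem, hl0, hl]
      simp only [Finset.mem_insert, Finset.mem_singleton]
      rw [inv_smul_eq_iff, inv_smul_eq_iff, hgb, hgc]
    obtain ⟨k, hk⟩ : ∃ k : ℕ, k = (Finset.univ.filter (fun x => R x l0)).card := ⟨_, rfl⟩
    have hcard : ∀ l, (Finset.univ.filter (fun x => R x l)).card = k := by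
      intro l
      obtain ⟨g, hg⟩ := htransL l
      rw [hk, ← hg]
      apply Finset.card_bij (fun x _ => g⁻¹ • x)
      · intro x hx
        rw [Finset.mem_filter] at hx ⊢
        refine ⟨Finset.mem_univ _, ?_⟩
        have h1 := hRG g (g⁻¹ • x) l0
        rw [smul_inv_smul] at h1
        exact h1.mp hx.2
      · intro x1 _ x2 _ h; exact MulAction.injective _ h
      · intro x hx
        rw [Finset.mem_filter] at hx
        refine ⟨g • x, ?_, inv_smul_smul g x⟩
        rw [Finset.mem_filter]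
        exact ⟨Finset.mem_univ _, (hRG g x l0).mpr hx.2⟩
    obtain ⟨a, b, hab0, hlin⟩ : ∃ a b : K, (a ≠ 0 ∨ b ≠ 0) ∧ 2 * a + (k : K) * b = 0 := by
      by_cases h20 : (2 : K) = 0
      · exact ⟨1, 0, Or.inl one_ne_zero, by rw [mul_one, mul_zero, add_zero, h20]⟩
      · refine ⟨-(k : K) / 2, 1, Or.inr one_ne_zero, ?_⟩
        field_simp
        ring
    obtain ⟨c, hc⟩ : ∃ c : Ω → Set.powersetCard Ω 2 → K, ∀ x l,
        c x l = a * (if x ∈ (l : Finset Ω) then 1 else 0) + b * (if R x l then 1 else 0) :=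
      ⟨_, fun _ _ => rfl⟩
    have hcG : ∀ (g : G) x l, c (g • x) (g • l) = c x l := by
      intro g x l
      rw [hc, hc]
      have e1 : g • x ∈ ((g • l : Set.powersetCard Ω 2) : Finset Ω) ↔ x ∈ (l : Finset Ω) := by
        rw [hmem, inv_smul_smul]
      have e2 := hRG g x l
      simp only [e1, e2]
    have hcsum : ∀ l, ∑ x, c x l = 0 := by
      intro l
      simp only [hc]
      rw [Finset.sum_add_distrib, ← Finset.mul_sum, ← Finset.mul_sum, Finset.sum_boole,
        Finset.sum_boole, hcard l]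
      have h2c : (Finset.univ.filter (fun x => x ∈ (l : Finset Ω))).card = 2 := by
        rw [Finset.filter_univ_mem]; exact Set.powersetCard.mem_iff.mp l.2
      rw [h2c]
      push_cast
      linear_combination hlin
    obtain ⟨Ψ, hΨ⟩ : ∃ Ψ : (Ω → K) →ₗ[K] (Set.powersetCard Ω 2 → K),
        ∀ f l, Ψ f l = ∑ x, c x l * f x :=
      ⟨{ toFun := fun f l => ∑ x, c x l * f x
         map_add' := fun f1 f2 => by
           ext l
           simp only [Pi.add_apply, mul_add, Finset.sum_add_distrib]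
         map_smul' := fun r f => by
           ext l
           simp only [Pi.smul_apply, smul_eq_mul, RingHom.id_apply, Finset.mul_sum]
           exact Finset.sum_congr rfl (fun x _ => by ring) }, fun _ _ => rfl⟩
    have hint : ∀ (g : G) (v : (Cfsg.permSumZero K G Ω).toSubmodule),
        (Ψ ∘ₗ (Cfsg.permSumZero K G Ω).toSubmodule.subtype)
          ((Cfsg.permSumZero K G Ω).toRepresentation g v) =
        (Cfsg.permRep K G (Set.powersetCard Ω 2)) g
          ((Ψ ∘ₗ (Cfsg.permSumZero K G Ω).toSubmodule.subtype) v) := by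
      intro g v
      ext l
      show Ψ (fun x => (v : Ω → K) (g⁻¹ • x)) l = Ψ (v : Ω → K) (g⁻¹ • l)
      rw [hΨ, hΨ]
      rw [← Equiv.sum_comp (MulAction.toPerm g) (fun x => c x l * (v : Ω → K) (g⁻¹ • x))]
      refine Finset.sum_congr rfl (fun x _ => ?_)
      show c (g • x) l * (v : Ω → K) (g⁻¹ • g • x) = _
      rw [inv_smul_smul]
      congr 1
      have h1 := hcG g x (g⁻¹ • l)
      rwa [smul_inv_smul] at h1
    have hF0 := h (LinearMap.intertwiningMap_of_isIntertwiningMap _ _
      (Ψ ∘ₗ (Cfsg.permSumZero K G Ω).toSubmodule.subtype) hint) (by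
        intro v hv
        show Ψ (v : Ω → K) = 0
        have hv' : (v : Ω → K) ∈ Submodule.span K {fun _ : Ω => (1 : K)} := hv
        rw [Submodule.mem_span_singleton] at hv'
        obtain ⟨r, hr⟩ := hv'
        ext l
        rw [hΨ, ← hr]
        simp only [Pi.smul_apply, smul_eq_mul, mul_one]
        rw [← Finset.sum_mul, hcsum l, zero_mul]; rfl)
    have hdiff : ∀ x y : Ω, c x l0 = c y l0 := by
      intro x y
      have hmem0 : (Pi.single x 1 - Pi.single y 1 : Ω → K) ∈
          (Cfsg.permSumZero K G Ω).toSubmodule := by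
        show ∑ z, (Pi.single x 1 - Pi.single y 1 : Ω → K) z = 0
        simp only [Pi.sub_apply, Finset.sum_sub_distrib, Finset.sum_pi_single', Finset.mem_univ,
          if_true, sub_self]
      have h1 := congrArg (fun F : Representation.IntertwiningMap
        (Cfsg.permSumZero K G Ω).toRepresentation (Cfsg.permRep K G (Set.powersetCard Ω 2)) =>
          F ⟨_, hmem0⟩) hF0
      have h2 : Ψ (Pi.single x 1 - Pi.single y 1 : Ω → K) l0 = 0 := congrFun h1 l0
      rw [hΨ] at h2
      simp only [Pi.sub_apply, mul_sub, Finset.sum_sub_distrib, Pi.single_apply, mul_ite, mul_one,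
        mul_zero, Finset.sum_ite_eq', Finset.mem_univ, if_true] at h2
      exact sub_eq_zero.mp h2
    have hcb : c b0 l0 = a := by
      rw [hc, if_pos (by rw [hl0]; simp),
        if_neg (fun hR' => hRnot b0 l0 hR' (by rw [hl0]; simp))]; ring
    have hca : c a0 l0 = b := by
      rw [hc, if_neg (by rw [hl0]; simp [hab, hac]),
        if_pos ((hR a0 l0).mpr ⟨1, one_smul _ _, one_smul _ _⟩)]; ring
    have hcy : c y0 l0 = 0 := by
      rw [hc, if_neg (by rw [hl0]; simp [hy0b, hy0c]), if_neg hy0R]; ring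
    have ha0' : a = 0 := by rw [← hcb, hdiff b0 y0, hcy]
    have hb0' : b = 0 := by rw [← hca, hdiff a0 y0, hcy]
    rcases hab0 with h | h
    · exact h ha0'
    · exact h hb0'
  have h3 : ∀ z : Fin 3 ↪ Ω, ∃ g : G, g • z 0 = a0 ∧ g • z 1 = b0 ∧ g • z 2 = c0 := by
    intro z
    have hinj := z.injective
    obtain ⟨g1, h11, h12⟩ := h2 (hinj.ne (by decide : (1 : Fin 3) ≠ 2)) hbc
    obtain ⟨g2, h21, h22, h23⟩ := claim (g1 • z 0)
      (by rw [← h11]; exact (MulAction.injective g1).ne (hinj.ne (by decide)))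
      (by rw [← h12]; exact (MulAction.injective g1).ne (hinj.ne (by decide)))
    refine ⟨g2⁻¹ * g1, ?_, ?_, ?_⟩
    · rw [mul_smul, ← h23, inv_smul_smul]
    · rw [mul_smul, h11, inv_smul_eq_iff, h21]
    · rw [mul_smul, h12, inv_smul_eq_iff, h22]
  obtain ⟨g1, a1, a2, a3⟩ := h3 ex
  obtain ⟨g2, b1, b2, b3⟩ := h3 ey
  refine ⟨g2⁻¹ * g1, ?_⟩
  ext i
  show (g2⁻¹ * g1) • ex i = ey i
  fin_cases i
  · show (g2⁻¹ * g1) • ex 0 = ey 0
    rw [mul_smul, a1, inv_smul_eq_iff, b1]
  · show (g2⁻¹ * g1) • ex 1 = ey 1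
    rw [mul_smul, a2, inv_smul_eq_iff, b2]
  · show (g2⁻¹ * g1) • ex 2 = ey 2
    rw [mul_smul, a3, inv_smul_eq_iff, b3]

end Cfsg.Agent.S0672
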