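import Cfsg.Statements.S0674
import Mathlib
import Cfsg.Agent.Lib.Helper6.Burn

set_option autoImplicit false
open Cfsg

namespace Cfsg.Agent.S0674

/-- Let `G` be a non-solvable transitive permutation group of prime degree `p` and `K` a field of characteristic `p`. Then the heart of the permutation module is irreducible: an invariant subspace containing the constants and contained in the sum-zero functions is one or the other. -/
theorem result {α : Type*} [Fintype α] [DecidableEq α] {p : ℕ} [Fact p.Prime] (hα : Fintype.card α = p) (G : Subgroup (Equiv.Perm α)) [MulAction.IsPretransitive G α] (hG : ¬ Group.IsSolvable G) {K : Type*} [Field K] [CharP K p] (W : Subrepresentation (Cfsg.permRep K G α)) (h₁ : (Cfsg.permConstants K G α).toSubmodule ≤ W.toSubmodule) (h₂ : W.toSubmodule ≤ (Cfsg.permSumZero K G α).toSubmodule) : W = Cfsg.permConstants K G α ∨ W = Cfsg.permSumZero K G α := by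
  classical
  have hWG : ∀ g ∈ G, ∀ f ∈ W.toSubmodule, (fun x => f (g x)) ∈ W.toSubmodule := by
    intro g hg f hf
    have h1 := W.apply_mem_toSubmodule ((⟨g, hg⟩ : G)⁻¹) hf
    have h3 : (Cfsg.permRep K G α) ((⟨g, hg⟩ : G)⁻¹) f = fun x => f (g x) := by
      ext x
      show f ((((⟨g, hg⟩ : G)⁻¹)⁻¹) • x) = f (g x)
      rw [inv_inv]
      rfl
    rw [h3] at h1
    exact h1
  have hZ : ∀ f ∈ (Cfsg.permSumZero K G α).toSubmodule, ∑ x, f x = 0 := fun f hf => hf
  rcases Cfsg.Agent.Lib.Helper6.Burn.heart_cases p K hα G hG W.toSubmodule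
    (Cfsg.permSumZero K G α).toSubmodule hWG hZ h₁ h₂ with h | h
  · left
    exact Subrepresentation.toSubmodule_injective h
  · right
    exact Subrepresentation.toSubmodule_injective h

end Cfsg.Agent.S0674
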