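import Mathlib
import Cfsg.Agent.Lib.Helper2.Sharp2b
import Cfsg.Agent.Lib.Helper2.SylowAux
import Cfsg.Statements.S0680

set_option autoImplicit false
open Cfsg
open Cfsg.Agent.Lib.Helper2

namespace Cfsg.Agent.S0680

/-- A finite sharply doubly transitive permutation group has degree a prime power `p ^ j`; a Sylow `p`-subgroup is normal, elementary abelian and regular, and consists of the identity together with the elements without fixed points. (Frobenius' Theorem is not needed.) -/
theorem result {α : Type*} [Fintype α] [DecidableEq α] (G : Subgroup (Equiv.Perm α)) [MulAction.IsMultiplyPretransitive G α 2] (hsharp : ∀ x : Fin 2 ↪ α, MulAction.stabilizer G x = ⊥) (h2 : 2 ≤ Fintype.card α) : ∃ p j : ℕ, p.Prime ∧ 1 ≤ j ∧ Fintype.card α = p ^ j ∧ ∀ (hp : Fact p.Prime) (P : Sylow p G), (P : Subgroup G).Normal ∧ IsMulCommutative (P : Subgroup G) ∧ (∀ x ∈ (P : Subgroup G), x ^ p = 1) ∧ MulAction.IsPretransitive (P : Subgroup G) α ∧ (∀ a : α, MulAction.stabilizer (P : Subgroup G)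 a = ⊥) ∧ ∀ g : G, g ∈ (P : Subgroup G) ↔ g = 1 ∨ ∀ a : α, g • a ≠ a := by
  classical
  have hT : ∀ a b c d : α, a ≠ b → c ≠ d → ∃ g : G, g • a = c ∧ g • b = d := by
    intro a b c d hab hcd
    exact (MulAction.is_two_pretransitive_iff.1 inferInstance) hab hcd
  have hS : ∀ (g : G) (a b : α), a ≠ b → g • a = a → g • b = b → g = 1 := by
    intro g a b hab hga hgb
    let x : Fin 2 ↪ α := ⟨![a, b], by
      intro i j hij
      fin_cases i <;> fin_cases j <;> simp_all⟩
    have hgx : g ∈ MulAction.stabilizer G x := by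
      rw [MulAction.mem_stabilizer_iff]
      ext i
      fin_cases i
      · exact hga
      · exact hgb
    rw [hsharp x] at hgx
    exact Subgroup.mem_bot.1 hgx
  obtain ⟨N, hNn, hmem, hNcard, hcomm, ⟨p, hp, hexp⟩, hreg⟩ := Sharp2.main hT hS h2
  haveI : Fact p.Prime := ⟨hp⟩
  have hPG : IsPGroup p N := fun u => ⟨1, by
    rw [pow_one]
    exact Subtype.ext (by rw [Subgroup.coe_pow]; exact hexp u.1 u.2)⟩
  obtain ⟨j, hj⟩ := IsPGroup.iff_card.1 hPG
  have hj1 : 1 ≤ j := by
    by_contra h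
    have h0 : j = 0 := by omega
    rw [h0, pow_zero] at hj
    omega
  refine ⟨p, j, hp, hj1, by rw [← hNcard, hj], ?_⟩
  intro hp' P
  have hNP : N ≤ (P : Subgroup G) := by
    obtain ⟨h, hh⟩ := SylowAux.exists_conj_le_sylow P hPG
    intro x hx
    have h1 := hh (h * x * h⁻¹) (hNn.conj_mem x hx h)
    have e : h⁻¹ * (h * x * h⁻¹) * h = x := by group
    rwa [e] at h1
  have hPN : (P : Subgroup G) ≤ N := by
    intro x hx
    rw [hmem]
    by_contra hcon
    push Not at hcon
    obtain ⟨hx1, a, hxa⟩ := hcon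
    have h1 : orderOf x ∣ Nat.card (MulAction.stabilizer G a) := by
      have h0 := Subgroup.card_dvd_of_le
        ((Subgroup.zpowers_le).2 (MulAction.mem_stabilizer_iff.2 hxa))
      rwa [Nat.card_zpowers] at h0
    have h2' := Sharp2.card_stabilizer hT hS h2 a
    obtain ⟨k, hk⟩ := P.isPGroup' ⟨x, hx⟩
    have hk' : x ^ p ^ k = 1 := by
      have := congrArg Subtype.val hk
      simpa using this
    have h3 : orderOf x ∣ p ^ k := orderOf_dvd_of_pow_eq_one hk'
    have h4 : Nat.Coprime (p ^ k) (Nat.card (MulAction.stabilizer G a)) := by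
      apply Nat.Coprime.pow_left
      rw [Nat.Prime.coprime_iff_not_dvd hp]
      intro hdiv
      have h5 : p ∣ Nat.card (MulAction.stabilizer G a) + 1 := by
        rw [h2', ← hNcard, hj]
        exact dvd_pow_self p (by omega)
      have h6 : p ∣ 1 := (Nat.dvd_add_right hdiv).1 h5
      exact hp.one_lt.ne' (Nat.dvd_one.1 h6)
    have h6 : orderOf x = 1 := Nat.eq_one_of_dvd_coprimes h4 h3 h1
    exact hx1 (orderOf_eq_one_iff.1 h6)
  have hPeq : (P : Subgroup G) = N := le_antisymm hPN hNP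
  rw [hPeq]
  refine ⟨hNn, ⟨⟨fun u v => Subtype.ext (hcomm u.1 u.2 v.1 v.2)⟩⟩, hexp, ?_, ?_, hmem⟩
  · constructor
    intro a b
    obtain ⟨k, hk, hkab⟩ := hreg a b
    exact ⟨⟨k, hk⟩, hkab⟩
  · intro a
    rw [Subgroup.eq_bot_iff_forall]
    intro k hk
    have hka : (k : G) • a = a := MulAction.mem_stabilizer_iff.1 hk
    rcases (hmem k.1).1 k.2 with h | h
    · exact Subtype.ext h
    · exact absurd hka (h a)

end Cfsg.Agent.S0680
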