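import Mathlib
import Cfsg.Agent.Lib.Helper2.NearF
import Cfsg.Statements.S0681

set_option autoImplicit false
open Cfsg
open Cfsg.Agent.Lib.Helper2

namespace Cfsg.Agent.S0681

/-- The affine maps `x ↦ x * a + b`, `a ≠ 0`, of a near-field form a sharply doubly transitive permutation group. -/
theorem result {F : Type*} [Cfsg.NearField F] : ∃ H : Subgroup (Equiv.Perm F), (∀ σ : Equiv.Perm F, σ ∈ H ↔ ∃ a b : F, a ≠ 0 ∧ ∀ x : F, σ x = x * a + b) ∧ MulAction.IsMultiplyPretransitive H F 2 ∧ ∀ x : Fin 2 ↪ F, MulAction.stabilizer H x = ⊥ := by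
  refine ⟨NearF.affine, NearF.mem_affine, ?_, ?_⟩
  · rw [MulAction.is_two_pretransitive_iff]
    intro x₁ x₂ y₁ y₂ hx hy
    obtain ⟨a, b, ha, h1, h2⟩ := NearF.affine_trans hx hy
    obtain ⟨σ, hσ⟩ := NearF.exists_perm a b ha
    refine ⟨⟨σ, a, b, ha, hσ⟩, ?_, ?_⟩
    · show σ x₁ = y₁
      rw [hσ, h1]
    · show σ x₂ = y₂
      rw [hσ, h2]
  · intro x
    rw [Subgroup.eq_bot_iff_forall]
    intro g hg
    rw [MulAction.mem_stabilizer_iff] at hg
    obtain ⟨a, b, ha, hσ⟩ := g.2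
    have h0 : (g : Equiv.Perm F) (x 0) = x 0 := DFunLike.congr_fun hg 0
    have h1 : (g : Equiv.Perm F) (x 1) = x 1 := DFunLike.congr_fun hg 1
    have hne : x 0 ≠ x 1 := by
      intro h
      have := x.injective h
      exact absurd this (by decide)
    obtain ⟨ha1, hb0⟩ := NearF.affine_sharp hne ha (by rw [← hσ]; exact h0) (by rw [← hσ]; exact h1)
    apply Subtype.ext
    ext y
    rw [hσ, ha1, hb0, mul_one, add_zero]
    rfl

end Cfsg.Agent.S0681
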