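import Mathlib
import Cfsg.Agent.Lib.Helper2.Sharp2d
import Cfsg.Statements.S0683

set_option autoImplicit false
open Cfsg
open Cfsg.Agent.Lib.Helper2

namespace Cfsg.Agent.S0683

/-- A finite sharply doubly transitive permutation group is the affine group of a near-field: the permuted set carries a near-field structure for which the group consists exactly of the maps `x ↦ x * a + b` with `a ≠ 0`. -/
theorem result {α : Type*} [Fintype α] [DecidableEq α] (H : Subgroup (Equiv.Perm α)) [MulAction.IsMultiplyPretransitive H α 2] (hsharp : ∀ x : Fin 2 ↪ α, MulAction.stabilizer H x = ⊥) (h2 : 2 ≤ Fintype.card α) : ∃ _ : Cfsg.NearField α, ∀ σ : Equiv.Perm α, σ ∈ H ↔ ∃ a b : α, a ≠ 0 ∧ ∀ x : α, σ x = x * a + b := by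
  classical
  have hT : ∀ a b c d : α, a ≠ b → c ≠ d → ∃ g : H, g • a = c ∧ g • b = d := by
    intro a b c d hab hcd
    exact (MulAction.is_two_pretransitive_iff.1 inferInstance) hab hcd
  have hS : ∀ (g : H) (a b : α), a ≠ b → g • a = a → g • b = b → g = 1 := by
    intro g a b hab hga hgb
    let x : Fin 2 ↪ α := ⟨![a, b], by
      intro i j hij
      fin_cases i <;> fin_cases j <;> simp_all⟩
    have hgx : g ∈ MulAction.stabilizer H x := by
      rw [MulAction.mem_stabilizer_iff]
      ext i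
      fin_cases i
      · exact hga
      · exact hgb
    rw [hsharp x] at hgx
    exact Subgroup.mem_bot.1 hgx
  obtain ⟨z, e, τ, μ, hze, hτ, hτ2, hτz, hμ, hμ2, hμe, hd, hgen⟩ := Sharp2.nearfield_data hT hS h2
  obtain ⟨nf, h0, hform⟩ := Sharp2.nearfield_of_data z e τ μ hze hτ hτ2 hτz hμ hμ2 hμe hd
  refine ⟨nf, fun σ => ⟨?_, ?_⟩⟩
  · intro hσ
    obtain ⟨a, b, ha, hg⟩ := hgen ⟨σ, hσ⟩
    refine ⟨a, b, by rw [h0]; exact ha, fun x => ?_⟩
    rw [hform x a b ha, ← mul_smul, ← hg]
    rfl
  · rintro ⟨a, b, ha, hx⟩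
    have ha' : a ≠ z := by rw [← h0]; exact ha
    have hσ : σ = ((τ b * μ a : H) : Equiv.Perm α) := by
      ext x
      rw [hx x, hform x a b ha', ← mul_smul]
      rfl
    rw [hσ]
    exact (τ b * μ a).2

end Cfsg.Agent.S0683
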