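import Cfsg.Statements.S0694
import Mathlib
import Cfsg.Agent.Lib.Helper6.Dickson

set_option autoImplicit false
open Cfsg

namespace Cfsg.Agent.S0694

open Cfsg.Agent.Lib.Helper6.Dickson

/-- The Dickson pair condition: for a prime power `q` and `n > 1`, (every prime factor of `n` divides `q - 1`, and `4 ∣ n → 4 ∣ q - 1`) holds exactly when `q ^ n ≡ 1` modulo `n * (q - 1)` but `q ^ i` is not, for `0 < i < n`. -/
theorem result (q n : ℕ) (hq : IsPrimePow q) (hn : 1 < n) : ((∀ r : ℕ, r.Prime → r ∣ n → r ∣ q - 1) ∧ (4 ∣ n → 4 ∣ q - 1)) ↔ (q ^ n ≡ 1 [MOD n * (q - 1)] ∧ ∀ i : ℕ, 0 < i → i < n → ¬ q ^ i ≡ 1 [MOD n * (q - 1)]) := by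
  have hq2 : 2 ≤ q := hq.two_le
  have h := main q n hq2 hn
  rw [modEq_iff q n n hq2]
  have h2 : (∀ i : ℕ, 0 < i → i < n → ¬ q ^ i ≡ 1 [MOD n * (q - 1)]) ↔
      (∀ i : ℕ, 0 < i → i < n → ¬ n ∣ S q i) := by
    refine forall_congr' fun i => ?_
    rw [modEq_iff q n i hq2]
  rw [h2]
  exact h

end Cfsg.Agent.S0694
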