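import Mathlib
import Cfsg.Agent.Lib.Helper2.JordanN3
import Cfsg.Statements.S0697

set_option autoImplicit false
open Cfsg
open Cfsg.Agent.Lib.Helper2

namespace Cfsg.Agent.S0697

/-- In a `k`-primitive permutation group which is not the whole symmetric group, a non-trivial non-regular normal subgroup is `k`-transitive. -/
theorem result {α : Type*} [Fintype α] [DecidableEq α] (G : Subgroup (Equiv.Perm α)) {k : ℕ} (hk : 1 ≤ k) (hkn : k ≤ Fintype.card α) (hG : MulAction.IsMultiplyPreprimitive G α k) (htop : G ≠ ⊤) (H : Subgroup G) [H.Normal] (hH : H ≠ ⊥) (hnr : ∃ a : α, MulAction.stabilizer H a ≠ ⊥) : MulAction.IsMultiplyPretransitive H α k := by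
  have hcard : k ≤ Nat.card α := by
    rw [Nat.card_eq_fintype_card]
    exact hkn
  have hnot : ¬ MulAction.IsMultiplyPretransitive G α (Nat.card α - 1) :=
    fun h => htop (Equiv.Perm.eq_top_of_isMultiplyPretransitive h)
  have hnr' : ∃ n ∈ H, n ≠ 1 ∧ ∃ x : α, n • x = x := by
    obtain ⟨a, ha⟩ := hnr
    obtain ⟨⟨n, hn⟩, hn1⟩ := (Subgroup.ne_bot_iff_exists_ne_one).1 ha
    exact ⟨n.1, n.2, fun h => hn1 (Subtype.ext (Subtype.ext h)), a, hn⟩
  exact JordanN.nt_to_class (JordanN.kprim k hk G α hcard hG hnot H inferInstance hH hnr')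

end Cfsg.Agent.S0697
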