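import Mathlib
import Cfsg.Agent.Lib.Helper2.JordanN2
import Cfsg.Statements.S0698

set_option autoImplicit false
open Cfsg
open Cfsg.Agent.Lib.Helper2

namespace Cfsg.Agent.S0698

/-- Jordan's Theorem on normal subgroups of multiply transitive groups: if `G` is `k`-transitive (`k > 1`) of degree greater than `k`, a non-trivial normal subgroup is `(k-1)`-transitive, except possibly for `k = 3` when it may be an elementary abelian 2-group. -/
theorem result {α : Type*} [Fintype α] [DecidableEq α] (G : Subgroup (Equiv.Perm α)) {k : ℕ} (hk : 1 < k) (hdeg : k < Fintype.card α) (hG : MulAction.IsMultiplyPretransitive G α k) (N : Subgroup G) [N.Normal] (hN : N ≠ ⊥) : MulAction.IsMultiplyPretransitive N α (k - 1) ∨ (k = 3 ∧ IsMulCommutative N ∧ ∀ n ∈ N, n ^ 2 = 1) := by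
  have hcard : k < Nat.card α := by
    rw [Nat.card_eq_fintype_card]
    exact hdeg
  rcases JordanN.jordan k hk G α hcard hG N inferInstance hN with h | ⟨h3, hinv⟩
  · left
    exact JordanN.nt_to_class h
  · right
    refine ⟨h3, ⟨⟨fun a b => ?_⟩⟩, fun n hn => by rw [pow_two]; exact hinv n hn⟩
    apply Subtype.ext
    exact JordanN.comm_of_inv (hinv a.1 a.2) (hinv b.1 b.2) (hinv (a.1 * b.1) (N.mul_mem a.2 b.2))

end Cfsg.Agent.S0698
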