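import Mathlib
import Cfsg.Agent.Lib.Helper2.Wagner
import Cfsg.Statements.S0699

set_option autoImplicit false
open Cfsg
open Cfsg.Agent.Lib.Helper2

namespace Cfsg.Agent.S0699

/-- Wagner's Theorem: a non-trivial normal subgroup of a triply transitive permutation group of odd degree at least 5 is triply transitive. -/
theorem result {α : Type*} [Fintype α] [DecidableEq α] (G : Subgroup (Equiv.Perm α)) (hodd : Odd (Fintype.card α)) (h5 : 5 ≤ Fintype.card α) (hG : MulAction.IsMultiplyPretransitive G α 3) (N : Subgroup G) [N.Normal] (hN : N ≠ ⊥) : MulAction.IsMultiplyPretransitive N α 3 := by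
  have hcard : Nat.card α = Fintype.card α := Nat.card_eq_fintype_card
  have hodd' : Odd (Nat.card α) := by
    rw [hcard]
    exact hodd
  have hG2 : MulAction.IsMultiplyPretransitive G α 2 :=
    MulAction.isMultiplyPretransitive_of_le (n := 3) (by norm_num) (by rw [hcard]; omega)
  have htr := JordanN.normal_transitive (JordanN.two_of_class (G := G) (X := α)) N hN
  have hN2 : ∀ a b c d : α, a ≠ b → c ≠ d → ∃ n ∈ N, n • a = c ∧ n • b = d := by
    rcases JordanN.jordan 3 (by norm_num) G α (by rw [hcard]; omega) hG N inferInstance hN with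
      h | ⟨_, hinv⟩
    · intro a b c d hab hcd
      obtain ⟨n, hn, e⟩ := h ![a, b] ![c, d] (JordanN.inj2 hab) (JordanN.inj2 hcd)
      exact ⟨n, hn, e 0, e 1⟩
    · exfalso
      have hp : IsPGroup 2 N := by
        intro n
        refine ⟨1, ?_⟩
        rw [pow_one, pow_two]
        exact Subtype.ext (hinv n.1 n.2)
      obtain ⟨m, hm⟩ := IsPGroup.iff_card.1 hp
      have hne : Nonempty α := by
        rw [← Fintype.card_pos_iff]
        omega
      obtain ⟨a⟩ := hne
      have hpre : MulAction.IsPretransitive N α :=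
        ⟨fun x y => by
          obtain ⟨n, hn, e⟩ := htr x y
          exact ⟨⟨n, hn⟩, e⟩⟩
      have h1 := MulAction.index_stabilizer_of_transitive (G := N) (x := a)
      have h2 : Nat.card α ∣ 2 ^ m := by
        rw [← h1, ← hm]
        exact Subgroup.index_dvd_card _
      have h3 : Nat.card α = 1 :=
        Nat.Coprime.eq_one_of_dvd (Nat.Coprime.pow_right m (Nat.coprime_two_right.2 hodd')) h2
      omega
  have h3 : ∀ b c z z' : α, b ≠ c → z ≠ b → z ≠ c → z' ≠ b → z' ≠ c →
      ∃ g : G, g • b = b ∧ g • c = c ∧ g • z = z' := by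
    intro b c z z' hbc hzb hzc hz'b hz'c
    obtain ⟨g, hg⟩ := JordanN.class_to_tuple (G := G) (k := 3) ![b, c, z] ![b, c, z']
      (JordanN.inj3 hbc hzb.symm hzc.symm) (JordanN.inj3 hbc hz'b.symm hz'c.symm)
    exact ⟨g, hg 0, hg 1, hg 2⟩
  exact JordanN.nt_to_class (Wagner.main N hodd' hN2 h3)

end Cfsg.Agent.S0699
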