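import Mathlib
import Cfsg.Agent.Lib.Helper2.PermCent2
import Cfsg.Statements.S0703

set_option autoImplicit false
open Cfsg
open Cfsg.Agent.Lib.Helper2

namespace Cfsg.Agent.S0703

/-- An abelian transitive minimal normal subgroup `M` of a permutation group on a finite set is self-centralising in the symmetric group, regular, elementary abelian, and is the unique minimal normal subgroup. -/
theorem result {α : Type*} [Finite α] (G : Subgroup (Equiv.Perm α)) (M : Subgroup G) [M.Normal] (hM : M ≠ ⊥) (hmin : ∀ L : Subgroup G, L.Normal → L ≤ M → L = ⊥ ∨ L = M) (hab : IsMulCommutative M) (htrans : MulAction.IsPretransitive M α) : Subgroup.centralizer ((M.map G.subtype : Subgroup (Equiv.Perm α)) : Set (Equiv.Perm α)) = M.map G.subtype ∧ (∀ a : α, MulAction.stabilizer M a = ⊥) ∧ (∃ p : ℕ, p.Prime ∧ ∀ m ∈ M, m ^ p = 1) ∧ ∀ L : Subgroup G, L.Normal → L ≠ ⊥ → (∀ L' : Subgroup G, L'.Normal → L' ≤ L → L' = ⊥ ∨ L' = L) → L = M := by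
  classical
  haveI : MulAction.IsPretransitive (M.map G.subtype) α := PermCent.pretransitive_map G M
  have hcomm : ∀ a ∈ M, ∀ b ∈ M, a * b = b * a := by
    intro a ha b hb
    have h := hab.is_comm.comm ⟨a, ha⟩ ⟨b, hb⟩
    exact congrArg Subtype.val h
  have hcomm' : ∀ s ∈ M.map G.subtype, ∀ t ∈ M.map G.subtype, s * t = t * s := by
    rintro _ ⟨s, hs, rfl⟩ _ ⟨t, ht, rfl⟩
    have := hcomm s hs t ht
    exact congrArg Subtype.val this
  obtain ⟨m₀, hm₀, hm₀1⟩ : ∃ m ∈ M, m ≠ 1 := by
    by_contra hcon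
    push Not at hcon
    exact hM (eq_bot_iff.2 (fun m hm => Subgroup.mem_bot.2 (hcon m hm)))
  have hne : Nonempty α := by
    by_contra hcon
    rw [not_nonempty_iff] at hcon
    exact hm₀1 (PermCent.eq_one_of_forall G m₀ (fun x => (hcon.false x).elim))
  obtain ⟨a₀⟩ := hne
  have hcent := PermCent.centralizer_eq_of_abelian_transitive (M.map G.subtype) hcomm' a₀
  have hreg : ∀ a : α, MulAction.stabilizer M a = ⊥ := by
    intro a
    rw [eq_bot_iff]
    intro m hm
    rw [Subgroup.mem_bot]
    have hma : ((m : G) : Equiv.Perm α) a = a := hm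
    have h1 : (m : G) = 1 := by
      apply PermCent.eq_one_of_forall
      intro x
      obtain ⟨m', hm'⟩ := MulAction.exists_smul_eq M a x
      have hm'' : ((m' : G) : Equiv.Perm α) a = x := hm'
      have h2 := hcomm m m.2 m' m'.2
      have h3 : ((m : G) : Equiv.Perm α) * ((m' : G) : Equiv.Perm α) =
          ((m' : G) : Equiv.Perm α) * ((m : G) : Equiv.Perm α) := congrArg Subtype.val h2
      rw [← hm'']
      have h4 := congrArg (fun σ : Equiv.Perm α => σ a) h3
      simp only [Equiv.Perm.mul_apply] at h4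
      rw [h4, hma]
    exact Subtype.ext h1
  refine ⟨hcent, hreg, ?_, ?_⟩
  · have hMnt : Nontrivial M := ⟨⟨⟨m₀, hm₀⟩, 1, fun h => hm₀1 (congrArg Subtype.val h)⟩⟩
    have hcard : 1 < Nat.card M := Finite.one_lt_card
    obtain ⟨p, hp, hpd⟩ := Nat.exists_prime_and_dvd (Nat.ne_of_gt hcard)
    haveI : Fact p.Prime := ⟨hp⟩
    obtain ⟨x, hx⟩ := exists_prime_orderOf_dvd_card' (G := M) p hpd
    refine ⟨p, hp, ?_⟩
    let L : Subgroup G :=
      { carrier := {g | g ∈ M ∧ g ^ p = 1}
        one_mem' := ⟨M.one_mem, one_pow p⟩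
        mul_mem' := fun {a b} ha hb => ⟨M.mul_mem ha.1 hb.1, by
          have hc : Commute a b := hcomm a ha.1 b hb.1
          rw [hc.mul_pow, ha.2, hb.2, one_mul]⟩
        inv_mem' := fun {a} ha => ⟨M.inv_mem ha.1, by rw [inv_pow, ha.2, inv_one]⟩ }
    have hLn : L.Normal := by
      constructor
      intro l hl g
      refine ⟨‹M.Normal›.conj_mem l hl.1 g, ?_⟩
      rw [conj_pow, hl.2, mul_one, mul_inv_cancel]
    have hLM : L ≤ M := fun l hl => hl.1
    have hLne : L ≠ ⊥ := by
      intro h
      have hxL : (x : G) ∈ L := ⟨x.2, by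
        have := pow_orderOf_eq_one x
        rw [hx] at this
        exact congrArg Subtype.val this⟩
      rw [h, Subgroup.mem_bot] at hxL
      have hx1 : x = 1 := Subtype.ext hxL
      rw [hx1, orderOf_one] at hx
      exact hp.one_lt.ne hx
    rcases hmin L hLn hLM with h | h
    · exact absurd h hLne
    · intro m hm
      have hmL : m ∈ L := h ▸ hm
      exact hmL.2
  · intro L hLn hLne hLmin
    haveI := hLn
    have hinf : (L ⊓ M).Normal := inferInstance
    rcases hmin (L ⊓ M) hinf inf_le_right with h | h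
    · exfalso
      apply hLne
      rw [eq_bot_iff]
      intro l hl
      have hlc : ((l : G) : Equiv.Perm α) ∈ Subgroup.centralizer
          ((M.map G.subtype : Subgroup (Equiv.Perm α)) : Set (Equiv.Perm α)) := by
        rw [Subgroup.mem_centralizer_iff]
        rintro _ ⟨m, hm, rfl⟩
        have := PermCent.comm_of_disjoint_normal L M h hl hm
        exact (congrArg Subtype.val this).symm
      rw [hcent] at hlc
      obtain ⟨m, hm, hml⟩ := hlc
      have hml' : m = l := Subtype.ext hml
      have hlM : l ∈ L ⊓ M := ⟨hl, hml' ▸ hm⟩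
      rw [h] at hlM
      exact hlM
    · have hML : M ≤ L := by rw [← h]; exact inf_le_left
      rcases hLmin M inferInstance hML with h' | h'
      · exact absurd h' hM
      · exact h'.symm

end Cfsg.Agent.S0703
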