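import Mathlib
import Cfsg.Agent.Lib.Helper2.PermCent2
import Cfsg.Statements.S0704

set_option autoImplicit false
open Cfsg
open Cfsg.Agent.Lib.Helper2

namespace Cfsg.Agent.S0704

/-- Two distinct transitive minimal normal subgroups `M`, `N` of a permutation group are regular, non-abelian, isomorphic, each other's centraliser in the symmetric group, and the only minimal normal subgroups. -/
theorem result {α : Type*} (G : Subgroup (Equiv.Perm α)) (M N : Subgroup G) [M.Normal] [N.Normal] (hM : M ≠ ⊥) (hN : N ≠ ⊥) (hMmin : ∀ L : Subgroup G, L.Normal → L ≤ M → L = ⊥ ∨ L = M) (hNmin : ∀ L : Subgroup G, L.Normal → L ≤ N → L = ⊥ ∨ L = N) (hMN : M ≠ N) (hMt : MulAction.IsPretransitive M α) (hNt : MulAction.IsPretransitive N α) : (∀ a : α, MulAction.stabilizer M a = ⊥) ∧ (∀ a : α, MulAction.stabilizer N a = ⊥) ∧ ¬ IsMulCommutative M ∧ Nonempty (M ≃* N) ∧ Subgroup.centralizer ((M.map G.subtype : Subgroup (Equiv.Perm α)) : Set (Equiv.Perm α)) = N.map G.subtype ∧ Subgroup.centralizer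 ((N.map G.subtype : Subgroup (Equiv.Perm α)) : Set (Equiv.Perm α)) = M.map G.subtype ∧ ∀ L : Subgroup G, L.Normal → L ≠ ⊥ → (∀ L' : Subgroup G, L'.Normal → L' ≤ L → L' = ⊥ ∨ L' = L) → L = M ∨ L = N := by
  classical
  haveI hMt' : MulAction.IsPretransitive (M.map G.subtype) α := PermCent.pretransitive_map G M
  haveI hNt' : MulAction.IsPretransitive (N.map G.subtype) α := PermCent.pretransitive_map G N
  have hinf : M ⊓ N = ⊥ := by
    rcases hMmin (M ⊓ N) inferInstance inf_le_left with h | h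
    · exact h
    · exfalso
      have hMN' : M ≤ N := by rw [← h]; exact inf_le_right
      rcases hNmin M inferInstance hMN' with h' | h'
      · exact hM h'
      · exact hMN h'
  have hcomm : ∀ m ∈ M, ∀ n ∈ N, ((m : G) : Equiv.Perm α) * ((n : G) : Equiv.Perm α) =
      ((n : G) : Equiv.Perm α) * ((m : G) : Equiv.Perm α) := by
    intro m hm n hn
    exact congrArg Subtype.val (PermCent.comm_of_disjoint_normal M N hinf hm hn)
  have hNC : N.map G.subtype ≤ Subgroup.centralizer
      ((M.map G.subtype : Subgroup (Equiv.Perm α)) : Set (Equiv.Perm α)) := by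
    rintro _ ⟨n, hn, rfl⟩
    rw [Subgroup.mem_centralizer_iff]
    rintro _ ⟨m, hm, rfl⟩
    exact hcomm m hm n hn
  have hMC : M.map G.subtype ≤ Subgroup.centralizer
      ((N.map G.subtype : Subgroup (Equiv.Perm α)) : Set (Equiv.Perm α)) := by
    rintro _ ⟨m, hm, rfl⟩
    rw [Subgroup.mem_centralizer_iff]
    rintro _ ⟨n, hn, rfl⟩
    exact (hcomm m hm n hn).symm
  obtain ⟨m₀, hm₀, hm₀1⟩ : ∃ m ∈ M, m ≠ 1 := by
    by_contra hcon
    push Not at hcon
    exact hM (eq_bot_iff.2 (fun m hm => Subgroup.mem_bot.2 (hcon m hm)))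
  have hne : Nonempty α := by
    by_contra hcon
    rw [not_nonempty_iff] at hcon
    exact hm₀1 (PermCent.eq_one_of_forall G m₀ (fun x => (hcon.false x).elim))
  obtain ⟨a₀⟩ := hne
  have hregM : ∀ a : α, MulAction.stabilizer M a = ⊥ := by
    intro a
    rw [eq_bot_iff]
    intro m hm
    rw [Subgroup.mem_bot]
    have hma : ((m : G) : Equiv.Perm α) a = a := hm
    have h1 := PermCent.semiregular_centralizer (N.map G.subtype) (hMC ⟨(m : G), m.2, rfl⟩) hma
    exact Subtype.ext (Subtype.ext h1)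
  have hregN : ∀ a : α, MulAction.stabilizer N a = ⊥ := by
    intro a
    rw [eq_bot_iff]
    intro n hn
    rw [Subgroup.mem_bot]
    have hna : ((n : G) : Equiv.Perm α) a = a := hn
    have h1 := PermCent.semiregular_centralizer (M.map G.subtype) (hNC ⟨(n : G), n.2, rfl⟩) hna
    exact Subtype.ext (Subtype.ext h1)
  have hCM : Subgroup.centralizer ((M.map G.subtype : Subgroup (Equiv.Perm α)) :
      Set (Equiv.Perm α)) = N.map G.subtype := by
    apply le_antisymm _ hNC
    intro c hc
    obtain ⟨n, hn⟩ := MulAction.exists_smul_eq N a₀ (c a₀)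
    have hn' : ((n : G) : Equiv.Perm α) a₀ = c a₀ := hn
    have h1 : ((n : G) : Equiv.Perm α)⁻¹ * c ∈ Subgroup.centralizer
        ((M.map G.subtype : Subgroup (Equiv.Perm α)) : Set (Equiv.Perm α)) :=
      Subgroup.mul_mem _ (Subgroup.inv_mem _ (hNC ⟨(n : G), n.2, rfl⟩)) hc
    have h2 : (((n : G) : Equiv.Perm α)⁻¹ * c) a₀ = a₀ := by
      rw [Equiv.Perm.mul_apply, ← hn']
      simp
    have h3 := PermCent.semiregular_centralizer (M.map G.subtype) h1 h2
    have h4 : c = ((n : G) : Equiv.Perm α) := (inv_mul_eq_one.1 h3).symm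
    rw [h4]
    exact ⟨(n : G), n.2, rfl⟩
  have hCN : Subgroup.centralizer ((N.map G.subtype : Subgroup (Equiv.Perm α)) :
      Set (Equiv.Perm α)) = M.map G.subtype := by
    apply le_antisymm _ hMC
    intro c hc
    obtain ⟨m, hm⟩ := MulAction.exists_smul_eq M a₀ (c a₀)
    have hm' : ((m : G) : Equiv.Perm α) a₀ = c a₀ := hm
    have h1 : ((m : G) : Equiv.Perm α)⁻¹ * c ∈ Subgroup.centralizer
        ((N.map G.subtype : Subgroup (Equiv.Perm α)) : Set (Equiv.Perm α)) :=
      Subgroup.mul_mem _ (Subgroup.inv_mem _ (hMC ⟨(m : G), m.2, rfl⟩)) hc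
    have h2 : (((m : G) : Equiv.Perm α)⁻¹ * c) a₀ = a₀ := by
      rw [Equiv.Perm.mul_apply, ← hm']
      simp
    have h3 := PermCent.semiregular_centralizer (N.map G.subtype) h1 h2
    have h4 : c = ((m : G) : Equiv.Perm α) := (inv_mul_eq_one.1 h3).symm
    rw [h4]
    exact ⟨(m : G), m.2, rfl⟩
  have huniqN : ∀ n n' : N, n • a₀ = n' • a₀ → n = n' := by
    intro n n' h
    have h1 : n'⁻¹ * n ∈ MulAction.stabilizer N a₀ := by
      rw [MulAction.mem_stabilizer_iff, mul_smul, h, inv_smul_smul]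
    rw [hregN a₀, Subgroup.mem_bot] at h1
    exact (inv_mul_eq_one.1 h1).symm
  have huniqM : ∀ m m' : M, m • a₀ = m' • a₀ → m = m' := by
    intro m m' h
    have h1 : m'⁻¹ * m ∈ MulAction.stabilizer M a₀ := by
      rw [MulAction.mem_stabilizer_iff, mul_smul, h, inv_smul_smul]
    rw [hregM a₀, Subgroup.mem_bot] at h1
    exact (inv_mul_eq_one.1 h1).symm
  have hsc : ∀ (m : M) (n : N) (x : α), m • (n • x) = n • (m • x) := by
    intro m n x
    have h := congrArg (fun σ : Equiv.Perm α => σ x) (hcomm (m : G) m.2 (n : G) n.2)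
    exact h
  refine ⟨hregM, hregN, ?_, ?_, hCM, hCN, ?_⟩
  · intro hab
    have hcomm2 : ∀ s ∈ M.map G.subtype, ∀ t ∈ M.map G.subtype, s * t = t * s := by
      rintro _ ⟨s, hs, rfl⟩ _ ⟨t, ht, rfl⟩
      have h := hab.is_comm.comm ⟨s, hs⟩ ⟨t, ht⟩
      exact congrArg Subtype.val (congrArg Subtype.val h)
    have h1 := PermCent.centralizer_eq_of_abelian_transitive (M.map G.subtype) hcomm2 a₀
    rw [hCM] at h1
    have hMN' : M ≤ N := by
      intro m hm
      have h2 : ((m : G) : Equiv.Perm α) ∈ N.map G.subtype := by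
        rw [h1]; exact ⟨m, hm, rfl⟩
      obtain ⟨n, hn, hnm⟩ := h2
      have h3 : n = m := Subtype.ext hnm
      exact h3 ▸ hn
    rcases hNmin M inferInstance hMN' with h' | h'
    · exact hM h'
    · exact hMN h'
  · let φ : M → N := fun m => Classical.choose (MulAction.exists_smul_eq N a₀ (m⁻¹ • a₀))
    have hφ : ∀ m : M, φ m • a₀ = m⁻¹ • a₀ := fun m =>
      Classical.choose_spec (MulAction.exists_smul_eq N a₀ (m⁻¹ • a₀))
    have hmul : ∀ m₁ m₂ : M, φ (m₁ * m₂) = φ m₁ * φ m₂ := by
      intro m₁ m₂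
      apply huniqN
      rw [hφ, mul_smul, hφ, ← hsc, hφ, mul_inv_rev, mul_smul]
    refine ⟨MulEquiv.ofBijective (MonoidHom.mk' φ hmul) ⟨?_, ?_⟩⟩
    · intro m₁ m₂ h
      have h1 : φ m₁ = φ m₂ := h
      have h2 : m₁⁻¹ • a₀ = m₂⁻¹ • a₀ := by rw [← hφ, ← hφ, h1]
      exact inv_injective (huniqM _ _ h2)
    · intro n
      obtain ⟨m', hm'⟩ := MulAction.exists_smul_eq M a₀ (n • a₀)
      refine ⟨m'⁻¹, ?_⟩
      show φ m'⁻¹ = n
      apply huniqN
      rw [hφ, inv_inv, hm']
  · intro L hLn hLne hLmin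
    haveI := hLn
    rcases hMmin (L ⊓ M) inferInstance inf_le_right with h | h
    · right
      have hLN : L ≤ N := by
        intro l hl
        have hlc : ((l : G) : Equiv.Perm α) ∈ Subgroup.centralizer
            ((M.map G.subtype : Subgroup (Equiv.Perm α)) : Set (Equiv.Perm α)) := by
          rw [Subgroup.mem_centralizer_iff]
          rintro _ ⟨m, hm, rfl⟩
          have := PermCent.comm_of_disjoint_normal L M h hl hm
          exact (congrArg Subtype.val this).symm
        rw [hCM] at hlc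
        obtain ⟨n, hn, hnl⟩ := hlc
        have hnl' : n = l := Subtype.ext hnl
        exact hnl' ▸ hn
      rcases hNmin L hLn hLN with h' | h'
      · exact absurd h' hLne
      · exact h'
    · left
      have hML : M ≤ L := by rw [← h]; exact inf_le_left
      rcases hLmin M inferInstance hML with h' | h'
      · exact absurd h' hM
      · exact h'.symm

end Cfsg.Agent.S0704
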