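import Mathlib
import Cfsg.Agent.Lib.Helper2.PermCent2
import Cfsg.Statements.S0707

set_option autoImplicit false
open Cfsg
open Cfsg.Agent.Lib.Helper2

namespace Cfsg.Agent.S0707

/-- In a primitive permutation group, distinct points have distinct stabilisers unless the group is regular of prime degree. -/
theorem result {α : Type*} (G : Subgroup (Equiv.Perm α)) [MulAction.IsPreprimitive G α] (h : ¬ (Nat.card α).Prime ∨ ∃ a : α, MulAction.stabilizer G a ≠ ⊥) {a b : α} (hab : a ≠ b) : MulAction.stabilizer G a ≠ MulAction.stabilizer G b := by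
  classical
  intro hstab
  haveI : Nontrivial α := ⟨⟨a, b, hab⟩⟩
  have hco : IsCoatom (MulAction.stabilizer G a) :=
    MulAction.IsPreprimitive.isCoatom_stabilizer_of_isPreprimitive (G := G) a
  obtain ⟨g, hg⟩ := MulAction.exists_smul_eq G a b
  have hconj : ∀ (k : G) (x : α), MulAction.stabilizer G (k • x) =
      (MulAction.stabilizer G x).map (MulAut.conj k).toMonoidHom :=
    fun k x => MulAction.stabilizer_smul_eq_stabilizer_map_conj k x
  have hgN : g ∈ Subgroup.normalizer ((MulAction.stabilizer G a : Subgroup G) : Set G) := by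
    rw [Subgroup.mem_normalizer_iff_map_conj_eq]
    have := hconj g a
    rw [hg, ← hstab] at this
    exact this.symm
  have hgS : g ∉ MulAction.stabilizer G a := by
    intro h1
    rw [MulAction.mem_stabilizer_iff, hg] at h1
    exact hab h1.symm
  have hNtop : Subgroup.normalizer ((MulAction.stabilizer G a : Subgroup G) : Set G) = ⊤ := by
    apply hco.2
    refine lt_of_le_of_ne Subgroup.le_normalizer ?_
    intro h1
    apply hgS
    rw [h1]
    exact hgN
  have hSa : MulAction.stabilizer G a = ⊥ := by
    rw [eq_bot_iff]
    intro s hs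
    rw [Subgroup.mem_bot]
    apply PermCent.eq_one_of_forall
    intro x
    obtain ⟨k, hk⟩ := MulAction.exists_smul_eq G a x
    have h1 : k ∈ Subgroup.normalizer ((MulAction.stabilizer G a : Subgroup G) : Set G) := by
      rw [hNtop]; trivial
    have h2 : MulAction.stabilizer G x = MulAction.stabilizer G a := by
      rw [← hk, hconj k a]
      exact Subgroup.mem_normalizer_iff_map_conj_eq.1 h1
    have h3 : s ∈ MulAction.stabilizer G x := by rw [h2]; exact hs
    exact h3
  have hall : ∀ x : α, MulAction.stabilizer G x = ⊥ := by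
    intro x
    obtain ⟨k, hk⟩ := MulAction.exists_smul_eq G a x
    rw [← hk, hconj k a, hSa, Subgroup.map_bot]
  have hbot : ∀ K : Subgroup G, K ≠ ⊥ → K = ⊤ := by
    intro K hK
    rw [hSa] at hco
    exact hco.2 K (bot_lt_iff_ne_bot.2 hK)
  have hg1 : g ≠ 1 := by
    intro h1
    apply hgS
    rw [h1]
    exact Subgroup.one_mem _
  have hcardα : Nat.card α = Nat.card G := by
    symm
    apply Nat.card_congr
    refine Equiv.ofBijective (fun k : G => k • a) ⟨?_, ?_⟩
    · intro k k' hkk
      exact PermCent.eq_of_smul_eq G hall hkk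
    · intro x
      exact MulAction.exists_smul_eq G a x
  have hprime : (Nat.card α).Prime := by
    rw [hcardα]
    by_cases hfin : orderOf g = 0
    · exfalso
      have hg2 : g ^ 2 ≠ 1 := by
        intro h1
        have := orderOf_dvd_of_pow_eq_one h1
        rw [hfin] at this
        simp at this
      have htop := hbot (Subgroup.zpowers (g ^ 2)) (by
        intro h1
        apply hg2
        have : g ^ 2 ∈ Subgroup.zpowers (g ^ 2) := Subgroup.mem_zpowers _
        rw [h1, Subgroup.mem_bot] at this
        exact this)
      have hmem : g ∈ Subgroup.zpowers (g ^ 2) := by rw [htop]; trivial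
      obtain ⟨k, hk⟩ := Subgroup.mem_zpowers_iff.1 hmem
      have h2 : g ^ (2 * k - 1) = 1 := by
        rw [zpow_sub, zpow_mul, zpow_one]
        have : (g ^ (2 : ℤ)) ^ k = (g ^ 2) ^ k := by
          congr 1
        rw [this, hk, mul_inv_cancel]
      have h3 : (orderOf g : ℤ) ∣ 2 * k - 1 := orderOf_dvd_iff_zpow_eq_one.2 h2
      rw [hfin] at h3
      simp at h3
      omega
    · have hn1 : orderOf g ≠ 1 := by
        intro h1
        exact hg1 (orderOf_eq_one_iff.1 h1)
      obtain ⟨q, hq, hqd⟩ := Nat.exists_prime_and_dvd hn1
      have hord := orderOf_pow_orderOf_div hfin hqd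
      have hne : Subgroup.zpowers (g ^ (orderOf g / q)) ≠ ⊥ := by
        intro h1
        have : g ^ (orderOf g / q) ∈ Subgroup.zpowers (g ^ (orderOf g / q)) :=
          Subgroup.mem_zpowers _
        rw [h1, Subgroup.mem_bot] at this
        rw [this, orderOf_one] at hord
        exact hq.one_lt.ne hord
      have htop := hbot _ hne
      have hc : Nat.card (Subgroup.zpowers (g ^ (orderOf g / q))) = q := by
        rw [Nat.card_zpowers, hord]
      rw [htop, Subgroup.card_top] at hc
      rw [hc]
      exact hq
  rcases h with h | ⟨x, hx⟩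
  · exact h hprime
  · exact hx (hall x)

end Cfsg.Agent.S0707
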