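import Mathlib
import Cfsg.Agent.Lib.Helper2.JordanP2
import Cfsg.Statements.S0713

set_option autoImplicit false
open Cfsg
open Cfsg.Agent.Lib.Helper2

namespace Cfsg.Agent.S0713

/-- Jordan's Theorem: a primitive permutation group of degree `n ≥ 5` containing a `p`-cycle for a prime `p ≤ n - 3` contains the alternating group. -/
theorem result {α : Type*} [Fintype α] [DecidableEq α] (G : Subgroup (Equiv.Perm α)) (hG : MulAction.IsPreprimitive G α) {p : ℕ} (hp : p.Prime) (hn : 5 ≤ Fintype.card α) (hpn : p + 3 ≤ Fintype.card α) {g : Equiv.Perm α} (hgc : g.IsCycle) (hgp : g.support.card = p) (hg : g ∈ G) : alternatingGroup α ≤ G := by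
  have hfix : Fintype.card {w // g w = w} = Fintype.card α - p := by
    have h1 : Fintype.card {w // g w = w} = Fintype.card {w // ¬ (w ∈ g.support)} :=
      Fintype.card_congr (Equiv.subtypeEquivRight (fun w => by simp))
    rw [h1, Fintype.card_subtype_compl, Fintype.card_coe, hgp]
  have hp2 := hp.two_le
  obtain ⟨m, hm⟩ : ∃ m, Fintype.card α - p = m + 3 := ⟨Fintype.card α - p - 3, by omega⟩
  have hk : MulAction.IsMultiplyPretransitive G α (Fintype.card α - p) := by
    have hprim : MulAction.IsPreprimitive (fixingSubgroup G ((g.support : Set α)ᶜ))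
        (SubMulAction.ofFixingSubgroup G ((g.support : Set α)ᶜ)) := by
      classical
      have := Equiv.Perm.isPretransitive_of_isCycle_mem hgc hg
      apply MulAction.IsPreprimitive.of_prime_card
      convert hp
      rw [Nat.card_eq_fintype_card, Fintype.card_subtype, ← hgp]
      apply congr_arg
      ext x
      simp [SubMulAction.mem_ofFixingSubgroup_iff]
    have h1 := hG.isMultiplyPreprimitive (s := ((g.support : Set α)ᶜ)) (n := m + 2) (by
      apply Nat.add_left_cancel (n := (g.support : Set α).ncard)
      rw [Set.ncard_add_ncard_compl, Set.ncard_coe_finset, hgp, Nat.card_eq_fintype_card]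
      omega) (by rw [Nat.card_eq_fintype_card]; omega) hprim
    have h2 : MulAction.IsMultiplyPretransitive G α (m + 2 + 2) := inferInstance
    rw [hm]
    exact MulAction.isMultiplyPretransitive_of_le (n := m + 2 + 2) (by omega)
      (by rw [Nat.card_eq_fintype_card]; omega)
  obtain ⟨f⟩ := Function.Embedding.nonempty_of_card_le (α := Fin 3) (β := {w // g w = w})
    (by rw [Fintype.card_fin, hfix]; omega)
  have hxy : (f 0).1 ≠ (f 1).1 := fun h => by simpa using f.injective (Subtype.ext h)
  have hxz : (f 0).1 ≠ (f 2).1 := fun h => by simpa using f.injective (Subtype.ext h)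
  have hyz : (f 1).1 ≠ (f 2).1 := fun h => by simpa using f.injective (Subtype.ext h)
  obtain ⟨τ, hτ, h3τ⟩ := JordanP.exists_three_cycle G hp hgc hgp hg
    (JordanP.hext_of_trans G g hfix hk) (f 0).2 (f 1).2 (f 2).2 hxy hxz hyz
  exact Equiv.Perm.alternatingGroup_le_of_isPreprimitive_of_isThreeCycle_mem hG h3τ hτ

end Cfsg.Agent.S0713
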