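import Mathlib
import Cfsg.Agent.Lib.Helper2.Blichfeldt
import Cfsg.Statements.S0724

set_option autoImplicit false
open Cfsg
open Cfsg.Agent.Lib.Helper2

namespace Cfsg.Agent.S0724

/-- Blichfeldt's Theorem: if a finite set `L` of natural numbers contains the number of fixed points of every non-identity element of a permutation group `G` of degree `n`, then the order of `G` divides `∏ (n - l)` over `l ∈ L`. -/
theorem result {α : Type*} [Fintype α] [DecidableEq α] (G : Subgroup (Equiv.Perm α)) (L : Finset ℕ) (hL : ∀ g ∈ G, g ≠ 1 → Nat.card (MulAction.fixedBy α g) ∈ L) : Nat.card G ∣ ∏ l ∈ L, (Fintype.card α - l) := by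
  have h := Blichfeldt.blichfeldt_nat (G := ↥G) (α := α) L (fun g hg =>
    hL (g : Equiv.Perm α) g.2 (fun h1 => hg (Subtype.ext h1)))
  rw [Nat.card_eq_fintype_card (α := α)] at h
  exact h

end Cfsg.Agent.S0724
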