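import Mathlib
import Cfsg.Statements.S0726

set_option autoImplicit false
open Cfsg

namespace Cfsg.Agent.S0726

/-- The left and right regular permutation representations of a group are each other's centralisers in the symmetric group: the centraliser of the left regular image is the right regular image, and a transitive subgroup centralising the left regular image is the whole right regular image. -/
theorem result {G : Type*} [Group G] : Subgroup.centralizer ((MulAction.toPermHom G G).range : Set (Equiv.Perm G)) = (MulAction.toPermHom Gᵐᵒᵖ G).range ∧ ∀ H : Subgroup (Equiv.Perm G), H ≤ Subgroup.centralizer ((MulAction.toPermHom G G).range : Set (Equiv.Perm G)) → MulAction.IsPretransitive H G → H = (MulAction.toPermHom Gᵐᵒᵖ G).range := by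
  have key : ∀ σ : Equiv.Perm G,
      σ ∈ Subgroup.centralizer ((MulAction.toPermHom G G).range : Set (Equiv.Perm G)) →
      σ = MulAction.toPermHom Gᵐᵒᵖ G (MulOpposite.op (σ 1)) := by
    intro σ hσ
    rw [Subgroup.mem_centralizer_iff] at hσ
    ext x
    have h1 := hσ (MulAction.toPermHom G G x) ⟨x, rfl⟩
    have h2 := congrArg (fun τ : Equiv.Perm G => τ 1) h1
    simp only [Equiv.Perm.coe_mul, Function.comp_apply, MulAction.toPermHom_apply,
      MulAction.toPerm_apply, smul_eq_mul, mul_one] at h2
    simp only [MulAction.toPermHom_apply, MulAction.toPerm_apply, MulOpposite.smul_eq_mul_unop,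
      MulOpposite.unop_op]
    exact h2.symm
  have hR : ∀ g : Gᵐᵒᵖ, MulAction.toPermHom Gᵐᵒᵖ G g ∈
      Subgroup.centralizer ((MulAction.toPermHom G G).range : Set (Equiv.Perm G)) := by
    intro g
    rw [Subgroup.mem_centralizer_iff]
    rintro _ ⟨x, rfl⟩
    ext y
    simp only [Equiv.Perm.coe_mul, Function.comp_apply, MulAction.toPermHom_apply,
      MulAction.toPerm_apply, smul_eq_mul, MulOpposite.smul_eq_mul_unop, mul_assoc]
  have part1 : Subgroup.centralizer ((MulAction.toPermHom G G).range : Set (Equiv.Perm G)) =
      (MulAction.toPermHom Gᵐᵒᵖ G).range := by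
    apply le_antisymm
    · intro σ hσ
      exact ⟨MulOpposite.op (σ 1), (key σ hσ).symm⟩
    · rintro _ ⟨g, rfl⟩
      exact hR g
  refine ⟨part1, ?_⟩
  intro H hH htr
  apply le_antisymm
  · rw [← part1]; exact hH
  · rintro _ ⟨g, rfl⟩
    obtain ⟨h, hh⟩ := MulAction.exists_smul_eq H (1 : G) (MulOpposite.unop g)
    have h3 := key h.1 (hH h.2)
    have h4 : h.1 1 = MulOpposite.unop g := hh
    rw [h4, MulOpposite.op_unop] at h3
    rw [← h3]
    exact h.2

end Cfsg.Agent.S0726
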