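import Cfsg.Statements.S0733
import Mathlib

set_option autoImplicit false
open Cfsg

namespace Cfsg.Agent.S0733

open scoped Pointwise

/-- A permutation group of affine type — generated by the translations of a finite vector space `V` over `ZMod p` together with a group `G₀` of linear automorphisms — is primitive on `V` if and only if `G₀` is irreducible on `V`. -/
theorem result {p : ℕ} [Fact p.Prime] {V : Type*} [AddCommGroup V] [Module (ZMod p) V] [Finite V] [Nontrivial V] (G₀ : Subgroup (V ≃ₗ[ZMod p] V)) (G : Subgroup (Equiv.Perm V)) (hG : ∀ σ : Equiv.Perm V, σ ∈ G ↔ ∃ g ∈ G₀, ∃ b : V, ∀ x : V, σ x = (g : V ≃ₗ[ZMod p] V) x + b) : MulAction.IsPreprimitive G V ↔ ∀ W : Submodule (ZMod p) V, (∀ g ∈ G₀, ∀ v ∈ W, (g : V ≃ₗ[ZMod p] V) v ∈ W) → W = ⊥ ∨ W = ⊤ := by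
  classical
  have htr : ∀ b : V, Equiv.addRight b ∈ G := fun b =>
    (hG _).2 ⟨1, G₀.one_mem, b, fun x => by simp⟩
  have hlin : ∀ g ∈ G₀, (g : V ≃ₗ[ZMod p] V).toEquiv ∈ G := fun g hg =>
    (hG _).2 ⟨g, hg, 0, fun x => by simp⟩
  haveI : MulAction.IsPretransitive G V :=
    ⟨fun x y => ⟨⟨Equiv.addRight (y - x), htr _⟩, by
      show x + (y - x) = y
      abel⟩⟩
  constructor
  · intro hprim W hW
    have hblock : MulAction.IsBlock G (W : Set V) := by
      rw [MulAction.isBlock_iff_smul_eq_of_mem]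
      intro σ a ha hσa
      obtain ⟨g, hg, b, hσ⟩ := (hG σ.1).1 σ.2
      have hb : b ∈ W := by
        have h1 : σ.1 a ∈ W := hσa
        rw [hσ] at h1
        have h2 := hW g hg a ha
        have h3 : b = (g a + b) - g a := by abel
        rw [h3]; exact W.sub_mem h1 h2
      ext x
      constructor
      · rintro ⟨w, hw, rfl⟩
        show σ.1 w ∈ W
        rw [hσ]; exact W.add_mem (hW g hg w hw) hb
      · intro hx
        refine ⟨(g⁻¹ : V ≃ₗ[ZMod p] V) (x - b), ?_, ?_⟩
        · exact hW g⁻¹ (G₀.inv_mem hg) (x - b) (W.sub_mem hx hb)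
        · show σ.1 ((g⁻¹ : V ≃ₗ[ZMod p] V) (x - b)) = x
          rw [hσ]
          have h4 : (g : V ≃ₗ[ZMod p] V) ((g⁻¹ : V ≃ₗ[ZMod p] V) (x - b)) = x - b := by
            rw [← LinearEquiv.mul_apply, mul_inv_cancel]; rfl
          rw [h4]; abel
    rcases hprim.isTrivialBlock_of_isBlock hblock with h | h
    · left
      rw [eq_bot_iff]
      intro w hw
      rw [Submodule.mem_bot]
      exact h hw W.zero_mem
    · right
      rw [eq_top_iff]
      intro x _
      have h5 : x ∈ (W : Set V) := by rw [h]; trivial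
      exact h5
  · intro hirr
    apply MulAction.IsPreprimitive.of_isTrivialBlock_base (0 : V)
    intro B h0 hB
    rw [MulAction.isBlock_iff_smul_eq_of_mem] at hB
    have hfix : ∀ b ∈ B, (⟨Equiv.addRight b, htr b⟩ : G) • B = B := by
      intro b hb
      apply hB (a := 0) h0
      show (0 : V) + b ∈ B
      rwa [zero_add]
    have hadd : ∀ b ∈ B, ∀ x ∈ B, x + b ∈ B := by
      intro b hb x hx
      rw [← hfix b hb]
      exact ⟨x, hx, rfl⟩
    have hneg : ∀ b ∈ B, -b ∈ B := by
      intro b hb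
      have h2 : (0 : V) ∈ (⟨Equiv.addRight b, htr b⟩ : G) • B := by rw [hfix b hb]; exact h0
      obtain ⟨y, hy, hy0⟩ := h2
      have h3 : y + b = 0 := hy0
      have h4 : y = -b := add_eq_zero_iff_eq_neg.1 h3
      rw [← h4]; exact hy
    let A : AddSubgroup V :=
      { carrier := B
        add_mem' := fun {x y} hx hy => hadd y hy x hx
        zero_mem' := h0
        neg_mem' := fun {x} hx => hneg x hx }
    have hinv : ∀ g ∈ G₀, ∀ v ∈ AddSubgroup.toZModSubmodule p A,
        (g : V ≃ₗ[ZMod p] V) v ∈ AddSubgroup.toZModSubmodule p A := by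
      intro g hg v hv
      have h1 : (⟨(g : V ≃ₗ[ZMod p] V).toEquiv, hlin g hg⟩ : G) • B = B := by
        apply hB (a := 0) h0
        show (g : V ≃ₗ[ZMod p] V) 0 ∈ B
        rw [map_zero]; exact h0
      show (g : V ≃ₗ[ZMod p] V) v ∈ B
      rw [← h1]
      exact ⟨v, hv, rfl⟩
    rcases hirr _ hinv with h | h
    · left
      intro x hx y hy
      have hx' : x ∈ AddSubgroup.toZModSubmodule p A := hx
      have hy' : y ∈ AddSubgroup.toZModSubmodule p A := hy
      rw [h, Submodule.mem_bot] at hx' hy'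
      rw [hx', hy']
    · right
      ext x
      simp only [Set.mem_univ, iff_true]
      have h6 : x ∈ AddSubgroup.toZModSubmodule p A := by rw [h]; trivial
      exact h6

end Cfsg.Agent.S0733
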