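import Mathlib
import Cfsg.Agent.Lib.Helper2.SylowAux
import Cfsg.Statements.S0734

set_option autoImplicit false
open Cfsg
open Cfsg.Agent.Lib.Helper2

namespace Cfsg.Agent.S0734

/-- Higman's criterion for primitivity: a transitive action on a finite set is primitive if and only if every non-trivial orbital graph (edges = images of a fixed pair of distinct points) is connected. -/
theorem result {G : Type*} [Group G] {Ω : Type*} [Finite Ω] [MulAction G Ω] [MulAction.IsPretransitive G Ω] [Nontrivial Ω] : MulAction.IsPreprimitive G Ω ↔ ∀ a b : Ω, a ≠ b → (SimpleGraph.fromRel fun x y : Ω => ∃ g : G, g • a = x ∧ g • b = y).Connected := by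
  constructor
  · intro hprim a b hab
    have hadj : ∀ (g : G) (x y : Ω),
        (SimpleGraph.fromRel fun x y : Ω => ∃ g : G, g • a = x ∧ g • b = y).Adj x y →
        (SimpleGraph.fromRel fun x y : Ω => ∃ g : G, g • a = x ∧ g • b = y).Adj (g • x) (g • y) := by
      intro g x y hxy
      rw [SimpleGraph.fromRel_adj] at hxy ⊢
      refine ⟨fun h => hxy.1 (MulAction.injective g h), ?_⟩
      rcases hxy.2 with ⟨k, hk1, hk2⟩ | ⟨k, hk1, hk2⟩
      · left
        exact ⟨g * k, by rw [mul_smul, hk1], by rw [mul_smul, hk2]⟩
      · right
        exact ⟨g * k, by rw [mul_smul, hk1], by rw [mul_smul, hk2]⟩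
    have hreach : ∀ (g : G) (x y : Ω),
        (SimpleGraph.fromRel fun x y : Ω => ∃ g : G, g • a = x ∧ g • b = y).Reachable x y →
        (SimpleGraph.fromRel fun x y : Ω => ∃ g : G, g • a = x ∧ g • b = y).Reachable
          (g • x) (g • y) := by
      rintro g x y ⟨p⟩
      induction p with
      | nil => exact SimpleGraph.Reachable.refl _
      | cons h p ih => exact (hadj g _ _ h).reachable.trans ih
    have hab_adj : (SimpleGraph.fromRel fun x y : Ω => ∃ g : G, g • a = x ∧ g • b = y).Adj a b := by
      rw [SimpleGraph.fromRel_adj]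
      exact ⟨hab, Or.inl ⟨1, one_smul _ _, one_smul _ _⟩⟩
    have hblock : MulAction.IsBlock G {x : Ω |
        (SimpleGraph.fromRel fun x y : Ω => ∃ g : G, g • a = x ∧ g • b = y).Reachable a x} := by
      rw [MulAction.isBlock_iff_smul_eq_of_mem]
      intro g x hx hgx
      have h1 : (SimpleGraph.fromRel fun x y : Ω => ∃ g : G, g • a = x ∧ g • b = y).Reachable
          a (g • a) := (show _ from hgx).trans (hreach g _ _ (show _ from hx)).symm
      ext y
      rw [Set.mem_smul_set_iff_inv_smul_mem]
      constructor
      · intro hy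
        have h2 := hreach g _ _ (show (SimpleGraph.fromRel fun x y : Ω =>
          ∃ g : G, g • a = x ∧ g • b = y).Reachable a (g⁻¹ • y) from hy)
        rw [smul_inv_smul] at h2
        exact h1.trans h2
      · intro hy
        have h2 := hreach g⁻¹ _ _ (h1.symm.trans (show _ from hy))
        rw [inv_smul_smul] at h2
        exact h2
    have htriv := hprim.isTrivialBlock_of_isBlock hblock
    have huniv : {x : Ω | (SimpleGraph.fromRel fun x y : Ω =>
        ∃ g : G, g • a = x ∧ g • b = y).Reachable a x} = Set.univ := by
      rcases htriv with hsub | huniv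
      · exact absurd (hsub (show _ from SimpleGraph.Reachable.refl a)
          (show _ from hab_adj.reachable)) hab
      · exact huniv
    have hall : ∀ c : Ω, (SimpleGraph.fromRel fun x y : Ω =>
        ∃ g : G, g • a = x ∧ g • b = y).Reachable a c := by
      intro c
      have : c ∈ {x : Ω | (SimpleGraph.fromRel fun x y : Ω =>
        ∃ g : G, g • a = x ∧ g • b = y).Reachable a x} := by rw [huniv]; trivial
      exact this
    exact { preconnected := fun u v => (hall u).symm.trans (hall v), nonempty := ⟨a⟩ }
  · intro hconn
    refine { isTrivialBlock_of_isBlock := ?_ }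
    intro B hB
    by_contra hnt
    unfold MulAction.IsTrivialBlock at hnt
    push Not at hnt
    obtain ⟨hns, hnu⟩ := hnt
    obtain ⟨a, ha, b, hb, hab⟩ := hns
    have hstep : ∀ x y : Ω, (SimpleGraph.fromRel fun x y : Ω =>
        ∃ g : G, g • a = x ∧ g • b = y).Reachable x y → x ∈ B → y ∈ B := by
      rintro x y ⟨p⟩
      induction p with
      | nil => exact id
      | cons h p ih =>
        intro hu
        apply ih
        rw [SimpleGraph.fromRel_adj] at h
        rcases h.2 with ⟨g, hg1, hg2⟩ | ⟨g, hg1, hg2⟩
        · have h1 := hB.smul_eq_of_mem ha (show g • a ∈ B by rw [hg1]; exact hu)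
          rw [← hg2, ← h1]
          exact Set.smul_mem_smul_set hb
        · have h1 := hB.smul_eq_of_mem hb (show g • b ∈ B by rw [hg2]; exact hu)
          rw [← hg1, ← h1]
          exact Set.smul_mem_smul_set ha
    apply hnu
    rw [Set.eq_univ_iff_forall]
    intro c
    exact hstep a c ((hconn a b hab).preconnected a c) ha

end Cfsg.Agent.S0734
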