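import Mathlib
import Cfsg.Agent.Lib.Helper2.Zass4
import Cfsg.Agent.Lib.Helper2.Semireg
import Cfsg.Statements.S0738

set_option autoImplicit false
open Cfsg
open Cfsg.Agent.Lib.Helper2

namespace Cfsg.Agent.S0738

/-- Let a finite Zassenhaus group of degree `n + 1` have two-point stabilisers of order `d` with `2d ≥ n - 1`. Then a normal subgroup of a point stabiliser acting regularly on the remaining points is elementary abelian, and the degree is a prime power plus one. -/
theorem result {G Ω : Type*} [Group G] [Finite G] [MulAction G Ω] [Fintype Ω] (hZ : Cfsg.IsZassenhausGroup G Ω) {a b : Ω} (hab : a ≠ b) (hd : Fintype.card Ω - 2 ≤ 2 * Nat.card ↥(MulAction.stabilizer G a ⊓ MulAction.stabilizer G b)) (F : Subgroup G) (hFle : F ≤ MulAction.stabilizer G a) (hFn : (F.subgroupOf (MulAction.stabilizer G a)).Normal) (hreg : ∀ y z : Ω, y ≠ a → z ≠ a → ∃! u : F, (u : G) • y = z) : IsMulCommutative F ∧ ∃ p f : ℕ, p.Prime ∧ (∀ u ∈ F, u ^ p = 1) ∧ Fintype.card Ω = p ^ f + 1 := by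
  classical
  have h3 := Zass.three_le_card hZ
  have hnorm : ∀ h ∈ (MulAction.stabilizer G a ⊓ MulAction.stabilizer G b : Subgroup G),
      ∀ u ∈ F, h * u * h⁻¹ ∈ F := by
    intro h hh u hu
    have hha : h ∈ MulAction.stabilizer G a := hh.1
    have h1 := hFn.conj_mem ⟨u, hFle hu⟩ (Subgroup.mem_subgroupOf.2 hu) ⟨h, hha⟩
    exact Subgroup.mem_subgroupOf.1 h1
  have hFa : ∀ u ∈ F, u • a = a := fun u hu => MulAction.mem_stabilizer_iff.1 (hFle hu)
  have hub : ∀ u ∈ F, u ≠ 1 → u • b ≠ b := by
    intro u hu hu1 hfix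
    obtain ⟨w, -, hw⟩ := hreg b b (Ne.symm hab) (Ne.symm hab)
    have e1 := hw ⟨u, hu⟩ hfix
    have e2 := hw 1 (by simp)
    apply hu1
    have e3 : (⟨u, hu⟩ : F) = 1 := e1.trans e2.symm
    exact congrArg Subtype.val e3
  have hsemi : ∀ h ∈ (MulAction.stabilizer G a ⊓ MulAction.stabilizer G b : Subgroup G),
      ∀ u ∈ F, u ≠ 1 → h * u * h⁻¹ = u → h = 1 := by
    intro h hh u hu hu1 hc
    have hha : h • a = a := (Zass.mem_E.1 hh).1
    have hhb : h • b = b := (Zass.mem_E.1 hh).2
    have h1 : h • (u • b) = u • b := by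
      have e : h * u = u * h := mul_inv_eq_iff_eq_mul.1 hc
      rw [← mul_smul, e, mul_smul, hhb]
    have h2 : u • b ≠ a := by
      intro h
      have e : u • b = u • a := by rw [h, hFa u hu]
      exact hab (smul_left_cancel u e).symm
    exact hZ.2.2.1 h a b (u • b) hab (Ne.symm (hub u hu hu1)) (Ne.symm h2) hha hhb h1
  have hcardF : Nat.card F + 1 = Fintype.card Ω := by
    have hinj : Function.Injective (fun u : F => (⟨(u : G) • b, by
        intro h
        have e : (u : G) • b = (u : G) • a := by rw [h, hFa u.1 u.2]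
        exact hab (smul_left_cancel _ e).symm⟩ : {y : Ω // y ≠ a})) := by
      intro u v huv
      have e : (u : G) • b = (v : G) • b := congrArg Subtype.val huv
      have hne : (v : G) • b ≠ a := by
        intro h
        have e : (v : G) • b = (v : G) • a := by rw [h, hFa v.1 v.2]
        exact hab (smul_left_cancel _ e).symm
      obtain ⟨w, -, hw⟩ := hreg b ((v : G) • b) (Ne.symm hab) hne
      exact (hw u e).trans (hw v rfl).symm
    have hsurj : Function.Surjective (fun u : F => (⟨(u : G) • b, by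
        intro h
        have e : (u : G) • b = (u : G) • a := by rw [h, hFa u.1 u.2]
        exact hab (smul_left_cancel _ e).symm⟩ : {y : Ω // y ≠ a})) := by
      intro y
      obtain ⟨w, hw, -⟩ := hreg b y.1 (Ne.symm hab) y.2
      exact ⟨w, Subtype.ext hw⟩
    rw [Nat.card_congr (Equiv.ofBijective _ ⟨hinj, hsurj⟩), Nat.card_eq_fintype_card,
      Fintype.card_of_subtype (Finset.univ.erase a) (by intro x; simp),
      Finset.card_erase_of_mem (Finset.mem_univ a), Finset.card_univ]
    omega
  have hcard : Nat.card F ≤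
      2 * Nat.card ↥(MulAction.stabilizer G a ⊓ MulAction.stabilizer G b : Subgroup G) + 1 := by
    omega
  have hFne : F ≠ ⊥ := by
    intro h
    rw [h, Subgroup.card_bot] at hcardF
    omega
  have hcomm := Semireg.comm_of_semiregular _ F hnorm hsemi hcard hFne
  obtain ⟨p, hp, hexp⟩ := Semireg.exponent_of_semiregular _ F hnorm hsemi hcard hFne
  refine ⟨⟨⟨fun u v => Subtype.ext (hcomm u.1 u.2 v.1 v.2)⟩⟩, p, ?_⟩
  haveI : Fact p.Prime := ⟨hp⟩
  have hPG : IsPGroup p F := fun u => ⟨1, by
    rw [pow_one]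
    exact Subtype.ext (by rw [Subgroup.coe_pow]; exact hexp u.1 u.2)⟩
  obtain ⟨f, hf⟩ := IsPGroup.iff_card.1 hPG
  exact ⟨f, hp, hexp, by rw [← hcardF, hf]⟩

end Cfsg.Agent.S0738
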