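import Cfsg.Statements.S0751


set_option autoImplicit false
open Cfsg


namespace Cfsg.Agent.S0751

section
variable {F V : Type*} [Field F] [AddCommGroup V] [Module F V]

theorem exists_nonfix (σ : F →+* F) (hσ : σ ≠ RingHom.id F) : ∃ c : F, σ c ≠ c := by
  by_contra hcon
  push_neg at hcon
  exact hσ (RingHom.ext hcon)

theorem tr_surj (σ : F →+* F) (hσ : σ ≠ RingHom.id F) (hσ2 : ∀ a : F, σ (σ a) = a) (d : F)
    (hd : σ d = d) : ∃ μ : F, μ + σ μ = d := by
  obtain ⟨e, he⟩ : ∃ e : F, e + σ e ≠ 0 := by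
    by_cases h2 : (1 : F) + 1 = 0
    · obtain ⟨c, hc⟩ := exists_nonfix σ hσ
      refine ⟨c, fun h => hc ?_⟩
      have h3 : c + c = 0 := by linear_combination c * h2
      linear_combination h - h3
    · exact ⟨1, by rw [map_one]; exact h2⟩
  refine ⟨d * e / (e + σ e), ?_⟩
  rw [map_div₀, map_mul, map_add, hσ2, hd, add_comm (σ e) e]
  field_simp

theorem B_sub_left (σ : F →+* F) (B : V →ₛₗ[σ] V →ₗ[F] F) (x y z : V) :
    B (x - y) z = B x z - B y z := by
  rw [map_sub, LinearMap.sub_apply]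

theorem B_add_left (σ : F →+* F) (B : V →ₛₗ[σ] V →ₗ[F] F) (x y z : V) :
    B (x + y) z = B x z + B y z := by
  rw [map_add, LinearMap.add_apply]

theorem B_smul_left (σ : F →+* F) (B : V →ₛₗ[σ] V →ₗ[F] F) (a : F) (x z : V) :
    B (a • x) z = σ a * B x z := by
  rw [map_smulₛₗ, LinearMap.smul_apply, smul_eq_mul]

theorem B_sub_right (σ : F →+* F) (B : V →ₛₗ[σ] V →ₗ[F] F) (x y z : V) :
    B x (y - z) = B x y - B x z := map_sub (B x) y z

theorem B_add_right (σ : F →+* F) (B : V →ₛₗ[σ] V →ₗ[F] F) (x y z : V) :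
    B x (y + z) = B x y + B x z := map_add (B x) y z

theorem B_smul_right (σ : F →+* F) (B : V →ₛₗ[σ] V →ₗ[F] F) (a : F) (x z : V) :
    B x (a • z) = a * B x z := by
  rw [map_smul, smul_eq_mul]

def qr (σ : F →+* F) (B : V →ₛₗ[σ] V →ₗ[F] F) (d : V) (c : F) : V →ₗ[F] V where
  toFun v := v - (c * B d v) • d
  map_add' u v := by
    rw [B_add_right, mul_add, add_smul]
    abel
  map_smul' a v := by
    rw [B_smul_right, RingHom.id_apply, smul_sub, smul_smul]
    congr 2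
    ring

theorem qr_apply (σ : F →+* F) (B : V →ₛₗ[σ] V →ₗ[F] F) (d : V) (c : F) (v : V) :
    qr σ B d c v = v - (c * B d v) • d := rfl

theorem qr_iso (σ : F →+* F) (B : V →ₛₗ[σ] V →ₗ[F] F) (hS : B.IsSymm) (d : V) (c : F)
    (hc : c + σ c = c * σ c * B d d) (u v : V) : B (qr σ B d c u) (qr σ B d c v) = B u v := by
  simp only [qr_apply, B_sub_left, B_sub_right, B_smul_left, B_smul_right, map_mul, hS.eq d u]
  linear_combination (-(B u d * B d v)) * hc

theorem exists_qr [FiniteDimensional F V] (σ : F →+* F) (B : V →ₛₗ[σ] V →ₗ[F] F)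
    (hS : B.IsSymm) (hB : B.Nondegenerate) (d : V) (c : F)
    (hc : c + σ c = c * σ c * B d d) :
    ∃ g : V ≃ₗ[F] V, (∀ u v, B (g u) (g v) = B u v) ∧ ∀ v, g v = v - (c * B d v) • d := by
  have hinj : Function.Injective (qr σ B d c) := by
    rw [← LinearMap.ker_eq_bot, LinearMap.ker_eq_bot']
    intro v hv
    apply hB.2
    intro u
    rw [← qr_iso σ B hS d c hc u v, hv, map_zero]
  refine ⟨LinearEquiv.ofInjectiveEndo (qr σ B d c) hinj, fun u v => ?_, fun v => ?_⟩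
  · rw [LinearEquiv.coe_ofInjectiveEndo]
    exact qr_iso σ B hS d c hc u v
  · rw [LinearEquiv.coe_ofInjectiveEndo]
    rfl

theorem step1 [FiniteDimensional F V] (σ : F →+* F) (B : V →ₛₗ[σ] V →ₗ[F] F)
    (hS : B.IsSymm) (hB : B.Nondegenerate) {k : ℕ} (f : Fin k → V) (x y : V)
    (hxy : B x x = B y y) (hf : ∀ i, B x (f i) = B y (f i)) (hz : B (x - y) x ≠ 0) :
    ∃ g : V ≃ₗ[F] V, (∀ u v, B (g u) (g v) = B u v) ∧ g x = y ∧ ∀ i, g (f i) = f i := by
  obtain ⟨z, hzd⟩ : ∃ z, z = B (x - y) x := ⟨_, rfl⟩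
  have hz0 : z ≠ 0 := by rw [hzd]; exact hz
  have hσz0 : σ z ≠ 0 := (map_ne_zero σ).2 hz0
  have hz1 : z = B x x - B y x := by rw [hzd, B_sub_left]
  have hσz : σ z = B x x - B x y := by
    rw [hz1, map_sub, hS.eq x x, hS.eq y x]
  have hdd : B (x - y) (x - y) = z + σ z := by
    rw [B_sub_left, B_sub_right, B_sub_right, hσz, hz1, ← hxy]
    ring
  obtain ⟨g, hg, hgv⟩ := exists_qr σ B hS hB (x - y) z⁻¹ (by
    rw [hdd, map_inv₀]
    field_simp
    ring)
  refine ⟨g, hg, ?_, fun i => ?_⟩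
  · rw [hgv, ← hzd, inv_mul_cancel₀ hz0, one_smul]
    abel
  · rw [hgv, B_sub_left, hf i, sub_self, mul_zero, zero_smul, sub_zero]

theorem riesz [Finite F] [FiniteDimensional F V] (σ : F →+* F) (B : V →ₛₗ[σ] V →ₗ[F] F)
    (hB : B.Nondegenerate) (l : V →ₗ[F] F) : ∃ t : V, ∀ v, B t v = l v := by
  haveI : Finite V := (Module.finite_iff_finite : Module.Finite F V ↔ Finite V).mp inferInstance
  haveI : Finite (V →ₗ[F] F) :=
    (Module.finite_iff_finite : Module.Finite F (Module.Dual F V) ↔ Finite (Module.Dual F V)).mp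
      inferInstance
  have hinj : Function.Injective (fun t : V => B t) := by
    intro t t' h
    have h1 : ∀ v, B (t - t') v = 0 := by
      intro v
      rw [B_sub_left]
      have h2 : B t v = B t' v := LinearMap.congr_fun h v
      rw [h2, sub_self]
    exact sub_eq_zero.1 (hB.1 _ h1)
  have hcard : Nat.card (V →ₗ[F] F) ≤ Nat.card V := by
    have e1 := Module.natCard_eq_pow_finrank (K := F) (V := V)
    have e2 := Module.natCard_eq_pow_finrank (K := F) (V := Module.Dual F V)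
    rw [Subspace.dual_finrank_eq] at e2
    have e3 : Nat.card (V →ₗ[F] F) = Nat.card (Module.Dual F V) := rfl
    rw [e3, e2, e1]
  obtain ⟨t, ht⟩ := (hinj.bijective_of_nat_card_le hcard).2 l
  exact ⟨t, fun v => LinearMap.congr_fun ht v⟩

theorem exists_wit [Finite F] [FiniteDimensional F V] (σ : F →+* F)
    (B : V →ₛₗ[σ] V →ₗ[F] F) (hB : B.Nondegenerate) {k : ℕ} (f : Fin k → V) (x : V)
    (hx : x ∉ Submodule.span F (Set.range f)) : ∃ t : V, (∀ i, B t (f i) = 0) ∧ B t x ≠ 0 := by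
  obtain ⟨l, hl1, hl2⟩ := Submodule.exists_le_ker_of_notMem hx
  obtain ⟨t, ht⟩ := riesz σ B hB l
  refine ⟨t, fun i => ?_, ?_⟩
  · rw [ht]
    exact LinearMap.mem_ker.1 (hl2 (Submodule.subset_span ⟨i, rfl⟩))
  · rw [ht]
    exact hl1

theorem exists_t [Finite F] [FiniteDimensional F V] (σ : F →+* F) (hσ : σ ≠ RingHom.id F)
    (hσ2 : ∀ a : F, σ (σ a) = a) (B : V →ₛₗ[σ] V →ₗ[F] F)
    (hS : B.IsSymm) (hB : B.Nondegenerate) {k : ℕ} (f : Fin k → V) (x y : V)
    (hxy : B x x = B y y) (hf : ∀ i, B x (f i) = B y (f i))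
    (hxs : x ∉ Submodule.span F (Set.range f)) (hys : y ∉ Submodule.span F (Set.range f))
    (hz : B (x - y) x = 0) :
    ∃ t : V, (∀ i, B t (f i) = 0) ∧ B t t + B x t + B t x = 0 ∧ B t x ≠ 0 ∧ B t y ≠ 0 := by
  -- t₀
  obtain ⟨t₀, ht₀f, ht₀x, ht₀y⟩ : ∃ t₀ : V, (∀ i, B t₀ (f i) = 0) ∧ B t₀ x ≠ 0 ∧ B t₀ y ≠ 0 := by
    obtain ⟨t₁, h1f, h1⟩ := exists_wit σ B hB f x hxs
    obtain ⟨t₂, h2f, h2⟩ := exists_wit σ B hB f y hys
    by_cases h3 : B t₁ y = 0
    · by_cases h4 : B t₂ x = 0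
      · refine ⟨t₁ + t₂, fun i => ?_, ?_, ?_⟩
        · rw [B_add_left, h1f, h2f, add_zero]
        · rw [B_add_left, h4, add_zero]; exact h1
        · rw [B_add_left, h3, zero_add]; exact h2
      · exact ⟨t₂, h2f, h4, h2⟩
    · exact ⟨t₁, h1f, h1, h3⟩
  -- facts on d = x - y
  have hyx : B y x = B x x := by
    rw [B_sub_left] at hz
    exact (sub_eq_zero.1 hz).symm
  have hxy' : B x y = B x x := by
    rw [← hS.eq y x, hyx, hS.eq x x]
  have hdx : B (x - y) x = 0 := hz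
  have hdy : B (x - y) y = 0 := by rw [B_sub_left, hxy', hxy, sub_self]
  have hdd : B (x - y) (x - y) = 0 := by rw [B_sub_right, hdx, hdy, sub_zero]
  have hdf : ∀ i, B (x - y) (f i) = 0 := fun i => by rw [B_sub_left, hf i, sub_self]
  have hxd : B x (x - y) = 0 := by rw [← hS.eq (x - y) x, hdx, map_zero]
  obtain ⟨β, hβ⟩ : ∃ β, β = B t₀ x := ⟨_, rfl⟩
  obtain ⟨a, ha⟩ : ∃ a, a = B t₀ t₀ := ⟨_, rfl⟩
  have hσa : σ a = a := by rw [ha, hS.eq t₀ t₀]
  have hβ0 : β ≠ 0 := by rw [hβ]; exact ht₀x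
  have hσβ0 : σ β ≠ 0 := (map_ne_zero σ).2 hβ0
  have hxt₀ : B x t₀ = σ β := by rw [hβ, hS.eq t₀ x]
  by_cases hγ : B t₀ (x - y) = 0
  · -- t = l • t₀
    obtain ⟨ρ, hρ0, hρ⟩ : ∃ ρ : F, ρ ≠ 0 ∧ ρ * σ ρ * a + (σ ρ + ρ) * (β * σ β) = 0 := by
      by_cases ha0 : a = 0
      · obtain ⟨c, hc⟩ := exists_nonfix σ hσ
        refine ⟨c - σ c, fun h => hc (sub_eq_zero.1 h).symm, ?_⟩
        rw [ha0, map_sub, hσ2]
        ring
      · obtain ⟨κ, hκ⟩ := tr_surj σ hσ hσ2 1 (map_one σ)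
        have hκ0 : κ ≠ 0 := by
          intro h
          rw [h, map_zero, add_zero] at hκ
          exact zero_ne_one hκ
        have hσκ0 : σ κ ≠ 0 := (map_ne_zero σ).2 hκ0
        refine ⟨-(β * σ β) / (κ * a), ?_, ?_⟩
        · exact div_ne_zero (neg_ne_zero.2 (mul_ne_zero hβ0 hσβ0)) (mul_ne_zero hκ0 ha0)
        · rw [map_div₀, map_neg, map_mul, map_mul, hσ2, hσa]
          have hκ' : σ κ = 1 - κ := by linear_combination hκ
          rw [hκ'] at hσκ0 ⊢
          field_simp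
          ring
    obtain ⟨l, hl⟩ : ∃ l, l = σ ρ / σ β := ⟨_, rfl⟩
    have hσl : σ l = ρ / β := by rw [hl, map_div₀, hσ2, hσ2]
    have hl0 : l ≠ 0 := by
      rw [hl]; exact div_ne_zero ((map_ne_zero σ).2 hρ0) hσβ0
    have hσl0 : σ l ≠ 0 := (map_ne_zero σ).2 hl0
    refine ⟨l • t₀, fun i => ?_, ?_, ?_, ?_⟩
    · rw [B_smul_left, ht₀f, mul_zero]
    · rw [B_smul_left, B_smul_right, B_smul_right, B_smul_left, ← ha, hxt₀, ← hβ, hσl, hl]
      field_simp
      linear_combination hρ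
    · rw [B_smul_left]; exact mul_ne_zero hσl0 ht₀x
    · rw [B_smul_left]; exact mul_ne_zero hσl0 ht₀y
  · -- t = t₀ + μ • d
    obtain ⟨γ, hγd⟩ : ∃ γ, γ = B t₀ (x - y) := ⟨_, rfl⟩
    have hγ0 : γ ≠ 0 := by rw [hγd]; exact hγ
    have hdt₀ : B (x - y) t₀ = σ γ := by rw [hγd, hS.eq t₀ (x - y)]
    obtain ⟨ν, hν⟩ := tr_surj σ hσ hσ2 (-(a + β + σ β)) (by
      rw [map_neg, map_add, map_add, hσ2, hσa]; ring)
    obtain ⟨μ, hμ⟩ : ∃ μ, μ = ν / γ := ⟨_, rfl⟩
    have hμγ : μ * γ = ν := by rw [hμ]; field_simp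
    have hσμγ : σ μ * σ γ = σ ν := by rw [← map_mul, hμγ]
    refine ⟨t₀ + μ • (x - y), fun i => ?_, ?_, ?_, ?_⟩
    · rw [B_add_left, B_smul_left, ht₀f, hdf, mul_zero, add_zero]
    · rw [B_add_left, B_add_right, B_add_right, B_add_right, B_add_left, B_smul_left,
        B_smul_left, B_smul_right, B_smul_right, B_smul_right, B_smul_left, hdd, hxd, hdx,
        ← ha, ← hγd, hdt₀, hxt₀, ← hβ]
      linear_combination hν + hμγ + hσμγ
    · rw [B_add_left, B_smul_left, hdx, mul_zero, add_zero]; exact ht₀x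
    · rw [B_add_left, B_smul_left, hdy, mul_zero, add_zero]; exact ht₀y

theorem stepL [Finite F] [FiniteDimensional F V] (σ : F →+* F) (hσ : σ ≠ RingHom.id F)
    (hσ2 : ∀ a : F, σ (σ a) = a) (B : V →ₛₗ[σ] V →ₗ[F] F)
    (hS : B.IsSymm) (hB : B.Nondegenerate) {k : ℕ} (f : Fin k → V) (x y : V)
    (hxy : B x x = B y y) (hf : ∀ i, B x (f i) = B y (f i))
    (hxs : x ∉ Submodule.span F (Set.range f)) (hys : y ∉ Submodule.span F (Set.range f)) :
    ∃ g : V ≃ₗ[F] V, (∀ u v, B (g u) (g v) = B u v) ∧ g x = y ∧ ∀ i, g (f i) = f i := by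
  by_cases hz : B (x - y) x = 0
  · obtain ⟨t, htf, htt, htx, hty⟩ := exists_t σ hσ hσ2 B hS hB f x y hxy hf hxs hys hz
    have hyx : B y x = B x x := by
      rw [B_sub_left] at hz
      exact (sub_eq_zero.1 hz).symm
    have hxy' : B x y = B x x := by
      rw [← hS.eq y x, hyx, hS.eq x x]
    have hww : B (x + t) (x + t) = B x x := by
      rw [B_add_left, B_add_right, B_add_right]
      linear_combination htt
    have hwf : ∀ i, B (x + t) (f i) = B x (f i) := fun i => by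
      rw [B_add_left, htf, add_zero]
    have h3 : B (x - (x + t)) x ≠ 0 := by
      rw [show x - (x + t) = -t by abel, map_neg, LinearMap.neg_apply]
      exact neg_ne_zero.2 htx
    have hyt : B y t ≠ 0 := by
      rw [← hS.eq t y]; exact (map_ne_zero σ).2 hty
    have h4 : B (x + t - y) (x + t) ≠ 0 := by
      have e : B (x + t - y) (x + t) = -B y t := by
        rw [B_sub_left, B_add_left, B_add_right, B_add_right, B_add_right, hyx]
        linear_combination htt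
      rw [e]
      exact neg_ne_zero.2 hyt
    obtain ⟨g₁, hg₁, e₁, f₁⟩ := step1 σ B hS hB f x (x + t) hww.symm (fun i => (hwf i).symm) h3
    obtain ⟨g₂, hg₂, e₂, f₂⟩ := step1 σ B hS hB f (x + t) y (hww.trans hxy)
      (fun i => (hwf i).trans (hf i)) h4
    refine ⟨g₁.trans g₂, fun u v => ?_, ?_, fun i => ?_⟩
    · rw [LinearEquiv.trans_apply, LinearEquiv.trans_apply, hg₂, hg₁]
    · rw [LinearEquiv.trans_apply, e₁, e₂]
    · rw [LinearEquiv.trans_apply, f₁, f₂]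
  · exact step1 σ B hS hB f x y hxy hf hz

theorem witt_fam [Finite F] [FiniteDimensional F V] (σ : F →+* F) (hσ : σ ≠ RingHom.id F)
    (hσ2 : ∀ a : F, σ (σ a) = a) (B : V →ₛₗ[σ] V →ₗ[F] F)
    (hS : B.IsSymm) (hB : B.Nondegenerate) :
    ∀ (k : ℕ) (f f' : Fin k → V), LinearIndependent F f → LinearIndependent F f' →
      (∀ i j, B (f i) (f j) = B (f' i) (f' j)) →
      ∃ g : V ≃ₗ[F] V, (∀ u v, B (g u) (g v) = B u v) ∧ ∀ i, g (f i) = f' i := by
  intro k
  induction k with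
  | zero =>
    intro f f' _ _ _
    exact ⟨LinearEquiv.refl F V, fun u v => rfl, fun i => i.elim0⟩
  | succ k ih =>
    intro f f' hLI hLI' hG
    have hLI0 := hLI
    rw [← Fin.cons_self_tail f, linearIndependent_fin_cons] at hLI
    rw [← Fin.cons_self_tail f', linearIndependent_fin_cons] at hLI'
    obtain ⟨g₀, hg₀, hg₀f⟩ := ih (Fin.tail f) (Fin.tail f') hLI.1 hLI'.1
      (fun i j => hG i.succ j.succ)
    have hLI2 : LinearIndependent F (fun i => g₀ (f i)) :=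
      hLI0.map' g₀.toLinearMap (LinearEquiv.ker g₀)
    have ht : Fin.tail (fun i => g₀ (f i)) = Fin.tail f' := funext (fun i => hg₀f i)
    rw [← Fin.cons_self_tail (fun i => g₀ (f i)), linearIndependent_fin_cons, ht] at hLI2
    obtain ⟨g₁, hg₁, e₁, f₁⟩ := stepL σ hσ hσ2 B hS hB (Fin.tail f') (g₀ (f 0)) (f' 0)
      (by rw [hg₀]; exact hG 0 0)
      (fun i => by
        have e : B (g₀ (f 0)) (Fin.tail f' i) = B (g₀ (f 0)) (g₀ (Fin.tail f i)) := by
          rw [hg₀f i]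
        rw [e, hg₀]
        exact hG 0 i.succ)
      hLI2.2 hLI'.2
    refine ⟨g₀.trans g₁, fun u v => ?_, fun i => ?_⟩
    · rw [LinearEquiv.trans_apply, LinearEquiv.trans_apply, hg₁, hg₀]
    · rw [LinearEquiv.trans_apply]
      refine Fin.cases ?_ (fun j => ?_) i
      · exact e₁
      · rw [show g₀ (f j.succ) = Fin.tail f' j from hg₀f j]
        exact f₁ j

end

theorem main {F V : Type*} [Field F] [Finite F] [AddCommGroup V] [Module F V] [FiniteDimensional F V] (σ : F →+* F) (hσ : σ ≠ RingHom.id F) (hσ2 : ∀ a : F, σ (σ a) = a) (B : V →ₛₗ[σ] V →ₗ[F] F) (hS : B.IsSymm) (hB : B.Nondegenerate) (X Y : Submodule F V) (φ : X ≃ₗ[F] Y) (hφ : ∀ x x' : X, B (φ x : V) (φ x' : V) = B (x : V) (x' : V)) : ∃ g : V ≃ₗ[F] V, (∀ u v : V, B (g u) (g v) = B u v) ∧ ∀ x : X, g (x : V) = (φ x : V) := by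
  classical
  let b := Module.finBasis F X
  have hLI : LinearIndependent F (fun i => ((b i : X) : V)) :=
    b.linearIndependent.map' X.subtype (Submodule.ker_subtype X)
  have hLI' : LinearIndependent F (fun i => ((φ (b i) : Y) : V)) :=
    (b.linearIndependent.map' φ.toLinearMap (LinearEquiv.ker φ)).map' Y.subtype
      (Submodule.ker_subtype Y)
  obtain ⟨g, hg, hgf⟩ := witt_fam σ hσ hσ2 B hS hB _ _ _ hLI hLI'
    (fun i j => (hφ (b i) (b j)).symm)
  refine ⟨g, hg, fun x => ?_⟩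
  have h1 : g.toLinearMap.comp X.subtype = Y.subtype.comp φ.toLinearMap :=
    b.ext (fun i => hgf i)
  exact LinearMap.congr_fun h1 x

theorem result {F V : Type*} [Field F] [Finite F] [AddCommGroup V] [Module F V] [FiniteDimensional F V] (σ : F →+* F) (hσ : σ ≠ RingHom.id F) (hσ2 : ∀ a : F, σ (σ a) = a) (B : V →ₛₗ[σ] V →ₗ[F] F) (hS : B.IsSymm) (hB : B.Nondegenerate) (X Y : Submodule F V) (φ : X ≃ₗ[F] Y) (hφ : ∀ x x' : X, B (φ x : V) (φ x' : V) = B (x : V) (x' : V)) : ∃ g : V ≃ₗ[F] V, (∀ u v : V, B (g u) (g v) = B u v) ∧ ∀ x : X, g (x : V) = (φ x : V) := by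
  exact main σ hσ hσ2 B hS hB X Y φ hφ

end Cfsg.Agent.S0751
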