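import Mathlib
import Cfsg.Statements.S0753

set_option autoImplicit false
open Cfsg

namespace Cfsg.Agent.S0753

/-- If σ is a ring endomorphism of the field F other than the identity and B is a σ-sesquilinear conjugate-symmetric form with B v v = 0 for every v, then B = 0. -/
theorem result {F V : Type*} [Field F] [AddCommGroup V] [Module F V] (σ : F →+* F) (hσ : σ ≠ RingHom.id F) (B : V →ₛₗ[σ] V →ₗ[F] F) (hS : B.IsSymm) (h0 : ∀ v : V, B v v = 0) : B = 0 := by
  have h1 : ∀ u v : V, B u v + σ (B u v) = 0 := by
    intro u v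
    have h := h0 (u + v)
    simp only [map_add, LinearMap.add_apply, h0 u, h0 v, zero_add, add_zero] at h
    rw [hS.eq u v, add_comm]
    exact h
  obtain ⟨c, hc⟩ : ∃ c : F, σ c ≠ c := by
    by_contra hcon
    push Not at hcon
    exact hσ (RingHom.ext hcon)
  have h2 : ∀ u v : V, B u v = 0 := by
    intro u v
    have e1 := h1 u v
    have e2 := h1 u (c • v)
    rw [map_smul, smul_eq_mul, map_mul] at e2
    have e3 : σ (B u v) = - B u v := by
      rw [eq_neg_iff_add_eq_zero, add_comm]; exact e1
    rw [e3] at e2
    have e4 : (c - σ c) * B u v = 0 := by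
      rw [← e2]; ring
    rcases mul_eq_zero.1 e4 with h | h
    · exact absurd (sub_eq_zero.1 h).symm hc
    · exact h
  ext u v
  simp [h2]

end Cfsg.Agent.S0753
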