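import Mathlib
import Cfsg.Agent.Lib.Helper2.DiagForm
import Cfsg.Statements.S0757

set_option autoImplicit false
open Cfsg
open Cfsg.Agent.Lib.Helper2

namespace Cfsg.Agent.S0757

/-- The two diagonal forms Σ x_i^2 and Σ_(i<n) x_i^2 + α x_n^2 on F^(n+1), with α a non-square and 2 ≠ 0 in F, are inequivalent quadratic forms (so over a finite field of odd order there are exactly two classes of non-singular symmetric bilinear forms in each dimension). -/
theorem result {F : Type*} [Field F] (h2 : (2 : F) ≠ 0) (n : ℕ) (α : F) (hα : ¬ IsSquare α) : ¬ (QuadraticMap.weightedSumSquares F (fun _ : Fin (n + 1) => (1 : F))).Equivalent (QuadraticMap.weightedSumSquares F (fun i : Fin (n + 1) => if i = Fin.last n then α else (1 : F))) := by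
  rintro ⟨e⟩
  have h := DiagForm.det_rel (fun _ : Fin (n + 1) => (1 : F))
    (fun i => if i = Fin.last n then α else 1) e.toLinearEquiv (fun v => e.map_app' v)
  have hprod : ∏ i : Fin (n + 1), (2 * (if i = Fin.last n then α else (1 : F))) =
      2 ^ (n + 1) * α := by
    rw [Finset.prod_mul_distrib, Finset.prod_const, Finset.card_univ, Fintype.card_fin,
      Finset.prod_ite_eq']
    simp
  have hprod1 : ∏ i : Fin (n + 1), (2 * (1 : F)) = 2 ^ (n + 1) := by
    rw [Finset.prod_const, Finset.card_univ, Fintype.card_fin, mul_one]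
  rw [hprod, hprod1] at h
  obtain ⟨d, hd⟩ : ∃ d, d = (LinearMap.toMatrix' e.toLinearEquiv.toLinearMap).det := ⟨_, rfl⟩
  rw [← hd] at h
  have h2n : (2 : F) ^ (n + 1) ≠ 0 := pow_ne_zero _ h2
  have h3 : d ^ 2 * α = 1 := by
    apply mul_left_cancel₀ h2n
    linear_combination h
  have hd0 : d ≠ 0 := by
    rintro rfl
    simp at h3
  apply hα
  refine ⟨d⁻¹, ?_⟩
  field_simp
  linear_combination h3

end Cfsg.Agent.S0757
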