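import Mathlib
import Cfsg.Statements.S0758

set_option autoImplicit false
open Cfsg

namespace Cfsg.Agent.S0758

/-- For a finite field F of odd order q and a non-square α: the form x² + y² is isotropic iff q ≡ 1 mod 4, and the form x² + α y² is isotropic iff q ≡ 3 mod 4. -/
theorem result {F : Type*} [Field F] [Fintype F] (h2 : (2 : F) ≠ 0) (α : F) (hα : ¬ IsSquare α) : ((∃ x y : F, (x ≠ 0 ∨ y ≠ 0) ∧ x ^ 2 + y ^ 2 = 0) ↔ Fintype.card F % 4 = 1) ∧ ((∃ x y : F, (x ≠ 0 ∨ y ≠ 0) ∧ x ^ 2 + α * y ^ 2 = 0) ↔ Fintype.card F % 4 = 3) := by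
  classical
  have hchar : ringChar F ≠ 2 := by
    intro h
    apply h2
    have := (ringChar.spec F 2).2 (by rw [h])
    exact_mod_cast this
  have hodd : Fintype.card F % 2 = 1 := FiniteField.odd_card_of_char_ne_two hchar
  have hsq : IsSquare (-1 : F) ↔ Fintype.card F % 4 ≠ 3 := FiniteField.isSquare_neg_one_iff
  have hα0 : α ≠ 0 := by
    rintro rfl
    exact hα ⟨0, by simp⟩
  have hχα : quadraticChar F α = -1 := quadraticChar_neg_one_iff_not_isSquare.2 hα
  refine ⟨⟨?_, ?_⟩, ⟨?_, ?_⟩⟩
  · rintro ⟨x, y, hxy, h⟩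
    have hy : y ≠ 0 := by
      rintro rfl
      rcases hxy with hx | hy
      · apply hx
        simpa using h
      · exact hy rfl
    have hs : IsSquare (-1 : F) := by
      refine ⟨x / y, ?_⟩
      field_simp
      linear_combination -h
    have := hsq.1 hs
    omega
  · intro h
    have hs : IsSquare (-1 : F) := hsq.2 (by omega)
    obtain ⟨i, hi⟩ := hs
    refine ⟨i, 1, Or.inr one_ne_zero, ?_⟩
    rw [sq, ← hi]; ring
  · rintro ⟨x, y, hxy, h⟩
    have hy : y ≠ 0 := by
      rintro rfl
      rcases hxy with hx | hy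
      · apply hx
        simpa using h
      · exact hy rfl
    have hs : IsSquare (-α : F) := by
      refine ⟨x / y, ?_⟩
      field_simp
      linear_combination -h
    have hnot : ¬ IsSquare (-1 : F) := by
      intro h1
      apply hα
      have : α = (-1) * (-α) := by ring
      rw [this]
      exact h1.mul hs
    have := hsq.not.1 hnot
    omega
  · intro h
    have hnot : ¬ IsSquare (-1 : F) := by
      rw [hsq]; omega
    have hχ1 : quadraticChar F (-1) = -1 := quadraticChar_neg_one_iff_not_isSquare.2 hnot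
    have hχ : quadraticChar F (-α) = 1 := by
      have : (-α : F) = (-1) * α := by ring
      rw [this, map_mul, hχ1, hχα]; norm_num
    have hs : IsSquare (-α : F) := (quadraticChar_one_iff_isSquare (neg_ne_zero.2 hα0)).1 hχ
    obtain ⟨i, hi⟩ := hs
    refine ⟨i, 1, Or.inr one_ne_zero, ?_⟩
    rw [sq, ← hi]; ring

end Cfsg.Agent.S0758
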