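import Cfsg.Statements.S0772
import Cfsg.Agent.Lib.Helper1.SLn

set_option autoImplicit false
open Cfsg


namespace Cfsg.Agent.S0772

open Matrix

/-- the standard subspace -/
def Wk (F : Type*) [Field F] (n k : ℕ) : Set (Fin n → F) :=
  {v | ∀ i : Fin n, k ≤ (i : ℕ) → v i = 0}

/-- its stabilizer -/
abbrev Pk (F : Type*) [Field F] (n k : ℕ) : Subgroup (GL (Fin n) F) :=
  Cfsg.stabilizing (Cfsg.glToMat (Fin n) F) (Wk F n k)

variable {F : Type*} [Field F] {n : ℕ}

theorem Wk_add {k : ℕ} {a b : Fin n → F} (ha : a ∈ Wk F n k) (hb : b ∈ Wk F n k) :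
    a + b ∈ Wk F n k := fun i hi => by
  rw [Pi.add_apply, ha i hi, hb i hi, add_zero]

theorem Wk_smul {k : ℕ} (c : F) {a : Fin n → F} (ha : a ∈ Wk F n k) : c • a ∈ Wk F n k :=
  fun i hi => by rw [Pi.smul_apply, ha i hi, smul_zero]

theorem tv_mulVec (a φ v : Fin n → F) : (1 + vecMulVec a φ) *ᵥ v = v + (φ ⬝ᵥ v) • a := by
  rw [Matrix.add_mulVec, Matrix.one_mulVec, Matrix.vecMulVec_mulVec]
  congr 1
  ext i
  simp [mul_comm]

theorem mem_Pk {k : ℕ} (g : GL (Fin n) F) : g ∈ Pk F n k ↔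
    ∀ v, v ∈ Wk F n k ↔ (g : Matrix (Fin n) (Fin n) F) *ᵥ v ∈ Wk F n k := Iff.rfl

theorem elem_eq (i j : Fin n) (c : F) :
    Matrix.transvection i j c = 1 + vecMulVec (Pi.single i c) (Pi.single j 1) := by
  ext a b
  simp only [Matrix.transvection, Matrix.add_apply, Matrix.vecMulVec_apply, Matrix.single_apply,
    Pi.single_apply]
  by_cases hi : a = i
  · by_cases hj : b = j
    · subst hi; subst hj; simp
    · subst hi; simp [hj, Ne.symm hj]
  · simp [hi, Ne.symm hi]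

theorem tv_mem_of_W {k : ℕ} (a φ : Fin n → F) (ha : a ∈ Wk F n k) (g : GL (Fin n) F)
    (hg : (g : Matrix (Fin n) (Fin n) F) = 1 + vecMulVec a φ) : g ∈ Pk F n k := by
  rw [mem_Pk]
  intro v
  rw [hg, tv_mulVec]
  constructor
  · intro hv; exact Wk_add hv (Wk_smul _ ha)
  · intro hv
    have : v = (v + (φ ⬝ᵥ v) • a) + (-(φ ⬝ᵥ v)) • a := by rw [neg_smul]; abel
    rw [this]; exact Wk_add hv (Wk_smul _ ha)

theorem tv_mem_of_ann {k : ℕ} (z φ : Fin n → F) (hφ : ∀ v ∈ Wk F n k, φ ⬝ᵥ v = 0)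
    (hz : 1 + φ ⬝ᵥ z ≠ 0) (g : GL (Fin n) F)
    (hg : (g : Matrix (Fin n) (Fin n) F) = 1 + vecMulVec z φ) : g ∈ Pk F n k := by
  rw [mem_Pk]
  intro v
  rw [hg, tv_mulVec]
  constructor
  · intro hv; rw [hφ v hv, zero_smul, add_zero]; exact hv
  · intro hv
    have h1 := hφ _ hv
    rw [dotProduct_add, dotProduct_smul, smul_eq_mul] at h1
    have h2 : (φ ⬝ᵥ v) * (1 + φ ⬝ᵥ z) = 0 := by linear_combination h1
    have h3 : φ ⬝ᵥ v = 0 := by
      rcases mul_eq_zero.mp h2 with h | h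
      · exact h
      · exact absurd h hz
    rw [h3, zero_smul, add_zero] at hv
    exact hv

theorem exists_gl_tv (z φ : Fin n → F) (hz : 1 + φ ⬝ᵥ z ≠ 0) :
    ∃ g : GL (Fin n) F, (g : Matrix (Fin n) (Fin n) F) = 1 + vecMulVec z φ := by
  have hZZ : vecMulVec z φ * vecMulVec z φ = (φ ⬝ᵥ z) • vecMulVec z φ := by
    rw [Matrix.vecMulVec_mul_vecMulVec, Matrix.vecMulVec_smul]
  refine ⟨⟨1 + vecMulVec z φ, 1 - (1 + φ ⬝ᵥ z)⁻¹ • vecMulVec z φ, ?_, ?_⟩, rfl⟩
  · have : (1 + vecMulVec z φ) * (1 - (1 + φ ⬝ᵥ z)⁻¹ • vecMulVec z φ)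
        = 1 + (1 - (1 + φ ⬝ᵥ z)⁻¹ * (1 + φ ⬝ᵥ z)) • vecMulVec z φ := by
      simp only [mul_sub, add_mul, mul_one, one_mul, Matrix.mul_smul, hZZ]
      module
    rw [this, inv_mul_cancel₀ hz, sub_self, zero_smul, add_zero]
  · have : (1 - (1 + φ ⬝ᵥ z)⁻¹ • vecMulVec z φ) * (1 + vecMulVec z φ)
        = 1 + (1 - (1 + φ ⬝ᵥ z)⁻¹ * (1 + φ ⬝ᵥ z)) • vecMulVec z φ := by
      simp only [sub_mul, mul_add, mul_one, one_mul, Matrix.smul_mul, hZZ]
      module
    rw [this, inv_mul_cancel₀ hz, sub_self, zero_smul, add_zero]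

theorem diag_mem {k : ℕ} (D : Fin n → F) (hD : ∀ i, D i ≠ 0) (g : GL (Fin n) F)
    (hg : (g : Matrix (Fin n) (Fin n) F) = Matrix.diagonal D) : g ∈ Pk F n k := by
  rw [mem_Pk]
  intro v
  rw [hg]
  constructor
  · intro hv i hi
    rw [Matrix.mulVec_diagonal, hv i hi, mul_zero]
  · intro hv i hi
    have := hv i hi
    rw [Matrix.mulVec_diagonal] at this
    rcases mul_eq_zero.mp this with h | h
    · exact absurd h (hD i)
    · exact h

theorem main {F : Type*} [Field F] [Finite F] (n k : ℕ) (hk0 : 0 < k) (hkn : k < n) : IsCoatom (Cfsg.stabilizing (Cfsg.glToMat (Fin n) F) {v : Fin n → F | ∀ i : Fin n, k ≤ (i : ℕ) → v i = 0}) := by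
  classical
  show IsCoatom (Pk F n k)
  constructor
  · intro htop
    have h0l : (⟨n - 1, by omega⟩ : Fin n) ≠ ⟨0, by omega⟩ := by
      intro h
      have := congrArg Fin.val h
      simp only at this
      omega
    have hmem : Matrix.SpecialLinearGroup.toGL (Matrix.SpecialLinearGroup.transvection h0l (1 : F))
        ∈ Pk F n k := by rw [htop]; exact Subgroup.mem_top _
    rw [mem_Pk] at hmem
    have h1 := (hmem (Pi.single ⟨0, by omega⟩ 1)).1 (fun i hi => by
      rw [Pi.single_apply, if_neg]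
      intro h
      rw [h] at hi
      simp only at hi
      omega)
    have h2 := h1 ⟨n - 1, by omega⟩ (by simp only; omega)
    have h3 : ((Matrix.SpecialLinearGroup.toGL (Matrix.SpecialLinearGroup.transvection h0l (1 : F)) :
        GL (Fin n) F) : Matrix (Fin n) (Fin n) F)
        = Matrix.transvection ⟨n - 1, by omega⟩ ⟨0, by omega⟩ 1 := rfl
    rw [h3, elem_eq, tv_mulVec, Pi.add_apply, Pi.single_eq_of_ne h0l, zero_add, dotProduct_single,
      Pi.single_eq_same, mul_one, Pi.smul_apply, Pi.single_eq_same, smul_eq_mul, mul_one] at h2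
    exact one_ne_zero h2
  · intro H hPH
    obtain ⟨h, hhH, hhP⟩ := SetLike.exists_of_lt hPH
    have hPle : Pk F n k ≤ H := le_of_lt hPH
    obtain ⟨S, hS⟩ : ∃ S : Set (Fin n → F), S = {a | ∀ φ : Fin n → F, φ ⬝ᵥ a = 0 →
        ∀ g : GL (Fin n) F, (g : Matrix (Fin n) (Fin n) F) = 1 + vecMulVec a φ → g ∈ H} :=
      ⟨_, rfl⟩
    have hSW : ∀ a ∈ Wk F n k, a ∈ S := by
      intro a ha
      rw [hS]
      intro φ _ g hg
      exact hPle (tv_mem_of_W a φ ha g hg)
    have hSH : ∀ g ∈ H, ∀ a ∈ S, (g : Matrix (Fin n) (Fin n) F) *ᵥ a ∈ S := by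
      intro g hg a ha
      rw [hS] at ha ⊢
      intro ψ hψ t ht
      have key : ((g⁻¹ * t * g : GL (Fin n) F) : Matrix (Fin n) (Fin n) F)
          = 1 + vecMulVec a (ψ ᵥ* (g : Matrix (Fin n) (Fin n) F)) := by
        rw [Units.val_mul, Units.val_mul, ht, mul_add, add_mul, mul_one, ← Units.val_mul,
          inv_mul_cancel, Units.val_one, Matrix.mul_vecMulVec, Matrix.vecMulVec_mul,
          Matrix.mulVec_mulVec, ← Units.val_mul, inv_mul_cancel, Units.val_one, Matrix.one_mulVec]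
      have h1 := ha (ψ ᵥ* (g : Matrix (Fin n) (Fin n) F))
        (by rw [← Matrix.dotProduct_mulVec]; exact hψ) _ key
      have : t = g * (g⁻¹ * t * g) * g⁻¹ := by group
      rw [this]; exact H.mul_mem (H.mul_mem hg h1) (H.inv_mem hg)
    obtain ⟨x, hxS, hxW⟩ : ∃ x, x ∈ S ∧ x ∉ Wk F n k := by
      have : ∃ v, ¬ (v ∈ Wk F n k ↔ (h : Matrix (Fin n) (Fin n) F) *ᵥ v ∈ Wk F n k) := by
        by_contra hcon
        push_neg at hcon
        exact hhP ((mem_Pk h).2 hcon)
      obtain ⟨v, hv⟩ := this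
      by_cases hvW : v ∈ Wk F n k
      · exact ⟨_, hSH h hhH v (hSW v hvW), fun hc => hv ⟨fun _ => hc, fun _ => hvW⟩⟩
      · have hhv : (h : Matrix (Fin n) (Fin n) F) *ᵥ v ∈ Wk F n k := by
          by_contra hc
          exact hv ⟨fun h1 => absurd h1 hvW, fun h1 => absurd h1 hc⟩
        refine ⟨v, ?_, hvW⟩
        have := hSH h⁻¹ (H.inv_mem hhH) _ (hSW _ hhv)
        rw [Matrix.mulVec_mulVec, ← Units.val_mul, inv_mul_cancel, Units.val_one,
          Matrix.one_mulVec] at this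
        exact this
    have step : ∀ (x y : Fin n → F) (i : Fin n), k ≤ (i : ℕ) → x i ≠ 0 → y i ≠ 0 →
        x ∈ S → y ∈ S := by
      intro x y i hi hxi hyi hxS
      obtain ⟨φ, hφ⟩ : ∃ φ : Fin n → F, φ = (x i)⁻¹ • Pi.single i 1 := ⟨_, rfl⟩
      have hφv : ∀ v, φ ⬝ᵥ v = (x i)⁻¹ * v i := by
        intro v
        rw [hφ, smul_dotProduct, single_dotProduct, one_mul, smul_eq_mul]
      have hz : 1 + φ ⬝ᵥ (y - x) ≠ 0 := by
        rw [hφv, Pi.sub_apply]
        have : 1 + (x i)⁻¹ * (y i - x i) = (x i)⁻¹ * y i := by field_simp; ring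
        rw [this]; exact mul_ne_zero (inv_ne_zero hxi) hyi
      obtain ⟨p, hp⟩ := exists_gl_tv (y - x) φ hz
      have hpP : p ∈ Pk F n k :=
        tv_mem_of_ann (y - x) φ (fun v hv => by rw [hφv, hv i hi, mul_zero]) hz p hp
      have hpx : (p : Matrix (Fin n) (Fin n) F) *ᵥ x = y := by
        rw [hp, tv_mulVec, hφv, inv_mul_cancel₀ hxi, one_smul]; abel
      rw [← hpx]; exact hSH p (hPle hpP) x hxS
    have hSall : ∀ y, y ∈ S := by
      intro y
      by_cases hyW : y ∈ Wk F n k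
      · exact hSW y hyW
      · have hex : ∀ w : Fin n → F, w ∉ Wk F n k → ∃ i : Fin n, k ≤ (i : ℕ) ∧ w i ≠ 0 := by
          intro w hw
          by_contra hcon
          push_neg at hcon
          exact hw hcon
        obtain ⟨i, hi, hxi⟩ := hex x hxW
        obtain ⟨j, hj, hyj⟩ := hex y hyW
        by_cases hyi : y i = 0
        · have hij : j ≠ i := by rintro rfl; exact hyj hyi
          have hzS : y + Pi.single i 1 ∈ S := step x _ i hi hxi
            (by rw [Pi.add_apply, hyi, zero_add, Pi.single_eq_same]; exact one_ne_zero) hxS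
          exact step _ y j hj
            (by rw [Pi.add_apply, Pi.single_eq_of_ne hij, add_zero]; exact hyj) hyj hzS
        · exact step x y i hi hxi hyi hxS
    have hT : ∀ (i j : Fin n) (hij : i ≠ j) (c : F),
        Matrix.SpecialLinearGroup.toGL (Matrix.SpecialLinearGroup.transvection hij c) ∈ H := by
      intro i j hij c
      have := hSall (Pi.single i c)
      rw [hS] at this
      refine this (Pi.single j 1) ?_ _ ?_
      · rw [dotProduct_single, Pi.single_apply, if_neg hij, zero_mul]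
      · show Matrix.transvection i j c = _
        exact elem_eq i j c
    have hSL : ∀ A : Matrix.SpecialLinearGroup (Fin n) F,
        Matrix.SpecialLinearGroup.toGL A ∈ H := by
      haveI : Nontrivial (Fin n) := Fin.nontrivial_iff_two_le.2 (by omega)
      intro A
      refine Cfsg.Agent.Lib.Helper1.SLn.transvection_induction
        (fun A => Matrix.SpecialLinearGroup.toGL A ∈ H) hT ?_ A
      intro A B hA hB
      show Matrix.SpecialLinearGroup.toGL (A * B) ∈ H
      rw [map_mul]; exact H.mul_mem hA hB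
    rw [eq_top_iff]
    intro g _
    obtain ⟨δ, hδ⟩ : ∃ δ : F, δ = (g : Matrix (Fin n) (Fin n) F).det := ⟨_, rfl⟩
    have hδ0 : δ ≠ 0 := by
      rw [hδ]; exact ((Matrix.isUnit_iff_isUnit_det _).1 g.isUnit).ne_zero
    obtain ⟨D, hD⟩ : ∃ D : Fin n → F,
        D = Function.update (fun _ => (1 : F)) (⟨0, by omega⟩ : Fin n) δ := ⟨_, rfl⟩
    have hD0 : ∀ i, D i ≠ 0 := by
      intro i
      rw [hD]
      by_cases hi : i = ⟨0, by omega⟩
      · rw [hi, Function.update_self]; exact hδ0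
      · rw [Function.update_of_ne hi]; exact one_ne_zero
    have hDdet : (Matrix.diagonal D).det = δ := by
      rw [Matrix.det_diagonal, hD, Finset.prod_update_of_mem (Finset.mem_univ _)]
      simp
    obtain ⟨d, hd⟩ : ∃ d : GL (Fin n) F, (d : Matrix (Fin n) (Fin n) F) = Matrix.diagonal D :=
      ⟨Matrix.GeneralLinearGroup.mkOfDetNeZero (Matrix.diagonal D) (hDdet ▸ hδ0), rfl⟩
    have hdH : d ∈ H := hPle (diag_mem D hD0 d hd)
    have hdet1 : ((g * d⁻¹ : GL (Fin n) F) : Matrix (Fin n) (Fin n) F).det = 1 := by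
      have h1 : ((g * d⁻¹ : GL (Fin n) F) : Matrix (Fin n) (Fin n) F).det *
          (d : Matrix (Fin n) (Fin n) F).det = (g : Matrix (Fin n) (Fin n) F).det := by
        rw [← Matrix.det_mul, ← Units.val_mul, inv_mul_cancel_right]
      rw [hd, hDdet, ← hδ] at h1
      exact mul_right_cancel₀ hδ0 (by rw [h1, one_mul])
    have hs := hSL ⟨_, hdet1⟩
    have : g = Matrix.SpecialLinearGroup.toGL ⟨_, hdet1⟩ * d := by
      apply Units.ext
      rw [Units.val_mul]
      show (g : Matrix (Fin n) (Fin n) F)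
        = ((g * d⁻¹ : GL (Fin n) F) : Matrix (Fin n) (Fin n) F) * d
      rw [← Units.val_mul, inv_mul_cancel_right]
    rw [this]; exact H.mul_mem hs hdH

theorem result {F : Type*} [Field F] [Finite F] (n k : ℕ) (hk0 : 0 < k) (hkn : k < n) : IsCoatom (Cfsg.stabilizing (Cfsg.glToMat (Fin n) F) {v : Fin n → F | ∀ i : Fin n, k ≤ (i : ℕ) → v i = 0}) := by
  exact main n k hk0 hkn

end Cfsg.Agent.S0772
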