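import Cfsg.Statements.S0828
import Cfsg.Agent.Lib.Helper1.Symp

set_option autoImplicit false
open Cfsg


namespace Cfsg.Agent.S0828

open Matrix Cfsg.Agent.Lib.Helper1.Symp

section gen
variable {F V : Type*} [Field F] [Fintype F] [AddCommGroup V] [Module F V] [Finite V]

theorem range_pair (u v : V) : Set.range ![u, v] = {u, v} := by
  ext x
  simp only [Set.mem_range, Set.mem_insert_iff, Set.mem_singleton_iff]
  constructor
  · rintro ⟨i, rfl⟩
    fin_cases i
    · left; rfl
    · right; rfl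
  · rintro (rfl | rfl)
    · exact ⟨0, rfl⟩
    · exact ⟨1, rfl⟩

theorem finrank_span_pair (u v : V) (hli : LinearIndependent F ![u, v]) :
    Module.finrank F (Submodule.span F ({u, v} : Set V)) = 2 := by
  rw [← range_pair, finrank_span_eq_card hli]
  simp

theorem span_pair_eq (W : Submodule F V) (hW : Module.finrank F W = 2) (u v : V) (hu : u ∈ W)
    (hv : v ∈ W) (hli : LinearIndependent F ![u, v]) :
    Submodule.span F ({u, v} : Set V) = W := by
  have h1 : Submodule.span F ({u, v} : Set V) ≤ W := by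
    rw [Submodule.span_le]
    intro x hx
    rcases hx with rfl | rfl
    · exact hu
    · exact hv
  exact Submodule.eq_of_le_of_finrank_eq h1 (by rw [finrank_span_pair u v hli, hW])

theorem card_diff (P S : V → Prop) (h : ∀ v, S v → P v) :
    Nat.card {v // P v ∧ ¬ S v} + Nat.card {v // S v} = Nat.card {v // P v} := by
  have h1 := Set.ncard_diff_add_ncard_of_subset (s := {v | S v}) (t := {v | P v})
    (fun v hv => h v hv)
  rw [← Nat.card_coe_set_eq, ← Nat.card_coe_set_eq, ← Nat.card_coe_set_eq] at h1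
  exact h1

theorem card_ne_zero : Nat.card {u : V // u ≠ 0} = Nat.card V - 1 := by
  have h1 := card_diff (V := V) (fun _ => True) (fun u => u = 0) (fun _ _ => trivial)
  have h2 : Nat.card {v : V // v = 0} = 1 := by
    haveI : Unique {v : V // v = 0} := ⟨⟨⟨0, rfl⟩⟩, fun v => Subtype.ext v.2⟩
    exact Nat.card_unique
  have h3 : Nat.card {v : V // True} = Nat.card V :=
    Nat.card_congr (Equiv.subtypeUnivEquiv (fun _ => trivial))
  have h4 : Nat.card {v : V // True ∧ ¬ v = 0} = Nat.card {u : V // u ≠ 0} :=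
    Nat.card_congr (Equiv.subtypeEquivRight (fun v => by simp))
  omega

theorem card_li (v : V) (hv : v ≠ 0) (P : V → Prop) (hP : ∀ a : F, P (a • v)) :
    Nat.card {w // LinearIndependent F ![v, w] ∧ P w} + Fintype.card F = Nat.card {w // P w} := by
  have h1 := card_diff P (fun w => w ∈ Submodule.span F ({v} : Set V)) (by
    intro w hw
    obtain ⟨a, rfl⟩ := Submodule.mem_span_singleton.1 hw
    exact hP a)
  have h2 : Nat.card {w // w ∈ Submodule.span F ({v} : Set V)} = Fintype.card F := by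
    have := Module.natCard_eq_pow_finrank (K := F) (V := Submodule.span F ({v} : Set V))
    rw [finrank_span_singleton hv, pow_one, Nat.card_eq_fintype_card (α := F)] at this
    exact this
  rw [h2] at h1
  rw [← h1]
  congr 1
  refine Nat.card_congr (Equiv.subtypeEquivRight (fun w => ?_))
  rw [LinearIndependent.pair_iff' hv, Submodule.mem_span_singleton, and_comm]
  simp

theorem fib1 (A : V → Prop) (P : V → V → Prop) (c : ℕ)
    (h : ∀ u, A u → Nat.card {w // LinearIndependent F ![u, w] ∧ P u w} = c) :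
    Nat.card {p : V × V // A p.1 ∧ LinearIndependent F ![p.1, p.2] ∧ P p.1 p.2}
      = Nat.card {u // A u} * c := by
  classical
  letI : Fintype {u : V // A u} := Fintype.ofFinite _
  let φ : {p : V × V // A p.1 ∧ LinearIndependent F ![p.1, p.2] ∧ P p.1 p.2} → {u : V // A u} :=
    fun p => ⟨p.1.1, p.2.1⟩
  rw [Nat.card_congr (Equiv.sigmaFiberEquiv φ).symm, Nat.card_sigma]
  have hfib : ∀ u : {u : V // A u}, Nat.card {p // φ p = u} = c := by
    intro u
    rw [← h u.1 u.2]
    refine Nat.card_congr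
      { toFun := fun p => ⟨p.1.1.2, by
            have h1 := p.1.2.2
            have h2 : p.1.1.1 = u.1 := congrArg Subtype.val p.2
            rw [h2] at h1
            exact h1⟩
        invFun := fun w => ⟨⟨(u.1, w.1), u.2, w.2⟩, rfl⟩
        left_inv := fun p => by
          have h2 : p.1.1.1 = u.1 := congrArg Subtype.val p.2
          apply Subtype.ext; apply Subtype.ext
          exact Prod.ext h2.symm rfl
        right_inv := fun w => rfl }
  rw [Finset.sum_congr rfl (fun u _ => hfib u), Finset.sum_const, Finset.card_univ, smul_eq_mul,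
    Nat.card_eq_fintype_card]

theorem fib (TI : Submodule F V → Prop) :
    Nat.card {p : V × V // LinearIndependent F ![p.1, p.2] ∧
        TI (Submodule.span F ({p.1, p.2} : Set V))} =
      Nat.card {W : Submodule F V // Module.finrank F W = 2 ∧ TI W} *
        ((Fintype.card F ^ 2 - 1) * (Fintype.card F ^ 2 - Fintype.card F)) := by
  classical
  haveI : Finite (Submodule F V) :=
    Finite.of_injective (fun W : Submodule F V => (W : Set V)) SetLike.coe_injective
  letI : Fintype {W : Submodule F V // Module.finrank F W = 2 ∧ TI W} := Fintype.ofFinite _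
  let φ : {p : V × V // LinearIndependent F ![p.1, p.2] ∧
        TI (Submodule.span F ({p.1, p.2} : Set V))} →
      {W : Submodule F V // Module.finrank F W = 2 ∧ TI W} :=
    fun p => ⟨Submodule.span F ({p.1.1, p.1.2} : Set V), finrank_span_pair _ _ p.2.1, p.2.2⟩
  rw [Nat.card_congr (Equiv.sigmaFiberEquiv φ).symm, Nat.card_sigma]
  have hfib : ∀ W : {W : Submodule F V // Module.finrank F W = 2 ∧ TI W},
      Nat.card {p // φ p = W}
        = (Fintype.card F ^ 2 - 1) * (Fintype.card F ^ 2 - Fintype.card F) := by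
    intro W
    have hc := card_linearIndependent (K := F) (V := W.1) (k := 2) (by rw [W.2.1])
    rw [W.2.1, Fin.prod_univ_two] at hc
    simp only [Fin.val_zero, Fin.val_one, pow_zero, pow_one] at hc
    rw [← hc]
    symm
    have hli : ∀ b : {s : Fin 2 → W.1 // LinearIndependent F s},
        LinearIndependent F ![((b.1 0 : W.1) : V), ((b.1 1 : W.1) : V)] := by
      intro b
      have h1 := b.2.map' W.1.subtype (Submodule.ker_subtype _)
      have h2 : (W.1.subtype ∘ b.1) = ![((b.1 0 : W.1) : V), ((b.1 1 : W.1) : V)] := by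
        funext i
        fin_cases i <;> rfl
      rwa [h2] at h1
    have hsp : ∀ b : {s : Fin 2 → W.1 // LinearIndependent F s},
        Submodule.span F ({((b.1 0 : W.1) : V), ((b.1 1 : W.1) : V)} : Set V) = W.1 := fun b =>
      span_pair_eq W.1 W.2.1 _ _ (b.1 0).2 (b.1 1).2 (hli b)
    refine Nat.card_congr (Equiv.ofBijective
      (fun b => ⟨⟨(((b.1 0 : W.1) : V), ((b.1 1 : W.1) : V)), hli b, by
        rw [hsp b]; exact W.2.2⟩, Subtype.ext (hsp b)⟩) ⟨?_, ?_⟩)
    · intro b b' hbb
      have h1 : (((b.1 0 : W.1) : V), ((b.1 1 : W.1) : V))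
          = (((b'.1 0 : W.1) : V), ((b'.1 1 : W.1) : V)) := congrArg (fun p => p.1.1) hbb
      apply Subtype.ext
      funext i
      fin_cases i
      · exact Subtype.ext (congrArg Prod.fst h1)
      · exact Subtype.ext (congrArg Prod.snd h1)
    · intro p
      have h1 : Submodule.span F ({p.1.1.1, p.1.1.2} : Set V) = W.1 := congrArg Subtype.val p.2
      have hm1 : p.1.1.1 ∈ W.1 := by rw [← h1]; exact Submodule.subset_span (by simp)
      have hm2 : p.1.1.2 ∈ W.1 := by rw [← h1]; exact Submodule.subset_span (by simp)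
      refine ⟨⟨![⟨p.1.1.1, hm1⟩, ⟨p.1.1.2, hm2⟩], ?_⟩, ?_⟩
      · apply LinearIndependent.of_comp W.1.subtype
        have h2 : (W.1.subtype ∘ ![(⟨p.1.1.1, hm1⟩ : W.1), ⟨p.1.1.2, hm2⟩])
            = ![p.1.1.1, p.1.1.2] := by
          funext i
          fin_cases i <;> rfl
        rw [h2]
        exact p.1.2.1
      · apply Subtype.ext
        apply Subtype.ext
        rfl
  rw [Finset.sum_congr rfl (fun W _ => hfib W), Finset.sum_const, Finset.card_univ, smul_eq_mul,
    Nat.card_eq_fintype_card]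

theorem fib2 (TI : Submodule F V → Prop) (v : V) (hv : v ≠ 0) :
    Nat.card {w : V // LinearIndependent F ![v, w] ∧ TI (Submodule.span F ({v, w} : Set V))} =
      Nat.card {W : Submodule F V // Module.finrank F W = 2 ∧ v ∈ W ∧ TI W} *
        (Fintype.card F ^ 2 - Fintype.card F) := by
  classical
  haveI : Finite (Submodule F V) :=
    Finite.of_injective (fun W : Submodule F V => (W : Set V)) SetLike.coe_injective
  letI : Fintype {W : Submodule F V // Module.finrank F W = 2 ∧ v ∈ W ∧ TI W} :=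
    Fintype.ofFinite _
  let φ : {w : V // LinearIndependent F ![v, w] ∧ TI (Submodule.span F ({v, w} : Set V))} →
      {W : Submodule F V // Module.finrank F W = 2 ∧ v ∈ W ∧ TI W} :=
    fun w => ⟨Submodule.span F ({v, w.1} : Set V), finrank_span_pair _ _ w.2.1,
      Submodule.subset_span (by simp), w.2.2⟩
  rw [Nat.card_congr (Equiv.sigmaFiberEquiv φ).symm, Nat.card_sigma]
  have hfib : ∀ W : {W : Submodule F V // Module.finrank F W = 2 ∧ v ∈ W ∧ TI W},
      Nat.card {w // φ w = W} = Fintype.card F ^ 2 - Fintype.card F := by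
    intro W
    have h1 := card_li v hv (fun w => w ∈ W.1) (fun a => W.1.smul_mem a W.2.2.1)
    have h2 : Nat.card {w // w ∈ W.1} = Fintype.card F ^ 2 := by
      have := Module.natCard_eq_pow_finrank (K := F) (V := W.1)
      rw [W.2.1, Nat.card_eq_fintype_card (α := F)] at this
      exact this
    rw [h2] at h1
    have h3 : Nat.card {w // φ w = W}
        = Nat.card {w // LinearIndependent F ![v, w] ∧ w ∈ W.1} := by
      refine Nat.card_congr
        { toFun := fun w => ⟨w.1.1, w.1.2.1, by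
              have h : Submodule.span F ({v, w.1.1} : Set V) = W.1 := congrArg Subtype.val w.2
              rw [← h]
              exact Submodule.subset_span (by simp)⟩
          invFun := fun w => ⟨⟨w.1, w.2.1, by
              rw [span_pair_eq W.1 W.2.1 v w.1 W.2.2.1 w.2.2 w.2.1]
              exact W.2.2.2⟩,
              Subtype.ext (span_pair_eq W.1 W.2.1 v w.1 W.2.2.1 w.2.2 w.2.1)⟩
          left_inv := fun w => rfl
          right_inv := fun w => rfl }
    rw [h3]
    omega
  rw [Finset.sum_congr rfl (fun W _ => hfib W), Finset.sum_const, Finset.card_univ, smul_eq_mul,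
    Nat.card_eq_fintype_card]

end gen

section symp
variable {F : Type*} [Field F] [Fintype F]

theorem sf_eq (u v : Fin 2 ⊕ Fin 2 → F) : Cfsg.sympForm 2 F u v = om u v := (om_eq u v).symm

theorem ti_iff (u v : Fin 2 ⊕ Fin 2 → F) :
    (∀ x ∈ Submodule.span F ({u, v} : Set (Fin 2 ⊕ Fin 2 → F)),
      ∀ y ∈ Submodule.span F ({u, v} : Set (Fin 2 ⊕ Fin 2 → F)), Cfsg.sympForm 2 F x y = 0)
      ↔ om u v = 0 := by
  constructor
  · intro h
    rw [← sf_eq]
    exact h u (Submodule.subset_span (by simp)) v (Submodule.subset_span (by simp))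
  · intro h x hx y hy
    obtain ⟨a, b, rfl⟩ := Submodule.mem_span_pair.1 hx
    obtain ⟨c, d, rfl⟩ := Submodule.mem_span_pair.1 hy
    simp only [sf_eq, om_add_left, om_add_right, om_smul_left, om_smul_right, om_self,
      om_swap v u, h]
    ring

def omR (v : Fin 2 ⊕ Fin 2 → F) : (Fin 2 ⊕ Fin 2 → F) →ₗ[F] F where
  toFun := fun w => om v w
  map_add' := fun a b => om_add_right v a b
  map_smul' := fun c a => by rw [om_smul_right]; rfl

theorem card_perp (v : Fin 2 ⊕ Fin 2 → F) (hv : v ≠ 0) :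
    Nat.card {w : Fin 2 ⊕ Fin 2 → F // om v w = 0} = Fintype.card F ^ 3 := by
  obtain ⟨e, he⟩ := exists_nondeg v hv
  have hsurj : Function.Surjective (omR v) := by
    intro c
    refine ⟨(c / om v e) • e, ?_⟩
    show om v ((c / om v e) • e) = c
    rw [om_smul_right]
    field_simp
  have h1 := LinearMap.finrank_range_add_finrank_ker (omR v)
  rw [LinearMap.range_eq_top.2 hsurj, finrank_top, Module.finrank_self,
    Module.finrank_fintype_fun_eq_card] at h1
  have h2 : Module.finrank F (LinearMap.ker (omR v)) = 3 := by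
    simp at h1
    omega
  have h3 := Module.natCard_eq_pow_finrank (K := F) (V := LinearMap.ker (omR v))
  rw [h2, Nat.card_eq_fintype_card (α := F)] at h3
  exact h3

end symp

theorem main {F : Type*} [Field F] [Fintype F] {q : ℕ} (hF : Fintype.card F = q) : Nat.card {W : Submodule F (Fin 2 ⊕ Fin 2 → F) // Module.finrank F W = 2 ∧ ∀ u ∈ W, ∀ v ∈ W, Cfsg.sympForm 2 F u v = 0} = (q + 1) * (q ^ 2 + 1) ∧ ∀ v : Fin 2 ⊕ Fin 2 → F, v ≠ 0 → Nat.card {W : Submodule F (Fin 2 ⊕ Fin 2 → F) // Module.finrank F W = 2 ∧ v ∈ W ∧ ∀ u ∈ W, ∀ w ∈ W, Cfsg.sympForm 2 F u w = 0} = q + 1 := by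
  have hq : 2 ≤ q := by rw [← hF]; exact Fintype.one_lt_card
  have hcnt : ∀ v : Fin 2 ⊕ Fin 2 → F, v ≠ 0 →
      Nat.card {w // LinearIndependent F ![v, w] ∧ om v w = 0} = q ^ 3 - q := by
    intro v hv
    have h1 := card_li v hv (fun w => om v w = 0)
      (fun a => by rw [om_smul_right, om_self, mul_zero])
    rw [card_perp v hv, hF] at h1
    omega
  obtain ⟨b, hb⟩ : ∃ b, q ^ 2 = b + q :=
    ⟨q ^ 2 - q, by have : q ≤ q ^ 2 := Nat.le_self_pow (by norm_num) q; omega⟩
  obtain ⟨a, ha⟩ : ∃ a, q ^ 2 = a + 1 :=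
    ⟨q ^ 2 - 1, by have : 1 ≤ q ^ 2 := Nat.one_le_pow _ _ (by omega); omega⟩
  have hid : q ^ 3 - q = (q + 1) * (q ^ 2 - q) := by
    rw [hb, Nat.add_sub_cancel]
    apply Nat.sub_eq_of_eq_add
    have : q ^ 3 = q * q ^ 2 := by ring
    rw [this, hb]
    have h2 : q * q = b + q := by rw [← hb, sq]
    nlinarith
  have hid2 : q ^ 4 - 1 = (q ^ 2 + 1) * (q ^ 2 - 1) := by
    rw [ha, Nat.add_sub_cancel]
    apply Nat.sub_eq_of_eq_add
    have : q ^ 4 = q ^ 2 * q ^ 2 := by ring
    rw [this, ha]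
    ring
  have hpos : 0 < q ^ 2 - q := by
    have h1 : q * 2 ≤ q * q := Nat.mul_le_mul_left q hq
    have h2 : q ^ 2 = q * q := sq q
    omega
  have hpos1 : 0 < q ^ 2 - 1 := by
    have h1 : q * 2 ≤ q * q := Nat.mul_le_mul_left q hq
    have h2 : q ^ 2 = q * q := sq q
    omega
  have hV : Nat.card (Fin 2 ⊕ Fin 2 → F) = q ^ 4 := by
    rw [Nat.card_eq_fintype_card, Fintype.card_fun, hF]
    simp
  constructor
  · have h1 := fib (F := F) (V := Fin 2 ⊕ Fin 2 → F)
      (fun W => ∀ u ∈ W, ∀ v ∈ W, Cfsg.sympForm 2 F u v = 0)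
    have h2 := fib1 (F := F) (V := Fin 2 ⊕ Fin 2 → F) (fun u => u ≠ 0) (fun u w => om u w = 0)
      (q ^ 3 - q) hcnt
    have h3 : Nat.card {p : (Fin 2 ⊕ Fin 2 → F) × (Fin 2 ⊕ Fin 2 → F) //
          LinearIndependent F ![p.1, p.2] ∧
          ∀ u ∈ Submodule.span F ({p.1, p.2} : Set (Fin 2 ⊕ Fin 2 → F)),
          ∀ v ∈ Submodule.span F ({p.1, p.2} : Set (Fin 2 ⊕ Fin 2 → F)),
            Cfsg.sympForm 2 F u v = 0}
        = Nat.card {p : (Fin 2 ⊕ Fin 2 → F) × (Fin 2 ⊕ Fin 2 → F) //
          p.1 ≠ 0 ∧ LinearIndependent F ![p.1, p.2] ∧ om p.1 p.2 = 0} := by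
      refine Nat.card_congr (Equiv.subtypeEquivRight (fun p => ?_))
      rw [ti_iff]
      constructor
      · rintro ⟨h, h'⟩
        exact ⟨h.ne_zero 0, h, h'⟩
      · rintro ⟨_, h, h'⟩
        exact ⟨h, h'⟩
    rw [h3, h2, card_ne_zero, hV, hF, hid, hid2] at h1
    refine Nat.eq_of_mul_eq_mul_right (Nat.mul_pos hpos1 hpos) ?_
    rw [← h1]
    ring
  · intro v hv
    have h1 := fib2 (F := F) (V := Fin 2 ⊕ Fin 2 → F)
      (fun W => ∀ u ∈ W, ∀ w ∈ W, Cfsg.sympForm 2 F u w = 0) v hv
    have h3 : Nat.card {w : Fin 2 ⊕ Fin 2 → F // LinearIndependent F ![v, w] ∧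
          ∀ u ∈ Submodule.span F ({v, w} : Set (Fin 2 ⊕ Fin 2 → F)),
          ∀ w' ∈ Submodule.span F ({v, w} : Set (Fin 2 ⊕ Fin 2 → F)),
            Cfsg.sympForm 2 F u w' = 0}
        = Nat.card {w // LinearIndependent F ![v, w] ∧ om v w = 0} := by
      refine Nat.card_congr (Equiv.subtypeEquivRight (fun w => ?_))
      rw [ti_iff]
    rw [h3, hcnt v hv, hid, hF] at h1
    exact (Nat.eq_of_mul_eq_mul_right hpos h1).symm

theorem result {F : Type*} [Field F] [Fintype F] {q : ℕ} (hF : Fintype.card F = q) : Nat.card {W : Submodule F (Fin 2 ⊕ Fin 2 → F) // Module.finrank F W = 2 ∧ ∀ u ∈ W, ∀ v ∈ W, Cfsg.sympForm 2 F u v = 0} = (q + 1) * (q ^ 2 + 1) ∧ ∀ v : Fin 2 ⊕ Fin 2 → F, v ≠ 0 → Nat.card {W : Submodule F (Fin 2 ⊕ Fin 2 → F) // Module.finrank F W = 2 ∧ v ∈ W ∧ ∀ u ∈ W, ∀ w ∈ W, Cfsg.sympForm 2 F u w = 0} = q + 1 := by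
  exact main hF

end Cfsg.Agent.S0828
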