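import Cfsg.Statements.S0774
import Cfsg.Agent.S0828

set_option autoImplicit false
open Cfsg


namespace Cfsg.Agent.S0774

open Matrix

section
variable {F : Type*} [Field F] {m : ℕ}

def Wk (F : Type*) [Field F] (m : ℕ) (k : Fin m) : Set (Fin m ⊕ Fin m → F) :=
  {v | (∀ i : Fin m, (k : ℕ) < (i : ℕ) → v (Sum.inl i) = 0) ∧ ∀ i : Fin m, v (Sum.inr i) = 0}

/-- the parameter type -/
def Dt (F : Type*) [Field F] (m : ℕ) : Type _ :=
  {p : Matrix (Fin m) (Fin m) F × Matrix (Fin m) (Fin m) F //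
    (∀ i j, j < i → p.1 i j = 0) ∧ (∀ i, p.1 i i ≠ 0) ∧ p.2ᵀ = p.2}

theorem det_ne (A : Matrix (Fin m) (Fin m) F) (h1 : ∀ i j, j < i → A i j = 0)
    (h2 : ∀ i, A i i ≠ 0) : A.det ≠ 0 := by
  rw [Matrix.det_of_isUpperTriangular (fun i j h => h1 i j h)]
  exact Finset.prod_ne_zero_iff.2 (fun i _ => h2 i)

noncomputable def gmat (A S : Matrix (Fin m) (Fin m) F) : Matrix (Fin m ⊕ Fin m) (Fin m ⊕ Fin m) F :=
  Matrix.fromBlocks A (A * S) 0 (A⁻¹)ᵀ

theorem gmat_symp (A S : Matrix (Fin m) (Fin m) F) (hA : A.det ≠ 0) (hS : Sᵀ = S) :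
    gmat A S ∈ symplecticGroup (Fin m) F := by
  have h1 : A⁻¹ * A = 1 := Matrix.nonsing_inv_mul A (isUnit_iff_ne_zero.2 hA)
  have h2 : Aᵀ * (A⁻¹)ᵀ = 1 := by rw [← Matrix.transpose_mul, h1, Matrix.transpose_one]
  rw [SymplecticGroup.mem_iff', gmat, Matrix.J, Matrix.fromBlocks_transpose,
    Matrix.fromBlocks_multiply, Matrix.fromBlocks_multiply, Matrix.fromBlocks_inj]
  refine ⟨by simp, ?_, ?_, ?_⟩
  · simp [h2]
  · simp [h1]
  · simp only [Matrix.transpose_mul, Matrix.transpose_transpose, Matrix.mul_zero, Matrix.mul_one,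
      Matrix.mul_neg, zero_add, add_zero, Matrix.neg_mul]
    rw [← Matrix.mul_assoc, h1, Matrix.one_mul, Matrix.mul_assoc, h2, Matrix.mul_one, hS]
    simp

theorem gmat_maps (A S : Matrix (Fin m) (Fin m) F) (hUT : ∀ i j, j < i → A i j = 0) (k : Fin m)
    (v : Fin m ⊕ Fin m → F) (hv : v ∈ Wk F m k) : gmat A S *ᵥ v ∈ Wk F m k := by
  obtain ⟨hv1, hv2⟩ := hv
  have hvr : v ∘ Sum.inr = 0 := funext hv2
  constructor
  · intro i hi
    rw [gmat, Matrix.fromBlocks_mulVec, hvr, Matrix.mulVec_zero, add_zero]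
    show (A *ᵥ (v ∘ Sum.inl)) i = 0
    unfold Matrix.mulVec dotProduct
    apply Finset.sum_eq_zero
    intro j _
    by_cases hj : (k : ℕ) < (j : ℕ)
    · show A i j * v (Sum.inl j) = 0
      rw [hv1 j hj, mul_zero]
    · have hji : j < i := by
        rw [Fin.lt_def]
        omega
      show A i j * v (Sum.inl j) = 0
      rw [hUT i j hji, zero_mul]
  · intro i
    rw [gmat, Matrix.fromBlocks_mulVec, hvr, Matrix.mulVec_zero, Matrix.mulVec_zero, add_zero,
      Matrix.zero_mulVec]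
    simp

theorem stab_of_maps [Fintype F] (g : symplecticGroup (Fin m) F) (S : Set (Fin m ⊕ Fin m → F))
    (h : ∀ v ∈ S, g.1 *ᵥ v ∈ S) : g ∈ Cfsg.stabilizing (Cfsg.spToMat m F) S := by
  have hgi : ∀ a b : Fin m ⊕ Fin m → F, g.1 *ᵥ a = g.1 *ᵥ b → a = b := by
    intro a b h1
    have h2 : (g⁻¹).1 * g.1 = 1 := congrArg Subtype.val (inv_mul_cancel g)
    have h3 := congrArg (fun w => (g⁻¹).1 *ᵥ w) h1
    simp only [Matrix.mulVec_mulVec, h2, Matrix.one_mulVec] at h3
    exact h3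
  show ∀ v, v ∈ S ↔ g.1 *ᵥ v ∈ S
  intro v
  constructor
  · exact h v
  · intro hgv
    have hinj : Function.Injective (fun v : S => (⟨g.1 *ᵥ v.1, h v.1 v.2⟩ : S)) := by
      intro a b hab
      exact Subtype.ext (hgi _ _ (congrArg Subtype.val hab))
    obtain ⟨w, hw⟩ := (Finite.injective_iff_surjective.1 hinj) ⟨g.1 *ᵥ v, hgv⟩
    have h1 : g.1 *ᵥ w.1 = g.1 *ᵥ v := congrArg Subtype.val hw
    rw [← hgi _ _ h1]
    exact w.2

noncomputable def Phi [Fintype F] (p : Dt F m) :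
    ↥(⨅ k : Fin m, Cfsg.stabilizing (Cfsg.spToMat m F) (Wk F m k)) :=
  ⟨⟨gmat p.1.1 p.1.2, gmat_symp _ _ (det_ne _ p.2.1 p.2.2.1) p.2.2.2⟩, by
    rw [Subgroup.mem_iInf]
    intro k
    exact stab_of_maps _ _ (fun v hv => gmat_maps _ _ p.2.1 k v hv)⟩

theorem Phi_inj [Fintype F] : Function.Injective (Phi (F := F) (m := m)) := by
  intro p p' h
  have h1 : gmat p.1.1 p.1.2 = gmat p'.1.1 p'.1.2 := congrArg (fun x => x.1.1) h
  rw [gmat, gmat, Matrix.fromBlocks_inj] at h1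
  obtain ⟨hA, hAS, -, -⟩ := h1
  have h2 : p.1.1⁻¹ * p.1.1 = 1 :=
    Matrix.nonsing_inv_mul _ (isUnit_iff_ne_zero.2 (det_ne _ p.2.1 p.2.2.1))
  have hS : p.1.2 = p'.1.2 := by
    rw [← hA] at hAS
    have h3 := congrArg (fun X => p.1.1⁻¹ * X) hAS
    simp only [← Matrix.mul_assoc, h2, Matrix.one_mul] at h3
    exact h3
  exact Subtype.ext (Prod.ext hA hS)

theorem surj_aux [Fintype F] (g : symplecticGroup (Fin m) F)
    (hg : ∀ k : Fin m, g ∈ Cfsg.stabilizing (Cfsg.spToMat m F) (Wk F m k)) :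
    ∃ A S : Matrix (Fin m) (Fin m) F, (∀ i j, j < i → A i j = 0) ∧ (∀ i, A i i ≠ 0) ∧ Sᵀ = S ∧
      gmat A S = g.1 := by
  obtain ⟨A, hA⟩ : ∃ A, A = g.1.toBlocks₁₁ := ⟨_, rfl⟩
  obtain ⟨B, hB⟩ : ∃ B, B = g.1.toBlocks₁₂ := ⟨_, rfl⟩
  obtain ⟨D, hD⟩ : ∃ D, D = g.1.toBlocks₂₂ := ⟨_, rfl⟩
  have hcol : ∀ j : Fin m, g.1 *ᵥ Pi.single (Sum.inl j) 1 ∈ Wk F m j := by
    intro j
    refine ((hg j) _).1 ⟨?_, ?_⟩
    · intro i hi
      rw [Pi.single_apply, if_neg]
      intro h
      have := Sum.inl.inj h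
      subst this
      omega
    · intro i
      simp
  have hC : g.1.toBlocks₂₁ = 0 := by
    ext i j
    have := (hcol j).2 i
    rw [Matrix.mulVec_single_one] at this
    exact this
  have hUT : ∀ i j, j < i → A i j = 0 := by
    intro i j hji
    have := (hcol j).1 i hji
    rw [Matrix.mulVec_single_one] at this
    rw [hA]
    exact this
  have hgb : g.1 = Matrix.fromBlocks A B 0 D := by
    rw [hA, hB, hD, ← hC, Matrix.fromBlocks_toBlocks]
  have hsp := (SymplecticGroup.mem_iff'.1 g.2)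
  rw [hgb, Matrix.J, Matrix.fromBlocks_transpose, Matrix.fromBlocks_multiply,
    Matrix.fromBlocks_multiply, Matrix.fromBlocks_inj] at hsp
  obtain ⟨-, h12, h21, h22⟩ := hsp
  have hAD : Aᵀ * D = 1 := by
    simp only [Matrix.transpose_zero, Matrix.mul_zero, Matrix.mul_one, Matrix.mul_neg, zero_add,
      add_zero, Matrix.neg_mul, Matrix.zero_mul, neg_inj] at h12
    exact h12
  have hDA : Dᵀ * A = 1 := by
    simp only [Matrix.transpose_zero, Matrix.mul_zero, Matrix.mul_one, Matrix.mul_neg, zero_add,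
      add_zero, Matrix.neg_mul, Matrix.zero_mul] at h21
    exact h21
  have hsym : Dᵀ * B = Bᵀ * D := by
    simp only [Matrix.transpose_zero, Matrix.mul_zero, Matrix.mul_one, Matrix.mul_neg, zero_add,
      add_zero, Matrix.neg_mul, Matrix.zero_mul] at h22
    have h3 : Dᵀ * B - Bᵀ * D = 0 := by
      rw [← h22]
      abel
    exact sub_eq_zero.1 h3
  have hAinv : A⁻¹ = Dᵀ := Matrix.inv_eq_left_inv hDA
  have hADt : A * Dᵀ = 1 := mul_eq_one_comm.1 hDA
  refine ⟨A, Dᵀ * B, hUT, ?_, ?_, ?_⟩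
  · have hdet : A.det ≠ 0 := by
      intro h0
      have := congrArg Matrix.det hDA
      rw [Matrix.det_mul, h0, mul_zero, Matrix.det_one] at this
      exact zero_ne_one this
    rw [Matrix.det_of_isUpperTriangular (fun i j h => hUT i j h)] at hdet
    intro i
    exact Finset.prod_ne_zero_iff.1 hdet i (Finset.mem_univ i)
  · rw [Matrix.transpose_mul, Matrix.transpose_transpose, hsym]
  · rw [hgb, gmat, hAinv, Matrix.transpose_transpose, ← Matrix.mul_assoc, hADt, Matrix.one_mul]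

theorem Phi_surj [Fintype F] : Function.Surjective (Phi (F := F) (m := m)) := by
  intro g
  obtain ⟨A, S, h1, h2, h3, h4⟩ := surj_aux g.1 (fun k => (Subgroup.mem_iInf.1 g.2) k)
  exact ⟨⟨(A, S), h1, h2, h3⟩, Subtype.ext (Subtype.ext h4)⟩

def paramEquiv : Dt F m ≃ (Fin m → {x : F // x ≠ 0}) × (Fin m × Fin m → F) where
  toFun p := (fun i => ⟨p.1.1 i i, p.2.2.1 i⟩,
    fun ij => if ij.1 < ij.2 then p.1.1 ij.1 ij.2 else p.1.2 ij.1 ij.2)
  invFun d := ⟨(Matrix.of fun i j => if i = j then (d.1 i : F) else if i < j then d.2 (i, j) else 0,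
      Matrix.of fun i j => if i ≤ j then d.2 (j, i) else d.2 (i, j)), by
    refine ⟨?_, ?_, ?_⟩
    · intro i j hji
      simp [Matrix.of_apply, hji.ne', hji.not_gt]
    · intro i
      simp only [Matrix.of_apply, if_true]
      exact (d.1 i).2
    · ext i j
      simp only [Matrix.transpose_apply, Matrix.of_apply]
      rcases lt_trichotomy i j with h | h | h
      · simp [h.le, h.not_ge]
      · subst h
        simp
      · simp [h.le, h.not_ge]⟩
  left_inv p := by
    apply Subtype.ext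
    apply Prod.ext
    · ext i j
      simp only [Matrix.of_apply]
      rcases lt_trichotomy i j with h | h | h
      · simp [h.ne, h]
      · subst h
        simp
      · simp [h.ne', h.not_gt, p.2.1 i j h]
    · ext i j
      simp only [Matrix.of_apply]
      have hs : ∀ a b, p.1.2 a b = p.1.2 b a := fun a b => by
        have := congrFun (congrFun p.2.2.2 b) a
        rw [Matrix.transpose_apply] at this
        exact this
      rcases lt_trichotomy i j with h | h | h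
      · simp [h.le, h.not_gt, hs j i]
      · subst h
        simp
      · simp [h.not_ge, h.not_gt]
  right_inv d := by
    apply Prod.ext
    · funext i
      apply Subtype.ext
      simp
    · funext ij
      obtain ⟨i, j⟩ := ij
      simp only [Matrix.of_apply]
      rcases lt_trichotomy i j with h | h | h
      · simp [h, h.ne]
      · subst h
        simp
      · simp [h.not_gt, h.not_ge]

end

theorem main {F : Type*} [Field F] [Fintype F] {q : ℕ} (hF : Fintype.card F = q) (m : ℕ) : Nat.card ↥(⨅ k : Fin m, Cfsg.stabilizing (Cfsg.spToMat m F) {v : Fin m ⊕ Fin m → F | (∀ i : Fin m, (k : ℕ) < (i : ℕ) → v (Sum.inl i) = 0) ∧ ∀ i : Fin m, v (Sum.inr i) = 0}) = q ^ (m ^ 2) * (q - 1) ^ m := by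
  have h1 : Nat.card ↥(⨅ k : Fin m, Cfsg.stabilizing (Cfsg.spToMat m F) (Wk F m k))
      = Nat.card (Dt F m) :=
    (Nat.card_congr (Equiv.ofBijective Phi ⟨Phi_inj, Phi_surj⟩)).symm
  have h2 : Nat.card {x : F // x ≠ 0} = q - 1 := by
    rw [Cfsg.Agent.S0828.card_ne_zero (V := F), Nat.card_eq_fintype_card, hF]
  have h3 : Nat.card (Dt F m) = (q - 1) ^ m * q ^ (m * m) := by
    rw [Nat.card_congr paramEquiv, Nat.card_prod, Nat.card_fun, Nat.card_fun, h2,
      Nat.card_eq_fintype_card (α := F), hF]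
    simp
  refine h1.trans ?_
  rw [h3, sq, mul_comm]

theorem result {F : Type*} [Field F] [Fintype F] {q : ℕ} (hF : Fintype.card F = q) (m : ℕ) : Nat.card ↥(⨅ k : Fin m, Cfsg.stabilizing (Cfsg.spToMat m F) {v : Fin m ⊕ Fin m → F | (∀ i : Fin m, (k : ℕ) < (i : ℕ) → v (Sum.inl i) = 0) ∧ ∀ i : Fin m, v (Sum.inr i) = 0}) = q ^ (m ^ 2) * (q - 1) ^ m := by
  exact main hF m

end Cfsg.Agent.S0774
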