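import Cfsg.Statements.S0776
import Cfsg.Agent.Lib.Helper1.Symp

set_option autoImplicit false
open Cfsg


namespace Cfsg.Agent.S0776

open Matrix Cfsg.Agent.Lib.Helper1.Symp

section frame
variable {F : Type*} [Field F] {l : Type} [Fintype l] [DecidableEq l]

/-- the functional `om · w` -/
def omL (w : l ⊕ l → F) : (l ⊕ l → F) →ₗ[F] F where
  toFun := fun v => om v w
  map_add' := fun a b => om_add_left a b w
  map_smul' := fun c a => by rw [om_smul_left]; rfl

theorem omL_apply (w v : l ⊕ l → F) : omL w v = om v w := rfl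

theorem om_sum_left {κ : Type*} (s : Finset κ) (t : κ → F) (v : κ → l ⊕ l → F) (w : l ⊕ l → F) :
    om (∑ a ∈ s, t a • v a) w = ∑ a ∈ s, t a * om (v a) w := by
  rw [← omL_apply, map_sum]
  exact Finset.sum_congr rfl (fun a _ => by rw [map_smul, smul_eq_mul, omL_apply])

/-- nondegenerate subspace -/
def Nondeg (U : Submodule F (l ⊕ l → F)) : Prop :=
  ∀ u ∈ U, (∀ v ∈ U, om u v = 0) → u = 0

theorem exists_pairs : ∀ (k : ℕ) (U : Submodule F (l ⊕ l → F)), Nondeg U →
    Module.finrank F U = 2 * k →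
    ∃ e f : Fin k → (l ⊕ l → F), (∀ i, e i ∈ U) ∧ (∀ i, f i ∈ U) ∧
      (∀ i j, om (f i) (e j) = if i = j then 1 else 0) ∧
      (∀ i j, om (e i) (e j) = 0) ∧ (∀ i j, om (f i) (f j) = 0) := by
  intro k
  induction k with
  | zero =>
    intro U _ _
    exact ⟨fun i => i.elim0, fun i => i.elim0, fun i => i.elim0, fun i => i.elim0,
      fun i => i.elim0, fun i => i.elim0, fun i => i.elim0⟩
  | succ k ih =>
    intro U hU hdim
    have hU0 : U ≠ ⊥ := by
      rintro rfl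
      rw [finrank_bot] at hdim
      omega
    obtain ⟨u, huU, hu0⟩ := (Submodule.ne_bot_iff U).1 hU0
    obtain ⟨v₀, hv₀U, hv₀⟩ : ∃ v ∈ U, om u v ≠ 0 := by
      by_contra hcon
      push_neg at hcon
      exact hu0 (hU u huU hcon)
    have hv₀' : om v₀ u ≠ 0 := by rw [om_swap]; exact neg_ne_zero.2 hv₀
    obtain ⟨v, hvdef⟩ : ∃ v, v = (om v₀ u)⁻¹ • v₀ := ⟨_, rfl⟩
    have hvU : v ∈ U := by rw [hvdef]; exact U.smul_mem _ hv₀U
    have hvu : om v u = 1 := by rw [hvdef, om_smul_left, inv_mul_cancel₀ hv₀']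
    have huv : om u v = -1 := by rw [om_swap, hvu]
    obtain ⟨U', hU'⟩ : ∃ U' : Submodule F (l ⊕ l → F),
        U' = U ⊓ (LinearMap.ker (omL u) ⊓ LinearMap.ker (omL v)) := ⟨_, rfl⟩
    have hU'mem : ∀ x, x ∈ U' ↔ x ∈ U ∧ om x u = 0 ∧ om x v = 0 := by
      intro x
      rw [hU', Submodule.mem_inf, Submodule.mem_inf, LinearMap.mem_ker, LinearMap.mem_ker,
        omL_apply, omL_apply]
    have hdecomp : ∀ x ∈ U, x + (om x v) • u - (om x u) • v ∈ U' := by
      intro x hx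
      rw [hU'mem]
      refine ⟨U.sub_mem (U.add_mem hx (U.smul_mem _ huU)) (U.smul_mem _ hvU), ?_, ?_⟩
      · rw [om_sub_left, om_add_left, om_smul_left, om_smul_left, om_self, hvu]; ring
      · rw [om_sub_left, om_add_left, om_smul_left, om_smul_left, om_self, huv]; ring
    have hU'nd : Nondeg U' := by
      intro y hy hall
      obtain ⟨hyU, hyu, hyv⟩ := (hU'mem y).1 hy
      apply hU y hyU
      intro x hx
      have h1 := hall _ (hdecomp x hx)
      rw [om_sub_right, om_add_right, om_smul_right, om_smul_right, hyu, hyv] at h1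
      linear_combination h1
    have hU'dim : Module.finrank F U' = 2 * k := by
      have hsup : U' ⊔ Submodule.span F {u, v} = U := by
        apply le_antisymm
        · apply sup_le
          · intro x hx; exact ((hU'mem x).1 hx).1
          · rw [Submodule.span_le]
            intro z hz
            rcases hz with rfl | rfl
            · exact huU
            · exact hvU
        · intro x hx
          have : x = (x + (om x v) • u - (om x u) • v) + ((-(om x v)) • u + (om x u) • v) := by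
            module
          rw [this]
          exact Submodule.add_mem_sup (hdecomp x hx) (Submodule.mem_span_pair.2 ⟨_, _, rfl⟩)
      have hinf : U' ⊓ Submodule.span F {u, v} = ⊥ := by
        rw [eq_bot_iff]
        rintro z ⟨hz1, hz2⟩
        obtain ⟨a, b, rfl⟩ := Submodule.mem_span_pair.1 hz2
        obtain ⟨-, h1, h2⟩ := (hU'mem _).1 hz1
        rw [om_add_left, om_smul_left, om_smul_left, om_self, hvu] at h1
        rw [om_add_left, om_smul_left, om_smul_left, om_self, huv] at h2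
        have hb : b = 0 := by linear_combination h1
        have ha : a = 0 := by linear_combination -h2
        rw [ha, hb, zero_smul, zero_smul, add_zero]
        exact Submodule.zero_mem _
      have hli : LinearIndependent F ![u, v] := by
        rw [LinearIndependent.pair_iff]
        intro a b hab
        have h1 : om (a • u + b • v) u = om 0 u := by rw [hab]
        have h2 : om (a • u + b • v) v = om 0 v := by rw [hab]
        rw [om_add_left, om_smul_left, om_smul_left, om_self, hvu, om_zero_left] at h1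
        rw [om_add_left, om_smul_left, om_smul_left, om_self, huv, om_zero_left] at h2
        exact ⟨by linear_combination -h2, by linear_combination h1⟩
      have h2dim : Module.finrank F (Submodule.span F {u, v}) = 2 := by
        have h3 := finrank_span_eq_card hli
        have h4 : Set.range ![u, v] = {u, v} := by
          simp [Matrix.range_cons]
          exact Set.pair_comm v u
        rw [h4] at h3
        rw [h3]
        simp
      have h1 := Submodule.finrank_sup_add_finrank_inf_eq U' (Submodule.span F {u, v})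
      rw [hsup, hinf, finrank_bot, h2dim, hdim] at h1
      omega
    obtain ⟨e', f', he'U, hf'U, hfe', hee', hff'⟩ := ih U' hU'nd hU'dim
    have a1 : ∀ j, om (e' j) u = 0 := fun j => ((hU'mem _).1 (he'U j)).2.1
    have a2 : ∀ j, om (e' j) v = 0 := fun j => ((hU'mem _).1 (he'U j)).2.2
    have a3 : ∀ j, om (f' j) u = 0 := fun j => ((hU'mem _).1 (hf'U j)).2.1
    have a4 : ∀ j, om (f' j) v = 0 := fun j => ((hU'mem _).1 (hf'U j)).2.2
    have b1 : ∀ j, om u (e' j) = 0 := fun j => by rw [om_swap, a1, neg_zero]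
    have b2 : ∀ j, om v (e' j) = 0 := fun j => by rw [om_swap, a2, neg_zero]
    have b3 : ∀ j, om u (f' j) = 0 := fun j => by rw [om_swap, a3, neg_zero]
    have b4 : ∀ j, om v (f' j) = 0 := fun j => by rw [om_swap, a4, neg_zero]
    refine ⟨Fin.cons u e', Fin.cons v f', ?_, ?_, ?_, ?_, ?_⟩
    · intro i
      refine Fin.cases ?_ ?_ i
      · rw [Fin.cons_zero]; exact huU
      · intro j; rw [Fin.cons_succ]; exact ((hU'mem _).1 (he'U j)).1
    · intro i
      refine Fin.cases ?_ ?_ i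
      · rw [Fin.cons_zero]; exact hvU
      · intro j; rw [Fin.cons_succ]; exact ((hU'mem _).1 (hf'U j)).1
    · intro i j
      refine Fin.cases ?_ ?_ i
      · refine Fin.cases ?_ ?_ j
        · rw [Fin.cons_zero, Fin.cons_zero, hvu, if_pos rfl]
        · intro j'
          rw [Fin.cons_zero, Fin.cons_succ, b2, if_neg (Fin.succ_ne_zero j').symm]
      · intro i'
        refine Fin.cases ?_ ?_ j
        · rw [Fin.cons_zero, Fin.cons_succ, a3, if_neg (Fin.succ_ne_zero i')]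
        · intro j'
          rw [Fin.cons_succ, Fin.cons_succ, hfe']
          simp only [Fin.succ_inj]
    · intro i j
      refine Fin.cases ?_ ?_ i
      · refine Fin.cases ?_ ?_ j
        · rw [Fin.cons_zero, om_self]
        · intro j'; rw [Fin.cons_zero, Fin.cons_succ, b1]
      · intro i'
        refine Fin.cases ?_ ?_ j
        · rw [Fin.cons_zero, Fin.cons_succ, a1]
        · intro j'; rw [Fin.cons_succ, Fin.cons_succ, hee']
    · intro i j
      refine Fin.cases ?_ ?_ i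
      · refine Fin.cases ?_ ?_ j
        · rw [Fin.cons_zero, om_self]
        · intro j'; rw [Fin.cons_zero, Fin.cons_succ, b4]
      · intro i'
        refine Fin.cases ?_ ?_ j
        · rw [Fin.cons_zero, Fin.cons_succ, a4]
        · intro j'; rw [Fin.cons_succ, Fin.cons_succ, hff']

theorem exists_sframe (k : ℕ) (U : Submodule F (l ⊕ l → F)) (hU : Nondeg U)
    (hdim : Module.finrank F U = 2 * k) :
    ∃ c : Fin k ⊕ Fin k → (l ⊕ l → F), (∀ s, c s ∈ U) ∧
      ∀ s t, om (c s) (c t) = Matrix.J (Fin k) F s t := by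
  obtain ⟨e, f, heU, hfU, hfe, hee, hff⟩ := exists_pairs k U hU hdim
  refine ⟨Sum.elim e f, ?_, ?_⟩
  · rintro (a | a)
    · exact heU a
    · exact hfU a
  · rintro (a | a) (b | b)
    · rw [Sum.elim_inl, Sum.elim_inl, hee]
      simp [Matrix.J]
    · rw [Sum.elim_inl, Sum.elim_inr, om_swap, hfe]
      simp [Matrix.J, Matrix.one_apply, eq_comm]
    · rw [Sum.elim_inr, Sum.elim_inl, hfe]
      simp [Matrix.J, Matrix.one_apply]
    · rw [Sum.elim_inr, Sum.elim_inr, hff]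
      simp [Matrix.J]

end frame

theorem exists_frame {F : Type*} [Field F] (m k : ℕ) (hk : k ≤ m)
    (W : Submodule F (Fin m ⊕ Fin m → F)) (hWk : Module.finrank F W = 2 * k) (hW : Nondeg W) :
    ∃ P : Matrix (Fin m ⊕ Fin m) ((Fin k ⊕ Fin k) ⊕ (Fin (m - k) ⊕ Fin (m - k))) F,
      Pᵀ * Matrix.J (Fin m) F * P
        = Matrix.fromBlocks (Matrix.J (Fin k) F) 0 0 (Matrix.J (Fin (m - k)) F) ∧
      ∀ x, P *ᵥ x ∈ W ↔ x ∘ Sum.inr = 0 := by
  classical
  obtain ⟨c, hcW, hc⟩ := exists_sframe k W hW hWk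
  obtain ⟨Φ, hΦ⟩ : ∃ Φ : (Fin m ⊕ Fin m → F) →ₗ[F] (Fin k ⊕ Fin k → F),
      ∀ v s, Φ v s = om v (c s) :=
    ⟨LinearMap.pi (fun s => omL (c s)), fun v s => rfl⟩
  have hΦc : ∀ a : Fin k ⊕ Fin k → F, Φ (∑ r, a r • c r) = a ᵥ* Matrix.J (Fin k) F := by
    intro a
    funext s
    rw [hΦ, om_sum_left]
    simp only [hc]
    rfl
  have hπ : ∀ t : Fin k ⊕ Fin k → F,
      Φ (∑ r, (-(t ᵥ* Matrix.J (Fin k) F)) r • c r) = t := by
    intro t
    rw [hΦc, Matrix.neg_vecMul, Matrix.vecMul_vecMul, Matrix.J_squared, Matrix.vecMul_neg,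
      Matrix.vecMul_one, neg_neg]
  have hΦsurj : Function.Surjective Φ := fun t => ⟨_, hπ t⟩
  have hΦW : ∀ y ∈ W, Φ y = 0 → y = 0 := by
    have hsurj' : Function.Surjective (Φ.domRestrict W) := by
      intro t
      exact ⟨⟨∑ r, (-(t ᵥ* Matrix.J (Fin k) F)) r • c r,
        W.sum_mem (fun a _ => W.smul_mem _ (hcW a))⟩, hπ t⟩
    have hinj := (LinearMap.injective_iff_surjective_of_finrank_eq_finrank
      (by rw [hWk, Module.finrank_fintype_fun_eq_card, Fintype.card_sum, Fintype.card_fin]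
          omega)).2 hsurj'
    intro y hy h0
    have := @hinj ⟨y, hy⟩ 0 (by rw [map_zero]; exact h0)
    exact congrArg Subtype.val this
  obtain ⟨K, hK⟩ : ∃ K : Submodule F (Fin m ⊕ Fin m → F), K = LinearMap.ker Φ := ⟨_, rfl⟩
  have hKmem : ∀ v, v ∈ K ↔ ∀ s, om v (c s) = 0 := by
    intro v
    rw [hK, LinearMap.mem_ker]
    constructor
    · intro h s; rw [← hΦ, h]; rfl
    · intro h; funext s; rw [hΦ, h s]; rfl
  have hKdim : Module.finrank F K = 2 * (m - k) := by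
    have h1 := LinearMap.finrank_range_add_finrank_ker Φ
    rw [LinearMap.range_eq_top.2 hΦsurj, finrank_top, Module.finrank_fintype_fun_eq_card,
      Module.finrank_fintype_fun_eq_card, Fintype.card_sum, Fintype.card_sum, Fintype.card_fin,
      Fintype.card_fin, ← hK] at h1
    omega
  have hproj : ∀ x : Fin m ⊕ Fin m → F,
      x - ∑ r, (-(Φ x ᵥ* Matrix.J (Fin k) F)) r • c r ∈ K := by
    intro x
    rw [hK, LinearMap.mem_ker, map_sub, hπ, sub_self]
  have hKnd : Nondeg K := by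
    intro y hy hall
    by_contra hy0
    obtain ⟨x, hx⟩ := exists_nondeg y hy0
    apply hx
    have h2 := hall _ (hproj x)
    rw [om_sub_right] at h2
    have h3 : om y (∑ r, (-(Φ x ᵥ* Matrix.J (Fin k) F)) r • c r) = 0 := by
      rw [om_swap, om_sum_left, Finset.sum_eq_zero, neg_zero]
      intro r _
      rw [om_swap (c r) y, (hKmem y).1 hy r, neg_zero, mul_zero]
    rw [h3, sub_zero] at h2
    exact h2
  obtain ⟨c', hc'K, hc'⟩ := exists_sframe (m - k) K hKnd hKdim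
  have hcc' : ∀ r r', om (c' r') (c r) = 0 := fun r r' => (hKmem _).1 (hc'K r') r
  have hc'c : ∀ r r', om (c r) (c' r') = 0 := fun r r' => by rw [om_swap, hcc', neg_zero]
  obtain ⟨P, hP⟩ : ∃ P : Matrix (Fin m ⊕ Fin m) ((Fin k ⊕ Fin k) ⊕ (Fin (m - k) ⊕ Fin (m - k))) F,
      P = Matrix.of (fun i s => Sum.elim c c' s i) := ⟨_, rfl⟩
  refine ⟨P, ?_, ?_⟩
  · ext s t
    have e : (Pᵀ * Matrix.J (Fin m) F * P) s t = om (Sum.elim c c' s) (Sum.elim c c' t) := by
      rw [om_eq, Matrix.mul_assoc, Matrix.mul_apply, hP]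
      rfl
    rw [e]
    rcases s with r | r <;> rcases t with r' | r'
    · rw [Sum.elim_inl, Sum.elim_inl, hc, Matrix.fromBlocks_apply₁₁]
    · rw [Sum.elim_inl, Sum.elim_inr, hc'c, Matrix.fromBlocks_apply₁₂, Matrix.zero_apply]
    · rw [Sum.elim_inr, Sum.elim_inl, hcc', Matrix.fromBlocks_apply₂₁, Matrix.zero_apply]
    · rw [Sum.elim_inr, Sum.elim_inr, hc', Matrix.fromBlocks_apply₂₂]
  · intro x
    have hPx : P *ᵥ x = ∑ a, x (Sum.inl a) • c a + ∑ a, x (Sum.inr a) • c' a := by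
      funext i
      rw [hP]
      simp only [Matrix.mulVec, dotProduct, Matrix.of_apply, Fintype.sum_sum_type, Sum.elim_inl,
        Sum.elim_inr, Pi.add_apply, Finset.sum_apply, Pi.smul_apply, smul_eq_mul]
      congr 1
      · congr 1 <;> exact Finset.sum_congr rfl (fun a _ => mul_comm _ _)
      · congr 1 <;> exact Finset.sum_congr rfl (fun a _ => mul_comm _ _)
    rw [hPx]
    constructor
    · intro h
      have hy : ∑ a, x (Sum.inr a) • c' a ∈ W := by
        have hb1 : ∑ a, x (Sum.inl a) • c a ∈ W :=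
          W.sum_mem (fun a _ => W.smul_mem (x (Sum.inl a)) (hcW a))
        have := W.sub_mem h hb1
        rwa [add_sub_cancel_left] at this
      have hyK : ∑ a, x (Sum.inr a) • c' a ∈ K :=
        K.sum_mem (fun a _ => K.smul_mem _ (hc'K a))
      have hy0 := hΦW _ hy (by rw [hK] at hyK; exact LinearMap.mem_ker.1 hyK)
      have h5 : (x ∘ Sum.inr) ᵥ* Matrix.J (Fin (m - k)) F = 0 := by
        funext s
        have h6 : om (∑ a, x (Sum.inr a) • c' a) (c' s) = om 0 (c' s) := by rw [hy0]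
        rw [om_sum_left, om_zero_left] at h6
        simp only [hc'] at h6
        exact h6
      have h7 : x ∘ Sum.inr = -(((x ∘ Sum.inr) ᵥ* Matrix.J (Fin (m - k)) F) ᵥ*
          Matrix.J (Fin (m - k)) F) := by
        rw [Matrix.vecMul_vecMul, Matrix.J_squared, Matrix.vecMul_neg, Matrix.vecMul_one, neg_neg]
      rw [h7, h5, Matrix.zero_vecMul, neg_zero]
    · intro h
      have h6 : ∑ a, x (Sum.inr a) • c' a = 0 := Finset.sum_eq_zero (fun a _ => by
        have h7 := congrFun h a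
        simp only [Function.comp_apply, Pi.zero_apply] at h7
        rw [h7, zero_smul])
      rw [h6, add_zero]
      exact W.sum_mem (fun a _ => W.smul_mem _ (hcW a))

section grp
variable {F : Type*} [Field F] {m k : ℕ}

/-- block index type -/
abbrev SS (m k : ℕ) : Type := (Fin k ⊕ Fin k) ⊕ (Fin (m - k) ⊕ Fin (m - k))

/-- block diagonal -/
def bd (A : Matrix (Fin k ⊕ Fin k) (Fin k ⊕ Fin k) F)
    (B : Matrix (Fin (m - k) ⊕ Fin (m - k)) (Fin (m - k) ⊕ Fin (m - k)) F) :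
    Matrix (SS m k) (SS m k) F := Matrix.fromBlocks A 0 0 B

theorem bd_mul (A A' : Matrix (Fin k ⊕ Fin k) (Fin k ⊕ Fin k) F)
    (B B' : Matrix (Fin (m - k) ⊕ Fin (m - k)) (Fin (m - k) ⊕ Fin (m - k)) F) :
    bd A B * bd A' B' = bd (A * A') (B * B') := by
  simp [bd, Matrix.fromBlocks_multiply]

theorem bd_inr (A : Matrix (Fin k ⊕ Fin k) (Fin k ⊕ Fin k) F)
    (B : Matrix (Fin (m - k) ⊕ Fin (m - k)) (Fin (m - k) ⊕ Fin (m - k)) F)
    (x : SS m k → F) : (bd A B *ᵥ x) ∘ Sum.inr = B *ᵥ (x ∘ Sum.inr) := by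
  rw [bd, Matrix.fromBlocks_mulVec]
  simp

/-- block form matrix -/
def JS (F : Type*) [Field F] (m k : ℕ) : Matrix (SS m k) (SS m k) F :=
  Matrix.fromBlocks (Matrix.J (Fin k) F) 0 0 (Matrix.J (Fin (m - k)) F)

theorem JS_sq : JS F m k * JS F m k = -1 := by
  unfold JS
  rw [Matrix.fromBlocks_multiply]
  simp only [Matrix.J_squared, Matrix.mul_zero, Matrix.zero_mul, add_zero, zero_add]
  ext (a | a) (b | b) <;> simp [Matrix.one_apply]

theorem bd_symp (A : Matrix (Fin k ⊕ Fin k) (Fin k ⊕ Fin k) F)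
    (B : Matrix (Fin (m - k) ⊕ Fin (m - k)) (Fin (m - k) ⊕ Fin (m - k)) F)
    (hA : Aᵀ * Matrix.J (Fin k) F * A = Matrix.J (Fin k) F)
    (hB : Bᵀ * Matrix.J (Fin (m - k)) F * B = Matrix.J (Fin (m - k)) F) :
    (bd A B)ᵀ * JS F m k * bd A B = JS F m k := by
  unfold bd JS
  rw [Matrix.fromBlocks_transpose, Matrix.fromBlocks_multiply, Matrix.fromBlocks_multiply]
  simp only [Matrix.transpose_zero, Matrix.mul_zero, Matrix.zero_mul, add_zero, zero_add, hA, hB]

theorem emb_mem (P : Matrix (Fin m ⊕ Fin m) (SS m k) F) (Q : Matrix (SS m k) (Fin m ⊕ Fin m) F)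
    (hPP : Pᵀ * Matrix.J (Fin m) F * P = JS F m k)
    (hQJ : Qᵀ * JS F m k * Q = Matrix.J (Fin m) F)
    (A : Matrix (Fin k ⊕ Fin k) (Fin k ⊕ Fin k) F)
    (B : Matrix (Fin (m - k) ⊕ Fin (m - k)) (Fin (m - k) ⊕ Fin (m - k)) F)
    (hA : A ∈ Matrix.symplecticGroup (Fin k) F)
    (hB : B ∈ Matrix.symplecticGroup (Fin (m - k)) F) :
    P * bd A B * Q ∈ Matrix.symplecticGroup (Fin m) F := by
  rw [SymplecticGroup.mem_iff'] at hA hB ⊢
  rw [Matrix.transpose_mul, Matrix.transpose_mul]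
  calc Qᵀ * ((bd A B)ᵀ * Pᵀ) * Matrix.J (Fin m) F * (P * bd A B * Q)
      = Qᵀ * ((bd A B)ᵀ * (Pᵀ * Matrix.J (Fin m) F * P) * bd A B) * Q := by
        simp only [Matrix.mul_assoc]
    _ = Matrix.J (Fin m) F := by rw [hPP, bd_symp A B hA hB, hQJ]

theorem block_form (M : Matrix (SS m k) (SS m k) F)
    (hMJ : Mᵀ * JS F m k * M = JS F m k)
    (hst : ∀ x : SS m k → F, x ∘ Sum.inr = 0 ↔ (M *ᵥ x) ∘ Sum.inr = 0) :
    ∃ (A : Matrix (Fin k ⊕ Fin k) (Fin k ⊕ Fin k) F)
      (B : Matrix (Fin (m - k) ⊕ Fin (m - k)) (Fin (m - k) ⊕ Fin (m - k)) F),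
      A ∈ Matrix.symplecticGroup (Fin k) F ∧ B ∈ Matrix.symplecticGroup (Fin (m - k)) F ∧
      M = bd A B := by
  classical
  have hcol : ∀ (s t : SS m k), (M *ᵥ Pi.single t 1) s = M s t := by
    intro s t
    simp [Matrix.mulVec, dotProduct, Pi.single_apply]
  have h21 : M.toBlocks₂₁ = 0 := by
    ext b a
    have h1 := (hst (Pi.single (Sum.inl a) 1)).1 (by
      funext b'
      simp)
    have h2 := congrFun h1 b
    simp only [Function.comp_apply, Pi.zero_apply] at h2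
    rw [hcol] at h2
    exact h2
  obtain ⟨A, hA⟩ : ∃ A, A = M.toBlocks₁₁ := ⟨_, rfl⟩
  obtain ⟨C, hC⟩ : ∃ C, C = M.toBlocks₁₂ := ⟨_, rfl⟩
  obtain ⟨B, hB⟩ : ∃ B, B = M.toBlocks₂₂ := ⟨_, rfl⟩
  have hMfb : M = Matrix.fromBlocks A C 0 B := by
    have := Matrix.fromBlocks_toBlocks M
    rw [h21, ← hA, ← hC, ← hB] at this
    exact this.symm
  rw [hMfb] at hMJ
  unfold JS at hMJ
  rw [Matrix.fromBlocks_transpose, Matrix.fromBlocks_multiply, Matrix.fromBlocks_multiply] at hMJ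
  simp only [Matrix.transpose_zero, Matrix.mul_zero, Matrix.zero_mul, add_zero, zero_add] at hMJ
  obtain ⟨e11, e12, -, e22⟩ := Matrix.fromBlocks_inj.1 hMJ
  have hAmem : A ∈ Matrix.symplecticGroup (Fin k) F := SymplecticGroup.mem_iff'.2 e11
  have hAt := SymplecticGroup.inv_left_mul_aux (SymplecticGroup.transpose_mem hAmem)
  rw [Matrix.transpose_transpose] at hAt
  have hJC : Matrix.J (Fin k) F * C = 0 := by
    calc Matrix.J (Fin k) F * C
        = -(Matrix.J (Fin k) F * A * Matrix.J (Fin k) F * Aᵀ) * (Matrix.J (Fin k) F * C) := by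
          rw [hAt, Matrix.one_mul]
      _ = -(Matrix.J (Fin k) F * A * Matrix.J (Fin k) F * (Aᵀ * Matrix.J (Fin k) F * C)) := by
          rw [Matrix.neg_mul]; simp only [Matrix.mul_assoc]
      _ = 0 := by rw [e12, Matrix.mul_zero, neg_zero]
  have hC0 : C = 0 := by
    calc C = -(Matrix.J (Fin k) F * Matrix.J (Fin k) F) * C := by
          rw [Matrix.J_squared, neg_neg, Matrix.one_mul]
      _ = -(Matrix.J (Fin k) F * (Matrix.J (Fin k) F * C)) := by
          rw [Matrix.neg_mul, Matrix.mul_assoc]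
      _ = 0 := by rw [hJC, Matrix.mul_zero, neg_zero]
  rw [hC0] at e22 hMfb
  rw [Matrix.transpose_zero, Matrix.zero_mul, Matrix.zero_mul, zero_add] at e22
  exact ⟨A, B, hAmem, SymplecticGroup.mem_iff'.2 e22, hMfb⟩

end grp

theorem main {F : Type*} [Field F] (m k : ℕ) (hk : k ≤ m) (W : Submodule F (Fin m ⊕ Fin m → F)) (hWk : Module.finrank F W = 2 * k) (hW : ∀ u ∈ W, (∀ v ∈ W, Cfsg.sympForm m F u v = 0) → u = 0) : Nonempty (↥(Cfsg.stabilizing (Cfsg.spToMat m F) (W : Set (Fin m ⊕ Fin m → F))) ≃* Matrix.symplecticGroup (Fin k) F × Matrix.symplecticGroup (Fin (m - k)) F) := by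
  classical
  have hW' : Nondeg W := by
    intro u hu h
    apply hW u hu
    intro v hv
    have h1 := h v hv
    rw [om_eq] at h1
    exact h1
  obtain ⟨P, hPP, hPW⟩ := exists_frame m k hk W hWk hW'
  have hPP' : Pᵀ * Matrix.J (Fin m) F * P = JS F m k := hPP
  obtain ⟨Q, hQ⟩ : ∃ Q : Matrix (SS m k) (Fin m ⊕ Fin m) F,
      Q = -(JS F m k * Pᵀ * Matrix.J (Fin m) F) := ⟨_, rfl⟩
  have hQP : Q * P = 1 := by
    rw [hQ, Matrix.neg_mul]
    have : JS F m k * Pᵀ * Matrix.J (Fin m) F * P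
        = JS F m k * (Pᵀ * Matrix.J (Fin m) F * P) := by simp only [Matrix.mul_assoc]
    rw [this, hPP', JS_sq, neg_neg]
  have hPQ : P * Q = 1 :=
    (Matrix.mul_eq_one_comm_of_equiv
      (((Equiv.sumSumSumComm (Fin k) (Fin k) (Fin (m - k)) (Fin (m - k))).trans
        (Equiv.sumCongr (finSumFinEquiv.trans (finCongr (by omega : k + (m - k) = m)))
          (finSumFinEquiv.trans (finCongr (by omega : k + (m - k) = m))))).symm)).2 hQP
  have hQJ : Qᵀ * JS F m k * Q = Matrix.J (Fin m) F := by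
    calc Qᵀ * JS F m k * Q = Qᵀ * (Pᵀ * Matrix.J (Fin m) F * P) * Q := by rw [hPP']
      _ = (P * Q)ᵀ * Matrix.J (Fin m) F * (P * Q) := by
          rw [Matrix.transpose_mul]; simp only [Matrix.mul_assoc]
      _ = Matrix.J (Fin m) F := by
          rw [hPQ, Matrix.transpose_one, Matrix.one_mul, Matrix.mul_one]
  have hPQv : ∀ v : Fin m ⊕ Fin m → F, P *ᵥ (Q *ᵥ v) = v := fun v => by
    rw [Matrix.mulVec_mulVec, hPQ, Matrix.one_mulVec]
  have hQPv : ∀ x : SS m k → F, Q *ᵥ (P *ᵥ x) = x := fun v => by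
    rw [Matrix.mulVec_mulVec, hQP, Matrix.one_mulVec]
  have hWQ : ∀ v : Fin m ⊕ Fin m → F, v ∈ W ↔ (Q *ᵥ v) ∘ Sum.inr = 0 := fun v => by
    rw [← hPW, hPQv]
  have hSt : ∀ (A : Matrix (Fin k ⊕ Fin k) (Fin k ⊕ Fin k) F)
      (B : Matrix (Fin (m - k) ⊕ Fin (m - k)) (Fin (m - k) ⊕ Fin (m - k)) F)
      (hB : B ∈ Matrix.symplecticGroup (Fin (m - k)) F)
      (hmem : P * bd A B * Q ∈ Matrix.symplecticGroup (Fin m) F),
      (⟨P * bd A B * Q, hmem⟩ : Matrix.symplecticGroup (Fin m) F) ∈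
        Cfsg.stabilizing (Cfsg.spToMat m F) (W : Set (Fin m ⊕ Fin m → F)) := by
    intro A B hB hmem v
    show v ∈ W ↔ (P * bd A B * Q) *ᵥ v ∈ W
    rw [hWQ, hWQ]
    simp only [← Matrix.mulVec_mulVec]
    rw [hQPv, bd_inr]
    constructor
    · intro h; rw [h, Matrix.mulVec_zero]
    · intro h
      have hBi := SymplecticGroup.inv_left_mul_aux hB
      have h1 := congrArg (fun z => (-(Matrix.J (Fin (m - k)) F * Bᵀ *
        Matrix.J (Fin (m - k)) F)) *ᵥ z) h
      simp only [Matrix.mulVec_mulVec, Matrix.mulVec_zero] at h1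
      rw [Matrix.neg_mul, hBi, Matrix.one_mulVec] at h1
      exact h1
  obtain ⟨Ψ, hΨ⟩ : ∃ Ψ : ↥(Matrix.symplecticGroup (Fin k) F) ×
      ↥(Matrix.symplecticGroup (Fin (m - k)) F) →*
      ↥(Cfsg.stabilizing (Cfsg.spToMat m F) (W : Set (Fin m ⊕ Fin m → F))),
      ∀ AB, (((Ψ AB : Matrix.symplecticGroup (Fin m) F)) : Matrix (Fin m ⊕ Fin m) (Fin m ⊕ Fin m) F)
        = P * bd (AB.1 : Matrix (Fin k ⊕ Fin k) (Fin k ⊕ Fin k) F)
          (AB.2 : Matrix (Fin (m - k) ⊕ Fin (m - k)) (Fin (m - k) ⊕ Fin (m - k)) F) * Q := by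
    refine ⟨MonoidHom.mk' (fun AB => ⟨⟨P * bd (AB.1 : Matrix (Fin k ⊕ Fin k) (Fin k ⊕ Fin k) F)
          (AB.2 : Matrix (Fin (m - k) ⊕ Fin (m - k)) (Fin (m - k) ⊕ Fin (m - k)) F) * Q,
        emb_mem P Q hPP' hQJ _ _ AB.1.2 AB.2.2⟩, hSt _ _ AB.2.2 _⟩) ?_, fun AB => rfl⟩
    intro a b
    apply Subtype.ext
    apply Subtype.ext
    show P * bd ((a.1 : Matrix (Fin k ⊕ Fin k) (Fin k ⊕ Fin k) F) * (b.1 : Matrix (Fin k ⊕ Fin k) (Fin k ⊕ Fin k) F))
        ((a.2 : Matrix (Fin (m - k) ⊕ Fin (m - k)) (Fin (m - k) ⊕ Fin (m - k)) F) *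
          (b.2 : Matrix (Fin (m - k) ⊕ Fin (m - k)) (Fin (m - k) ⊕ Fin (m - k)) F)) * Q
      = (P * bd (a.1 : Matrix (Fin k ⊕ Fin k) (Fin k ⊕ Fin k) F)
          (a.2 : Matrix (Fin (m - k) ⊕ Fin (m - k)) (Fin (m - k) ⊕ Fin (m - k)) F) * Q) *
        (P * bd (b.1 : Matrix (Fin k ⊕ Fin k) (Fin k ⊕ Fin k) F)
          (b.2 : Matrix (Fin (m - k) ⊕ Fin (m - k)) (Fin (m - k) ⊕ Fin (m - k)) F) * Q)
    rw [← bd_mul]
    calc P * (bd (a.1 : Matrix (Fin k ⊕ Fin k) (Fin k ⊕ Fin k) F)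
          (a.2 : Matrix (Fin (m - k) ⊕ Fin (m - k)) (Fin (m - k) ⊕ Fin (m - k)) F) *
          bd (b.1 : Matrix (Fin k ⊕ Fin k) (Fin k ⊕ Fin k) F)
          (b.2 : Matrix (Fin (m - k) ⊕ Fin (m - k)) (Fin (m - k) ⊕ Fin (m - k)) F)) * Q
        = P * (bd (a.1 : Matrix (Fin k ⊕ Fin k) (Fin k ⊕ Fin k) F)
          (a.2 : Matrix (Fin (m - k) ⊕ Fin (m - k)) (Fin (m - k) ⊕ Fin (m - k)) F) * (Q * P) *
          bd (b.1 : Matrix (Fin k ⊕ Fin k) (Fin k ⊕ Fin k) F)
          (b.2 : Matrix (Fin (m - k) ⊕ Fin (m - k)) (Fin (m - k) ⊕ Fin (m - k)) F)) * Q := by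
          rw [hQP, Matrix.mul_one]
      _ = _ := by simp only [Matrix.mul_assoc]
  have h3 : ∀ D : Matrix (SS m k) (SS m k) F, Q * (P * D * Q) * P = D := by
    intro D
    calc Q * (P * D * Q) * P = (Q * P) * D * (Q * P) := by simp only [Matrix.mul_assoc]
      _ = D := by rw [hQP, Matrix.one_mul, Matrix.mul_one]
  have hinj : Function.Injective Ψ := by
    intro a b hab
    have h1 : P * bd (a.1 : Matrix (Fin k ⊕ Fin k) (Fin k ⊕ Fin k) F)
          (a.2 : Matrix (Fin (m - k) ⊕ Fin (m - k)) (Fin (m - k) ⊕ Fin (m - k)) F) * Q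
        = P * bd (b.1 : Matrix (Fin k ⊕ Fin k) (Fin k ⊕ Fin k) F)
          (b.2 : Matrix (Fin (m - k) ⊕ Fin (m - k)) (Fin (m - k) ⊕ Fin (m - k)) F) * Q := by
      rw [← hΨ, ← hΨ, hab]
    have h2 := congrArg (fun g : Matrix (Fin m ⊕ Fin m) (Fin m ⊕ Fin m) F => Q * g * P) h1
    simp only [h3] at h2
    unfold bd at h2
    obtain ⟨hA, -, -, hB⟩ := Matrix.fromBlocks_inj.1 h2
    exact Prod.ext (Subtype.ext hA) (Subtype.ext hB)
  have hsurj : Function.Surjective Ψ := by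
    rintro ⟨⟨g, hg⟩, hgSt⟩
    have hgSt' : ∀ v, v ∈ W ↔ g *ᵥ v ∈ W := hgSt
    have hg' := SymplecticGroup.mem_iff'.1 hg
    obtain ⟨M, hMdef⟩ : ∃ M : Matrix (SS m k) (SS m k) F, M = Q * g * P := ⟨_, rfl⟩
    have hPM : P * M = g * P := by
      rw [hMdef, ← Matrix.mul_assoc, ← Matrix.mul_assoc, hPQ, Matrix.one_mul]
    have hMJ : Mᵀ * JS F m k * M = JS F m k := by
      rw [hMdef, Matrix.transpose_mul, Matrix.transpose_mul]
      calc Pᵀ * (gᵀ * Qᵀ) * JS F m k * (Q * g * P)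
          = Pᵀ * (gᵀ * (Qᵀ * JS F m k * Q) * g) * P := by simp only [Matrix.mul_assoc]
        _ = JS F m k := by rw [hQJ, hg', hPP']
    have hMst : ∀ x : SS m k → F, x ∘ Sum.inr = 0 ↔ (M *ᵥ x) ∘ Sum.inr = 0 := by
      intro x
      rw [← hPW, ← hPW, Matrix.mulVec_mulVec, hPM, ← Matrix.mulVec_mulVec]
      exact hgSt' _
    obtain ⟨A, B, hA, hB, hMbd⟩ := block_form M hMJ hMst
    refine ⟨(⟨A, hA⟩, ⟨B, hB⟩), ?_⟩
    apply Subtype.ext
    apply Subtype.ext
    rw [hΨ]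
    show P * bd A B * Q = g
    rw [← hMbd, hMdef]
    calc P * (Q * g * P) * Q = (P * Q) * g * (P * Q) := by simp only [Matrix.mul_assoc]
      _ = g := by rw [hPQ, Matrix.one_mul, Matrix.mul_one]
  exact ⟨(MulEquiv.ofBijective Ψ ⟨hinj, hsurj⟩).symm⟩

theorem result {F : Type*} [Field F] (m k : ℕ) (hk : k ≤ m) (W : Submodule F (Fin m ⊕ Fin m → F)) (hWk : Module.finrank F W = 2 * k) (hW : ∀ u ∈ W, (∀ v ∈ W, Cfsg.sympForm m F u v = 0) → u = 0) : Nonempty (↥(Cfsg.stabilizing (Cfsg.spToMat m F) (W : Set (Fin m ⊕ Fin m → F))) ≃* Matrix.symplecticGroup (Fin k) F × Matrix.symplecticGroup (Fin (m - k)) F) := by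
  exact main m k hk W hWk hW

end Cfsg.Agent.S0776
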