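import Cfsg.Statements.S0775
import Cfsg.Agent.Lib.Helper1.Symp
import Cfsg.Agent.Lib.Helper1.SympO
import Cfsg.Agent.S0776
import Cfsg.Agent.S0774
import Cfsg.Agent.S0828

set_option autoImplicit false
open Cfsg


namespace Cfsg.Agent.S0775

open Matrix Cfsg.Agent.Lib.Helper1.Symp

section
variable {F : Type*} [Field F] {m : ℕ}

def omB (m : ℕ) : LinearMap.BilinForm F (Fin m ⊕ Fin m → F) :=
  LinearMap.mk₂ F (fun u v => om u v) (fun a b v => om_add_left a b v)
    (fun a u v => by rw [om_smul_left]; rfl)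
    (fun v a b => om_add_right v a b) (fun a u v => by rw [om_smul_right]; rfl)

theorem omB_apply (u v : Fin m ⊕ Fin m → F) : omB m u v = om u v := rfl

theorem omB_refl : (omB m (F := F)).IsRefl := fun u v h => by
  rw [omB_apply, om_swap, ← omB_apply, h, neg_zero]

theorem omB_nondeg : (omB m (F := F)).Nondegenerate :=
  ⟨fun x hx => by
      by_contra hx0
      obtain ⟨e, he⟩ := exists_nondeg x hx0
      exact he (hx e),
   fun y hy => by
      by_contra hy0
      obtain ⟨e, he⟩ := exists_nondeg y hy0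
      have h1 : om e y = 0 := hy e
      exact he (by rw [om_swap, h1, neg_zero])⟩

def Perp {k : ℕ} (f : Fin k → Fin m ⊕ Fin m → F) : Submodule F (Fin m ⊕ Fin m → F) :=
  (omB m).orthogonal (Submodule.span F (Set.range f))

theorem mem_Perp {k : ℕ} (f : Fin k → Fin m ⊕ Fin m → F) (x : Fin m ⊕ Fin m → F) :
    x ∈ Perp f ↔ ∀ i, om (f i) x = 0 := by
  constructor
  · intro h i
    exact h (f i) (Submodule.subset_span ⟨i, rfl⟩)
  · intro h n hn
    show om n x = 0
    induction hn using Submodule.span_induction with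
    | mem y hy => obtain ⟨i, rfl⟩ := hy; exact h i
    | zero => exact om_zero_left x
    | add a b _ _ ha hb => rw [om_add_left, ha, hb, add_zero]
    | smul c a _ ha => rw [om_smul_left, ha, mul_zero]

def IsFr {k : ℕ} (f : Fin k → Fin m ⊕ Fin m → F) : Prop :=
  LinearIndependent F f ∧ ∀ i j, om (f i) (f j) = 0

theorem finrank_Perp {k : ℕ} (f : Fin k → Fin m ⊕ Fin m → F) (hf : LinearIndependent F f) :
    Module.finrank F (Perp f) = 2 * m - k := by
  rw [Perp, LinearMap.BilinForm.finrank_orthogonal omB_nondeg, finrank_span_eq_card hf,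
    Fintype.card_fin, Module.finrank_fintype_fun_eq_card, Fintype.card_sum, Fintype.card_fin]
  omega

theorem span_le_Perp {k : ℕ} (f : Fin k → Fin m ⊕ Fin m → F) (hf : IsFr f) :
    Submodule.span F (Set.range f) ≤ Perp f := by
  rw [Submodule.span_le]
  rintro _ ⟨j, rfl⟩
  exact (mem_Perp f _).2 (fun i => hf.2 i j)

theorem isFr_cons {k : ℕ} (f : Fin k → Fin m ⊕ Fin m → F) (x : Fin m ⊕ Fin m → F) :
    IsFr (Fin.cons x f : Fin (k+1) → Fin m ⊕ Fin m → F) ↔
      IsFr f ∧ x ∈ Perp f ∧ x ∉ Submodule.span F (Set.range f) := by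
  unfold IsFr
  rw [linearIndependent_fin_cons, mem_Perp]
  constructor
  · rintro ⟨⟨h1, h2⟩, h3⟩
    refine ⟨⟨h1, fun i j => ?_⟩, fun i => ?_, h2⟩
    · have := h3 i.succ j.succ
      simpa using this
    · have := h3 i.succ 0
      simpa using this
  · rintro ⟨⟨h1, h3⟩, h4, h2⟩
    refine ⟨⟨h1, h2⟩, fun i j => ?_⟩
    refine Fin.cases ?_ (fun i' => ?_) i <;> refine Fin.cases ?_ (fun j' => ?_) j
    · simp only [Fin.cons_zero]; exact om_self _
    · simp only [Fin.cons_zero, Fin.cons_succ]; rw [om_swap, h4, neg_zero]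
    · simp only [Fin.cons_zero, Fin.cons_succ]; exact h4 _
    · simp only [Fin.cons_succ]; exact h3 _ _

theorem card_fr_succ [Fintype F] (k : ℕ) :
    Nat.card {f : Fin (k+1) → Fin m ⊕ Fin m → F // IsFr f} =
      Nat.card {f : Fin k → Fin m ⊕ Fin m → F // IsFr f} *
        (Fintype.card F ^ (2 * m - k) - Fintype.card F ^ k) := by
  classical
  letI : Fintype {f : Fin k → Fin m ⊕ Fin m → F // IsFr f} := Fintype.ofFinite _
  let φ : {f : Fin (k+1) → Fin m ⊕ Fin m → F // IsFr f} →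
      {f : Fin k → Fin m ⊕ Fin m → F // IsFr f} :=
    fun f => ⟨Fin.tail f.1,
      ((isFr_cons (Fin.tail f.1) (f.1 0)).1 (by rw [Fin.cons_self_tail]; exact f.2)).1⟩
  rw [Nat.card_congr (Equiv.sigmaFiberEquiv φ).symm, Nat.card_sigma]
  have hfib : ∀ f : {f : Fin k → Fin m ⊕ Fin m → F // IsFr f},
      Nat.card {p // φ p = f} = Fintype.card F ^ (2 * m - k) - Fintype.card F ^ k := by
    intro f
    have h1 := Cfsg.Agent.S0828.card_diff (V := Fin m ⊕ Fin m → F) (fun x => x ∈ Perp f.1)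
      (fun x => x ∈ Submodule.span F (Set.range f.1)) (fun x hx => span_le_Perp f.1 f.2 hx)
    have h2 : Nat.card {x // x ∈ Perp f.1} = Fintype.card F ^ (2 * m - k) := by
      have := Module.natCard_eq_pow_finrank (K := F) (V := Perp f.1)
      rw [finrank_Perp f.1 f.2.1, Nat.card_eq_fintype_card (α := F)] at this
      exact this
    have h3 : Nat.card {x // x ∈ Submodule.span F (Set.range f.1)} = Fintype.card F ^ k := by
      have := Module.natCard_eq_pow_finrank (K := F) (V := Submodule.span F (Set.range f.1))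
      rw [finrank_span_eq_card f.2.1, Fintype.card_fin, Nat.card_eq_fintype_card (α := F)] at this
      exact this
    rw [h2, h3] at h1
    rw [← h1, Nat.add_sub_cancel]
    refine Nat.card_congr
      { toFun := fun p => ⟨p.1.1 0, by
            have h := (isFr_cons (Fin.tail p.1.1) (p.1.1 0)).1
              (by rw [Fin.cons_self_tail]; exact p.1.2)
            have h5 : Fin.tail p.1.1 = f.1 := congrArg Subtype.val p.2
            rw [h5] at h
            exact h.2⟩
        invFun := fun x => ⟨⟨Fin.cons x.1 f.1, (isFr_cons f.1 x.1).2 ⟨f.2, x.2⟩⟩,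
          Subtype.ext (by
            show Fin.tail (Fin.cons x.1 f.1 : Fin (k+1) → Fin m ⊕ Fin m → F) = f.1
            exact Fin.tail_cons _ _)⟩
        left_inv := fun p => by
          apply Subtype.ext
          apply Subtype.ext
          have h5 : Fin.tail p.1.1 = f.1 := congrArg Subtype.val p.2
          show Fin.cons (p.1.1 0) f.1 = p.1.1
          rw [← h5]
          exact Fin.cons_self_tail _
        right_inv := fun x => Subtype.ext (by simp) }
  rw [Finset.sum_congr rfl (fun f _ => hfib f), Finset.sum_const, Finset.card_univ, smul_eq_mul,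
    Nat.card_eq_fintype_card]

theorem card_fr [Fintype F] (k : ℕ) :
    Nat.card {f : Fin k → Fin m ⊕ Fin m → F // IsFr f} =
      ∏ i ∈ Finset.range k, (Fintype.card F ^ (2 * m - i) - Fintype.card F ^ i) := by
  induction k with
  | zero =>
    rw [Finset.prod_range_zero]
    haveI : Unique {f : Fin 0 → Fin m ⊕ Fin m → F // IsFr f} :=
      ⟨⟨⟨fun i => i.elim0, linearIndependent_empty_type, fun i => i.elim0⟩⟩,
        fun f => Subtype.ext (funext fun i => i.elim0)⟩
    exact Nat.card_unique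
  | succ k ih => rw [card_fr_succ, ih, Finset.prod_range_succ]

theorem step_fix {k : ℕ} (f : Fin k → Fin m ⊕ Fin m → F) (w z : Fin m ⊕ Fin m → F)
    (hw : w ∈ Perp f) (hz : z ∈ Perp f) (h : om w z ≠ 0) :
    ∃ M : Matrix (Fin m ⊕ Fin m) (Fin m ⊕ Fin m) F, IsSp M ∧ M *ᵥ w = z ∧ ∀ i, M *ᵥ f i = f i := by
  refine ⟨tv (w - z) (-(om w z)⁻¹), tv_isSp _ _, ?_, fun i => ?_⟩
  · rw [tv_mulVec, om_sub_left, om_self, om_swap z w, zero_sub, neg_neg, neg_mul,
      inv_mul_cancel₀ h, neg_smul, one_smul]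
    abel
  · rw [tv_mulVec, om_sub_left, om_swap w (f i), om_swap z (f i), (mem_Perp f w).1 hw i,
      (mem_Perp f z).1 hz i]
    simp

theorem exists_wit {k : ℕ} (f : Fin k → Fin m ⊕ Fin m → F) (w : Fin m ⊕ Fin m → F)
    (hw : w ∉ Submodule.span F (Set.range f)) : ∃ x ∈ Perp f, om w x ≠ 0 := by
  by_contra hcon
  push_neg at hcon
  apply hw
  rw [← LinearMap.BilinForm.orthogonal_orthogonal omB_nondeg omB_refl
    (Submodule.span F (Set.range f))]
  intro n hn
  show om n w = 0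
  rw [om_swap, hcon n hn, neg_zero]

theorem trans1 {k : ℕ} (f : Fin k → Fin m ⊕ Fin m → F) (w w' : Fin m ⊕ Fin m → F)
    (hw : w ∈ Perp f) (hw' : w' ∈ Perp f) (hws : w ∉ Submodule.span F (Set.range f))
    (hws' : w' ∉ Submodule.span F (Set.range f)) :
    ∃ M : Matrix (Fin m ⊕ Fin m) (Fin m ⊕ Fin m) F, IsSp M ∧ M *ᵥ w = w' ∧
      ∀ i, M *ᵥ f i = f i := by
  by_cases h : om w w' = 0
  · obtain ⟨z, hz, hz1, hz2⟩ : ∃ z ∈ Perp f, om w z ≠ 0 ∧ om z w' ≠ 0 := by
      obtain ⟨x1, hx1, h1⟩ := exists_wit f w hws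
      obtain ⟨x2, hx2, h2⟩ := exists_wit f w' hws'
      by_cases h3 : om w' x1 = 0
      · by_cases h4 : om w x2 = 0
        · refine ⟨x1 + x2, (Perp f).add_mem hx1 hx2, ?_, ?_⟩
          · rw [om_add_right, h4, add_zero]; exact h1
          · rw [om_swap, om_add_right, h3, zero_add, neg_ne_zero]; exact h2
        · exact ⟨x2, hx2, h4, by rw [om_swap, neg_ne_zero]; exact h2⟩
      · exact ⟨x1, hx1, h1, by rw [om_swap, neg_ne_zero]; exact h3⟩
    obtain ⟨M1, hM1, hM1w, hM1f⟩ := step_fix f w z hw hz hz1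
    obtain ⟨M2, hM2, hM2w, hM2f⟩ := step_fix f z w' hz hw' hz2
    refine ⟨M2 * M1, isSp_mul _ _ hM2 hM1, ?_, fun i => ?_⟩
    · rw [← Matrix.mulVec_mulVec, hM1w, hM2w]
    · rw [← Matrix.mulVec_mulVec, hM1f, hM2f]
  · exact step_fix f w w' hw hw' h

theorem isSp_inj (M : Matrix (Fin m ⊕ Fin m) (Fin m ⊕ Fin m) F) (hM : IsSp M)
    (x : Fin m ⊕ Fin m → F) (h : M *ᵥ x = 0) : x = 0 := by
  by_contra hx
  obtain ⟨e, he⟩ := exists_nondeg x hx
  apply he
  rw [← hM x e, h, om_zero_left]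

theorem isFr_map {k : ℕ} (M : Matrix (Fin m ⊕ Fin m) (Fin m ⊕ Fin m) F) (hM : IsSp M)
    (f : Fin k → Fin m ⊕ Fin m → F) (hf : IsFr f) : IsFr (fun i => M *ᵥ f i) := by
  refine ⟨?_, fun i j => by rw [hM]; exact hf.2 i j⟩
  have h1 := hf.1.map' (Matrix.mulVecLin M) (by
    rw [LinearMap.ker_eq_bot']
    intro x hx
    exact isSp_inj M hM x hx)
  exact h1

theorem trans_fr : ∀ (k : ℕ) (f f' : Fin k → Fin m ⊕ Fin m → F), IsFr f → IsFr f' →
    ∃ M : Matrix (Fin m ⊕ Fin m) (Fin m ⊕ Fin m) F, IsSp M ∧ ∀ i, M *ᵥ f i = f' i := by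
  intro k
  induction k with
  | zero =>
    intro f f' _ _
    exact ⟨1, fun x y => by rw [Matrix.one_mulVec, Matrix.one_mulVec], fun i => i.elim0⟩
  | succ k ih =>
    intro f f' hf0 hf'
    have hf := hf0
    rw [← Fin.cons_self_tail f, isFr_cons] at hf
    rw [← Fin.cons_self_tail f', isFr_cons] at hf'
    obtain ⟨M, hM, hMf⟩ := ih (Fin.tail f) (Fin.tail f') hf.1 hf'.1
    have hf2 : IsFr (fun i => M *ᵥ f i) := isFr_map M hM f hf0
    have ht : Fin.tail (fun i => M *ᵥ f i) = Fin.tail f' := funext (fun i => hMf i)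
    rw [← Fin.cons_self_tail (fun i => M *ᵥ f i), isFr_cons, ht] at hf2
    obtain ⟨M2, hM2, hM2w, hM2f⟩ :=
      trans1 (Fin.tail f') (M *ᵥ f 0) (f' 0) hf2.2.1 hf'.2.1 hf2.2.2 hf'.2.2
    refine ⟨M2 * M, isSp_mul _ _ hM2 hM, ?_⟩
    intro i
    rw [← Matrix.mulVec_mulVec]
    refine Fin.cases ?_ (fun j => ?_) i
    · exact hM2w
    · rw [show M *ᵥ f j.succ = Fin.tail f' j from hMf j]
      exact hM2f j

end

theorem orb {G : Type*} [Group G] [Finite G] {X : Type*} (φ : G → X) (T : X → Prop)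
    (S : G → Prop) (h1 : ∀ g, T (φ g)) (h2 : ∀ x, T x → ∃ g, φ g = x)
    (h3 : ∀ g₀ g, φ g = φ g₀ ↔ S (g₀⁻¹ * g)) :
    Nat.card G = Nat.card {x // T x} * Nat.card {g : G // S g} := by
  classical
  haveI : Finite {x // T x} :=
    Finite.of_surjective (fun g : G => (⟨φ g, h1 g⟩ : {x // T x})) (fun x => by
      obtain ⟨g, hg⟩ := h2 x.1 x.2
      exact ⟨g, Subtype.ext hg⟩)
  letI : Fintype {x // T x} := Fintype.ofFinite _
  let ψ : G → {x // T x} := fun g => ⟨φ g, h1 g⟩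
  rw [Nat.card_congr (Equiv.sigmaFiberEquiv ψ).symm, Nat.card_sigma]
  have hfib : ∀ x : {x // T x}, Nat.card {g // ψ g = x} = Nat.card {g : G // S g} := by
    intro x
    obtain ⟨g₀, hg₀⟩ := h2 x.1 x.2
    refine Nat.card_congr
      { toFun := fun g => ⟨g₀⁻¹ * g.1, (h3 g₀ g.1).1 (by
            rw [hg₀]; exact congrArg Subtype.val g.2)⟩
        invFun := fun g => ⟨g₀ * g.1, Subtype.ext (by
          show φ (g₀ * g.1) = x.1
          rw [← hg₀]
          exact (h3 g₀ (g₀ * g.1)).2 (by rw [inv_mul_cancel_left]; exact g.2))⟩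
        left_inv := fun g => Subtype.ext (by simp)
        right_inv := fun g => Subtype.ext (by simp) }
  rw [Finset.sum_congr rfl (fun x _ => hfib x), Finset.sum_const, Finset.card_univ, smul_eq_mul,
    Nat.card_eq_fintype_card (α := {x // T x})]

theorem fix_iff {F : Type*} [Field F] {G : Type*} [Group G] {ι κ : Type} [Fintype ι]
    [DecidableEq ι] (ρ : G →* Matrix ι ι F) (f : κ → ι → F) (g₀ g : G) :
    (∀ i, ρ g *ᵥ f i = ρ g₀ *ᵥ f i) ↔ ∀ i, ρ (g₀⁻¹ * g) *ᵥ f i = f i := by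
  constructor
  · intro h i
    rw [map_mul, ← Matrix.mulVec_mulVec, h i, Matrix.mulVec_mulVec, ← map_mul, inv_mul_cancel,
      map_one, Matrix.one_mulVec]
  · intro h i
    have h4 := congrArg (fun v => ρ g₀ *ᵥ v) (h i)
    simp only [Matrix.mulVec_mulVec, ← map_mul, mul_inv_cancel_left] at h4
    exact h4

theorem arith (q m : ℕ) : ∀ k, k ≤ m →
    q ^ (k * (k + 1) / 2 + 2 * k * (m - k)) *
      (q ^ ((m - k) ^ 2) * ∏ i ∈ Finset.range (m - k), (q ^ (2 * (i + 1)) - 1)) *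
      ∏ i ∈ Finset.range k, (q ^ (2 * m - i) - q ^ i) =
    q ^ (m ^ 2) * ∏ i ∈ Finset.range m, (q ^ (2 * (i + 1)) - 1) := by
  intro k
  induction k with
  | zero => intro _; simp
  | succ k ih =>
    intro hk
    have ih' := ih (by omega)
    obtain ⟨j, hj⟩ : ∃ j, m = k + j + 1 := ⟨m - (k + 1), by omega⟩
    subst hj
    rw [← ih']
    have e1 : k + j + 1 - (k + 1) = j := by omega
    have e2 : k + j + 1 - k = j + 1 := by omega
    rw [e1, e2, Finset.prod_range_succ (fun i => q ^ (2 * (k + j + 1) - i) - q ^ i) k,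
      Finset.prod_range_succ (fun i => q ^ (2 * (i + 1)) - 1) j]
    have e3 : q ^ (2 * (k + j + 1) - k) - q ^ k = q ^ k * (q ^ (2 * (j + 1)) - 1) := by
      rw [Nat.mul_sub, mul_one, ← pow_add]
      congr 2
      omega
    have e4 : (k + 1) * (k + 1 + 1) / 2 = k * (k + 1) / 2 + (k + 1) := by
      have : (k + 1) * (k + 1 + 1) = k * (k + 1) + 2 * (k + 1) := by ring
      rw [this, Nat.add_mul_div_left _ _ (by norm_num)]
    rw [e3, e4]
    generalize ∏ i ∈ Finset.range j, (q ^ (2 * (i + 1)) - 1) = P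
    generalize ∏ i ∈ Finset.range k, (q ^ (2 * (k + j + 1) - i) - q ^ i) = X
    generalize q ^ (2 * (j + 1)) - 1 = Y
    generalize k * (k + 1) / 2 = t
    ring

theorem main {F : Type*} [Field F] [Fintype F] {q : ℕ} (hF : Fintype.card F = q) (m k : ℕ) (hk : k ≤ m) (W : Submodule F (Fin m ⊕ Fin m → F)) (hWk : Module.finrank F W = k) (hW : ∀ u ∈ W, ∀ v ∈ W, Cfsg.sympForm m F u v = 0) : Nat.card ↥(Cfsg.stabilizing (Cfsg.spToMat m F) (W : Set (Fin m ⊕ Fin m → F))) = q ^ (k * (k + 1) / 2 + 2 * k * (m - k)) * (q ^ ((m - k) ^ 2) * ∏ i ∈ Finset.range (m - k), (q ^ (2 * (i + 1)) - 1)) * ∏ i : Fin k, (q ^ k - q ^ (i : ℕ)) := by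
  classical
  have hW' : ∀ u ∈ W, ∀ v ∈ W, om u v = 0 := fun u hu v hv => by
    rw [om_eq]; exact hW u hu v hv
  let b : Module.Basis (Fin k) F W := Module.finBasisOfFinrankEq F W hWk
  obtain ⟨f, hf⟩ : ∃ f : Fin k → Fin m ⊕ Fin m → F, f = fun i => (b i).1 := ⟨_, rfl⟩
  have hfW : ∀ i, f i ∈ W := fun i => by rw [hf]; exact (b i).2
  have hfLI : LinearIndependent F f := by
    rw [hf]
    exact b.linearIndependent.map' W.subtype (Submodule.ker_subtype W)
  have hfr : IsFr f := ⟨hfLI, fun i j => hW' _ (hfW i) _ (hfW j)⟩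
  have hrep : ∀ v ∈ W, ∃ c : Fin k → F, v = ∑ i, c i • f i := by
    intro v hv
    refine ⟨fun i => b.repr ⟨v, hv⟩ i, ?_⟩
    have h1 := congrArg Subtype.val (b.sum_repr ⟨v, hv⟩)
    rw [hf]
    simp only [Submodule.coe_sum, Submodule.coe_smul] at h1
    exact h1.symm
  have e1 := orb (G := symplecticGroup (Fin m) F) (φ := fun g => (fun i => g.1 *ᵥ f i))
    (T := IsFr) (S := fun g => ∀ i, g.1 *ᵥ f i = f i)
    (fun g => isFr_map g.1 ((mem_sp_iff _).1 g.2) f hfr)
    (fun x hx => by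
      obtain ⟨M, hM, hMf⟩ := trans_fr k f x hfr hx
      exact ⟨⟨M, (mem_sp_iff _).2 hM⟩, funext hMf⟩)
    (fun g₀ g => by
      have h := fix_iff (spToMat m F) f g₀ g
      constructor
      · intro h' 
        exact h.1 (fun i => congrFun h' i)
      · intro h'
        funext i
        exact h.2 h' i)
  obtain ⟨St, hSt⟩ : ∃ St, St = Cfsg.stabilizing (Cfsg.spToMat m F)
    (W : Set (Fin m ⊕ Fin m → F)) := ⟨_, rfl⟩
  rw [← hSt]
  have hSt' : ∀ x : symplecticGroup (Fin m) F, x ∈ St → ∀ v : Fin m ⊕ Fin m → F,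
      v ∈ W → x.1 *ᵥ v ∈ W := by
    intro x hx v hv
    rw [hSt] at hx
    exact (hx v).1 hv
  have hmemW : ∀ (g : St) (v : Fin m ⊕ Fin m → F), v ∈ W → g.1.1 *ᵥ v ∈ W := fun g v hv =>
    hSt' g.1 g.2 v hv
  have hgen : ∀ (M : Matrix (Fin m ⊕ Fin m) (Fin m ⊕ Fin m) F), (∀ i, M *ᵥ f i ∈ W) →
      ∀ v ∈ W, M *ᵥ v ∈ W := by
    intro M hM v hv
    obtain ⟨c, rfl⟩ := hrep v hv
    rw [Matrix.mulVec_sum]
    refine W.sum_mem (fun i _ => ?_)
    rw [Matrix.mulVec_smul]
    exact W.smul_mem _ (hM i)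
  have e2 := orb (G := St) (X := Fin k → W)
    (φ := fun g => (fun i => (⟨g.1.1 *ᵥ f i, hmemW g _ (hfW i)⟩ : W)))
    (T := fun x => LinearIndependent F x) (S := fun g => ∀ i, g.1.1 *ᵥ f i = f i)
    (fun g => by
       have h1 : IsFr (fun i => g.1.1 *ᵥ f i) := isFr_map g.1.1 ((mem_sp_iff _).1 g.1.2) f hfr
       exact LinearIndependent.of_comp W.subtype h1.1)
    (fun x hx => by
       have hx' : IsFr (fun i => (x i).1) :=
         ⟨hx.map' W.subtype (Submodule.ker_subtype W), fun i j => hW' _ (x i).2 _ (x j).2⟩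
       obtain ⟨M, hM, hMf⟩ := trans_fr k f _ hfr hx'
       have hMW : ∀ v ∈ W, M *ᵥ v ∈ W := hgen M (fun i => by rw [hMf]; exact (x i).2)
       refine ⟨⟨⟨M, (mem_sp_iff _).2 hM⟩, by
         rw [hSt]; exact Cfsg.Agent.S0774.stab_of_maps _ _ hMW⟩, ?_⟩
       funext i
       exact Subtype.ext (hMf i))
    (fun g₀ g => by
       have h := fix_iff ((spToMat m F).comp St.subtype) f g₀ g
       constructor
       · intro h'
         exact h.1 (fun i => congrArg Subtype.val (congrFun h' i))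
       · intro h'
         funext i
         exact Subtype.ext (h.2 h' i))
  have e3 : Nat.card {g : St // ∀ i, g.1.1 *ᵥ f i = f i} =
      Nat.card {g : symplecticGroup (Fin m) F // ∀ i, g.1 *ᵥ f i = f i} := by
    refine Nat.card_congr
      { toFun := fun g => ⟨g.1.1, g.2⟩
        invFun := fun g => ⟨⟨g.1, by
            rw [hSt]
            exact Cfsg.Agent.S0774.stab_of_maps _ _
              (hgen g.1.1 (fun i => by rw [g.2 i]; exact hfW i))⟩, g.2⟩
        left_inv := fun g => rfl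
        right_inv := fun g => rfl }
  have e4 : Nat.card {x : Fin k → W // LinearIndependent F x} =
      ∏ i : Fin k, (q ^ k - q ^ (i : ℕ)) := by
    have h := card_linearIndependent (K := F) (V := W) (k := k) (by rw [hWk])
    rw [hWk, hF] at h
    exact h
  have e5 := Cfsg.Agent.Lib.Helper1.Symp.card_sp (F := F) m
  have e6 := card_fr (F := F) (m := m) k
  have e7 := arith q m k hk
  rw [hF] at e5 e6
  rw [e2, e3, e4]
  have hpos : 0 < Nat.card {f : Fin k → Fin m ⊕ Fin m → F // IsFr f} := by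
    haveI : Nonempty {f : Fin k → Fin m ⊕ Fin m → F // IsFr f} := ⟨⟨f, hfr⟩⟩
    exact Nat.card_pos
  have e8 : Nat.card {g : symplecticGroup (Fin m) F // ∀ i, g.1 *ᵥ f i = f i} =
      q ^ (k * (k + 1) / 2 + 2 * k * (m - k)) *
      (q ^ ((m - k) ^ 2) * ∏ i ∈ Finset.range (m - k), (q ^ (2 * (i + 1)) - 1)) := by
    apply Nat.eq_of_mul_eq_mul_left hpos
    rw [← e1, e5, ← e7, e6]
    ring
  rw [e8]
  ring

theorem result {F : Type*} [Field F] [Fintype F] {q : ℕ} (hF : Fintype.card F = q) (m k : ℕ) (hk : k ≤ m) (W : Submodule F (Fin m ⊕ Fin m → F)) (hWk : Module.finrank F W = k) (hW : ∀ u ∈ W, ∀ v ∈ W, Cfsg.sympForm m F u v = 0) : Nat.card ↥(Cfsg.stabilizing (Cfsg.spToMat m F) (W : Set (Fin m ⊕ Fin m → F))) = q ^ (k * (k + 1) / 2 + 2 * k * (m - k)) * (q ^ ((m - k) ^ 2) * ∏ i ∈ Finset.range (m - k), (q ^ (2 * (i + 1)) - 1)) * ∏ i : Fin k, (q ^ k - q ^ (i : ℕ)) := by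
  exact main hF m k hk W hWk hW

end Cfsg.Agent.S0775
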