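import Cfsg.Statements.S0777
import Cfsg.Agent.Lib.Helper1.Symp
import Cfsg.Agent.S0774

set_option autoImplicit false
open Cfsg


namespace Cfsg.Agent.S0777

open Matrix Cfsg.Agent.Lib.Helper1.Symp

section
variable {F : Type*} [Field F] {m : ℕ}

/-- standard basis vector -/
def e (i : Fin m ⊕ Fin m) : Fin m ⊕ Fin m → F := Pi.single i 1

theorem e_apply (i j : Fin m ⊕ Fin m) : (e i : Fin m ⊕ Fin m → F) j = if j = i then 1 else 0 := by
  unfold e
  rw [Pi.single_apply]

def side (b : Bool) (x : Fin m) : Fin m ⊕ Fin m := if b then Sum.inr x else Sum.inl x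

def idx (j : Fin m ⊕ Fin m) : Fin m := Sum.elim id id j

theorem side_idx (j : Fin m ⊕ Fin m) : side j.isRight (idx j) = j := by
  rcases j with k | k <;> rfl

theorem side_inj (b b' : Bool) (x y : Fin m) (h : side b x = side b' y) : b = b' ∧ x = y := by
  cases b <;> cases b' <;> simp [side] at h ⊢ <;> exact h

theorem om_ll (k l : Fin m) : om (e (Sum.inl k) : Fin m ⊕ Fin m → F) (e (Sum.inl l)) = 0 := by
  unfold om
  simp [e_apply]

theorem om_rr (k l : Fin m) : om (e (Sum.inr k) : Fin m ⊕ Fin m → F) (e (Sum.inr l)) = 0 := by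
  unfold om
  simp [e_apply]

theorem om_lr (k l : Fin m) :
    om (e (Sum.inl k) : Fin m ⊕ Fin m → F) (e (Sum.inr l)) = if k = l then -1 else 0 := by
  unfold om
  by_cases h : k = l
  · subst h
    simp [e_apply]
  · simp [e_apply, h, Ne.symm h]

theorem om_rl (k l : Fin m) :
    om (e (Sum.inr k) : Fin m ⊕ Fin m → F) (e (Sum.inl l)) = if k = l then 1 else 0 := by
  unfold om
  by_cases h : k = l
  · subst h
    simp [e_apply]
  · simp [e_apply, h, Ne.symm h]

theorem om_side (b b' : Bool) (x y : Fin m) :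
    om (e (side b x) : Fin m ⊕ Fin m → F) (e (side b' y))
      = if x = y then (if b = b' then 0 else if b then 1 else -1) else 0 := by
  cases b <;> cases b' <;> simp [side, om_ll, om_lr, om_rl, om_rr]

theorem entry_eq (N : Matrix (Fin m ⊕ Fin m) (Fin m ⊕ Fin m) F) (a b : Fin m ⊕ Fin m) :
    N a b = (e a : Fin m ⊕ Fin m → F) ⬝ᵥ (N *ᵥ e b) := by
  unfold e
  rw [Matrix.mulVec_single_one, single_one_dotProduct]
  rfl

theorem key (M : Matrix (Fin m ⊕ Fin m) (Fin m ⊕ Fin m) F) (x y : Fin m ⊕ Fin m → F) :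
    om (M *ᵥ x) (M *ᵥ y) = x ⬝ᵥ ((Mᵀ * J (Fin m) F * M) *ᵥ y) := by
  rw [om_eq]
  have h1 : (Mᵀ * J (Fin m) F * M) *ᵥ y = Mᵀ *ᵥ (J (Fin m) F *ᵥ (M *ᵥ y)) := by
    rw [Matrix.mulVec_mulVec, Matrix.mulVec_mulVec]
  rw [h1, Matrix.dotProduct_mulVec x Mᵀ, Matrix.vecMul_transpose]

theorem isSp_of_basis (M : Matrix (Fin m ⊕ Fin m) (Fin m ⊕ Fin m) F)
    (h : ∀ a b, om (M *ᵥ e a) (M *ᵥ e b) = om (e a : Fin m ⊕ Fin m → F) (e b)) : IsSp M := by
  rw [← mem_sp_iff, SymplecticGroup.mem_iff']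
  ext a b
  rw [entry_eq (Mᵀ * J (Fin m) F * M) a b, ← key, h, om_eq, ← entry_eq]

/-- index map -/
def pim (σ : Equiv.Perm (Fin m)) (s : Fin m → Bool) : Fin m ⊕ Fin m → Fin m ⊕ Fin m
  | Sum.inl k => side (s k) (σ k)
  | Sum.inr k => side (!s k) (σ k)

def coef (s : Fin m → Bool) (c : Fin m → Fˣ) : Fin m ⊕ Fin m → F
  | Sum.inl k => (c k : F)
  | Sum.inr k => (if s k then -1 else 1) * (((c k)⁻¹ : Fˣ) : F)

def mono (σ : Equiv.Perm (Fin m)) (s : Fin m → Bool) (c : Fin m → Fˣ) :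
    Matrix (Fin m ⊕ Fin m) (Fin m ⊕ Fin m) F :=
  Matrix.of fun a b => if a = pim σ s b then coef s c b else 0

theorem mono_e (σ : Equiv.Perm (Fin m)) (s : Fin m → Bool) (c : Fin m → Fˣ)
    (b : Fin m ⊕ Fin m) : mono σ s c *ᵥ e b = coef s c b • e (pim σ s b) := by
  unfold e
  rw [Matrix.mulVec_single_one]
  funext a
  simp [mono, Pi.single_apply]

theorem mono_isSp (σ : Equiv.Perm (Fin m)) (s : Fin m → Bool) (c : Fin m → Fˣ) :
    IsSp (mono σ s c) := by
  apply isSp_of_basis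
  intro a b
  rw [mono_e, mono_e, om_smul_left, om_smul_right]
  rcases a with k | k <;> rcases b with l | l
  · rw [om_ll]
    show (c k : F) * ((c l : F) * om (e (side (s k) (σ k))) (e (side (s l) (σ l)))) = 0
    rw [om_side]
    by_cases h : k = l
    · subst h
      simp
    · simp [σ.injective.ne h]
  · rw [om_lr]
    show (c k : F) * (((if s l then -1 else 1) * (((c l)⁻¹ : Fˣ) : F))
      * om (e (side (s k) (σ k))) (e (side (!s l) (σ l)))) = _
    rw [om_side]
    by_cases h : k = l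
    · subst h
      cases hs : s k <;> simp
    · simp [σ.injective.ne h, h]
  · rw [om_rl]
    show ((if s k then -1 else 1) * (((c k)⁻¹ : Fˣ) : F))
      * ((c l : F) * om (e (side (!s k) (σ k))) (e (side (s l) (σ l)))) = _
    rw [om_side]
    by_cases h : k = l
    · subst h
      cases hs : s k <;> simp
    · simp [σ.injective.ne h, h]
  · rw [om_rr]
    show ((if s k then -1 else 1) * (((c k)⁻¹ : Fˣ) : F))
      * (((if s l then -1 else 1) * (((c l)⁻¹ : Fˣ) : F))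
      * om (e (side (!s k) (σ k))) (e (side (!s l) (σ l)))) = 0
    rw [om_side]
    by_cases h : k = l
    · subst h
      simp
    · simp [σ.injective.ne h]

def IsMon (M : Matrix (Fin m ⊕ Fin m) (Fin m ⊕ Fin m) F) : Prop :=
  ∀ i, ∃ j, ∃ a : F, M *ᵥ e i = a • e j

def IsDiag (M : Matrix (Fin m ⊕ Fin m) (Fin m ⊕ Fin m) F) : Prop :=
  ∀ i, ∃ a : F, M *ᵥ e i = a • e i

/-- the torus, as a set -/
def Tor (F : Type*) [Field F] (m : ℕ) : Set (symplecticGroup (Fin m) F) :=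
  ⨅ i : Fin m ⊕ Fin m, ((Cfsg.stabilizing (Cfsg.spToMat m F)
    ((Submodule.span F {(Pi.single i (1 : F) : Fin m ⊕ Fin m → F)} :
      Submodule F (Fin m ⊕ Fin m → F)) : Set (Fin m ⊕ Fin m → F)) :
        Subgroup (symplecticGroup (Fin m) F)) : Set (symplecticGroup (Fin m) F))

theorem e_ne (i : Fin m ⊕ Fin m) : (e i : Fin m ⊕ Fin m → F) ≠ 0 := by
  intro h
  have h1 := congrFun h i
  rw [e_apply, if_pos rfl] at h1
  exact one_ne_zero h1

theorem g_inj (g : symplecticGroup (Fin m) F) (a b : Fin m ⊕ Fin m → F)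
    (h1 : g.1 *ᵥ a = g.1 *ᵥ b) : a = b := by
  have h2 : (g⁻¹).1 * g.1 = 1 := congrArg Subtype.val (inv_mul_cancel g)
  have h3 := congrArg (fun w => (g⁻¹).1 *ᵥ w) h1
  simp only [Matrix.mulVec_mulVec, h2, Matrix.one_mulVec] at h3
  exact h3

theorem g_inv_apply (g : symplecticGroup (Fin m) F) (x y : Fin m ⊕ Fin m → F)
    (h : g.1 *ᵥ x = y) : (g⁻¹).1 *ᵥ y = x := by
  have h2 : (g⁻¹).1 * g.1 = 1 := congrArg Subtype.val (inv_mul_cancel g)
  rw [← h, Matrix.mulVec_mulVec, h2, Matrix.one_mulVec]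

theorem tor_iff [Fintype F] (t : symplecticGroup (Fin m) F) : t ∈ Tor F m ↔ IsDiag t.1 := by
  unfold Tor
  rw [Set.iInf_eq_iInter, Set.mem_iInter]
  constructor
  · intro ht i
    have h1 := ((ht i) (e i)).1 (Submodule.mem_span_singleton_self _)
    obtain ⟨a, ha⟩ := Submodule.mem_span_singleton.1 h1
    exact ⟨a, ha.symm⟩
  · intro ht i
    apply Cfsg.Agent.S0774.stab_of_maps
    intro v hv
    obtain ⟨a, rfl⟩ := Submodule.mem_span_singleton.1 hv
    obtain ⟨b, hb⟩ := ht i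
    have hb' : t.1 *ᵥ Pi.single i 1 = b • Pi.single i 1 := hb
    show t.1 *ᵥ (a • Pi.single i 1) ∈ Submodule.span F {Pi.single i 1}
    rw [Matrix.mulVec_smul, hb']
    exact Submodule.smul_mem _ _ (Submodule.smul_mem _ _ (Submodule.mem_span_singleton_self _))

theorem mon_data (g : symplecticGroup (Fin m) F) (hg : IsMon g.1) :
    ∃ (π : Fin m ⊕ Fin m → Fin m ⊕ Fin m) (a : Fin m ⊕ Fin m → F),
      (∀ i, g.1 *ᵥ e i = a i • e (π i)) ∧ (∀ i, a i ≠ 0) ∧ Function.Injective π := by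
  choose π a h using hg
  have ha : ∀ i, a i ≠ 0 := by
    intro i h0
    have h1 := h i
    rw [h0, zero_smul] at h1
    have h2 : g.1 *ᵥ e i = g.1 *ᵥ 0 := by rw [h1, Matrix.mulVec_zero]
    exact e_ne i (g_inj g _ _ h2)
  refine ⟨π, a, h, ha, ?_⟩
  intro i i' hii
  by_contra hne
  have h1 : g.1 *ᵥ (a i' • e i) = g.1 *ᵥ (a i • e i') := by
    rw [Matrix.mulVec_smul, Matrix.mulVec_smul, h i, h i', hii, smul_smul, smul_smul, mul_comm]
  have h2 := congrFun (g_inj g _ _ h1) i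
  simp [e_apply, hne] at h2
  exact ha i' h2

theorem mon_inv (g : symplecticGroup (Fin m) F) (hg : IsMon g.1) : IsMon (g⁻¹).1 := by
  obtain ⟨π, a, h, ha, hπ⟩ := mon_data g hg
  intro j
  obtain ⟨i, rfl⟩ := (Finite.injective_iff_surjective.1 hπ) j
  refine ⟨i, (a i)⁻¹, ?_⟩
  apply g_inv_apply
  rw [Matrix.mulVec_smul, h i, smul_smul, inv_mul_cancel₀ (ha i), one_smul]

theorem conj_diag (g t : symplecticGroup (Fin m) F) (hg : IsMon g.1) (ht : IsDiag t.1) :
    IsDiag (g * t * g⁻¹).1 := by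
  intro j
  obtain ⟨i, b, hb⟩ := mon_inv g hg j
  obtain ⟨c, hc⟩ := ht i
  refine ⟨c, ?_⟩
  show (g.1 * t.1 * (g⁻¹).1) *ᵥ e j = c • e j
  have h2 : g.1 * (g⁻¹).1 = 1 := congrArg Subtype.val (mul_inv_cancel g)
  rw [← Matrix.mulVec_mulVec, ← Matrix.mulVec_mulVec, hb, Matrix.mulVec_smul, hc, smul_comm,
    Matrix.mulVec_smul, ← hb, Matrix.mulVec_mulVec, h2, Matrix.one_mulVec]

theorem mon_mem_N [Fintype F] (g : symplecticGroup (Fin m) F) (hg : IsMon g.1) :
    g ∈ Subgroup.normalizer (Tor F m) := by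
  rw [Subgroup.mem_set_normalizer_iff]
  intro h
  constructor
  · intro hh
    exact (tor_iff _).2 (conj_diag g h hg ((tor_iff h).1 hh))
  · intro hh
    have h1 := conj_diag g⁻¹ (g * h * g⁻¹) (mon_inv g hg) ((tor_iff _).1 hh)
    have e1 : g⁻¹ * (g * h * g⁻¹) * g⁻¹⁻¹ = h := by group
    rw [e1] at h1
    exact (tor_iff h).2 h1

def tcoef (k : Fin m) (c : F) : Fin m ⊕ Fin m → F :=
  Sum.elim (fun j => if j = k then c else 1) (fun j => if j = k then c⁻¹ else 1)

theorem tcoef_l (k : Fin m) (c : F) : tcoef k c (Sum.inl k) = c := by simp [tcoef]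

theorem tcoef_r (k : Fin m) (c : F) : tcoef k c (Sum.inr k) = c⁻¹ := by simp [tcoef]

theorem tcoef_l_ne (k : Fin m) (c : F) (j : Fin m) (h : j ≠ k) : tcoef k c (Sum.inl j) = 1 := by
  simp [tcoef, h]

theorem tcoef_r_ne (k : Fin m) (c : F) (j : Fin m) (h : j ≠ k) : tcoef k c (Sum.inr j) = 1 := by
  simp [tcoef, h]

theorem dmat_e (k : Fin m) (c : F) (b : Fin m ⊕ Fin m) :
    Matrix.diagonal (tcoef k c) *ᵥ e b = tcoef k c b • e b := by
  unfold e
  rw [Matrix.mulVec_single_one]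
  funext a
  by_cases hab : a = b
  · subst hab
    simp [Matrix.diagonal_apply]
  · simp [Matrix.diagonal_apply, hab, Pi.single_apply]

theorem dmat_isSp (k : Fin m) (c : F) (hc : c ≠ 0) : IsSp (Matrix.diagonal (tcoef k c)) := by
  apply isSp_of_basis
  intro a b
  rw [dmat_e, dmat_e, om_smul_left, om_smul_right]
  rcases a with i | i <;> rcases b with j | j
  · rw [om_ll]
    simp
  · rw [om_lr]
    by_cases h : i = j
    · subst h
      by_cases hik : i = k
      · simp [tcoef, hik, hc]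
      · simp [tcoef, hik]
    · simp [h]
  · rw [om_rl]
    by_cases h : i = j
    · subst h
      by_cases hik : i = k
      · simp [tcoef, hik, hc]
      · simp [tcoef, hik]
    · simp [h]
  · rw [om_rr]
    simp

theorem exists_c [Fintype F] (hq : 4 ≤ Fintype.card F) : ∃ c : F, c ≠ 0 ∧ c ≠ 1 ∧ c ≠ -1 := by
  classical
  by_contra hcon
  push_neg at hcon
  have h1 : (Finset.univ : Finset F) ⊆ {0, 1, -1} := by
    intro x _
    by_cases h0 : x = 0
    · simp [h0]
    · by_cases h1 : x = 1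
      · simp [h1]
      · simp [hcon x h0 h1]
  have h2 := Finset.card_le_card h1
  have h3 : ({0, 1, -1} : Finset F).card ≤ 3 := Finset.card_le_three
  rw [Finset.card_univ] at h2
  omega

theorem N_mon [Fintype F] (hq : 4 ≤ Fintype.card F) (g : symplecticGroup (Fin m) F)
    (hg : g ∈ Subgroup.normalizer (Tor F m)) : IsMon g.1 := by
  obtain ⟨c, hc0, hc1, hcm⟩ := exists_c (F := F) hq
  have hcinv : c⁻¹ ≠ c := by
    intro h
    have h1 : c * c = 1 := by
      nth_rewrite 1 [← h]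
      exact inv_mul_cancel₀ hc0
    have h2 : (c - 1) * (c + 1) = 0 := by linear_combination h1
    rcases mul_eq_zero.1 h2 with h3 | h3
    · exact hc1 (sub_eq_zero.1 h3)
    · exact hcm (eq_neg_of_add_eq_zero_left h3)
  have hcinv1 : c⁻¹ ≠ 1 := fun h => hc1 (inv_eq_one.1 h)
  intro i
  obtain ⟨v, hv⟩ : ∃ v, v = g.1 *ᵥ e i := ⟨_, rfl⟩
  have hv0 : v ≠ 0 := by
    intro h0
    have h2 : g.1 *ᵥ e i = g.1 *ᵥ 0 := by rw [← hv, h0, Matrix.mulVec_zero]
    exact e_ne i (g_inj g _ _ h2)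
  have hev : ∀ t : symplecticGroup (Fin m) F, IsDiag t.1 → ∃ l : F, t.1 *ᵥ v = l • v := by
    intro t ht
    have ht' : t ∈ Tor F m := (tor_iff t).2 ht
    have h1 : g⁻¹ * t * g ∈ Tor F m := ((Subgroup.mem_set_normalizer_iff'').1 hg t).1 ht'
    obtain ⟨l, hl⟩ := (tor_iff _).1 h1 i
    refine ⟨l, ?_⟩
    have h2 : (g⁻¹).1 *ᵥ (t.1 *ᵥ (g.1 *ᵥ e i)) = l • e i := by
      rw [Matrix.mulVec_mulVec, Matrix.mulVec_mulVec]
      exact hl
    have h3 : g.1 *ᵥ (l • e i) = t.1 *ᵥ (g.1 *ᵥ e i) := by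
      rw [← h2, Matrix.mulVec_mulVec,
        show g.1 * (g⁻¹).1 = 1 from congrArg Subtype.val (mul_inv_cancel g), Matrix.one_mulVec]
    rw [hv, ← h3, Matrix.mulVec_smul]
  obtain ⟨a, ha⟩ : ∃ a, v a ≠ 0 := by
    by_contra hcon
    push_neg at hcon
    exact hv0 (funext hcon)
  refine ⟨a, v a, ?_⟩
  rw [← hv]
  obtain ⟨l, hl⟩ := hev ⟨Matrix.diagonal (tcoef (idx a) c), (mem_sp_iff _).2 (dmat_isSp _ c hc0)⟩
    (fun b => ⟨_, dmat_e _ _ b⟩)
  have hcomp : ∀ x, tcoef (idx a) c x * v x = l * v x := by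
    intro x
    have h1 := congrFun hl x
    rw [Matrix.mulVec_diagonal] at h1
    exact h1
  have hl' : l = tcoef (idx a) c a := (mul_right_cancel₀ ha (hcomp a)).symm
  have hzero : ∀ x, x ≠ a → v x = 0 := by
    intro x hxa
    have h1 := hcomp x
    rw [hl'] at h1
    have h2 : tcoef (idx a) c x ≠ tcoef (idx a) c a := by
      rcases a with k | k <;> rcases x with j | j
      · have hjk : j ≠ k := fun h => hxa (by rw [h])
        show tcoef k c (Sum.inl j) ≠ tcoef k c (Sum.inl k)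
        rw [tcoef_l_ne k c j hjk, tcoef_l k c]
        exact fun h => hc1 h.symm
      · show tcoef k c (Sum.inr j) ≠ tcoef k c (Sum.inl k)
        by_cases hjk : j = k
        · subst hjk
          rw [tcoef_r, tcoef_l]
          exact hcinv
        · rw [tcoef_r_ne k c j hjk, tcoef_l k c]
          exact fun h => hc1 h.symm
      · show tcoef k c (Sum.inl j) ≠ tcoef k c (Sum.inr k)
        by_cases hjk : j = k
        · subst hjk
          rw [tcoef_r, tcoef_l]
          exact fun h => hcinv h.symm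
        · rw [tcoef_l_ne k c j hjk, tcoef_r k c]
          exact fun h => hcinv1 h.symm
      · have hjk : j ≠ k := fun h => hxa (by rw [h])
        show tcoef k c (Sum.inr j) ≠ tcoef k c (Sum.inr k)
        rw [tcoef_r_ne k c j hjk, tcoef_r k c]
        exact fun h => hcinv1 h.symm
    by_contra hvx
    exact h2 (mul_right_cancel₀ hvx h1)
  funext x
  by_cases hxa : x = a
  · subst hxa
    simp [e_apply]
  · simp [e_apply, hxa, hzero x hxa]

theorem smul_e_inj (a a' : F) (i i' : Fin m ⊕ Fin m) (ha : a ≠ 0)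
    (h : a • (e i : Fin m ⊕ Fin m → F) = a' • e i') : i = i' ∧ a = a' := by
  have h1 := congrFun h i
  by_cases hii : i = i'
  · subst hii
    simp [e_apply] at h1
    exact ⟨rfl, h1⟩
  · simp [e_apply, hii] at h1
    exact absurd h1 ha

noncomputable def Phi (p : Equiv.Perm (Fin m) × (Fin m → Bool) × (Fin m → Fˣ)) :
    {g : symplecticGroup (Fin m) F // IsMon g.1} :=
  ⟨⟨mono p.1 p.2.1 p.2.2, (mem_sp_iff _).2 (mono_isSp _ _ _)⟩,
    fun i => ⟨pim p.1 p.2.1 i, coef p.2.1 p.2.2 i, mono_e _ _ _ i⟩⟩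

theorem Phi_inj : Function.Injective (Phi (F := F) (m := m)) := by
  rintro ⟨σ, s, c⟩ ⟨σ', s', c'⟩ h
  have h1 : mono σ s c = mono σ' s' c' := congrArg (fun x => x.1.1) h
  have h2 : ∀ k, σ k = σ' k ∧ s k = s' k ∧ c k = c' k := by
    intro k
    have h3 : mono σ s c *ᵥ e (Sum.inl k) = mono σ' s' c' *ᵥ e (Sum.inl k) := by rw [h1]
    rw [mono_e, mono_e] at h3
    obtain ⟨h4, h5⟩ := smul_e_inj _ _ _ _ (c k).ne_zero h3
    obtain ⟨h6, h7⟩ := side_inj _ _ _ _ h4
    exact ⟨h7, h6, Units.ext h5⟩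
  have e1 : σ = σ' := Equiv.ext (fun k => (h2 k).1)
  have e2 : s = s' := funext (fun k => (h2 k).2.1)
  have e3 : c = c' := funext (fun k => (h2 k).2.2)
  rw [e1, e2, e3]

theorem om_e_ne (x y : Fin m ⊕ Fin m) (h : om (e x : Fin m ⊕ Fin m → F) (e y) ≠ 0) :
    y = side (!x.isRight) (idx x) := by
  rcases x with k | k <;> rcases y with l | l
  · exact absurd (om_ll k l) h
  · rw [om_lr] at h
    by_cases hkl : k = l
    · subst hkl
      rfl
    · simp [hkl] at h
  · rw [om_rl] at h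
    by_cases hkl : k = l
    · subst hkl
      rfl
    · simp [hkl] at h
  · exact absurd (om_rr k l) h

theorem Phi_surj : Function.Surjective (Phi (F := F) (m := m)) := by
  rintro ⟨g, hg⟩
  obtain ⟨π, a, h, ha, hπ⟩ := mon_data g hg
  have hsp : ∀ i j, a i * (a j * om (e (π i) : Fin m ⊕ Fin m → F) (e (π j)))
      = om (e i : Fin m ⊕ Fin m → F) (e j) := by
    intro i j
    have h1 := (mem_sp_iff g.1).1 g.2 (e i) (e j)
    rw [h i, h j, om_smul_left, om_smul_right] at h1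
    exact h1
  obtain ⟨s, hs⟩ : ∃ s : Fin m → Bool, s = fun k => (π (Sum.inl k)).isRight := ⟨_, rfl⟩
  obtain ⟨σ₀, hσ₀⟩ : ∃ σ₀ : Fin m → Fin m, σ₀ = fun k => idx (π (Sum.inl k)) := ⟨_, rfl⟩
  have hl : ∀ k, π (Sum.inl k) = side (s k) (σ₀ k) := by
    intro k
    rw [hs, hσ₀]
    exact (side_idx _).symm
  have hr : ∀ k, π (Sum.inr k) = side (!s k) (σ₀ k) := by
    intro k
    have h1 := hsp (Sum.inl k) (Sum.inr k)
    rw [om_lr, if_pos rfl] at h1
    have h2 : om (e (π (Sum.inl k)) : Fin m ⊕ Fin m → F) (e (π (Sum.inr k))) ≠ 0 := by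
      intro h0
      rw [h0, mul_zero, mul_zero] at h1
      exact one_ne_zero (neg_eq_zero.1 h1.symm)
    have h3 := om_e_ne _ _ h2
    rw [h3, hs, hσ₀]
  have hcoef : ∀ k, a (Sum.inr k) = (if s k then -1 else 1) * (a (Sum.inl k))⁻¹ := by
    intro k
    have h1 := hsp (Sum.inl k) (Sum.inr k)
    rw [om_lr, if_pos rfl, hr k, hl k, om_side, if_pos rfl] at h1
    have ha1 := ha (Sum.inl k)
    cases hsk : s k
    · rw [hsk] at h1
      simp only [Bool.not_false, Bool.false_eq_true, if_false] at h1 ⊢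
      field_simp
      linear_combination -h1
    · rw [hsk] at h1
      simp only [Bool.not_true, Bool.true_eq_false, if_false, if_true] at h1 ⊢
      field_simp
      linear_combination h1
  have hσinj : Function.Injective σ₀ := by
    intro k l hkl
    by_contra hne
    by_cases hss : s k = s l
    · have h1 : π (Sum.inl k) = π (Sum.inl l) := by rw [hl, hl, hss, hkl]
      exact hne (Sum.inl.inj (hπ h1))
    · have h1 := hsp (Sum.inl k) (Sum.inl l)
      rw [om_ll, hl k, hl l, om_side, if_pos hkl, if_neg hss] at h1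
      have h2 : (if s k = true then (1 : F) else -1) ≠ 0 := by
        split_ifs <;> simp
      exact mul_ne_zero (ha _) (mul_ne_zero (ha _) h2) h1
  obtain ⟨σ, hσ⟩ : ∃ σ : Equiv.Perm (Fin m), ∀ k, σ k = σ₀ k :=
    ⟨Equiv.ofBijective σ₀ ⟨hσinj, Finite.injective_iff_surjective.1 hσinj⟩, fun k => rfl⟩
  refine ⟨(σ, s, fun k => Units.mk0 (a (Sum.inl k)) (ha _)), ?_⟩
  apply Subtype.ext
  apply Subtype.ext
  show mono σ s (fun k => Units.mk0 (a (Sum.inl k)) (ha _)) = g.1
  have hcols : ∀ b, mono σ s (fun k => Units.mk0 (a (Sum.inl k)) (ha _)) *ᵥ e b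
      = g.1 *ᵥ e b := by
    intro b
    rw [mono_e, h b]
    rcases b with k | k
    · show (a (Sum.inl k)) • e (side (s k) (σ k)) = _
      rw [hσ, ← hl]
    · show ((if s k then -1 else 1) * ((Units.mk0 (a (Sum.inl k)) (ha _))⁻¹ : Fˣ).val)
        • e (side (!s k) (σ k)) = _
      rw [hσ, ← hr, hcoef k]
      simp
  ext x b
  have h1 := congrFun (hcols b) x
  unfold e at h1
  rw [Matrix.mulVec_single_one, Matrix.mulVec_single_one] at h1
  exact h1

end

theorem main {F : Type*} [Field F] [Fintype F] {q : ℕ} (hF : Fintype.card F = q) (hq : 4 ≤ q) (m : ℕ) : Nat.card ↥(Subgroup.normalizer (⨅ i : Fin m ⊕ Fin m, Cfsg.stabilizing (Cfsg.spToMat m F) ((Submodule.span F {(Pi.single i (1 : F) : Fin m ⊕ Fin m → F)} : Submodule F (Fin m ⊕ Fin m → F)) : Set (Fin m ⊕ Fin m → F)) : Set (Matrix.symplecticGroup (Fin m) F))) = 2 ^ m * Nat.factorial m * (q - 1) ^ m := by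
  have h1 : Nat.card ↥(Subgroup.normalizer (Tor F m))
      = Nat.card {g : symplecticGroup (Fin m) F // IsMon g.1} :=
    Nat.card_congr (Equiv.subtypeEquivRight
      (fun g => ⟨N_mon (by rw [hF]; exact hq) g, mon_mem_N g⟩))
  have h2 : Nat.card {g : symplecticGroup (Fin m) F // IsMon g.1}
      = Nat.card (Equiv.Perm (Fin m) × (Fin m → Bool) × (Fin m → Fˣ)) :=
    (Nat.card_congr (Equiv.ofBijective Phi ⟨Phi_inj, Phi_surj⟩)).symm
  refine h1.trans (h2.trans ?_)
  rw [Nat.card_prod, Nat.card_prod, Nat.card_perm, Nat.card_fun, Nat.card_fun, Nat.card_units,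
    Nat.card_eq_fintype_card (α := F), hF]
  simp
  ring

theorem result {F : Type*} [Field F] [Fintype F] {q : ℕ} (hF : Fintype.card F = q) (hq : 4 ≤ q) (m : ℕ) : Nat.card ↥(Subgroup.normalizer (⨅ i : Fin m ⊕ Fin m, Cfsg.stabilizing (Cfsg.spToMat m F) ((Submodule.span F {(Pi.single i (1 : F) : Fin m ⊕ Fin m → F)} : Submodule F (Fin m ⊕ Fin m → F)) : Set (Fin m ⊕ Fin m → F)) : Set (Matrix.symplecticGroup (Fin m) F))) = 2 ^ m * Nat.factorial m * (q - 1) ^ m := by
  exact main hF hq m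

end Cfsg.Agent.S0777
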