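import Cfsg.Statements.S2644
import Cfsg.Agent.Lib.Helper1.HermSU

set_option autoImplicit false
open Cfsg


namespace Cfsg.Agent.S2644

open Matrix Cfsg.Agent.Lib.Helper1.Herm

variable {K : Type*} [Field K] {q : ℕ} {ι : Type} [Fintype ι]

theorem hf_add_left (u u' v : ι → K) : hf ι q (u + u') v = hf ι q u v + hf ι q u' v := by
  unfold hf
  rw [← Finset.sum_add_distrib]
  exact Finset.sum_congr rfl (fun i _ => by rw [Pi.add_apply, add_mul])

theorem hf_add_right (σ : K →+* K) (hσ : ∀ x, σ x = x ^ q) (u v v' : ι → K) :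
    hf ι q u (v + v') = hf ι q u v + hf ι q u v' := by
  rw [hf_eq σ hσ, hf_eq σ hσ, hf_eq σ hσ, ← Finset.sum_add_distrib]
  exact Finset.sum_congr rfl (fun i _ => by rw [Pi.add_apply, map_add, mul_add])

theorem hf_single_left [DecidableEq ι] (σ : K →+* K) (hσ : ∀ x, σ x = x ^ q)
    (hσ2 : ∀ x, σ (σ x) = x) (x : ι → K) (i : ι) :
    hf ι q (Pi.single i 1) x = x i ^ q := by
  rw [← hf_conj σ hσ hσ2, hf_single_right σ hσ]

theorem exists_pair_ne [DecidableEq ι] (σ : K →+* K) (hσ : ∀ x, σ x = x ^ q)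
    (hσ2 : ∀ x, σ (σ x) = x) (w : ι → K) (hw : w ≠ 0) : ∃ x : ι → K, hf ι q x w ≠ 0 := by
  obtain ⟨i, hi⟩ : ∃ i, w i ≠ 0 := by
    by_contra h
    push_neg at h
    exact hw (funext h)
  exact ⟨Pi.single i 1, by rw [hf_single_left σ hσ hσ2]; exact pow_ne_zero _ hi⟩

theorem transv_form [DecidableEq ι] (σ : K →+* K) (hσ : ∀ x, σ x = x ^ q)
    (hσ2 : ∀ x, σ (σ x) = x) (S : Matrix ι ι K) (hS : IsIso ι q S)
    (hr : (S - 1).rank = 1) (hsq : (S - 1) * (S - 1) = 0) :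
    ∃ (w : ι → K) (c : K), w ≠ 0 ∧ c ≠ 0 ∧ hf ι q w w = 0 ∧ c + c ^ q = 0 ∧ S = rm q w c := by
  unfold Matrix.rank at hr
  obtain ⟨⟨w, hwr⟩, hw0, hspan⟩ := finrank_eq_one_iff'.mp hr
  have hw0' : w ≠ 0 := fun h => hw0 (Subtype.ext h)
  have hall : ∀ x, ∃ c : K, (S - 1) *ᵥ x = c • w := by
    intro x
    obtain ⟨c, hc⟩ := hspan ⟨(S - 1) *ᵥ x, ⟨x, rfl⟩⟩
    exact ⟨c, (congrArg Subtype.val hc).symm⟩
  choose φ hφ using hall
  have hSx : ∀ x, S *ᵥ x = x + φ x • w := by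
    intro x
    have := hφ x
    rw [Matrix.sub_mulVec, Matrix.one_mulVec] at this
    rw [← this]; abel
  have hinj : ∀ a b : K, a • w = b • w → a = b := by
    intro a b h
    have : (a - b) • w = 0 := by rw [sub_smul, h, sub_self]
    rcases smul_eq_zero.mp this with h1 | h1
    · exact sub_eq_zero.mp h1
    · exact absurd h1 hw0'
  have hφsmul : ∀ (a : K) (x : ι → K), φ (a • x) = a * φ x := by
    intro a x
    apply hinj
    rw [← hφ, Matrix.mulVec_smul, hφ, smul_smul]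
  obtain ⟨x₀, hx₀⟩ : ∃ x₀, φ x₀ ≠ 0 := by
    obtain ⟨x₀, hx₀⟩ := hwr
    refine ⟨x₀, ?_⟩
    intro h
    rw [Matrix.mulVecLin_apply, hφ, h, zero_smul] at hx₀
    exact hw0' hx₀.symm
  have hφw : φ w = 0 := by
    have h1 : (S - 1) *ᵥ ((S - 1) *ᵥ x₀) = 0 := by
      rw [Matrix.mulVec_mulVec, hsq, Matrix.zero_mulVec]
    rw [hφ x₀, Matrix.mulVec_smul, hφ w, smul_smul] at h1
    rcases smul_eq_zero.mp h1 with h2 | h2
    · rcases mul_eq_zero.mp h2 with h3 | h3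
      · exact absurd h3 hx₀
      · exact h3
    · exact absurd h2 hw0'
  have E : ∀ x y, (φ y) ^ q * hf ι q x w + φ x * hf ι q w y
      + φ x * (φ y) ^ q * hf ι q w w = 0 := by
    intro x y
    have h := hS x y
    rw [hSx, hSx, hf_add_left, hf_add_right σ hσ, hf_add_right σ hσ, hf_smul_left, hf_smul_left,
      hf_smul_right, hf_smul_right] at h
    linear_combination h
  have hww : hf ι q w w = 0 := by
    have h := E x₀ w
    rw [hφw, zero_pow (by
      intro hq0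
      have := hσ2 (0 : K)
      have h1 := hσ (1 : K)
      rw [hq0] at hσ
      have h2 := hσ 0
      rw [pow_zero, map_zero] at h2
      exact zero_ne_one h2)] at h
    simp only [zero_mul, mul_zero, zero_add, add_zero] at h
    rcases mul_eq_zero.mp h with h1 | h1
    · exact absurd h1 hx₀
    · exact h1
  have E' : ∀ x y, (φ y) ^ q * hf ι q x w + φ x * hf ι q w y = 0 := by
    intro x y
    have h := E x y
    rw [hww, mul_zero, add_zero] at h
    exact h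
  obtain ⟨y₁, hy₁⟩ : ∃ y₁, φ y₁ = 1 := ⟨(φ x₀)⁻¹ • x₀, by rw [hφsmul, inv_mul_cancel₀ hx₀]⟩
  obtain ⟨κ, hκ⟩ : ∃ κ, κ = hf ι q w y₁ := ⟨_, rfl⟩
  have hxw : ∀ x, hf ι q x w = -(φ x * κ) := by
    intro x
    have h := E' x y₁
    rw [hy₁, one_pow, one_mul, ← hκ] at h
    linear_combination h
  obtain ⟨x₁, hx₁⟩ := exists_pair_ne σ hσ hσ2 w hw0'
  have hκ0 : κ ≠ 0 := by
    intro h
    apply hx₁
    rw [hxw, h, mul_zero, neg_zero]
  have hφx : ∀ x, φ x = -(κ⁻¹ * hf ι q x w) := by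
    intro x
    rw [hxw]
    field_simp
  refine ⟨w, κ⁻¹, hw0', inv_ne_zero hκ0, hww, ?_, ?_⟩
  · have h := E' x₁ x₁
    rw [hφx x₁, ← hσ, map_neg, map_mul, hσ (hf ι q x₁ w), hf_conj σ hσ hσ2] at h
    have hx₁' : hf ι q w x₁ ≠ 0 := by
      rw [← hf_conj σ hσ hσ2]
      exact pow_ne_zero _ hx₁
    have h2 : (κ⁻¹ + σ κ⁻¹) * (hf ι q x₁ w * hf ι q w x₁) = 0 := by linear_combination -h
    rcases mul_eq_zero.mp h2 with h3 | h3
    · rw [← hσ]; exact h3
    · exact absurd h3 (mul_ne_zero hx₁ hx₁')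
  · rw [Matrix.ext_iff_mulVec]
    intro x
    rw [hSx, rm_mulVec, hφx]
    rw [neg_smul, sub_eq_add_neg]

theorem exists_trace_ne [Fintype K] (hK : Fintype.card K = q ^ 2) : ∃ e : K, e + e ^ q ≠ 0 := by
  classical
  have hq := two_le_q hK
  by_contra hcon
  push_neg at hcon
  have hdeg : (Polynomial.X ^ q + Polynomial.X : Polynomial K).natDegree = q := by
    rw [Polynomial.natDegree_add_eq_left_of_natDegree_lt]
    · simp
    · simp; omega
  have hp : (Polynomial.X ^ q + Polynomial.X : Polynomial K) = 0 := by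
    apply Polynomial.eq_zero_of_natDegree_lt_card_of_eval_eq_zero' _ Finset.univ
    · intro i _
      simp only [Polynomial.eval_add, Polynomial.eval_pow, Polynomial.eval_X]
      rw [add_comm]; exact hcon i
    · rw [Finset.card_univ, hK, hdeg]
      nlinarith
  rw [hp] at hdeg
  simp at hdeg
  omega

theorem trace_surj [Fintype K] (hK : Fintype.card K = q ^ 2) (σ : K →+* K) (hσ : ∀ x, σ x = x ^ q)
    (hσ2 : ∀ x, σ (σ x) = x) (d : K) (hd : d ^ q = d) : ∃ μ : K, μ + μ ^ q = d := by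
  obtain ⟨e, he⟩ := exists_trace_ne hK
  refine ⟨d * e / (e + e ^ q), ?_⟩
  have ht : σ (e + e ^ q) = e + e ^ q := by
    rw [map_add, ← hσ e, hσ2, add_comm]
  rw [← hσ (d * e / (e + e ^ q)), map_div₀, map_mul, ht, hσ d, hd, hσ e]
  field_simp

theorem iso_step [DecidableEq ι] (σ : K →+* K) (hσ : ∀ x, σ x = x ^ q)
    (hσ2 : ∀ x, σ (σ x) = x) (u u' : ι → K) (hu : hf ι q u u = 0) (hu' : hf ι q u' u' = 0)
    (hne : hf ι q u u' ≠ 0) : ∃ M : Matrix ι ι K, IsIso ι q M ∧ M *ᵥ u = u' := by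
  obtain ⟨z, hz⟩ : ∃ z, z = -hf ι q u u' := ⟨_, rfl⟩
  have hz0 : z ≠ 0 := by rw [hz]; exact neg_ne_zero.mpr hne
  have hzq : z ^ q = -hf ι q u' u := by
    rw [hz, ← hσ, map_neg, hσ, hf_conj σ hσ hσ2]
  have hzq0 : z ^ q ≠ 0 := pow_ne_zero _ hz0
  have h1 : hf ι q u (u - u') = z := by
    rw [hf_sub_right σ hσ, hu, hz, zero_sub]
  have h2 : hf ι q (u - u') (u - u') = z + z ^ q := by
    rw [hf_sub_left, hf_sub_right σ hσ, hf_sub_right σ hσ, hu, hu', hzq, hz]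
    ring
  refine ⟨rm q (u - u') z⁻¹, rm_iso σ hσ hσ2 _ _ ?_, ?_⟩
  · rw [h2, pow_succ, inv_pow]
    field_simp
    ring
  · rw [rm_mulVec, h1, inv_mul_cancel₀ hz0, one_smul]
    abel

theorem exists_iso_isotropic [DecidableEq ι] [Fintype K] (hK : Fintype.card K = q ^ 2)
    (σ : K →+* K) (hσ : ∀ x, σ x = x ^ q) (hσ2 : ∀ x, σ (σ x) = x) (u u' : ι → K)
    (hu0 : u ≠ 0) (hu'0 : u' ≠ 0) (hu : hf ι q u u = 0) (hu' : hf ι q u' u' = 0) :
    ∃ M : Matrix ι ι K, IsIso ι q M ∧ M *ᵥ u = u' := by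
  by_cases hne : hf ι q u u' ≠ 0
  · exact iso_step σ hσ hσ2 u u' hu hu' hne
  · push_neg at hne
    -- x with hf x u ≠ 0 and hf x u' ≠ 0
    obtain ⟨x, hxu, hxu'⟩ : ∃ x, hf ι q x u ≠ 0 ∧ hf ι q x u' ≠ 0 := by
      obtain ⟨x₁, h₁⟩ := exists_pair_ne σ hσ hσ2 u hu0
      obtain ⟨x₂, h₂⟩ := exists_pair_ne σ hσ hσ2 u' hu'0
      by_cases h3 : hf ι q x₁ u' = 0
      · by_cases h4 : hf ι q x₂ u = 0
        · refine ⟨x₁ + x₂, ?_, ?_⟩
          · rw [hf_add_left, h4, add_zero]; exact h₁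
          · rw [hf_add_left, h3, zero_add]; exact h₂
        · exact ⟨x₂, h4, h₂⟩
      · exact ⟨x₁, h₁, h3⟩
    have hux : hf ι q u x ≠ 0 := by
      rw [← hf_conj σ hσ hσ2]; exact pow_ne_zero _ hxu
    have hd : (-hf ι q x x) ^ q = -hf ι q x x := by
      rw [← hσ, map_neg, hσ, hf_conj σ hσ hσ2]
    obtain ⟨μ', hμ'⟩ := trace_surj hK σ hσ hσ2 _ hd
    obtain ⟨μ, hμ⟩ : ∃ μ, μ = μ' / hf ι q u x := ⟨_, rfl⟩
    have hμu : μ * hf ι q u x = μ' := by rw [hμ]; field_simp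
    have hμq : μ ^ q * hf ι q x u = μ' ^ q := by
      rw [← hμu, mul_pow, hf_conj σ hσ hσ2]
    obtain ⟨u'', hu''def⟩ : ∃ u'' : ι → K, u'' = x + μ • u := ⟨_, rfl⟩
    have hu'' : hf ι q u'' u'' = 0 := by
      rw [hu''def, hf_add_left, hf_add_right σ hσ, hf_add_right σ hσ, hf_smul_left, hf_smul_left,
        hf_smul_right, hf_smul_right, hu]
      linear_combination hμ' + hμq + hμu
    have h1 : hf ι q u u'' ≠ 0 := by
      rw [hu''def, hf_add_right σ hσ, hf_smul_right, hu, mul_zero, add_zero]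
      exact hux
    have h2 : hf ι q u'' u' ≠ 0 := by
      rw [hu''def, hf_add_left, hf_smul_left, hne, mul_zero, add_zero]
      exact hxu'
    obtain ⟨M₁, hM₁, e₁⟩ := iso_step σ hσ hσ2 u u'' hu hu'' h1
    obtain ⟨M₂, hM₂, e₂⟩ := iso_step σ hσ hσ2 u'' u' hu'' hu' h2
    exact ⟨M₂ * M₁, iso_mul _ _ hM₂ hM₁, by rw [← Matrix.mulVec_mulVec, e₁, e₂]⟩

theorem conj_rm [DecidableEq ι] (σ : K →+* K) (hσ : ∀ x, σ x = x ^ q)
    (M : Matrix ι ι K) (hM : IsIso ι q M) (w : ι → K) (c : K) :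
    M * rm q w c = rm q (M *ᵥ w) c * M := by
  rw [Matrix.ext_iff_mulVec]
  intro x
  rw [← Matrix.mulVec_mulVec, ← Matrix.mulVec_mulVec, rm_mulVec, rm_mulVec, Matrix.mulVec_sub,
    Matrix.mulVec_smul, hM]

theorem rm_smul [DecidableEq ι] (w : ι → K) (c l : K) :
    rm q (l • w) c = rm q w (c * l ^ (q + 1)) := by
  rw [Matrix.ext_iff_mulVec]
  intro x
  rw [rm_mulVec, rm_mulVec, hf_smul_right, smul_smul]
  congr 2
  ring

theorem rm_det [DecidableEq ι] (v : ι → K) (c : K) : (rm q v c).det = 1 - c * hf ι q v v := by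
  have e : rm q v c = 1 + Matrix.replicateCol Unit (fun i => -c * v i) *
      Matrix.replicateRow Unit (fun j => v j ^ q) := by
    ext i j
    simp [rm, Matrix.mul_apply, Matrix.sub_apply, Matrix.add_apply]
    ring
  rw [e, Matrix.det_one_add_replicateCol_mul_replicateRow]
  unfold hf
  simp only [dotProduct]
  rw [Finset.mul_sum, sub_eq_add_neg, ← Finset.sum_neg_distrib]
  congr 1
  exact Finset.sum_congr rfl (fun i _ => by ring)

theorem exists_aniso [DecidableEq ι] [Fintype K] (hK : Fintype.card K = q ^ 2)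
    (σ : K →+* K) (hσ : ∀ x, σ x = x ^ q) (hσ2 : ∀ x, σ (σ x) = x) (w : ι → K) (hw : w ≠ 0)
    (h3 : ∀ k : ι, ∃ i j : ι, i ≠ k ∧ j ≠ k ∧ i ≠ j) :
    ∃ v : ι → K, hf ι q v w = 0 ∧ hf ι q v v ≠ 0 := by
  have hq := two_le_q hK
  obtain ⟨k, hk⟩ : ∃ k, w k ≠ 0 := by
    by_contra h
    push_neg at h
    exact hw (funext h)
  obtain ⟨i, j, hik, hjk, hij⟩ := h3 k
  obtain ⟨ρ, hρ⟩ : ∃ ρ : ι → K, ρ = fun a => (w a / w k) ^ q := ⟨_, rfl⟩
  obtain ⟨v, hv⟩ : ∃ v : ι → ι → K, v = fun a => Pi.single a 1 - ρ a • Pi.single k 1 := ⟨_, rfl⟩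
  have h1 : ∀ a, hf ι q (v a) w = 0 := by
    intro a
    rw [hv]
    simp only
    rw [hf_sub_left, hf_smul_left, hf_single_left σ hσ hσ2, hf_single_left σ hσ hσ2, hρ]
    simp only
    rw [div_pow]
    have : w k ^ q ≠ 0 := pow_ne_zero _ hk
    field_simp
    ring
  have key : ∀ a b, a ≠ k → b ≠ k → hf ι q (v a) (v b)
      = (if a = b then 1 else 0) + ρ a * (ρ b) ^ q := by
    intro a b ha hb
    have e1 : v b a = if a = b then 1 else 0 := by
      rw [hv]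
      simp only [Pi.sub_apply, Pi.smul_apply, smul_eq_mul]
      rw [Pi.single_apply, Pi.single_apply, if_neg ha, mul_zero, sub_zero]
    have e2 : v b k = - ρ b := by
      rw [hv]
      simp only [Pi.sub_apply, Pi.smul_apply, smul_eq_mul]
      rw [Pi.single_apply, Pi.single_apply, if_neg (fun h => hb h.symm), if_pos rfl, mul_one,
        zero_sub]
    have e3 : (- ρ b) ^ q = - (ρ b) ^ q := by rw [← hσ, map_neg, hσ]
    have e4 : (if a = b then (1:K) else 0) ^ q = if a = b then 1 else 0 := by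
      split_ifs
      · rw [one_pow]
      · rw [zero_pow (by omega)]
    have e5 : hf ι q (v a) (v b) = (v b a) ^ q - ρ a * (v b k) ^ q := by
      have hva : v a = Pi.single a 1 - ρ a • Pi.single k 1 := by rw [hv]
      rw [hva, hf_sub_left, hf_smul_left, hf_single_left σ hσ hσ2, hf_single_left σ hσ hσ2]
    rw [e5, e1, e2, e3, e4]
    ring
  by_cases hi : hf ι q (v i) (v i) = 0
  · by_cases hj : hf ι q (v j) (v j) = 0
    · have hi' := key i i hik hik
      have hj' := key j j hjk hjk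
      rw [hi, if_pos rfl] at hi'
      rw [hj, if_pos rfl] at hj'
      have hρi : ρ i ≠ 0 := by
        intro h
        rw [h, zero_mul, add_zero] at hi'
        exact zero_ne_one hi'
      have hρj : ρ j ≠ 0 := by
        intro h
        rw [h, zero_mul, add_zero] at hj'
        exact zero_ne_one hj'
      obtain ⟨β, hβ⟩ : ∃ β, β = hf ι q (v i) (v j) := ⟨_, rfl⟩
      have hβ0 : β ≠ 0 := by
        rw [hβ, key i j hik hjk, if_neg hij, zero_add]
        exact mul_ne_zero hρi (pow_ne_zero _ hρj)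
      have hβq : β ^ q = hf ι q (v j) (v i) := by rw [hβ, hf_conj σ hσ hσ2]
      have hβq0 : β ^ q ≠ 0 := pow_ne_zero _ hβ0
      obtain ⟨e, he⟩ := exists_trace_ne hK
      refine ⟨v i + (e / β ^ q) • v j, ?_, ?_⟩
      · rw [hf_add_left, hf_smul_left, h1, h1, mul_zero, add_zero]
      · rw [hf_add_left, hf_add_right σ hσ, hf_add_right σ hσ, hf_smul_left, hf_smul_left,
          hf_smul_right, hf_smul_right, hi, hj, ← hβ, ← hβq, div_pow, pow_q_pow_q hK]
        intro h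
        apply he
        rw [← h]
        field_simp
        ring
    · exact ⟨v j, h1 j, hj⟩
  · exact ⟨v i, h1 i, hi⟩

theorem exists_fix_det [DecidableEq ι] (σ : K →+* K) (hσ : ∀ x, σ x = x ^ q)
    (hσ2 : ∀ x, σ (σ x) = x) (δ : K) (hδ : δ ^ (q + 1) = 1) (w v : ι → K)
    (hvw : hf ι q v w = 0) (hvv : hf ι q v v ≠ 0) :
    ∃ C : Matrix ι ι K, IsIso ι q C ∧ C *ᵥ w = w ∧ C.det = δ := by
  obtain ⟨η, hη⟩ : ∃ η, η = hf ι q v v := ⟨_, rfl⟩
  have hη0 : η ≠ 0 := by rw [hη]; exact hvv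
  have hηq : η ^ q = η := by rw [hη, hf_conj σ hσ hσ2]
  have hwv : hf ι q w v = 0 := by rw [← hf_conj σ hσ hσ2, hvw, zero_pow]; 
                                  intro hq0
                                  have h2 := hσ 0
                                  rw [hq0, pow_zero, map_zero] at h2
                                  exact zero_ne_one h2
  refine ⟨rm q v ((1 - δ) / η), rm_iso σ hσ hσ2 _ _ ?_, ?_, ?_⟩
  · rw [← hη]
    have e1 : ((1 - δ) / η) ^ q = (1 - δ ^ q) / η := by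
      rw [div_pow, hηq, ← hσ, map_sub, map_one, hσ]
    rw [pow_succ, e1]
    rw [pow_succ] at hδ
    field_simp
    linear_combination -hδ
  · rw [rm_mulVec, hwv, mul_zero, zero_smul, sub_zero]
  · rw [rm_det, ← hη]
    field_simp
    ring

theorem main {K : Type*} [Field K] [Fintype K] {q n : ℕ} (hK : Fintype.card K = q ^ 2) (hn : 3 ≤ n) (s t : ↥(Cfsg.SU n K q)) (hs : Cfsg.IsTransvection (((s : GL (Fin n) K) : Matrix (Fin n) (Fin n) K))) (ht : Cfsg.IsTransvection (((t : GL (Fin n) K) : Matrix (Fin n) (Fin n) K))) : IsConj s t := by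
  obtain ⟨σ, hσ⟩ := exists_frob hK
  have hσ2 : ∀ x, σ (σ x) = x := fun x => by rw [hσ, hσ, pow_q_pow_q hK]
  have hq := two_le_q hK
  have hSiso : IsIso (Fin n) q (s.1.1) := fun u v => s.2 u v
  have hTiso : IsIso (Fin n) q (t.1.1) := fun u v => t.2 u v
  obtain ⟨w, c, hw0, hc0, hww, hc, hS⟩ := transv_form σ hσ hσ2 s.1.1 hSiso hs.1 hs.2
  obtain ⟨w', c', hw'0, hc'0, hww', hc', hT⟩ := transv_form σ hσ hσ2 t.1.1 hTiso ht.1 ht.2
  -- ν = c / c'
  have hcq : c ^ q = - c := by linear_combination hc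
  have hc'q : c' ^ q = - c' := by linear_combination hc'
  have hνq : (c' / c) ^ q = c' / c := by
    rw [div_pow, hcq, hc'q, neg_div_neg_eq]
  obtain ⟨l, hl0, hl⟩ := norm_surj hK (c' / c) (div_ne_zero hc'0 hc0) hνq
  have hlw' : l • w' ≠ 0 := smul_ne_zero hl0 hw'0
  have hlww : hf (Fin n) q (l • w') (l • w') = 0 := by
    rw [hf_smul_left, hf_smul_right, hww', mul_zero, mul_zero]
  obtain ⟨M, hM, hMw⟩ := exists_iso_isotropic hK σ hσ hσ2 w (l • w') hw0 hlw' hww hlww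
  have h3 : ∀ k : Fin n, ∃ i j : Fin n, i ≠ k ∧ j ≠ k ∧ i ≠ j := by
    intro k
    by_cases h0 : k.val = 0
    · exact ⟨⟨1, by omega⟩, ⟨2, by omega⟩, by simp only [ne_eq, Fin.ext_iff]; omega,
        by simp only [ne_eq, Fin.ext_iff]; omega, by simp only [ne_eq, Fin.ext_iff]; omega⟩
    · by_cases h1 : k.val = 1
      · exact ⟨⟨0, by omega⟩, ⟨2, by omega⟩, by simp only [ne_eq, Fin.ext_iff]; omega,
          by simp only [ne_eq, Fin.ext_iff]; omega, by simp only [ne_eq, Fin.ext_iff]; omega⟩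
      · exact ⟨⟨0, by omega⟩, ⟨1, by omega⟩, by simp only [ne_eq, Fin.ext_iff]; omega,
          by simp only [ne_eq, Fin.ext_iff]; omega, by simp only [ne_eq, Fin.ext_iff]; omega⟩
  obtain ⟨v, hvw, hvv⟩ := exists_aniso hK σ hσ hσ2 w' hw'0 h3
  have hm := iso_det σ hσ M hM
  have hm0 : M.det ≠ 0 := by
    intro h
    rw [h, zero_pow (by omega)] at hm
    exact zero_ne_one hm
  have hδ : (M.det)⁻¹ ^ (q + 1) = 1 := by rw [inv_pow, hm, inv_one]
  obtain ⟨C, hC, hCw, hCdet⟩ := exists_fix_det σ hσ hσ2 _ hδ w' v hvw hvv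
  have hGdet : (C * M).det = 1 := by
    rw [Matrix.det_mul, hCdet, inv_mul_cancel₀ hm0]
  have hGiso : IsIso (Fin n) q (C * M) := iso_mul _ _ hC hM
  have hGw : (C * M) *ᵥ w = l • w' := by
    rw [← Matrix.mulVec_mulVec, hMw, Matrix.mulVec_smul, hCw]
  have hconj : (C * M) * s.1.1 = t.1.1 * (C * M) := by
    have e : c * (c' / c) = c' := by field_simp
    rw [hS, hT, conj_rm σ hσ _ hGiso, hGw, rm_smul, hl, e]
  let g : ↥(Cfsg.SU n K q) := ⟨⟨C * M, hGdet⟩, fun u v => hGiso u v⟩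
  rw [isConj_iff]
  refine ⟨g, ?_⟩
  rw [mul_inv_eq_iff_eq_mul]
  apply Subtype.ext
  apply Subtype.ext
  exact hconj

theorem result {K : Type*} [Field K] [Fintype K] {q n : ℕ} (hK : Fintype.card K = q ^ 2) (hn : 3 ≤ n) (s t : ↥(Cfsg.SU n K q)) (hs : Cfsg.IsTransvection (((s : GL (Fin n) K) : Matrix (Fin n) (Fin n) K))) (ht : Cfsg.IsTransvection (((t : GL (Fin n) K) : Matrix (Fin n) (Fin n) K))) : IsConj s t := by
  exact main hK hn s t hs ht

end Cfsg.Agent.S2644
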