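import Cfsg.Statements.S0781
import Cfsg.Agent.Lib.Helper1.HermSU
import Cfsg.Agent.S2644

set_option autoImplicit false
open Cfsg


namespace Cfsg.Agent.S0781

open Matrix Cfsg.Agent.Lib.Helper1.Herm Cfsg.Agent.S2644

variable {K : Type*} [Field K] {q : ℕ} {ι : Type} [Fintype ι] [DecidableEq ι]

theorem ut_eq {n : ℕ} (v : Fin n → K) (c : K) :
    Cfsg.unitaryTransvection n q v c = rm q v (-c) := by
  ext i j
  simp only [Cfsg.unitaryTransvection, rm, Matrix.add_apply, Matrix.sub_apply, Matrix.smul_apply,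
    Matrix.vecMulVec_apply, Matrix.of_apply, smul_eq_mul]
  ring

theorem rm_mul_same (v : ι → K) (hv : hf ι q v v = 0) (a b : K) :
    rm q v a * rm q v b = rm q v (a + b) := by
  rw [Matrix.ext_iff_mulVec]
  intro x
  rw [← Matrix.mulVec_mulVec, rm_mulVec, rm_mulVec, rm_mulVec, hf_sub_left, hf_smul_left, hv,
    mul_zero, sub_zero, add_mul, add_smul]
  abel

theorem iso_forces (σ : K →+* K) (hσ : ∀ x, σ x = x ^ q) (hσ2 : ∀ x, σ (σ x) = x)
    (v : ι → K) (hv0 : v ≠ 0) (hv : hf ι q v v = 0) (e : K) (hS : IsIso ι q (rm q v e)) :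
    e + e ^ q = 0 := by
  obtain ⟨x, hx⟩ := exists_pair_ne σ hσ hσ2 v hv0
  have hx' : hf ι q v x ≠ 0 := by
    rw [← hf_conj σ hσ hσ2]; exact pow_ne_zero _ hx
  have h := hS x x
  rw [rm_mulVec, hf_sub_left, hf_sub_right σ hσ, hf_sub_right σ hσ, hf_smul_left, hf_smul_left,
    hf_smul_right, hf_smul_right, hv, mul_pow, hf_conj σ hσ hσ2] at h
  have h2 : (e + e ^ q) * (hf ι q x v * hf ι q v x) = 0 := by linear_combination -h
  rcases mul_eq_zero.mp h2 with h3 | h3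
  · exact h3
  · exact absurd h3 (mul_ne_zero hx hx')

theorem transv_rm (v : ι → K) (hv0 : v ≠ 0) (hv : hf ι q v v = 0) (e : K) (he : e ≠ 0) :
    Cfsg.IsTransvection (rm q v e) := by
  have hq0 : ∀ i, v i ≠ 0 → v i ^ q ≠ 0 := fun i h => pow_ne_zero _ h
  have e1 : rm q v e - 1 = Matrix.vecMulVec (-e • v) (fun j => v j ^ q) := by
    ext i j
    simp only [rm, Matrix.sub_apply, Matrix.vecMulVec_apply, Matrix.of_apply, Pi.smul_apply,
      smul_eq_mul]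
    ring
  obtain ⟨j0, hj0⟩ : ∃ j, v j ≠ 0 := by
    by_contra hcon
    push_neg at hcon
    exact hv0 (funext hcon)
  have hw0 : -e • v ≠ 0 := smul_ne_zero (neg_ne_zero.mpr he) hv0
  have hw : Matrix.vecMulVec (-e • v) (fun j => v j ^ q) *ᵥ Pi.single j0 (v j0 ^ q)⁻¹ = -e • v := by
    rw [Matrix.vecMulVec_mulVec, dotProduct_single, mul_inv_cancel₀ (hq0 j0 hj0)]
    simp
  refine ⟨?_, ?_⟩
  · rw [e1]
    apply le_antisymm (Matrix.rank_vecMulVec_le _ _)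
    have hpos : 0 < Module.finrank K (LinearMap.range
        (Matrix.vecMulVec (-e • v) (fun j => v j ^ q)).mulVecLin) :=
      (Module.finrank_pos_iff_exists_ne_zero (R := K)).2
        ⟨⟨-e • v, ⟨_, hw⟩⟩, fun h => hw0 (congrArg Subtype.val h)⟩
    exact hpos
  · rw [e1, Matrix.vecMulVec_mul_vecMulVec]
    have : (fun j => v j ^ q) ⬝ᵥ (-e • v) = 0 := by
      rw [dotProduct_smul, dotProduct_comm]
      have : v ⬝ᵥ (fun j => v j ^ q) = hf ι q v v := rfl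
      rw [this, hv, smul_zero]
    rw [this, zero_smul]
    ext i j
    simp [Matrix.vecMulVec_apply]

theorem h3fin {n : ℕ} (hn : 3 ≤ n) : ∀ k : Fin n, ∃ i j : Fin n, i ≠ k ∧ j ≠ k ∧ i ≠ j := by
  intro k
  by_cases h0 : k.val = 0
  · exact ⟨⟨1, by omega⟩, ⟨2, by omega⟩, by simp only [ne_eq, Fin.ext_iff]; omega,
      by simp only [ne_eq, Fin.ext_iff]; omega, by simp only [ne_eq, Fin.ext_iff]; omega⟩
  · by_cases h1 : k.val = 1
    · exact ⟨⟨0, by omega⟩, ⟨2, by omega⟩, by simp only [ne_eq, Fin.ext_iff]; omega,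
        by simp only [ne_eq, Fin.ext_iff]; omega, by simp only [ne_eq, Fin.ext_iff]; omega⟩
    · exact ⟨⟨0, by omega⟩, ⟨1, by omega⟩, by simp only [ne_eq, Fin.ext_iff]; omega,
        by simp only [ne_eq, Fin.ext_iff]; omega, by simp only [ne_eq, Fin.ext_iff]; omega⟩

/-- the torus case: q ≥ 3 -/
theorem torus_case [Fintype K] {n : ℕ} (hK : Fintype.card K = q ^ 2) (hn : 3 ≤ n) (hq3 : 3 ≤ q)
    (A : ↥(Cfsg.SU n K q)) (v : Fin n → K) (e : K) (hv0 : v ≠ 0) (he0 : e ≠ 0)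
    (hv : hf (Fin n) q v v = 0) (hA : A.1.1 = rm q v e) :
    A ∈ commutatorSet ↥(Cfsg.SU n K q) := by
  obtain ⟨σ, hσ⟩ := exists_frob hK
  have hσ2 : ∀ x, σ (σ x) = x := fun x => by rw [hσ, hσ, pow_q_pow_q hK]
  have hq := two_le_q hK
  have hAiso : IsIso (Fin n) q (rm q v e) := by
    rw [← hA]; exact fun u w => A.2 u w
  have hee := iso_forces σ hσ hσ2 v hv0 hv e hAiso
  -- ν
  obtain ⟨ν, hν0, hνq, hν1⟩ : ∃ ν : K, ν ≠ 0 ∧ ν ^ q = ν ∧ ν ≠ 1 := by
    have hc := card_fix hK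
    haveI : Finite {c : K // c ≠ 0 ∧ c ^ q = c} := inferInstance
    haveI : Fintype {c : K // c ≠ 0 ∧ c ^ q = c} := Fintype.ofFinite _
    rw [Nat.card_eq_fintype_card] at hc
    obtain ⟨b, hb⟩ := Fintype.exists_ne_of_one_lt_card (by rw [hc]; omega)
      (⟨1, one_ne_zero, one_pow q⟩ : {c : K // c ≠ 0 ∧ c ^ q = c})
    exact ⟨b.1, b.2.1, b.2.2, fun h => hb (Subtype.ext h)⟩
  obtain ⟨l, hl0, hl⟩ := norm_surj hK ν hν0 hνq
  have hlv : l • v ≠ 0 := smul_ne_zero hl0 hv0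
  have hlvv : hf (Fin n) q (l • v) (l • v) = 0 := by
    rw [hf_smul_left, hf_smul_right, hv, mul_zero, mul_zero]
  obtain ⟨M, hM, hMv⟩ := exists_iso_isotropic hK σ hσ hσ2 v (l • v) hv0 hlv hv hlvv
  obtain ⟨u, huv, huu⟩ := exists_aniso hK σ hσ hσ2 (l • v) hlv (h3fin hn)
  have hm := iso_det σ hσ M hM
  have hm0 : M.det ≠ 0 := by
    intro h
    rw [h, zero_pow (by omega)] at hm
    exact zero_ne_one hm
  have hδ : (M.det)⁻¹ ^ (q + 1) = 1 := by rw [inv_pow, hm, inv_one]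
  obtain ⟨C, hC, hCw, hCdet⟩ := exists_fix_det σ hσ hσ2 _ hδ (l • v) u huv huu
  have hGdet : (C * M).det = 1 := by
    rw [Matrix.det_mul, hCdet, inv_mul_cancel₀ hm0]
  have hGiso : IsIso (Fin n) q (C * M) := iso_mul _ _ hC hM
  have hGv : (C * M) *ᵥ v = l • v := by
    rw [← Matrix.mulVec_mulVec, hMv, hCw]
  -- e'
  have hν1' : ν - 1 ≠ 0 := sub_ne_zero.mpr hν1
  obtain ⟨e', he'⟩ : ∃ e' : K, e' = e / (ν - 1) := ⟨_, rfl⟩
  have he'q : e' + e' ^ q = 0 := by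
    have h1 : (ν - 1) ^ q = ν - 1 := by rw [← hσ, map_sub, map_one, hσ, hνq]
    rw [he', div_pow, h1, ← add_div, hee, zero_div]
  have hT'iso : IsIso (Fin n) q (rm q v e') :=
    rm_iso σ hσ hσ2 v e' (by rw [hv, mul_zero]; exact he'q)
  have hT'det : (rm q v e').det = 1 := by rw [rm_det, hv, mul_zero, sub_zero]
  let g : ↥(Cfsg.SU n K q) := ⟨⟨C * M, hGdet⟩, fun a b => hGiso a b⟩
  let t' : ↥(Cfsg.SU n K q) := ⟨⟨rm q v e', hT'det⟩, fun a b => hT'iso a b⟩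
  refine ⟨g, t', ?_⟩
  rw [commutatorElement_def, mul_inv_eq_iff_eq_mul, mul_inv_eq_iff_eq_mul]
  apply Subtype.ext
  apply Subtype.ext
  show (C * M) * rm q v e' = A.1.1 * rm q v e' * (C * M)
  rw [hA, conj_rm σ hσ _ hGiso, hGv, rm_smul, hl, rm_mul_same v hv]
  congr 2
  rw [he']
  field_simp
  ring

theorem siegel (σ : K →+* K) (hσ : ∀ x, σ x = x ^ q) (hσ2 : ∀ x, σ (σ x) = x) (h2 : (2 : K) = 0)
    (u w : ι → K) (hu : hf ι q u u = 0) (hw : hf ι q w w = 0) (huw : hf ι q u w = 0)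
    (hwu : hf ι q w u = 0) :
    ∃ X : Matrix ι ι K, IsIso ι q X ∧ X.det = 1 ∧
      ∀ z, X *ᵥ z = z + hf ι q z u • w + hf ι q z w • u := by
  have h11 : (1 : K) + 1 ^ q = 0 := by rw [one_pow]; linear_combination h2
  have huw2 : hf ι q (u + w) (u + w) = 0 := by
    rw [hf_add_left, hf_add_right σ hσ, hf_add_right σ hσ, hu, hw, huw, hwu]; ring
  refine ⟨rm q w 1 * rm q u 1 * rm q (u + w) 1, iso_mul _ _ (iso_mul _ _
    (rm_iso σ hσ hσ2 w 1 ?_) (rm_iso σ hσ hσ2 u 1 ?_)) (rm_iso σ hσ hσ2 (u + w) 1 ?_), ?_, ?_⟩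
  · rw [hw, mul_zero]; exact h11
  · rw [hu, mul_zero]; exact h11
  · rw [huw2, mul_zero]; exact h11
  · rw [Matrix.det_mul, Matrix.det_mul, rm_det, rm_det, rm_det, hw, hu, huw2]; ring
  · intro z
    rw [← Matrix.mulVec_mulVec, ← Matrix.mulVec_mulVec]
    have s1 : rm q (u + w) 1 *ᵥ z = z - (hf ι q z u + hf ι q z w) • (u + w) := by
      rw [rm_mulVec, one_mul, hf_add_right σ hσ]
    have s2 : rm q u 1 *ᵥ (z - (hf ι q z u + hf ι q z w) • (u + w))
        = z - (hf ι q z u + hf ι q z w) • (u + w) - hf ι q z u • u := by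
      rw [rm_mulVec, hf_sub_left, hf_smul_left, hf_add_left, hu, hwu, add_zero, mul_zero,
        sub_zero, one_mul]
    have s3 : rm q w 1 *ᵥ (z - (hf ι q z u + hf ι q z w) • (u + w) - hf ι q z u • u)
        = z - (hf ι q z u + hf ι q z w) • (u + w) - hf ι q z u • u - hf ι q z w • w := by
      rw [rm_mulVec, hf_sub_left, hf_sub_left, hf_smul_left, hf_smul_left, hf_add_left, huw, hw,
        add_zero, mul_zero, mul_zero, sub_zero, sub_zero, one_mul]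
    rw [s1, s2, s3]
    funext i
    simp only [Pi.add_apply, Pi.sub_apply, Pi.smul_apply, smul_eq_mul]
    linear_combination (-(hf ι q z u + hf ι q z w) * (u i + w i)) * h2

theorem pv_hf (σ : K →+* K) (hσ : ∀ x, σ x = x ^ q) (hσ2 : ∀ x, σ (σ x) = x) (i j : ι) (c : K)
    (x : ι → K) : hf ι q (Pi.single i 1 + c • Pi.single j 1) x = x i ^ q + c * x j ^ q := by
  rw [hf_add_left, hf_smul_left, hf_single_left σ hσ hσ2, hf_single_left σ hσ hσ2]

theorem pv_apply (i j k : ι) (c : K) : (Pi.single i 1 + c • Pi.single j 1 : ι → K) k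
    = (if k = i then 1 else 0) + c * (if k = j then 1 else 0) := by
  simp [Pi.single_apply]

theorem char2_case [Fintype K] {n : ℕ} (hK : Fintype.card K = q ^ 2) (hn : 4 ≤ n) (hq2 : q = 2) :
    ∃ t₀ : ↥(Cfsg.SU n K q), Cfsg.IsTransvection (t₀.1.1) ∧
      t₀ ∈ commutatorSet ↥(Cfsg.SU n K q) := by
  subst hq2
  obtain ⟨σ, hσ⟩ := exists_frob hK
  have hσ2 : ∀ x, σ (σ x) = x := fun x => by rw [hσ, hσ, pow_q_pow_q hK]
  have h2 : (2 : K) = 0 := by
    have h4 := Nat.cast_card_eq_zero K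
    rw [hK] at h4
    have h5 : (2 : K) * 2 = 0 := by
      have : ((2 ^ 2 : ℕ) : K) = 2 * 2 := by norm_num
      rw [← this]; exact h4
    rcases mul_eq_zero.mp h5 with h | h <;> exact h
  obtain ⟨ω, hω0, hω1⟩ : ∃ ω : K, ω ≠ 0 ∧ ω ≠ 1 := by
    classical
    by_contra hcon
    push_neg at hcon
    have hsub : (Finset.univ : Finset K) ⊆ {0, 1} := by
      intro x _
      by_cases hx : x = 0
      · simp [hx]
      · simp [hcon x hx]
    have h1 : Fintype.card K ≤ 2 :=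
      le_trans (Finset.card_le_card hsub) Finset.card_le_two
    rw [hK] at h1
    omega
  have hω3 : ω ^ 3 = 1 := by
    have h := FiniteField.pow_card_sub_one_eq_one ω hω0
    rw [hK] at h
    exact h
  have hω : ω ^ 2 + ω + 1 = 0 := by
    have h : (ω - 1) * (ω ^ 2 + ω + 1) = 0 := by linear_combination hω3
    rcases mul_eq_zero.mp h with h | h
    · exact absurd (sub_eq_zero.mp h) hω1
    · exact h
  obtain ⟨i0, hi0⟩ : ∃ i : Fin n, i.val = 0 := ⟨⟨0, by omega⟩, rfl⟩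
  obtain ⟨i1, hi1⟩ : ∃ i : Fin n, i.val = 1 := ⟨⟨1, by omega⟩, rfl⟩
  obtain ⟨i2, hi2⟩ : ∃ i : Fin n, i.val = 2 := ⟨⟨2, by omega⟩, rfl⟩
  obtain ⟨i3, hi3⟩ : ∃ i : Fin n, i.val = 3 := ⟨⟨3, by omega⟩, rfl⟩
  have n01 : i0 ≠ i1 := fun h => by rw [Fin.ext_iff] at h; omega
  have n02 : i0 ≠ i2 := fun h => by rw [Fin.ext_iff] at h; omega
  have n03 : i0 ≠ i3 := fun h => by rw [Fin.ext_iff] at h; omega
  have n12 : i1 ≠ i2 := fun h => by rw [Fin.ext_iff] at h; omega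
  have n13 : i1 ≠ i3 := fun h => by rw [Fin.ext_iff] at h; omega
  have n23 : i2 ≠ i3 := fun h => by rw [Fin.ext_iff] at h; omega
  obtain ⟨v, hvdef⟩ : ∃ v : Fin n → K, v = Pi.single i0 1 + (1 : K) • Pi.single i1 1 := ⟨_, rfl⟩
  obtain ⟨a, hadef⟩ : ∃ a : Fin n → K, a = Pi.single i2 1 + (1 : K) • Pi.single i3 1 := ⟨_, rfl⟩
  obtain ⟨b, hbdef⟩ : ∃ b : Fin n → K, b = Pi.single i2 1 + ω • Pi.single i3 1 := ⟨_, rfl⟩
  have hvv : hf (Fin n) 2 v v = 0 := by
    rw [hvdef, pv_hf σ hσ hσ2, pv_apply, pv_apply, if_pos rfl, if_neg n01, if_neg n01.symm,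
      if_pos rfl]
    linear_combination h2
  have haa : hf (Fin n) 2 a a = 0 := by
    rw [hadef, pv_hf σ hσ hσ2, pv_apply, pv_apply, if_pos rfl, if_neg n23, if_neg n23.symm,
      if_pos rfl]
    linear_combination h2
  have hbb : hf (Fin n) 2 b b = 0 := by
    rw [hbdef, pv_hf σ hσ hσ2, pv_apply, pv_apply, if_pos rfl, if_neg n23, if_neg n23.symm,
      if_pos rfl]
    linear_combination hω3 + h2
  have hva : hf (Fin n) 2 v a = 0 := by
    rw [hvdef, hadef, pv_hf σ hσ hσ2, pv_apply, pv_apply, if_neg n02, if_neg n03, if_neg n12,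
      if_neg n13]
    ring
  have hav : hf (Fin n) 2 a v = 0 := by
    rw [hvdef, hadef, pv_hf σ hσ hσ2, pv_apply, pv_apply, if_neg n02.symm, if_neg n12.symm,
      if_neg n03.symm, if_neg n13.symm]
    ring
  have hvb : hf (Fin n) 2 v b = 0 := by
    rw [hvdef, hbdef, pv_hf σ hσ hσ2, pv_apply, pv_apply, if_neg n02, if_neg n03, if_neg n12,
      if_neg n13]
    ring
  have hbv : hf (Fin n) 2 b v = 0 := by
    rw [hvdef, hbdef, pv_hf σ hσ hσ2, pv_apply, pv_apply, if_neg n02.symm, if_neg n12.symm,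
      if_neg n03.symm, if_neg n13.symm]
    ring
  have hab : hf (Fin n) 2 a b = 1 + ω ^ 2 := by
    rw [hadef, hbdef, pv_hf σ hσ hσ2, pv_apply, pv_apply, if_pos rfl, if_neg n23,
      if_neg n23.symm, if_pos rfl]
    ring
  have hba : hf (Fin n) 2 b a = 1 + ω := by
    rw [hadef, hbdef, pv_hf σ hσ hσ2, pv_apply, pv_apply, if_pos rfl, if_neg n23,
      if_neg n23.symm, if_pos rfl]
    ring
  have hv0 : v ≠ 0 := by
    intro h
    have h1 := congrFun h i0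
    rw [hvdef, pv_apply, if_pos rfl, if_neg n01] at h1
    simp at h1
  obtain ⟨X, hXiso, hXdet, hX⟩ := siegel σ hσ hσ2 h2 v a hvv haa hva hav
  obtain ⟨Y, hYiso, hYdet, hY⟩ := siegel σ hσ hσ2 h2 v b hvv hbb hvb hbv
  have hTiso : IsIso (Fin n) 2 (rm 2 v 1) :=
    rm_iso σ hσ hσ2 v 1 (by rw [hvv, mul_zero, one_pow]; linear_combination h2)
  have hTdet : (rm 2 v (1 : K)).det = 1 := by rw [rm_det, hvv, mul_zero, sub_zero]
  have key : X * Y = rm 2 v 1 * (Y * X) := by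
    rw [Matrix.ext_iff_mulVec]
    intro z
    rw [← Matrix.mulVec_mulVec, ← Matrix.mulVec_mulVec, ← Matrix.mulVec_mulVec, rm_mulVec,
      hX (Y *ᵥ z), hY (X *ᵥ z), hY z, hX z]
    simp only [hf_add_left, hf_smul_left, hvv, hva, hav, hvb, hbv, hab, hba, haa, hbb, mul_zero,
      add_zero, one_mul]
    funext i
    simp only [Pi.add_apply, Pi.sub_apply, Pi.smul_apply, smul_eq_mul]
    linear_combination (hf (Fin n) 2 z v * v i) * hω - (hf (Fin n) 2 z v * ω ^ 2 * v i) * h2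
  let x : ↥(Cfsg.SU n K 2) := ⟨⟨X, hXdet⟩, fun a b => hXiso a b⟩
  let y : ↥(Cfsg.SU n K 2) := ⟨⟨Y, hYdet⟩, fun a b => hYiso a b⟩
  let t₀ : ↥(Cfsg.SU n K 2) := ⟨⟨rm 2 v 1, hTdet⟩, fun a b => hTiso a b⟩
  refine ⟨t₀, transv_rm v hv0 hvv 1 one_ne_zero, x, y, ?_⟩
  rw [commutatorElement_def, mul_inv_eq_iff_eq_mul, mul_inv_eq_iff_eq_mul, mul_assoc]
  apply Subtype.ext
  apply Subtype.ext
  exact key

theorem main {F : Type*} [Field F] [Fintype F] {q : ℕ} (hF : Fintype.card F = q ^ 2) (n : ℕ) (hn : 4 ≤ n ∨ (n = 3 ∧ 3 ≤ q)) (A : ↥(Cfsg.SU n F q)) (v : Fin n → F) (c : F) (hv0 : Cfsg.hermForm n F q v v = 0) (hA : ((A : Matrix.SpecialLinearGroup (Fin n) F) : Matrix (Fin n) (Fin n) F) = Cfsg.unitaryTransvection n q v c) : A ∈ commutatorSet ↥(Cfsg.SU n F q) := by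
  have hn3 : 3 ≤ n := by rcases hn with h | ⟨h, _⟩ <;> omega
  have hA' : A.1.1 = rm q v (-c) := by rw [← ut_eq]; exact hA
  by_cases hA1 : A = 1
  · rw [hA1]; exact ⟨1, 1, by simp⟩
  have hv : v ≠ 0 := by
    rintro rfl
    apply hA1
    apply Subtype.ext
    apply Subtype.ext
    rw [hA']
    ext i j
    simp [rm]
  have hc : -c ≠ 0 := by
    intro h
    apply hA1
    apply Subtype.ext
    apply Subtype.ext
    rw [hA', h]
    ext i j
    simp [rm]
  have hq := two_le_q hF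
  by_cases hq3 : 3 ≤ q
  · exact torus_case hF hn3 hq3 A v (-c) hv hc hv0 hA'
  · have hq2 : q = 2 := by omega
    have hn4 : 4 ≤ n := by
      rcases hn with h | ⟨_, h⟩
      · exact h
      · omega
    obtain ⟨t₀, ht₀, x, y, hxy⟩ := char2_case hF hn4 hq2
    have hAt : Cfsg.IsTransvection (A.1.1) := by
      rw [hA']; exact transv_rm v hv hv0 (-c) hc
    obtain ⟨g, hg⟩ := isConj_iff.mp (Cfsg.Agent.S2644.result hF hn3 t₀ A ht₀ hAt)
    refine ⟨g * x * g⁻¹, g * y * g⁻¹, ?_⟩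
    rw [← hg, ← hxy, commutatorElement_def, commutatorElement_def]
    group

theorem result {F : Type*} [Field F] [Fintype F] {q : ℕ} (hF : Fintype.card F = q ^ 2) (n : ℕ) (hn : 4 ≤ n ∨ (n = 3 ∧ 3 ≤ q)) (A : ↥(Cfsg.SU n F q)) (v : Fin n → F) (c : F) (hv0 : Cfsg.hermForm n F q v v = 0) (hA : ((A : Matrix.SpecialLinearGroup (Fin n) F) : Matrix (Fin n) (Fin n) F) = Cfsg.unitaryTransvection n q v c) : A ∈ commutatorSet ↥(Cfsg.SU n F q) := by
  exact main hF n hn A v c hv0 hA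

end Cfsg.Agent.S0781
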