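import Cfsg.Statements.S0837
import Cfsg.Agent.S2644
import Cfsg.Agent.Lib.Helper1.HermGU

set_option autoImplicit false
open Cfsg


namespace Cfsg.Agent.S0837

open Matrix Cfsg.Agent.Lib.Helper1.Herm

section frame
variable {F : Type*} [Field F] {q : ℕ} {ι : Type} [Fintype ι]

/-- the functional `hf · w` -/
def hfL (q : ℕ) (w : ι → F) : (ι → F) →ₗ[F] F where
  toFun := fun v => hf ι q v w
  map_add' := fun a b => Cfsg.Agent.S2644.hf_add_left a b w
  map_smul' := fun c a => by rw [hf_smul_left]; rfl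

theorem hfL_apply (w v : ι → F) : hfL q w v = hf ι q v w := rfl

theorem hf_sum_left {κ : Type*} (s : Finset κ) (t : κ → F) (v : κ → ι → F) (w : ι → F) :
    hf ι q (∑ a ∈ s, t a • v a) w = ∑ a ∈ s, t a * hf ι q (v a) w := by
  rw [← hfL_apply, map_sum]
  exact Finset.sum_congr rfl (fun a _ => by rw [map_smul, smul_eq_mul, hfL_apply])

/-- nondegenerate subspace -/
def Nondeg (q : ℕ) (U : Submodule F (ι → F)) : Prop :=
  ∀ u ∈ U, (∀ v ∈ U, hf ι q u v = 0) → u = 0

theorem exists_norm_one [Fintype F] (hF : Fintype.card F = q ^ 2) (U : Submodule F (ι → F))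
    (hU : Nondeg q U) (hU0 : U ≠ ⊥) : ∃ w ∈ U, hf ι q w w = 1 := by
  obtain ⟨σ, hσ⟩ := exists_frob hF
  have hσ2 : ∀ x, σ (σ x) = x := fun x => by rw [hσ, hσ, pow_q_pow_q hF]
  have h1 : ∃ w ∈ U, hf ι q w w ≠ 0 := by
    by_contra hcon
    push_neg at hcon
    obtain ⟨u, huU, hu0⟩ := (Submodule.ne_bot_iff U).1 hU0
    apply hu0
    apply hU u huU
    intro v hvU
    by_contra ha
    obtain ⟨e, he⟩ := Cfsg.Agent.S2644.exists_trace_ne hF
    have hw := hcon ((e / hf ι q u v) • u + v) (U.add_mem (U.smul_mem _ huU) hvU)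
    rw [Cfsg.Agent.S2644.hf_add_left, Cfsg.Agent.S2644.hf_add_right σ hσ,
      Cfsg.Agent.S2644.hf_add_right σ hσ, hf_smul_left, hf_smul_left, hf_smul_right,
      hf_smul_right, hcon u huU, hcon v hvU, ← hf_conj σ hσ hσ2 u v] at hw
    apply he
    have e1 : e / hf ι q u v * hf ι q u v = e := div_mul_cancel₀ e ha
    have e2 : (e / hf ι q u v) ^ q * hf ι q u v ^ q = e ^ q := by rw [← mul_pow, e1]
    linear_combination hw - e1 - e2
  obtain ⟨w, hwU, hw⟩ := h1
  have hfix : (hf ι q w w) ^ q = hf ι q w w := hf_conj σ hσ hσ2 w w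
  obtain ⟨x, hx0, hx⟩ := norm_surj hF (hf ι q w w)⁻¹ (inv_ne_zero hw) (by rw [inv_pow, hfix])
  refine ⟨x • w, U.smul_mem _ hwU, ?_⟩
  rw [hf_smul_left, hf_smul_right, ← mul_assoc, ← pow_succ', hx, inv_mul_cancel₀ hw]

theorem exists_on [Fintype F] (hF : Fintype.card F = q ^ 2) :
    ∀ (k : ℕ) (U : Submodule F (ι → F)), Nondeg q U → Module.finrank F U = k →
      ∃ b : Fin k → (ι → F), (∀ i, b i ∈ U) ∧
        ∀ i j, hf ι q (b i) (b j) = if i = j then 1 else 0 := by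
  obtain ⟨σ, hσ⟩ := exists_frob hF
  have hσ2 : ∀ x, σ (σ x) = x := fun x => by rw [hσ, hσ, pow_q_pow_q hF]
  have hq0 : q ≠ 0 := by have := two_le_q hF; omega
  intro k
  induction k with
  | zero => intro U _ _; exact ⟨fun i => i.elim0, fun i => i.elim0, fun i => i.elim0⟩
  | succ k ih =>
    intro U hU hdim
    have hU0 : U ≠ ⊥ := by
      rintro rfl
      rw [finrank_bot] at hdim
      omega
    obtain ⟨u, huU, hu⟩ := exists_norm_one hF U hU hU0
    have hu0 : u ≠ 0 := by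
      rintro rfl
      rw [hf_zero_left] at hu
      exact zero_ne_one hu
    obtain ⟨U', hU'⟩ : ∃ U' : Submodule F (ι → F), U' = U ⊓ LinearMap.ker (hfL q u) := ⟨_, rfl⟩
    have hU'mem : ∀ v, v ∈ U' ↔ v ∈ U ∧ hf ι q v u = 0 := by
      intro v
      rw [hU', Submodule.mem_inf, LinearMap.mem_ker, hfL_apply]
    have hdecomp : ∀ x ∈ U, x - (hf ι q x u) • u ∈ U' := by
      intro x hx
      rw [hU'mem]
      refine ⟨U.sub_mem hx (U.smul_mem _ huU), ?_⟩
      rw [hf_sub_left, hf_smul_left, hu, mul_one, sub_self]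
    have hU'nd : Nondeg q U' := by
      intro v hv hall
      apply hU v ((hU'mem v).1 hv).1
      intro x hx
      have h1 := hall _ (hdecomp x hx)
      rw [hf_sub_right σ hσ, hf_smul_right, ((hU'mem v).1 hv).2, mul_zero, sub_zero] at h1
      exact h1
    have hU'dim : Module.finrank F U' = k := by
      have hsup : U' ⊔ Submodule.span F {u} = U := by
        apply le_antisymm
        · apply sup_le
          · intro v hv; exact ((hU'mem v).1 hv).1
          · rw [Submodule.span_singleton_le_iff_mem]; exact huU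
        · intro x hx
          have : x = (x - (hf ι q x u) • u) + (hf ι q x u) • u := by abel
          rw [this]
          exact Submodule.add_mem_sup (hdecomp x hx)
            (Submodule.smul_mem _ _ (Submodule.mem_span_singleton_self u))
      have hinf : U' ⊓ Submodule.span F {u} = ⊥ := by
        rw [eq_bot_iff]
        rintro v ⟨hv1, hv2⟩
        obtain ⟨c, rfl⟩ := Submodule.mem_span_singleton.1 hv2
        have := ((hU'mem _).1 hv1).2
        rw [hf_smul_left, hu, mul_one] at this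
        rw [this, zero_smul]
        exact Submodule.zero_mem _
      have h1 := Submodule.finrank_sup_add_finrank_inf_eq U' (Submodule.span F {u})
      rw [hsup, hinf, finrank_bot, finrank_span_singleton hu0, hdim] at h1
      omega
    obtain ⟨b', hb'U, hb'⟩ := ih U' hU'nd hU'dim
    refine ⟨Fin.cons u b', ?_, ?_⟩
    · intro i
      refine Fin.cases ?_ ?_ i
      · rw [Fin.cons_zero]; exact huU
      · intro j; rw [Fin.cons_succ]; exact ((hU'mem _).1 (hb'U j)).1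
    · intro i j
      refine Fin.cases ?_ ?_ i
      · refine Fin.cases ?_ ?_ j
        · rw [Fin.cons_zero, hu, if_pos rfl]
        · intro j'
          rw [Fin.cons_zero, Fin.cons_succ, ← hf_conj σ hσ hσ2, ((hU'mem _).1 (hb'U j')).2,
            zero_pow hq0, if_neg (Fin.succ_ne_zero j').symm]
      · intro i'
        refine Fin.cases ?_ ?_ j
        · rw [Fin.cons_zero, Fin.cons_succ, ((hU'mem _).1 (hb'U i')).2,
            if_neg (Fin.succ_ne_zero i')]
        · intro j'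
          rw [Fin.cons_succ, Fin.cons_succ, hb']
          simp only [Fin.succ_inj]

end frame

theorem exists_frame {F : Type*} [Field F] [Fintype F] {q : ℕ} (hF : Fintype.card F = q ^ 2)
    (σ : F →+* F) (hσ : ∀ x, σ x = x ^ q) (n k : ℕ)
    (W : Submodule F (Fin n → F)) (hWk : Module.finrank F W = k) (hW : Nondeg q W) :
    ∃ P : Matrix (Fin n) (Fin k ⊕ Fin (n - k)) F, Pᵀ * P.map σ = 1 ∧
      ∀ x, P *ᵥ x ∈ W ↔ x ∘ Sum.inr = 0 := by
  classical
  have hσ2 : ∀ x, σ (σ x) = x := fun x => by rw [hσ, hσ, pow_q_pow_q hF]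
  have hq0 : q ≠ 0 := by have := two_le_q hF; omega
  obtain ⟨b, hbW, hb⟩ := exists_on hF k W hW hWk
  obtain ⟨Φ, hΦ⟩ : ∃ Φ : (Fin n → F) →ₗ[F] (Fin k → F),
      ∀ v j, Φ v j = hf (Fin n) q v (b j) :=
    ⟨LinearMap.pi (fun j => hfL q (b j)), fun v j => rfl⟩
  have hΦb : ∀ t : Fin k → F, Φ (∑ a, t a • b a) = t := by
    intro t
    funext j
    rw [hΦ, hf_sum_left, Finset.sum_eq_single j]
    · rw [hb, if_pos rfl, mul_one]
    · intro a _ haj; rw [hb, if_neg haj, mul_zero]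
    · intro h; exact absurd (Finset.mem_univ j) h
  have hΦsurj : Function.Surjective Φ := fun t => ⟨_, hΦb t⟩
  have hΦW : ∀ y ∈ W, Φ y = 0 → y = 0 := by
    have hsurj' : Function.Surjective (Φ.domRestrict W) := by
      intro t
      exact ⟨⟨∑ a, t a • b a, W.sum_mem (fun a _ => W.smul_mem _ (hbW a))⟩, hΦb t⟩
    have hinj := (LinearMap.injective_iff_surjective_of_finrank_eq_finrank
      (by rw [hWk, Module.finrank_fin_fun])).2 hsurj'
    intro y hy h0
    have := @hinj ⟨y, hy⟩ 0 (by rw [map_zero]; exact h0)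
    exact congrArg Subtype.val this
  obtain ⟨K, hK⟩ : ∃ K : Submodule F (Fin n → F), K = LinearMap.ker Φ := ⟨_, rfl⟩
  have hKmem : ∀ v, v ∈ K ↔ ∀ j, hf (Fin n) q v (b j) = 0 := by
    intro v
    rw [hK, LinearMap.mem_ker]
    constructor
    · intro h j; rw [← hΦ, h]; rfl
    · intro h; funext j; rw [hΦ, h j]; rfl
  have hKdim : Module.finrank F K = n - k := by
    have h1 := LinearMap.finrank_range_add_finrank_ker Φ
    rw [LinearMap.range_eq_top.2 hΦsurj, finrank_top, Module.finrank_fin_fun,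
      Module.finrank_fin_fun, ← hK] at h1
    omega
  have hproj : ∀ x : Fin n → F, x - ∑ a, hf (Fin n) q x (b a) • b a ∈ K := by
    intro x
    rw [hKmem]
    intro j
    rw [hf_sub_left, hf_sum_left, Finset.sum_eq_single j]
    · rw [hb, if_pos rfl, mul_one, sub_self]
    · intro a _ haj; rw [hb, if_neg haj, mul_zero]
    · intro h; exact absurd (Finset.mem_univ j) h
  have hKnd : Nondeg q K := by
    intro v hv hall
    have h1 : ∀ x, hf (Fin n) q v x = 0 := by
      intro x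
      have h2 := hall _ (hproj x)
      rw [hf_sub_right σ hσ] at h2
      have h3 : hf (Fin n) q v (∑ a, hf (Fin n) q x (b a) • b a) = 0 := by
        rw [← hf_conj σ hσ hσ2, hf_sum_left, Finset.sum_eq_zero, zero_pow hq0]
        intro a _
        rw [← hf_conj σ hσ hσ2 v (b a), (hKmem v).1 hv a, zero_pow hq0, mul_zero]
      rw [h3, sub_zero] at h2
      exact h2
    funext i
    have := h1 (Pi.single i 1)
    rw [hf_single_right σ hσ] at this
    exact this
  obtain ⟨c, hcK, hc⟩ := exists_on hF (n - k) K hKnd hKdim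
  have hbc : ∀ a a', hf (Fin n) q (c a') (b a) = 0 := fun a a' => (hKmem _).1 (hcK a') a
  have hcb : ∀ a a', hf (Fin n) q (b a) (c a') = 0 := fun a a' => by
    rw [← hf_conj σ hσ hσ2, hbc, zero_pow hq0]
  obtain ⟨P, hP⟩ : ∃ P : Matrix (Fin n) (Fin k ⊕ Fin (n - k)) F,
      P = Matrix.of (fun i s => Sum.elim b c s i) := ⟨_, rfl⟩
  refine ⟨P, ?_, ?_⟩
  · ext s t
    rw [Matrix.mul_apply]
    have e : ∑ i, Pᵀ s i * P.map σ i t = hf (Fin n) q (Sum.elim b c s) (Sum.elim b c t) := by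
      rw [hf_eq σ hσ, hP]; rfl
    rw [e]
    rcases s with a | a <;> rcases t with a' | a'
    · rw [Sum.elim_inl, Sum.elim_inl, hb, Matrix.one_apply]
      simp only [Sum.inl.injEq]
    · rw [Sum.elim_inl, Sum.elim_inr, hcb, Matrix.one_apply, if_neg (by simp)]
    · rw [Sum.elim_inl, Sum.elim_inr, hbc, Matrix.one_apply, if_neg (by simp)]
    · rw [Sum.elim_inr, Sum.elim_inr, hc, Matrix.one_apply]
      simp only [Sum.inr.injEq]
  · intro x
    have hPx : P *ᵥ x = ∑ a, x (Sum.inl a) • b a + ∑ a, x (Sum.inr a) • c a := by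
      funext i
      rw [hP]
      simp only [Matrix.mulVec, dotProduct, Matrix.of_apply, Fintype.sum_sum_type, Sum.elim_inl,
        Sum.elim_inr, Pi.add_apply, Finset.sum_apply, Pi.smul_apply, smul_eq_mul]
      congr 1 <;> exact Finset.sum_congr rfl (fun a _ => mul_comm _ _)
    rw [hPx]
    constructor
    · intro h
      have hy : ∑ a, x (Sum.inr a) • c a ∈ W := by
        have hb1 : ∑ a, x (Sum.inl a) • b a ∈ W :=
          W.sum_mem (fun a _ => W.smul_mem (x (Sum.inl a)) (hbW a))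
        have := W.sub_mem h hb1
        rwa [add_sub_cancel_left] at this
      have hyK : ∑ a, x (Sum.inr a) • c a ∈ K :=
        K.sum_mem (fun a _ => K.smul_mem _ (hcK a))
      have hy0 := hΦW _ hy (by rw [hK] at hyK; exact LinearMap.mem_ker.1 hyK)
      funext a
      have h5 : hf (Fin n) q (∑ a, x (Sum.inr a) • c a) (c a) = hf (Fin n) q 0 (c a) := by
        rw [hy0]
      rw [hf_sum_left, hf_zero_left, Finset.sum_eq_single a] at h5
      · rw [hc, if_pos rfl, mul_one] at h5; exact h5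
      · intro a' _ h'; rw [hc, if_neg h', mul_zero]
      · intro h; exact absurd (Finset.mem_univ a) h
    · intro h
      have h6 : ∑ a, x (Sum.inr a) • c a = 0 := Finset.sum_eq_zero (fun a _ => by
        have h7 := congrFun h a
        simp only [Function.comp_apply, Pi.zero_apply] at h7
        rw [h7, zero_smul])
      rw [h6, add_zero]
      exact W.sum_mem (fun a _ => W.smul_mem _ (hbW a))

section grp
variable {F : Type*} [Field F] {q : ℕ} {n k : ℕ}

/-- block diagonal -/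
def bd (A : Matrix (Fin k) (Fin k) F) (B : Matrix (Fin (n - k)) (Fin (n - k)) F) :
    Matrix (Fin k ⊕ Fin (n - k)) (Fin k ⊕ Fin (n - k)) F := Matrix.fromBlocks A 0 0 B

theorem bd_mul (A A' : Matrix (Fin k) (Fin k) F) (B B' : Matrix (Fin (n - k)) (Fin (n - k)) F) :
    bd A B * bd A' B' = bd (A * A') (B * B') := by
  simp [bd, Matrix.fromBlocks_multiply]

theorem bd_one : bd (1 : Matrix (Fin k) (Fin k) F) (1 : Matrix (Fin (n - k)) (Fin (n - k)) F) = 1 :=
  Matrix.fromBlocks_one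

theorem bd_inl (A : Matrix (Fin k) (Fin k) F) (B : Matrix (Fin (n - k)) (Fin (n - k)) F)
    (x : Fin k ⊕ Fin (n - k) → F) : (bd A B *ᵥ x) ∘ Sum.inl = A *ᵥ (x ∘ Sum.inl) := by
  rw [bd, Matrix.fromBlocks_mulVec]
  simp

theorem bd_inr (A : Matrix (Fin k) (Fin k) F) (B : Matrix (Fin (n - k)) (Fin (n - k)) F)
    (x : Fin k ⊕ Fin (n - k) → F) : (bd A B *ᵥ x) ∘ Sum.inr = B *ᵥ (x ∘ Sum.inr) := by
  rw [bd, Matrix.fromBlocks_mulVec]
  simp

theorem hf_split (x y : Fin k ⊕ Fin (n - k) → F) :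
    hf (Fin k ⊕ Fin (n - k)) q x y = hf (Fin k) q (x ∘ Sum.inl) (y ∘ Sum.inl)
      + hf (Fin (n - k)) q (x ∘ Sum.inr) (y ∘ Sum.inr) := by
  unfold hf
  rw [Fintype.sum_sum_type]
  rfl

theorem bd_iso (A : Matrix (Fin k) (Fin k) F) (B : Matrix (Fin (n - k)) (Fin (n - k)) F)
    (hA : IsIso (Fin k) q A) (hB : IsIso (Fin (n - k)) q B) :
    IsIso (Fin k ⊕ Fin (n - k)) q (bd A B) := by
  intro x y
  rw [hf_split, bd_inl, bd_inl, bd_inr, bd_inr, hA, hB, ← hf_split]

variable (P : Matrix (Fin n) (Fin k ⊕ Fin (n - k)) F) (Q : Matrix (Fin k ⊕ Fin (n - k)) (Fin n) F)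

/-- the embedding of the block diagonal group -/
def emb (hQP : Q * P = 1) (hPQ : P * Q = 1) (A : GL (Fin k) F) (B : GL (Fin (n - k)) F) :
    GL (Fin n) F :=
  ⟨P * bd (A : Matrix (Fin k) (Fin k) F) (B : Matrix (Fin (n - k)) (Fin (n - k)) F) * Q,
    P * bd ((A⁻¹ : GL (Fin k) F) : Matrix (Fin k) (Fin k) F)
      ((B⁻¹ : GL (Fin (n - k)) F) : Matrix (Fin (n - k)) (Fin (n - k)) F) * Q, by
    calc P * bd (A : Matrix (Fin k) (Fin k) F) (B : Matrix (Fin (n - k)) (Fin (n - k)) F) * Q *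
          (P * bd ((A⁻¹ : GL (Fin k) F) : Matrix (Fin k) (Fin k) F)
            ((B⁻¹ : GL (Fin (n - k)) F) : Matrix (Fin (n - k)) (Fin (n - k)) F) * Q)
        = P * (bd (A : Matrix (Fin k) (Fin k) F) (B : Matrix (Fin (n - k)) (Fin (n - k)) F) *
            (Q * P) * bd ((A⁻¹ : GL (Fin k) F) : Matrix (Fin k) (Fin k) F)
            ((B⁻¹ : GL (Fin (n - k)) F) : Matrix (Fin (n - k)) (Fin (n - k)) F)) * Q := by
          simp only [Matrix.mul_assoc]
      _ = 1 := by
          rw [hQP, Matrix.mul_one, bd_mul, ← Units.val_mul, ← Units.val_mul, mul_inv_cancel,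
            mul_inv_cancel, Units.val_one, Units.val_one, bd_one, Matrix.mul_one, hPQ], by
    calc P * bd ((A⁻¹ : GL (Fin k) F) : Matrix (Fin k) (Fin k) F)
            ((B⁻¹ : GL (Fin (n - k)) F) : Matrix (Fin (n - k)) (Fin (n - k)) F) * Q *
          (P * bd (A : Matrix (Fin k) (Fin k) F) (B : Matrix (Fin (n - k)) (Fin (n - k)) F) * Q)
        = P * (bd ((A⁻¹ : GL (Fin k) F) : Matrix (Fin k) (Fin k) F)
            ((B⁻¹ : GL (Fin (n - k)) F) : Matrix (Fin (n - k)) (Fin (n - k)) F) *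
            (Q * P) * bd (A : Matrix (Fin k) (Fin k) F)
              (B : Matrix (Fin (n - k)) (Fin (n - k)) F)) * Q := by
          simp only [Matrix.mul_assoc]
      _ = 1 := by
          rw [hQP, Matrix.mul_one, bd_mul, ← Units.val_mul, ← Units.val_mul, inv_mul_cancel,
            inv_mul_cancel, Units.val_one, Units.val_one, bd_one, Matrix.mul_one, hPQ]⟩

theorem emb_val (hQP : Q * P = 1) (hPQ : P * Q = 1) (A : GL (Fin k) F) (B : GL (Fin (n - k)) F) :
    ((emb P Q hQP hPQ A B : GL (Fin n) F) : Matrix (Fin n) (Fin n) F)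
      = P * bd (A : Matrix (Fin k) (Fin k) F) (B : Matrix (Fin (n - k)) (Fin (n - k)) F) * Q := rfl

theorem emb_mul (hQP : Q * P = 1) (hPQ : P * Q = 1) (A A' : GL (Fin k) F)
    (B B' : GL (Fin (n - k)) F) :
    emb P Q hQP hPQ (A * A') (B * B') = emb P Q hQP hPQ A B * emb P Q hQP hPQ A' B' := by
  apply Units.ext
  rw [Units.val_mul, emb_val, emb_val, emb_val, Units.val_mul, Units.val_mul, ← bd_mul]
  calc P * (bd (A : Matrix (Fin k) (Fin k) F) (B : Matrix (Fin (n - k)) (Fin (n - k)) F) *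
        bd (A' : Matrix (Fin k) (Fin k) F) (B' : Matrix (Fin (n - k)) (Fin (n - k)) F)) * Q
      = P * (bd (A : Matrix (Fin k) (Fin k) F) (B : Matrix (Fin (n - k)) (Fin (n - k)) F) *
        (Q * P) * bd (A' : Matrix (Fin k) (Fin k) F)
          (B' : Matrix (Fin (n - k)) (Fin (n - k)) F)) * Q := by rw [hQP, Matrix.mul_one]
    _ = _ := by simp only [Matrix.mul_assoc]

theorem block_form [Fintype F] (σ : F →+* F) (hσ : ∀ x, σ x = x ^ q) (hσ2 : ∀ x, σ (σ x) = x)
    (hq0 : q ≠ 0)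
    (M : Matrix (Fin k ⊕ Fin (n - k)) (Fin k ⊕ Fin (n - k)) F)
    (hM : IsIso (Fin k ⊕ Fin (n - k)) q M)
    (hst : ∀ x : Fin k ⊕ Fin (n - k) → F, x ∘ Sum.inr = 0 ↔ (M *ᵥ x) ∘ Sum.inr = 0) :
    ∃ (A : GL (Fin k) F) (B : GL (Fin (n - k)) F), A ∈ gu (Fin k) F q ∧
      B ∈ gu (Fin (n - k)) F q ∧
      M = bd (A : Matrix (Fin k) (Fin k) F) (B : Matrix (Fin (n - k)) (Fin (n - k)) F) := by
  classical
  obtain ⟨gM, -, hgM⟩ := exists_gu σ hσ M hM
  have hcol : ∀ (s t : Fin k ⊕ Fin (n - k)), (M *ᵥ Pi.single t 1) s = M s t := by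
    intro s t
    simp [Matrix.mulVec, dotProduct, Pi.single_apply]
  have h21 : M.toBlocks₂₁ = 0 := by
    ext b a
    have h1 := (hst (Pi.single (Sum.inl a) 1)).1 (by
      funext b'
      simp)
    have h2 := congrFun h1 b
    simp only [Function.comp_apply, Pi.zero_apply] at h2
    rw [hcol] at h2
    exact h2
  have h12 : M.toBlocks₁₂ = 0 := by
    ext a b
    obtain ⟨x, hx⟩ : ∃ x : Fin k ⊕ Fin (n - k) → F, M *ᵥ x = Pi.single (Sum.inl a) 1 := by
      refine ⟨((gM⁻¹ : GL (Fin k ⊕ Fin (n - k)) F) :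
        Matrix (Fin k ⊕ Fin (n - k)) (Fin k ⊕ Fin (n - k)) F) *ᵥ Pi.single (Sum.inl a) 1, ?_⟩
      rw [← hgM, Matrix.mulVec_mulVec, ← Units.val_mul, mul_inv_cancel, Units.val_one,
        Matrix.one_mulVec]
    have hx0 : x ∘ Sum.inr = 0 := (hst x).2 (by
      rw [hx]
      funext b'
      simp)
    have h1 := hM (Pi.single (Sum.inr b) 1) x
    rw [hx, hf_single_right σ hσ, hcol, Cfsg.Agent.S2644.hf_single_left σ hσ hσ2] at h1
    have h2 := congrFun hx0 b
    simp only [Function.comp_apply, Pi.zero_apply] at h2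
    rw [h2, zero_pow hq0] at h1
    exact h1
  have hMbd : M = bd M.toBlocks₁₁ M.toBlocks₂₂ := by
    have := Matrix.fromBlocks_toBlocks M
    rw [h12, h21] at this
    exact this.symm
  have hA : IsIso (Fin k) q M.toBlocks₁₁ := by
    intro x y
    have h1 := hM (Sum.elim x 0) (Sum.elim y 0)
    rw [hMbd, hf_split, hf_split, bd_inl, bd_inl, bd_inr, bd_inr] at h1
    simp only [Sum.elim_comp_inl, Sum.elim_comp_inr, Matrix.mulVec_zero, hf_zero_left,
      add_zero] at h1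
    exact h1
  have hB : IsIso (Fin (n - k)) q M.toBlocks₂₂ := by
    intro x y
    have h1 := hM (Sum.elim 0 x) (Sum.elim 0 y)
    rw [hMbd, hf_split, hf_split, bd_inl, bd_inl, bd_inr, bd_inr] at h1
    simp only [Sum.elim_comp_inl, Sum.elim_comp_inr, Matrix.mulVec_zero, hf_zero_left,
      zero_add] at h1
    exact h1
  obtain ⟨A, hAg, hAv⟩ := exists_gu σ hσ _ hA
  obtain ⟨B, hBg, hBv⟩ := exists_gu σ hσ _ hB
  exact ⟨A, B, hAg, hBg, by rw [hAv, hBv]; exact hMbd⟩

end grp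

theorem main {F : Type*} [Field F] [Fintype F] {q : ℕ} (hF : Fintype.card F = q ^ 2) (n k : ℕ) (hk : k ≤ n) (W : Submodule F (Fin n → F)) (hWk : Module.finrank F W = k) (hW : ∀ u ∈ W, (∀ v ∈ W, Cfsg.hermForm n F q u v = 0) → u = 0) : Nonempty (↥((Cfsg.stabilizing (Cfsg.glToMat (Fin n) F) (W : Set (Fin n → F))).subgroupOf (Cfsg.GU n F q)) ≃* ↥(Cfsg.GU k F q) × ↥(Cfsg.GU (n - k) F q)) := by
  classical
  obtain ⟨σ, hσ⟩ := exists_frob hF
  have hσ2 : ∀ x, σ (σ x) = x := fun x => by rw [hσ, hσ, pow_q_pow_q hF]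
  have hq0 : q ≠ 0 := by have := two_le_q hF; omega
  obtain ⟨P, hPP, hPW⟩ := exists_frame hF σ hσ n k W hWk hW
  obtain ⟨Q, hQ⟩ : ∃ Q : Matrix (Fin k ⊕ Fin (n - k)) (Fin n) F, Q = (P.map σ)ᵀ := ⟨_, rfl⟩
  have hQP : Q * P = 1 := by
    have := congrArg Matrix.transpose hPP
    rw [Matrix.transpose_mul, Matrix.transpose_transpose, Matrix.transpose_one] at this
    rw [hQ]; exact this
  have hPQ : P * Q = 1 :=
    (Matrix.mul_eq_one_comm_of_equiv
      ((finSumFinEquiv.trans (finCongr (by omega : k + (n - k) = n))).symm)).2 hQP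
  have hPiso : ∀ x y : Fin k ⊕ Fin (n - k) → F,
      hf (Fin n) q (P *ᵥ x) (P *ᵥ y) = hf (Fin k ⊕ Fin (n - k)) q x y := by
    intro x y
    have e1 : ∀ (ι : Type) [Fintype ι] (u v : ι → F), hf ι q u v = u ⬝ᵥ (σ ∘ v) := by
      intro ι _ u v
      rw [hf_eq σ hσ]; rfl
    have e2 : σ ∘ (P *ᵥ y) = P.map σ *ᵥ (σ ∘ y) := by
      funext i
      exact RingHom.map_mulVec σ P y i
    rw [e1, e1, e2, ← Matrix.vecMul_transpose, ← Matrix.dotProduct_mulVec, Matrix.mulVec_mulVec,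
      hPP, Matrix.one_mulVec]
  have hPQv : ∀ v : Fin n → F, P *ᵥ (Q *ᵥ v) = v := fun v => by
    rw [Matrix.mulVec_mulVec, hPQ, Matrix.one_mulVec]
  have hQPv : ∀ x : Fin k ⊕ Fin (n - k) → F, Q *ᵥ (P *ᵥ x) = x := fun v => by
    rw [Matrix.mulVec_mulVec, hQP, Matrix.one_mulVec]
  have hWQ : ∀ v : Fin n → F, v ∈ W ↔ (Q *ᵥ v) ∘ Sum.inr = 0 := fun v => by
    rw [← hPW, hPQv]
  have hGU : ∀ (A : GL (Fin k) F) (B : GL (Fin (n - k)) F), A ∈ Cfsg.GU k F q →
      B ∈ Cfsg.GU (n - k) F q → emb P Q hQP hPQ A B ∈ Cfsg.GU n F q := by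
    intro A B hA hB
    rw [GU_eq, mem_gu, emb_val]
    intro x y
    simp only [← Matrix.mulVec_mulVec]
    rw [hPiso, bd_iso (A : Matrix (Fin k) (Fin k) F) (B : Matrix (Fin (n - k)) (Fin (n - k)) F)
      hA hB, ← hPiso, hPQv, hPQv]
  have hSt : ∀ (A : GL (Fin k) F) (B : GL (Fin (n - k)) F), emb P Q hQP hPQ A B ∈
      Cfsg.stabilizing (Cfsg.glToMat (Fin n) F) (W : Set (Fin n → F)) := by
    intro A B v
    show v ∈ W ↔ (emb P Q hQP hPQ A B : Matrix (Fin n) (Fin n) F) *ᵥ v ∈ W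
    rw [emb_val, hWQ, hWQ]
    simp only [← Matrix.mulVec_mulVec]
    rw [hQPv, bd_inr]
    constructor
    · intro h; rw [h, Matrix.mulVec_zero]
    · intro h
      have h1 := congrArg (fun z => ((B⁻¹ : GL (Fin (n - k)) F) :
        Matrix (Fin (n - k)) (Fin (n - k)) F) *ᵥ z) h
      simp only [Matrix.mulVec_mulVec, ← Units.val_mul, inv_mul_cancel, Units.val_one,
        Matrix.one_mulVec, Matrix.mulVec_zero] at h1
      exact h1
  obtain ⟨Ψ, hΨ⟩ : ∃ Ψ : ↥(Cfsg.GU k F q) × ↥(Cfsg.GU (n - k) F q) →*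
      ↥((Cfsg.stabilizing (Cfsg.glToMat (Fin n) F) (W : Set (Fin n → F))).subgroupOf
        (Cfsg.GU n F q)),
      ∀ AB, (((Ψ AB : ↥(Cfsg.GU n F q)) : GL (Fin n) F)) = emb P Q hQP hPQ AB.1.1 AB.2.1 := by
    refine ⟨MonoidHom.mk' (fun AB => ⟨⟨emb P Q hQP hPQ AB.1.1 AB.2.1, hGU _ _ AB.1.2 AB.2.2⟩,
      Subgroup.mem_subgroupOf.2 (hSt _ _)⟩) ?_, fun AB => rfl⟩
    intro a b
    apply Subtype.ext
    apply Subtype.ext
    exact emb_mul P Q hQP hPQ a.1.1 b.1.1 a.2.1 b.2.1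
  have hinj : Function.Injective Ψ := by
    intro a b hab
    have h1 : emb P Q hQP hPQ a.1.1 a.2.1 = emb P Q hQP hPQ b.1.1 b.2.1 := by
      rw [← hΨ, ← hΨ, hab]
    have h2 := congrArg (fun g : GL (Fin n) F => Q * (g : Matrix (Fin n) (Fin n) F) * P) h1
    simp only [emb_val] at h2
    have h3 : ∀ D : Matrix (Fin k ⊕ Fin (n - k)) (Fin k ⊕ Fin (n - k)) F,
        Q * (P * D * Q) * P = D := by
      intro D
      calc Q * (P * D * Q) * P = (Q * P) * D * (Q * P) := by simp only [Matrix.mul_assoc]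
        _ = D := by rw [hQP, Matrix.one_mul, Matrix.mul_one]
    rw [h3, h3] at h2
    unfold bd at h2
    obtain ⟨hA, -, -, hB⟩ := Matrix.fromBlocks_inj.1 h2
    exact Prod.ext (Subtype.ext (Units.ext hA)) (Subtype.ext (Units.ext hB))
  have hsurj : Function.Surjective Ψ := by
    rintro ⟨⟨g, hgGU⟩, hgSt⟩
    have hgSt' : ∀ v, v ∈ W ↔ (g : Matrix (Fin n) (Fin n) F) *ᵥ v ∈ W :=
      Subgroup.mem_subgroupOf.1 hgSt
    have hgiso : IsIso (Fin n) q (g : Matrix (Fin n) (Fin n) F) := hgGU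
    obtain ⟨M, hMdef⟩ : ∃ M : Matrix (Fin k ⊕ Fin (n - k)) (Fin k ⊕ Fin (n - k)) F,
        M = Q * (g : Matrix (Fin n) (Fin n) F) * P := ⟨_, rfl⟩
    have hPM : ∀ x, P *ᵥ (M *ᵥ x) = (g : Matrix (Fin n) (Fin n) F) *ᵥ (P *ᵥ x) := by
      intro x
      rw [hMdef, Matrix.mulVec_mulVec, Matrix.mulVec_mulVec, ← Matrix.mul_assoc,
        ← Matrix.mul_assoc, hPQ, Matrix.one_mul]
    have hMiso : IsIso (Fin k ⊕ Fin (n - k)) q M := by
      intro x y
      rw [← hPiso, hPM, hPM, hgiso, hPiso]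
    have hMst : ∀ x : Fin k ⊕ Fin (n - k) → F, x ∘ Sum.inr = 0 ↔ (M *ᵥ x) ∘ Sum.inr = 0 := by
      intro x
      rw [← hPW, ← hPW, hPM]
      exact hgSt' _
    obtain ⟨A, B, hA, hB, hMbd⟩ := block_form σ hσ hσ2 hq0 M hMiso hMst
    refine ⟨(⟨A, hA⟩, ⟨B, hB⟩), ?_⟩
    apply Subtype.ext
    apply Subtype.ext
    rw [hΨ]
    apply Units.ext
    rw [emb_val]
    show P * bd (A : Matrix (Fin k) (Fin k) F) (B : Matrix (Fin (n - k)) (Fin (n - k)) F) * Q
      = (g : Matrix (Fin n) (Fin n) F)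
    rw [← hMbd, hMdef]
    calc P * (Q * (g : Matrix (Fin n) (Fin n) F) * P) * Q
        = (P * Q) * (g : Matrix (Fin n) (Fin n) F) * (P * Q) := by simp only [Matrix.mul_assoc]
      _ = (g : Matrix (Fin n) (Fin n) F) := by rw [hPQ, Matrix.one_mul, Matrix.mul_one]
  exact ⟨(MulEquiv.ofBijective Ψ ⟨hinj, hsurj⟩).symm⟩

theorem result {F : Type*} [Field F] [Fintype F] {q : ℕ} (hF : Fintype.card F = q ^ 2) (n k : ℕ) (hk : k ≤ n) (W : Submodule F (Fin n → F)) (hWk : Module.finrank F W = k) (hW : ∀ u ∈ W, (∀ v ∈ W, Cfsg.hermForm n F q u v = 0) → u = 0) : Nonempty (↥((Cfsg.stabilizing (Cfsg.glToMat (Fin n) F) (W : Set (Fin n → F))).subgroupOf (Cfsg.GU n F q)) ≃* ↥(Cfsg.GU k F q) × ↥(Cfsg.GU (n - k) F q)) := by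
  exact main hF n k hk W hWk hW

end Cfsg.Agent.S0837
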