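import Cfsg.Statements.S0782
import Cfsg.Agent.Lib.Helper1.Herm
import Cfsg.Agent.Lib.Helper1.HermGU
import Cfsg.Agent.Lib.Helper1.HermSU
import Cfsg.Agent.S2644
import Cfsg.Agent.S0837
import Cfsg.Agent.S0828
import Cfsg.Agent.S0775

set_option autoImplicit false
open Cfsg


namespace Cfsg.Agent.S0782

open Matrix Cfsg.Agent.Lib.Helper1.Herm
open Cfsg.Agent.S2644 (hf_add_left hf_add_right trace_surj)

section
variable {F : Type*} [Field F] {q : ℕ} {n : ℕ}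

def dotB (n : ℕ) : LinearMap.BilinForm F (Fin n → F) :=
  LinearMap.mk₂ F (fun u v => u ⬝ᵥ v) (fun a b v => add_dotProduct a b v)
    (fun a u v => smul_dotProduct a u v) (fun v a b => dotProduct_add v a b)
    (fun a u v => dotProduct_smul a u v)

theorem dotB_nondeg : (dotB n (F := F)).Nondegenerate :=
  ⟨fun x hx => dotProduct_eq_zero x hx,
    fun y hy => dotProduct_eq_zero y (fun w => by rw [dotProduct_comm]; exact hy w)⟩

def tw (σ : F →+* F) (v : Fin n → F) : Fin n → F := fun j => σ (v j)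

theorem hf_tw (σ : F →+* F) (hσ : ∀ x, σ x = x ^ q) (x w : Fin n → F) :
    hf (Fin n) q x w = tw σ w ⬝ᵥ x := by
  rw [hf_eq σ hσ, dotProduct]
  exact Finset.sum_congr rfl (fun i _ => mul_comm _ _)

def hPerp (σ : F →+* F) {k : ℕ} (f : Fin k → Fin n → F) : Submodule F (Fin n → F) :=
  (dotB n).orthogonal (Submodule.span F (Set.range (fun i => tw σ (f i))))

theorem mem_hPerp (σ : F →+* F) (hσ : ∀ x, σ x = x ^ q) {k : ℕ} (f : Fin k → Fin n → F)
    (x : Fin n → F) : x ∈ hPerp σ f ↔ ∀ i, hf (Fin n) q x (f i) = 0 := by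
  constructor
  · intro h i
    rw [hf_tw σ hσ]
    exact h _ (Submodule.subset_span ⟨i, rfl⟩)
  · intro h y hy
    show y ⬝ᵥ x = 0
    induction hy using Submodule.span_induction with
    | mem y hy => obtain ⟨i, rfl⟩ := hy; rw [← hf_tw σ hσ]; exact h i
    | zero => exact zero_dotProduct x
    | add a b _ _ ha hb => rw [add_dotProduct, ha, hb, add_zero]
    | smul c a _ ha => rw [smul_dotProduct, ha, smul_zero]

theorem li_tw (σ : F →+* F) (hσ2 : ∀ x, σ (σ x) = x) {k : ℕ} (f : Fin k → Fin n → F)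
    (hf : LinearIndependent F f) : LinearIndependent F (fun i => tw σ (f i)) := by
  rw [Fintype.linearIndependent_iff] at hf ⊢
  intro c hc i
  have h1 : ∑ i, σ (c i) • f i = 0 := by
    funext j
    have h2 := congrArg σ (congrFun hc j)
    simp only [Finset.sum_apply, Pi.smul_apply, smul_eq_mul, map_sum, map_mul, tw, hσ2,
      Pi.zero_apply, map_zero] at h2 ⊢
    exact h2
  have h3 := hf (fun i => σ (c i)) h1 i
  have h4 := congrArg σ h3
  rw [hσ2, map_zero] at h4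
  exact h4

theorem finrank_hPerp (σ : F →+* F) (hσ2 : ∀ x, σ (σ x) = x) {k : ℕ} (f : Fin k → Fin n → F)
    (hf : LinearIndependent F f) : Module.finrank F (hPerp σ f) = n - k := by
  rw [hPerp, LinearMap.BilinForm.finrank_orthogonal dotB_nondeg,
    finrank_span_eq_card (li_tw σ hσ2 f hf), Fintype.card_fin,
    Module.finrank_fintype_fun_eq_card, Fintype.card_fin]

def IsHFr (q : ℕ) {k : ℕ} (f : Fin k → Fin n → F) : Prop :=
  LinearIndependent F f ∧ ∀ i j, hf (Fin n) q (f i) (f j) = 0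

theorem perp_span (σ : F →+* F) (hσ : ∀ x, σ x = x ^ q) {k : ℕ} (f : Fin k → Fin n → F)
    (x : Fin n → F) (hx : x ∈ hPerp σ f) (s : Fin n → F)
    (hs : s ∈ Submodule.span F (Set.range f)) : hf (Fin n) q x s = 0 := by
  induction hs using Submodule.span_induction with
  | mem y hy => obtain ⟨i, rfl⟩ := hy; exact (mem_hPerp σ hσ f x).1 hx i
  | zero => rw [hf_eq σ hσ]; simp
  | add a b _ _ ha hb => rw [hf_add_right σ hσ, ha, hb, add_zero]
  | smul c a _ ha => rw [hf_smul_right, ha, mul_zero]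

theorem span_le_hPerp (σ : F →+* F) (hσ : ∀ x, σ x = x ^ q) {k : ℕ} (f : Fin k → Fin n → F)
    (hf : IsHFr q f) : Submodule.span F (Set.range f) ≤ hPerp σ f := by
  rw [Submodule.span_le]
  rintro _ ⟨j, rfl⟩
  exact (mem_hPerp σ hσ f _).2 (fun i => hf.2 j i)

theorem isHFr_cons (σ : F →+* F) (hσ : ∀ x, σ x = x ^ q) (hσ2 : ∀ x, σ (σ x) = x) {k : ℕ}
    (f : Fin k → Fin n → F) (x : Fin n → F) :
    IsHFr q (Fin.cons x f : Fin (k+1) → Fin n → F) ↔
      IsHFr q f ∧ (x ∈ hPerp σ f ∧ hf (Fin n) q x x = 0) ∧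
        x ∉ Submodule.span F (Set.range f) := by
  unfold IsHFr
  rw [linearIndependent_fin_cons, mem_hPerp σ hσ]
  constructor
  · rintro ⟨⟨h1, h2⟩, h3⟩
    refine ⟨⟨h1, fun i j => ?_⟩, ⟨fun i => ?_, ?_⟩, h2⟩
    · have := h3 i.succ j.succ
      simpa using this
    · have := h3 0 i.succ
      simpa using this
    · have := h3 0 0
      simpa using this
  · rintro ⟨⟨h1, h3⟩, ⟨h4, h5⟩, h2⟩
    refine ⟨⟨h1, h2⟩, fun i j => ?_⟩
    refine Fin.cases ?_ (fun i' => ?_) i <;> refine Fin.cases ?_ (fun j' => ?_) j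
    · simp only [Fin.cons_zero]; exact h5
    · simp only [Fin.cons_zero, Fin.cons_succ]; exact h4 _
    · simp only [Fin.cons_zero, Fin.cons_succ]
      rw [← hf_conj σ hσ hσ2, h4, ← hσ, map_zero]
    · simp only [Fin.cons_succ]; exact h3 _ _

theorem exists_wit (σ : F →+* F) (hσ : ∀ x, σ x = x ^ q) (hσ2 : ∀ x, σ (σ x) = x) {k : ℕ}
    (f : Fin k → Fin n → F) (hfLI : LinearIndependent F f) (w : Fin n → F)
    (hw : w ∉ Submodule.span F (Set.range f)) : ∃ x ∈ hPerp σ f, hf (Fin n) q x w ≠ 0 := by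
  by_contra hcon
  push_neg at hcon
  have hLI' : LinearIndependent F (Fin.cons w f : Fin (k+1) → Fin n → F) :=
    (linearIndependent_fin_cons).2 ⟨hfLI, hw⟩
  have h1 : hPerp σ f ≤ hPerp σ (Fin.cons w f : Fin (k+1) → Fin n → F) := by
    intro x hx
    rw [mem_hPerp σ hσ]
    intro i
    refine Fin.cases ?_ (fun i' => ?_) i
    · simp only [Fin.cons_zero]; exact hcon x hx
    · simp only [Fin.cons_succ]; exact (mem_hPerp σ hσ f x).1 hx i'
  have h2 := Submodule.finrank_mono h1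
  rw [finrank_hPerp σ hσ2 f hfLI, finrank_hPerp σ hσ2 _ hLI'] at h2
  have h3 : k + 1 ≤ n := by
    have := hLI'.fintype_card_le_finrank
    simpa using this
  omega

theorem step_fix (σ : F →+* F) (hσ : ∀ x, σ x = x ^ q) (hσ2 : ∀ x, σ (σ x) = x) {k : ℕ}
    (f : Fin k → Fin n → F) (u u' : Fin n → F) (hu : hf (Fin n) q u u = 0)
    (hu' : hf (Fin n) q u' u' = 0) (huP : u ∈ hPerp σ f) (hu'P : u' ∈ hPerp σ f)
    (hne : hf (Fin n) q u u' ≠ 0) :
    ∃ M : Matrix (Fin n) (Fin n) F, IsIso (Fin n) q M ∧ M *ᵥ u = u' ∧ (∀ i, M *ᵥ f i = f i) ∧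
      M.det * hf (Fin n) q u u' = -hf (Fin n) q u' u := by
  obtain ⟨z, hz⟩ : ∃ z, z = -hf (Fin n) q u u' := ⟨_, rfl⟩
  have hz0 : z ≠ 0 := by rw [hz]; exact neg_ne_zero.mpr hne
  have hzq : z ^ q = -hf (Fin n) q u' u := by
    rw [hz, ← hσ, map_neg, hσ, hf_conj σ hσ hσ2]
  have hzq0 : z ^ q ≠ 0 := pow_ne_zero _ hz0
  have h1 : hf (Fin n) q u (u - u') = z := by
    rw [hf_sub_right σ hσ, hu, hz, zero_sub]
  have h2 : hf (Fin n) q (u - u') (u - u') = z + z ^ q := by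
    rw [hf_sub_left, hf_sub_right σ hσ, hf_sub_right σ hσ, hu, hu', hzq, hz]
    ring
  refine ⟨rm q (u - u') z⁻¹, rm_iso σ hσ hσ2 _ _ ?_, ?_, fun i => ?_, ?_⟩
  · rw [h2, pow_succ, inv_pow]
    field_simp
    ring
  · rw [rm_mulVec, h1, inv_mul_cancel₀ hz0, one_smul]
    abel
  · have h3 : hf (Fin n) q (f i) (u - u') = 0 := by
      rw [hf_sub_right σ hσ, ← hf_conj σ hσ hσ2 u (f i), ← hf_conj σ hσ hσ2 u' (f i),
        (mem_hPerp σ hσ f u).1 huP i, (mem_hPerp σ hσ f u').1 hu'P i, ← hσ, map_zero, sub_zero]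
    rw [rm_mulVec, h3, mul_zero, zero_smul, sub_zero]
  · have hu2 : hf (Fin n) q u u' = -z := by rw [hz, neg_neg]
    rw [Cfsg.Agent.S2644.rm_det, h2, ← hzq, hu2]
    field_simp
    ring

theorem trans1 [Fintype F] (hF : Fintype.card F = q ^ 2) (σ : F →+* F) (hσ : ∀ x, σ x = x ^ q)
    (hσ2 : ∀ x, σ (σ x) = x) {k : ℕ} (f : Fin k → Fin n → F) (hfLI : LinearIndependent F f)
    (u u' : Fin n → F) (hu : hf (Fin n) q u u = 0) (hu' : hf (Fin n) q u' u' = 0)
    (huP : u ∈ hPerp σ f) (hu'P : u' ∈ hPerp σ f)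
    (hus : u ∉ Submodule.span F (Set.range f)) (hus' : u' ∉ Submodule.span F (Set.range f)) :
    ∃ M : Matrix (Fin n) (Fin n) F, IsIso (Fin n) q M ∧ M *ᵥ u = u' ∧ ∀ i, M *ᵥ f i = f i := by
  by_cases hne : hf (Fin n) q u u' ≠ 0
  · obtain ⟨M, hM, e, g, -⟩ := step_fix σ hσ hσ2 f u u' hu hu' huP hu'P hne
    exact ⟨M, hM, e, g⟩
  · push_neg at hne
    obtain ⟨x, hxP, hxu, hxu'⟩ : ∃ x ∈ hPerp σ f, hf (Fin n) q x u ≠ 0 ∧
        hf (Fin n) q x u' ≠ 0 := by
      obtain ⟨x₁, hx₁, h₁⟩ := exists_wit σ hσ hσ2 f hfLI u hus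
      obtain ⟨x₂, hx₂, h₂⟩ := exists_wit σ hσ hσ2 f hfLI u' hus'
      by_cases h3 : hf (Fin n) q x₁ u' = 0
      · by_cases h4 : hf (Fin n) q x₂ u = 0
        · refine ⟨x₁ + x₂, (hPerp σ f).add_mem hx₁ hx₂, ?_, ?_⟩
          · rw [hf_add_left, h4, add_zero]; exact h₁
          · rw [hf_add_left, h3, zero_add]; exact h₂
        · exact ⟨x₂, hx₂, h4, h₂⟩
      · exact ⟨x₁, hx₁, h₁, h3⟩
    have hux : hf (Fin n) q u x ≠ 0 := by
      rw [← hf_conj σ hσ hσ2]; exact pow_ne_zero _ hxu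
    have hd : (-hf (Fin n) q x x) ^ q = -hf (Fin n) q x x := by
      rw [← hσ, map_neg, hσ, hf_conj σ hσ hσ2]
    obtain ⟨μ', hμ'⟩ := trace_surj hF σ hσ hσ2 _ hd
    obtain ⟨μ, hμ⟩ : ∃ μ, μ = μ' / hf (Fin n) q u x := ⟨_, rfl⟩
    have hμu : μ * hf (Fin n) q u x = μ' := by rw [hμ]; field_simp
    have hμq : μ ^ q * hf (Fin n) q x u = μ' ^ q := by
      rw [← hμu, mul_pow, hf_conj σ hσ hσ2]
    obtain ⟨u'', hu''def⟩ : ∃ u'' : Fin n → F, u'' = x + μ • u := ⟨_, rfl⟩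
    have hu'' : hf (Fin n) q u'' u'' = 0 := by
      rw [hu''def, hf_add_left, hf_add_right σ hσ, hf_add_right σ hσ, hf_smul_left, hf_smul_left,
        hf_smul_right, hf_smul_right, hu]
      linear_combination hμ' + hμq + hμu
    have hu''P : u'' ∈ hPerp σ f := by
      rw [hu''def]; exact (hPerp σ f).add_mem hxP ((hPerp σ f).smul_mem _ huP)
    have h1 : hf (Fin n) q u u'' ≠ 0 := by
      rw [hu''def, hf_add_right σ hσ, hf_smul_right, hu, mul_zero, add_zero]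
      exact hux
    have h2 : hf (Fin n) q u'' u' ≠ 0 := by
      rw [hu''def, hf_add_left, hf_smul_left, hne, mul_zero, add_zero]
      exact hxu'
    obtain ⟨M₁, hM₁, e₁, g₁, -⟩ := step_fix σ hσ hσ2 f u u'' hu hu'' huP hu''P h1
    obtain ⟨M₂, hM₂, e₂, g₂, -⟩ := step_fix σ hσ hσ2 f u'' u' hu'' hu' hu''P hu'P h2
    exact ⟨M₂ * M₁, iso_mul _ _ hM₂ hM₁, by rw [← Matrix.mulVec_mulVec, e₁, e₂],
      fun i => by rw [← Matrix.mulVec_mulVec, g₁, g₂]⟩

theorem isHFr_map (σ : F →+* F) (hσ : ∀ x, σ x = x ^ q) {k : ℕ} (M : Matrix (Fin n) (Fin n) F)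
    (hM : IsIso (Fin n) q M) (f : Fin k → Fin n → F) (hf : IsHFr q f) :
    IsHFr q (fun i => M *ᵥ f i) := by
  refine ⟨?_, fun i j => by rw [hM]; exact hf.2 i j⟩
  have h1 := hf.1.map' (Matrix.mulVecLin M) (by
    rw [LinearMap.ker_eq_bot]
    exact iso_injective σ hσ M hM)
  exact h1

theorem trans_fr [Fintype F] (hF : Fintype.card F = q ^ 2) (σ : F →+* F)
    (hσ : ∀ x, σ x = x ^ q) (hσ2 : ∀ x, σ (σ x) = x) :
    ∀ (k : ℕ) (f f' : Fin k → Fin n → F), IsHFr q f → IsHFr q f' →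
    ∃ M : Matrix (Fin n) (Fin n) F, IsIso (Fin n) q M ∧ ∀ i, M *ᵥ f i = f' i := by
  intro k
  induction k with
  | zero =>
    intro f f' _ _
    exact ⟨1, fun x y => by rw [Matrix.one_mulVec, Matrix.one_mulVec], fun i => i.elim0⟩
  | succ k ih =>
    intro f f' hf0 hf'
    have hf := hf0
    rw [← Fin.cons_self_tail f, isHFr_cons σ hσ hσ2] at hf
    rw [← Fin.cons_self_tail f', isHFr_cons σ hσ hσ2] at hf'
    obtain ⟨M, hM, hMf⟩ := ih (Fin.tail f) (Fin.tail f') hf.1 hf'.1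
    have hf2 : IsHFr q (fun i => M *ᵥ f i) := isHFr_map σ hσ M hM f hf0
    have ht : Fin.tail (fun i => M *ᵥ f i) = Fin.tail f' := funext (fun i => hMf i)
    rw [← Fin.cons_self_tail (fun i => M *ᵥ f i), isHFr_cons σ hσ hσ2, ht] at hf2
    obtain ⟨M2, hM2, hM2w, hM2f⟩ := trans1 hF σ hσ hσ2 (Fin.tail f') hf'.1.1 (M *ᵥ f 0) (f' 0)
      hf2.2.1.2 hf'.2.1.2 hf2.2.1.1 hf'.2.1.1 hf2.2.2 hf'.2.2
    refine ⟨M2 * M, iso_mul _ _ hM2 hM, ?_⟩
    intro i
    rw [← Matrix.mulVec_mulVec]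
    refine Fin.cases ?_ (fun j => ?_) i
    · exact hM2w
    · rw [show M *ᵥ f j.succ = Fin.tail f' j from hMf j]
      exact hM2f j

theorem card_fib [Fintype F] (hF : Fintype.card F = q ^ 2) (σ : F →+* F)
    (hσ : ∀ x, σ x = x ^ q) (hσ2 : ∀ x, σ (σ x) = x) {k : ℕ} (f : Fin k → Fin n → F)
    (hfr : IsHFr q f) :
    Nat.card {x : Fin n → F // (x ∈ hPerp σ f ∧ hf (Fin n) q x x = 0) ∧
      x ∉ Submodule.span F (Set.range f)} =
      (q ^ 2) ^ k * cnt q (n - 2 * k) (0 : F) - (q ^ 2) ^ k := by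
  classical
  obtain ⟨S, hS⟩ : ∃ S, S = Submodule.span F (Set.range f) := ⟨_, rfl⟩
  obtain ⟨P, hP⟩ : ∃ P, P = hPerp σ f := ⟨_, rfl⟩
  have hSP : S ≤ P := by rw [hS, hP]; exact span_le_hPerp σ hσ f hfr
  have hSd : Module.finrank F S = k := by rw [hS, finrank_span_eq_card hfr.1, Fintype.card_fin]
  have hPd : Module.finrank F P = n - k := by rw [hP]; exact finrank_hPerp σ hσ2 f hfr.1
  have hSiso : ∀ s ∈ S, ∀ x ∈ P, hf (Fin n) q x s = 0 := fun s hs x hx => by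
    rw [hP] at hx; rw [hS] at hs; exact perp_span σ hσ f x hx s hs
  have hkn : 2 * k ≤ n := by
    have := Submodule.finrank_mono hSP
    rw [hSd, hPd] at this
    omega
  obtain ⟨U', hU'⟩ := Submodule.exists_isCompl S
  obtain ⟨U, hU⟩ : ∃ U, U = U' ⊓ P := ⟨_, rfl⟩
  have hUP : U ≤ P := by rw [hU]; exact inf_le_right
  have hUS : S ⊓ U = ⊥ := by
    rw [hU, ← inf_assoc, hU'.inf_eq_bot, bot_inf_eq]
  have hsup : S ⊔ U = P := by
    rw [hU, ← sup_inf_assoc_of_le U' hSP, hU'.sup_eq_top, top_inf_eq]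
  have hUd : Module.finrank F U = n - 2 * k := by
    have h1 := Submodule.finrank_sup_add_finrank_inf_eq S U
    rw [hsup, hUS, finrank_bot, hSd, hPd] at h1
    omega
  have hUnd : Cfsg.Agent.S0837.Nondeg q U := by
    intro u hu hall
    by_contra hu0
    have huS : u ∉ S := by
      intro huS
      have : u ∈ S ⊓ U := ⟨huS, hu⟩
      rw [hUS] at this
      exact hu0 ((Submodule.mem_bot F).1 this)
    rw [hS] at huS
    obtain ⟨x, hx, hxu⟩ := exists_wit σ hσ hσ2 f hfr.1 u huS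
    rw [← hP, ← hsup] at hx
    obtain ⟨s, hs, v, hv, rfl⟩ := Submodule.mem_sup.1 hx
    apply hxu
    rw [hf_add_left, ← hf_conj σ hσ hσ2 u s, hSiso s hs u (hUP hu), ← hf_conj σ hσ hσ2 u v,
      hall v hv, ← hσ, map_zero, add_zero]
  obtain ⟨b, hbU, hb⟩ := Cfsg.Agent.S0837.exists_on hF (n - 2 * k) U hUnd hUd
  obtain ⟨Ψ, hΨ⟩ : ∃ Ψ : (Fin (n - 2 * k) → F) →ₗ[F] (Fin n → F), ∀ c, Ψ c = ∑ j, c j • b j :=
    ⟨Fintype.linearCombination F b, fun c => Fintype.linearCombination_apply F b c⟩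
  have hΨU : ∀ c, Ψ c ∈ U := fun c => by
    rw [hΨ]; exact U.sum_mem (fun j _ => U.smul_mem _ (hbU j))
  have hΨb : ∀ c j, hf (Fin n) q (Ψ c) (b j) = c j := by
    intro c j
    rw [hΨ, Cfsg.Agent.S0837.hf_sum_left]
    simp only [hb]
    simp
  have hΨinj : Function.Injective Ψ := by
    intro c c' h
    funext j
    rw [← hΨb c j, ← hΨb c' j, h]
  have hΨrange : LinearMap.range Ψ = U := by
    apply Submodule.eq_of_le_of_finrank_eq
    · rintro _ ⟨c, rfl⟩; exact hΨU c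
    · rw [LinearMap.finrank_range_of_inj hΨinj, hUd, Module.finrank_fintype_fun_eq_card,
        Fintype.card_fin]
  have hΨnorm : ∀ c, hf (Fin n) q (Ψ c) (Ψ c) = ∑ j, c j ^ (q + 1) := by
    intro c
    have h1 : hf (Fin n) q (∑ j, c j • b j) (Ψ c) = ∑ j, c j ^ (q + 1) := by
      rw [Cfsg.Agent.S0837.hf_sum_left]
      refine Finset.sum_congr rfl (fun j _ => ?_)
      rw [← hf_conj σ hσ hσ2 (Ψ c) (b j), hΨb, pow_succ']
    rw [← hΨ c] at h1
    exact h1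
  have hnorm : ∀ s ∈ S, ∀ c, hf (Fin n) q (s + Ψ c) (s + Ψ c) = ∑ j, c j ^ (q + 1) := by
    intro s hs c
    have e1 : hf (Fin n) q s s = 0 := hSiso s hs s (hSP hs)
    have e2 : hf (Fin n) q (Ψ c) s = 0 := hSiso s hs (Ψ c) (hUP (hΨU c))
    have e3 : hf (Fin n) q s (Ψ c) = 0 := by
      rw [← hf_conj σ hσ hσ2 (Ψ c) s, e2, ← hσ, map_zero]
    rw [hf_add_left, hf_add_right σ hσ, hf_add_right σ hσ, e1, e2, e3, hΨnorm]
    ring
  have hSc : Nat.card S = (q ^ 2) ^ k := by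
    have := Module.natCard_eq_pow_finrank (K := F) (V := S)
    rw [hSd, Nat.card_eq_fintype_card (α := F), hF] at this
    exact this
  have hcardPiso : Nat.card {x : Fin n → F // x ∈ P ∧ hf (Fin n) q x x = 0} =
      (q ^ 2) ^ k * cnt q (n - 2 * k) (0 : F) := by
    rw [← hSc]
    unfold cnt
    rw [← Nat.card_prod]
    symm
    refine Nat.card_eq_of_bijective
      (fun p : S × {v : Fin (n - 2 * k) → F // ∑ i, v i ^ (q + 1) = 0} =>
        (⟨p.1.1 + Ψ p.2.1, by rw [← hsup]; exact Submodule.add_mem_sup p.1.2 (hΨU _),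
          by rw [hnorm _ p.1.2, p.2.2]⟩ : {x : Fin n → F // x ∈ P ∧ hf (Fin n) q x x = 0}))
      ⟨?_, ?_⟩
    · intro p p' h
      have h1 : p.1.1 + Ψ p.2.1 = p'.1.1 + Ψ p'.2.1 := congrArg Subtype.val h
      have h2 : p.1.1 - p'.1.1 = Ψ p'.2.1 - Ψ p.2.1 := by
        rw [sub_eq_sub_iff_add_eq_add, h1, add_comm]
      have h3 : p.1.1 - p'.1.1 ∈ S ⊓ U :=
        ⟨S.sub_mem p.1.2 p'.1.2, by rw [h2]; exact U.sub_mem (hΨU _) (hΨU _)⟩
      rw [hUS, Submodule.mem_bot] at h3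
      have h4 : Ψ p'.2.1 - Ψ p.2.1 = 0 := by rw [← h2, h3]
      have h5 : p'.2.1 = p.2.1 := hΨinj (sub_eq_zero.1 h4)
      exact Prod.ext (Subtype.ext (sub_eq_zero.1 h3)) (Subtype.ext h5.symm)
    · rintro ⟨x, hxP, hxx⟩
      rw [← hsup] at hxP
      obtain ⟨s, hs, u, hu, rfl⟩ := Submodule.mem_sup.1 hxP
      rw [← hΨrange] at hu
      obtain ⟨c, rfl⟩ := hu
      exact ⟨(⟨s, hs⟩, ⟨c, by rw [← hnorm s hs c]; exact hxx⟩), rfl⟩
  have h1 := Cfsg.Agent.S0828.card_diff (V := Fin n → F)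
    (fun x => x ∈ P ∧ hf (Fin n) q x x = 0) (fun x => x ∈ S)
    (fun x hx => ⟨hSP hx, hSiso x hx x (hSP hx)⟩)
  have hSc' : Nat.card {x // x ∈ S} = (q ^ 2) ^ k := hSc
  rw [hcardPiso, hSc'] at h1
  rw [← hP, ← hS]
  exact Nat.eq_sub_of_add_eq h1

theorem card_hfr_succ [Fintype F] (hF : Fintype.card F = q ^ 2) (σ : F →+* F)
    (hσ : ∀ x, σ x = x ^ q) (hσ2 : ∀ x, σ (σ x) = x) (k : ℕ) :
    Nat.card {f : Fin (k+1) → Fin n → F // IsHFr q f} =
      Nat.card {f : Fin k → Fin n → F // IsHFr q f} *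
        ((q ^ 2) ^ k * cnt q (n - 2 * k) (0 : F) - (q ^ 2) ^ k) := by
  classical
  letI : Fintype {f : Fin k → Fin n → F // IsHFr q f} := Fintype.ofFinite _
  let φ : {f : Fin (k+1) → Fin n → F // IsHFr q f} → {f : Fin k → Fin n → F // IsHFr q f} :=
    fun f => ⟨Fin.tail f.1,
      ((isHFr_cons σ hσ hσ2 (Fin.tail f.1) (f.1 0)).1 (by rw [Fin.cons_self_tail]; exact f.2)).1⟩
  rw [Nat.card_congr (Equiv.sigmaFiberEquiv φ).symm, Nat.card_sigma]
  have hfib : ∀ f : {f : Fin k → Fin n → F // IsHFr q f},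
      Nat.card {p // φ p = f} = (q ^ 2) ^ k * cnt q (n - 2 * k) (0 : F) - (q ^ 2) ^ k := by
    intro f
    rw [← card_fib hF σ hσ hσ2 f.1 f.2]
    refine Nat.card_congr
      { toFun := fun p => ⟨p.1.1 0, by
            have h := (isHFr_cons σ hσ hσ2 (Fin.tail p.1.1) (p.1.1 0)).1
              (by rw [Fin.cons_self_tail]; exact p.1.2)
            have h5 : Fin.tail p.1.1 = f.1 := congrArg Subtype.val p.2
            rw [h5] at h
            exact h.2⟩
        invFun := fun x => ⟨⟨Fin.cons x.1 f.1, (isHFr_cons σ hσ hσ2 f.1 x.1).2 ⟨f.2, x.2⟩⟩,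
          Subtype.ext (by
            show Fin.tail (Fin.cons x.1 f.1 : Fin (k+1) → Fin n → F) = f.1
            exact Fin.tail_cons _ _)⟩
        left_inv := fun p => by
          apply Subtype.ext
          apply Subtype.ext
          have h5 : Fin.tail p.1.1 = f.1 := congrArg Subtype.val p.2
          show Fin.cons (p.1.1 0) f.1 = p.1.1
          rw [← h5]
          exact Fin.cons_self_tail _
        right_inv := fun x => Subtype.ext (by simp) }
  rw [Finset.sum_congr rfl (fun f _ => hfib f), Finset.sum_const, Finset.card_univ, smul_eq_mul,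
    Nat.card_eq_fintype_card (α := {f : Fin k → Fin n → F // IsHFr q f})]

theorem card_hfr [Fintype F] (hF : Fintype.card F = q ^ 2) (σ : F →+* F)
    (hσ : ∀ x, σ x = x ^ q) (hσ2 : ∀ x, σ (σ x) = x) (k : ℕ) :
    Nat.card {f : Fin k → Fin n → F // IsHFr q f} =
      ∏ i ∈ Finset.range k, ((q ^ 2) ^ i * cnt q (n - 2 * i) (0 : F) - (q ^ 2) ^ i) := by
  induction k with
  | zero =>
    rw [Finset.prod_range_zero]
    haveI : Unique {f : Fin 0 → Fin n → F // IsHFr q f} :=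
      ⟨⟨⟨fun i => i.elim0, linearIndependent_empty_type, fun i => i.elim0⟩⟩,
        fun f => Subtype.ext (funext fun i => i.elim0)⟩
    exact Nat.card_unique
  | succ k ih => rw [card_hfr_succ hF σ hσ hσ2, ih, Finset.prod_range_succ]

theorem exists_nonfix [Fintype F] (hF : Fintype.card F = q ^ 2) : ∃ c : F, c ^ q ≠ c := by
  by_contra hcon
  push_neg at hcon
  have hq := two_le_q hF
  have h1 := card_fix hF (F := F)
  have h2 : Nat.card {c : F // c ≠ 0 ∧ c ^ q = c} = Nat.card {c : F // c ≠ 0} :=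
    Nat.card_congr (Equiv.subtypeEquivRight (fun c => by simp [hcon c]))
  rw [h2, Cfsg.Agent.S0828.card_ne_zero (V := F), Nat.card_eq_fintype_card, hF] at h1
  have h3 : 1 ≤ q ^ 2 := Nat.one_le_pow _ _ (by omega)
  have h4 : q ^ 2 = q := by omega
  nlinarith

theorem exists_h90 [Fintype F] (hF : Fintype.card F = q ^ 2) (σ : F →+* F)
    (hσ : ∀ x, σ x = x ^ q) (u : F) (hu : u ^ (q + 1) = 1) :
    ∃ a : F, a ≠ 0 ∧ a = u * a ^ q := by
  have key : ∀ c : F, (c + u * c ^ q) = u * (c + u * c ^ q) ^ q := by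
    intro c
    have h1 : (c + u * c ^ q) ^ q = c ^ q + u ^ q * c := by
      rw [← hσ, map_add, hσ, hσ, mul_pow, pow_q_pow_q hF]
    rw [h1]
    have h2 := hu
    rw [pow_succ] at h2
    linear_combination (-c) * h2
  by_cases h : (1 : F) + u = 0
  · obtain ⟨c, hc⟩ := exists_nonfix hF (F := F)
    refine ⟨c + u * c ^ q, ?_, key c⟩
    have hu1 : u = -1 := by linear_combination h
    rw [hu1]
    intro h0
    apply hc
    linear_combination -h0
  · refine ⟨1 + u * 1 ^ q, ?_, key 1⟩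
    rw [one_pow, mul_one]
    exact h

theorem exists_partner [Fintype F] (hF : Fintype.card F = q ^ 2) (σ : F →+* F)
    (hσ : ∀ x, σ x = x ^ q) (hσ2 : ∀ x, σ (σ x) = x) {k : ℕ} (f : Fin k → Fin n → F)
    (hfLI : LinearIndependent F f) (u : Fin n → F) (hu : hf (Fin n) q u u = 0)
    (huP : u ∈ hPerp σ f) (hus : u ∉ Submodule.span F (Set.range f)) :
    ∃ e, e ∈ hPerp σ f ∧ hf (Fin n) q e e = 0 ∧ hf (Fin n) q u e ≠ 0 := by
  obtain ⟨x, hxP, hxu⟩ := exists_wit σ hσ hσ2 f hfLI u hus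
  have hux : hf (Fin n) q u x ≠ 0 := by
    rw [← hf_conj σ hσ hσ2]; exact pow_ne_zero _ hxu
  have hd : (-hf (Fin n) q x x) ^ q = -hf (Fin n) q x x := by
    rw [← hσ, map_neg, hσ, hf_conj σ hσ hσ2]
  obtain ⟨μ', hμ'⟩ := trace_surj hF σ hσ hσ2 _ hd
  obtain ⟨μ, hμ⟩ : ∃ μ, μ = μ' / hf (Fin n) q u x := ⟨_, rfl⟩
  have hμu : μ * hf (Fin n) q u x = μ' := by rw [hμ]; field_simp
  have hμq : μ ^ q * hf (Fin n) q x u = μ' ^ q := by
    rw [← hμu, mul_pow, hf_conj σ hσ hσ2]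
  refine ⟨x + μ • u, (hPerp σ f).add_mem hxP ((hPerp σ f).smul_mem _ huP), ?_, ?_⟩
  · rw [hf_add_left, hf_add_right σ hσ, hf_add_right σ hσ, hf_smul_left, hf_smul_left,
      hf_smul_right, hf_smul_right, hu]
    linear_combination hμ' + hμq + hμu
  · rw [hf_add_right σ hσ, hf_smul_right, hu, mul_zero, add_zero]
    exact hux

theorem exists_det [Fintype F] (hF : Fintype.card F = q ^ 2) (σ : F →+* F)
    (hσ : ∀ x, σ x = x ^ q) (hσ2 : ∀ x, σ (σ x) = x) {k : ℕ} (f : Fin (k+1) → Fin n → F)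
    (hfr : IsHFr q f) (u : F) (hu : u ^ (q + 1) = 1) :
    ∃ M : Matrix (Fin n) (Fin n) F, IsIso (Fin n) q M ∧ (∃ a : F, M *ᵥ f 0 = a • f 0) ∧
      (∀ j : Fin k, M *ᵥ f j.succ = f j.succ) ∧ M.det = u := by
  have hfr' := hfr
  rw [← Fin.cons_self_tail f, isHFr_cons σ hσ hσ2] at hfr'
  obtain ⟨hf', ⟨hwP, hww⟩, hws⟩ := hfr'
  obtain ⟨e, heP, hee, hwe⟩ := exists_partner hF σ hσ hσ2 (Fin.tail f) hf'.1 (f 0) hww hwP hws
  obtain ⟨a, ha0, ha⟩ := exists_h90 hF σ hσ u hu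
  have hew : hf (Fin n) q e (f 0) ≠ 0 := by
    rw [← hf_conj σ hσ hσ2]; exact pow_ne_zero _ hwe
  obtain ⟨M₁, hM₁, e₁, g₁, d₁⟩ := step_fix σ hσ hσ2 (Fin.tail f) (f 0) e hww hee hwP heP hwe
  have haw : hf (Fin n) q (a • f 0) (a • f 0) = 0 := by
    rw [hf_smul_left, hf_smul_right, hww, mul_zero, mul_zero]
  have hea : hf (Fin n) q e (a • f 0) ≠ 0 := by
    rw [hf_smul_right]; exact mul_ne_zero (pow_ne_zero _ ha0) hew
  obtain ⟨M₂, hM₂, e₂, g₂, d₂⟩ := step_fix σ hσ hσ2 (Fin.tail f) e (a • f 0) hee haw heP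
    ((hPerp σ (Fin.tail f)).smul_mem _ hwP) hea
  refine ⟨M₂ * M₁, iso_mul _ _ hM₂ hM₁, ⟨a, by rw [← Matrix.mulVec_mulVec, e₁, e₂]⟩,
    fun j => ?_, ?_⟩
  · rw [← Matrix.mulVec_mulVec]
    rw [show M₁ *ᵥ f j.succ = f j.succ from g₁ j]
    exact g₂ j
  · rw [Matrix.det_mul]
    rw [hf_smul_right, hf_smul_left] at d₂
    have h3 : (M₂.det * M₁.det - u) *
        (a ^ q * hf (Fin n) q (f 0) e * hf (Fin n) q e (f 0)) = 0 := by
      linear_combination (M₂.det * a ^ q * hf (Fin n) q e (f 0)) * d₁ +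
        (-hf (Fin n) q e (f 0)) * d₂ + (hf (Fin n) q (f 0) e * hf (Fin n) q e (f 0)) * ha
    have h4 : a ^ q * hf (Fin n) q (f 0) e * hf (Fin n) q e (f 0) ≠ 0 :=
      mul_ne_zero (mul_ne_zero (pow_ne_zero _ ha0) hwe) hew
    exact sub_eq_zero.1 ((mul_eq_zero.1 h3).resolve_right h4)

theorem stab_maps [Fintype F] (M : Matrix (Fin n) (Fin n) F)
    (hinj : Function.Injective M.mulVec) (S : Set (Fin n → F)) (h : ∀ v ∈ S, M *ᵥ v ∈ S) :
    ∀ v, v ∈ S ↔ M *ᵥ v ∈ S := by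
  intro v
  constructor
  · exact h v
  · intro hgv
    have hinj' : Function.Injective (fun v : S => (⟨M *ᵥ v.1, h v.1 v.2⟩ : S)) := by
      intro a b hab
      exact Subtype.ext (hinj (congrArg Subtype.val hab))
    obtain ⟨w, hw⟩ := (Finite.injective_iff_surjective.1 hinj') ⟨M *ᵥ v, hgv⟩
    have h1 : M *ᵥ w.1 = M *ᵥ v := congrArg Subtype.val hw
    rw [← hinj h1]
    exact w.2

end

theorem G_step (q j : ℕ) :
    q ^ ((j + 2) * ((j + 2) - 1) / 2) *
      ∏ i ∈ Finset.range (j + 2), (if Even i then q ^ (i + 1) + 1 else q ^ (i + 1) - 1) =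
    q ^ (2 * j + 1) * (q ^ (j * (j - 1) / 2) *
      ∏ i ∈ Finset.range j, (if Even i then q ^ (i + 1) + 1 else q ^ (i + 1) - 1)) *
      (if Even (j + 2) then (q ^ (j + 2) - 1) * (q ^ (j + 2 - 1) + 1)
        else (q ^ (j + 2) + 1) * (q ^ (j + 2 - 1) - 1)) := by
  have e1 : (j + 2) * ((j + 2) - 1) / 2 = j * (j - 1) / 2 + (2 * j + 1) := by
    have : (j + 2) * ((j + 2) - 1) = j * (j - 1) + 2 * (2 * j + 1) := by
      rcases j with _ | j
      · rfl
      · have h1 : j + 1 + 2 - 1 = j + 2 := by omega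
        have h2 : j + 1 - 1 = j := by omega
        rw [h1, h2]
        ring
    rw [this, Nat.add_mul_div_left _ _ (by norm_num)]
  have e2 : j + 2 - 1 = j + 1 := by omega
  rw [e1, e2, Finset.prod_range_succ, Finset.prod_range_succ, pow_add]
  by_cases he : Even j
  · have h1 : ¬ Even (j + 1) := by rw [Nat.even_add_one]; exact not_not.2 he
    have h2 : Even (j + 2) := by
      rw [show j + 2 = j + 1 + 1 from rfl, Nat.even_add_one]; exact h1
    rw [if_pos he, if_neg h1, if_pos h2]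
    ring
  · have h1 : Even (j + 1) := by rw [Nat.even_add_one]; exact he
    have h2 : ¬ Even (j + 2) := by
      rw [show j + 2 = j + 1 + 1 from rfl, Nat.even_add_one]; exact not_not.2 h1
    rw [if_neg he, if_pos h1, if_neg h2]
    ring

theorem c_step (a c : ℕ) : a * (c + 1) - a = a * c := by
  rw [Nat.mul_succ, Nat.add_sub_cancel]

theorem arithU (q n : ℕ) : ∀ k, 2 * k ≤ n →
    q ^ (k * (2 * n - 3 * k)) *
      (q ^ ((n - 2 * k) * ((n - 2 * k) - 1) / 2) * ∏ i ∈ Finset.range (n - 2 * k),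
        (if Even i then q ^ (i + 1) + 1 else q ^ (i + 1) - 1)) *
      ∏ i ∈ Finset.range k, ((q ^ 2) ^ i * ((if Even (n - 2 * i) then
        (q ^ (n - 2 * i) - 1) * (q ^ (n - 2 * i - 1) + 1)
        else (q ^ (n - 2 * i) + 1) * (q ^ (n - 2 * i - 1) - 1)) + 1) - (q ^ 2) ^ i) =
    q ^ (n * (n - 1) / 2) *
      ∏ i ∈ Finset.range n, (if Even i then q ^ (i + 1) + 1 else q ^ (i + 1) - 1) := by
  intro k
  induction k with
  | zero => intro _; simp
  | succ k ih =>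
    intro hk
    refine Eq.trans ?_ (ih (by omega))
    obtain ⟨j, hj⟩ : ∃ j, n = j + 2 * k + 2 := ⟨n - 2 * (k + 1), by omega⟩
    subst hj
    have e1 : j + 2 * k + 2 - 2 * (k + 1) = j := by omega
    have e2 : j + 2 * k + 2 - 2 * k = j + 2 := by omega
    have e3 : 2 * (j + 2 * k + 2) - 3 * (k + 1) = 2 * j + k + 1 := by omega
    have e4 : 2 * (j + 2 * k + 2) - 3 * k = 2 * j + k + 4 := by omega
    rw [Finset.prod_range_succ _ k, e1, e2, e3, e4, G_step q j, c_step]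
    generalize (q ^ (j * (j - 1) / 2) *
      ∏ i ∈ Finset.range j, (if Even i then q ^ (i + 1) + 1 else q ^ (i + 1) - 1)) = g
    generalize (∏ i ∈ Finset.range k, ((q ^ 2) ^ i * ((if Even (j + 2 * k + 2 - 2 * i) then
        (q ^ (j + 2 * k + 2 - 2 * i) - 1) * (q ^ (j + 2 * k + 2 - 2 * i - 1) + 1)
        else (q ^ (j + 2 * k + 2 - 2 * i) + 1) * (q ^ (j + 2 * k + 2 - 2 * i - 1) - 1)) + 1) -
        (q ^ 2) ^ i)) = X
    generalize (if Even (j + 2) then (q ^ (j + 2) - 1) * (q ^ (j + 2 - 1) + 1)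
        else (q ^ (j + 2) + 1) * (q ^ (j + 2 - 1) - 1)) = c
    ring

theorem main {F : Type*} [Field F] [Fintype F] {q : ℕ} (hF : Fintype.card F = q ^ 2) (n k : ℕ) (hn : 1 ≤ n) (hk : 2 * k ≤ n) (W : Submodule F (Fin n → F)) (hWk : Module.finrank F W = k) (hW : ∀ u ∈ W, ∀ v ∈ W, Cfsg.hermForm n F q u v = 0) : (q + 1) * Nat.card ↥((Cfsg.stabilizing (Cfsg.slToMat n F) (W : Set (Fin n → F))).subgroupOf (Cfsg.SU n F q)) = q ^ (k * (2 * n - 3 * k)) * (∏ i : Fin k, ((q ^ 2) ^ k - (q ^ 2) ^ (i : ℕ))) * (q ^ ((n - 2 * k) * ((n - 2 * k) - 1) / 2) * ∏ i ∈ Finset.range (n - 2 * k), (if Even i then q ^ (i + 1) + 1 else q ^ (i + 1) - 1)) := by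
  classical
  obtain ⟨σ, hσ⟩ := exists_frob hF
  have hσ2 : ∀ x, σ (σ x) = x := fun x => by rw [hσ, hσ, pow_q_pow_q hF]
  have hW' : ∀ u ∈ W, ∀ v ∈ W, hf (Fin n) q u v = 0 := hW
  let b : Module.Basis (Fin k) F W := Module.finBasisOfFinrankEq F W hWk
  obtain ⟨f, hf⟩ : ∃ f : Fin k → Fin n → F, f = fun i => (b i).1 := ⟨_, rfl⟩
  have hfW : ∀ i, f i ∈ W := fun i => by rw [hf]; exact (b i).2
  have hfLI : LinearIndependent F f := by
    rw [hf]
    exact b.linearIndependent.map' W.subtype (Submodule.ker_subtype W)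
  have hfr : IsHFr q f := ⟨hfLI, fun i j => hW' _ (hfW i) _ (hfW j)⟩
  have hrep : ∀ v ∈ W, ∃ c : Fin k → F, v = ∑ i, c i • f i := by
    intro v hv
    refine ⟨fun i => b.repr ⟨v, hv⟩ i, ?_⟩
    have h1 := congrArg Subtype.val (b.sum_repr ⟨v, hv⟩)
    rw [hf]
    simp only [Submodule.coe_sum, Submodule.coe_smul] at h1
    exact h1.symm
  have hgen : ∀ (M : Matrix (Fin n) (Fin n) F), (∀ i, M *ᵥ f i ∈ W) →
      ∀ v ∈ W, M *ᵥ v ∈ W := by
    intro M hM v hv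
    obtain ⟨c, rfl⟩ := hrep v hv
    rw [Matrix.mulVec_sum]
    refine W.sum_mem (fun i _ => ?_)
    rw [Matrix.mulVec_smul]
    exact W.smul_mem _ (hM i)
  obtain ⟨ρ, hρ⟩ : ∃ ρ : ↥(gu (Fin n) F q) →* Matrix (Fin n) (Fin n) F, ∀ g, ρ g = g.1.1 :=
    ⟨(Units.coeHom _).comp (gu (Fin n) F q).subtype, fun g => rfl⟩
  obtain ⟨St, hSt⟩ : ∃ St : Subgroup ↥(gu (Fin n) F q),
      ∀ g, g ∈ St ↔ ∀ v, v ∈ W ↔ g.1.1 *ᵥ v ∈ W :=
    ⟨Cfsg.stabilizing ((Units.coeHom _).comp (gu (Fin n) F q).subtype)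
      (W : Set (Fin n → F)), fun g => Iff.rfl⟩
  have e1 := Cfsg.Agent.S0775.orb (G := ↥(gu (Fin n) F q))
    (φ := fun g => (fun i => g.1.1 *ᵥ f i))
    (T := IsHFr q) (S := fun g => ∀ i, g.1.1 *ᵥ f i = f i)
    (fun g => isHFr_map σ hσ g.1.1 g.2 f hfr)
    (fun x hx => by
      obtain ⟨M, hM, hMf⟩ := trans_fr hF σ hσ hσ2 k f x hfr hx
      obtain ⟨g, hg, hgM⟩ := exists_gu σ hσ M hM
      exact ⟨⟨g, hg⟩, funext (fun i => by
        show (g : Matrix (Fin n) (Fin n) F) *ᵥ f i = x i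
        rw [hgM]; exact hMf i)⟩)
    (fun g₀ g => by
      have h := Cfsg.Agent.S0775.fix_iff ρ f g₀ g
      simp only [hρ] at h
      constructor
      · intro h'
        exact h.1 (fun i => congrFun h' i)
      · intro h'
        funext i
        exact h.2 h' i)
  have e2 := Cfsg.Agent.S0775.orb (G := St) (X := Fin k → W)
    (φ := fun g => (fun i => (⟨g.1.1.1 *ᵥ f i, ((hSt g.1).1 g.2 _).1 (hfW i)⟩ : W)))
    (T := fun x => LinearIndependent F x) (S := fun g => ∀ i, g.1.1.1 *ᵥ f i = f i)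
    (fun g => LinearIndependent.of_comp W.subtype (isHFr_map σ hσ g.1.1.1 g.1.2 f hfr).1)
    (fun x hx => by
      have hx' : IsHFr q (fun i => (x i).1) :=
        ⟨hx.map' W.subtype (Submodule.ker_subtype W), fun i j => hW' _ (x i).2 _ (x j).2⟩
      obtain ⟨M, hM, hMf⟩ := trans_fr hF σ hσ hσ2 k f _ hfr hx'
      obtain ⟨g, hg, hgM⟩ := exists_gu σ hσ M hM
      refine ⟨⟨⟨g, hg⟩, (hSt _).2 ?_⟩, ?_⟩
      · show ∀ v, v ∈ W ↔ (g : Matrix (Fin n) (Fin n) F) *ᵥ v ∈ W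
        rw [hgM]
        exact stab_maps M (iso_injective σ hσ M hM) W
          (hgen M (fun i => by rw [hMf]; exact (x i).2))
      · funext i
        apply Subtype.ext
        show (g : Matrix (Fin n) (Fin n) F) *ᵥ f i = (x i).1
        rw [hgM]; exact hMf i)
    (fun g₀ g => by
      have h := Cfsg.Agent.S0775.fix_iff (ρ.comp St.subtype) f g₀ g
      have hρ' : ∀ g : St, (ρ.comp St.subtype) g = g.1.1.1 := fun g => hρ g.1
      simp only [hρ'] at h
      constructor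
      · intro h'
        exact h.1 (fun i => congrArg Subtype.val (congrFun h' i))
      · intro h'
        funext i
        exact Subtype.ext (h.2 h' i))
  have e3 : Nat.card {g : St // ∀ i, g.1.1.1 *ᵥ f i = f i} =
      Nat.card {g : ↥(gu (Fin n) F q) // ∀ i, g.1.1 *ᵥ f i = f i} := by
    refine Nat.card_congr
      { toFun := fun g => ⟨g.1.1, g.2⟩
        invFun := fun g => ⟨⟨g.1, (hSt g.1).2 (stab_maps g.1.1.1 (iso_injective σ hσ _ g.1.2) W
          (hgen _ (fun i => by rw [g.2 i]; exact hfW i)))⟩, g.2⟩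
        left_inv := fun g => rfl
        right_inv := fun g => rfl }
  have e4 : Nat.card {x : Fin k → W // LinearIndependent F x} =
      ∏ i : Fin k, ((q ^ 2) ^ k - (q ^ 2) ^ (i : ℕ)) := by
    have h := card_linearIndependent (K := F) (V := W) (k := k) (by rw [hWk])
    rw [hWk, hF] at h
    exact h
  have e5 := Cfsg.Agent.S0775.orb (G := St) (X := Fˣ)
    (φ := fun g => Matrix.GeneralLinearGroup.det g.1.1)
    (T := fun u => u ∈ (powMonoidHom (q + 1) : Fˣ →* Fˣ).ker)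
    (S := fun g => Matrix.GeneralLinearGroup.det g.1.1 = 1)
    (fun g => by
      rw [MonoidHom.mem_ker, powMonoidHom_apply]
      apply Units.ext
      rw [Units.val_pow_eq_pow_val, Units.val_one]
      exact iso_det σ hσ _ g.1.2)
    (fun u hu => by
      have hu' : (u : F) ^ (q + 1) = 1 := by
        rw [MonoidHom.mem_ker, powMonoidHom_apply] at hu
        have := congrArg Units.val hu
        rwa [Units.val_pow_eq_pow_val, Units.val_one] at this
      obtain ⟨M, hM, hMW, hMdet⟩ : ∃ M : Matrix (Fin n) (Fin n) F, IsIso (Fin n) q M ∧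
          (∀ i, M *ᵥ f i ∈ W) ∧ M.det = (u : F) := by
        rcases Nat.eq_zero_or_pos k with hk0 | hkpos
        · haveI : Nonempty (Fin n) := ⟨⟨0, hn⟩⟩
          obtain ⟨g, hg, hdet⟩ := exists_gu_det (ι := Fin n) σ hσ (u : F) hu'
          exact ⟨g, hg, fun i => absurd i.2 (by omega), hdet⟩
        · obtain ⟨k', rfl⟩ : ∃ k', k = k' + 1 := ⟨k - 1, by omega⟩
          obtain ⟨M, hM, ⟨a, ha⟩, hMf, hMdet⟩ := exists_det hF σ hσ hσ2 f hfr (u : F) hu'
          refine ⟨M, hM, fun i => ?_, hMdet⟩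
          refine Fin.cases ?_ (fun j => ?_) i
          · rw [ha]; exact W.smul_mem _ (hfW 0)
          · rw [hMf]; exact hfW _
      obtain ⟨g, hg, hgM⟩ := exists_gu σ hσ M hM
      refine ⟨⟨⟨g, hg⟩, (hSt _).2 ?_⟩, ?_⟩
      · show ∀ v, v ∈ W ↔ (g : Matrix (Fin n) (Fin n) F) *ᵥ v ∈ W
        rw [hgM]
        exact stab_maps M (iso_injective σ hσ M hM) W (hgen M hMW)
      · apply Units.ext
        show (g : Matrix (Fin n) (Fin n) F).det = (u : F)
        rw [hgM]; exact hMdet)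
    (fun g₀ g => by
      show Matrix.GeneralLinearGroup.det g.1.1 = Matrix.GeneralLinearGroup.det g₀.1.1 ↔
        Matrix.GeneralLinearGroup.det (g₀.1.1⁻¹ * g.1.1) = 1
      rw [map_mul, map_inv, inv_mul_eq_one, eq_comm])
  have e6 : Nat.card {g : St // Matrix.GeneralLinearGroup.det g.1.1 = 1} =
      Nat.card ↥((Cfsg.stabilizing (Cfsg.slToMat n F) (W : Set (Fin n → F))).subgroupOf
        (Cfsg.SU n F q)) := by
    symm
    refine Nat.card_eq_of_bijective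
      (fun s => (⟨⟨⟨Matrix.SpecialLinearGroup.toGL s.1.1, s.1.2⟩,
        (hSt _).2 (Subgroup.mem_subgroupOf.1 s.2)⟩, ?_⟩ :
          {g : St // Matrix.GeneralLinearGroup.det g.1.1 = 1})) ⟨?_, ?_⟩
    · apply Units.ext
      exact s.1.1.2
    · intro s s' hss
      have h1 := congrArg (fun k : {g : St // Matrix.GeneralLinearGroup.det g.1.1 = 1} =>
        (k.1.1.1 : Matrix (Fin n) (Fin n) F)) hss
      exact Subtype.ext (Subtype.ext (Subtype.ext h1))
    · intro g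
      have hdet : (g.1.1.1 : Matrix (Fin n) (Fin n) F).det = 1 := congrArg Units.val g.2
      refine ⟨⟨⟨⟨_, hdet⟩, g.1.1.2⟩, Subgroup.mem_subgroupOf.2 ((hSt g.1.1).1 g.1.2)⟩, ?_⟩
      apply Subtype.ext
      apply Subtype.ext
      apply Subtype.ext
      apply Units.ext
      rfl
  have e7 : Nat.card ↥(gu (Fin n) F q) = q ^ (n * (n - 1) / 2) *
      ∏ i ∈ Finset.range n, (if Even i then q ^ (i + 1) + 1 else q ^ (i + 1) - 1) :=
    card_GU hF n
  have e8 := card_hfr hF σ hσ hσ2 k (n := n)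
  rw [Finset.prod_congr rfl (fun i _ => by rw [card_zero hF])] at e8
  have e9 := arithU q n k hk
  have hpos : 0 < Nat.card {f : Fin k → Fin n → F // IsHFr q f} := by
    haveI : Nonempty {f : Fin k → Fin n → F // IsHFr q f} := ⟨⟨f, hfr⟩⟩
    exact Nat.card_pos
  have e10 : Nat.card {g : ↥(gu (Fin n) F q) // ∀ i, g.1.1 *ᵥ f i = f i} =
      q ^ (k * (2 * n - 3 * k)) *
      (q ^ ((n - 2 * k) * ((n - 2 * k) - 1) / 2) * ∏ i ∈ Finset.range (n - 2 * k),
        (if Even i then q ^ (i + 1) + 1 else q ^ (i + 1) - 1)) := by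
    apply Nat.eq_of_mul_eq_mul_left hpos
    rw [← e1, e7, ← e9, e8]
    ring
  rw [← e6, ← card_ker_norm hF, ← e5, e2, e3, e4, e10]
  ring

theorem result {F : Type*} [Field F] [Fintype F] {q : ℕ} (hF : Fintype.card F = q ^ 2) (n k : ℕ) (hn : 1 ≤ n) (hk : 2 * k ≤ n) (W : Submodule F (Fin n → F)) (hWk : Module.finrank F W = k) (hW : ∀ u ∈ W, ∀ v ∈ W, Cfsg.hermForm n F q u v = 0) : (q + 1) * Nat.card ↥((Cfsg.stabilizing (Cfsg.slToMat n F) (W : Set (Fin n → F))).subgroupOf (Cfsg.SU n F q)) = q ^ (k * (2 * n - 3 * k)) * (∏ i : Fin k, ((q ^ 2) ^ k - (q ^ 2) ^ (i : ℕ))) * (q ^ ((n - 2 * k) * ((n - 2 * k) - 1) / 2) * ∏ i ∈ Finset.range (n - 2 * k), (if Even i then q ^ (i + 1) + 1 else q ^ (i + 1) - 1)) := by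
  exact main hF n k hn hk W hWk hW

end Cfsg.Agent.S0782
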