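import Cfsg.Statements.S0783
import Cfsg.Agent.Lib.Helper1.HermSU

set_option autoImplicit false
open Cfsg


namespace Cfsg.Agent.S0783

open Matrix Cfsg.Agent.Lib.Helper1.Herm

section center

variable {F : Type*} [Field F] [Fintype F] {q : ℕ}

theorem exists_norm_one_sq_ne' (hF : Fintype.card F = q ^ 2) :
    ∃ l : F, l ^ (q + 1) = 1 ∧ l ^ 2 ≠ 1 := by
  have hq := two_le_q hF
  by_contra hcon
  simp only [not_exists, not_and, not_not] at hcon
  have hle : (powMonoidHom (q + 1) : Fˣ →* Fˣ).ker ≤ (powMonoidHom 2 : Fˣ →* Fˣ).ker := by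
    intro l hl
    rw [MonoidHom.mem_ker, powMonoidHom_apply] at hl ⊢
    have h1 := congrArg Units.val hl
    rw [Units.val_pow_eq_pow_val, Units.val_one] at h1
    apply Units.ext
    rw [Units.val_pow_eq_pow_val, Units.val_one]
    exact hcon _ h1
  have h2 := Subgroup.card_le_of_le hle
  rw [card_ker_norm hF, IsCyclic.card_powMonoidHom_ker] at h2
  have h3 : Nat.gcd (Nat.card Fˣ) 2 ≤ 2 := Nat.gcd_le_right _ (by norm_num)
  omega

theorem comm_offdiag (hF : Fintype.card F = q ^ 2) (n : ℕ) (Z : Matrix (Fin n) (Fin n) F)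
    (hcomm : ∀ M : Matrix (Fin n) (Fin n) F, M.det = 1 → IsIso (Fin n) q M → Z * M = M * Z)
    (a b : Fin n) (hab : a ≠ b) : Z a b = 0 := by
  have hq := two_le_q hF
  obtain ⟨l, hl, hl2⟩ := exists_norm_one_sq_ne' hF
  have hl0 : l ≠ 0 := by
    rintro rfl
    rw [zero_pow (by omega)] at hl
    exact zero_ne_one hl
  have hd1 : ∀ i, (Function.update (fun _ : Fin n => (1 : F)) a l) i ^ (q + 1) = 1 := by
    intro i
    by_cases hi : i = a
    · rw [hi, Function.update_self, hl]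
    · rw [Function.update_of_ne hi, one_pow]
  have hd2 : ∀ i, (Function.update (fun _ : Fin n => (1 : F)) b l⁻¹) i ^ (q + 1) = 1 := by
    intro i
    by_cases hi : i = b
    · rw [hi, Function.update_self, inv_pow, hl, inv_one]
    · rw [Function.update_of_ne hi, one_pow]
  have hdet : (Matrix.diagonal (Function.update (fun _ : Fin n => (1 : F)) a l) *
      Matrix.diagonal (Function.update (fun _ : Fin n => (1 : F)) b l⁻¹)).det = 1 := by
    rw [Matrix.det_mul, Matrix.det_diagonal, Matrix.det_diagonal,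
      Finset.prod_update_of_mem (Finset.mem_univ a), Finset.prod_update_of_mem (Finset.mem_univ b)]
    simp [hl0]
  have h1 := hcomm _ hdet (iso_mul _ _ (diag_iso _ hd1) (diag_iso _ hd2))
  rw [Matrix.diagonal_mul_diagonal] at h1
  have h2 := congrFun (congrFun h1 a) b
  rw [Matrix.mul_diagonal, Matrix.diagonal_mul, Function.update_self,
    Function.update_of_ne hab.symm, Function.update_self, Function.update_of_ne hab] at h2
  have h3 : Z a b * (l⁻¹ - l) = 0 := by
    linear_combination h2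
  rcases mul_eq_zero.1 h3 with h4 | h4
  · exact h4
  · exfalso
    apply hl2
    have h5 : l⁻¹ = l := sub_eq_zero.1 h4
    rw [sq]
    nth_rewrite 1 [← h5]
    exact inv_mul_cancel₀ hl0

theorem comm_diag (hF : Fintype.card F = q ^ 2) (n : ℕ) (Z : Matrix (Fin n) (Fin n) F)
    (hcomm : ∀ M : Matrix (Fin n) (Fin n) F, M.det = 1 → IsIso (Fin n) q M → Z * M = M * Z)
    (i j : Fin n) (hij : i ≠ j) : Z j j = Z i i := by
  have hq := two_le_q hF
  obtain ⟨σ, hσ⟩ := exists_frob hF
  have hsi : ∀ k : Fin n, hf (Fin n) q (Pi.single k (1 : F)) (Pi.single k 1) = 1 := by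
    intro k
    rw [hf_single_right σ hσ, Pi.single_eq_same]
  obtain ⟨g, hg, hgv⟩ := gu_transitive hF (Pi.single i (1 : F)) (Pi.single j 1) (hsi i) (hsi j)
  have hδ := iso_det σ hσ _ ((mem_gu g).1 hg)
  have hδ0 : (g : Matrix (Fin n) (Fin n) F).det ≠ 0 := by
    intro h0
    rw [h0, zero_pow (by omega)] at hδ
    exact zero_ne_one hδ
  have hd1 : ∀ k, (Function.update (fun _ : Fin n => (1 : F)) i
      ((g : Matrix (Fin n) (Fin n) F).det)⁻¹) k ^ (q + 1) = 1 := by
    intro k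
    by_cases hk : k = i
    · rw [hk, Function.update_self, inv_pow, hδ, inv_one]
    · rw [Function.update_of_ne hk, one_pow]
  have hdet : ((g : Matrix (Fin n) (Fin n) F) * Matrix.diagonal (Function.update
      (fun _ : Fin n => (1 : F)) i ((g : Matrix (Fin n) (Fin n) F).det)⁻¹)).det = 1 := by
    rw [Matrix.det_mul, Matrix.det_diagonal, Finset.prod_update_of_mem (Finset.mem_univ i)]
    simp [hδ0]
  have h1 := hcomm _ hdet (iso_mul _ _ ((mem_gu g).1 hg) (diag_iso _ hd1))
  have h2 := congrFun (congrFun h1 j) i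
  have hgji : (g : Matrix (Fin n) (Fin n) F) j i = 1 := by
    have h3 := congrFun hgv j
    rw [Matrix.mulVec_single_one, Pi.single_eq_same] at h3
    exact h3
  have hM : ((g : Matrix (Fin n) (Fin n) F) * Matrix.diagonal (Function.update
      (fun _ : Fin n => (1 : F)) i ((g : Matrix (Fin n) (Fin n) F).det)⁻¹)) j i =
        ((g : Matrix (Fin n) (Fin n) F).det)⁻¹ := by
    rw [Matrix.mul_diagonal, Function.update_self, hgji, one_mul]
  rw [Matrix.mul_apply, Matrix.mul_apply, Finset.sum_eq_single j, Finset.sum_eq_single i, hM] at h2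
  · have h4 : (Z j j - Z i i) * ((g : Matrix (Fin n) (Fin n) F).det)⁻¹ = 0 := by
      linear_combination h2
    rcases mul_eq_zero.1 h4 with h5 | h5
    · exact sub_eq_zero.1 h5
    · exact absurd h5 (inv_ne_zero hδ0)
  · intro k _ hk
    rw [comm_offdiag hF n Z hcomm k i hk, mul_zero]
  · intro h
    exact absurd (Finset.mem_univ i) h
  · intro k _ hk
    rw [comm_offdiag hF n Z hcomm j k hk.symm, zero_mul]
  · intro h
    exact absurd (Finset.mem_univ j) h

theorem comm_scalar (hF : Fintype.card F = q ^ 2) (n : ℕ) (hn : 1 ≤ n)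
    (Z : Matrix (Fin n) (Fin n) F)
    (hcomm : ∀ M : Matrix (Fin n) (Fin n) F, M.det = 1 → IsIso (Fin n) q M → Z * M = M * Z) :
    Z = (Z ⟨0, hn⟩ ⟨0, hn⟩) • (1 : Matrix (Fin n) (Fin n) F) := by
  ext a b
  rw [Matrix.smul_apply, Matrix.one_apply, smul_eq_mul]
  by_cases hab : a = b
  · rw [if_pos hab, mul_one, ← hab]
    by_cases ha : a = ⟨0, hn⟩
    · rw [ha]
    · exact comm_diag hF n Z hcomm ⟨0, hn⟩ a (fun h => ha h.symm)
  · rw [if_neg hab, mul_zero]
    exact comm_offdiag hF n Z hcomm a b hab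

end center

theorem main {F : Type*} [Field F] [Fintype F] {q : ℕ} (hF : Fintype.card F = q ^ 2) (n : ℕ) (hn : 2 ≤ n) : ∃ φ : ↥(Cfsg.GU n F q) →* Multiplicative (ZMod (Nat.gcd n (q + 1))), Function.Surjective φ ∧ φ.ker = (Matrix.GeneralLinearGroup.det : Matrix.GeneralLinearGroup (Fin n) F →* Fˣ).ker.subgroupOf (Cfsg.GU n F q) ⊔ Subgroup.center ↥(Cfsg.GU n F q) := by
  classical
  have hq := two_le_q hF
  obtain ⟨σ, hσ⟩ := exists_frob hF
  have hn1 : 1 ≤ n := by omega
  have hrange := range_det hF n hn1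
  obtain ⟨U, hU⟩ : ∃ U : Subgroup Fˣ, U = (powMonoidHom (q + 1) : Fˣ →* Fˣ).ker := ⟨_, rfl⟩
  have hdetU : ∀ g : ↥(Cfsg.GU n F q),
      (Matrix.GeneralLinearGroup.det.comp (Cfsg.GU n F q).subtype) g ∈ U := by
    intro g
    rw [hU, ← hrange]
    exact ⟨g, rfl⟩
  obtain ⟨detH, hdetH⟩ : ∃ detH : ↥(Cfsg.GU n F q) →* ↥U, ∀ g,
      ((detH g : Fˣ) : F) = (g.1 : Matrix (Fin n) (Fin n) F).det :=
    ⟨(Matrix.GeneralLinearGroup.det.comp (Cfsg.GU n F q).subtype).codRestrict U hdetU,
      fun g => rfl⟩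
  have hsurj : Function.Surjective detH := by
    intro u
    have hu : (u : Fˣ) ∈ (Matrix.GeneralLinearGroup.det.comp (Cfsg.GU n F q).subtype).range := by
      rw [hrange, ← hU]; exact u.2
    obtain ⟨g, hg⟩ := hu
    refine ⟨g, ?_⟩
    apply Subtype.ext
    apply Units.ext
    rw [hdetH, ← hg]
    rfl
  have hcardU : Nat.card ↥U = q + 1 := by rw [hU]; exact card_ker_norm hF
  obtain ⟨P, hP⟩ : ∃ P : Subgroup ↥U, P = (powMonoidHom n : ↥U →* ↥U).range := ⟨_, rfl⟩
  have hPidx : P.index = Nat.gcd n (q + 1) := by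
    rw [hP, IsCyclic.index_powMonoidHom_range, hcardU, Nat.gcd_comm]
  obtain ⟨ψ, hψdef⟩ : ∃ ψ : ↥(Cfsg.GU n F q) →* ↥U ⧸ P, ψ = (QuotientGroup.mk' P).comp detH :=
    ⟨_, rfl⟩
  have hψ : Function.Surjective ψ := by
    rw [hψdef]; exact (QuotientGroup.mk'_surjective P).comp hsurj
  have hψ1 : ∀ g, ψ g = 1 ↔ detH g ∈ P := by
    intro g
    rw [hψdef, MonoidHom.comp_apply, QuotientGroup.mk'_apply, QuotientGroup.eq_one_iff]
  have hd0 : Nat.gcd n (q + 1) ≠ 0 := (Nat.gcd_pos_of_pos_right n (Nat.succ_pos q)).ne'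
  haveI : NeZero (Nat.gcd n (q + 1)) := ⟨hd0⟩
  have hcard : Nat.card (↥U ⧸ P) = Nat.card (Multiplicative (ZMod (Nat.gcd n (q + 1)))) := by
    rw [← Subgroup.index_eq_card, hPidx, Nat.card_eq_fintype_card, Fintype.card_multiplicative,
      ZMod.card]
  haveI : IsCyclic (↥U ⧸ P) := isCyclic_of_surjective (QuotientGroup.mk' P)
    (QuotientGroup.mk'_surjective P)
  obtain ⟨e⟩ : Nonempty ((↥U ⧸ P) ≃* Multiplicative (ZMod (Nat.gcd n (q + 1)))) :=
    ⟨mulEquivOfCyclicCardEq hcard⟩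
  refine ⟨e.toMonoidHom.comp ψ, e.surjective.comp hψ, ?_⟩
  have hmem : ∀ g, g ∈ (e.toMonoidHom.comp ψ).ker ↔ detH g ∈ P := by
    intro g
    rw [MonoidHom.mem_ker, MonoidHom.comp_apply, MulEquiv.toMonoidHom_eq_coe, MonoidHom.coe_coe,
      MulEquiv.map_eq_one_iff, hψ1]
  apply le_antisymm
  · intro g hg
    rw [hmem, hP] at hg
    obtain ⟨u, hu⟩ := hg
    rw [powMonoidHom_apply] at hu
    have hUn : ∀ x : Fˣ, x ∈ U → (x : F) ^ (q + 1) = 1 := by
      intro x hx
      rw [hU, MonoidHom.mem_ker, powMonoidHom_apply] at hx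
      have h2 := congrArg Units.val hx
      rwa [Units.val_pow_eq_pow_val, Units.val_one] at h2
    have hun : ((u : Fˣ) : F) ^ (q + 1) = 1 := hUn _ u.2
    have hu0 : ((u : Fˣ) : F) ≠ 0 := (u : Fˣ).ne_zero
    have hiso : IsIso (Fin n) q (((u : Fˣ) : F) • (1 : Matrix (Fin n) (Fin n) F)) :=
      smul_iso _ hun
    obtain ⟨zg, hzg⟩ : ∃ zg : GL (Fin n) F, (zg : Matrix (Fin n) (Fin n) F)
        = ((u : Fˣ) : F) • (1 : Matrix (Fin n) (Fin n) F) :=
      ⟨⟨((u : Fˣ) : F) • 1, (((u : Fˣ) : F))⁻¹ • 1, by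
          rw [Matrix.smul_mul, Matrix.mul_smul, mul_one, smul_smul, mul_inv_cancel₀ hu0, one_smul],
        by
          rw [Matrix.smul_mul, Matrix.mul_smul, mul_one, smul_smul, inv_mul_cancel₀ hu0,
            one_smul]⟩, rfl⟩
    have hzgU : zg ∈ Cfsg.GU n F q := by
      intro x y
      have h := hiso x y
      rw [← hzg] at h
      exact h
    obtain ⟨z, hz⟩ : ∃ z : ↥(Cfsg.GU n F q), z = ⟨zg, hzgU⟩ := ⟨_, rfl⟩
    have hzc : z ∈ Subgroup.center ↥(Cfsg.GU n F q) := by
      rw [Subgroup.mem_center_iff]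
      intro h
      apply Subtype.ext
      apply Units.ext
      show (h.1 : Matrix (Fin n) (Fin n) F) * (z.1 : Matrix (Fin n) (Fin n) F)
        = (z.1 : Matrix (Fin n) (Fin n) F) * (h.1 : Matrix (Fin n) (Fin n) F)
      rw [hz]
      show (h.1 : Matrix (Fin n) (Fin n) F) * (zg : Matrix (Fin n) (Fin n) F)
        = (zg : Matrix (Fin n) (Fin n) F) * (h.1 : Matrix (Fin n) (Fin n) F)
      rw [hzg, Matrix.mul_smul, Matrix.smul_mul, mul_one, one_mul]
    have hdz : detH z = u ^ n := by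
      apply Subtype.ext
      apply Units.ext
      rw [hdetH, hz]
      show (zg : Matrix (Fin n) (Fin n) F).det = _
      rw [hzg, Matrix.det_smul, Matrix.det_one, mul_one, Fintype.card_fin]
      simp
    have hS : g * z⁻¹ ∈ (Matrix.GeneralLinearGroup.det :
        Matrix.GeneralLinearGroup (Fin n) F →* Fˣ).ker.subgroupOf (Cfsg.GU n F q) := by
      rw [Subgroup.mem_subgroupOf, MonoidHom.mem_ker]
      have h1 : detH (g * z⁻¹) = 1 := by
        rw [map_mul, map_inv, hdz, ← hu, mul_inv_cancel]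
      apply Units.ext
      have h2 := hdetH (g * z⁻¹)
      rw [h1] at h2
      exact h2.symm
    have e1 : g = (g * z⁻¹) * z := by group
    rw [e1]
    exact Subgroup.mul_mem_sup hS hzc
  · apply sup_le
    · intro g hg
      rw [Subgroup.mem_subgroupOf, MonoidHom.mem_ker] at hg
      rw [hmem]
      have h1 : detH g = 1 := by
        apply Subtype.ext
        apply Units.ext
        rw [hdetH]
        exact congrArg Units.val hg
      rw [h1]
      exact P.one_mem
    · intro z hz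
      have hcomm : ∀ M : Matrix (Fin n) (Fin n) F, M.det = 1 → IsIso (Fin n) q M →
          (z.1 : Matrix (Fin n) (Fin n) F) * M = M * (z.1 : Matrix (Fin n) (Fin n) F) := by
        intro M hdet hiso
        obtain ⟨mg, hmg⟩ : ∃ mg : GL (Fin n) F, (mg : Matrix (Fin n) (Fin n) F) = M :=
          ⟨Matrix.GeneralLinearGroup.mkOfDetNeZero M (by rw [hdet]; exact one_ne_zero), rfl⟩
        have hmgU : mg ∈ Cfsg.GU n F q := by
          intro x y
          have h := hiso x y
          rw [← hmg] at h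
          exact h
        have h1 := Subgroup.mem_center_iff.1 hz ⟨mg, hmgU⟩
        have h2 := congrArg (fun s : ↥(Cfsg.GU n F q) => (s.1 : Matrix (Fin n) (Fin n) F)) h1
        rw [← hmg]
        exact h2.symm
      have hsc := comm_scalar hF n hn1 (z.1 : Matrix (Fin n) (Fin n) F) hcomm
      obtain ⟨l, hl⟩ : ∃ l : F, l = (z.1 : Matrix (Fin n) (Fin n) F) ⟨0, hn1⟩ ⟨0, hn1⟩ := ⟨_, rfl⟩
      rw [← hl] at hsc
      have hln : l ^ (q + 1) = 1 := by
        have h := z.2 (Pi.single ⟨0, hn1⟩ 1) (Pi.single ⟨0, hn1⟩ 1)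
        have h' : hf (Fin n) q ((z.1 : Matrix (Fin n) (Fin n) F) *ᵥ Pi.single ⟨0, hn1⟩ 1)
            ((z.1 : Matrix (Fin n) (Fin n) F) *ᵥ Pi.single ⟨0, hn1⟩ 1)
            = hf (Fin n) q (Pi.single ⟨0, hn1⟩ (1 : F)) (Pi.single ⟨0, hn1⟩ 1) := h
        rw [hsc, Matrix.smul_mulVec, Matrix.one_mulVec, hf_smul_left, hf_smul_right,
          hf_single_right σ hσ, Pi.single_eq_same, mul_one] at h'
        rw [pow_succ']
        exact h'
      have hl0 : l ≠ 0 := by
        rintro rfl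
        rw [zero_pow (by omega)] at hln
        exact zero_ne_one hln
      have hlU : Units.mk0 l hl0 ∈ U := by
        rw [hU, MonoidHom.mem_ker, powMonoidHom_apply]
        apply Units.ext
        rw [Units.val_pow_eq_pow_val, Units.val_mk0, Units.val_one]
        exact hln
      rw [hmem, hP]
      refine ⟨⟨Units.mk0 l hl0, hlU⟩, ?_⟩
      rw [powMonoidHom_apply]
      apply Subtype.ext
      apply Units.ext
      rw [hdetH, hsc, Matrix.det_smul, Matrix.det_one, mul_one, Fintype.card_fin]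
      simp

theorem result {F : Type*} [Field F] [Fintype F] {q : ℕ} (hF : Fintype.card F = q ^ 2) (n : ℕ) (hn : 2 ≤ n) : ∃ φ : ↥(Cfsg.GU n F q) →* Multiplicative (ZMod (Nat.gcd n (q + 1))), Function.Surjective φ ∧ φ.ker = (Matrix.GeneralLinearGroup.det : Matrix.GeneralLinearGroup (Fin n) F →* Fˣ).ker.subgroupOf (Cfsg.GU n F q) ⊔ Subgroup.center ↥(Cfsg.GU n F q) := by
  exact main hF n hn

end Cfsg.Agent.S0783
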