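import Cfsg.Statements.S0787
import Cfsg.Agent.S0798
import Cfsg.Agent.S0789

set_option autoImplicit false
open Cfsg


namespace Cfsg.Agent.S0787

open Matrix
open Cfsg.Agent.S0750 (pl pl_add_left pl_add_right pl_sub_left pl_sub_right pl_smul_left
  pl_smul_right pl_comm pl_self Q_add Q_smul Q_sub pl_zero_right)
open Cfsg.Agent.S0786 (mat mat_mul mat_one mat_iso mat_ext RQ exists_unit refl_mulVec refl_iso
  gen_refl)
open Cfsg.Agent.S0792 (refl_det)
open Cfsg.Agent.S2635 (SR K2 refl_smul SS_mem S_sq K_norm)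
open Cfsg.Agent.S2609 (sq_mul sq_refl refl_mul_self isSquare_mul_iff mem_comm_iff_sq)
open Cfsg.Agent.S0788 (exists_both det_pm omega_relIndex)
open Cfsg.Agent.S0797 (Par par_of_index comm_of_par)

section
variable {G : Type*} [Group G]

/-- membership predicate of a subgroup of a subgroup -/
def relP (K : Subgroup G) (H : Subgroup ↥K) (g : G) : Prop :=
  ∃ hg : g ∈ K, (⟨g, hg⟩ : ↥K) ∈ H

theorem relP_iff (K : Subgroup G) (H : Subgroup ↥K) (g : G) (hg : g ∈ K) :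
    relP K H g ↔ (⟨g, hg⟩ : ↥K) ∈ H := ⟨fun ⟨_, h⟩ => h, fun h => ⟨hg, h⟩⟩

theorem relP_mul (K : Subgroup G) (H : Subgroup ↥K) (hH : H.index = 2) (g h : G)
    (hg : g ∈ K) (hh : h ∈ K) : relP K H (g * h) ↔ (relP K H g ↔ relP K H h) := by
  rw [relP_iff K H _ (K.mul_mem hg hh), relP_iff K H g hg, relP_iff K H h hh]
  exact Subgroup.mul_mem_iff_of_index_two hH (a := ⟨g, hg⟩) (b := ⟨h, hh⟩)

theorem rel_ext (K : Subgroup G) (P P' : G → Prop)
    (hP : ∀ g ∈ K, ∀ h ∈ K, (P (g * h) ↔ (P g ↔ P h)))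
    (hP' : ∀ g ∈ K, ∀ h ∈ K, (P' (g * h) ↔ (P' g ↔ P' h)))
    (S : Set G) (hS : K = Subgroup.closure S) (hgen : ∀ r ∈ S, (P r ↔ P' r)) :
    ∀ g ∈ K, (P g ↔ P' g) := by
  have h1 : P 1 := by
    have h := hP 1 K.one_mem 1 K.one_mem
    rw [mul_one] at h
    exact h.2 Iff.rfl
  have h1' : P' 1 := by
    have h := hP' 1 K.one_mem 1 K.one_mem
    rw [mul_one] at h
    exact h.2 Iff.rfl
  intro g hg
  rw [hS] at hg
  induction hg using Subgroup.closure_induction with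
  | mem r hr => exact hgen r hr
  | one => exact iff_of_true h1 h1'
  | mul x y hx hy ihx ihy =>
    have hxK : x ∈ K := by
      rw [hS]
      exact hx
    have hyK : y ∈ K := by
      rw [hS]
      exact hy
    exact (hP x hxK y hyK).trans ((iff_congr ihx ihy).trans (hP' x hxK y hyK).symm)
  | inv x hx ihx =>
    have hxK : x ∈ K := by
      rw [hS]
      exact hx
    have e := hP x hxK x⁻¹ (K.inv_mem hxK)
    have e' := hP' x hxK x⁻¹ (K.inv_mem hxK)
    rw [mul_inv_cancel] at e e'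
    have a1 : P x ↔ P x⁻¹ := e.1 h1
    have a2 : P' x ↔ P' x⁻¹ := e'.1 h1'
    exact a1.symm.trans (ihx.trans a2)

end

section
variable {F : Type*} [Field F] [Fintype F] {ι : Type} [Fintype ι] [DecidableEq ι]

/-- a product of two reflections of the same class is a square in the rotation group -/
theorem same_sq (h2 : (2 : F) ≠ 0) (Q : QuadraticForm F (ι → F))
    (hQ : (QuadraticMap.polarBilin Q).Nondegenerate)
    (x y : ι → F) (m : F) (hm : m ≠ 0) (hxy : Q x * Q y = m ^ 2)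
    (a b : ↥(Cfsg.isometryGroup F ⇑Q))
    (ha : mat Q a = Cfsg.reflectionMatrix (⇑Q) x)
    (hb : mat Q b = Cfsg.reflectionMatrix (⇑Q) y) :
    ∃ τ ∈ K2 Q, a * b = τ * τ := by
  have hm2 : m ^ 2 ≠ 0 := pow_ne_zero 2 hm
  have hx : Q x ≠ 0 := by
    intro h
    rw [h, zero_mul] at hxy
    exact hm2 hxy.symm
  have hy : Q y ≠ 0 := by
    intro h
    rw [h, mul_zero] at hxy
    exact hm2 hxy.symm
  have h4 : (4 : F) ≠ 0 := by
    have h : (4 : F) = 2 * 2 := by norm_num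
    rw [h]
    exact mul_ne_zero h2 h2
  have hlQ : Q ((Q x / m) • y) = Q x := by
    rw [Q_smul]
    field_simp
    linear_combination hxy
  obtain ⟨l, hl0, hlQ', hw⟩ : ∃ l : F, l ≠ 0 ∧ Q (l • y) = Q x ∧ Q (x - l • y) ≠ 0 := by
    by_cases h : Q (x - (Q x / m) • y) = 0
    · refine ⟨-(Q x / m), neg_ne_zero.2 (div_ne_zero hx hm), ?_, ?_⟩
      · rw [Q_smul]
        rw [Q_smul] at hlQ
        linear_combination hlQ
      · rw [neg_smul, sub_neg_eq_add]
        intro h'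
        have e1 := Q_sub Q x ((Q x / m) • y)
        have e2 := Q_add Q x ((Q x / m) • y)
        rw [h, hlQ] at e1
        rw [h', hlQ] at e2
        have h5 : 4 * Q x = 0 := by linear_combination -e1 - e2
        exact absurd h5 (mul_ne_zero h4 hx)
    · exact ⟨Q x / m, div_ne_zero hx hm, hlQ, h⟩
  obtain ⟨w, hwdef⟩ : ∃ w, w = x - l • y := ⟨_, rfl⟩
  rw [← hwdef] at hw
  have hpw : pl Q w x = Q w := by
    rw [hwdef, pl_sub_left, pl_self, Q_sub, hlQ', pl_comm Q (l • y) x]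
  have hrw : Cfsg.reflectionMatrix (⇑Q) w *ᵥ x = l • y := by
    rw [refl_mulVec, hpw, inv_mul_cancel₀ hw, one_smul, hwdef, sub_sub_cancel]
  obtain ⟨d, hd⟩ := exists_unit Q hQ (Cfsg.reflectionMatrix (⇑Q) w) (refl_iso Q w hw)
  have hb' : mat Q b = Cfsg.reflectionMatrix (⇑Q) (mat Q d *ᵥ x) := by
    rw [hd, hrw, refl_smul Q y l hl0 hy]
    exact hb
  have h1 := Cfsg.Agent.S1629.conj_refl Q d a b x ha hb'
  have hdd : d * d = 1 := S_sq Q d ⟨w, hw, hd⟩
  refine ⟨a * d, SS_mem Q a d ⟨x, hx, ha⟩ ⟨w, hw, hd⟩, ?_⟩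
  rw [mul_assoc a d (a * d), ← mul_assoc d a d, h1, mul_assoc b d d, hdd, mul_one]

theorem key (h2 : (2 : F) ≠ 0) (hFn : Fintype.card F ≠ 2 ∨ Fintype.card ι ≠ 4)
    (Q : QuadraticForm F (ι → F)) (hQ : (QuadraticMap.polarBilin Q).Nondegenerate)
    (hdim : 2 ≤ Fintype.card ι) (P : ↥(Cfsg.isometryGroup F ⇑Q) → Prop)
    (hP : ∀ g ∈ K2 Q, ∀ h ∈ K2 Q, (P (g * h) ↔ (P g ↔ P h))) :
    (∀ g ∈ K2 Q, (P g ↔ Cfsg.Agent.S2609.sq Q g)) ∨ (∀ g ∈ K2 Q, P g) := by
  have hR := gen_refl hFn Q hQ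
  have hsqr : ∀ τ ∈ K2 Q, P (τ * τ) := fun τ hτ => (hP τ hτ τ hτ).2 Iff.rfl
  have hsame : ∀ (x y : ι → F) (a b : ↥(Cfsg.isometryGroup F ⇑Q)), Q x ≠ 0 → Q y ≠ 0 →
      mat Q a = Cfsg.reflectionMatrix (⇑Q) x → mat Q b = Cfsg.reflectionMatrix (⇑Q) y →
      (IsSquare (Q x) ↔ IsSquare (Q y)) → ∃ τ ∈ K2 Q, a * b = τ * τ := by
    intro x y a b hx hy ha hb hcl
    obtain ⟨m, hm⟩ := (isSquare_mul_iff (Q x) (Q y) hx hy).2 hcl
    have hm0 : m ≠ 0 := by
      rintro rfl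
      rw [mul_zero] at hm
      exact (mul_ne_zero hx hy) hm
    exact same_sq h2 Q hQ x y m hm0 (by rw [hm]; ring) a b ha hb
  obtain ⟨u, v, hu, hv, hsu, hsv⟩ := exists_both h2 Q hQ hdim
  obtain ⟨a0, ha0⟩ := exists_unit Q hQ (Cfsg.reflectionMatrix (⇑Q) u) (refl_iso Q u hu)
  obtain ⟨b0, hb0⟩ := exists_unit Q hQ (Cfsg.reflectionMatrix (⇑Q) v) (refl_iso Q v hv)
  have hab0 : a0 * b0 ∈ K2 Q := SS_mem Q a0 b0 ⟨u, hu, ha0⟩ ⟨v, hv, hb0⟩
  have hba0 : b0 * a0 ∈ K2 Q := SS_mem Q b0 a0 ⟨v, hv, hb0⟩ ⟨u, hu, ha0⟩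
  have hP1 : P 1 := by
    have h := hsqr 1 (K2 Q).one_mem
    rw [mul_one] at h
    exact h
  -- swapping the two reflections does not change P
  have hswap : ∀ (a b : ↥(Cfsg.isometryGroup F ⇑Q)), a ∈ SR Q → b ∈ SR Q →
      (P (a * b) ↔ P (b * a)) := by
    intro a b haS hbS
    have e := hP (a * b) (SS_mem Q a b haS hbS) (b * a) (SS_mem Q b a hbS haS)
    have e1 : a * b * (b * a) = 1 := by
      rw [mul_assoc a b, ← mul_assoc b b, S_sq Q b hbS, one_mul, S_sq Q a haS]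
    rw [e1] at e
    exact e.1 hP1
  have hdiff : ∀ (x y : ι → F) (a b : ↥(Cfsg.isometryGroup F ⇑Q)), Q x ≠ 0 → Q y ≠ 0 →
      mat Q a = Cfsg.reflectionMatrix (⇑Q) x → mat Q b = Cfsg.reflectionMatrix (⇑Q) y →
      IsSquare (Q x) → ¬ IsSquare (Q y) → (P (a * b) ↔ P (a0 * b0)) := by
    intro x y a b hx hy ha hb hsx hsy
    have haS : a ∈ SR Q := ⟨x, hx, ha⟩
    have hbS : b ∈ SR Q := ⟨y, hy, hb⟩
    obtain ⟨τ, hτ, hbb⟩ := hsame y v b b0 hy hv hb hb0 (iff_of_false hsy hsv)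
    obtain ⟨σ, hσ, haa⟩ := hsame x u a a0 hx hu ha ha0 (iff_of_true hsx hsu)
    have hconj : a * τ * a ∈ K2 Q := K_norm Q hQ a haS τ hτ
    have e1 : a * b * (b0 * a0) = (a * τ * a) * (a * τ * a) * (σ * σ) := by
      have c1 : ∀ z, a * (a * z) = z := fun z => by rw [← mul_assoc, S_sq Q a haS, one_mul]
      have c2 : ∀ z, b * (b0 * z) = τ * (τ * z) := fun z => by rw [← mul_assoc, hbb, mul_assoc]
      rw [← haa]
      simp only [mul_assoc, c1, c2]
    have e3 : P (a * b * (b0 * a0)) := by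
      rw [e1]
      exact (hP _ ((K2 Q).mul_mem hconj hconj) _ ((K2 Q).mul_mem hσ hσ)).2
        (iff_of_true (hsqr _ hconj) (hsqr _ hσ))
    have e4 := (hP (a * b) (SS_mem Q a b haS hbS) (b0 * a0) hba0).1 e3
    exact e4.trans (hswap b0 a0 ⟨v, hv, hb0⟩ ⟨u, hu, ha0⟩)
  have hval : ∀ r ∈ {g : ↥(Cfsg.isometryGroup F ⇑Q) | ∃ u v : ι → F, Q u ≠ 0 ∧ Q v ≠ 0 ∧
      ((g : Matrix.GeneralLinearGroup ι F) : Matrix ι ι F) =
        Cfsg.reflectionMatrix (⇑Q) u * Cfsg.reflectionMatrix (⇑Q) v},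
      (P r ↔ (Cfsg.Agent.S2609.sq Q r ∨ P (a0 * b0))) := by
    rintro r ⟨x, y, hx, hy, hr⟩
    obtain ⟨a, ha⟩ := exists_unit Q hQ (Cfsg.reflectionMatrix (⇑Q) x) (refl_iso Q x hx)
    obtain ⟨b, hb⟩ := exists_unit Q hQ (Cfsg.reflectionMatrix (⇑Q) y) (refl_iso Q y hy)
    have hrab : r = a * b := by
      apply Subtype.ext
      apply Units.ext
      show mat Q r = mat Q (a * b)
      rw [mat_mul, ha, hb]
      exact hr
    have haS : a ∈ SR Q := ⟨x, hx, ha⟩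
    have hbS : b ∈ SR Q := ⟨y, hy, hb⟩
    have hsq : Cfsg.Agent.S2609.sq Q r ↔ (IsSquare (Q x) ↔ IsSquare (Q y)) := by
      rw [hrab, sq_mul Q hQ hR a b, sq_refl Q hQ a x hx ha, sq_refl Q hQ b y hy hb]
    rw [hsq, hrab]
    by_cases hsx : IsSquare (Q x)
    · by_cases hsy : IsSquare (Q y)
      · obtain ⟨τ, hτ, hbb⟩ := hsame x y a b hx hy ha hb (iff_of_true hsx hsy)
        rw [hbb]
        exact iff_of_true (hsqr τ hτ) (Or.inl (iff_of_true hsx hsy))
      · have h1 := hdiff x y a b hx hy ha hb hsx hsy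
        exact ⟨fun h => Or.inr (h1.1 h), fun h => h.elim (fun h' => absurd (h'.1 hsx) hsy) h1.2⟩
    · by_cases hsy : IsSquare (Q y)
      · have h1 := hdiff y x b a hy hx hb ha hsy hsx
        have h3 := hswap a b haS hbS
        exact ⟨fun h => Or.inr (h1.1 (h3.1 h)),
          fun h => h.elim (fun h' => absurd (h'.2 hsy) hsx) (fun h' => h3.2 (h1.2 h'))⟩
      · obtain ⟨τ, hτ, hbb⟩ := hsame x y a b hx hy ha hb (iff_of_false hsx hsy)
        rw [hbb]
        exact iff_of_true (hsqr τ hτ) (Or.inl (iff_of_false hsx hsy))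
  by_cases hε : P (a0 * b0)
  · right
    intro g hg
    exact (rel_ext (K2 Q) P (fun _ => True) hP (fun _ _ _ _ => iff_of_true trivial Iff.rfl) _ rfl
      (fun r hr => iff_of_true ((hval r hr).2 (Or.inr hε)) trivial) g hg).2 trivial
  · left
    exact rel_ext (K2 Q) P (Cfsg.Agent.S2609.sq Q) hP (fun g _ h _ => sq_mul Q hQ hR g h) _ rfl
      (fun r hr => ⟨fun h => ((hval r hr).1 h).elim id (fun h' => absurd h' hε),
        fun h => (hval r hr).2 (Or.inl h)⟩)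

theorem odd_case (h2 : (2 : F) ≠ 0) (hFn : Fintype.card F ≠ 2 ∨ Fintype.card ι ≠ 4)
    (Q : QuadraticForm F (ι → F)) (hQ : (QuadraticMap.polarBilin Q).Nondegenerate)
    (hdim : 2 ≤ Fintype.card ι) :
    ∀ K : Subgroup ↥(Cfsg.isometryGroup F ⇑Q), K = K2 Q → ∃! H : Subgroup ↥K, H.index = 2 := by
  rintro K rfl
  obtain ⟨u, v, hu, hv, hsu, hsv⟩ := exists_both h2 Q hQ hdim
  have h3 := omega_relIndex h2 hFn Q hQ u v hu hv hsu hsv
  refine ⟨(commutator ↥(Cfsg.isometryGroup F ⇑Q)).subgroupOf (K2 Q), h3, ?_⟩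
  intro H hH
  ext ⟨g, hg⟩
  rw [Subgroup.mem_subgroupOf]
  show (⟨g, hg⟩ : ↥(K2 Q)) ∈ H ↔ g ∈ commutator ↥(Cfsg.isometryGroup F ⇑Q)
  rw [mem_comm_iff_sq h2 hFn Q hQ g]
  have hd : (mat Q g).det = 1 := Cfsg.Agent.S2629.K2_det Q g hg
  rcases key h2 hFn Q hQ hdim (relP (K2 Q) H)
    (fun g hg h hh => relP_mul (K2 Q) H hH g h hg hh) with hk | hk
  · rw [← relP_iff (K2 Q) H g hg, hk g hg]
    exact ⟨fun h => ⟨h, hd⟩, fun h => h.1⟩
  · exfalso
    have htop : H = ⊤ := by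
      rw [Subgroup.eq_top_iff']
      rintro ⟨x, hx⟩
      exact (relP_iff (K2 Q) H x hx).1 (hk x hx)
    rw [htop, Subgroup.index_top] at hH
    omega

end

section
variable {G : Type*} [Group G]

theorem even_case (hidx : (commutator G).index = 2) :
    ∀ K : Subgroup G, K = ⊤ → ∃! H : Subgroup ↥K, H.index = 2 := by
  rintro K rfl
  refine ⟨(commutator G).subgroupOf ⊤, ?_, ?_⟩
  · show (commutator G).relIndex ⊤ = 2
    rw [Subgroup.relIndex_top_right]
    exact hidx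
  · intro H hH
    have h1 : (H.map (⊤ : Subgroup G).subtype).index = 2 := by
      rw [Subgroup.index_map_subtype, hH, Subgroup.index_top]
    have hle : commutator G ≤ H.map (⊤ : Subgroup G).subtype := fun g hg =>
      comm_of_par (fun g => g ∈ H.map (⊤ : Subgroup G).subtype) (par_of_index _ h1) g hg
    have heq : commutator G = H.map (⊤ : Subgroup G).subtype := by
      have h2 := Subgroup.relIndex_mul_index hle
      rw [h1, hidx] at h2
      have h3 : (commutator G).relIndex (H.map (⊤ : Subgroup G).subtype) = 1 := by omega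
      exact le_antisymm hle (Subgroup.relIndex_eq_one.1 h3)
    ext ⟨g, hg⟩
    rw [Subgroup.mem_subgroupOf, heq]
    show _ ↔ g ∈ H.map (⊤ : Subgroup G).subtype
    rw [Subgroup.mem_map]
    constructor
    · intro h
      exact ⟨⟨g, hg⟩, h, rfl⟩
    · rintro ⟨⟨g', hg'⟩, h, rfl⟩
      exact h

end

theorem main {F : Type*} [Field F] [Fintype F] {n : ℕ} (hn : 2 ≤ n) (Q : QuadraticForm F (Fin n → F)) (hQ : (QuadraticMap.polarBilin Q).Nondegenerate) (h : Fintype.card F ≠ 2 ∨ n ≠ 4) : ∃! H : Subgroup ↥(Cfsg.specialIsometryGroup F ⇑Q), H.index = 2 := by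
  have hFn : Fintype.card F ≠ 2 ∨ Fintype.card (Fin n) ≠ 4 := by
    rw [Fintype.card_fin]
    exact h
  by_cases h2 : (2 : F) = 0
  · haveI : CharP F 2 := CharTwo.of_one_ne_zero_of_two_eq_zero one_ne_zero h2
    have hidx := Cfsg.Agent.S0789.main hn Q hQ h
    have hR := gen_refl hFn Q hQ
    have htop : Cfsg.specialIsometryGroup F ⇑Q = ⊤ := by
      rw [eq_top_iff]
      intro g _
      show (Matrix.GeneralLinearGroup.det.comp (Cfsg.isometryGroup F ⇑Q).subtype) g = 1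
      apply Units.ext
      show (mat Q g).det = 1
      rcases det_pm Q hQ hR g with hd | hd
      · exact hd
      · rw [hd]
        exact CharTwo.neg_eq (1 : F)
    exact even_case hidx _ htop
  · have hSO := Cfsg.Agent.S0792.main h2 Q hQ
    exact odd_case h2 hFn Q hQ (by rw [Fintype.card_fin]; exact hn) _ hSO

theorem result {F : Type*} [Field F] [Fintype F] {n : ℕ} (hn : 2 ≤ n) (Q : QuadraticForm F (Fin n → F)) (hQ : (QuadraticMap.polarBilin Q).Nondegenerate) (h : Fintype.card F ≠ 2 ∨ n ≠ 4) : ∃! H : Subgroup ↥(Cfsg.specialIsometryGroup F ⇑Q), H.index = 2 := by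
  exact main hn Q hQ h

end Cfsg.Agent.S0787
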