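import Cfsg.Statements.S0790
import Cfsg.Agent.S2613

set_option autoImplicit false
open Cfsg


namespace Cfsg.Agent.S0790

theorem main {F : Type*} [Field F] [Fintype F] {q : ℕ} (hF : Fintype.card F = q) (hodd : Odd q) (m : ℕ) (hm : 1 ≤ m) : (∃ g : ↥(Cfsg.isometryGroup F (Cfsg.quadFormPlus m F)), g ∈ Cfsg.Omega F (Cfsg.quadFormPlus m F) ∧ ((g : Matrix.GeneralLinearGroup (Fin m ⊕ Fin m) F) : Matrix (Fin m ⊕ Fin m) (Fin m ⊕ Fin m) F) = -1) ↔ q ^ m % 4 = 1 := by
  have e : Matrix.diagonal (fun k : Fin m ⊕ Fin m => if (Sum.elim (fun j : Fin m => (j : ℕ))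
      (fun j : Fin m => (j : ℕ)) k) < m then (-1 : F) else 1) = -1 := by
    have h1 : (fun k : Fin m ⊕ Fin m => if (Sum.elim (fun j : Fin m => (j : ℕ))
        (fun j : Fin m => (j : ℕ)) k) < m then (-1 : F) else 1) = fun _ => -1 := by
      funext k
      rcases k with k | k <;> simp [k.2]
    rw [h1]
    ext a b
    by_cases hab : a = b
    · subst hab
      simp
    · simp [hab]
  have h := Cfsg.Agent.S2613.result hF hodd m hm le_rfl
  rw [e] at h
  exact h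

theorem result {F : Type*} [Field F] [Fintype F] {q : ℕ} (hF : Fintype.card F = q) (hodd : Odd q) (m : ℕ) (hm : 1 ≤ m) : (∃ g : ↥(Cfsg.isometryGroup F (Cfsg.quadFormPlus m F)), g ∈ Cfsg.Omega F (Cfsg.quadFormPlus m F) ∧ ((g : Matrix.GeneralLinearGroup (Fin m ⊕ Fin m) F) : Matrix (Fin m ⊕ Fin m) (Fin m ⊕ Fin m) F) = -1) ↔ q ^ m % 4 = 1 := by
  exact main hF hodd m hm

end Cfsg.Agent.S0790
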