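import Cfsg.Statements.S0794
import Cfsg.Agent.S0750

set_option autoImplicit false
open Cfsg


namespace Cfsg.Agent.S0794

open Matrix
open Cfsg.Agent.S0750 (pl pl_add_left pl_add_right pl_sub_left pl_sub_right pl_smul_left
  pl_smul_right pl_comm pl_self Q_add Q_smul Q_sub pl_zero_right exists_wit)

section
variable {F : Type*} [Field F] {n : ℕ}

theorem vmv (a b x : Fin n → F) : Matrix.vecMulVec a b *ᵥ x = (b ⬝ᵥ x) • a := by
  funext i
  simp only [Matrix.mulVec, dotProduct, Matrix.vecMulVec_apply, Pi.smul_apply, smul_eq_mul]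
  rw [Finset.sum_mul]
  exact Finset.sum_congr rfl (fun j _ => by ring)

theorem polarVec_dot (Q : QuadraticForm F (Fin n → F)) (u x : Fin n → F) :
    Cfsg.polarVec (⇑Q) u ⬝ᵥ x = pl Q u x := by
  have h := LinearMap.pi_apply_eq_sum_univ (QuadraticMap.polarBilin Q u) x
  show ∑ i, Cfsg.polarVec (⇑Q) u i * x i = QuadraticMap.polarBilin Q u x
  rw [h]
  refine Finset.sum_congr rfl (fun i _ => ?_)
  rw [smul_eq_mul, mul_comm]
  congr 1
  show QuadraticMap.polar (⇑Q) u (Pi.single i 1) =
    QuadraticMap.polar (⇑Q) u (fun j => if i = j then 1 else 0)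
  congr 1
  funext j
  rw [Pi.single_apply]
  by_cases hij : i = j
  · rw [if_pos hij, if_pos hij.symm]
  · rw [if_neg hij, if_neg (fun h => hij h.symm)]

theorem siegel_mulVec (Q : QuadraticForm F (Fin n → F)) (u v : Fin n → F) (c : F)
    (x : Fin n → F) :
    Cfsg.siegelMatrix (⇑Q) u v c *ᵥ x = x + c • (pl Q u x • v - pl Q v x • u) := by
  unfold Cfsg.siegelMatrix
  rw [Matrix.add_mulVec, Matrix.one_mulVec, Matrix.smul_mulVec, Matrix.sub_mulVec, vmv, vmv,
    polarVec_dot, polarVec_dot]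

def hMat (Q : QuadraticForm F (Fin n → F)) (u u' : Fin n → F) : Matrix (Fin n) (Fin n) F :=
  1 - (2 : F) • (Matrix.vecMulVec u (Cfsg.polarVec (⇑Q) u') +
    Matrix.vecMulVec u' (Cfsg.polarVec (⇑Q) u))

theorem hMat_mulVec (Q : QuadraticForm F (Fin n → F)) (u u' x : Fin n → F) :
    hMat Q u u' *ᵥ x = x - (2 : F) • (pl Q u' x • u + pl Q u x • u') := by
  unfold hMat
  rw [Matrix.sub_mulVec, Matrix.one_mulVec, Matrix.smul_mulVec, Matrix.add_mulVec, vmv, vmv,
    polarVec_dot, polarVec_dot]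

theorem siegel_iso (Q : QuadraticForm F (Fin n → F)) (u v : Fin n → F) (hu : Q u = 0)
    (hv : Q v = 0) (huv : pl Q u v = 0) (c : F) (x : Fin n → F) :
    Q (Cfsg.siegelMatrix (⇑Q) u v c *ᵥ x) = Q x := by
  rw [siegel_mulVec]
  simp only [Q_add, Q_sub, Q_smul, pl_smul_right, pl_smul_left, pl_sub_right, pl_sub_left, hu,
    hv, huv, pl_comm Q v u, pl_comm Q x u, pl_comm Q x v]
  ring

theorem hMat_iso (Q : QuadraticForm F (Fin n → F)) (u u' : Fin n → F) (hu : Q u = 0)
    (hu' : Q u' = 0) (huu' : pl Q u' u = 1) (x : Fin n → F) :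
    Q (hMat Q u u' *ᵥ x) = Q x := by
  rw [hMat_mulVec]
  simp only [Q_add, Q_sub, Q_smul, pl_smul_right, pl_smul_left, pl_add_right, pl_add_left, hu,
    hu', huu', pl_comm Q u u', pl_comm Q x u, pl_comm Q x u']
  ring

theorem exists_unit [Fintype F] (Q : QuadraticForm F (Fin n → F))
    (hQ : (QuadraticMap.polarBilin Q).Nondegenerate) (M : Matrix (Fin n) (Fin n) F)
    (hM : ∀ x, Q (M *ᵥ x) = Q x) :
    ∃ g : ↥(Cfsg.isometryGroup F ⇑Q),
      ((g : Matrix.GeneralLinearGroup (Fin n) F) : Matrix (Fin n) (Fin n) F) = M := by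
  have hpl : ∀ a b, pl Q (M *ᵥ a) (M *ᵥ b) = pl Q a b := by
    intro a b
    have h1 := Q_add Q (M *ᵥ a) (M *ᵥ b)
    have h2 := Q_add Q a b
    rw [← Matrix.mulVec_add, hM, hM, hM] at h1
    linear_combination h2 - h1
  have hinj : Function.Injective M.mulVec := by
    intro a b hab
    have h1 : M *ᵥ (a - b) = 0 := by
      rw [Matrix.mulVec_sub]
      exact sub_eq_zero.2 hab
    have h2 : a - b = 0 := by
      apply hQ.2
      intro z
      show pl Q z (a - b) = 0
      rw [← hpl, h1, pl_zero_right]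
    exact sub_eq_zero.1 h2
  have hu : IsUnit M := Matrix.mulVec_injective_iff_isUnit.1 hinj
  refine ⟨⟨hu.unit, fun a b => ?_⟩, hu.unit_spec⟩
  show Q ((hu.unit : Matrix (Fin n) (Fin n) F) *ᵥ a) = Q a
  rw [hu.unit_spec]
  exact hM a

end

theorem main {F : Type*} [Field F] [Fintype F] (h2 : (2 : F) ≠ 0) {n : ℕ} (hn : 5 ≤ n) (Q : QuadraticForm F (Fin n → F)) (hQ : (QuadraticMap.polarBilin Q).Nondegenerate) (u v : Fin n → F) (hu : Q u = 0) (hv : Q v = 0) (huv : QuadraticMap.polar ⇑Q u v = 0) (c : F) (g : ↥(Cfsg.isometryGroup F ⇑Q)) (hg : ((g : Matrix.GeneralLinearGroup (Fin n) F) : Matrix (Fin n) (Fin n) F) = Cfsg.siegelMatrix ⇑Q u v c) : g ∈ commutatorSet ↥(Cfsg.isometryGroup F ⇑Q) ∧ g ∈ Cfsg.Omega F ⇑Q := by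
  classical
  have huv' : pl Q u v = 0 := huv
  have huu : pl Q u u = 0 := by rw [pl_self, hu, add_zero]
  have hvv : pl Q v v = 0 := by rw [pl_self, hv, add_zero]
  have key : ∃ a b : ↥(Cfsg.isometryGroup F ⇑Q), a * b * a⁻¹ * b⁻¹ = g := by
    by_cases hmem : u ∈ Submodule.span F (Set.range (fun _ : Fin 1 => v))
    · -- g = 1
      have hg1 : g = 1 := by
        apply Subtype.ext
        apply Units.ext
        show ((g : Matrix.GeneralLinearGroup (Fin n) F) : Matrix (Fin n) (Fin n) F) = 1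
        rw [hg, Matrix.ext_iff_mulVec]
        intro x
        rw [siegel_mulVec, Matrix.one_mulVec]
        have hmem' : u ∈ Submodule.span F ({v} : Set (Fin n → F)) := by
          have e : Set.range (fun _ : Fin 1 => v) = {v} := Set.range_const
          rw [e] at hmem
          exact hmem
        obtain ⟨l, rfl⟩ := Submodule.mem_span_singleton.1 hmem'
        rw [pl_smul_left, smul_smul, mul_comm l, sub_self, smul_zero, add_zero]
      exact ⟨1, 1, by rw [hg1]; simp⟩
    · obtain ⟨t, htv, htu⟩ := exists_wit Q hQ (fun _ : Fin 1 => v) u hmem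
      have htv' : pl Q t v = 0 := htv 0
      obtain ⟨s, hs⟩ : ∃ s, s = (pl Q t u)⁻¹ • t := ⟨_, rfl⟩
      have hsu : pl Q s u = 1 := by rw [hs, pl_smul_left, inv_mul_cancel₀ htu]
      have hsv : pl Q s v = 0 := by rw [hs, pl_smul_left, htv', mul_zero]
      obtain ⟨u', hu'd⟩ : ∃ u', u' = s - Q s • u := ⟨_, rfl⟩
      have hu'Q : Q u' = 0 := by
        rw [hu'd, Q_sub, Q_smul, pl_smul_right, hu, hsu]
        ring
      have hu'u : pl Q u' u = 1 := by
        rw [hu'd, pl_sub_left, pl_smul_left, huu, hsu]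
        ring
      have hu'v : pl Q u' v = 0 := by
        rw [hu'd, pl_sub_left, pl_smul_left, huv', hsv]
        ring
      obtain ⟨a, ha⟩ := exists_unit Q hQ (hMat Q u u') (hMat_iso Q u u' hu hu'Q hu'u)
      obtain ⟨c', hc'⟩ : ∃ c' : F, c' = -c / 2 := ⟨_, rfl⟩
      have hcc : c' + c = -c' := by
        rw [hc']
        field_simp
        ring
      obtain ⟨b, hb⟩ := exists_unit Q hQ (Cfsg.siegelMatrix (⇑Q) u v c')
        (siegel_iso Q u v hu hv huv' _)
      refine ⟨a, b, ?_⟩
      have hmat : g * b * a = a * b := by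
        apply Subtype.ext
        apply Units.ext
        show ((g : Matrix.GeneralLinearGroup (Fin n) F) : Matrix (Fin n) (Fin n) F) *
          ((b : Matrix.GeneralLinearGroup (Fin n) F) : Matrix (Fin n) (Fin n) F) *
          ((a : Matrix.GeneralLinearGroup (Fin n) F) : Matrix (Fin n) (Fin n) F) =
          ((a : Matrix.GeneralLinearGroup (Fin n) F) : Matrix (Fin n) (Fin n) F) *
          ((b : Matrix.GeneralLinearGroup (Fin n) F) : Matrix (Fin n) (Fin n) F)
        rw [hg, ha, hb, Matrix.ext_iff_mulVec]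
        intro x
        rw [← Matrix.mulVec_mulVec, ← Matrix.mulVec_mulVec, ← Matrix.mulVec_mulVec]
        obtain ⟨y, hy⟩ : ∃ y, y = hMat Q u u' *ᵥ x := ⟨_, rfl⟩
        have hyu : pl Q u y = -pl Q u x := by
          rw [hy, hMat_mulVec, pl_sub_right, pl_smul_right, pl_add_right, pl_smul_right,
            pl_smul_right, huu, pl_comm Q u u', hu'u]
          ring
        have hyv : pl Q v y = pl Q v x := by
          rw [hy, hMat_mulVec, pl_sub_right, pl_smul_right, pl_add_right, pl_smul_right,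
            pl_smul_right, pl_comm Q v u, huv', pl_comm Q v u', hu'v]
          ring
        have hHu : hMat Q u u' *ᵥ u = -u := by
          rw [hMat_mulVec, huu, hu'u, zero_smul, add_zero, one_smul]
          module
        have hHv : hMat Q u u' *ᵥ v = v := by
          rw [hMat_mulVec, huv', hu'v, zero_smul, zero_smul, add_zero, smul_zero, sub_zero]
        rw [← hy]
        -- LHS
        have hL : Cfsg.siegelMatrix (⇑Q) u v c *ᵥ (Cfsg.siegelMatrix (⇑Q) u v c' *ᵥ y) =
            y + (c' + c) • (pl Q u y • v - pl Q v y • u) := by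
          obtain ⟨y', hy'⟩ : ∃ y', y' = Cfsg.siegelMatrix (⇑Q) u v c' *ᵥ y := ⟨_, rfl⟩
          have e1 : pl Q u y' = pl Q u y := by
            rw [hy', siegel_mulVec, pl_add_right, pl_smul_right, pl_sub_right, pl_smul_right,
              pl_smul_right, huu, huv']
            ring
          have e2 : pl Q v y' = pl Q v y := by
            rw [hy', siegel_mulVec, pl_add_right, pl_smul_right, pl_sub_right, pl_smul_right,
              pl_smul_right, hvv, pl_comm Q v u, huv']
            ring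
          rw [← hy', siegel_mulVec, e1, e2, hy', siegel_mulVec]
          module
        rw [hL, hyu, hyv, siegel_mulVec, Matrix.mulVec_add, Matrix.mulVec_smul, Matrix.mulVec_sub,
          Matrix.mulVec_smul, Matrix.mulVec_smul, hHu, hHv, ← hy, hcc]
        module
      have h3 : g = a * b * a⁻¹ * b⁻¹ := by
        have h4 : g = a * b * a⁻¹ * b⁻¹ * (b * a * a⁻¹ * b⁻¹)⁻¹ := by
          rw [← hmat]; group
        rw [h4]; group
      exact h3.symm
  obtain ⟨a, b, hab⟩ := key
  refine ⟨⟨a, b, hab⟩, ?_⟩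
  rw [← hab]
  exact Subgroup.commutator_mem_commutator (Subgroup.mem_top a) (Subgroup.mem_top b)

theorem result {F : Type*} [Field F] [Fintype F] (h2 : (2 : F) ≠ 0) {n : ℕ} (hn : 5 ≤ n) (Q : QuadraticForm F (Fin n → F)) (hQ : (QuadraticMap.polarBilin Q).Nondegenerate) (u v : Fin n → F) (hu : Q u = 0) (hv : Q v = 0) (huv : QuadraticMap.polar ⇑Q u v = 0) (c : F) (g : ↥(Cfsg.isometryGroup F ⇑Q)) (hg : ((g : Matrix.GeneralLinearGroup (Fin n) F) : Matrix (Fin n) (Fin n) F) = Cfsg.siegelMatrix ⇑Q u v c) : g ∈ commutatorSet ↥(Cfsg.isometryGroup F ⇑Q) ∧ g ∈ Cfsg.Omega F ⇑Q := by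
  exact main h2 hn Q hQ u v hu hv huv c g hg

end Cfsg.Agent.S0794
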