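import Cfsg.Statements.S0795
import Cfsg.Agent.S0798
import Cfsg.Agent.S0794

set_option autoImplicit false
open Cfsg


namespace Cfsg.Agent.S0795

open Matrix
open Cfsg.Agent.S0750 (pl pl_add_left pl_add_right pl_sub_left pl_sub_right pl_smul_left
  pl_smul_right pl_comm pl_self Q_add Q_smul Q_sub pl_zero_right)
open Cfsg.Agent.S0786 (mat mat_mul mat_one mat_iso mat_pl mat_ext RQ exists_unit refl_mulVec
  refl_iso gen_refl exists_partner)
open Cfsg.Agent.S2635 (SR refl_smul S_sq)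
open Cfsg.Agent.S2609 (isSquare_mul_iff refl_mul_self)
open Cfsg.Agent.S0788 (exists_nonsq)
open Cfsg.Agent.S0794 (siegel_mulVec siegel_iso)
open Cfsg.Agent.S0798 (cons_orth exists_rep)

section
variable {F : Type*} [Field F] [Fintype F] {n : ℕ}

/-- the Siegel transformations -/
def St (Q : QuadraticForm F (Fin n → F)) : Set ↥(Cfsg.isometryGroup F ⇑Q) :=
  {g | ∃ (u v : Fin n → F) (c : F), Q u = 0 ∧ Q v = 0 ∧ QuadraticMap.polar ⇑Q u v = 0 ∧
    ((g : Matrix.GeneralLinearGroup (Fin n) F) : Matrix (Fin n) (Fin n) F) =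
      Cfsg.siegelMatrix ⇑Q u v c}

theorem conj_siegel (Q : QuadraticForm F (Fin n → F)) (g s s' : ↥(Cfsg.isometryGroup F ⇑Q))
    (u v : Fin n → F) (c : F) (hs : mat Q s = Cfsg.siegelMatrix (⇑Q) u v c)
    (hs' : mat Q s' = Cfsg.siegelMatrix (⇑Q) (mat Q g *ᵥ u) (mat Q g *ᵥ v) c) :
    g * s = s' * g := by
  apply mat_ext
  intro x
  rw [mat_mul, mat_mul, ← Matrix.mulVec_mulVec, ← Matrix.mulVec_mulVec, hs, hs', siegel_mulVec,
    siegel_mulVec, Matrix.mulVec_add, Matrix.mulVec_smul, Matrix.mulVec_sub, Matrix.mulVec_smul,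
    Matrix.mulVec_smul, mat_pl, mat_pl]

theorem T_conj (Q : QuadraticForm F (Fin n → F))
    (hQ : (QuadraticMap.polarBilin Q).Nondegenerate)
    (g h : ↥(Cfsg.isometryGroup F ⇑Q)) (hh : h ∈ Subgroup.closure (St Q)) :
    g * h * g⁻¹ ∈ Subgroup.closure (St Q) := by
  induction hh using Subgroup.closure_induction with
  | mem h hh =>
    obtain ⟨u, v, c, hu, hv, huv, hm⟩ := hh
    have huv' : pl Q u v = 0 := huv
    have hu' : Q (mat Q g *ᵥ u) = 0 := by
      rw [mat_iso]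
      exact hu
    have hv' : Q (mat Q g *ᵥ v) = 0 := by
      rw [mat_iso]
      exact hv
    have huv'' : pl Q (mat Q g *ᵥ u) (mat Q g *ᵥ v) = 0 := by
      rw [mat_pl]
      exact huv'
    obtain ⟨e, he⟩ := exists_unit Q hQ
      (Cfsg.siegelMatrix (⇑Q) (mat Q g *ᵥ u) (mat Q g *ᵥ v) c)
      (siegel_iso Q _ _ hu' hv' huv'' c)
    have h1 := conj_siegel Q g h e u v c hm he
    rw [h1, mul_inv_cancel_right]
    exact Subgroup.subset_closure ⟨_, _, c, hu', hv', huv'', he⟩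
  | one =>
    rw [mul_one, mul_inv_cancel]
    exact Subgroup.one_mem _
  | mul x y _ _ hx hy =>
    have e : g * (x * y) * g⁻¹ = (g * x * g⁻¹) * (g * y * g⁻¹) := by group
    rw [e]
    exact Subgroup.mul_mem _ hx hy
  | inv x _ hx =>
    have e : g * x⁻¹ * g⁻¹ = (g * x * g⁻¹)⁻¹ := by group
    rw [e]
    exact Subgroup.inv_mem _ hx

theorem exists_val (h2 : (2 : F) ≠ 0) (Q : QuadraticForm F (Fin n → F))
    (hQ : (QuadraticMap.polarBilin Q).Nondegenerate) {k : ℕ} (f : Fin k → Fin n → F)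
    (hf : ∀ i j, i ≠ j → pl Q (f i) (f j) = 0) (hfQ : ∀ i, Q (f i) ≠ 0) (hk : k + 2 ≤ n)
    (γ : F) : ∃ z, Q z = γ ∧ ∀ i, pl Q z (f i) = 0 := by
  obtain ⟨z1, hz1, hz1Q⟩ := Cfsg.Agent.S5357.exists_ns Q hQ h2 f hf hfQ
    (by rw [Module.finrank_fintype_fun_eq_card, Fintype.card_fin]; omega)
  have c4 := cons_orth Q f hf hfQ z1 hz1 hz1Q
  obtain ⟨z2, hz2, hz2Q⟩ := Cfsg.Agent.S5357.exists_ns Q hQ h2 _ c4.1 c4.2
    (by rw [Module.finrank_fintype_fun_eq_card, Fintype.card_fin]; omega)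
  obtain ⟨s, t, hst⟩ := exists_rep h2 (Q z1) (Q z2) γ hz1Q hz2Q
  have b0 : pl Q z2 z1 = 0 := hz2 0
  refine ⟨s • z1 + t • z2, ?_, fun i => ?_⟩
  · rw [Q_add, Q_smul, Q_smul, pl_smul_left, pl_smul_right, pl_comm Q z1 z2, b0]
    linear_combination hst
  · have b1 : pl Q z2 (f i) = 0 := hz2 i.succ
    rw [pl_add_left, pl_smul_left, pl_smul_left, hz1 i, b1]
    ring

theorem not_span (Q : QuadraticForm F (Fin n → F)) (x e : Fin n → F) (hx : Q x ≠ 0)
    (he0 : e ≠ 0) (he : Q e = 0) : e ∉ Submodule.span F ({x} : Set (Fin n → F)) := by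
  intro hmem
  obtain ⟨l, hl⟩ := Submodule.mem_span_singleton.1 hmem
  have h1 : Q e = l * l * Q x := by rw [← hl, Q_smul]
  rw [he] at h1
  have hl0 : l = 0 := by
    rcases mul_eq_zero.1 h1.symm with h | h
    · exact mul_self_eq_zero.1 h
    · exact absurd h hx
  rw [hl0, zero_smul] at hl
  exact he0 hl.symm

theorem fam3 (Q : QuadraticForm F (Fin n → F)) (x e f : Fin n → F) (hx : Q x ≠ 0)
    (he : Q e = 0) (hxe : pl Q x e = 0) (hfx : pl Q f x = 0) (hfe : pl Q f e = 1)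
    (hf : Q f = 0) :
    ∃ fam : Fin 3 → Fin n → F, (∀ i j, i ≠ j → pl Q (fam i) (fam j) = 0) ∧
      (∀ i, Q (fam i) ≠ 0) ∧ fam 0 = e - f ∧ fam 1 = e + f ∧ fam 2 = x := by
  have c1 := cons_orth Q (fun i : Fin 0 => Fin.elim0 i) (fun i => Fin.elim0 i)
    (fun i => Fin.elim0 i) x (fun i => Fin.elim0 i) hx
  have c2 := cons_orth Q _ c1.1 c1.2 (e + f) (by
    intro i
    refine Fin.cases ?_ (fun i' => Fin.elim0 i') i
    rw [Fin.cons_zero, pl_add_left, pl_comm Q e x, hxe, hfx, add_zero]) (by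
    rw [Q_add, he, hf, pl_comm, hfe]
    simp)
  have c3 := cons_orth Q _ c2.1 c2.2 (e - f) (by
    intro i
    refine Fin.cases ?_ (fun i' => ?_) i
    · rw [Fin.cons_zero, pl_sub_left, pl_add_right, pl_add_right, pl_self, pl_self, he, hf,
        hfe, pl_comm Q e f, hfe]
      ring
    · refine Fin.cases ?_ (fun i'' => Fin.elim0 i'') i'
      rw [Fin.cons_succ, Fin.cons_zero, pl_sub_left, pl_comm Q e x, hxe, hfx, sub_zero]) (by
    rw [Q_sub, he, hf, pl_comm, hfe]
    simp)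
  exact ⟨_, c3.1, c3.2, rfl, rfl, rfl⟩

theorem moveA (h2 : (2 : F) ≠ 0) (hn : 5 ≤ n) (Q : QuadraticForm F (Fin n → F))
    (hQ : (QuadraticMap.polarBilin Q).Nondegenerate) (x y : Fin n → F) (hx : Q x ≠ 0)
    (hy : Q y = Q x) (hd : Q (x - y) = 0) (hne : x ≠ y) :
    ∃ t ∈ Subgroup.closure (St Q), mat Q t *ᵥ x = y := by
  have hd0 : x - y ≠ 0 := sub_ne_zero.2 hne
  have hxd : pl Q x (x - y) = 0 := by
    have e := Q_sub Q x y
    rw [hd, hy] at e
    rw [pl_sub_right, pl_self]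
    linear_combination -e
  obtain ⟨f, hfx, hfd, hf⟩ := exists_partner Q hQ x (x - y) hd hxd (not_span Q x _ hx hd0 hd)
  obtain ⟨fam, hfam1, hfam2, h0, h1, h2'⟩ := fam3 Q x (x - y) f hx hd hxd hfx hfd hf
  obtain ⟨m, hmQ, hm⟩ := exists_val h2 Q hQ fam hfam1 hfam2 (by omega) (-(Q x))
  have a1 := hm 0
  have a2 := hm 1
  have a3 := hm 2
  rw [h0, pl_sub_right] at a1
  rw [h1, pl_add_right] at a2
  rw [h2'] at a3
  have a4 : pl Q m (x - y) = 0 := by
    have h : 2 * pl Q m (x - y) = 0 := by linear_combination a1 + a2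
    exact (mul_eq_zero.1 h).resolve_left h2
  have hv : Q (x + m) = 0 := by
    rw [Q_add, hmQ, pl_comm, a3]
    ring
  have hdv : pl Q (x - y) (x + m) = 0 := by
    rw [pl_add_right, pl_comm Q (x - y) x, hxd, pl_comm Q (x - y) m, a4, add_zero]
  have h2x : 2 * Q x ≠ 0 := mul_ne_zero h2 hx
  obtain ⟨t, ht⟩ := exists_unit Q hQ (Cfsg.siegelMatrix (⇑Q) (x - y) (x + m) (2 * Q x)⁻¹)
    (siegel_iso Q _ _ hd hv hdv _)
  refine ⟨t, Subgroup.subset_closure ⟨_, _, _, hd, hv, hdv, ht⟩, ?_⟩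
  rw [ht, siegel_mulVec, pl_comm Q (x - y) x, hxd, zero_smul, zero_sub, pl_add_left, pl_self, a3,
    add_zero, smul_neg, smul_smul]
  have e1 : (2 * Q x)⁻¹ * (Q x + Q x) = 1 := by
    field_simp
    ring
  rw [e1, one_smul]
  abel

theorem moveB (h2 : (2 : F) ≠ 0) (hn : 5 ≤ n) (Q : QuadraticForm F (Fin n → F))
    (hQ : (QuadraticMap.polarBilin Q).Nondegenerate) (x y : Fin n → F) (hx : Q x ≠ 0)
    (hy : Q y = Q x) (hnot : y ∉ Submodule.span F ({x} : Set (Fin n → F))) :
    ∃ t ∈ Subgroup.closure (St Q), mat Q t *ᵥ x = y := by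
  have hne : x ≠ y := by
    rintro rfl
    exact hnot (Submodule.mem_span_singleton_self _)
  by_cases hκ : Q (x - y) = 0
  · exact moveA h2 hn Q hQ x y hx hy hκ hne
  have h2x : 2 * Q x ≠ 0 := mul_ne_zero h2 hx
  obtain ⟨y', hy'⟩ : ∃ y', y' = y - (pl Q x y / (2 * Q x)) • x := ⟨_, rfl⟩
  have hxy' : pl Q x y' = 0 := by
    rw [hy', pl_sub_right, pl_smul_right, pl_self]
    field_simp
    ring
  have hy'not : y' ∉ Submodule.span F ({x} : Set (Fin n → F)) := by
    intro hmem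
    apply hnot
    have e : y = y' + (pl Q x y / (2 * Q x)) • x := by
      rw [hy']
      abel
    rw [e]
    exact Submodule.add_mem _ hmem
      (Submodule.smul_mem _ _ (Submodule.mem_span_singleton_self _))
  have hplyy : ∀ e0, pl Q x e0 = 0 → pl Q y e0 = pl Q y' e0 := by
    intro e0 h0
    rw [hy', pl_sub_left, pl_smul_left, h0, mul_zero, sub_zero]
  obtain ⟨e0, he0, he0x, he0y⟩ : ∃ e0, Q e0 = 0 ∧ pl Q x e0 = 0 ∧ pl Q y e0 ≠ 0 := by
    by_cases hβ : Q y' = 0
    · obtain ⟨e0, h1, h2', h3⟩ := exists_partner Q hQ x y' hβ hxy' hy'not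
      have h1' : pl Q x e0 = 0 := by
        rw [pl_comm]
        exact h1
      refine ⟨e0, h3, h1', ?_⟩
      rw [hplyy e0 h1', pl_comm, h2']
      exact one_ne_zero
    · have c1 := cons_orth Q (fun i : Fin 0 => Fin.elim0 i) (fun i => Fin.elim0 i)
        (fun i => Fin.elim0 i) x (fun i => Fin.elim0 i) hx
      have c2 := cons_orth Q _ c1.1 c1.2 y' (by
        intro i
        refine Fin.cases ?_ (fun i' => Fin.elim0 i') i
        rw [Fin.cons_zero, pl_comm]
        exact hxy') hβ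
      obtain ⟨m, hmQ, hm⟩ := exists_val h2 Q hQ _ c2.1 c2.2 (by omega) (-(Q y'))
      have a1 : pl Q m y' = 0 := hm 0
      have a2 : pl Q m x = 0 := hm 1
      have hx0 : pl Q x (y' + m) = 0 := by
        rw [pl_add_right, hxy', pl_comm Q x m, a2, add_zero]
      refine ⟨y' + m, ?_, hx0, ?_⟩
      · rw [Q_add, hmQ, pl_comm, a1]
        ring
      · rw [hplyy _ hx0, pl_add_right, pl_self, pl_comm Q y' m, a1, add_zero]
        intro h
        apply hβ
        have h' : 2 * Q y' = 0 := by linear_combination h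
        exact (mul_eq_zero.1 h').resolve_left h2
  obtain ⟨e, he, hxe, hye⟩ : ∃ e, Q e = 0 ∧ pl Q x e = 0 ∧ pl Q y e = Q (x - y) := by
    refine ⟨(Q (x - y) / pl Q y e0) • e0, ?_, ?_, ?_⟩
    · rw [Q_smul, he0, mul_zero]
    · rw [pl_smul_right, he0x, mul_zero]
    · rw [pl_smul_right]
      field_simp
  have hz : Q (x + e) = Q x := by
    rw [Q_add, he, hxe, add_zero, add_zero]
  have hxz : x ≠ x + e := by
    intro h
    have he' : e = 0 := by
      have h' : x + e = x + 0 := by rw [add_zero]; exact h.symm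
      exact add_left_cancel h'
    rw [he', pl_zero_right] at hye
    exact hκ hye.symm
  have hd1 : Q (x - (x + e)) = 0 := by
    have e1 : x - (x + e) = -e := by abel
    rw [e1, QuadraticMap.map_neg, he]
  obtain ⟨t1, ht1, ht1x⟩ := moveA h2 hn Q hQ x (x + e) hx hz hd1 hxz
  by_cases hzy : x + e = y
  · exact ⟨t1, ht1, by rw [ht1x, hzy]⟩
  · have hd2 : Q (x + e - y) = 0 := by
      rw [Q_sub, hz, hy, pl_add_left, pl_comm Q e y, hye, Q_sub, hy]
      ring
    obtain ⟨t2, ht2, ht2x⟩ := moveA h2 hn Q hQ (x + e) y (by rw [hz]; exact hx)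
      (by rw [hy, hz]) hd2 hzy
    exact ⟨t2 * t1, Subgroup.mul_mem _ ht2 ht1,
      by rw [mat_mul, ← Matrix.mulVec_mulVec, ht1x, ht2x]⟩

theorem same_T (h2 : (2 : F) ≠ 0) (hn : 5 ≤ n) (Q : QuadraticForm F (Fin n → F))
    (hQ : (QuadraticMap.polarBilin Q).Nondegenerate)
    (x y : Fin n → F) (m : F) (hm : m ≠ 0) (hxy : Q x * Q y = m ^ 2)
    (a b : ↥(Cfsg.isometryGroup F ⇑Q))
    (ha : mat Q a = Cfsg.reflectionMatrix (⇑Q) x)
    (hb : mat Q b = Cfsg.reflectionMatrix (⇑Q) y) :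
    a * b ∈ Subgroup.closure (St Q) := by
  have hm2 : m ^ 2 ≠ 0 := pow_ne_zero 2 hm
  have hx : Q x ≠ 0 := by
    intro h
    rw [h, zero_mul] at hxy
    exact hm2 hxy.symm
  have hy : Q y ≠ 0 := by
    intro h
    rw [h, mul_zero] at hxy
    exact hm2 hxy.symm
  have hlQ : Q ((Q x / m) • y) = Q x := by
    rw [Q_smul]
    field_simp
    linear_combination hxy
  have hb' : mat Q b = Cfsg.reflectionMatrix (⇑Q) ((Q x / m) • y) := by
    rw [refl_smul Q y _ (div_ne_zero hx hm) hy]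
    exact hb
  by_cases hmem : (Q x / m) • y ∈ Submodule.span F ({x} : Set (Fin n → F))
  · obtain ⟨l, hl⟩ := Submodule.mem_span_singleton.1 hmem
    have hl0 : l ≠ 0 := by
      rintro rfl
      rw [zero_smul] at hl
      rw [← hl] at hlQ
      have h0 : Q (0 : Fin n → F) = 0 := QuadraticMap.map_zero Q
      rw [h0] at hlQ
      exact hx hlQ.symm
    rw [← hl, refl_smul Q x l hl0 hx] at hb'
    have h1 : a * b = 1 := by
      apply Subtype.ext
      apply Units.ext
      show mat Q (a * b) = mat Q 1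
      rw [mat_mul, ha, hb', refl_mul_self Q x hx, mat_one]
    rw [h1]
    exact Subgroup.one_mem _
  · obtain ⟨t, ht, htx⟩ := moveB h2 hn Q hQ x _ hx hlQ hmem
    rw [← htx] at hb'
    have h1 := Cfsg.Agent.S1629.conj_refl Q t a b x ha hb'
    have hb_eq : b = t * a * t⁻¹ := by rw [h1, mul_inv_cancel_right]
    have haa : a⁻¹ = a := inv_eq_of_mul_eq_one_right (S_sq Q a ⟨x, hx, ha⟩)
    have e : a * b = (a * t * a⁻¹) * t⁻¹ := by
      rw [hb_eq, haa]
      group
    rw [e]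
    exact Subgroup.mul_mem _ (T_conj Q hQ a t ht) (Subgroup.inv_mem _ ht)

theorem exists_orth_pair (h2 : (2 : F) ≠ 0) (hn : 5 ≤ n) (Q : QuadraticForm F (Fin n → F))
    (hQ : (QuadraticMap.polarBilin Q).Nondegenerate) :
    ∃ u v : Fin n → F, Q u ≠ 0 ∧ Q v ≠ 0 ∧ IsSquare (Q u) ∧ ¬ IsSquare (Q v) ∧ pl Q u v = 0 := by
  obtain ⟨c0, hc0⟩ := exists_nonsq (F := F) h2
  have hc00 : c0 ≠ 0 := by
    rintro rfl
    exact hc0 IsSquare.zero
  obtain ⟨u, hu, -⟩ := exists_val h2 Q hQ (fun i : Fin 0 => Fin.elim0 i) (fun i => Fin.elim0 i)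
    (fun i => Fin.elim0 i) (by omega) 1
  have hu0 : Q u ≠ 0 := by
    rw [hu]
    exact one_ne_zero
  have c1 := cons_orth Q (fun i : Fin 0 => Fin.elim0 i) (fun i => Fin.elim0 i)
    (fun i => Fin.elim0 i) u (fun i => Fin.elim0 i) hu0
  obtain ⟨v, hv, hvu⟩ := exists_val h2 Q hQ _ c1.1 c1.2 (by omega) c0
  have hvu' : pl Q v u = 0 := hvu 0
  exact ⟨u, v, hu0, by rw [hv]; exact hc00, by rw [hu]; exact IsSquare.one,
    by rw [hv]; exact hc0, by rw [pl_comm]; exact hvu'⟩

end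

theorem main {F : Type*} [Field F] [Fintype F] (h2 : (2 : F) ≠ 0) {n : ℕ} (hn : 5 ≤ n) (Q : QuadraticForm F (Fin n → F)) (hQ : (QuadraticMap.polarBilin Q).Nondegenerate) : Cfsg.Omega F ⇑Q = Subgroup.closure {g : ↥(Cfsg.isometryGroup F ⇑Q) | ∃ (u v : Fin n → F) (c : F), Q u = 0 ∧ Q v = 0 ∧ QuadraticMap.polar ⇑Q u v = 0 ∧ ((g : Matrix.GeneralLinearGroup (Fin n) F) : Matrix (Fin n) (Fin n) F) = Cfsg.siegelMatrix ⇑Q u v c} := by
  have hF2 : Fintype.card F ≠ 2 := by
    intro h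
    apply h2
    have h3 := Nat.cast_card_eq_zero F
    rw [h] at h3
    exact_mod_cast h3
  have hFn : Fintype.card F ≠ 2 ∨ Fintype.card (Fin n) ≠ 4 := Or.inl hF2
  have hR := gen_refl hFn Q hQ
  show commutator ↥(Cfsg.isometryGroup F ⇑Q) = Subgroup.closure (St Q)
  apply le_antisymm
  · haveI hN : (Subgroup.closure (St Q)).Normal := ⟨fun h hh g => T_conj Q hQ g h hh⟩
    obtain ⟨u, v, hu, hv, hsu, hsv, huv⟩ := exists_orth_pair h2 hn Q hQ
    obtain ⟨a, ha⟩ := exists_unit Q hQ (Cfsg.reflectionMatrix (⇑Q) u) (refl_iso Q u hu)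
    obtain ⟨b, hb⟩ := exists_unit Q hQ (Cfsg.reflectionMatrix (⇑Q) v) (refl_iso Q v hv)
    have hcomm : a * b = b * a := by
      have hb' : mat Q b = Cfsg.reflectionMatrix (⇑Q) (mat Q a *ᵥ v) := by
        rw [ha, refl_mulVec, huv, mul_zero, zero_smul, sub_zero]
        exact hb
      exact Cfsg.Agent.S1629.conj_refl Q a b b v hb hb'
    obtain ⟨π, hπdef⟩ : ∃ π : ↥(Cfsg.isometryGroup F ⇑Q) →*
        ↥(Cfsg.isometryGroup F ⇑Q) ⧸ Subgroup.closure (St Q),
        π = QuotientGroup.mk' (Subgroup.closure (St Q)) := ⟨_, rfl⟩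
    have hker : ∀ g, g ∈ Subgroup.closure (St Q) → π g = 1 := by
      intro g hg
      rw [hπdef]
      exact (QuotientGroup.eq_one_iff g).2 hg
    have hker' : ∀ g, π g = 1 → g ∈ Subgroup.closure (St Q) := by
      intro g hg
      rw [hπdef] at hg
      exact (QuotientGroup.eq_one_iff g).1 hg
    have haa : a * a = 1 := S_sq Q a ⟨u, hu, ha⟩
    have hbb : b * b = 1 := S_sq Q b ⟨v, hv, hb⟩
    have hπ : ∀ r ∈ SR Q, π r = π a ∨ π r = π b := by
      rintro r ⟨w, hw, hr⟩
      by_cases hs : IsSquare (Q w)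
      · left
        obtain ⟨m, hm⟩ := (isSquare_mul_iff (Q w) (Q u) hw hu).2 (iff_of_true hs hsu)
        have hm0 : m ≠ 0 := by
          rintro rfl
          rw [mul_zero] at hm
          exact (mul_ne_zero hw hu) hm
        have h1 := same_T h2 hn Q hQ w u m hm0 (by rw [hm]; ring) r a hr ha
        have h3 : π (r * a) = 1 := hker _ h1
        calc π r = π (r * a * a) := by rw [mul_assoc, haa, mul_one]
          _ = π (r * a) * π a := map_mul π _ _
          _ = π a := by rw [h3, one_mul]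
      · right
        obtain ⟨m, hm⟩ := (isSquare_mul_iff (Q w) (Q v) hw hv).2 (iff_of_false hs hsv)
        have hm0 : m ≠ 0 := by
          rintro rfl
          rw [mul_zero] at hm
          exact (mul_ne_zero hw hv) hm
        have h1 := same_T h2 hn Q hQ w v m hm0 (by rw [hm]; ring) r b hr hb
        have h3 : π (r * b) = 1 := hker _ h1
        calc π r = π (r * b * b) := by rw [mul_assoc, hbb, mul_one]
          _ = π (r * b) * π b := map_mul π _ _
          _ = π b := by rw [h3, one_mul]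
    have hab : Commute (π a) (π b) := by
      show π a * π b = π b * π a
      rw [← map_mul, ← map_mul, hcomm]
    have hc1 : ∀ r ∈ SR Q, ∀ s ∈ SR Q, Commute (π r) (π s) := by
      intro r hr s hs
      rcases hπ r hr with h | h
      · rcases hπ s hs with h' | h'
        · rw [h, h']
        · rw [h, h']
          exact hab
      · rcases hπ s hs with h' | h'
        · rw [h, h']
          exact hab.symm
        · rw [h, h']
    have hc2 : ∀ r ∈ SR Q, ∀ g, Commute (π r) (π g) := by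
      intro r hr g
      have hg : g ∈ Subgroup.closure (SR Q) := by
        have hR' : Subgroup.closure (SR Q) = ⊤ := hR
        rw [hR']
        exact Subgroup.mem_top g
      induction hg using Subgroup.closure_induction with
      | mem s hs => exact hc1 r hr s hs
      | one =>
        rw [map_one]
        exact Commute.one_right _
      | mul x y _ _ hx hy =>
        rw [map_mul]
        exact hx.mul_right hy
      | inv x _ hx =>
        rw [map_inv]
        exact hx.inv_right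
    have hc3 : ∀ g h, Commute (π g) (π h) := by
      intro g h
      have hg : g ∈ Subgroup.closure (SR Q) := by
        have hR' : Subgroup.closure (SR Q) = ⊤ := hR
        rw [hR']
        exact Subgroup.mem_top g
      induction hg using Subgroup.closure_induction with
      | mem s hs => exact hc2 s hs h
      | one =>
        rw [map_one]
        exact Commute.one_left _
      | mul x y _ _ hx hy =>
        rw [map_mul]
        exact hx.mul_left hy
      | inv x _ hx =>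
        rw [map_inv]
        exact hx.inv_left
    rw [commutator_def, Subgroup.commutator_le]
    intro x _ y _
    apply hker'
    rw [map_commutatorElement, commutatorElement_eq_one_iff_commute]
    exact hc3 x y
  · rw [Subgroup.closure_le]
    rintro g ⟨u, v, c, hu, hv, huv, hg⟩
    exact (Cfsg.Agent.S0794.main h2 hn Q hQ u v hu hv huv c g hg).2

theorem result {F : Type*} [Field F] [Fintype F] (h2 : (2 : F) ≠ 0) {n : ℕ} (hn : 5 ≤ n) (Q : QuadraticForm F (Fin n → F)) (hQ : (QuadraticMap.polarBilin Q).Nondegenerate) : Cfsg.Omega F ⇑Q = Subgroup.closure {g : ↥(Cfsg.isometryGroup F ⇑Q) | ∃ (u v : Fin n → F) (c : F), Q u = 0 ∧ Q v = 0 ∧ QuadraticMap.polar ⇑Q u v = 0 ∧ ((g : Matrix.GeneralLinearGroup (Fin n) F) : Matrix (Fin n) (Fin n) F) = Cfsg.siegelMatrix ⇑Q u v c} := by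
  exact main h2 hn Q hQ

end Cfsg.Agent.S0795
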