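import Mathlib
import Cfsg.Agent.Lib.Helper2.Fit
import Cfsg.Agent.Lib.Helper2.CoprimeAct2
import Cfsg.Statements.S0796

set_option autoImplicit false
open Cfsg
open Cfsg.Agent.Lib.Helper2

namespace Cfsg.Agent.S0796

/-- If G is finite and acts faithfully and primitively on X, H is the stabiliser of a point, A is a normal subgroup of H whose normal closure in G is G, then for every non-trivial normal subgroup K of G the quotient G ⧸ K is isomorphic to A ⧸ B for some normal subgroup B of A. -/
theorem result {G X : Type*} [Group G] [Finite G] [MulAction G X] [FaithfulSMul G X] (hprim : MulAction.IsPreprimitive G X) (x : X) (A : Subgroup G) (hA : A ≤ MulAction.stabilizer G x) (hAn : (A.subgroupOf (MulAction.stabilizer G x)).Normal) (hgen : Subgroup.normalClosure (A : Set G) = ⊤) (K : Subgroup G) [K.Normal] (hK : K ≠ ⊥) : ∃ (B : Subgroup A) (_ : B.Normal), Nonempty (G ⧸ K ≃* A ⧸ B) := by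
  classical
  obtain ⟨k₀, hk₀, hk₀1⟩ : ∃ k ∈ K, k ≠ 1 := by
    by_contra hcon
    push Not at hcon
    exact hK (eq_bot_iff.2 (fun m hm => Subgroup.mem_bot.2 (hcon m hm)))
  haveI := hprim
  haveI hnt : Nontrivial X := by
    by_contra hcon
    rw [not_nontrivial_iff_subsingleton] at hcon
    apply hk₀1
    apply FaithfulSMul.eq_of_smul_eq_smul (α := X)
    intro y
    exact Subsingleton.elim _ _
  have hco : IsCoatom (MulAction.stabilizer G x) :=
    MulAction.IsPreprimitive.isCoatom_stabilizer_of_isPreprimitive (G := G) x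
  have hKH : ¬ K ≤ MulAction.stabilizer G x := by
    intro hle
    apply hk₀1
    apply FaithfulSMul.eq_of_smul_eq_smul (α := X)
    intro y
    obtain ⟨g, rfl⟩ := MulAction.exists_smul_eq G x y
    have h1 : g⁻¹ * k₀ * g ∈ K := by
      have := ‹K.Normal›.conj_mem k₀ hk₀ g⁻¹
      rwa [inv_inv] at this
    have h2 := hle h1
    rw [MulAction.mem_stabilizer_iff, mul_smul, mul_smul, inv_smul_eq_iff] at h2
    rw [h2, one_smul]
  have htop : K ⊔ MulAction.stabilizer G x = ⊤ := by
    by_contra hcon
    have h2 : MulAction.stabilizer G x < K ⊔ MulAction.stabilizer G x := by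
      refine lt_of_le_of_ne le_sup_right ?_
      intro h
      apply hKH
      rw [h]
      exact le_sup_left
    exact hcon (hco.2 _ h2)
  have hKn : ∀ g : G, g ∈ Subgroup.normalizer (K : Set G) := by
    intro g
    rw [Subgroup.normalizer_eq_top_iff.2 inferInstance]
    trivial
  have hMn : (K ⊔ A).Normal := by
    rw [← Subgroup.normalizer_eq_top_iff, eq_top_iff, ← htop]
    apply sup_le
    · exact le_sup_left.trans Subgroup.le_normalizer
    · intro h hh
      apply Fit.normalizer_sup_mem (hKn h)
      rw [Subgroup.mem_normalizer_iff]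
      intro a
      have hn := (Subgroup.normal_subgroupOf_iff_le_normalizer hA).1 hAn
      exact Subgroup.mem_normalizer_iff.1 (hn hh) a
  have hMtop : K ⊔ A = ⊤ := by
    rw [eq_top_iff, ← hgen]
    exact Subgroup.normalClosure_le_normal (fun a ha => (le_sup_right : A ≤ K ⊔ A) ha)
  let φ : A →* G ⧸ K := (QuotientGroup.mk' K).comp A.subtype
  have hsurj : Function.Surjective φ := by
    intro q
    obtain ⟨g, rfl⟩ := QuotientGroup.mk'_surjective K q
    have hg : g ∈ K ⊔ A := by rw [hMtop]; trivial
    obtain ⟨k, hk, a, ha, rfl⟩ := CoprimeAct.mem_sup_of_le_normalizer K A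
      (fun a _ => hKn a) hg
    refine ⟨⟨a, ha⟩, ?_⟩
    show (QuotientGroup.mk' K) a = (QuotientGroup.mk' K) (k * a)
    rw [QuotientGroup.mk'_apply, QuotientGroup.mk'_apply, QuotientGroup.eq]
    have := ‹K.Normal›.conj_mem k hk a⁻¹
    rw [inv_inv, mul_assoc] at this
    exact this
  exact ⟨φ.ker, inferInstance, ⟨(QuotientGroup.quotientKerEquivOfSurjective φ hsurj).symm⟩⟩

end Cfsg.Agent.S0796
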