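import Mathlib
import Cfsg.Agent.Lib.Helper2.PSL34c
import Cfsg.Statements.S0819

set_option autoImplicit false
open Cfsg
open Cfsg.Agent.Lib.Helper2

namespace Cfsg.Agent.S0819

/-- No element of PSL_3(4) has order 15. -/
theorem result {F : Type*} [Field F] [Fintype F] (hF : Fintype.card F = 4) (g : Matrix.ProjectiveSpecialLinearGroup (Fin 3) F) : orderOf g ≠ 15 := by
  exact PSL34.no15 hF g

end Cfsg.Agent.S0819
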