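import Cfsg.Statements.S2394
import Cfsg.Agent.Lib.Helper1.SympO

set_option autoImplicit false
open scoped MatrixGroups
open Cfsg


namespace Cfsg.Agent.S2394

theorem gl_formula (q d : ℕ) :
    ∏ i : Fin d, (q ^ d - q ^ (i : ℕ)) =
      q ^ (∑ i ∈ Finset.range d, i) * ∏ i ∈ Finset.range d, (q ^ (i + 1) - 1) := by
  rw [Fin.prod_univ_eq_prod_range (fun i => q ^ d - q ^ i) d]
  have h1 : ∀ i ∈ Finset.range d, q ^ d - q ^ i = q ^ i * (q ^ (d - 1 - i + 1) - 1) := by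
    intro i hi
    have hi' := Finset.mem_range.mp hi
    have e : d - 1 - i + 1 = d - i := by omega
    rw [e, Nat.mul_sub, mul_one, ← pow_add]
    congr 2
    omega
  rw [Finset.prod_congr rfl h1, Finset.prod_mul_distrib, Finset.prod_pow_eq_pow_sum,
    Finset.prod_range_reflect (fun j => q ^ (j + 1) - 1) d]

theorem P_split (q : ℕ) (n : ℕ) :
    ∏ i ∈ Finset.range (2 * n + 1), (q ^ (i + 1) - 1) =
      (∏ j ∈ Finset.range n, (q ^ (2 * (j + 1)) - 1)) * ∏ j ∈ Finset.range (n + 1), (q ^ (2 * j + 1) - 1) := by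
  induction n with
  | zero => simp
  | succ n ih =>
    have e : 2 * (n + 1) + 1 = 2 * n + 1 + 1 + 1 := by ring
    rw [e, Finset.prod_range_succ, Finset.prod_range_succ, ih]
    rw [Finset.prod_range_succ (fun j => q ^ (2 * (j + 1)) - 1) n,
      Finset.prod_range_succ (fun j => q ^ (2 * j + 1) - 1) (n + 1)]
    have e1 : 2 * n + 1 + 1 = 2 * (n + 1) := by ring
    have e2 : 2 * n + 1 + 1 + 1 = 2 * (n + 1) + 1 := by ring
    rw [e2, e1]
    ring

theorem lemL {ι : Type*} [DecidableEq ι] (m : ℕ) (x : ι → ℕ) (S : Finset ι) :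
    ∀ c : ℕ, (∀ i ∈ S, Nat.gcd m (x i) ∣ 2) → m ∣ c * ∏ i ∈ S, x i → m ∣ c * 2 ^ S.card := by
  induction S using Finset.induction_on with
  | empty => intro c _ h; simpa using h
  | insert a S ha ih =>
    intro c hx h
    rw [Finset.prod_insert ha, ← mul_assoc] at h
    have h1 := ih (c * x a) (fun i hi => hx i (Finset.mem_insert_of_mem hi)) h
    have h2 : m ∣ Nat.gcd (m * (c * 2 ^ S.card)) (x a * (c * 2 ^ S.card)) :=
      Nat.dvd_gcd (dvd_mul_right _ _) (by rw [show x a * (c * 2 ^ S.card) = c * x a * 2 ^ S.card by ring]; exact h1)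
    rw [Nat.gcd_mul_right] at h2
    have h3 := hx a (Finset.mem_insert_self a S)
    rw [Finset.card_insert_of_notMem ha]
    calc m ∣ Nat.gcd m (x a) * (c * 2 ^ S.card) := h2
      _ ∣ 2 * (c * 2 ^ S.card) := Nat.mul_dvd_mul_right h3 _
      _ = c * 2 ^ (S.card + 1) := by ring

theorem gcd_two (q n j : ℕ) (hq : 1 ≤ q) : Nat.gcd (q ^ n + 1) (q ^ (2 * j + 1) - 1) ∣ 2 := by
  obtain ⟨g, hg⟩ : ∃ g, g = Nat.gcd (q ^ n + 1) (q ^ (2 * j + 1) - 1) := ⟨_, rfl⟩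
  rw [← hg]
  have h1 : g ∣ q ^ n + 1 := by rw [hg]; exact Nat.gcd_dvd_left _ _
  have h2 : g ∣ q ^ (2 * j + 1) - 1 := by rw [hg]; exact Nat.gcd_dvd_right _ _
  have e1 : (q : ZMod g) ^ n = -1 := by
    have := (ZMod.natCast_eq_zero_iff _ g).mpr h1
    push_cast at this
    exact eq_neg_of_add_eq_zero_left this
  have e2 : (q : ZMod g) ^ (2 * j + 1) = 1 := by
    have := (ZMod.natCast_eq_zero_iff _ g).mpr h2
    rw [Nat.cast_sub (Nat.one_le_pow _ _ hq)] at this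
    push_cast at this
    exact sub_eq_zero.mp this
  have e3 : (1 : ZMod g) = -1 := by
    calc (1 : ZMod g) = ((q : ZMod g) ^ (2 * j + 1)) ^ n := by rw [e2, one_pow]
      _ = ((q : ZMod g) ^ n) ^ (2 * j + 1) := by rw [← pow_mul, ← pow_mul, mul_comm]
      _ = -1 := by rw [e1]; exact Odd.neg_one_pow ⟨j, rfl⟩
  have e4 : ((2 : ℕ) : ZMod g) = 0 := by
    push_cast
    linear_combination e3
  exact (ZMod.natCast_eq_zero_iff 2 g).mp e4

theorem arith (q n d : ℕ) (hq : 2 ≤ q) (hn : 1 ≤ n) (hd : d + 1 ≤ 2 * n)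
    (h : q ^ (n ^ 2) * ∏ i ∈ Finset.range n, (q ^ (2 * (i + 1)) - 1) ∣
      ∏ i : Fin d, (q ^ d - q ^ (i : ℕ))) : False := by
  obtain ⟨n', rfl⟩ : ∃ n', n = n' + 1 := ⟨n - 1, by omega⟩
  rw [gl_formula, Finset.prod_range_succ] at h
  obtain ⟨A, hA⟩ : ∃ A, A = ∏ j ∈ Finset.range n', (q ^ (2 * (j + 1)) - 1) := ⟨_, rfl⟩
  rw [← hA] at h
  have hApos : 0 < A := by
    rw [hA]
    apply Finset.prod_pos
    intro j _
    have : 2 ≤ q ^ (2 * (j + 1)) := by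
      calc 2 ≤ q := hq
        _ = q ^ 1 := (pow_one q).symm
        _ ≤ q ^ (2 * (j + 1)) := Nat.pow_le_pow_right (by omega) (by omega)
    omega
  -- q^n + 1 divides q^(2n) - 1
  have hfac : q ^ (n' + 1) + 1 ∣ q ^ (2 * (n' + 1)) - 1 := by
    have e : q ^ (2 * (n' + 1)) - 1 = (q ^ (n' + 1) + 1) * (q ^ (n' + 1) - 1) := by
      have h1 : 1 ≤ q ^ (n' + 1) := Nat.one_le_pow _ _ (by omega)
      obtain ⟨y, hy⟩ : ∃ y, q ^ (n' + 1) = y + 1 := ⟨q ^ (n' + 1) - 1, by omega⟩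
      rw [mul_comm 2, pow_mul, hy]
      simp only [Nat.add_sub_cancel]
      have : (y + 1) ^ 2 = (y + 1 + 1) * y + 1 := by ring
      rw [this, Nat.add_sub_cancel]
    rw [e]
    exact dvd_mul_right _ _
  have hP : ∏ i ∈ Finset.range d, (q ^ (i + 1) - 1) ∣
      ∏ i ∈ Finset.range (2 * n' + 1), (q ^ (i + 1) - 1) :=
    Finset.prod_dvd_prod_of_subset _ _ _ (Finset.range_subset_range.mpr (by omega))
  rw [P_split, ← hA] at hP
  obtain ⟨O, hO⟩ : ∃ O, O = ∏ j ∈ Finset.range (n' + 1), (q ^ (2 * j + 1) - 1) := ⟨_, rfl⟩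
  rw [← hO] at hP
  have h1 : (q ^ (n' + 1) + 1) * A ∣ q ^ (∑ i ∈ Finset.range d, i) * O * A := by
    calc (q ^ (n' + 1) + 1) * A ∣ (q ^ (2 * (n' + 1)) - 1) * A := Nat.mul_dvd_mul_right hfac _
      _ ∣ q ^ ((n' + 1) ^ 2) * (A * (q ^ (2 * (n' + 1)) - 1)) := ⟨q ^ ((n' + 1) ^ 2), by ring⟩
      _ ∣ q ^ (∑ i ∈ Finset.range d, i) * ∏ i ∈ Finset.range d, (q ^ (i + 1) - 1) := h
      _ ∣ q ^ (∑ i ∈ Finset.range d, i) * (A * O) := Nat.mul_dvd_mul_left _ hP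
      _ = q ^ (∑ i ∈ Finset.range d, i) * O * A := by ring
  have h2 : q ^ (n' + 1) + 1 ∣ q ^ (∑ i ∈ Finset.range d, i) * O :=
    Nat.dvd_of_mul_dvd_mul_right hApos h1
  have hcop : Nat.Coprime (q ^ (n' + 1) + 1) (q ^ (∑ i ∈ Finset.range d, i)) := by
    apply Nat.Coprime.pow_right
    rw [Nat.coprime_iff_gcd_eq_one]
    apply Nat.eq_one_of_dvd_one
    have g1 := Nat.gcd_dvd_left (q ^ (n' + 1) + 1) q
    have g2 := Nat.gcd_dvd_right (q ^ (n' + 1) + 1) q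
    have g3 : Nat.gcd (q ^ (n' + 1) + 1) q ∣ q ^ (n' + 1) := dvd_trans g2 (dvd_pow_self q (by omega))
    exact (Nat.dvd_add_right g3).mp g1
  have h3 : q ^ (n' + 1) + 1 ∣ O := hcop.dvd_of_dvd_mul_left h2
  have h4 : q ^ (n' + 1) + 1 ∣ 1 * 2 ^ (Finset.range (n' + 1)).card := by
    apply lemL (q ^ (n' + 1) + 1) (fun j => q ^ (2 * j + 1) - 1) (Finset.range (n' + 1)) 1
    · intro j _
      exact gcd_two q (n' + 1) j (by omega)
    · rw [one_mul, ← hO]; exact h3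
  rw [one_mul, Finset.card_range] at h4
  have h5 := Nat.le_of_dvd (by positivity) h4
  have h6 : 2 ^ (n' + 1) ≤ q ^ (n' + 1) := Nat.pow_le_pow_left hq _
  omega

theorem main {F : Type*} [Field F] [Fintype F] (n : ℕ) {d : ℕ}
    (ρ : ↥(Matrix.symplecticGroup (Fin n) F) →* GL (Fin d) F) (hρ : Function.Injective ρ) : 2 * n ≤ d := by
  classical
  by_contra hlt
  have hdvd := Subgroup.card_dvd_of_injective ρ hρ
  rw [Cfsg.Agent.Lib.Helper1.Symp.card_sp, Matrix.card_GL_field] at hdvd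
  exact arith (Fintype.card F) n d Fintype.one_lt_card (by omega) (by omega) hdvd

theorem result {F : Type*} [Field F] [Fintype F] (n : ℕ) {d : ℕ}
    (ρ : ↥(Matrix.symplecticGroup (Fin n) F) →* GL (Fin d) F) (hρ : Function.Injective ρ) : 2 * n ≤ d := by
  exact main n ρ hρ

end Cfsg.Agent.S2394
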