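import Cfsg.Statements.S2364
import Cfsg.Agent.Lib.Helper1.GLn
import Cfsg.Agent.S2394

set_option autoImplicit false
open Cfsg


namespace Cfsg.Agent.S2364

open Polynomial

noncomputable def Phi (F : Type*) [Field F] (r : ℕ) : F[X] := ∑ i ∈ Finset.range r, X ^ i

theorem Phi_mul (F : Type*) [Field F] (r : ℕ) : (X - 1) * Phi F r = X ^ r - 1 :=
  mul_geom_sum X r

theorem lemN {F : Type*} [Field F] [Fintype F] (p : ℕ) [Fact p.Prime] [CharP F p] (r : ℕ)
    (hr : r.Prime) (hrp : r ≠ p) (N : ℕ)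
    (hrq : ∀ k, 1 ≤ k → k ≤ N → ¬ r ∣ (Fintype.card F) ^ k - 1)
    (g : F[X]) (hg : Irreducible g) (hgΦ : g ∣ Phi F r) (hdeg : g.natDegree ≤ N) : False := by
  classical
  haveI : Fact (Irreducible g) := ⟨hg⟩
  have hg0 : g ≠ 0 := hg.ne_zero
  obtain ⟨x, hx⟩ : ∃ x : AdjoinRoot g, x = AdjoinRoot.root g := ⟨_, rfl⟩
  have hΦx : aeval x (Phi F r) = 0 := by
    rw [hx, AdjoinRoot.aeval_eq, AdjoinRoot.mk_eq_zero]; exact hgΦ
  have hxr : x ^ r = 1 := by
    have := congrArg (aeval x) (Phi_mul F r)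
    rw [map_mul, hΦx, mul_zero] at this
    simp at this
    exact (sub_eq_zero.mp this.symm)
  have hrF : (r : F) ≠ 0 := by
    intro h0
    have := (CharP.cast_eq_zero_iff F p r).mp h0
    exact hrp ((Nat.prime_dvd_prime_iff_eq (Fact.out) hr).mp this).symm
  have hx1 : x ≠ 1 := by
    intro h
    rw [h] at hΦx
    simp [Phi] at hΦx
    apply hrF
    apply (algebraMap F (AdjoinRoot g)).injective
    simpa using hΦx
  have ho : orderOf x = r := by
    haveI := Fact.mk hr
    exact orderOf_eq_prime hxr hx1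
  haveI : Module.Finite F (AdjoinRoot g) := (AdjoinRoot.powerBasis hg0).finite
  haveI : Finite (AdjoinRoot g) := Module.finite_of_finite F
  haveI : Fintype (AdjoinRoot g) := Fintype.ofFinite _
  have hcard : Fintype.card (AdjoinRoot g) = Fintype.card F ^ g.natDegree := by
    rw [Module.card_eq_pow_finrank (K := F) (V := AdjoinRoot g), (AdjoinRoot.powerBasis hg0).finrank]
    rfl
  have hx0 : x ≠ 0 := by
    intro h
    rw [h, zero_pow hr.ne_zero] at hxr
    exact zero_ne_one hxr
  have h1 := FiniteField.pow_card_sub_one_eq_one x hx0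
  rw [hcard] at h1
  have := orderOf_dvd_of_pow_eq_one h1
  rw [ho] at this
  exact hrq g.natDegree (Irreducible.natDegree_pos hg) hdeg this

theorem comm_aeval {F : Type*} [Field F] {V : Type*} [AddCommGroup V] [Module F V]
    (β μ : Module.End F V) (h : μ * β = β * μ) (f : F[X]) :
    μ * aeval β f = aeval β f * μ := by
  induction f using Polynomial.induction_on' with
  | add p q hp hq => rw [map_add, mul_add, add_mul, hp, hq]
  | monomial k a =>
    rw [aeval_monomial]
    have hk : μ * β ^ k = β ^ k * μ := (Commute.pow_right (show Commute μ β from h) k).eq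
    rw [← mul_assoc, ← Algebra.commutes, mul_assoc, hk, mul_assoc]

theorem comm_aeval_apply {F : Type*} [Field F] {V : Type*} [AddCommGroup V] [Module F V]
    (β μ : Module.End F V) (h : μ * β = β * μ) (f : F[X]) (v : V) :
    μ (aeval β f v) = aeval β f (μ v) := by
  have := congrArg (fun g : Module.End F V => g v) (comm_aeval β μ h f)
  exact this

theorem lemA {F : Type*} [Field F] [Fintype F] (p : ℕ) [Fact p.Prime] [CharP F p] (r : ℕ)
    (hr : r.Prime) (hrp : r ≠ p) (N : ℕ)
    (hrq : ∀ k, 1 ≤ k → k ≤ N → ¬ r ∣ (Fintype.card F) ^ k - 1)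
    {V : Type*} [AddCommGroup V] [Module F V] [FiniteDimensional F V] (β : Module.End F V)
    (W : Submodule F V) (hW : ∀ w ∈ W, β w ∈ W) (v : V) (hvW : v ∈ W) (hv0 : v ≠ 0)
    (hΦ : aeval β (Phi F r) v = 0) : N + 1 ≤ Module.finrank F W := by
  classical
  have hpow : ∀ i : ℕ, (β ^ i) v ∈ W := by
    intro i
    induction i with
    | zero => simpa using hvW
    | succ i ih =>
      rw [pow_succ', Module.End.mul_apply]
      exact hW _ ih
  have hli : LinearIndependent F (fun i : Fin (N + 1) => (⟨(β ^ (i : ℕ)) v, hpow i⟩ : W)) := by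
    rw [Fintype.linearIndependent_iff]
    intro c hc
    have hc' : ∑ i : Fin (N + 1), c i • (β ^ (i : ℕ)) v = 0 := by
      have := congrArg Subtype.val hc
      simpa using this
    obtain ⟨h, hh⟩ : ∃ h : F[X], h = ∑ i : Fin (N + 1), C (c i) * X ^ (i : ℕ) := ⟨_, rfl⟩
    have hhv : aeval β h v = 0 := by
      rw [hh, map_sum, LinearMap.sum_apply]
      rw [← hc']
      apply Finset.sum_congr rfl
      intro i _
      rw [map_mul, aeval_C, map_pow, aeval_X, Module.End.mul_apply]
      simp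
    have hcoeff : ∀ i : Fin (N + 1), h.coeff (i : ℕ) = c i := by
      intro i
      rw [hh, finset_sum_coeff]
      rw [Finset.sum_eq_single i]
      · simp
      · intro j _ hji
        rw [coeff_C_mul, coeff_X_pow]
        have : (i : ℕ) ≠ (j : ℕ) := fun e => hji (Fin.ext e.symm)
        simp [this]
      · intro hi; exact absurd (Finset.mem_univ _) hi
    by_contra hne
    push_neg at hne
    obtain ⟨i₀, hi₀⟩ := hne
    have hh0 : h ≠ 0 := by
      intro e
      apply hi₀
      rw [← hcoeff i₀, e, coeff_zero]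
    have hdeg : h.natDegree ≤ N := by
      rw [hh]
      apply natDegree_sum_le_of_forall_le
      intro i _
      refine le_trans (natDegree_C_mul_X_pow_le _ _) ?_
      have := i.isLt
      omega
    obtain ⟨d, hd⟩ : ∃ d, d = EuclideanDomain.gcd h (Phi F r) := ⟨_, rfl⟩
    have hdv : aeval β d v = 0 := by
      rw [hd, EuclideanDomain.gcd_eq_gcd_ab, map_add, LinearMap.add_apply]
      rw [mul_comm h, mul_comm (Phi F r), map_mul, map_mul, Module.End.mul_apply,
        Module.End.mul_apply, hhv, hΦ, map_zero, map_zero, add_zero]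
    have hd0 : d ≠ 0 := by
      intro e
      rw [hd, EuclideanDomain.gcd_eq_zero_iff] at e
      exact hh0 e.1
    have hdu : ¬ IsUnit d := by
      intro hu
      obtain ⟨c', hc'u, hc'⟩ := Polynomial.isUnit_iff.mp hu
      rw [← hc', aeval_C] at hdv
      have : c' • v = 0 := by simpa using hdv
      rcases smul_eq_zero.mp this with h0 | h0
      · exact hc'u.ne_zero h0
      · exact hv0 h0
    obtain ⟨g, hg, hgd⟩ := WfDvdMonoid.exists_irreducible_factor hdu hd0
    have hgh : g ∣ h := dvd_trans hgd (by rw [hd]; exact EuclideanDomain.gcd_dvd_left h _)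
    have hgΦ : g ∣ Phi F r := dvd_trans hgd (by rw [hd]; exact EuclideanDomain.gcd_dvd_right h _)
    exact lemN p r hr hrp N hrq g hg hgΦ (le_trans (natDegree_le_of_dvd hgh hh0) hdeg)
  have := hli.fintype_card_le_finrank
  simpa using this

theorem lin_contra {F : Type*} [Field F] [Fintype F] (p : ℕ) [Fact p.Prime] [CharP F p] (n : ℕ)
    (hn : 3 ≤ n) (r : ℕ) (hr : r.Prime) (hrp : r ≠ p)
    (hrq : ∀ k, 1 ≤ k → k ≤ n - 2 → ¬ r ∣ (Fintype.card F) ^ k - 1)
    (A B : Matrix (Fin n) (Fin n) F) (hA : A ^ p = 1) (hA1 : A ≠ 1) (hB : B ^ r = 1) (hB1 : B ≠ 1)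
    (hAB : A * B = B * A) : False := by
  classical
  haveI : Nonempty (Fin n) := ⟨⟨0, by omega⟩⟩
  obtain ⟨β, hβ⟩ : ∃ β : Module.End F (Fin n → F), β = Matrix.toLinAlgEquiv' B := ⟨_, rfl⟩
  obtain ⟨μ, hμ⟩ : ∃ μ : Module.End F (Fin n → F), μ = Matrix.toLinAlgEquiv' (A - 1) := ⟨_, rfl⟩
  have hβr : β ^ r = 1 := by rw [hβ, ← map_pow, hB, map_one]
  have hμp : μ ^ p = 0 := by
    rw [hμ, ← map_pow]
    have : (A - 1) ^ p = 0 := by
      rw [sub_pow_char_of_commute p (Commute.one_right A), hA, one_pow, sub_self]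
    rw [this, map_zero]
  have hμ0 : μ ≠ 0 := by
    rw [hμ]
    intro h
    apply hA1
    have := (Matrix.toLinAlgEquiv' (R := F) (n := Fin n)).injective (h.trans (map_zero _).symm)
    exact sub_eq_zero.mp this
  have hβ1 : β ≠ 1 := by
    rw [hβ]
    intro h
    apply hB1
    exact (Matrix.toLinAlgEquiv' (R := F) (n := Fin n)).injective (h.trans (map_one _).symm)
  have hcomm : μ * β = β * μ := by
    rw [hμ, hβ, ← map_mul, ← map_mul]
    congr 1
    rw [sub_mul, mul_sub, hAB, one_mul, mul_one]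
  have hrF : (r : F) ≠ 0 := by
    intro h0
    have := (CharP.cast_eq_zero_iff F p r).mp h0
    exact hrp ((Nat.prime_dvd_prime_iff_eq (Fact.out) hr).mp this).symm
  have hcop : IsCoprime (X - 1 : F[X]) (Phi F r) := by
    have e : (X - 1 : F[X]) = X - C 1 := by simp
    rw [e]
    apply (irreducible_X_sub_C (1 : F)).coprime_iff_not_dvd.mpr
    rw [dvd_iff_isRoot]
    intro hroot
    apply hrF
    have : (Phi F r).eval 1 = 0 := hroot
    simpa [Phi, eval_finset_sum] using this
  have hsup : LinearMap.ker (aeval β (X - 1 : F[X])) ⊔ LinearMap.ker (aeval β (Phi F r)) = ⊤ := by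
    rw [Polynomial.sup_ker_aeval_eq_ker_aeval_mul_of_coprime β hcop, Phi_mul]
    simp [hβr]
  have hdisj := Polynomial.disjoint_ker_aeval_of_isCoprime β hcop
  obtain ⟨V₁, hV₁⟩ : ∃ V₁, V₁ = LinearMap.ker (aeval β (X - 1 : F[X])) := ⟨_, rfl⟩
  obtain ⟨V₂, hV₂⟩ : ∃ V₂, V₂ = LinearMap.ker (aeval β (Phi F r)) := ⟨_, rfl⟩
  rw [← hV₁, ← hV₂] at hsup hdisj
  have hmem₂ : ∀ v, v ∈ V₂ ↔ aeval β (Phi F r) v = 0 := by
    intro v; rw [hV₂, LinearMap.mem_ker]
  have hmem₁ : ∀ v, v ∈ V₁ ↔ aeval β (X - 1 : F[X]) v = 0 := by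
    intro v; rw [hV₁, LinearMap.mem_ker]
  have hβV₂ : ∀ w ∈ V₂, β w ∈ V₂ := by
    intro w hw
    rw [hmem₂] at hw ⊢
    rw [← comm_aeval_apply β β rfl, hw, map_zero]
  have hμV₂ : ∀ w ∈ V₂, μ w ∈ V₂ := by
    intro w hw
    rw [hmem₂] at hw ⊢
    rw [← comm_aeval_apply β μ hcomm, hw, map_zero]
  have hμV₁ : ∀ w ∈ V₁, μ w ∈ V₁ := by
    intro w hw
    rw [hmem₁] at hw ⊢
    rw [← comm_aeval_apply β μ hcomm, hw, map_zero]
  have hfr : Module.finrank F (Fin n → F) = n := by simp
  have hN : n - 2 + 1 = n - 1 := by omega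
  -- V₂ nonzero
  have hV₂ne : ∃ v ∈ V₂, v ≠ 0 := by
    by_contra hcon
    push_neg at hcon
    apply hβ1
    apply LinearMap.ext
    intro v
    have hv : v ∈ V₁ ⊔ V₂ := by rw [hsup]; trivial
    obtain ⟨v₁, hv₁, v₂, hv₂, rfl⟩ := Submodule.mem_sup.mp hv
    rw [hcon v₂ hv₂, add_zero]
    rw [hmem₁] at hv₁
    have : β v₁ - v₁ = 0 := by simpa using hv₁
    rw [Module.End.one_apply]
    exact sub_eq_zero.mp this
  obtain ⟨u₀, hu₀, hu₀ne⟩ := hV₂ne
  have hdim₂ : n - 1 ≤ Module.finrank F V₂ := by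
    rw [← hN]
    exact lemA p r hr hrp (n - 2) hrq β V₂ hβV₂ u₀ hu₀ hu₀ne ((hmem₂ u₀).mp hu₀)
  have hdim₁ : Module.finrank F V₁ ≤ 1 := by
    have := Submodule.finrank_add_finrank_le_of_disjoint hdisj
    rw [hfr] at this
    omega
  -- μ = 0 on V₁
  have hμ1 : ∀ v ∈ V₁, μ v = 0 := by
    intro v hv
    by_cases hv0 : v = 0
    · rw [hv0, map_zero]
    · obtain ⟨u, hu⟩ := finrank_le_one_iff.mp hdim₁
      obtain ⟨a, ha⟩ := hu ⟨v, hv⟩
      obtain ⟨b, hb⟩ := hu ⟨μ v, hμV₁ v hv⟩
      have ha' : a • (u : Fin n → F) = v := congrArg Subtype.val ha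
      have hb' : b • (u : Fin n → F) = μ v := congrArg Subtype.val hb
      have ha0 : a ≠ 0 := by
        intro h
        rw [h, zero_smul] at ha'
        exact hv0 ha'.symm
      have hc : μ v = (b / a) • v := by
        rw [← hb', ← ha', smul_smul]
        congr 1
        field_simp
      have hpow : ∀ k : ℕ, (μ ^ k) v = (b / a) ^ k • v := by
        intro k
        induction k with
        | zero => simp
        | succ k ih =>
          rw [pow_succ, Module.End.mul_apply, hc, map_smul, ih, smul_smul, pow_succ]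
          congr 1
          ring
      have h0 := hpow p
      rw [hμp, LinearMap.zero_apply] at h0
      rcases smul_eq_zero.mp h0.symm with h1 | h1
      · have : b / a = 0 := (pow_eq_zero_iff (Fact.out : p.Prime).ne_zero).mp h1
        rw [hc, this, zero_smul]
      · exact absurd h1 hv0
  -- μ = 0 on V₂
  have hμ2 : ∀ v ∈ V₂, μ v = 0 := by
    intro v hv
    by_contra hne
    have hv0 : v ≠ 0 := by
      intro h
      rw [h, map_zero] at hne
      exact hne rfl
    have hpowV₂ : ∀ k : ℕ, (μ ^ k) v ∈ V₂ := by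
      intro k
      induction k with
      | zero => simpa using hv
      | succ k ih =>
        rw [pow_succ', Module.End.mul_apply]
        exact hμV₂ _ ih
    -- image
    obtain ⟨I, hI⟩ : ∃ I, I = V₂.map μ := ⟨_, rfl⟩
    have hIβ : ∀ w ∈ I, β w ∈ I := by
      intro w hw
      rw [hI] at hw ⊢
      obtain ⟨y, hy, rfl⟩ := Submodule.mem_map.mp hw
      refine Submodule.mem_map.mpr ⟨β y, hβV₂ y hy, ?_⟩
      have := congrArg (fun g : Module.End F (Fin n → F) => g y) hcomm
      exact this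
    have hdimI : n - 1 ≤ Module.finrank F I := by
      rw [← hN]
      refine lemA p r hr hrp (n - 2) hrq β I hIβ (μ v) ?_ hne ((hmem₂ _).mp (hμV₂ v hv))
      rw [hI]
      exact Submodule.mem_map_of_mem hv
    -- kernel
    obtain ⟨f, hf⟩ : ∃ f : V₂ →ₗ[F] (Fin n → F), f = μ ∘ₗ V₂.subtype := ⟨_, rfl⟩
    obtain ⟨K, hK⟩ : ∃ K, K = (LinearMap.ker f).map V₂.subtype := ⟨_, rfl⟩
    have hKmem : ∀ w, w ∈ K ↔ w ∈ V₂ ∧ μ w = 0 := by
      intro w
      rw [hK, Submodule.mem_map]
      constructor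
      · rintro ⟨y, hy, rfl⟩
        refine ⟨y.2, ?_⟩
        rw [LinearMap.mem_ker, hf] at hy
        exact hy
      · rintro ⟨hw, hw0⟩
        refine ⟨⟨w, hw⟩, ?_, rfl⟩
        rw [LinearMap.mem_ker, hf]
        exact hw0
    have hKβ : ∀ w ∈ K, β w ∈ K := by
      intro w hw
      rw [hKmem] at hw ⊢
      refine ⟨hβV₂ w hw.1, ?_⟩
      have := congrArg (fun g : Module.End F (Fin n → F) => g w) hcomm
      simp only [Module.End.mul_apply] at this
      rw [this, hw.2, map_zero]
    -- nonzero element of K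
    have hex : ∃ j : ℕ, (μ ^ (j + 1)) v = 0 := by
      refine ⟨p - 1, ?_⟩
      have hp1 : p - 1 + 1 = p := Nat.sub_add_cancel (Fact.out : p.Prime).one_le
      rw [hp1, hμp, LinearMap.zero_apply]
    obtain ⟨j, hj, hjmin⟩ : ∃ j : ℕ, (μ ^ (j + 1)) v = 0 ∧ (μ ^ j) v ≠ 0 := by
      refine ⟨Nat.find hex, Nat.find_spec hex, ?_⟩
      rcases Nat.eq_zero_or_pos (Nat.find hex) with h0 | hpos
      · rw [h0]; simpa using hv0
      · have := Nat.find_min hex (m := Nat.find hex - 1) (by omega)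
        have e : Nat.find hex - 1 + 1 = Nat.find hex := by omega
        rwa [e] at this
    have hdimK' : n - 1 ≤ Module.finrank F K := by
      rw [← hN]
      refine lemA p r hr hrp (n - 2) hrq β K hKβ ((μ ^ j) v) ?_ hjmin ((hmem₂ _).mp (hpowV₂ j))
      rw [hKmem]
      refine ⟨hpowV₂ j, ?_⟩
      rw [← Module.End.mul_apply, ← pow_succ']
      exact hj
    have hdimK : Module.finrank F K = Module.finrank F (LinearMap.ker f) := by
      rw [hK]
      exact Submodule.finrank_map_subtype_eq V₂ (LinearMap.ker f)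
    have hrange : LinearMap.range f = I := by
      rw [hf, hI, LinearMap.range_comp, Submodule.range_subtype]
    have hrn := LinearMap.finrank_range_add_finrank_ker f
    rw [hrange, ← hdimK] at hrn
    have hle : Module.finrank F V₂ ≤ n := by
      have := Submodule.finrank_le V₂
      rwa [hfr] at this
    omega
  apply hμ0
  apply LinearMap.ext
  intro v
  have hv : v ∈ V₁ ⊔ V₂ := by rw [hsup]; trivial
  obtain ⟨v₁, hv₁, v₂, hv₂, rfl⟩ := Submodule.mem_sup.mp hv
  rw [map_add, hμ1 v₁ hv₁, hμ2 v₂ hv₂, add_zero, LinearMap.zero_apply]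

theorem arith_SL {F : Type*} [Field F] [Fintype F] (p : ℕ) [Fact p.Prime] [CharP F p] (m : ℕ)
    (hm : 2 ≤ m) (r : ℕ) (hr : r.Prime)
    (h : ¬ r ∣ Nat.card (Matrix.SpecialLinearGroup (Fin m) F)) :
    r ≠ p ∧ ∀ k, 1 ≤ k → k ≤ m → ¬ r ∣ Fintype.card F ^ k - 1 := by
  classical
  have hq2 : 2 ≤ Fintype.card F := Fintype.one_lt_card
  have hSL := Cfsg.Agent.Lib.Helper1.GLn.card_SL_formula (F := F) m (by omega)
  rw [Cfsg.Agent.S2394.gl_formula] at hSL
  obtain ⟨m', rfl⟩ : ∃ m', m = m' + 1 := ⟨m - 1, by omega⟩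
  rw [Finset.prod_range_succ' (fun i => Fintype.card F ^ (i + 1) - 1) m'] at hSL
  have hSL' : Nat.card (Matrix.SpecialLinearGroup (Fin (m' + 1)) F) =
      Fintype.card F ^ (∑ i ∈ Finset.range (m' + 1), i) *
        ∏ i ∈ Finset.range m', (Fintype.card F ^ (i + 1 + 1) - 1) := by
    have hpos : 0 < Fintype.card F - 1 := by omega
    apply Nat.eq_of_mul_eq_mul_left hpos
    rw [hSL]
    simp only [zero_add, pow_one]
    ring
  have hpq : p ∣ Fintype.card F := by
    have h0 : ((Fintype.card F : ℕ) : F) = 0 := Nat.cast_card_eq_zero F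
    exact (CharP.cast_eq_zero_iff F p _).mp h0
  have he : 1 ≤ ∑ i ∈ Finset.range (m' + 1), i := by
    have : (1 : ℕ) ∈ Finset.range (m' + 1) := Finset.mem_range.mpr (by omega)
    exact Finset.single_le_sum (f := fun i => i) (fun i _ => Nat.zero_le i) this
  have hfac : ∀ k, 2 ≤ k → k ≤ m' + 1 → Fintype.card F ^ k - 1 ∣
      Nat.card (Matrix.SpecialLinearGroup (Fin (m' + 1)) F) := by
    intro k hk2 hkm
    rw [hSL']
    apply Dvd.dvd.mul_left
    have hmem : k - 2 ∈ Finset.range m' := Finset.mem_range.mpr (by omega)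
    have e : k - 2 + 1 + 1 = k := by omega
    have := Finset.dvd_prod_of_mem (fun i => Fintype.card F ^ (i + 1 + 1) - 1) hmem
    simp only [e] at this
    exact this
  refine ⟨?_, ?_⟩
  · rintro rfl
    apply h
    rw [hSL']
    apply Dvd.dvd.mul_right
    exact dvd_trans hpq (dvd_pow_self _ (by omega))
  · intro k hk1 hkm hdvd
    apply h
    by_cases hk2 : 2 ≤ k
    · exact dvd_trans hdvd (hfac k hk2 hkm)
    · have hk : k = 1 := by omega
      subst hk
      refine dvd_trans hdvd (dvd_trans ?_ (hfac 2 le_rfl (by omega)))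
      rw [pow_one]
      obtain ⟨y, hy⟩ : ∃ y, Fintype.card F = y + 1 := ⟨Fintype.card F - 1, by omega⟩
      rw [hy]
      simp only [Nat.add_sub_cancel]
      exact ⟨y + 2, by
        have : (y + 1) ^ 2 = y * (y + 2) + 1 := by ring
        rw [this, Nat.add_sub_cancel]⟩

theorem center_pow {F : Type*} [Field F] [Fintype F] (n : ℕ) (hn : 1 ≤ n)
    (z : Matrix.SpecialLinearGroup (Fin n) F)
    (hz : z ∈ Subgroup.center (Matrix.SpecialLinearGroup (Fin n) F)) :
    z ^ (Fintype.card F - 1) = 1 := by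
  classical
  rw [Matrix.SpecialLinearGroup.mem_center_iff] at hz
  obtain ⟨c, hc, hcz⟩ := hz
  have hc0 : c ≠ 0 := by
    rintro rfl
    rw [Fintype.card_fin, zero_pow (by omega)] at hc
    exact zero_ne_one hc
  apply Subtype.ext
  rw [Matrix.SpecialLinearGroup.coe_pow, ← hcz, ← map_pow,
    FiniteField.pow_card_sub_one_eq_one c hc0, map_one]
  rfl

theorem main {F : Type*} [Field F] [Fintype F] (p : ℕ) [Fact p.Prime] [CharP F p] (n : ℕ) (hn : 4 ≤ n)
    (a b : Matrix.ProjectiveSpecialLinearGroup (Fin n) F) (ha : orderOf a = p) (hab : Commute a b) :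
    (orderOf b).primeFactors ⊆ (Nat.card (Matrix.SpecialLinearGroup (Fin (n - 2)) F)).primeFactors := by
  classical
  intro r hrmem
  rw [Nat.mem_primeFactors] at hrmem ⊢
  obtain ⟨hr, hrb, hb0⟩ := hrmem
  refine ⟨hr, ?_, Nat.card_pos.ne'⟩
  by_contra hndvd
  obtain ⟨hrp, hrq⟩ := arith_SL p (n - 2) (by omega) r hr hndvd
  have hp := (Fact.out : p.Prime)
  have hq2 : 2 ≤ Fintype.card F := Fintype.one_lt_card
  have hpq : p ∣ Fintype.card F := by
    have h0 : ((Fintype.card F : ℕ) : F) = 0 := Nat.cast_card_eq_zero F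
    exact (CharP.cast_eq_zero_iff F p _).mp h0
  have hpq1 : ¬ p ∣ Fintype.card F - 1 := by
    intro h
    have : p ∣ Fintype.card F - (Fintype.card F - 1) := Nat.dvd_sub hpq h
    have e : Fintype.card F - (Fintype.card F - 1) = 1 := by omega
    rw [e] at this
    exact hp.one_lt.ne' (Nat.dvd_one.mp this)
  have hcop : Nat.gcd p (Fintype.card F - 1) = 1 := (Nat.Prime.coprime_iff_not_dvd hp).mpr hpq1
  have hrq1 : ¬ r ∣ Fintype.card F - 1 := by
    have := hrq 1 le_rfl (by omega)
    simpa using this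
  obtain ⟨a₀, rfl⟩ := QuotientGroup.mk_surjective a
  obtain ⟨b₀, rfl⟩ := QuotientGroup.mk_surjective b
  obtain ⟨o, ho⟩ : ∃ o, o = orderOf (QuotientGroup.mk b₀ : Matrix.ProjectiveSpecialLinearGroup (Fin n) F) := ⟨_, rfl⟩
  rw [← ho] at hrb hb0
  have hb₁ : orderOf ((QuotientGroup.mk b₀ : Matrix.ProjectiveSpecialLinearGroup (Fin n) F) ^ (o / r)) = r := by
    rw [ho]
    exact orderOf_pow_orderOf_div (by rw [← ho]; exact hb0) (by rw [← ho]; exact hrb)
  obtain ⟨A, hA⟩ : ∃ A : Matrix.SpecialLinearGroup (Fin n) F, A = a₀ ^ (Fintype.card F - 1) := ⟨_, rfl⟩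
  obtain ⟨B, hB⟩ : ∃ B : Matrix.SpecialLinearGroup (Fin n) F, B = (b₀ ^ (o / r)) ^ (Fintype.card F - 1) := ⟨_, rfl⟩
  have hmkA : (QuotientGroup.mk A : Matrix.ProjectiveSpecialLinearGroup (Fin n) F)
      = (QuotientGroup.mk a₀) ^ (Fintype.card F - 1) := by rw [hA]; rfl
  have hmkB : (QuotientGroup.mk B : Matrix.ProjectiveSpecialLinearGroup (Fin n) F)
      = ((QuotientGroup.mk b₀) ^ (o / r)) ^ (Fintype.card F - 1) := by rw [hB]; rfl
  have hAp : A ^ p = 1 := by
    have hc : a₀ ^ p ∈ Subgroup.center (Matrix.SpecialLinearGroup (Fin n) F) := by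
      rw [← QuotientGroup.eq_one_iff]
      show (QuotientGroup.mk a₀ : Matrix.ProjectiveSpecialLinearGroup (Fin n) F) ^ p = 1
      rw [← ha]
      exact pow_orderOf_eq_one _
    calc A ^ p = (a₀ ^ p) ^ (Fintype.card F - 1) := by rw [hA, ← pow_mul, ← pow_mul, mul_comm]
      _ = 1 := center_pow n (by omega) _ hc
  have hBr : B ^ r = 1 := by
    have hc : (b₀ ^ (o / r)) ^ r ∈ Subgroup.center (Matrix.SpecialLinearGroup (Fin n) F) := by
      rw [← QuotientGroup.eq_one_iff]
      show ((QuotientGroup.mk b₀ : Matrix.ProjectiveSpecialLinearGroup (Fin n) F) ^ (o / r)) ^ r = 1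
      nth_rewrite 2 [← hb₁]
      exact pow_orderOf_eq_one _
    calc B ^ r = ((b₀ ^ (o / r)) ^ r) ^ (Fintype.card F - 1) := by
          rw [hB, ← pow_mul (b₀ ^ (o / r)), ← pow_mul (b₀ ^ (o / r)), mul_comm]
      _ = 1 := center_pow n (by omega) _ hc
  have hA1 : A ≠ 1 := by
    intro h
    have h1 : (QuotientGroup.mk a₀ : Matrix.ProjectiveSpecialLinearGroup (Fin n) F) ^ (Fintype.card F - 1) = 1 := by
      rw [← hmkA, h]; rfl
    have := orderOf_dvd_of_pow_eq_one h1
    rw [ha] at this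
    exact hpq1 this
  have hB1 : B ≠ 1 := by
    intro h
    have h1 : ((QuotientGroup.mk b₀ : Matrix.ProjectiveSpecialLinearGroup (Fin n) F) ^ (o / r)) ^ (Fintype.card F - 1) = 1 := by
      rw [← hmkB, h]; rfl
    have := orderOf_dvd_of_pow_eq_one h1
    rw [hb₁] at this
    exact hrq1 this
  have hcomm : A * B = B * A := by
    obtain ⟨z, hz⟩ : ∃ z, z = B * A * B⁻¹ * A⁻¹ := ⟨_, rfl⟩
    have hzc : z ∈ Subgroup.center (Matrix.SpecialLinearGroup (Fin n) F) := by
      rw [← QuotientGroup.eq_one_iff]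
      have hAB' : Commute (QuotientGroup.mk A : Matrix.ProjectiveSpecialLinearGroup (Fin n) F)
          (QuotientGroup.mk B) := by
        rw [hmkA, hmkB]
        exact ((hab.pow_right _).pow_right _).pow_left _
      rw [hz]
      show (QuotientGroup.mk B : Matrix.ProjectiveSpecialLinearGroup (Fin n) F) * QuotientGroup.mk A
        * (QuotientGroup.mk B)⁻¹ * (QuotientGroup.mk A)⁻¹ = 1
      rw [← hAB'.eq]
      group
    have hzq : z ^ (Fintype.card F - 1) = 1 := center_pow n (by omega) z hzc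
    have hzp : z ^ p = 1 := by
      have e1 : B * A * B⁻¹ = z * A := by rw [hz]; group
      have e2 : (B * A * B⁻¹) ^ p = 1 := by
        rw [conj_pow, hAp]; group
      rw [e1] at e2
      have hzA : Commute z A := (Subgroup.mem_center_iff.mp hzc A).symm
      rw [hzA.mul_pow, hAp, mul_one] at e2
      exact e2
    have hz1 : z = 1 := by
      have h1 := orderOf_dvd_of_pow_eq_one hzq
      have h2 := orderOf_dvd_of_pow_eq_one hzp
      have := Nat.dvd_gcd h2 h1
      rw [hcop] at this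
      exact orderOf_eq_one_iff.mp (Nat.dvd_one.mp this)
    have : B * A = A * B := by
      calc B * A = (B * A * B⁻¹ * A⁻¹) * (A * B) := by group
        _ = A * B := by rw [← hz, hz1, one_mul]
    exact this.symm
  apply lin_contra p n (by omega) r hr hrp hrq (A : Matrix (Fin n) (Fin n) F)
    (B : Matrix (Fin n) (Fin n) F)
  · rw [← Matrix.SpecialLinearGroup.coe_pow, hAp]; rfl
  · intro h; exact hA1 (Subtype.ext h)
  · rw [← Matrix.SpecialLinearGroup.coe_pow, hBr]; rfl
  · intro h; exact hB1 (Subtype.ext h)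
  · exact congrArg Subtype.val hcomm

theorem result {F : Type*} [Field F] [Fintype F] (p : ℕ) [Fact p.Prime] [CharP F p] (n : ℕ) (hn : 4 ≤ n)
    (a b : Matrix.ProjectiveSpecialLinearGroup (Fin n) F) (ha : orderOf a = p) (hab : Commute a b) :
    (orderOf b).primeFactors ⊆ (Nat.card (Matrix.SpecialLinearGroup (Fin (n - 2)) F)).primeFactors := by
  exact main p n hn a b ha hab

end Cfsg.Agent.S2364
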