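import Cfsg.Statements.S2572
import Mathlib
import Cfsg.Agent.S2579

set_option autoImplicit false
open Cfsg

set_option maxHeartbeats 1000000
namespace Cfsg.Agent.S2572

open Matrix

theorem card_class_mul_card_centralizer {G : Type*} [Group G] [Finite G] (g : G) :
    Nat.card (ConjClasses.mk g).carrier * Nat.card (Subgroup.centralizer ({g} : Set G)) =
      Nat.card G := by
  classical
  have := Fintype.ofFinite G
  rw [Subgroup.nat_card_centralizer_nat_card_stabilizer, ← ConjAct.orbit_eq_carrier_conjClasses]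
  have h := MulAction.card_orbit_mul_card_stabilizer_eq_card_group (ConjAct G) g
  simp only [← Nat.card_eq_fintype_card] at h
  exact h

theorem gl_rec (q k : ℕ) : ∏ i : Fin (k + 1), (q ^ (k + 1) - q ^ (i : ℕ)) =
    (q ^ (k + 1) - 1) * q ^ k * ∏ i : Fin k, (q ^ k - q ^ (i : ℕ)) := by
  rw [Fin.prod_univ_succ]
  simp only [Fin.val_zero, pow_zero, Fin.val_succ]
  have h : ∀ i : Fin k, q ^ (k + 1) - q ^ ((i : ℕ) + 1) = q * (q ^ k - q ^ (i : ℕ)) := by
    intro i
    rw [Nat.mul_sub, pow_succ, pow_succ, mul_comm (q ^ k) q, mul_comm (q ^ (i : ℕ)) q]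
  simp only [h, Finset.prod_mul_distrib, Finset.prod_const, Finset.card_univ, Fintype.card_fin]
  ring

theorem arith (A B C τ P q1 x y z : ℕ) (hAB : 0 < A * B) (h1 : τ * C = A * x * (B * y * P))
    (h3 : τ * q1 = A * B) (hz : z = x * y) : C = z * q1 * P := by
  apply Nat.eq_of_mul_eq_mul_left hAB
  calc A * B * C = (τ * q1) * C := by rw [h3]
    _ = q1 * (τ * C) := by ring
    _ = q1 * (A * x * (B * y * P)) := by rw [h1]
    _ = A * B * (z * q1 * P) := by rw [hz]; ring

theorem gl_conj_transvection {F : Type*} [Field F] {n : ℕ} (hn : 2 ≤ n) (s t : GL (Fin n) F)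
    (hs : Cfsg.IsTransvection (s : Matrix (Fin n) (Fin n) F))
    (ht : Cfsg.IsTransvection (t : Matrix (Fin n) (Fin n) F)) : IsConj s t := by
  classical
  have hsq : ∀ M : Matrix (Fin n) (Fin n) F, M * M = 0 →
      ∀ x, Matrix.mulVecLin M (Matrix.mulVecLin M x) = 0 := by
    intro M hM x
    rw [Matrix.mulVecLin_apply, Matrix.mulVecLin_apply, Matrix.mulVec_mulVec, hM, Matrix.zero_mulVec]
  have key1 := Cfsg.Agent.S2579.exists_basis_sq_zero (K := F) (V := Fin n → F)
    (Matrix.mulVecLin ((s : Matrix (Fin n) (Fin n) F) - 1)) (hsq _ hs.2) 1 (n - 2) hs.1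
    (by rw [Module.finrank_fin_fun]; omega)
  have key2 := Cfsg.Agent.S2579.exists_basis_sq_zero (K := F) (V := Fin n → F)
    (Matrix.mulVecLin ((t : Matrix (Fin n) (Fin n) F) - 1)) (hsq _ ht.2) 1 (n - 2) ht.1
    (by rw [Module.finrank_fin_fun]; omega)
  obtain ⟨b, hb1, hb2⟩ := key1
  obtain ⟨b', hb1', hb2'⟩ := key2
  obtain ⟨g, hg⟩ : ∃ g : (Fin n → F) ≃ₗ[F] (Fin n → F), ∀ i, g (b i) = b' i :=
    ⟨b.equiv b' (Equiv.refl _), fun i => by simp⟩
  have hcomm : (g : (Fin n → F) →ₗ[F] (Fin n → F)) ∘ₗ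
      Matrix.mulVecLin ((s : Matrix (Fin n) (Fin n) F) - 1) =
      Matrix.mulVecLin ((t : Matrix (Fin n) (Fin n) F) - 1) ∘ₗ
        (g : (Fin n → F) →ₗ[F] (Fin n → F)) := by
    apply b.ext
    rintro (x | y)
    · simp only [LinearMap.comp_apply, LinearEquiv.coe_coe, hb1, hg, hb1']
    · simp only [LinearMap.comp_apply, LinearEquiv.coe_coe, hb2, hg, hb2', map_zero]
  have h2 := congrArg LinearMap.toMatrix' hcomm
  rw [LinearMap.toMatrix'_comp, LinearMap.toMatrix'_comp, ← Matrix.toLin'_apply',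
    ← Matrix.toLin'_apply', LinearMap.toMatrix'_toLin', LinearMap.toMatrix'_toLin'] at h2
  rw [mul_sub, sub_mul, mul_one, one_mul] at h2
  have h3 : LinearMap.toMatrix' (g : (Fin n → F) →ₗ[F] (Fin n → F)) *
      (s : Matrix (Fin n) (Fin n) F) =
      (t : Matrix (Fin n) (Fin n) F) * LinearMap.toMatrix' (g : (Fin n → F) →ₗ[F] (Fin n → F)) :=
    sub_left_injective h2
  have hdet : (LinearMap.toMatrix' (g : (Fin n → F) →ₗ[F] (Fin n → F))).det ≠ 0 := by
    rw [LinearMap.det_toMatrix']
    exact (LinearEquiv.isUnit_det' g).ne_zero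
  rw [isConj_iff]
  refine ⟨Matrix.GeneralLinearGroup.mkOfDetNeZero _ hdet, ?_⟩
  rw [mul_inv_eq_iff_eq_mul]
  apply Units.ext
  exact h3

theorem conj_transvection {F : Type*} [Field F] {n : ℕ} (s t : GL (Fin n) F)
    (hs : Cfsg.IsTransvection (s : Matrix (Fin n) (Fin n) F)) (h : IsConj s t) :
    Cfsg.IsTransvection (t : Matrix (Fin n) (Fin n) F) := by
  rw [isConj_iff] at h
  obtain ⟨c, rfl⟩ := h
  have hc : IsUnit (c : Matrix (Fin n) (Fin n) F).det :=
    (Matrix.isUnit_iff_isUnit_det _).1 c.isUnit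
  have hc' : IsUnit ((c⁻¹ : GL (Fin n) F) : Matrix (Fin n) (Fin n) F).det :=
    (Matrix.isUnit_iff_isUnit_det _).1 (c⁻¹).isUnit
  have h1 : (c : Matrix (Fin n) (Fin n) F) * ((c⁻¹ : GL (Fin n) F) : Matrix (Fin n) (Fin n) F) = 1 := by
    rw [← Units.val_mul, mul_inv_cancel, Units.val_one]
  have h1' : ((c⁻¹ : GL (Fin n) F) : Matrix (Fin n) (Fin n) F) * (c : Matrix (Fin n) (Fin n) F) = 1 := by
    rw [← Units.val_mul, inv_mul_cancel, Units.val_one]
  have he : ((c * s * c⁻¹ : GL (Fin n) F) : Matrix (Fin n) (Fin n) F) - 1 =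
      (c : Matrix (Fin n) (Fin n) F) * ((s : Matrix (Fin n) (Fin n) F) - 1) *
        ((c⁻¹ : GL (Fin n) F) : Matrix (Fin n) (Fin n) F) := by
    rw [Units.val_mul, Units.val_mul, mul_sub, sub_mul, mul_one, h1]
  constructor
  · rw [he, Matrix.rank_mul_eq_left_of_isUnit_det _ _ hc', Matrix.rank_mul_eq_right_of_isUnit_det _ _ hc]
    exact hs.1
  · rw [he]
    calc (c : Matrix (Fin n) (Fin n) F) * ((s : Matrix (Fin n) (Fin n) F) - 1) *
          ((c⁻¹ : GL (Fin n) F) : Matrix (Fin n) (Fin n) F) *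
          ((c : Matrix (Fin n) (Fin n) F) * ((s : Matrix (Fin n) (Fin n) F) - 1) *
          ((c⁻¹ : GL (Fin n) F) : Matrix (Fin n) (Fin n) F))
        = (c : Matrix (Fin n) (Fin n) F) * ((s : Matrix (Fin n) (Fin n) F) - 1) *
          (((c⁻¹ : GL (Fin n) F) : Matrix (Fin n) (Fin n) F) * (c : Matrix (Fin n) (Fin n) F)) *
          ((s : Matrix (Fin n) (Fin n) F) - 1) *
          ((c⁻¹ : GL (Fin n) F) : Matrix (Fin n) (Fin n) F) := by simp only [mul_assoc]
      _ = (c : Matrix (Fin n) (Fin n) F) * (((s : Matrix (Fin n) (Fin n) F) - 1) *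
          ((s : Matrix (Fin n) (Fin n) F) - 1)) *
          ((c⁻¹ : GL (Fin n) F) : Matrix (Fin n) (Fin n) F) := by
        rw [h1', mul_one]; simp only [mul_assoc]
      _ = 0 := by rw [hs.2, mul_zero, zero_mul]

/-- the number of rank one square zero matrices -/
theorem card_rank_one_sq_zero {F : Type*} [Field F] [Fintype F] (n : ℕ) :
    Nat.card {N : Matrix (Fin n) (Fin n) F // N.rank = 1 ∧ N * N = 0} *
      (Fintype.card F - 1) = (Fintype.card F ^ n - 1) * (Fintype.card F ^ (n - 1) - 1) := by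
  classical
  obtain ⟨𝒯, h𝒯⟩ : ∃ 𝒯 : Finset (Matrix (Fin n) (Fin n) F),
      ∀ N, N ∈ 𝒯 ↔ N.rank = 1 ∧ N * N = 0 :=
    ⟨Finset.univ.filter (fun N => N.rank = 1 ∧ N * N = 0), fun N => by simp⟩
  rw [Nat.card_eq_fintype_card, Fintype.card_of_subtype 𝒯 h𝒯]
  have hdc := Finset.sum_card_bipartiteAbove_eq_sum_card_bipartiteBelow
    (s := (Finset.univ.erase 0 : Finset (Fin n → F)))
    (t := 𝒯)
    (r := fun v N => ∃ w, N *ᵥ w = v)
  have hcardW : ∀ W : Submodule F (Fin n → F),
      ((Finset.univ.filter (fun v : Fin n → F => v ∈ W)).erase 0).card =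
        Fintype.card F ^ Module.finrank F W - 1 := by
    intro W
    rw [Finset.card_erase_of_mem (by simp), ← Module.card_eq_pow_finrank (K := F) (V := W),
      ← Fintype.card_subtype]
  have h1 : ∀ v ∈ (Finset.univ.erase 0 : Finset (Fin n → F)),
      (𝒯.bipartiteAbove (fun v N => ∃ w, N *ᵥ w = v) v).card =
      Fintype.card F ^ (n - 1) - 1 := by
    intro v hv
    have hv0 : v ≠ 0 := (Finset.mem_erase.1 hv).1
    obtain ⟨i0, hi0⟩ : ∃ i, v i ≠ 0 := by
      by_contra hcon
      push_neg at hcon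
      exact hv0 (funext hcon)
    have hfr : Module.finrank F (LinearMap.ker (dotProductBilin F F v)) = n - 1 := by
      have hsurj : Function.Surjective (dotProductBilin F F v) := by
        intro c
        refine ⟨Pi.single i0 (c / v i0), ?_⟩
        simp only [dotProductBilin_apply_apply, dotProduct_single]
        field_simp
      have h5 := LinearMap.finrank_range_add_finrank_ker (dotProductBilin F F v)
      rw [LinearMap.range_eq_top.2 hsurj, finrank_top, Module.finrank_self,
        Module.finrank_fin_fun] at h5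
      omega
    have hinj : Function.Injective (fun φ : Fin n → F => Matrix.vecMulVec v φ) := by
      intro φ φ' h
      funext j
      have h6 := congrFun (congrFun h i0) j
      simp only [Matrix.vecMulVec_apply] at h6
      exact mul_left_cancel₀ hi0 h6
    have himg : 𝒯.bipartiteAbove (fun v N => ∃ w, N *ᵥ w = v) v =
        ((Finset.univ.filter (fun φ : Fin n → F =>
          φ ∈ LinearMap.ker (dotProductBilin F F v))).erase 0).image
          (fun φ : Fin n → F => Matrix.vecMulVec v φ) := by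
      ext N
      simp only [Finset.mem_bipartiteAbove, h𝒯, Finset.mem_filter, Finset.mem_univ, true_and,
        Finset.mem_image, Finset.mem_erase, LinearMap.mem_ker, dotProductBilin_apply_apply]
      constructor
      · rintro ⟨⟨hr, hN2⟩, w, hw⟩
        have hvr : v ∈ LinearMap.range N.mulVecLin := ⟨w, hw⟩
        have hspan := (finrank_eq_one_iff_of_nonzero' (K := F)
          (⟨v, hvr⟩ : LinearMap.range N.mulVecLin)
          (fun h => hv0 (congrArg Subtype.val h))).1 hr
        have hφ : ∀ j, ∃ c : F, c • v = N *ᵥ Pi.single j 1 := by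
          intro j
          obtain ⟨c, hc⟩ := hspan ⟨N *ᵥ Pi.single j 1, ⟨Pi.single j 1, rfl⟩⟩
          exact ⟨c, congrArg Subtype.val hc⟩
        choose φ hφ using hφ
        have hN : Matrix.vecMulVec v φ = N := by
          ext i j
          have h7 := congrFun (hφ j) i
          rw [Matrix.mulVec_single_one] at h7
          simp only [Pi.smul_apply, smul_eq_mul, Matrix.col_apply] at h7
          rw [Matrix.vecMulVec_apply, mul_comm]
          exact h7
        have hφ0 : φ ≠ 0 := by
          rintro rfl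
          rw [← hN] at hr
          simp at hr
        obtain ⟨j0, hj0⟩ : ∃ j, φ j ≠ 0 := by
          by_contra hcon
          push_neg at hcon
          exact hφ0 (funext hcon)
        refine ⟨φ, ⟨hφ0, ?_⟩, hN⟩
        rw [← hN, Matrix.vecMulVec_mul_vecMulVec] at hN2
        have h8 := congrFun (congrFun hN2 i0) j0
        simp only [Matrix.vecMulVec_apply, Pi.smul_apply, smul_eq_mul, Matrix.zero_apply,
          mul_eq_zero] at h8
        rcases h8 with h8 | h8 | h8
        · exact absurd h8 hi0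
        · rw [dotProduct_comm]
          exact h8
        · exact absurd h8 hj0
      · rintro ⟨φ, ⟨hφ0, hφv⟩, rfl⟩
        obtain ⟨j0, hj0⟩ : ∃ j, φ j ≠ 0 := by
          by_contra hcon
          push_neg at hcon
          exact hφ0 (funext hcon)
        have hw : Matrix.vecMulVec v φ *ᵥ Pi.single j0 (φ j0)⁻¹ = v := by
          rw [Matrix.vecMulVec_mulVec, dotProduct_single, mul_inv_cancel₀ hj0]
          simp
        refine ⟨⟨?_, ?_⟩, _, hw⟩
        · apply le_antisymm (Matrix.rank_vecMulVec_le v φ)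
          have hpos : 0 < Module.finrank F (LinearMap.range (Matrix.vecMulVec v φ).mulVecLin) :=
            (Module.finrank_pos_iff_exists_ne_zero (R := F)).2
              ⟨⟨v, ⟨_, hw⟩⟩, fun h => hv0 (congrArg Subtype.val h)⟩
          exact hpos
        · rw [Matrix.vecMulVec_mul_vecMulVec, dotProduct_comm, hφv, zero_smul]
          ext i j
          simp [Matrix.vecMulVec_apply]
    rw [himg, Finset.card_image_of_injective _ hinj, hcardW, hfr]
  have h2 : ∀ N ∈ 𝒯,
      ((Finset.univ.erase 0 : Finset (Fin n → F)).bipartiteBelow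
        (fun v N => ∃ w, N *ᵥ w = v) N).card = Fintype.card F - 1 := by
    intro N hN
    have hr : N.rank = 1 := ((h𝒯 N).1 hN).1
    have hset : (Finset.univ.erase 0 : Finset (Fin n → F)).bipartiteBelow
        (fun v N => ∃ w, N *ᵥ w = v) N =
        (Finset.univ.filter (fun v : Fin n → F => v ∈ LinearMap.range N.mulVecLin)).erase 0 := by
      ext v
      simp only [Finset.mem_bipartiteBelow, Finset.mem_filter, Finset.mem_univ, true_and,
        and_true, Finset.mem_erase, LinearMap.mem_range, Matrix.mulVecLin_apply]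
    rw [hset, hcardW]
    have hr' : Module.finrank F (LinearMap.range N.mulVecLin) = 1 := hr
    rw [hr', pow_one]
  rw [Finset.sum_congr rfl h1, Finset.sum_congr rfl h2, Finset.sum_const, Finset.sum_const,
    smul_eq_mul, smul_eq_mul] at hdc
  have hs : (Finset.univ.erase 0 : Finset (Fin n → F)).card = Fintype.card F ^ n - 1 := by
    rw [Finset.card_erase_of_mem (Finset.mem_univ _), Finset.card_univ]
    simp
  rw [hs] at hdc
  exact hdc.symm

theorem card_transvections {F : Type*} [Field F] [Fintype F] (n : ℕ) :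
    Nat.card {s : GL (Fin n) F // Cfsg.IsTransvection (s : Matrix (Fin n) (Fin n) F)} =
      Nat.card {N : Matrix (Fin n) (Fin n) F // N.rank = 1 ∧ N * N = 0} := by
  classical
  apply Nat.card_congr
  refine
    { toFun := fun s => ⟨(s.1 : Matrix (Fin n) (Fin n) F) - 1, s.2⟩
      invFun := fun N => ⟨⟨1 + N.1, 1 - N.1, ?_, ?_⟩, ?_⟩
      left_inv := ?_
      right_inv := ?_ }
  · rw [mul_sub, mul_one, add_mul, one_mul, N.2.2]; abel
  · rw [mul_add, mul_one, sub_mul, one_mul, N.2.2]; abel
  · show ((1 + N.1 - 1 : Matrix (Fin n) (Fin n) F)).rank = 1 ∧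
      (1 + N.1 - 1 : Matrix (Fin n) (Fin n) F) * (1 + N.1 - 1) = 0
    rw [add_sub_cancel_left]
    exact N.2
  · intro s
    apply Subtype.ext
    apply Units.ext
    show 1 + ((s.1 : Matrix (Fin n) (Fin n) F) - 1) = s.1
    abel
  · intro N
    apply Subtype.ext
    show (1 + N.1 - 1 : Matrix (Fin n) (Fin n) F) = N.1
    rw [add_sub_cancel_left]

theorem result {F : Type*} [Field F] [Fintype F] {q n : ℕ} (hF : Fintype.card F = q) (hn : 2 ≤ n) (t : GL (Fin n) F) (ht : Cfsg.IsTransvection (t : Matrix (Fin n) (Fin n) F)) : Nat.card ↥(Subgroup.centralizer ({t} : Set (GL (Fin n) F))) = q ^ (2 * n - 3) * (q - 1) * ∏ i : Fin (n - 2), (q ^ (n - 2) - q ^ (i : ℕ)) := by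
  classical
  subst hF
  obtain ⟨k, rfl⟩ : ∃ k, n = k + 2 := ⟨n - 2, by omega⟩
  have h1 := card_class_mul_card_centralizer t
  have h2 : Nat.card (ConjClasses.mk t).carrier =
      Nat.card {s : GL (Fin (k + 2)) F // Cfsg.IsTransvection (s : Matrix (Fin (k + 2)) (Fin (k + 2)) F)} := by
    apply Nat.card_congr
    apply Equiv.subtypeEquivRight
    intro s
    rw [ConjClasses.mem_carrier_iff_mk_eq, ConjClasses.mk_eq_mk_iff_isConj]
    constructor
    · intro h
      exact conj_transvection t s ht h.symm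
    · intro h
      exact gl_conj_transvection hn s t h ht
  have h3 := card_rank_one_sq_zero (F := F) (k + 2)
  have h4 := Matrix.card_GL_field (𝔽 := F) (k + 2)
  rw [gl_rec, gl_rec] at h4
  rw [h2, card_transvections, h4] at h1
  have hq : 2 ≤ Fintype.card F := Fintype.one_lt_card
  have hpos : ∀ j : ℕ, 0 < Fintype.card F ^ (j + 1) - 1 := by
    intro j
    have : 2 ^ (j + 1) ≤ Fintype.card F ^ (j + 1) := Nat.pow_le_pow_left hq _
    have : 2 ≤ 2 ^ (j + 1) := by
      calc 2 = 2 ^ 1 := by norm_num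
        _ ≤ 2 ^ (j + 1) := Nat.pow_le_pow_right (by norm_num) (by omega)
    omega
  show Nat.card _ = Fintype.card F ^ (2 * (k + 2) - 3) * (Fintype.card F - 1) *
    ∏ i : Fin k, (Fintype.card F ^ k - Fintype.card F ^ (i : ℕ))
  exact arith _ _ _ _ _ _ _ _ _ (Nat.mul_pos (hpos (k + 1)) (hpos k)) h1 h3
    (by rw [← pow_add]; congr 1; omega)

end Cfsg.Agent.S2572
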