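import Cfsg.Statements.S0820
import Cfsg.Agent.S2572
import Cfsg.Agent.S2364

set_option autoImplicit false
open Cfsg


namespace Cfsg.Agent.S0820

open Matrix

theorem std_transv3 {F : Type*} [Field F] (n : ℕ) :
    Cfsg.IsTransvection (1 + Matrix.vecMulVec (Pi.single (1 : Fin (n + 3)) (1 : F))
      (Pi.single (0 : Fin (n + 3)) (1 : F))) := by
  have hw : Matrix.vecMulVec (Pi.single (1 : Fin (n + 3)) (1 : F)) (Pi.single (0 : Fin (n + 3)) (1 : F))
      *ᵥ Pi.single 0 1 = Pi.single 1 1 := by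
    rw [Matrix.vecMulVec_mulVec, dotProduct_single, Pi.single_eq_same, mul_one]
    simp
  have hv0 : (Pi.single (1 : Fin (n + 3)) (1 : F) : Fin (n + 3) → F) ≠ 0 := by
    intro h
    have := congrFun h 1
    simp at this
  refine ⟨?_, ?_⟩
  · rw [add_sub_cancel_left]
    apply le_antisymm (Matrix.rank_vecMulVec_le _ _)
    have hpos : 0 < Module.finrank F (LinearMap.range
        (Matrix.vecMulVec (Pi.single (1 : Fin (n + 3)) (1 : F))
          (Pi.single (0 : Fin (n + 3)) (1 : F))).mulVecLin) :=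
      (Module.finrank_pos_iff_exists_ne_zero (R := F)).2
        ⟨⟨Pi.single 1 1, ⟨_, hw⟩⟩, fun h => hv0 (congrArg Subtype.val h)⟩
    exact hpos
  · rw [add_sub_cancel_left, Matrix.vecMulVec_mul_vecMulVec]
    have : (Pi.single (0 : Fin (n + 3)) (1 : F)) ⬝ᵥ (Pi.single (1 : Fin (n + 3)) (1 : F)) = 0 := by
      rw [dotProduct_single, mul_one, Pi.single_apply, if_neg]
      exact Fin.zero_ne_one.symm
    rw [this, zero_smul]
    ext i j
    simp [Matrix.vecMulVec_apply]

/-- every transvection of `SL_{n+3}` is `SL`-conjugate to the standard one -/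
theorem sl_conj_std {F : Type*} [Field F] (n : ℕ)
    (t : Matrix.SpecialLinearGroup (Fin (n + 3)) F)
    (ht : Cfsg.IsTransvection (t : Matrix (Fin (n + 3)) (Fin (n + 3)) F)) :
    ∃ (g : Matrix.SpecialLinearGroup (Fin (n + 3)) F),
      (t : Matrix (Fin (n + 3)) (Fin (n + 3)) F) * (g : Matrix (Fin (n + 3)) (Fin (n + 3)) F)
        = (g : Matrix (Fin (n + 3)) (Fin (n + 3)) F) *
          (1 + Matrix.vecMulVec (Pi.single (1 : Fin (n + 3)) (1 : F))
            (Pi.single (0 : Fin (n + 3)) (1 : F))) := by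
  classical
  have h10 : (1 : Fin (n + 3)) ≠ 0 := Fin.zero_ne_one.symm
  have h20 : (2 : Fin (n + 3)) ≠ 0 := by
    intro h
    have := congrArg Fin.val h
    rw [Fin.val_two, Fin.val_zero] at this
    omega
  have h21 : (2 : Fin (n + 3)) ≠ 1 := by
    intro h
    have := congrArg Fin.val h
    rw [Fin.val_two, Fin.val_one] at this
    omega
  obtain ⟨T0, hT0def⟩ : ∃ T0 : Matrix (Fin (n + 3)) (Fin (n + 3)) F,
      T0 = 1 + Matrix.vecMulVec (Pi.single (1 : Fin (n + 3)) (1 : F))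
        (Pi.single (0 : Fin (n + 3)) (1 : F)) := ⟨_, rfl⟩
  have hT0 : Cfsg.IsTransvection T0 := by rw [hT0def]; exact std_transv3 n
  have hT0det : T0.det = 1 := by
    have e : T0 = Matrix.transvection 1 0 1 := by
      rw [hT0def]
      ext i j
      simp only [Matrix.transvection, Matrix.add_apply, Matrix.vecMulVec_apply, Matrix.single_apply,
        Pi.single_apply]
      by_cases hi : i = 1 <;> by_cases hj : j = 0 <;> simp [hi, hj, eq_comm]
    rw [e, Matrix.det_transvection_of_ne _ _ h10]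
  obtain ⟨t0, ht0⟩ : ∃ t0 : GL (Fin (n + 3)) F, (t0 : Matrix (Fin (n + 3)) (Fin (n + 3)) F) = T0 :=
    ⟨Matrix.GeneralLinearGroup.mkOfDetNeZero T0 (by rw [hT0det]; exact one_ne_zero), rfl⟩
  obtain ⟨tG, htG⟩ : ∃ tG : GL (Fin (n + 3)) F,
      (tG : Matrix (Fin (n + 3)) (Fin (n + 3)) F) = (t : Matrix (Fin (n + 3)) (Fin (n + 3)) F) :=
    ⟨Matrix.SpecialLinearGroup.toGL t, rfl⟩
  obtain ⟨c, hc⟩ := isConj_iff.mp (Cfsg.Agent.S2572.gl_conj_transvection (by omega) t0 tG
    (by rw [ht0]; exact hT0) (by rw [htG]; exact ht))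
  have hc' : (t : Matrix (Fin (n + 3)) (Fin (n + 3)) F) * (c : Matrix (Fin (n + 3)) (Fin (n + 3)) F)
      = (c : Matrix (Fin (n + 3)) (Fin (n + 3)) F) * T0 := by
    have h1 : tG * c = c * t0 := by rw [← hc]; group
    have h2 := congrArg (fun x : GL (Fin (n + 3)) F => (x : Matrix (Fin (n + 3)) (Fin (n + 3)) F)) h1
    simp only [Units.val_mul] at h2
    rw [htG, ht0] at h2
    exact h2
  have hcdet : (c : Matrix (Fin (n + 3)) (Fin (n + 3)) F).det ≠ 0 :=
    ((Matrix.isUnit_iff_isUnit_det _).1 c.isUnit).ne_zero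
  obtain ⟨δ, hδ⟩ : ∃ δ : F, δ = ((c : Matrix (Fin (n + 3)) (Fin (n + 3)) F).det)⁻¹ := ⟨_, rfl⟩
  obtain ⟨D, hD⟩ : ∃ D : Matrix (Fin (n + 3)) (Fin (n + 3)) F,
      D = Matrix.diagonal (Function.update (fun _ => (1 : F)) 2 δ) := ⟨_, rfl⟩
  have hDdet : D.det = δ := by
    rw [hD, Matrix.det_diagonal, Finset.prod_update_of_mem (Finset.mem_univ 2)]
    simp
  have hGdet : ((c : Matrix (Fin (n + 3)) (Fin (n + 3)) F) * D).det = 1 := by
    rw [Matrix.det_mul, hDdet, hδ, mul_inv_cancel₀ hcdet]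
  have hd0 : Function.update (fun _ => (1 : F)) (2 : Fin (n + 3)) δ 0 = 1 :=
    Function.update_of_ne h20.symm _ _
  have hd1 : Function.update (fun _ => (1 : F)) (2 : Fin (n + 3)) δ 1 = 1 :=
    Function.update_of_ne h21.symm _ _
  have hTD : T0 * D = D * T0 := by
    rw [hT0def, hD, add_mul, mul_add, one_mul, mul_one]
    congr 1
    ext i j
    rw [Matrix.mul_diagonal, Matrix.diagonal_mul, Matrix.vecMulVec_apply]
    by_cases hi : i = 1
    · by_cases hj : j = 0
      · subst hi; subst hj; rw [hd0, hd1]; ring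
      · rw [Pi.single_eq_of_ne hj]; ring
    · rw [Pi.single_eq_of_ne hi]; ring
  refine ⟨⟨(c : Matrix (Fin (n + 3)) (Fin (n + 3)) F) * D, hGdet⟩, ?_⟩
  show (t : Matrix (Fin (n + 3)) (Fin (n + 3)) F) *
      ((c : Matrix (Fin (n + 3)) (Fin (n + 3)) F) * D)
      = ((c : Matrix (Fin (n + 3)) (Fin (n + 3)) F) * D) * _
  rw [← hT0def, ← mul_assoc, hc', mul_assoc, hTD, mul_assoc]

theorem sl_conj_transv {F : Type*} [Field F] (n : ℕ)
    (s t : Matrix.SpecialLinearGroup (Fin (n + 3)) F)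
    (hs : Cfsg.IsTransvection (s : Matrix (Fin (n + 3)) (Fin (n + 3)) F))
    (ht : Cfsg.IsTransvection (t : Matrix (Fin (n + 3)) (Fin (n + 3)) F)) : IsConj s t := by
  obtain ⟨a, ha⟩ := sl_conj_std n s hs
  obtain ⟨b, hb⟩ := sl_conj_std n t ht
  rw [isConj_iff]
  refine ⟨b * a⁻¹, ?_⟩
  have hainv : (a : Matrix (Fin (n + 3)) (Fin (n + 3)) F) *
      ((a⁻¹ : Matrix.SpecialLinearGroup (Fin (n + 3)) F) : Matrix (Fin (n + 3)) (Fin (n + 3)) F)
      = 1 := by
    rw [← Matrix.SpecialLinearGroup.coe_mul, mul_inv_cancel, Matrix.SpecialLinearGroup.coe_one]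
  -- b a⁻¹ s = t b a⁻¹
  have key : b * a⁻¹ * s = t * (b * a⁻¹) := by
    apply Subtype.ext
    simp only [Matrix.SpecialLinearGroup.coe_mul]
    -- s = a T0 a⁻¹ ; t b = b T0
    have hs' : (s : Matrix (Fin (n + 3)) (Fin (n + 3)) F)
        = (a : Matrix (Fin (n + 3)) (Fin (n + 3)) F) * (1 + Matrix.vecMulVec
          (Pi.single (1 : Fin (n + 3)) (1 : F)) (Pi.single (0 : Fin (n + 3)) (1 : F))) *
          ((a⁻¹ : Matrix.SpecialLinearGroup (Fin (n + 3)) F) :
            Matrix (Fin (n + 3)) (Fin (n + 3)) F) := by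
      rw [← ha, mul_assoc, hainv, mul_one]
    have hainv' : ((a⁻¹ : Matrix.SpecialLinearGroup (Fin (n + 3)) F) :
        Matrix (Fin (n + 3)) (Fin (n + 3)) F) * (a : Matrix (Fin (n + 3)) (Fin (n + 3)) F) = 1 := by
      rw [← Matrix.SpecialLinearGroup.coe_mul, inv_mul_cancel, Matrix.SpecialLinearGroup.coe_one]
    rw [hs']
    calc (b : Matrix (Fin (n + 3)) (Fin (n + 3)) F) *
          ((a⁻¹ : Matrix.SpecialLinearGroup (Fin (n + 3)) F) :
            Matrix (Fin (n + 3)) (Fin (n + 3)) F) *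
          ((a : Matrix (Fin (n + 3)) (Fin (n + 3)) F) * (1 + Matrix.vecMulVec
          (Pi.single (1 : Fin (n + 3)) (1 : F)) (Pi.single (0 : Fin (n + 3)) (1 : F))) *
          ((a⁻¹ : Matrix.SpecialLinearGroup (Fin (n + 3)) F) :
            Matrix (Fin (n + 3)) (Fin (n + 3)) F))
        = (b : Matrix (Fin (n + 3)) (Fin (n + 3)) F) *
          (((a⁻¹ : Matrix.SpecialLinearGroup (Fin (n + 3)) F) :
            Matrix (Fin (n + 3)) (Fin (n + 3)) F) * (a : Matrix (Fin (n + 3)) (Fin (n + 3)) F)) *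
          (1 + Matrix.vecMulVec
          (Pi.single (1 : Fin (n + 3)) (1 : F)) (Pi.single (0 : Fin (n + 3)) (1 : F))) *
          ((a⁻¹ : Matrix.SpecialLinearGroup (Fin (n + 3)) F) :
            Matrix (Fin (n + 3)) (Fin (n + 3)) F) := by simp only [mul_assoc]
      _ = _ := by rw [hainv', mul_one, ← hb]; simp only [mul_assoc]
  rw [key]
  group

theorem rank_pos_of_ne {F : Type*} [Field F] {n : Type*} [Fintype n] [DecidableEq n]
    (N : Matrix n n F) (hN : N ≠ 0) : 1 ≤ N.rank := by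
  by_contra h
  have h0 : N.rank = 0 := by omega
  apply hN
  unfold Matrix.rank at h0
  have hr : LinearMap.range N.mulVecLin = ⊥ := Submodule.finrank_eq_zero.mp h0
  rw [LinearMap.range_eq_bot] at hr
  ext i j
  have := congrFun (congrArg (fun f => f (Pi.single j 1)) hr) i
  simpa using this

theorem lift_transv {F : Type*} [Field F] [Fintype F] (hF : Fintype.card F = 4)
    (x : Matrix.ProjectiveSpecialLinearGroup (Fin 3) F) (hx : orderOf x = 2) :
    ∃ X : Matrix.SpecialLinearGroup (Fin 3) F,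
      (QuotientGroup.mk X : Matrix.ProjectiveSpecialLinearGroup (Fin 3) F) = x ∧
      Cfsg.IsTransvection (X : Matrix (Fin 3) (Fin 3) F) := by
  classical
  have h2 : (2 : F) = 0 := by
    have h4 := Nat.cast_card_eq_zero F
    rw [hF] at h4
    have h5 : (2 : F) * 2 = 0 := by
      have : ((4 : ℕ) : F) = 2 * 2 := by norm_num
      rw [← this]; exact h4
    rcases mul_eq_zero.mp h5 with h | h <;> exact h
  obtain ⟨x₀, rfl⟩ := QuotientGroup.mk_surjective x
  have hx2 : (QuotientGroup.mk x₀ : Matrix.ProjectiveSpecialLinearGroup (Fin 3) F) ^ 2 = 1 := by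
    rw [← hx]; exact pow_orderOf_eq_one _
  have hx1 : (QuotientGroup.mk x₀ : Matrix.ProjectiveSpecialLinearGroup (Fin 3) F) ≠ 1 := by
    intro h
    rw [h, orderOf_one] at hx
    omega
  have hz : x₀ ^ 2 ∈ Subgroup.center (Matrix.SpecialLinearGroup (Fin 3) F) := by
    rw [← QuotientGroup.eq_one_iff, QuotientGroup.mk_pow]; exact hx2
  have hz3 := Cfsg.Agent.S2364.center_pow 3 (by norm_num) _ hz
  rw [hF] at hz3
  have hx3 : (QuotientGroup.mk (x₀ ^ 3) : Matrix.ProjectiveSpecialLinearGroup (Fin 3) F)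
      = QuotientGroup.mk x₀ := by
    rw [QuotientGroup.mk_pow, pow_succ, hx2, one_mul]
  refine ⟨x₀ ^ 3, hx3, ?_⟩
  have hXX : (x₀ ^ 3) * (x₀ ^ 3) = 1 := by
    rw [← pow_add, ← hz3, ← pow_mul]
  have hX1 : x₀ ^ 3 ≠ 1 := by
    intro h
    apply hx1
    rw [← hx3, h]; rfl
  obtain ⟨M, hM⟩ : ∃ M : Matrix (Fin 3) (Fin 3) F,
      M = ((x₀ ^ 3 : Matrix.SpecialLinearGroup (Fin 3) F) : Matrix (Fin 3) (Fin 3) F) := ⟨_, rfl⟩
  rw [← hM]
  have hMM : M * M = 1 := by
    rw [hM, ← Matrix.SpecialLinearGroup.coe_mul, hXX, Matrix.SpecialLinearGroup.coe_one]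
  have hM1 : M - 1 ≠ 0 := by
    intro h
    apply hX1
    apply Subtype.ext
    rw [Matrix.SpecialLinearGroup.coe_one, ← hM]; exact sub_eq_zero.mp h
  have h2M : M + M = 0 := by
    ext i j
    rw [Matrix.add_apply, Matrix.zero_apply, ← two_mul, h2, zero_mul]
  have h11 : (1 : Matrix (Fin 3) (Fin 3) F) + 1 = 0 := by
    ext i j
    rw [Matrix.add_apply, Matrix.zero_apply, ← two_mul, h2, zero_mul]
  have hN2 : (M - 1) * (M - 1) = 0 := by
    have : (M - 1) * (M - 1) = M * M - (M + M) + 1 := by noncomm_ring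
    rw [this, hMM, h2M, sub_zero, h11]
  refine ⟨?_, hN2⟩
  have hle := Matrix.rank_add_rank_le_card_of_mul_eq_zero hN2
  rw [Fintype.card_fin] at hle
  have hge := rank_pos_of_ne _ hM1
  omega

theorem main {F : Type*} [Field F] [Fintype F] (hF : Fintype.card F = 4) (x y : Matrix.ProjectiveSpecialLinearGroup (Fin 3) F) (hx : orderOf x = 2) (hy : orderOf y = 2) : IsConj x y := by
  obtain ⟨X, rfl, hX⟩ := lift_transv hF x hx
  obtain ⟨Y, rfl, hY⟩ := lift_transv hF y hy
  have h := sl_conj_transv 0 X Y hX hY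
  exact (QuotientGroup.mk' (Subgroup.center (Matrix.SpecialLinearGroup (Fin 3) F))).map_isConj h

theorem result {F : Type*} [Field F] [Fintype F] (hF : Fintype.card F = 4) (x y : Matrix.ProjectiveSpecialLinearGroup (Fin 3) F) (hx : orderOf x = 2) (hy : orderOf y = 2) : IsConj x y := by
  exact main hF x y hx hy

end Cfsg.Agent.S0820
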