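import Cfsg.Statements.S0829
import Cfsg.Agent.Lib.Helper1.Herm
import Cfsg.Agent.Lib.Helper1.HermGU
import Cfsg.Agent.S2644
import Cfsg.Agent.S0828

set_option autoImplicit false
open Cfsg


namespace Cfsg.Agent.S0829

open Matrix Cfsg.Agent.Lib.Helper1.Herm Cfsg.Agent.S2644 Cfsg.Agent.S0828

section herm
variable {F : Type*} [Field F] {q : ℕ}

theorem ti_iff {ι : Type} [Fintype ι] (σ : F →+* F) (hσ : ∀ x, σ x = x ^ q)
    (hσ2 : ∀ x, σ (σ x) = x) (hq0 : q ≠ 0) (u v : ι → F) :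
    (∀ x ∈ Submodule.span F ({u, v} : Set (ι → F)),
      ∀ y ∈ Submodule.span F ({u, v} : Set (ι → F)), hf ι q x y = 0)
      ↔ (hf ι q u u = 0 ∧ hf ι q v u = 0 ∧ hf ι q v v = 0) := by
  constructor
  · intro h
    have hu : u ∈ Submodule.span F ({u, v} : Set (ι → F)) := Submodule.subset_span (by simp)
    have hv : v ∈ Submodule.span F ({u, v} : Set (ι → F)) := Submodule.subset_span (by simp)
    exact ⟨h u hu u hu, h v hv u hu, h v hv v hv⟩
  · rintro ⟨h1, h2, h3⟩ x hx y hy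
    have h4 : hf ι q u v = 0 := by rw [← hf_conj σ hσ hσ2, h2, zero_pow hq0]
    obtain ⟨a, b, rfl⟩ := Submodule.mem_span_pair.1 hx
    obtain ⟨c, d, rfl⟩ := Submodule.mem_span_pair.1 hy
    simp only [hf_add_left, hf_add_right σ hσ, hf_smul_left, hf_smul_right, h1, h2, h3, h4]
    ring

theorem card_transfer [Fintype F] {ι : Type} [Fintype ι] [DecidableEq ι] (σ : F →+* F)
    (hσ : ∀ x, σ x = x ^ q) (u u' : ι → F) (M : Matrix ι ι F) (hM : IsIso ι q M)
    (hMu : M *ᵥ u = u') :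
    Nat.card {v : ι → F // hf ι q v u = 0 ∧ hf ι q v v = 0}
      ≤ Nat.card {v : ι → F // hf ι q v u' = 0 ∧ hf ι q v v = 0} := by
  refine Nat.card_le_card_of_injective
    (fun v => ⟨M *ᵥ v.1, by rw [← hMu, hM, hM]; exact v.2⟩) ?_
  intro v v' h
  exact Subtype.ext (iso_injective σ hσ M hM (congrArg Subtype.val h))

def u0 (m : ℕ) (a : F) : Fin (m + 2) → F := Fin.cons 1 (Fin.cons a 0)

theorem hf_split2 (m : ℕ) (v w : Fin (m + 2) → F) :
    hf (Fin (m + 2)) q v w = v 0 * w 0 ^ q + (v 1 * w 1 ^ q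
      + hf (Fin m) q (fun i => v i.succ.succ) (fun i => w i.succ.succ)) := by
  unfold hf
  rw [Fin.sum_univ_succ, Fin.sum_univ_succ]
  rfl

theorem hf_u0 (hq0 : q ≠ 0) (m : ℕ) (a : F) (v : Fin (m + 2) → F) :
    hf (Fin (m + 2)) q v (u0 m a) = v 0 + v 1 * a ^ q := by
  rw [hf_split2]
  have h1 : hf (Fin m) q (fun i => v i.succ.succ) (fun i => (u0 m a) i.succ.succ) = 0 := by
    unfold hf
    refine Finset.sum_eq_zero (fun i _ => ?_)
    show v i.succ.succ * (0 : F) ^ q = 0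
    rw [zero_pow hq0, mul_zero]
  rw [h1, add_zero]
  show v 0 * (1 : F) ^ q + v 1 * a ^ q = _
  rw [one_pow, mul_one]

theorem key_norm (x a : F) (ha : a ^ (q + 1) = -1) :
    (-(x * a ^ q)) ^ (q + 1) + x ^ (q + 1) = 0 := by
  have h1 : (a ^ q) ^ (q + 1) = (-1) ^ q := by rw [← pow_mul, mul_comm, pow_mul, ha]
  have h2 : ((-1 : F)) ^ (q + 1) * (-1) ^ q = -1 := by
    rw [← pow_add]
    exact Odd.neg_one_pow ⟨q, by ring⟩
  rw [neg_pow, mul_pow, h1]
  linear_combination x ^ (q + 1) * h2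

theorem hf_self {ι : Type} [Fintype ι] (v : ι → F) : hf ι q v v = ∑ i, v i ^ (q + 1) := by
  unfold hf
  exact Finset.sum_congr rfl (fun i _ => (pow_succ' _ _).symm)

theorem card_u0 [Fintype F] (hF : Fintype.card F = q ^ 2) (m : ℕ) (a : F)
    (ha : a ^ (q + 1) = -1) :
    Nat.card {v : Fin (m + 2) → F // hf (Fin (m + 2)) q v (u0 m a) = 0 ∧
      hf (Fin (m + 2)) q v v = 0} = q ^ 2 * cnt q m (0 : F) := by
  have hq0 : q ≠ 0 := by have := two_le_q hF; omega
  have e : {v : Fin (m + 2) → F // hf (Fin (m + 2)) q v (u0 m a) = 0 ∧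
      hf (Fin (m + 2)) q v v = 0} ≃ F × {v' : Fin m → F // ∑ i, v' i ^ (q + 1) = 0} :=
    { toFun := fun v => (v.1 1, ⟨fun i => v.1 i.succ.succ, by
          have h1 := v.2.1
          have h2 := v.2.2
          rw [hf_u0 hq0] at h1
          rw [hf_split2, ← pow_succ', ← pow_succ'] at h2
          rw [← hf_self]
          have h3 : v.1 0 = -(v.1 1 * a ^ q) := by linear_combination h1
          have h4 := key_norm (v.1 1) a ha
          rw [← h3] at h4
          linear_combination h2 - h4⟩)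
      invFun := fun p => ⟨Fin.cons (-(p.1 * a ^ q)) (Fin.cons p.1 p.2.1), by
          constructor
          · rw [hf_u0 hq0]
            show -(p.1 * a ^ q) + p.1 * a ^ q = 0
            ring
          · rw [hf_split2, ← pow_succ', ← pow_succ']
            have h1 : hf (Fin m) q
                (fun i => (Fin.cons (-(p.1 * a ^ q)) (Fin.cons p.1 p.2.1) : Fin (m + 2) → F)
                  i.succ.succ)
                (fun i => (Fin.cons (-(p.1 * a ^ q)) (Fin.cons p.1 p.2.1) : Fin (m + 2) → F)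
                  i.succ.succ) = 0 := by
              show hf (Fin m) q p.2.1 p.2.1 = 0
              rw [hf_self]
              exact p.2.2
            rw [h1, add_zero]
            exact key_norm p.1 a ha⟩
      left_inv := fun v => by
        apply Subtype.ext
        funext i
        have h1 := v.2.1
        rw [hf_u0 hq0] at h1
        refine Fin.cases ?_ (fun j => Fin.cases ?_ (fun k => ?_) j) i
        · show -(v.1 1 * a ^ q) = v.1 0
          linear_combination -h1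
        · rfl
        · rfl
      right_inv := fun p => rfl }
  rw [Nat.card_congr e, Nat.card_prod, Nat.card_eq_fintype_card, hF]
  rfl

theorem card_iso_perp [Fintype F] (hF : Fintype.card F = q ^ 2) (m : ℕ) (u : Fin (m + 2) → F)
    (hu0 : u ≠ 0) (hu : hf (Fin (m + 2)) q u u = 0) :
    Nat.card {v : Fin (m + 2) → F // hf (Fin (m + 2)) q v u = 0 ∧
      hf (Fin (m + 2)) q v v = 0} = q ^ 2 * cnt q m (0 : F) := by
  obtain ⟨σ, hσ⟩ := exists_frob hF
  have hσ2 : ∀ x, σ (σ x) = x := fun x => by rw [hσ, hσ, pow_q_pow_q hF]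
  have hq0 : q ≠ 0 := by have := two_le_q hF; omega
  obtain ⟨a, -, ha⟩ := norm_surj hF (-1 : F) (neg_ne_zero.2 one_ne_zero)
    (by rw [← hσ, map_neg, map_one])
  have hu00 : u0 m a ≠ 0 := by
    intro h
    have h1 := congrFun h 0
    exact one_ne_zero h1
  have hu0u0 : hf (Fin (m + 2)) q (u0 m a) (u0 m a) = 0 := by
    rw [hf_u0 hq0]
    show (1 : F) + a * a ^ q = 0
    rw [← pow_succ', ha]
    ring
  obtain ⟨M1, hM1, hM1u⟩ := exists_iso_isotropic hF σ hσ hσ2 u (u0 m a) hu0 hu00 hu hu0u0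
  obtain ⟨M2, hM2, hM2u⟩ := exists_iso_isotropic hF σ hσ hσ2 (u0 m a) u hu00 hu0 hu0u0 hu
  rw [← card_u0 hF m a ha]
  exact le_antisymm (card_transfer σ hσ u (u0 m a) M1 hM1 hM1u)
    (card_transfer σ hσ (u0 m a) u M2 hM2 hM2u)

theorem rel [Fintype F] (hF : Fintype.card F = q ^ 2) (m : ℕ) :
    Nat.card {W : Submodule F (Fin (m + 2) → F) // Module.finrank F W = 2 ∧
        ∀ u ∈ W, ∀ v ∈ W, Cfsg.hermForm (m + 2) F q u v = 0}
      * (((q ^ 2) ^ 2 - 1) * ((q ^ 2) ^ 2 - q ^ 2))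
      = (cnt q (m + 2) (0 : F) - 1) * (q ^ 2 * cnt q m (0 : F) - q ^ 2) := by
  obtain ⟨σ, hσ⟩ := exists_frob hF
  have hσ2 : ∀ x, σ (σ x) = x := fun x => by rw [hσ, hσ, pow_q_pow_q hF]
  have hq0 : q ≠ 0 := by have := two_le_q hF; omega
  have h1 := fib (F := F) (V := Fin (m + 2) → F)
    (fun W => ∀ u ∈ W, ∀ v ∈ W, Cfsg.hermForm (m + 2) F q u v = 0)
  rw [hF] at h1
  rw [← h1]
  have hcnt : ∀ u : Fin (m + 2) → F, (u ≠ 0 ∧ hf (Fin (m + 2)) q u u = 0) →
      Nat.card {w // LinearIndependent F ![u, w] ∧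
        (hf (Fin (m + 2)) q w u = 0 ∧ hf (Fin (m + 2)) q w w = 0)}
        = q ^ 2 * cnt q m (0 : F) - q ^ 2 := by
    rintro u ⟨hu0, hu⟩
    have h2 := card_li u hu0
      (fun w => hf (Fin (m + 2)) q w u = 0 ∧ hf (Fin (m + 2)) q w w = 0)
      (fun a => by
        constructor
        · rw [hf_smul_left, hu, mul_zero]
        · rw [hf_smul_left, hf_smul_right, hu, mul_zero, mul_zero])
    rw [card_iso_perp hF m u hu0 hu, hF] at h2
    omega
  have h2 := fib1 (F := F) (V := Fin (m + 2) → F)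
    (fun u => u ≠ 0 ∧ hf (Fin (m + 2)) q u u = 0)
    (fun u w => hf (Fin (m + 2)) q w u = 0 ∧ hf (Fin (m + 2)) q w w = 0)
    (q ^ 2 * cnt q m (0 : F) - q ^ 2) hcnt
  have h3 : Nat.card {u : Fin (m + 2) → F // u ≠ 0 ∧ hf (Fin (m + 2)) q u u = 0}
      = cnt q (m + 2) (0 : F) - 1 := by
    have h4 := card_diff (V := Fin (m + 2) → F) (fun u => hf (Fin (m + 2)) q u u = 0)
      (fun u => u = 0) (fun u hu => by rw [hu, hf_zero_left])
    have h5 : Nat.card {v : Fin (m + 2) → F // v = 0} = 1 := by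
      haveI : Unique {v : Fin (m + 2) → F // v = 0} := ⟨⟨⟨0, rfl⟩⟩, fun v => Subtype.ext v.2⟩
      exact Nat.card_unique
    have h6 : Nat.card {u : Fin (m + 2) → F // hf (Fin (m + 2)) q u u = 0}
        = cnt q (m + 2) (0 : F) := by
      unfold cnt
      exact Nat.card_congr (Equiv.subtypeEquivRight (fun v => by rw [hf_self]))
    have h7 : Nat.card {u : Fin (m + 2) → F // u ≠ 0 ∧ hf (Fin (m + 2)) q u u = 0}
        = Nat.card {u : Fin (m + 2) → F // hf (Fin (m + 2)) q u u = 0 ∧ ¬ u = 0} :=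
      Nat.card_congr (Equiv.subtypeEquivRight (fun v => and_comm))
    omega
  rw [← h3, ← h2]
  refine Nat.card_congr (Equiv.subtypeEquivRight (fun p => ?_))
  have h4 := ti_iff σ hσ hσ2 hq0 p.1 p.2
  constructor
  · rintro ⟨h, h'⟩
    obtain ⟨h5, h6, h7⟩ := h4.1 h'
    exact ⟨⟨h.ne_zero 0, h5⟩, h, h6, h7⟩
  · rintro ⟨⟨_, h5⟩, h, h6, h7⟩
    exact ⟨h, h4.2 ⟨h5, h6, h7⟩⟩

end herm

theorem main {F : Type*} [Field F] [Fintype F] {q : ℕ} (hF : Fintype.card F = q ^ 2) : Nat.card {W : Submodule F (Fin 4 → F) // Module.finrank F W = 2 ∧ ∀ u ∈ W, ∀ v ∈ W, Cfsg.hermForm 4 F q u v = 0} = (q + 1) * (q ^ 3 + 1) := by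
  have hq := two_le_q hF
  have h1 : Nat.card {W : Submodule F (Fin 4 → F) // Module.finrank F W = 2 ∧
        ∀ u ∈ W, ∀ v ∈ W, Cfsg.hermForm 4 F q u v = 0}
      * (((q ^ 2) ^ 2 - 1) * ((q ^ 2) ^ 2 - q ^ 2))
      = (cnt q 4 (0 : F) - 1) * (q ^ 2 * cnt q 2 (0 : F) - q ^ 2) := rel hF 2
  have h2 := card_zero hF 4
  have h3 := card_zero hF 2
  rw [if_pos (by decide)] at h2 h3
  obtain ⟨A, hA⟩ : ∃ A, q ^ 2 = A + 1 :=
    ⟨q ^ 2 - 1, by have : 1 ≤ q ^ 2 := Nat.one_le_pow _ _ (by omega); omega⟩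
  have hApos : 0 < A := by
    have h1 : q * 2 ≤ q * q := Nat.mul_le_mul_left q hq
    have h2 : q ^ 2 = q * q := sq q
    omega
  have e1 : q ^ 4 - 1 = A * (A + 2) := by
    apply Nat.sub_eq_of_eq_add
    have : q ^ 4 = q ^ 2 * q ^ 2 := by ring
    rw [this, hA]
    ring
  have e2 : (q ^ 2) ^ 2 - 1 = A * (A + 2) := by
    apply Nat.sub_eq_of_eq_add
    rw [hA]
    ring
  have e3 : (q ^ 2) ^ 2 - q ^ 2 = (A + 1) * A := by
    apply Nat.sub_eq_of_eq_add
    rw [hA]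
    ring
  have e4 : q ^ 2 - 1 = A := by omega
  have c4 : cnt q 4 (0 : F) - 1 = A * (A + 2) * (q ^ 3 + 1) := by
    rw [h2, Nat.add_sub_cancel, e1]
  have c2 : q ^ 2 * cnt q 2 (0 : F) - q ^ 2 = (A + 1) * (A * (q + 1)) := by
    rw [h3, Nat.mul_add, Nat.mul_one, Nat.add_sub_cancel, e4, hA]
    norm_num
  rw [c4, c2, e2, e3] at h1
  refine Nat.eq_of_mul_eq_mul_right
    (Nat.mul_pos (Nat.mul_pos hApos (by omega : 0 < A + 2))
      (Nat.mul_pos (by omega : 0 < A + 1) hApos)) ?_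
  rw [h1]
  ring

theorem result {F : Type*} [Field F] [Fintype F] {q : ℕ} (hF : Fintype.card F = q ^ 2) : Nat.card {W : Submodule F (Fin 4 → F) // Module.finrank F W = 2 ∧ ∀ u ∈ W, ∀ v ∈ W, Cfsg.hermForm 4 F q u v = 0} = (q + 1) * (q ^ 3 + 1) := by
  exact main hF

end Cfsg.Agent.S0829
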