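import Cfsg.Statements.S0830
import Cfsg.Agent.Lib.Helper1.Herm
import Cfsg.Agent.S0829

set_option autoImplicit false
open Cfsg


namespace Cfsg.Agent.S0830

open Matrix Cfsg.Agent.Lib.Helper1.Herm Cfsg.Agent.S0829

theorem main {F : Type*} [Field F] [Fintype F] {q : ℕ} (hF : Fintype.card F = q ^ 2) : Nat.card {W : Submodule F (Fin 5 → F) // Module.finrank F W = 2 ∧ ∀ u ∈ W, ∀ v ∈ W, Cfsg.hermForm 5 F q u v = 0} = (q ^ 3 + 1) * (q ^ 5 + 1) := by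
  have hq := two_le_q hF
  have h1 : Nat.card {W : Submodule F (Fin 5 → F) // Module.finrank F W = 2 ∧
        ∀ u ∈ W, ∀ v ∈ W, Cfsg.hermForm 5 F q u v = 0}
      * (((q ^ 2) ^ 2 - 1) * ((q ^ 2) ^ 2 - q ^ 2))
      = (cnt q 5 (0 : F) - 1) * (q ^ 2 * cnt q 3 (0 : F) - q ^ 2) := rel hF 3
  have h2 := card_zero hF 5
  have h3 := card_zero hF 3
  rw [if_neg (by decide)] at h2 h3
  obtain ⟨A, hA⟩ : ∃ A, q ^ 2 = A + 1 :=
    ⟨q ^ 2 - 1, by have : 1 ≤ q ^ 2 := Nat.one_le_pow _ _ (by omega); omega⟩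
  have hApos : 0 < A := by
    have h1 : q * 2 ≤ q * q := Nat.mul_le_mul_left q hq
    have h2 : q ^ 2 = q * q := sq q
    omega
  have e1 : q ^ (5 - 1) - 1 = A * (A + 2) := by
    apply Nat.sub_eq_of_eq_add
    have : q ^ (5 - 1) = q ^ 2 * q ^ 2 := by norm_num; ring
    rw [this, hA]
    ring
  have e2 : (q ^ 2) ^ 2 - 1 = A * (A + 2) := by
    apply Nat.sub_eq_of_eq_add
    rw [hA]
    ring
  have e3 : (q ^ 2) ^ 2 - q ^ 2 = (A + 1) * A := by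
    apply Nat.sub_eq_of_eq_add
    rw [hA]
    ring
  have e4 : q ^ (3 - 1) - 1 = A := by
    have : q ^ (3 - 1) = q ^ 2 := by norm_num
    omega
  have c5 : cnt q 5 (0 : F) - 1 = (q ^ 5 + 1) * (A * (A + 2)) := by
    rw [h2, Nat.add_sub_cancel, e1]
  have c3 : q ^ 2 * cnt q 3 (0 : F) - q ^ 2 = (A + 1) * ((q ^ 3 + 1) * A) := by
    rw [h3, Nat.mul_add, Nat.mul_one, Nat.add_sub_cancel, e4, hA]
  rw [c5, c3, e2, e3] at h1
  refine Nat.eq_of_mul_eq_mul_right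
    (Nat.mul_pos (Nat.mul_pos hApos (by omega : 0 < A + 2))
      (Nat.mul_pos (by omega : 0 < A + 1) hApos)) ?_
  rw [h1]
  ring

theorem result {F : Type*} [Field F] [Fintype F] {q : ℕ} (hF : Fintype.card F = q ^ 2) : Nat.card {W : Submodule F (Fin 5 → F) // Module.finrank F W = 2 ∧ ∀ u ∈ W, ∀ v ∈ W, Cfsg.hermForm 5 F q u v = 0} = (q ^ 3 + 1) * (q ^ 5 + 1) := by
  exact main hF

end Cfsg.Agent.S0830
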