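import Cfsg.Statements.S0831
import Cfsg.Agent.S0832

set_option autoImplicit false
open Cfsg


namespace Cfsg.Agent.S0831

open Cfsg Cfsg.Agent.S0832

section
variable {F : Type*} [Field F] {m : ℕ}

theorem orth_sup (A B : Submodule F (Fin m ⊕ Fin m → F)) :
    (polB m).orthogonal (A ⊔ B) = (polB m).orthogonal A ⊓ (polB m).orthogonal B := by
  apply le_antisymm
  · intro x hx
    exact ⟨fun n hn => hx n (Submodule.mem_sup_left hn),
      fun n hn => hx n (Submodule.mem_sup_right hn)⟩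
  · intro x hx n hn
    obtain ⟨a, ha, b, hb, rfl⟩ := Submodule.mem_sup.1 hn
    show pol m (a + b) x = 0
    have h1 : pol m a x = 0 := hx.1 a ha
    have h2 : pol m b x = 0 := hx.2 b hb
    rw [pol_add_left, h1, h2, add_zero]

theorem orth_self (X : Submodule F (Fin m ⊕ Fin m → F)) (hX : TS m X)
    (hd : Module.finrank F X = m) : (polB m).orthogonal X = X :=
  (Submodule.eq_of_le_of_finrank_eq (ts_le_orth _ hX) (by rw [finrank_orth, hd]; omega)).symm

theorem exists_hyper (U S : Submodule F (Fin m ⊕ Fin m → F)) (x : Fin m ⊕ Fin m → F)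
    (hxU : x ∈ U) (hxS : x ∉ S) :
    ∃ D : Submodule F (Fin m ⊕ Fin m → F), U ⊓ S ≤ D ∧ D ≤ U ∧
      Module.finrank F D + 1 = Module.finrank F U := by
  obtain ⟨f, hfx, hSf⟩ := Submodule.exists_le_ker_of_notMem hxS
  refine ⟨U ⊓ LinearMap.ker f, inf_le_inf_left U hSf, inf_le_left, ?_⟩
  have hxD : x ∉ U ⊓ LinearMap.ker f := fun h => hfx (LinearMap.mem_ker.1 h.2)
  have hsup : (U ⊓ LinearMap.ker f) ⊔ Submodule.span F {x} = U := by
    apply le_antisymm
    · exact sup_le inf_le_left (by rw [Submodule.span_singleton_le_iff_mem]; exact hxU)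
    · intro u hu
      rw [Submodule.mem_sup]
      refine ⟨u - (f u / f x) • x, ⟨U.sub_mem hu (U.smul_mem _ hxU), ?_⟩, (f u / f x) • x,
        Submodule.smul_mem _ _ (Submodule.mem_span_singleton_self x), sub_add_cancel _ _⟩
      show f (u - (f u / f x) • x) = 0
      rw [map_sub, map_smul, smul_eq_mul, div_mul_cancel₀ _ hfx, sub_self]
  rw [← Submodule.finrank_sup_span_singleton hxD, hsup]

theorem adj (D X : Submodule F (Fin m ⊕ Fin m → F)) (hD : TS m D)
    (hDd : Module.finrank F D + 1 = m) (hX : TS m X) (hXd : Module.finrank F X = m) :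
    ∃ Y : Submodule F (Fin m ⊕ Fin m → F), Module.finrank F Y = m ∧ TS m Y ∧ D ≤ Y ∧
      Module.finrank F ↥(X ⊓ Y) = Module.finrank F ↥(X ⊓ D) + 1 ∧
      ∀ E' : Submodule F (Fin m ⊕ Fin m → F), Module.finrank F E' = m → TS m E' → D ≤ E' →
        E' ≠ Y → X ⊓ E' = X ⊓ D := by
  obtain ⟨P, hP⟩ : ∃ P, P = (polB m).orthogonal D := ⟨_, rfl⟩
  have hDP : D ≤ P := by rw [hP]; exact ts_le_orth D hD
  have h1 : Module.finrank F ↥(X ⊓ P) = Module.finrank F ↥(X ⊓ D) + 1 := by
    have h2 : X ⊓ P = (polB m).orthogonal (X ⊔ D) := by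
      rw [orth_sup, orth_self X hX hXd, hP]
    rw [h2, finrank_orth]
    have h3 := Submodule.finrank_sup_add_finrank_inf_eq X D
    have h4 : Module.finrank F ↥(X ⊓ D) ≤ Module.finrank F D :=
      Submodule.finrank_mono inf_le_right
    omega
  obtain ⟨Y, hY⟩ : ∃ Y, Y = (X ⊓ P) ⊔ D := ⟨_, rfl⟩
  have hYts : TS m Y := by
    intro y hy
    rw [hY] at hy
    obtain ⟨x, hx, d, hd, rfl⟩ := Submodule.mem_sup.1 hy
    have h5 : pol m d x = 0 := by
      have := hx.2
      rw [hP] at this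
      exact this d hd
    rw [Q_add, hX x hx.1, hD d hd, pol_comm, h5]
    ring
  have hYd : Module.finrank F Y = m := by
    have h3 := Submodule.finrank_sup_add_finrank_inf_eq (X ⊓ P) D
    have h4 : (X ⊓ P) ⊓ D = X ⊓ D := by
      rw [inf_assoc, inf_eq_right.2 hDP]
    rw [h4, ← hY] at h3
    omega
  have hDY : D ≤ Y := by rw [hY]; exact le_sup_right
  have hXY : X ⊓ Y = X ⊓ P := by
    apply le_antisymm
    · intro x hx
      refine ⟨hx.1, ?_⟩
      rw [hP]
      exact fun n hn => ts_pol Y hYts n x (hDY hn) hx.2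
    · intro x hx
      exact ⟨hx.1, by rw [hY]; exact Submodule.mem_sup_left hx⟩
  refine ⟨Y, hYd, hYts, hDY, by rw [hXY]; exact h1, ?_⟩
  intro E' hE'd hE'ts hDE' hne
  apply le_antisymm
  · intro x hx
    refine ⟨hx.1, ?_⟩
    have hxP : x ∈ P := by
      rw [hP]
      exact fun n hn => ts_pol E' hE'ts n x (hDE' hn) hx.2
    have hxY : x ∈ Y := by
      rw [hY]
      exact Submodule.mem_sup_left ⟨hx.1, hxP⟩
    have hYE : Y ⊓ E' = D := by
      symm
      apply Submodule.eq_of_le_of_finrank_le (le_inf hDY hDE')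
      by_contra hcon
      push_neg at hcon
      have h6 : Module.finrank F ↥(Y ⊓ E') ≤ Module.finrank F E' :=
        Submodule.finrank_mono inf_le_right
      have h7 : Y ⊓ E' = E' := Submodule.eq_of_le_of_finrank_eq inf_le_right (by omega)
      have h8 : Y ⊓ E' = Y := Submodule.eq_of_le_of_finrank_eq inf_le_left (by omega)
      exact hne (h7.symm.trans h8)
    rw [← hYE]
    exact ⟨hxY, hx.2⟩
  · exact inf_le_inf_left X hDE'

theorem step (U W : Submodule F (Fin m ⊕ Fin m → F)) (hU : TS m U)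
    (hUd : Module.finrank F U = m) (hW : TS m W) (hWd : Module.finrank F W = m) (hne : U ≠ W) :
    ∃ U' : Submodule F (Fin m ⊕ Fin m → F), Module.finrank F U' = m ∧ TS m U' ∧
      Module.finrank F ↥(U ⊓ U') + 1 = m ∧
      Module.finrank F ↥(W ⊓ U') = Module.finrank F ↥(W ⊓ U) + 1 := by
  obtain ⟨x, hxU, hxW⟩ : ∃ x ∈ U, x ∉ W := by
    by_contra hcon
    push_neg at hcon
    exact hne (Submodule.eq_of_le_of_finrank_eq hcon (by rw [hUd, hWd]))
  obtain ⟨D, hSD, hDU, hDd⟩ := exists_hyper U W x hxU hxW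
  rw [hUd] at hDd
  have hDts : TS m D := fun w hw => hU w (hDU hw)
  obtain ⟨Y, hYd, hYts, hDY, hXY, hall⟩ := adj D W hDts hDd hW hWd
  have hWD : W ⊓ D = W ⊓ U := by
    apply le_antisymm (inf_le_inf_left W hDU)
    exact le_inf inf_le_left (by rw [inf_comm]; exact hSD)
  have hYU : Y ≠ U := by
    intro h
    rw [h, hWD] at hXY
    omega
  refine ⟨Y, hYd, hYts, ?_, by rw [hXY, hWD]⟩
  have h1 : D ≤ U ⊓ Y := le_inf hDU hDY
  have h2 : Module.finrank F D ≤ Module.finrank F ↥(U ⊓ Y) := Submodule.finrank_mono h1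
  have h3 : Module.finrank F ↥(U ⊓ Y) ≤ Module.finrank F U := Submodule.finrank_mono inf_le_left
  have h4 : Module.finrank F ↥(U ⊓ Y) ≠ m := by
    intro h
    have h5 : U ⊓ Y = U := Submodule.eq_of_le_of_finrank_eq inf_le_left (by rw [h, hUd])
    have h6 : U ⊓ Y = Y := Submodule.eq_of_le_of_finrank_eq inf_le_right (by rw [h, hYd])
    exact hYU (h6.symm.trans h5)
  omega

theorem adj_parity (E E' X : Submodule F (Fin m ⊕ Fin m → F)) (hE : TS m E)
    (hEd : Module.finrank F E = m) (hE' : TS m E') (hE'd : Module.finrank F E' = m)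
    (hadj : Module.finrank F ↥(E ⊓ E') + 1 = m) (hX : TS m X) (hXd : Module.finrank F X = m) :
    Module.finrank F ↥(X ⊓ E) = Module.finrank F ↥(X ⊓ E') + 1 ∨
      Module.finrank F ↥(X ⊓ E') = Module.finrank F ↥(X ⊓ E) + 1 := by
  have hEE' : E ≠ E' := by
    intro h
    rw [← h, inf_idem] at hadj
    omega
  obtain ⟨D, hD⟩ : ∃ D, D = E ⊓ E' := ⟨_, rfl⟩
  rw [← hD] at hadj
  have hDE : D ≤ E := by rw [hD]; exact inf_le_left
  have hDE' : D ≤ E' := by rw [hD]; exact inf_le_right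
  have hDts : TS m D := fun w hw => hE w (hDE hw)
  obtain ⟨Y, hYd, hYts, hDY, hXY, hall⟩ := adj D X hDts hadj hX hXd
  obtain ⟨W1, W2, hW12, -, -, hW⟩ := two_ext D hDts hadj
  have hY := hW Y ⟨hYd, hYts, hDY⟩
  have hE1 := hW E ⟨hEd, hE, hDE⟩
  have hE2 := hW E' ⟨hE'd, hE', hDE'⟩
  have hYE : Y = E ∨ Y = E' := by
    rcases hY with h | h <;> rcases hE1 with h1 | h1 <;> rcases hE2 with h2 | h2
    · left; rw [h, h1]
    · left; rw [h, h1]
    · right; rw [h, h2]
    · exact absurd (h1.trans h2.symm) hEE'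
    · exact absurd (h1.trans h2.symm) hEE'
    · right; rw [h, h2]
    · left; rw [h, h1]
    · left; rw [h, h1]
  rcases hYE with h | h
  · left
    rw [h] at hXY hall
    rw [hall E' hE'd hE' hDE' (fun h' => hEE' h'.symm), hXY]
  · right
    rw [h] at hXY hall
    rw [hall E hEd hE hDE hEE', hXY]

theorem finrank_inf_comm (A B : Submodule F (Fin m ⊕ Fin m → F)) :
    Module.finrank F ↥(A ⊓ B) = Module.finrank F ↥(B ⊓ A) := by rw [inf_comm]

theorem parity_ind : ∀ (k : ℕ) (U W : Submodule F (Fin m ⊕ Fin m → F)), TS m U →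
    Module.finrank F U = m → TS m W → Module.finrank F W = m →
    m - Module.finrank F ↥(U ⊓ W) = k → ∀ X : Submodule F (Fin m ⊕ Fin m → F), TS m X →
    Module.finrank F X = m →
    Even ((m - Module.finrank F ↥(U ⊓ X)) + (m - Module.finrank F ↥(W ⊓ X)) + k) := by
  intro k
  induction k with
  | zero =>
    intro U W hU hUd hW hWd hk X hX hXd
    have h1 : Module.finrank F ↥(U ⊓ W) ≤ Module.finrank F U :=
      Submodule.finrank_mono inf_le_left
    have h2 : U ⊓ W = U := Submodule.eq_of_le_of_finrank_eq inf_le_left (by omega)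
    have h3 : U ⊓ W = W := Submodule.eq_of_le_of_finrank_eq inf_le_right (by omega)
    have h4 : U = W := h2.symm.trans h3
    rw [h4, add_zero]
    exact ⟨_, rfl⟩
  | succ k ih =>
    intro U W hU hUd hW hWd hk X hX hXd
    have hne : U ≠ W := by
      intro h
      rw [h, inf_idem, hWd] at hk
      omega
    obtain ⟨U', hU'd, hU'ts, hadj, hstep⟩ := step U W hU hUd hW hWd hne
    have h1 : m - Module.finrank F ↥(U' ⊓ W) = k := by
      have e1 := finrank_inf_comm U' W
      have e2 := finrank_inf_comm U W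
      omega
    have h2 := ih U' W hU'ts hU'd hW hWd h1 X hX hXd
    have h3 := adj_parity U U' X hU hUd hU'ts hU'd hadj hX hXd
    have e1 := finrank_inf_comm X U
    have e2 := finrank_inf_comm X U'
    have h4 : Module.finrank F ↥(U ⊓ X) ≤ Module.finrank F U :=
      Submodule.finrank_mono inf_le_left
    have h5 : Module.finrank F ↥(U' ⊓ X) ≤ Module.finrank F U' :=
      Submodule.finrank_mono inf_le_left
    rw [Nat.even_iff] at h2 ⊢
    omega

end

theorem main {F : Type*} [Field F] (m : ℕ) (hm : 1 ≤ m) : (∀ U W X : Submodule F (Fin m ⊕ Fin m → F), (Module.finrank F U = m ∧ ∀ w ∈ U, Cfsg.quadFormPlus m F w = 0) → (Module.finrank F W = m ∧ ∀ w ∈ W, Cfsg.quadFormPlus m F w = 0) → (Module.finrank F X = m ∧ ∀ w ∈ X, Cfsg.quadFormPlus m F w = 0) → Even ((m - Module.finrank F ↥(U ⊓ W)) + (m - Module.finrank F ↥(W ⊓ X)) + (m - Module.finrank F ↥(U ⊓ X)))) ∧ ∃ U W : Submodule F (Fin m ⊕ Fin m → F), (Module.finrank F U = m ∧ ∀ w ∈ U, Cfsg.quadFormPlus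 m F w = 0) ∧ (Module.finrank F W = m ∧ ∀ w ∈ W, Cfsg.quadFormPlus m F w = 0) ∧ Module.finrank F ↥(U ⊓ W) + 1 = m := by
  constructor
  · rintro U W X ⟨hUd, hU⟩ ⟨hWd, hW⟩ ⟨hXd, hX⟩
    have h := parity_ind _ U W hU hUd hW hWd rfl X hX hXd
    rw [Nat.even_iff] at h ⊢
    omega
  · have hE0 : (E0 m : Submodule F (Fin m ⊕ Fin m → F)) ≠ ⊥ := by
      intro h
      have := E0_finrank (F := F) (m := m)
      rw [h, finrank_bot] at this
      omega
    obtain ⟨x, hxE, hx0⟩ := Submodule.exists_mem_ne_zero_of_ne_bot hE0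
    obtain ⟨D, -, hDE, hDd⟩ := exists_hyper (E0 m) ⊥ x hxE (by simpa using hx0)
    rw [E0_finrank] at hDd
    have hDts : TS m D := fun w hw => E0_ts w (hDE hw)
    obtain ⟨W1, W2, hne, ⟨h1d, h1ts, h1D⟩, ⟨h2d, h2ts, h2D⟩, -⟩ := two_ext D hDts hDd
    refine ⟨W1, W2, ⟨h1d, h1ts⟩, ⟨h2d, h2ts⟩, ?_⟩
    have h1 : Module.finrank F D ≤ Module.finrank F ↥(W1 ⊓ W2) :=
      Submodule.finrank_mono (le_inf h1D h2D)
    have h3 : Module.finrank F ↥(W1 ⊓ W2) ≤ Module.finrank F W1 :=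
      Submodule.finrank_mono inf_le_left
    have h4 : Module.finrank F ↥(W1 ⊓ W2) ≠ m := by
      intro h
      have h5 : W1 ⊓ W2 = W1 := Submodule.eq_of_le_of_finrank_eq inf_le_left (by rw [h, h1d])
      have h6 : W1 ⊓ W2 = W2 := Submodule.eq_of_le_of_finrank_eq inf_le_right (by rw [h, h2d])
      exact hne (h5.symm.trans h6)
    omega

theorem result {F : Type*} [Field F] (m : ℕ) (hm : 1 ≤ m) : (∀ U W X : Submodule F (Fin m ⊕ Fin m → F), (Module.finrank F U = m ∧ ∀ w ∈ U, Cfsg.quadFormPlus m F w = 0) → (Module.finrank F W = m ∧ ∀ w ∈ W, Cfsg.quadFormPlus m F w = 0) → (Module.finrank F X = m ∧ ∀ w ∈ X, Cfsg.quadFormPlus m F w = 0) → Even ((m - Module.finrank F ↥(U ⊓ W)) + (m - Module.finrank F ↥(W ⊓ X)) + (m - Module.finrank F ↥(U ⊓ X)))) ∧ ∃ U W : Submodule F (Fin m ⊕ Fin m → F), (Module.finrank F U = m ∧ ∀ w ∈ U, Cfsg.quadFormPlus m F w = 0) ∧ (Module.finrank F W = m ∧ ∀ w ∈ W, Cfsg.quadFormPlus m F w = 0) ∧ Module.finrank F ↥(U ⊓ W)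 + 1 = m := by
  exact main m hm

end Cfsg.Agent.S0831
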