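import Cfsg.Statements.S0839
import Cfsg.Agent.S2572

set_option autoImplicit false
open Cfsg


namespace Cfsg.Agent.S0839

open Matrix

theorem std_transv {F : Type*} [Field F] (n : ℕ) :
    Cfsg.IsTransvection (1 + Matrix.vecMulVec (Pi.single (1 : Fin (n + 2)) (1 : F))
      (Pi.single (0 : Fin (n + 2)) (1 : F))) := by
  have hw : Matrix.vecMulVec (Pi.single (1 : Fin (n + 2)) (1 : F)) (Pi.single (0 : Fin (n + 2)) (1 : F))
      *ᵥ Pi.single 0 1 = Pi.single 1 1 := by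
    rw [Matrix.vecMulVec_mulVec, dotProduct_single, Pi.single_eq_same, mul_one]
    simp
  have hv0 : (Pi.single (1 : Fin (n + 2)) (1 : F) : Fin (n + 2) → F) ≠ 0 := by
    intro h
    have := congrFun h 1
    simp at this
  refine ⟨?_, ?_⟩
  · rw [add_sub_cancel_left]
    apply le_antisymm (Matrix.rank_vecMulVec_le _ _)
    have hpos : 0 < Module.finrank F (LinearMap.range
        (Matrix.vecMulVec (Pi.single (1 : Fin (n + 2)) (1 : F))
          (Pi.single (0 : Fin (n + 2)) (1 : F))).mulVecLin) :=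
      (Module.finrank_pos_iff_exists_ne_zero (R := F)).2
        ⟨⟨Pi.single 1 1, ⟨_, hw⟩⟩, fun h => hv0 (congrArg Subtype.val h)⟩
    exact hpos
  · rw [add_sub_cancel_left, Matrix.vecMulVec_mul_vecMulVec]
    have : (Pi.single (0 : Fin (n + 2)) (1 : F)) ⬝ᵥ (Pi.single (1 : Fin (n + 2)) (1 : F)) = 0 := by
      rw [dotProduct_single, mul_one, Pi.single_apply, if_neg]
      exact Fin.zero_ne_one.symm
    rw [this, zero_smul]
    ext i j
    simp [Matrix.vecMulVec_apply]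

theorem main {F : Type*} [Field F] (n : ℕ) (t : Matrix.SpecialLinearGroup (Fin (n + 2)) F) (ht : Cfsg.IsTransvection (t : Matrix (Fin (n + 2)) (Fin (n + 2)) F)) : ∃ (g : Matrix.SpecialLinearGroup (Fin (n + 2)) F) (v : Fin (n + 2) → F), v 0 = 0 ∧ ((g⁻¹ * t * g : Matrix.SpecialLinearGroup (Fin (n + 2)) F) : Matrix (Fin (n + 2)) (Fin (n + 2)) F) = 1 + Matrix.vecMulVec v (Pi.single 0 1) := by
  classical
  have h10 : (1 : Fin (n + 2)) ≠ 0 := Fin.zero_ne_one.symm
  obtain ⟨T0, hT0def⟩ : ∃ T0 : Matrix (Fin (n + 2)) (Fin (n + 2)) F,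
      T0 = 1 + Matrix.vecMulVec (Pi.single (1 : Fin (n + 2)) (1 : F))
        (Pi.single (0 : Fin (n + 2)) (1 : F)) := ⟨_, rfl⟩
  have hT0 : Cfsg.IsTransvection T0 := by rw [hT0def]; exact std_transv n
  have hT0det : T0.det = 1 := by
    have e : T0 = Matrix.transvection 1 0 1 := by
      rw [hT0def]
      ext i j
      simp only [Matrix.transvection, Matrix.add_apply, Matrix.vecMulVec_apply, Matrix.single_apply,
        Pi.single_apply]
      by_cases hi : i = 1 <;> by_cases hj : j = 0 <;> simp [hi, hj, eq_comm]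
    rw [e, Matrix.det_transvection_of_ne _ _ h10]
  obtain ⟨t0, ht0⟩ : ∃ t0 : GL (Fin (n + 2)) F, (t0 : Matrix (Fin (n + 2)) (Fin (n + 2)) F) = T0 :=
    ⟨Matrix.GeneralLinearGroup.mkOfDetNeZero T0 (by rw [hT0det]; exact one_ne_zero), rfl⟩
  obtain ⟨tG, htG⟩ : ∃ tG : GL (Fin (n + 2)) F,
      (tG : Matrix (Fin (n + 2)) (Fin (n + 2)) F) = (t : Matrix (Fin (n + 2)) (Fin (n + 2)) F) :=
    ⟨Matrix.SpecialLinearGroup.toGL t, rfl⟩
  obtain ⟨c, hc⟩ := isConj_iff.mp (Cfsg.Agent.S2572.gl_conj_transvection (by omega) t0 tG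
    (by rw [ht0]; exact hT0) (by rw [htG]; exact ht))
  have hc' : (t : Matrix (Fin (n + 2)) (Fin (n + 2)) F) * (c : Matrix (Fin (n + 2)) (Fin (n + 2)) F)
      = (c : Matrix (Fin (n + 2)) (Fin (n + 2)) F) * T0 := by
    have h1 : tG * c = c * t0 := by rw [← hc]; group
    have h2 := congrArg (fun x : GL (Fin (n + 2)) F => (x : Matrix (Fin (n + 2)) (Fin (n + 2)) F)) h1
    simp only [Units.val_mul] at h2
    rw [htG, ht0] at h2
    exact h2
  have hcdet : (c : Matrix (Fin (n + 2)) (Fin (n + 2)) F).det ≠ 0 :=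
    ((Matrix.isUnit_iff_isUnit_det _).1 c.isUnit).ne_zero
  obtain ⟨δ, hδ⟩ : ∃ δ : F, δ = ((c : Matrix (Fin (n + 2)) (Fin (n + 2)) F).det)⁻¹ := ⟨_, rfl⟩
  obtain ⟨D, hD⟩ : ∃ D : Matrix (Fin (n + 2)) (Fin (n + 2)) F,
      D = Matrix.diagonal (Function.update (fun _ => (1 : F)) 0 δ) := ⟨_, rfl⟩
  have hDdet : D.det = δ := by
    rw [hD, Matrix.det_diagonal, Finset.prod_update_of_mem (Finset.mem_univ 0)]
    simp
  have hGdet : ((c : Matrix (Fin (n + 2)) (Fin (n + 2)) F) * D).det = 1 := by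
    rw [Matrix.det_mul, hDdet, hδ, mul_inv_cancel₀ hcdet]
  have hTD : T0 * D = D * (1 + Matrix.vecMulVec (δ • Pi.single (1 : Fin (n + 2)) (1 : F))
      (Pi.single (0 : Fin (n + 2)) (1 : F))) := by
    rw [hT0def, hD]
    ext i j
    simp only [Matrix.mul_diagonal, Matrix.diagonal_mul, Matrix.add_apply, Matrix.one_apply,
      Matrix.vecMulVec_apply, Pi.smul_apply, Pi.single_apply, smul_eq_mul]
    by_cases hi : i = 1 <;> by_cases hj : j = 0
    · subst hi; subst hj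
      simp [Function.update_of_ne h10, h10]
    · subst hi
      simp [hj, Function.update_of_ne h10, Function.update_of_ne hj]
    · subst hj
      by_cases hi0 : i = 0
      · subst hi0; simp [hi, h10.symm]
      · simp [hi, hi0, Function.update_of_ne hi0]
    · by_cases hij : i = j
      · subst hij; simp [hi, hj]
      · simp [hi, hj, hij]
  refine ⟨⟨(c : Matrix (Fin (n + 2)) (Fin (n + 2)) F) * D, hGdet⟩,
    δ • Pi.single (1 : Fin (n + 2)) (1 : F), ?_, ?_⟩
  · simp [h10.symm]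
  · have h1 : (t : Matrix (Fin (n + 2)) (Fin (n + 2)) F) *
        ((c : Matrix (Fin (n + 2)) (Fin (n + 2)) F) * D)
        = ((c : Matrix (Fin (n + 2)) (Fin (n + 2)) F) * D) *
          (1 + Matrix.vecMulVec (δ • Pi.single (1 : Fin (n + 2)) (1 : F))
            (Pi.single (0 : Fin (n + 2)) (1 : F))) := by
      rw [← mul_assoc, hc', mul_assoc, hTD, mul_assoc]
    obtain ⟨g, hg⟩ : ∃ g : Matrix.SpecialLinearGroup (Fin (n + 2)) F,
        g = ⟨(c : Matrix (Fin (n + 2)) (Fin (n + 2)) F) * D, hGdet⟩ := ⟨_, rfl⟩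
    rw [← hg]
    have hgv : (g : Matrix (Fin (n + 2)) (Fin (n + 2)) F)
        = (c : Matrix (Fin (n + 2)) (Fin (n + 2)) F) * D := by rw [hg]
    have hinv : ((g⁻¹ : Matrix.SpecialLinearGroup (Fin (n + 2)) F) :
        Matrix (Fin (n + 2)) (Fin (n + 2)) F) * (g : Matrix (Fin (n + 2)) (Fin (n + 2)) F) = 1 := by
      rw [← Matrix.SpecialLinearGroup.coe_mul, inv_mul_cancel, Matrix.SpecialLinearGroup.coe_one]
    rw [Matrix.SpecialLinearGroup.coe_mul, Matrix.SpecialLinearGroup.coe_mul, mul_assoc, hgv, h1,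
      ← hgv, ← mul_assoc, hinv, one_mul]

theorem result {F : Type*} [Field F] (n : ℕ) (t : Matrix.SpecialLinearGroup (Fin (n + 2)) F) (ht : Cfsg.IsTransvection (t : Matrix (Fin (n + 2)) (Fin (n + 2)) F)) : ∃ (g : Matrix.SpecialLinearGroup (Fin (n + 2)) F) (v : Fin (n + 2) → F), v 0 = 0 ∧ ((g⁻¹ * t * g : Matrix.SpecialLinearGroup (Fin (n + 2)) F) : Matrix (Fin (n + 2)) (Fin (n + 2)) F) = 1 + Matrix.vecMulVec v (Pi.single 0 1) := by
  exact main n t ht

end Cfsg.Agent.S0839
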