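import Mathlib
import Cfsg.Statements.S0840
import Cfsg.Agent.Lib.Helper3.Char
import Cfsg.Agent.Lib.Helper3.CharCore
import Cfsg.Agent.Lib.Helper3.CharInt

set_option autoImplicit false
open scoped ComplexConjugate
open Cfsg
open Cfsg.Agent.Lib.Helper3.Char Cfsg.Agent.Lib.Helper3.CharCore Cfsg.Agent.Lib.Helper3.CharInt

namespace Cfsg.Agent.S0840

theorem ind_conj {G : Type*} [Group G] [DecidableEq G] (w : G)
    [DecidablePred (fun g : G => IsConj w g)] (g h : G) :
    (if IsConj w (h * g * h⁻¹) then (1 : ℂ) else 0) = if IsConj w g then (1 : ℂ) else 0 := by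
  have hiff : IsConj w (h * g * h⁻¹) ↔ IsConj w g := by
    constructor
    · intro hc
      exact hc.trans (isConj_iff.mpr ⟨h⁻¹, by group⟩)
    · intro hc
      exact hc.trans (isConj_iff.mpr ⟨h, rfl⟩)
  simp only [hiff]

theorem conv_classFun {G : Type*} [Group G] [Fintype G] (a b : G → ℂ)
    (ha : ∀ g h : G, a (h * g * h⁻¹) = a g) (hb : ∀ g h : G, b (h * g * h⁻¹) = b g) (g h : G) :
    ∑ x : G, a x * b (x⁻¹ * (h * g * h⁻¹)) = ∑ x : G, a x * b (x⁻¹ * g) := by
  rw [← Equiv.sum_comp (MulAut.conj h).toEquiv (fun x => a x * b (x⁻¹ * (h * g * h⁻¹)))]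
  refine Finset.sum_congr rfl (fun x _ => ?_)
  have e1 : a ((MulAut.conj h).toEquiv x) = a x := by
    have := ha x h
    simpa using this
  have e2 : ((MulAut.conj h).toEquiv x)⁻¹ * (h * g * h⁻¹) = h * (x⁻¹ * g) * h⁻¹ := by
    simp [mul_assoc]
  rw [e1, e2, hb]

theorem class_mult {G : Type*} [Group G] [Fintype G] [DecidableEq G]
    [Fintype (Cfsg.IrrCharacter G)] (a b c : G)
    [DecidablePred (fun g : G => IsConj a g)] [DecidablePred (fun g : G => IsConj b g)] :
    ∑ x : G, (if IsConj a x then (1 : ℂ) else 0) * (if IsConj b (x⁻¹ * c) then (1 : ℂ) else 0) =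
      (∑ g : G, if IsConj a g then (1 : ℂ) else 0) * (∑ g : G, if IsConj b g then (1 : ℂ) else 0) /
        (Nat.card G : ℂ) * ∑ χ : Cfsg.IrrCharacter G,
          (χ : G → ℂ) a * (χ : G → ℂ) b * conj ((χ : G → ℂ) c) / (χ : G → ℂ) 1 := by
  have hcard : (Nat.card G : ℂ) ≠ 0 := by exact_mod_cast Nat.card_pos.ne'
  set N : G → ℂ := fun g => ∑ x : G, (if IsConj a x then (1 : ℂ) else 0) *
    (if IsConj b (x⁻¹ * g) then (1 : ℂ) else 0) with hN
  have hNcf : Cfsg.IsClassFunction G N := by
    intro g h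
    exact conv_classFun (fun g => if IsConj a g then (1 : ℂ) else 0)
      (fun g => if IsConj b g then (1 : ℂ) else 0) (ind_conj a) (ind_conj b) g h
  have hNreal : ∀ g : G, conj (N g) = N g := by
    intro g
    rw [hN]
    simp only
    rw [map_sum]
    refine Finset.sum_congr rfl (fun x _ => ?_)
    rw [map_mul]
    split_ifs <;> simp
  have hA : ∀ χ : Cfsg.IrrCharacter G, ∑ g : G, N g * (χ : G → ℂ) g =
      (∑ g : G, if IsConj a g then (1 : ℂ) else 0) *
        (∑ g : G, if IsConj b g then (1 : ℂ) else 0) *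
        ((χ : G → ℂ) a * (χ : G → ℂ) b / (χ : G → ℂ) 1) := by
    intro χ
    obtain ⟨χ, n, ρ, hirr, rfl⟩ := χ
    have : ρ.IsIrreducible := hirr
    have hd := finrank_ne_zero_of_irr ρ
    have h := central_mul (fun g => if IsConj a g then (1 : ℂ) else 0)
      (fun g => if IsConj b g then (1 : ℂ) else 0) (ind_conj a) (ind_conj b) ρ
    have hs : ∀ w : G, [DecidablePred (fun g : G => IsConj w g)] →
        ∑ g : G, (if IsConj w g then (1 : ℂ) else 0) * ρ.character g =
        (∑ g : G, if IsConj w g then (1 : ℂ) else 0) * ρ.character w := by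
      intro w _
      rw [Finset.sum_mul]
      refine Finset.sum_congr rfl (fun g _ => ?_)
      by_cases hg : IsConj w g
      · obtain ⟨c, hc⟩ := isConj_iff.mp hg
        rw [← hc, Representation.char_conj]
      · rw [if_neg hg, zero_mul, zero_mul]
    rw [hs a, hs b] at h
    change ∑ g : G, N g * ρ.character g = _ * _ * (ρ.character a * ρ.character b / ρ.character 1)
    rw [Representation.char_one]
    have h2 : ∑ g : G, N g * ρ.character g =
        (∑ g : G, (∑ x : G, (if IsConj a x then (1 : ℂ) else 0) *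
          (if IsConj b (x⁻¹ * g) then (1 : ℂ) else 0)) * ρ.character g) := rfl
    rw [h2]
    field_simp at h
    field_simp
    linear_combination (-1 : ℂ) * h
  have hexp := congrFun (class_fun_expand N hNcf) c
  simp only [Finset.sum_apply, Pi.smul_apply, smul_eq_mul] at hexp
  have hconj := congrArg conj hexp
  rw [hNreal c, map_sum] at hconj
  change N c = _
  rw [hconj, Finset.mul_sum]
  refine Finset.sum_congr rfl (fun χ _ => ?_)
  rw [map_mul]
  have h3 : conj (Cfsg.classInner N (χ : G → ℂ)) =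
      (Nat.card G : ℂ)⁻¹ * ∑ g : G, N g * (χ : G → ℂ) g := by
    unfold Cfsg.classInner
    rw [map_mul, map_inv₀, Complex.conj_natCast, map_sum]
    congr 1
    refine Finset.sum_congr rfl (fun g _ => ?_)
    rw [map_mul, hNreal g, Complex.conj_conj]
  rw [h3, hA χ]
  field_simp

theorem result {G : Type*} [Group G] [Finite G] (a b c : G) : (Nat.card {p : G × G // IsConj a p.1 ∧ IsConj b p.2 ∧ p.1 * p.2 = c} : ℂ) = (Nat.card {x : G // IsConj a x} : ℂ) * (Nat.card {x : G // IsConj b x} : ℂ) / (Nat.card G : ℂ) * ∑ᶠ χ : Cfsg.IrrCharacter G, (χ : G → ℂ) a * (χ : G → ℂ) b * conj ((χ : G → ℂ) c) / (χ : G → ℂ) 1 := by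
  classical
  have _i : Fintype G := Fintype.ofFinite G
  have _j : Fintype (Cfsg.IrrCharacter G) := Fintype.ofFinite _
  rw [finsum_eq_sum_of_fintype]
  have hcount : ∀ w : G, (Nat.card {x : G // IsConj w x} : ℂ) =
      ∑ g : G, if IsConj w g then (1 : ℂ) else 0 := by
    intro w
    rw [Finset.sum_boole, Nat.card_eq_fintype_card, Fintype.card_subtype]
  rw [hcount a, hcount b, ← Cfsg.Agent.S0840.class_mult a b c]
  rw [Nat.card_eq_fintype_card, Fintype.card_subtype, Finset.card_filter]
  push_cast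
  rw [Fintype.sum_prod_type]
  refine Finset.sum_congr rfl (fun x _ => ?_)
  rw [Finset.sum_eq_single (x⁻¹ * c)]
  · by_cases hx : IsConj a x
    · by_cases hy : IsConj b (x⁻¹ * c)
      · rw [if_pos ⟨hx, hy, by group⟩, if_pos hx, if_pos hy, mul_one]
      · rw [if_neg (fun h => hy h.2.1), if_neg hy, mul_zero]
    · rw [if_neg (fun h => hx h.1), if_neg hx, zero_mul]
  · intro y _ hy
    rw [if_neg]
    rintro ⟨-, -, h⟩
    apply hy
    rw [← h]
    group
  · intro h
    exact absurd (Finset.mem_univ _) h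

end Cfsg.Agent.S0840
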