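import Mathlib
import Cfsg.Statements.S0841

set_option autoImplicit false
open Cfsg
open scoped commutatorElement

namespace Cfsg.Agent.S0841

/-- If the commutator subgroup of G lies in the centre, then for all x, y in G and every natural number n one has (x * y) ^ n = x ^ n * y ^ n * c ^ (n * (n - 1) / 2) with c = y⁻¹ * x⁻¹ * y * x. -/
theorem result {G : Type*} [Group G] (hG : commutator G ≤ Subgroup.center G) (x y : G) (n : ℕ) : (x * y) ^ n = x ^ n * y ^ n * (y⁻¹ * x⁻¹ * y * x) ^ (n * (n - 1) / 2) := by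
  have hcm : y⁻¹ * x⁻¹ * y * x ∈ Subgroup.center G := by
    apply hG
    have : y⁻¹ * x⁻¹ * y * x = ⁅y⁻¹, x⁻¹⁆ := by
      rw [commutatorElement_def]; group
    rw [this, commutator_def]
    exact Subgroup.commutator_mem_commutator (Subgroup.mem_top _) (Subgroup.mem_top _)
  have hyx : y * x = x * y * (y⁻¹ * x⁻¹ * y * x) := by group
  generalize y⁻¹ * x⁻¹ * y * x = c at hcm hyx ⊢
  have hc : ∀ g : G, Commute c g := fun g => by
    rw [Subgroup.mem_center_iff] at hcm
    exact (hcm g).symm
  have hA : ∀ k : ℕ, y ^ k * x = x * y ^ k * c ^ k := by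
    intro k
    induction k with
    | zero => simp
    | succ k ih =>
      calc y ^ (k + 1) * x = y * (y ^ k * x) := by rw [pow_succ']; group
        _ = y * (x * y ^ k * c ^ k) := by rw [ih]
        _ = (y * x) * y ^ k * c ^ k := by group
        _ = x * y * c * y ^ k * c ^ k := by rw [hyx]
        _ = x * y * (c * y ^ k) * c ^ k := by group
        _ = x * y * (y ^ k * c) * c ^ k := by rw [(hc (y ^ k)).eq]
        _ = x * (y * y ^ k) * (c * c ^ k) := by group
        _ = x * y ^ (k + 1) * c ^ (k + 1) := by rw [← pow_succ', ← pow_succ']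
  induction n with
  | zero => simp
  | succ n ih =>
    have hT : (n + 1) * (n + 1 - 1) / 2 = n * (n - 1) / 2 + n := Nat.triangle_succ n
    rw [hT]
    generalize n * (n - 1) / 2 = T at ih ⊢
    calc (x * y) ^ (n + 1) = (x * y) ^ n * (x * y) := pow_succ _ _
      _ = x ^ n * y ^ n * c ^ T * (x * y) := by rw [ih]
      _ = x ^ n * y ^ n * (c ^ T * (x * y)) := by group
      _ = x ^ n * y ^ n * ((x * y) * c ^ T) := by rw [((hc (x * y)).pow_left T).eq]
      _ = x ^ n * (y ^ n * x) * y * c ^ T := by group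
      _ = x ^ n * (x * y ^ n * c ^ n) * y * c ^ T := by rw [hA n]
      _ = x ^ n * x * y ^ n * (c ^ n * y) * c ^ T := by group
      _ = x ^ n * x * y ^ n * (y * c ^ n) * c ^ T := by rw [((hc y).pow_left n).eq]
      _ = (x ^ n * x) * (y ^ n * y) * (c ^ n * c ^ T) := by group
      _ = x ^ (n + 1) * y ^ (n + 1) * c ^ (T + n) := by
        rw [← pow_succ, ← pow_succ, ← pow_add, add_comm n T]

end Cfsg.Agent.S0841
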