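import Mathlib
import Cfsg.Statements.S0849
import Cfsg.Agent.Lib.Helper3.Char
import Cfsg.Agent.Lib.Helper3.CharCore
import Cfsg.Agent.Lib.Helper3.CharInd
import Cfsg.Agent.Lib.Helper3.BlkOsima
import Cfsg.Agent.Lib.Helper3.BlkBr

set_option autoImplicit false
open Cfsg
open Cfsg.Agent.Lib.Helper3.Char Cfsg.Agent.Lib.Helper3.CharCore Cfsg.Agent.Lib.Helper3.CharInd Cfsg.Agent.Lib.Helper3.BlkOsima Cfsg.Agent.Lib.Helper3.BlkBr

namespace Cfsg.Agent.S0849

theorem result {G : Type*} [Group G] [Fintype G] (H : Subgroup G) (S : Set G) (hSH : S ⊆ H) (hHS : ∀ h ∈ H, ∀ s ∈ S, h * s * h⁻¹ ∈ S) (hTI : ∀ g : G, g ∉ H → ∀ s ∈ S, g * s * g⁻¹ ∉ S) (hinv : ∀ s ∈ S, s⁻¹ ∈ S) (φ : H → ℂ) (hφ : Cfsg.IsClassFunction H φ) (hφS : ∀ x : H, (x : G) ∉ S → φ x = 0) (u v : G) (hu : orderOf u = 2) (hv : orderOf v = 2) : ∑ᶠ p ∈ {p : G × G | IsConj u p.1 ∧ IsConj v p.2}, Cfsg.indFun H φ (p.1 * p.2) = (H.index : ℂ) * ∑ᶠ p ∈ {p : H × H | IsConj u (p.1 : G) ∧ IsConj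 v (p.2 : G)}, φ (p.1 * p.2) := by
  classical
  have _fH : Fintype H := Fintype.ofFinite H
  have _h1 := hHS
  have _h2 := hφ
  rw [finsum_mem_ite, finsum_mem_ite]
  simp only [Set.mem_ofPred_eq]
  obtain ⟨E, hE⟩ : ∃ E : G → ℂ, E = Cfsg.extendByZero H φ := ⟨_, rfl⟩
  have hE1 : ∀ g (hg : g ∈ H), E g = φ ⟨g, hg⟩ := by
    intro g hg
    rw [hE]
    exact extendByZero_mem H φ hg
  have hE0 : ∀ g, g ∉ H → E g = 0 := by
    intro g hg
    rw [hE]
    exact extendByZero_not_mem H φ hg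
  have hES : ∀ g, g ∉ S → E g = 0 := by
    intro g hg
    by_cases hgH : g ∈ H
    · rw [hE1 g hgH]
      exact hφS ⟨g, hgH⟩ hg
    · exact hE0 g hgH
  have hsq : ∀ w a : G, orderOf w = 2 → IsConj w a → a * a = 1 := by
    intro w a hw ha
    obtain ⟨t, ht⟩ := isConj_iff.mp ha
    have hw2 : w * w = 1 := by
      rw [← pow_two, ← hw]
      exact pow_orderOf_eq_one w
    rw [← ht]
    calc t * w * t⁻¹ * (t * w * t⁻¹) = t * (w * w) * t⁻¹ := by group
      _ = 1 := by
        rw [hw2]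
        group
  have hkey : ∀ a b : G, IsConj u a → IsConj v b → a * b ∈ S → a ∈ H ∧ b ∈ H := by
    intro a b ha hb hab
    have ha2 : a * a = 1 := hsq u a hu ha
    have hb2 : b * b = 1 := hsq v b hv hb
    have haH : a ∈ H := by
      by_contra hna
      apply hTI a hna (a * b) hab
      have e : a * (a * b) * a⁻¹ = (a * b)⁻¹ := by
        have hai : a⁻¹ = a := inv_eq_of_mul_eq_one_left ha2
        have hbi : b⁻¹ = b := inv_eq_of_mul_eq_one_left hb2
        rw [mul_inv_rev, hai, hbi, ← mul_assoc, ha2, one_mul]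
      rw [e]
      exact hinv _ hab
    refine ⟨haH, ?_⟩
    have h2 := H.mul_mem (H.inv_mem haH) (hSH hab)
    rwa [inv_mul_cancel_left] at h2
  have hstep1 : ∀ x : G, ∑ q : G × G,
      (if IsConj u q.1 ∧ IsConj v q.2 then E (x⁻¹ * (q.1 * q.2) * x) else 0) =
      ∑ q : G × G, (if IsConj u q.1 ∧ IsConj v q.2 then E (q.1 * q.2) else 0) := by
    intro x
    obtain ⟨e, he1, he2⟩ : ∃ e : G × G ≃ G × G, (∀ q, (e q).1 = x⁻¹ * q.1 * x) ∧
        (∀ q, (e q).2 = x⁻¹ * q.2 * x) :=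
      ⟨Equiv.prodCongr (MulAut.conj x⁻¹).toEquiv (MulAut.conj x⁻¹).toEquiv,
        fun q => by simp, fun q => by simp⟩
    rw [← Equiv.sum_comp e (fun q => if IsConj u q.1 ∧ IsConj v q.2 then E (q.1 * q.2) else 0)]
    refine Finset.sum_congr rfl (fun q _ => ?_)
    have hc : ∀ w a : G, IsConj w (x⁻¹ * a * x) ↔ IsConj w a := by
      intro w a
      constructor
      · intro h
        exact h.trans (isConj_iff.mpr ⟨x, by group⟩)
      · intro h
        exact h.trans (isConj_iff.mpr ⟨x⁻¹, by group⟩)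
    have h5 : x⁻¹ * q.1 * x * (x⁻¹ * q.2 * x) = x⁻¹ * (q.1 * q.2) * x := by group
    by_cases hq : IsConj u q.1 ∧ IsConj v q.2
    · rw [if_pos hq, if_pos (by
        rw [he1, he2]
        exact ⟨(hc u q.1).mpr hq.1, (hc v q.2).mpr hq.2⟩), he1, he2, h5]
    · rw [if_neg hq, if_neg (by
        rw [he1, he2]
        intro h
        exact hq ⟨(hc u q.1).mp h.1, (hc v q.2).mp h.2⟩)]
  have hstep2 : ∀ q : G × G,
      (if IsConj u q.1 ∧ IsConj v q.2 then Cfsg.indFun H φ (q.1 * q.2) else 0) =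
      (Nat.card H : ℂ)⁻¹ * ∑ x : G,
        (if IsConj u q.1 ∧ IsConj v q.2 then E (x⁻¹ * (q.1 * q.2) * x) else 0) := by
    intro q
    by_cases hq : IsConj u q.1 ∧ IsConj v q.2
    · simp only [if_pos hq]
      rw [hE]
      rfl
    · simp only [if_neg hq]
      rw [Finset.sum_const_zero, mul_zero]
  rw [Finset.sum_congr rfl (fun q _ => hstep2 q), ← Finset.mul_sum, Finset.sum_comm,
    Finset.sum_congr rfl (fun x _ => hstep1 x), Finset.sum_const, Finset.card_univ, nsmul_eq_mul]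
  have hA : ∑ q : G × G, (if IsConj u q.1 ∧ IsConj v q.2 then E (q.1 * q.2) else 0) =
      ∑ a : G, ∑ b : G, (if IsConj u a ∧ IsConj v b then E (a * b) else 0) :=
    Fintype.sum_prod_type _
  have hB : ∑ q : H × H, (if IsConj u (q.1 : G) ∧ IsConj v (q.2 : G) then φ (q.1 * q.2) else 0) =
      ∑ a : H, ∑ b : H, (if IsConj u (a : G) ∧ IsConj v (b : G) then φ (a * b) else 0) :=
    Fintype.sum_prod_type _
  have hstep3 : ∑ a : G, ∑ b : G, (if IsConj u a ∧ IsConj v b then E (a * b) else 0) =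
      ∑ a : H, ∑ b : H, (if IsConj u (a : G) ∧ IsConj v (b : G) then φ (a * b) else 0) := by
    rw [← sum_subgroup_eq H (fun a => ∑ b : G, if IsConj u a ∧ IsConj v b then E (a * b) else 0)]
    · refine Finset.sum_congr rfl (fun a _ => ?_)
      rw [← sum_subgroup_eq H (fun b => if IsConj u (a : G) ∧ IsConj v b then E ((a : G) * b) else 0)]
      · refine Finset.sum_congr rfl (fun b _ => ?_)
        by_cases hq : IsConj u (a : G) ∧ IsConj v (b : G)
        · rw [if_pos hq, if_pos hq, hE1 _ (H.mul_mem a.2 b.2)]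
          rfl
        · rw [if_neg hq, if_neg hq]
      · intro b hb
        by_cases hq : IsConj u (a : G) ∧ IsConj v b
        · rw [if_pos hq]
          apply hES
          intro hS
          exact hb (hkey _ _ hq.1 hq.2 hS).2
        · rw [if_neg hq]
    · intro a ha
      apply Finset.sum_eq_zero
      intro b _
      by_cases hq : IsConj u a ∧ IsConj v b
      · rw [if_pos hq]
        apply hES
        intro hS
        exact ha (hkey _ _ hq.1 hq.2 hS).1
      · rw [if_neg hq]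
  rw [hA, hB, hstep3]
  have hidx := H.card_mul_index
  have hH0 : (Nat.card H : ℂ) ≠ 0 := by exact_mod_cast Nat.card_pos.ne'
  rw [← Nat.card_eq_fintype_card, ← hidx, Nat.cast_mul]
  field_simp

end Cfsg.Agent.S0849
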