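import Mathlib
import Cfsg.Statements.S0854
import Cfsg.Agent.Lib.Helper3.Char
import Cfsg.Agent.Lib.Helper3.CharCore
import Cfsg.Agent.Lib.Helper3.CharArith
import Cfsg.Agent.Lib.Helper3.CharInd
import Cfsg.Agent.Lib.Helper3.CharStab
import Cfsg.Agent.Lib.Helper3.CharCliff

set_option autoImplicit false
open Cfsg
open Cfsg.Agent.Lib.Helper3.Char Cfsg.Agent.Lib.Helper3.CharCore Cfsg.Agent.Lib.Helper3.CharArith Cfsg.Agent.Lib.Helper3.CharInd Cfsg.Agent.Lib.Helper3.CharStab Cfsg.Agent.Lib.Helper3.CharCliff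
open scoped ComplexConjugate

namespace Cfsg.Agent.S0854

theorem result {G : Type*} [Group G] [Fintype G] (H : Subgroup G) [hN : H.Normal] [Fintype H] (ϑ : H → ℂ) (hϑ : Cfsg.IsIrrCharacter H ϑ) (T : Subgroup G) [Fintype T] (hT : ∀ g : G, g ∈ T ↔ ∀ n : H, ϑ ⟨g * n * g⁻¹, hN.conj_mem (n : G) n.2 g⟩ = ϑ n) (hHT : H ≤ T) (χ : G → ℂ) (hχ : Cfsg.IsIrrCharacter G χ) (hcon : Cfsg.classInner (fun n : H => χ n) ϑ ≠ 0) : ∃ ψ : T → ℂ, Cfsg.IsIrrCharacter T ψ ∧ Cfsg.indFun T ψ = χ ∧ Cfsg.classInner (fun n : H => ψ ⟨(n : G), hHT n.2⟩) ϑ = Cfsg.classInner (fun n : H => χ n) ϑ := by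
  classical
  have hχc := isCharacter_of_irr hχ
  have hresT : Cfsg.IsCharacter T (χ ∘ T.subtype) := comp_isCharacter T.subtype hχc
  obtain ⟨l, hl, hsum⟩ := isCharacter_decomp hresT
  have hex : ∃ ψ ∈ l, Cfsg.classInner (fun n : H => ψ ⟨n, hHT n.2⟩) ϑ ≠ 0 := by
    by_contra hno
    push Not at hno
    apply hcon
    have h1 : (fun n : H => χ n) = fun n : H => l.sum ⟨n, hHT n.2⟩ := by
      funext n
      rw [← hsum]
      rfl
    rw [h1]
    have h2 : ∀ l' : List (T → ℂ),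
        (∀ ψ ∈ l', Cfsg.classInner (fun n : H => ψ ⟨n, hHT n.2⟩) ϑ = 0) →
        Cfsg.classInner (fun n : H => l'.sum ⟨n, hHT n.2⟩) ϑ = 0 := by
      intro l'
      induction l' with
      | nil =>
        intro _
        exact classInner_zero_left ϑ
      | cons a l' ih =>
        intro h
        have h3 : (fun n : H => (a :: l').sum ⟨n, hHT n.2⟩) =
            (fun n : H => a ⟨n, hHT n.2⟩) + (fun n : H => l'.sum ⟨n, hHT n.2⟩) := by
          funext n
          rw [List.sum_cons]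
          rfl
        rw [h3, classInner_add_left, h a List.mem_cons_self,
          ih (fun ψ hψ => h ψ (List.mem_cons_of_mem _ hψ)), add_zero]
    exact h2 l hno
  obtain ⟨ψ, hψl, hψ0⟩ := hex
  have hψ := hl ψ hψl
  obtain ⟨m, hm, hmpos⟩ := inner_list_sum hψ l hl
  have hχψ : Cfsg.classInner (Cfsg.indFun T ψ) χ ≠ 0 := by
    rw [frobenius T ψ χ (char_classFun hχc)]
    have h4 : (fun t : T => χ t) = l.sum := hsum
    rw [h4, hm]
    exact_mod_cast (hmpos hψl).ne'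
  obtain ⟨h1, h2⟩ := cliff_core H hN ϑ hϑ T hT hHT ψ hψ hψ0 χ hχ hχψ
  exact ⟨ψ, hψ, h1, h2.symm⟩

end Cfsg.Agent.S0854
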