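import Mathlib
import Cfsg.Statements.S0856
import Cfsg.Agent.Lib.Helper3.Char
import Cfsg.Agent.Lib.Helper3.CharCore
import Cfsg.Agent.Lib.Helper3.CharTable
import Cfsg.Agent.Lib.Helper3.CharInd
import Cfsg.Agent.Lib.Helper3.CharArith
import Cfsg.Agent.Lib.Helper3.CharNormal
import Cfsg.Agent.S0148

set_option autoImplicit false
open Cfsg
open Cfsg.Agent.Lib.Helper3.Char Cfsg.Agent.Lib.Helper3.CharCore Cfsg.Agent.Lib.Helper3.CharTable Cfsg.Agent.Lib.Helper3.CharInd Cfsg.Agent.Lib.Helper3.CharArith Cfsg.Agent.Lib.Helper3.CharNormal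
open scoped ComplexConjugate

namespace Cfsg.Agent.S0856

theorem nat_diag' {ι : Type*} [Fintype ι] [DecidableEq ι] (d : ι → ℕ) (c : ι → ι → ℕ)
    (hc : ∀ i, 1 ≤ c i i)
    (h : ∑ i, ∑ j, d i * d j * c i j = ∑ i, d i ^ 2) :
    ∀ i j, 0 < d i → 0 < d j → c i j = if i = j then 1 else 0 := by
  have h0 : ∀ i, d i ^ 2 ≤ d i * d i * c i i := by
    intro i
    have := hc i
    nlinarith [Nat.zero_le (d i)]
  have h1 : ∀ i, d i ^ 2 ≤ ∑ j, d i * d j * c i j := by
    intro i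
    exact (h0 i).trans (Finset.single_le_sum (f := fun j => d i * d j * c i j)
      (fun _ _ => Nat.zero_le _) (Finset.mem_univ i))
  have h2 := (Finset.sum_eq_sum_iff_of_le (fun i _ => h1 i)).mp h.symm
  intro i j hdi hdj
  have h3 := h2 i (Finset.mem_univ i)
  rw [← Finset.add_sum_erase Finset.univ (fun j => d i * d j * c i j) (Finset.mem_univ i)] at h3
  have h4 : ∑ j ∈ Finset.univ.erase i, d i * d j * c i j = 0 := by
    have := h0 i
    omega
  have h5 : d i * d i * c i i = d i ^ 2 := by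
    have := h0 i
    omega
  split_ifs with hij
  · subst hij
    have h6 : d i * d i * c i i = d i * d i * 1 := by
      rw [h5]
      ring
    exact Nat.eq_of_mul_eq_mul_left (Nat.mul_pos hdi hdi) h6
  · have h6 := (Finset.sum_eq_zero_iff.mp h4) j (Finset.mem_erase.mpr ⟨fun h => hij h.symm,
      Finset.mem_univ j⟩)
    rcases Nat.mul_eq_zero.mp h6 with h7 | h7
    · rcases Nat.mul_eq_zero.mp h7 with h8 | h8
      · exact absurd h8 hdi.ne'
      · exact absurd h8 hdj.ne'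
    · exact h7

theorem ind_mul_res {G : Type*} [Group G] [Fintype G] (N : Subgroup G) (φ ϑ : N → ℂ)
    (χ : G → ℂ) (hcf : Cfsg.IsClassFunction G χ) (hext : ∀ n : N, χ n = ϑ n) :
    Cfsg.indFun N (φ * ϑ) = Cfsg.indFun N φ * χ := by
  funext g
  rw [Pi.mul_apply]
  unfold Cfsg.indFun
  rw [mul_assoc, Finset.sum_mul]
  congr 1
  apply Finset.sum_congr rfl
  intro x _
  have h1 : χ (x⁻¹ * g * x) = χ g := by
    have h2 := hcf g x⁻¹
    rw [inv_inv] at h2
    exact h2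
  rw [← h1]
  by_cases hy : x⁻¹ * g * x ∈ N
  · rw [extendByZero_mem N _ hy, extendByZero_mem N _ hy, Pi.mul_apply]
    rw [← hext ⟨x⁻¹ * g * x, hy⟩]
  · rw [extendByZero_not_mem N _ hy, extendByZero_not_mem N _ hy, zero_mul]

theorem ind_norm_inv {G : Type*} [Group G] [Fintype G] (N : Subgroup G) [hN : N.Normal]
    [Fintype N] (φ : N → ℂ) (hφ : Cfsg.IsIrrCharacter N φ)
    (hφinv : ∀ (g : G) (n : N), φ ⟨g * n * g⁻¹, hN.conj_mem (n : G) n.2 g⟩ = φ n) :
    Cfsg.classInner (Cfsg.indFun N φ) (Cfsg.indFun N φ) = (N.index : ℂ) := by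
  rw [inner_ind_ind N hN]
  have h1 : ∀ x : G, Cfsg.classInner φ (cj N hN φ x) = 1 := by
    intro x
    have h2 : cj N hN φ x = φ := by
      funext n
      rw [cj_apply]
      exact hφinv x n
    rw [h2, irr_inner_self hφ]
  rw [Finset.sum_congr rfl (fun x _ => h1 x), Finset.sum_const, Finset.card_univ,
    ← Nat.card_eq_fintype_card, nsmul_eq_mul, mul_one]
  have h3 := N.card_mul_index
  have hNc : (Nat.card N : ℂ) ≠ 0 := by exact_mod_cast Nat.card_pos.ne'
  rw [← h3]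
  push_cast
  field_simp

theorem result {G : Type*} [Group G] [Fintype G] (N : Subgroup G) [hN : N.Normal] (φ ϑ : N → ℂ) (hφ : Cfsg.IsIrrCharacter N φ) (hϑ : Cfsg.IsIrrCharacter N ϑ) (hφinv : ∀ (g : G) (n : N), φ ⟨g * n * g⁻¹, hN.conj_mem (n : G) n.2 g⟩ = φ n) (hϑinv : ∀ (g : G) (n : N), ϑ ⟨g * n * g⁻¹, hN.conj_mem (n : G) n.2 g⟩ = ϑ n) (hprod : Cfsg.IsIrrCharacter N (φ * ϑ)) (χ : G → ℂ) (hχ : Cfsg.IsIrrCharacter G χ) (hext : ∀ n : N, χ n = ϑ n) : Set.BijOn (fun β : G → ℂ => β * χ) {β : G → ℂ | Cfsg.IsIrrCharacter G β ∧ Cfsg.classInner (Cfsg.indFun N φ) β ≠ 0} {ψ : G → ℂ | Cfsg.IsIrrCharacter G ψ ∧ Cfsg.classInner (Cfsg.indFun N (φ * ϑ)) ψ ≠ 0} := by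
  classical
  have _n : Fintype N := Fintype.ofFinite _
  have _j : Fintype (Cfsg.IrrCharacter G) := Fintype.ofFinite _
  have hχc := isCharacter_of_irr hχ
  have hcf := char_classFun hχc
  have hφc := isCharacter_of_irr hφ
  have hIc : Cfsg.IsCharacter G (Cfsg.indFun N φ) := Cfsg.Agent.S0148.result N φ hφc
  have hproj := ind_mul_res N φ ϑ χ hcf hext
  have heex : ∀ β : Cfsg.IrrCharacter G, ∃ n : ℕ,
      Cfsg.classInner (Cfsg.indFun N φ) β = (n : ℂ) :=
    fun β => inner_char_nat hIc (isCharacter_of_irr β.2)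
  choose e he using heex
  have hXc : ∀ β : Cfsg.IrrCharacter G, Cfsg.IsCharacter G ((β : G → ℂ) * χ) :=
    fun β => isCharacter_mul (isCharacter_of_irr β.2) hχc
  have hcex : ∀ β γ : Cfsg.IrrCharacter G, ∃ n : ℕ,
      Cfsg.classInner ((β : G → ℂ) * χ) ((γ : G → ℂ) * χ) = (n : ℂ) :=
    fun β γ => inner_char_nat (hXc β) (hXc γ)
  choose c hc using hcex
  have hcpos : ∀ β, 1 ≤ c β β := by
    intro β
    rw [Nat.one_le_iff_ne_zero]
    intro h0
    have h1 := hc β β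
    rw [h0, Nat.cast_zero] at h1
    have h2 := congrFun (inner_self_eq_zero h1) 1
    simp only [Pi.mul_apply, Pi.zero_apply] at h2
    rcases mul_eq_zero.mp h2 with h3 | h3
    · exact irr_one_ne_zero β.2 h3
    · exact irr_one_ne_zero hχ h3
  have hexpφ : Cfsg.indFun N φ = ∑ β : Cfsg.IrrCharacter G, (e β : ℂ) • (β : G → ℂ) := by
    have h1 := class_fun_expand (Cfsg.indFun N φ) (indFun_classFun N φ)
    conv_lhs => rw [h1]
    apply Finset.sum_congr rfl
    intro β _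
    rw [he]
  have hexpφϑ : Cfsg.indFun N (φ * ϑ) =
      ∑ β : Cfsg.IrrCharacter G, (e β : ℂ) • ((β : G → ℂ) * χ) := by
    rw [hproj]
    conv_lhs => rw [hexpφ]
    rw [Finset.sum_mul]
    apply Finset.sum_congr rfl
    intro β _
    rw [smul_mul_assoc]
  have hn1 := ind_norm_inv N φ hφ hφinv
  have hn2 := ind_norm_inv N (φ * ϑ) hprod (by
    intro g n
    rw [Pi.mul_apply, Pi.mul_apply, hφinv g n, hϑinv g n])
  have hs1 : Cfsg.classInner (Cfsg.indFun N φ) (Cfsg.indFun N φ) =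
      ((∑ β, e β ^ 2 : ℕ) : ℂ) := by
    conv_lhs => rw [hexpφ]
    rw [classInner_sum_left]
    push_cast
    apply Finset.sum_congr rfl
    intro β _
    rw [classInner_smul_left, ← hexpφ, classInner_conj_symm, he, Complex.conj_natCast]
    ring
  have hs2 : Cfsg.classInner (Cfsg.indFun N (φ * ϑ)) (Cfsg.indFun N (φ * ϑ)) =
      ((∑ β, ∑ γ, e β * e γ * c β γ : ℕ) : ℂ) := by
    conv_lhs => rw [hexpφϑ]
    rw [classInner_sum_left]
    push_cast
    apply Finset.sum_congr rfl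
    intro β _
    rw [classInner_sum_right]
    apply Finset.sum_congr rfl
    intro γ _
    rw [classInner_smul_left, classInner_smul_right, hc, Complex.conj_natCast]
    ring
  have hnat : ∑ β, ∑ γ, e β * e γ * c β γ = ∑ β, e β ^ 2 := by
    have h1 := hs2.symm.trans (hn2.trans (hn1.symm.trans hs1))
    exact_mod_cast h1
  have hdiag := nat_diag' e c hcpos hnat
  have hepos : ∀ β : Cfsg.IrrCharacter G, Cfsg.classInner (Cfsg.indFun N φ) β ≠ 0 → 0 < e β := by
    intro β hne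
    rw [he] at hne
    exact Nat.pos_of_ne_zero (fun h => hne (by rw [h]; simp))
  have hXirr : ∀ β : Cfsg.IrrCharacter G, 0 < e β →
      Cfsg.IsIrrCharacter G ((β : G → ℂ) * χ) := by
    intro β hβ
    apply isIrr_of_inner_self (hXc β)
    rw [hc, hdiag β β hβ hβ, if_pos rfl]
    simp
  have hcoef : ∀ β : Cfsg.IrrCharacter G, 0 < e β →
      Cfsg.classInner (Cfsg.indFun N (φ * ϑ)) ((β : G → ℂ) * χ) = (e β : ℂ) := by
    intro β hβ
    rw [hexpφϑ, classInner_sum_left, Finset.sum_eq_single β]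
    · rw [classInner_smul_left, hc, hdiag β β hβ hβ, if_pos rfl]
      simp
    · intro γ _ hne
      rw [classInner_smul_left, hc]
      by_cases hγ : 0 < e γ
      · rw [hdiag γ β hγ hβ, if_neg hne]
        simp
      · have h0 : e γ = 0 := by omega
        rw [h0]
        simp
    · intro h
      exact absurd (Finset.mem_univ _) h
  refine ⟨?_, ?_, ?_⟩
  · rintro β ⟨hβirr, hβne⟩
    have hβpos := hepos ⟨β, hβirr⟩ hβne
    refine ⟨hXirr ⟨β, hβirr⟩ hβpos, ?_⟩
    have h1 := hcoef ⟨β, hβirr⟩ hβpos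
    change Cfsg.classInner (Cfsg.indFun N (φ * ϑ)) (β * χ) ≠ 0
    have h2 : Cfsg.classInner (Cfsg.indFun N (φ * ϑ)) (β * χ) = (e ⟨β, hβirr⟩ : ℂ) := h1
    rw [h2]
    exact_mod_cast hβpos.ne'
  · rintro β ⟨hβirr, hβne⟩ γ ⟨hγirr, hγne⟩ heq
    have hβpos := hepos ⟨β, hβirr⟩ hβne
    have hγpos := hepos ⟨γ, hγirr⟩ hγne
    have h1 := hc ⟨β, hβirr⟩ ⟨γ, hγirr⟩
    have heq' : β * χ = γ * χ := heq
    have h2 : Cfsg.classInner (β * χ) (γ * χ) = 1 := by
      rw [← heq']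
      exact irr_inner_self (hXirr ⟨β, hβirr⟩ hβpos)
    have h3 : Cfsg.classInner (β * χ) (γ * χ) = (c ⟨β, hβirr⟩ ⟨γ, hγirr⟩ : ℂ) := h1
    rw [h3, hdiag _ _ hβpos hγpos] at h2
    by_contra hne
    rw [if_neg (fun h => hne (congrArg Subtype.val h))] at h2
    simp at h2
  · rintro ψ ⟨hψirr, hψne⟩
    have hψne' : Cfsg.classInner (Cfsg.indFun N (φ * ϑ)) ψ ≠ 0 := hψne
    rw [hexpφϑ, classInner_sum_left] at hψne'
    obtain ⟨β, -, hβ⟩ := Finset.exists_ne_zero_of_sum_ne_zero hψne'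
    rw [classInner_smul_left] at hβ
    have he0 : (e β : ℂ) ≠ 0 := left_ne_zero_of_mul hβ
    have hβpos : 0 < e β := Nat.pos_of_ne_zero (fun h => he0 (by rw [h]; simp))
    have h3 := right_ne_zero_of_mul hβ
    rw [irr_orthonormal (hXirr β hβpos) hψirr] at h3
    have h4 : (β : G → ℂ) * χ = ψ := by
      by_contra hcon
      rw [if_neg hcon] at h3
      exact h3 rfl
    refine ⟨β, ⟨β.2, ?_⟩, h4⟩
    rw [he]
    exact he0

end Cfsg.Agent.S0856
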