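import Mathlib
import Cfsg.Statements.S0900
import Cfsg.Agent.Lib.Helper3.Char
import Cfsg.Agent.Lib.Helper3.CharCore
import Cfsg.Agent.Lib.Helper3.CharTable
import Cfsg.Agent.Lib.Helper3.CharInd
import Cfsg.Agent.Lib.Helper3.CharArith
import Cfsg.Agent.Lib.Helper3.CharNormal
import Cfsg.Agent.Lib.Helper3.CharCliff

set_option autoImplicit false
open Cfsg
open Cfsg.Agent.Lib.Helper3.Char Cfsg.Agent.Lib.Helper3.CharCore Cfsg.Agent.Lib.Helper3.CharTable Cfsg.Agent.Lib.Helper3.CharInd Cfsg.Agent.Lib.Helper3.CharArith Cfsg.Agent.Lib.Helper3.CharNormal Cfsg.Agent.Lib.Helper3.CharCliff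
open scoped ComplexConjugate

namespace Cfsg.Agent.S0900

theorem inv_restrict {G : Type*} [Group G] [Fintype G] (N : Subgroup G) (hN : N.Normal) [Fintype N]
    (χ : G → ℂ) (hχ : Cfsg.IsIrrCharacter G χ) (ϑ : N → ℂ) (hϑ : Cfsg.IsIrrCharacter N ϑ)
    (hcon : Cfsg.classInner (fun n : N => χ n) ϑ ≠ 0)
    (hinv : ∀ (g : G) (n : N), ϑ ⟨g * n * g⁻¹, hN.conj_mem (n : G) n.2 g⟩ = ϑ n) :
    (fun n : N => χ n) = Cfsg.classInner (fun n : N => χ n) ϑ • ϑ := by
  have h174 := Cfsg.Agent.S0174.result N hN χ hχ ϑ hϑ hcon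
  have hset : {φ : N → ℂ | ∃ t : G, φ = fun x : N =>
      ϑ ⟨t * x * t⁻¹, hN.conj_mem x x.2 t⟩} = {ϑ} := by
    ext φ
    simp only [Set.mem_ofPred_eq, Set.mem_singleton_iff]
    constructor
    · rintro ⟨t, rfl⟩
      funext x
      exact hinv t x
    · rintro rfl
      refine ⟨1, ?_⟩
      funext x
      congr 1
      apply Subtype.ext
      simp
  rw [hset, finsum_mem_singleton] at h174
  exact h174

theorem normsum {G : Type*} [Group G] [Fintype G] {χ : G → ℂ} (hχ : Cfsg.IsIrrCharacter G χ) :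
    ∑ g : G, χ g * conj (χ g) = (Nat.card G : ℂ) := by
  have h := irr_inner_self hχ
  unfold Cfsg.classInner at h
  have hG : (Nat.card G : ℂ) ≠ 0 := by exact_mod_cast Nat.card_pos.ne'
  rw [inv_mul_eq_iff_eq_mul₀ hG, mul_one] at h
  exact h

theorem normsum_res {G : Type*} [Group G] [Fintype G] (N : Subgroup G) [Fintype N]
    (χ : G → ℂ) (ϑ : N → ℂ) (hϑ : Cfsg.IsIrrCharacter N ϑ) (e : ℕ)
    (ha : (fun n : N => χ n) = (e : ℂ) • ϑ) :
    ∑ n : N, χ n * conj (χ n) = (e : ℂ) ^ 2 * (Nat.card N : ℂ) := by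
  have h1 : ∀ n : N, χ n * conj (χ n) = (e : ℂ) ^ 2 * (ϑ n * conj (ϑ n)) := by
    intro n
    have h2 : χ n = (e : ℂ) * ϑ n := congrFun ha n
    rw [h2, map_mul, Complex.conj_natCast]
    ring
  rw [Finset.sum_congr rfl (fun n _ => h1 n), ← Finset.mul_sum, normsum hϑ]

theorem card_eq {G : Type*} [Group G] [Fintype G] (N : Subgroup G) (e : ℕ) :
    (e : ℂ) ^ 2 * (Nat.card N : ℂ) = (Nat.card G : ℂ) ↔ e ^ 2 = N.index := by
  have h2 := N.card_mul_index
  constructor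
  · intro h
    have h3 : ((e ^ 2 * Nat.card N : ℕ) : ℂ) = ((N.index * Nat.card N : ℕ) : ℂ) := by
      rw [mul_comm N.index, h2]
      push_cast
      exact h
    have h4 : e ^ 2 * Nat.card N = N.index * Nat.card N := by exact_mod_cast h3
    exact Nat.eq_of_mul_eq_mul_right Nat.card_pos h4
  · intro h
    rw [← h2, ← h]
    push_cast
    ring

theorem vanish_off {G : Type*} [Group G] [Fintype G] (N : Subgroup G) [Fintype N] (χ : G → ℂ)
    (h : ∑ g : G, χ g * conj (χ g) = ∑ n : N, χ n * conj (χ n)) (g : G) (hg : g ∉ N) :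
    χ g = 0 := by
  classical
  have h1 := sum_subgroup N (fun g => if g ∈ N then χ g * conj (χ g) else 0) (by
    intro g hg
    simp [hg])
  have h2 : ∑ n : N, (if (n : G) ∈ N then χ n * conj (χ n) else 0) =
      ∑ n : N, χ n * conj (χ n) := by
    apply Finset.sum_congr rfl
    intro n _
    rw [if_pos n.2]
  have h3 : ∑ g : G, (if g ∈ N then (0 : ℝ) else Complex.normSq (χ g)) = 0 := by
    have h4 : ((∑ g : G, (if g ∈ N then (0 : ℝ) else Complex.normSq (χ g)) : ℝ) : ℂ) = 0 := by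
      push_cast
      have h5 : ∀ g : G, ((if g ∈ N then (0 : ℝ) else Complex.normSq (χ g) : ℝ) : ℂ) =
          χ g * conj (χ g) - (if g ∈ N then χ g * conj (χ g) else 0) := by
        intro g
        by_cases hg : g ∈ N
        · simp [hg]
        · simp [hg, Complex.mul_conj]
      rw [Finset.sum_congr rfl (fun g _ => h5 g), Finset.sum_sub_distrib, h1, h2, h, sub_self]
    exact_mod_cast h4
  have h6 := (Finset.sum_eq_zero_iff_of_nonneg (fun g _ => by
    split_ifs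
    · exact le_refl _
    · exact Complex.normSq_nonneg _)).mp h3 g (Finset.mem_univ g)
  rw [if_neg hg] at h6
  exact Complex.normSq_eq_zero.mp h6

theorem result {G : Type*} [Group G] [Fintype G] (N : Subgroup G) [hN : N.Normal] [Fintype N] (χ : G → ℂ) (hχ : Cfsg.IsIrrCharacter G χ) (ϑ : N → ℂ) (hϑ : Cfsg.IsIrrCharacter N ϑ) (hcon : Cfsg.classInner (fun n : N => χ n) ϑ ≠ 0) : ((∃ e : ℕ, (fun n : N => χ n) = (e : ℂ) • ϑ ∧ e ^ 2 = N.index) ↔ ((∀ g : G, g ∉ N → χ g = 0) ∧ ∀ (g : G) (n : N), ϑ ⟨g * n * g⁻¹, hN.conj_mem (n : G) n.2 g⟩ = ϑ n)) ∧ ((∃ e : ℕ, (fun n : N => χ n) = (e : ℂ) • ϑ ∧ e ^ 2 = N.index) ↔ (∀ (g : G) (n : N), ϑ ⟨g * n * g⁻¹, hN.conj_mem (n : G) n.2 g⟩ = ϑ n ∧ ∀ ψ : G → ℂ, Cfsg.IsIrrCharacter G ψ → Cfsg.classInner (Cfsg.indFun N ϑ) ψ ≠ 0 → ψ = χ)) := by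
  classical
  have hχc := isCharacter_of_irr hχ
  have hϑc := isCharacter_of_irr hϑ
  have hcf := char_classFun hχc
  have hG := normsum hχ
  have ainv : (∃ e : ℕ, (fun n : N => χ n) = (e : ℂ) • ϑ ∧ e ^ 2 = N.index) →
      ∀ (g : G) (n : N), ϑ ⟨g * n * g⁻¹, hN.conj_mem (n : G) n.2 g⟩ = ϑ n := by
    rintro ⟨e, ha, he⟩ g n
    have he0 : (e : ℂ) ≠ 0 := by
      have h0 : e ≠ 0 := by
        rintro rfl
        have h00 := N.index_ne_zero_of_finite
        exact h00 (by rw [← he]; norm_num)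
      exact_mod_cast h0
    have h1 : ∀ m : N, χ m = (e : ℂ) * ϑ m := fun m => congrFun ha m
    have h2 : χ (g * n * g⁻¹) = (e : ℂ) * ϑ ⟨g * n * g⁻¹, hN.conj_mem (n : G) n.2 g⟩ :=
      h1 ⟨_, hN.conj_mem (n : G) n.2 g⟩
    have h3 : χ (g * n * g⁻¹) = χ n := hcf n g
    rw [h3, h1 n] at h2
    exact (mul_left_cancel₀ he0 h2).symm
  have inve : (∀ (g : G) (n : N), ϑ ⟨g * n * g⁻¹, hN.conj_mem (n : G) n.2 g⟩ = ϑ n) →
      ∃ e : ℕ, (fun n : N => χ n) = (e : ℂ) • ϑ := by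
    intro hinv
    obtain ⟨e, he⟩ := inner_char_nat (comp_isCharacter N.subtype hχc) hϑc
    have he' : Cfsg.classInner (fun n : N => χ n) ϑ = (e : ℂ) := he
    refine ⟨e, ?_⟩
    have h := inv_restrict N hN χ hχ ϑ hϑ hcon hinv
    rw [← he']
    exact h
  have hAχ : ∀ e : ℕ, (fun n : N => χ n) = (e : ℂ) • ϑ →
      Cfsg.classInner (Cfsg.indFun N ϑ) χ = (e : ℂ) := by
    intro e ha
    rw [frobenius N ϑ χ hcf, ha, classInner_smul_right, irr_inner_self hϑ, Complex.conj_natCast,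
      mul_one]
  have hA1 : Cfsg.indFun N ϑ 1 = (N.index : ℂ) * ϑ 1 := indFun_one N ϑ
  have hAc : Cfsg.IsCharacter G (Cfsg.indFun N ϑ) := Cfsg.Agent.S0148.result N ϑ hϑc
  have aind : ∀ e : ℕ, (fun n : N => χ n) = (e : ℂ) • ϑ → e ^ 2 = N.index →
      Cfsg.indFun N ϑ = (e : ℂ) • χ := by
    intro e ha he
    have hΔ : Cfsg.IsCharacter G (Cfsg.indFun N ϑ - (e : ℂ) • χ) := by
      apply isCharacter_of_nat_inner
      · intro g x
        rw [Pi.sub_apply, Pi.sub_apply, Pi.smul_apply, Pi.smul_apply, indFun_classFun N ϑ g x,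
          hcf g x]
      · intro η hη
        rw [classInner_sub_left, classInner_smul_left, irr_orthonormal hχ hη]
        by_cases hc : χ = η
        · subst hc
          rw [if_pos rfl, hAχ e ha]
          exact ⟨0, by simp⟩
        · rw [if_neg hc]
          obtain ⟨a, ha'⟩ := inner_char_nat hAc (isCharacter_of_irr hη)
          exact ⟨a, by rw [ha']; simp⟩
    have h0 : (Cfsg.indFun N ϑ - (e : ℂ) • χ) 1 = 0 := by
      rw [Pi.sub_apply, Pi.smul_apply, hA1]
      have h1 : χ 1 = (e : ℂ) * ϑ 1 := congrFun ha 1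
      rw [h1, ← he]
      push_cast
      simp only [smul_eq_mul]
      ring
    have hz := eq_zero_of_deg_zero hΔ h0
    exact sub_eq_zero.mp hz
  have cind : ∀ e : ℕ, (fun n : N => χ n) = (e : ℂ) • ϑ →
      (∀ ψ : G → ℂ, Cfsg.IsIrrCharacter G ψ → Cfsg.classInner (Cfsg.indFun N ϑ) ψ ≠ 0 → ψ = χ) →
      e ^ 2 = N.index := by
    intro e ha hc
    have hz : Cfsg.indFun N ϑ - (e : ℂ) • χ = 0 := by
      apply class_fun_eq_zero_of_inner
      · intro g x
        rw [Pi.sub_apply, Pi.sub_apply, Pi.smul_apply, Pi.smul_apply, indFun_classFun N ϑ g x,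
          hcf g x]
      · intro η hη
        rw [classInner_sub_left, classInner_smul_left, irr_orthonormal hχ hη]
        by_cases hc' : χ = η
        · subst hc'
          rw [if_pos rfl, hAχ e ha]
          ring
        · rw [if_neg hc']
          have hzz : Cfsg.classInner (Cfsg.indFun N ϑ) η = 0 := by
            by_contra hne
            exact hc' (hc η hη hne).symm
          rw [hzz]
          ring
    have h0 := congrFun hz 1
    rw [Pi.sub_apply, Pi.smul_apply, hA1] at h0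
    have h1 : χ 1 = (e : ℂ) * ϑ 1 := congrFun ha 1
    rw [h1] at h0
    simp only [smul_eq_mul, Pi.zero_apply] at h0
    have hϑ1 := irr_one_ne_zero hϑ
    have h2 : ((e ^ 2 : ℕ) : ℂ) = (N.index : ℂ) := by
      push_cast
      have h3 : ((N.index : ℂ) - (e : ℂ) ^ 2) * ϑ 1 = 0 := by
        rw [← h0]
        ring
      rcases mul_eq_zero.mp h3 with h4 | h4
      · exact (sub_eq_zero.mp h4).symm
      · exact absurd h4 hϑ1
    exact_mod_cast h2
  refine ⟨⟨?_, ?_⟩, ⟨?_, ?_⟩⟩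
  · intro h
    refine ⟨?_, ainv h⟩
    obtain ⟨e, ha, he⟩ := h
    intro g hg
    apply vanish_off N χ _ g hg
    rw [hG, normsum_res N χ ϑ hϑ e ha]
    exact ((card_eq N e).mpr he).symm
  · rintro ⟨hv, hinv⟩
    obtain ⟨e, ha⟩ := inve hinv
    refine ⟨e, ha, ?_⟩
    apply (card_eq N e).mp
    rw [← normsum_res N χ ϑ hϑ e ha, ← hG]
    symm
    exact sum_subgroup N (fun g => χ g * conj (χ g)) (by
      intro g hg
      rw [hv g hg, zero_mul])
  · intro h g n
    refine ⟨ainv h g n, ?_⟩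
    obtain ⟨e, ha, he⟩ := h
    intro ψ hψ hne
    rw [aind e ha he, classInner_smul_left, irr_orthonormal hχ hψ] at hne
    by_contra hc
    apply hne
    rw [if_neg (fun h' => hc h'.symm)]
    ring
  · intro h
    have hinv : ∀ (g : G) (n : N), ϑ ⟨g * n * g⁻¹, hN.conj_mem (n : G) n.2 g⟩ = ϑ n :=
      fun g n => (h g n).1
    have hc := (h 1 1).2
    obtain ⟨e, ha⟩ := inve hinv
    exact ⟨e, ha, cind e ha hc⟩

end Cfsg.Agent.S0900
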