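import Mathlib
import Cfsg.Statements.S0857
import Cfsg.Agent.Lib.Helper3.Char
import Cfsg.Agent.Lib.Helper3.CharCore
import Cfsg.Agent.Lib.Helper3.CharInd
import Cfsg.Agent.Lib.Helper3.CharArith
import Cfsg.Agent.Lib.Helper3.CharNormal
import Cfsg.Agent.Lib.Helper3.CharAb
import Cfsg.Agent.Lib.Helper3.CharProj
import Cfsg.Agent.Lib.Helper3.CharCliff
import Cfsg.Agent.Lib.Helper3.CharLinear
import Cfsg.Agent.S0174
import Cfsg.Agent.S0900

set_option autoImplicit false
open Cfsg
open Cfsg.Agent.Lib.Helper3.Char Cfsg.Agent.Lib.Helper3.CharCore Cfsg.Agent.Lib.Helper3.CharInd Cfsg.Agent.Lib.Helper3.CharArith Cfsg.Agent.Lib.Helper3.CharNormal Cfsg.Agent.Lib.Helper3.CharAb Cfsg.Agent.Lib.Helper3.CharProj Cfsg.Agent.Lib.Helper3.CharCliff Cfsg.Agent.Lib.Helper3.CharLinear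
open scoped ComplexConjugate
universe v

namespace Cfsg.Agent.S0857

theorem constituent_conj {T : Type v} [Group T] [Fintype T] (H : Subgroup T) (hN : H.Normal)
    [Fintype H] (ϑ : T → ℂ) (hϑ : Cfsg.IsIrrCharacter T ϑ) (φ ψ : H → ℂ)
    (hφ : Cfsg.IsIrrCharacter H φ) (hψ : Cfsg.IsIrrCharacter H ψ)
    (h1 : Cfsg.classInner (fun h : H => ϑ h) φ ≠ 0)
    (h2 : Cfsg.classInner (fun h : H => ϑ h) ψ ≠ 0) : ∃ k : T, cj H hN φ k = ψ := by
  classical
  have h174 := Cfsg.Agent.S0174.result H hN ϑ hϑ φ hφ h1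
  rw [orbit_set_eq H hN φ, finsum_mem_coe_finset] at h174
  by_contra hne
  push Not at hne
  apply h2
  rw [h174, classInner_smul_left, classInner_sum_left]
  have h3 : ∀ η ∈ Finset.univ.image (cj H hN φ), Cfsg.classInner η ψ = 0 := by
    intro η hη
    obtain ⟨k, -, rfl⟩ := Finset.mem_image.mp hη
    exact irr_inner_ne (cj_isIrr H hN hφ k) hψ (hne k)
  rw [Finset.sum_eq_zero h3, mul_zero]

theorem chief_restrict {T : Type v} [Group T] [Fintype T] (H : Subgroup T) [hN : H.Normal]
    [Fintype H] (hab : ∀ x y : T, x * y * x⁻¹ * y⁻¹ ∈ H) (ϑ : T → ℂ)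
    (hϑ : Cfsg.IsIrrCharacter T ϑ) (A : Set (T ≃* T))
    (hAH : ∀ α ∈ A, ∀ h ∈ H, α h ∈ H) (hAs : ∀ α ∈ A, α.symm ∈ A)
    (hAϑ : ∀ α ∈ A, ∀ t : T, ϑ (α t) = ϑ t)
    (hchief : ∀ M : Subgroup T, H ≤ M → (∀ α ∈ A, ∀ m ∈ M, α m ∈ M) → M = H ∨ M = ⊤) :
    Cfsg.IsIrrCharacter H (fun h : H => ϑ h) ∨
    (∃ (φ : H → ℂ) (e : ℕ), Cfsg.IsIrrCharacter H φ ∧ (fun h : H => ϑ h) = (e : ℂ) • φ ∧
      e ^ 2 = H.index) ∨
    (∃ F : Finset (H → ℂ), (∀ φ ∈ F, Cfsg.IsIrrCharacter H φ) ∧ F.card = H.index ∧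
      (fun h : H => ϑ h) = ∑ φ ∈ F, φ) := by
  classical
  have _q : Fintype (T ⧸ H) := Fintype.ofFinite _
  have _j : Fintype (Cfsg.IrrCharacter (T ⧸ H)) := Fintype.ofFinite _
  have hϑc := isCharacter_of_irr hϑ
  have hres : Cfsg.IsCharacter H (fun h : H => ϑ h) := comp_isCharacter H.subtype hϑc
  have hHc : (Nat.card H : ℂ) ≠ 0 := by exact_mod_cast Nat.card_pos.ne'
  have hidx : (H.index : ℂ) ≠ 0 := by
    exact_mod_cast (Subgroup.index_ne_zero_of_finite (H := H))
  have hcard : (Nat.card T : ℂ) = (Nat.card H : ℂ) * (H.index : ℂ) := by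
    rw [← H.card_mul_index, Nat.cast_mul]
  let M : Subgroup T :=
    { carrier := {x | ∀ μ : T →* ℂˣ, (∀ h ∈ H, μ h = 1) →
        (fun t => ((μ t : ℂˣ) : ℂ) * ϑ t) = ϑ → μ x = 1}
      mul_mem' := fun {a b} ha hb μ h1 h2 => by rw [map_mul, ha μ h1 h2, hb μ h1 h2, one_mul]
      one_mem' := fun μ _ _ => map_one μ
      inv_mem' := fun {a} ha μ h1 h2 => by rw [map_inv, ha μ h1 h2, inv_one] }
  have hHM : H ≤ M := fun h hh μ h1 _ => h1 h hh
  have hMinv : ∀ α ∈ A, ∀ m ∈ M, α m ∈ M := by
    intro α hα m hm μ h1 h2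
    have h3 := hm (μ.comp α.toMonoidHom) (fun h hh => h1 _ (hAH α hα h hh)) (by
      funext t
      have h4 := congrFun h2 (α t)
      rw [hAϑ α hα t] at h4
      exact h4)
    exact h3
  rcases hchief M hHM hMinv with hM | hM
  swap
  · left
    have habQ : ∀ a b : T ⧸ H, a * b = b * a := by
      intro a b
      induction a using QuotientGroup.induction_on with
      | H x =>
        induction b using QuotientGroup.induction_on with
        | H y =>
          rw [← QuotientGroup.mk_mul, ← QuotientGroup.mk_mul, QuotientGroup.eq]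
          have h1 := hab y⁻¹ x⁻¹
          have e : (x * y)⁻¹ * (y * x) = y⁻¹ * x⁻¹ * y⁻¹⁻¹ * x⁻¹⁻¹ := by group
          rw [e]
          exact h1
    let π : T →* T ⧸ H := QuotientGroup.mk' H
    have hsumlam : ∀ t : T, ∑ lam : Cfsg.IrrCharacter (T ⧸ H), (lam : T ⧸ H → ℂ) (π t) =
        if t ∈ H then (H.index : ℂ) else 0 := by
      intro t
      rw [sum_irr_abelian habQ (π t)]
      by_cases ht : t ∈ H
      · have hπ : π t = 1 := (QuotientGroup.eq_one_iff t).mpr ht
        rw [if_pos ht, if_pos hπ]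
        rfl
      · have hπ : ¬ π t = 1 := fun h => ht ((QuotientGroup.eq_one_iff t).mp h)
        rw [if_neg ht, if_neg hπ]
    have hkey : Cfsg.classInner (fun h : H => ϑ h) (fun h : H => ϑ h) =
        ∑ lam : Cfsg.IrrCharacter (T ⧸ H),
          Cfsg.classInner (((lam : T ⧸ H → ℂ) ∘ π) * ϑ) ϑ := by
      unfold Cfsg.classInner
      beta_reduce
      rw [← Finset.mul_sum Finset.univ _ ((Nat.card T : ℂ)⁻¹), Finset.sum_comm]
      have h1 : ∀ t : T, ∑ lam : Cfsg.IrrCharacter (T ⧸ H),
          (((lam : T ⧸ H → ℂ) ∘ π) * ϑ) t * conj (ϑ t) =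
          (if t ∈ H then (H.index : ℂ) else 0) * (ϑ t * conj (ϑ t)) := by
        intro t
        rw [← hsumlam t, Finset.sum_mul]
        apply Finset.sum_congr rfl
        intro lam _
        simp only [Pi.mul_apply, Function.comp_apply]
        ring
      have h3 := sum_subgroup H (fun t => (if t ∈ H then (H.index : ℂ) else 0) *
        (ϑ t * conj (ϑ t))) (fun t ht => by rw [if_neg ht, zero_mul])
      rw [Finset.sum_congr rfl (fun t _ => h1 t), h3]
      have h2 : ∀ h : H, (if (h : T) ∈ H then (H.index : ℂ) else 0) * (ϑ h * conj (ϑ h)) =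
          (H.index : ℂ) * (ϑ h * conj (ϑ h)) := fun h => by rw [if_pos h.2]
      rw [Finset.sum_congr rfl (fun h _ => h2 h), ← Finset.mul_sum, ← mul_assoc, hcard]
      congr 1
      field_simp
    apply isIrr_of_inner_self hres
    rw [hkey]
    let triv : Cfsg.IrrCharacter (T ⧸ H) := ⟨fun _ => 1, isIrr_one _⟩
    have h5 : ∀ lam : Cfsg.IrrCharacter (T ⧸ H),
        Cfsg.classInner (((lam : T ⧸ H → ℂ) ∘ π) * ϑ) ϑ = if lam = triv then 1 else 0 := by
      intro lam
      have hlc : Cfsg.IsCharacter T ((lam : T ⧸ H → ℂ) ∘ π) :=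
        comp_isCharacter π (isCharacter_of_irr lam.2)
      have hl1 : ((lam : T ⧸ H → ℂ) ∘ π) 1 = 1 := by
        show (lam : T ⧸ H → ℂ) (π 1) = 1
        rw [map_one]
        exact abelian_linear habQ lam.2
      have hirr := lin_mul_irr hlc hl1 hϑ
      rw [irr_orthonormal hirr hϑ]
      by_cases hlt : lam = triv
      · rw [if_pos hlt, if_pos]
        subst hlt
        funext t
        show (1 : ℂ) * ϑ t = ϑ t
        rw [one_mul]
      · rw [if_neg hlt, if_neg]
        intro heq
        apply hlt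
        obtain ⟨μ, hμ⟩ := hom_of_deg_one hlc hl1
        have hμH : ∀ h ∈ H, μ h = 1 := by
          intro h hh
          apply Units.ext
          have h6 := congrFun hμ h
          rw [Units.val_one, ← h6]
          show (lam : T ⧸ H → ℂ) (π h) = 1
          have hπ : π h = 1 := (QuotientGroup.eq_one_iff h).mpr hh
          rw [hπ]
          exact abelian_linear habQ lam.2
        have hμϑ : (fun t => ((μ t : ℂˣ) : ℂ) * ϑ t) = ϑ := by
          have h8 : (fun t => ((μ t : ℂˣ) : ℂ) * ϑ t) = ((lam : T ⧸ H → ℂ) ∘ π) * ϑ := by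
            rw [hμ]
            rfl
          rw [h8]
          exact heq
        have hall : ∀ x : T, μ x = 1 := by
          intro x
          have hx : x ∈ M := by
            rw [hM]
            exact Subgroup.mem_top x
          exact hx μ hμH hμϑ
        apply Subtype.ext
        funext q
        obtain ⟨x, rfl⟩ := QuotientGroup.mk'_surjective H q
        have h7 := congrFun hμ x
        change ((lam : T ⧸ H → ℂ) ∘ π) x = 1
        rw [h7, hall x]
        rfl
    rw [Finset.sum_congr rfl (fun lam _ => h5 lam), Finset.sum_ite_eq' Finset.univ triv]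
    simp
  · right
    have hvan : ∀ t : T, t ∉ H → ϑ t = 0 := by
      intro t ht
      by_contra hne
      apply ht
      rw [← hM]
      intro μ h1 h2
      have h3 := congrFun h2 t
      have h4 : ((μ t : ℂˣ) : ℂ) = 1 := by
        have h5 : ((μ t : ℂˣ) : ℂ) * ϑ t = 1 * ϑ t := by
          rw [one_mul]
          exact h3
        exact mul_right_cancel₀ hne h5
      exact Units.ext h4
    have hres1 : (fun h : H => ϑ h) 1 ≠ 0 := irr_one_ne_zero hϑ
    obtain ⟨φ, hφ, hcon'⟩ := exists_constituent hres hres1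
    have hcon : Cfsg.classInner (fun h : H => ϑ h) φ ≠ 0 := by
      rw [classInner_conj_symm]
      exact (map_ne_zero _).mpr hcon'
    have hφc := isCharacter_of_irr hφ
    let Tφ : Subgroup T :=
      { carrier := {t | cj H hN φ t = φ}
        mul_mem' := fun {a b} ha hb => by
          show cj H hN φ (a * b) = φ
          rw [← cj_mul, ha, hb]
        one_mem' := cj_one H hN φ
        inv_mem' := fun {a} ha => by
          show cj H hN φ a⁻¹ = φ
          have h1 : cj H hN (cj H hN φ a) a⁻¹ = φ := by rw [cj_mul, mul_inv_cancel, cj_one]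
          rw [ha] at h1
          exact h1 }
    have hHT : H ≤ Tφ := by
      intro h₀ hh₀
      show cj H hN φ h₀ = φ
      funext h
      rw [cj_apply]
      exact char_classFun hφc h ⟨h₀, hh₀⟩
    have hTinv : ∀ α ∈ A, ∀ t ∈ Tφ, α t ∈ Tφ := by
      intro α hα t ht
      let φα : H → ℂ := fun h => φ ⟨α h, hAH α hα h h.2⟩
      let αH : H →* H := (α.toMonoidHom.comp H.subtype).codRestrict H
        (fun h => hAH α hα h h.2)
      have hsurj : Function.Surjective αH := by
        intro h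
        refine ⟨⟨α.symm h, hAH α.symm (hAs α hα) h h.2⟩, ?_⟩
        apply Subtype.ext
        show α (α.symm h) = h
        exact α.apply_symm_apply h
      have hbij : Function.Bijective αH := Finite.surjective_iff_bijective.mp hsurj
      have hφα : Cfsg.IsIrrCharacter H φα := comp_isIrr αH hsurj hφ
      have hconα : Cfsg.classInner (fun h : H => ϑ h) φα ≠ 0 := by
        have h1 : Cfsg.classInner (fun h : H => ϑ h) φα =
            Cfsg.classInner (fun h : H => ϑ h) φ := by
          unfold Cfsg.classInner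
          congr 1
          rw [← Function.Bijective.sum_comp hbij (fun h : H => ϑ h * conj (φ h))]
          apply Finset.sum_congr rfl
          intro h _
          show ϑ h * conj (φα h) = ϑ (α h) * conj (φ (αH h))
          rw [hAϑ α hα]
          rfl
        rw [h1]
        exact hcon
      obtain ⟨k, hk⟩ := constituent_conj H hN ϑ hϑ φ φα hφ hφα hcon hconα
      have h2 : cj H hN φα t = φα := by
        rw [← hk, cj_mul]
        apply (cj_eq_iff H hN φ k (k * t)).mpr
        have h3 : k * t * k⁻¹ ∈ Tφ := by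
          have h4 := Tφ.mul_mem (hHT (hab k t)) ht
          have e : k * t * k⁻¹ * t⁻¹ * t = k * t * k⁻¹ := by group
          rw [e] at h4
          exact h4
        exact h3
      show cj H hN φ (α t) = φ
      funext h
      have hh' : (α.symm h : T) ∈ H := hAH α.symm (hAs α hα) h h.2
      have h5 := congrFun h2 ⟨α.symm h, hh'⟩
      rw [cj_apply] at h5 ⊢
      have e1 : φα ⟨t * α.symm h * t⁻¹, hN.conj_mem _ hh' t⟩ =
          φ ⟨α t * h * (α t)⁻¹, hN.conj_mem h h.2 (α t)⟩ := by
        show φ ⟨α (t * α.symm h * t⁻¹), _⟩ = _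
        apply congrArg φ
        apply Subtype.ext
        show α (t * α.symm h * t⁻¹) = α t * h * (α t)⁻¹
        rw [map_mul, map_mul, map_inv, α.apply_symm_apply]
      have e2 : φα ⟨α.symm h, hh'⟩ = φ h := by
        show φ ⟨α (α.symm h), _⟩ = φ h
        apply congrArg φ
        apply Subtype.ext
        exact α.apply_symm_apply h
      exact e1.symm.trans (h5.trans e2)
    rcases hchief Tφ hHT hTinv with hT | hT
    · right
      have h174 := Cfsg.Agent.S0174.result H hN ϑ hϑ φ hφ hcon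
      rw [orbit_set_eq H hN φ, finsum_mem_coe_finset] at h174
      obtain ⟨k, hk⟩ := inner_char_nat hres hφc
      have hk0 : k ≠ 0 := by
        rintro rfl
        apply hcon
        rw [hk]
        simp
      have hdeg := degree_over H hN φ hφ Tφ
        (fun g => ⟨fun hg n => congrFun hg n, fun hg => funext hg⟩) ϑ hϑ hcon
      rw [hT, hk] at hdeg
      rw [hk] at h174
      have hF1 : ∀ ψ ∈ Finset.univ.image (cj H hN φ), ψ 1 = φ 1 := by
        intro ψ hψ
        obtain ⟨x, -, rfl⟩ := Finset.mem_image.mp hψ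
        rw [cj_apply]
        exact congrArg φ (Subtype.ext (by simp))
      have hFirr : ∀ ψ ∈ Finset.univ.image (cj H hN φ), Cfsg.IsIrrCharacter H ψ := by
        intro ψ hψ
        obtain ⟨x, -, rfl⟩ := Finset.mem_image.mp hψ
        exact cj_isIrr H hN hφ x
      have hφ1 := irr_one_ne_zero hφ
      have hk0' : (k : ℂ) ≠ 0 := by exact_mod_cast hk0
      have hFcard : (Finset.univ.image (cj H hN φ)).card = H.index := by
        have e1 := congrFun h174 1
        simp only [Pi.smul_apply, Finset.sum_apply, smul_eq_mul] at e1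
        rw [Finset.sum_congr rfl hF1, Finset.sum_const, nsmul_eq_mul] at e1
        have e2 : ϑ 1 = (k : ℂ) * ((H.index : ℂ) * φ 1) := hdeg
        have e3 : ϑ ((1 : H) : T) = ϑ 1 := rfl
        rw [e3, e2] at e1
        have e4 := mul_right_cancel₀ hφ1 (mul_left_cancel₀ hk0' e1)
        exact_mod_cast e4.symm
      have hself : Cfsg.classInner (fun h : H => ϑ h) (fun h : H => ϑ h) = (H.index : ℂ) := by
        unfold Cfsg.classInner
        beta_reduce
        rw [← sum_subgroup H (fun t => ϑ t * conj (ϑ t))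
          (fun t ht => by rw [hvan t ht, zero_mul]), Cfsg.Agent.S0900.normsum hϑ, hcard]
        field_simp
      have hself2 : Cfsg.classInner (fun h : H => ϑ h) (fun h : H => ϑ h) =
          (k : ℂ) * (k : ℂ) * ((Finset.univ.image (cj H hN φ)).card : ℂ) := by
        rw [h174, classInner_smul_left, classInner_smul_right, classInner_sum_left,
          Complex.conj_natCast]
        have h6 : ∀ ψ ∈ Finset.univ.image (cj H hN φ),
            Cfsg.classInner ψ (∑ η ∈ Finset.univ.image (cj H hN φ), η) = 1 := by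
          intro ψ hψ
          rw [classInner_sum_right]
          have h7 : ∀ η ∈ Finset.univ.image (cj H hN φ),
              Cfsg.classInner ψ η = if ψ = η then 1 else 0 := fun η hη =>
            irr_orthonormal (hFirr ψ hψ) (hFirr η hη)
          rw [Finset.sum_congr rfl h7, Finset.sum_ite_eq, if_pos hψ]
        rw [Finset.sum_congr rfl h6, Finset.sum_const, nsmul_eq_mul, mul_one]
        ring
      rw [hself, hFcard] at hself2
      have hk1 : k = 1 := by
        have h8 : (k : ℂ) * (k : ℂ) = 1 := by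
          have h9 : (H.index : ℂ) * 1 = (H.index : ℂ) * ((k : ℂ) * (k : ℂ)) := by
            rw [mul_one, mul_comm]
            exact hself2
          exact (mul_left_cancel₀ hidx h9).symm
        have h10 : k * k = 1 := by exact_mod_cast h8
        exact Nat.eq_one_of_mul_eq_one_right h10
      refine ⟨Finset.univ.image (cj H hN φ), hFirr, hFcard, ?_⟩
      rw [h174, hk1]
      simp
    · left
      have hinv : ∀ (g : T) (n : H), φ ⟨g * n * g⁻¹, hN.conj_mem (n : T) n.2 g⟩ = φ n := by
        intro g n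
        have hg : g ∈ Tφ := by
          rw [hT]
          exact Subgroup.mem_top g
        exact congrFun hg n
      obtain ⟨e, he1, he2⟩ := ((Cfsg.Agent.S0900.result H ϑ hϑ φ hφ hcon).1).mpr ⟨hvan, hinv⟩
      exact ⟨φ, e, hφ, he1, he2⟩

theorem result {G : Type*} [Group G] [Fintype G] (K L : Subgroup G) [hK : K.Normal] [L.Normal] (hLK : L < K) (hchief : ∀ M : Subgroup G, M.Normal → L ≤ M → M ≤ K → M = L ∨ M = K) (hab : ⁅K, K⁆ ≤ L) (ϑ : K → ℂ) (hϑ : Cfsg.IsIrrCharacter K ϑ) (hinv : ∀ (g : G) (n : K), ϑ ⟨g * n * g⁻¹, hK.conj_mem (n : G) n.2 g⟩ = ϑ n) : Cfsg.IsIrrCharacter L (fun x : L => ϑ ⟨(x : G), hLK.le x.2⟩) ∨ (∃ (φ : L → ℂ) (e : ℕ), Cfsg.IsIrrCharacter L φ ∧ (fun x : L => ϑ ⟨(x : G), hLK.le x.2⟩) = (e : ℂ) • φ ∧ e ^ 2 = L.relIndex K) ∨ (∃ F : Finset (L → ℂ), (∀ φ ∈ F, Cfsg.IsIrrCharacter L φ) ∧ F.card = L.relIndex K ∧ (fun x : L => ϑ ⟨(x : G), hLK.le x.2⟩) = ∑ φ ∈ F, φ) := by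
  classical
  have _k : Fintype K := Fintype.ofFinite K
  have _l : Fintype L := Fintype.ofFinite L
  have _lk : Fintype (L.subgroupOf K) := Fintype.ofFinite _
  have hL : L.Normal := inferInstance
  have hN' : (L.subgroupOf K).Normal := inferInstance
  let A : Set (K ≃* K) := {α | ∃ g : G, α = MulAut.conjNormal g}
  have hab' : ∀ x y : K, x * y * x⁻¹ * y⁻¹ ∈ L.subgroupOf K := by
    intro x y
    rw [Subgroup.mem_subgroupOf]
    apply hab
    have h1 := Subgroup.commutator_mem_commutator x.2 y.2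
    rw [commutatorElement_def] at h1
    exact h1
  have hAH : ∀ α ∈ A, ∀ h ∈ L.subgroupOf K, α h ∈ L.subgroupOf K := by
    rintro α ⟨g, rfl⟩ h hh
    rw [Subgroup.mem_subgroupOf] at hh ⊢
    rw [MulAut.conjNormal_apply]
    exact hL.conj_mem _ hh g
  have hAs : ∀ α ∈ A, α.symm ∈ A := by
    rintro α ⟨g, rfl⟩
    refine ⟨g⁻¹, ?_⟩
    apply MulEquiv.ext
    intro x
    apply Subtype.ext
    rw [MulAut.conjNormal_symm_apply, MulAut.conjNormal_apply, inv_inv]
  have hAϑ : ∀ α ∈ A, ∀ t : K, ϑ (α t) = ϑ t := by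
    rintro α ⟨g, rfl⟩ t
    rw [← hinv g t]
    exact congrArg ϑ (Subtype.ext (MulAut.conjNormal_apply g t))
  have hchief' : ∀ M : Subgroup K, L.subgroupOf K ≤ M → (∀ α ∈ A, ∀ m ∈ M, α m ∈ M) →
      M = L.subgroupOf K ∨ M = ⊤ := by
    intro M hLM hMA
    have hnorm : (M.map K.subtype).Normal := by
      constructor
      rintro x ⟨m, hm, rfl⟩ g
      refine ⟨MulAut.conjNormal g m, hMA _ ⟨g, rfl⟩ m hm, ?_⟩
      exact MulAut.conjNormal_apply g m
    have h1 : L ≤ M.map K.subtype := by
      intro l hl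
      exact ⟨⟨l, hLK.le hl⟩, hLM (Subgroup.mem_subgroupOf.mpr hl), rfl⟩
    have h2 : M.map K.subtype ≤ K := by
      rintro x ⟨m, -, rfl⟩
      exact m.2
    rcases hchief (M.map K.subtype) hnorm h1 h2 with h3 | h3
    · left
      ext m
      rw [Subgroup.mem_subgroupOf, ← h3]
      constructor
      · intro hm
        exact ⟨m, hm, rfl⟩
      · rintro ⟨m', hm', he⟩
        have : m' = m := Subtype.ext he
        rw [← this]
        exact hm'
    · right
      rw [eq_top_iff]
      intro m _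
      have hm : (m : G) ∈ M.map K.subtype := by
        rw [h3]
        exact m.2
      obtain ⟨m', hm', he⟩ := hm
      have : m' = m := Subtype.ext he
      rw [← this]
      exact hm'
  have hmain := chief_restrict (L.subgroupOf K) hab' ϑ hϑ A hAH hAs hAϑ hchief'
  let e₀ : L ≃* L.subgroupOf K := (Subgroup.subgroupOfEquivOfLe hLK.le).symm
  have hres : ∀ ψ : L.subgroupOf K → ℂ, (fun h : L.subgroupOf K => ϑ h) = ψ →
      (fun x : L => ϑ ⟨(x : G), hLK.le x.2⟩) = ψ ∘ e₀ := by
    rintro ψ rfl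
    funext x
    rfl
  have hirr : ∀ ψ : L.subgroupOf K → ℂ, Cfsg.IsIrrCharacter (L.subgroupOf K) ψ →
      Cfsg.IsIrrCharacter L (ψ ∘ e₀) := fun ψ hψ =>
    comp_isIrr e₀.toMonoidHom e₀.surjective hψ
  rcases hmain with h | ⟨φ, e, hφ, he1, he2⟩ | ⟨F, hF, hcard, hsum⟩
  · left
    rw [hres _ rfl]
    exact hirr _ h
  · right
    left
    refine ⟨φ ∘ e₀, e, hirr φ hφ, ?_, he2⟩
    rw [hres _ he1]
    rfl
  · right
    right
    have hinj : Function.Injective (fun ψ : L.subgroupOf K → ℂ => ψ ∘ e₀) :=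
      e₀.surjective.injective_comp_right
    refine ⟨F.image (fun ψ : L.subgroupOf K → ℂ => ψ ∘ e₀), ?_, ?_, ?_⟩
    · intro ψ hψ
      obtain ⟨η, hη, rfl⟩ := Finset.mem_image.mp hψ
      exact hirr η (hF η hη)
    · rw [Finset.card_image_of_injective _ hinj, hcard]
      rfl
    · rw [hres _ hsum, Finset.sum_image (fun a _ b _ h => hinj h)]
      funext x
      simp only [Function.comp_apply, Finset.sum_apply]

end Cfsg.Agent.S0857
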