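import Mathlib
import Cfsg.Statements.S0858
import Cfsg.Agent.Lib.Helper3.Char
import Cfsg.Agent.Lib.Helper3.CharCore
import Cfsg.Agent.Lib.Helper3.CharInd
import Cfsg.Agent.Lib.Helper3.CharArith
import Cfsg.Agent.Lib.Helper3.CharNormal
import Cfsg.Agent.Lib.Helper3.CharAb
import Cfsg.Agent.Lib.Helper3.CharProj
import Cfsg.Agent.Lib.Helper3.CharCliff
import Cfsg.Agent.Lib.Helper3.CharTrans
import Cfsg.Agent.S0174
import Cfsg.Agent.S0900
import Cfsg.Agent.S0857
import Cfsg.Agent.S0887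
import Cfsg.Agent.S0169

set_option autoImplicit false
open Cfsg
open Cfsg.Agent.Lib.Helper3.Char Cfsg.Agent.Lib.Helper3.CharCore Cfsg.Agent.Lib.Helper3.CharInd Cfsg.Agent.Lib.Helper3.CharArith Cfsg.Agent.Lib.Helper3.CharNormal Cfsg.Agent.Lib.Helper3.CharAb Cfsg.Agent.Lib.Helper3.CharProj Cfsg.Agent.Lib.Helper3.CharCliff Cfsg.Agent.Lib.Helper3.CharTrans
open scoped ComplexConjugate
universe u

namespace Cfsg.Agent.S0858

theorem rel_step {G : Type u} [Group G] [Fintype G] (N : Subgroup G) [hNn : N.Normal]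
    (hsolv : Group.IsSolvable (G ⧸ N))
    (hchief : ∀ (K L : Subgroup G), K.Normal → L.Normal → N ≤ L → L < K →
      (∀ M : Subgroup G, M.Normal → L ≤ M → M ≤ K → M = L ∨ M = K) → ¬ IsSquare (L.relIndex K))
    (χ : G → ℂ) (hχ : Cfsg.IsIrrCharacter G χ)
    (hnot : ¬ Cfsg.IsIrrCharacter N (fun n : N => χ n)) :
    ∃ (T : Subgroup G), T ≠ ⊤ ∧ N ≤ T ∧ ∃ ψ : T → ℂ, Cfsg.IsIrrCharacter T ψ ∧
      Cfsg.indFun T ψ = χ := by
  classical
  have hχc := isCharacter_of_irr hχ
  have hcf := char_classFun hχc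
  obtain ⟨K, hKmin⟩ := exists_minimal_of_wellFoundedLT
    (fun K : Subgroup G => K.Normal ∧ N ≤ K ∧ Cfsg.IsIrrCharacter K (fun k : K => χ k))
    ⟨⊤, inferInstance, le_top, comp_isIrr (⊤ : Subgroup G).subtype
      (fun g => ⟨⟨g, Subgroup.mem_top g⟩, rfl⟩) hχ⟩
  obtain ⟨⟨hKn, hNK, hKirr⟩, hKle⟩ := hKmin
  have hNK' : N < K := by
    refine lt_of_le_of_ne hNK ?_
    rintro rfl
    exact hnot hKirr
  obtain ⟨L, hLmax⟩ := exists_maximal_of_wellFoundedGT
    (fun L : Subgroup G => L.Normal ∧ N ≤ L ∧ L < K) ⟨N, hNn, le_rfl, hNK'⟩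
  obtain ⟨⟨hLn, hNL, hLK⟩, hLle⟩ := hLmax
  have hch : ∀ M : Subgroup G, M.Normal → L ≤ M → M ≤ K → M = L ∨ M = K := by
    intro M hMn hLM hMK
    by_cases hMK' : M = K
    · right
      exact hMK'
    · left
      exact le_antisymm (hLle ⟨hMn, hNL.trans hLM, lt_of_le_of_ne hMK hMK'⟩ hLM) hLM
  have hab : ⁅K, K⁆ ≤ L := by
    have hM : (⁅K, K⁆ ⊔ L).Normal := inferInstance
    rcases hch (⁅K, K⁆ ⊔ L) hM le_sup_right
      (sup_le (Subgroup.commutator_le_right K K) hLK.le) with h | h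
    · rw [← h]
      exact le_sup_left
    · exfalso
      have hsolvL : Group.IsSolvable (G ⧸ L) := by
        have hsurj : Function.Surjective
            (QuotientGroup.map N L (MonoidHom.id G) (fun x hx => hNL hx)) := by
          intro q
          obtain ⟨g, rfl⟩ := QuotientGroup.mk_surjective q
          exact ⟨(g : G ⧸ N), rfl⟩
        exact Group.isSolvable_of_surjective hsurj
      have hne : K.map (QuotientGroup.mk' L) ≠ ⊥ := by
        intro h0
        rw [Subgroup.map_eq_bot_iff, QuotientGroup.ker_mk'] at h0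
        exact absurd h0 (not_le_of_gt hLK)
      have hlt := Group.IsSolvable.commutator_lt_of_ne_bot hne
      have heq : ⁅K.map (QuotientGroup.mk' L), K.map (QuotientGroup.mk' L)⁆ =
          K.map (QuotientGroup.mk' L) := by
        rw [← Subgroup.map_commutator]
        conv_rhs => rw [← h]
        rw [Subgroup.map_sup, QuotientGroup.map_mk'_self, sup_bot_eq]
      exact absurd heq hlt.ne
  have hinv : ∀ (g : G) (n : K), (fun k : K => χ k) ⟨g * n * g⁻¹, hKn.conj_mem (n : G) n.2 g⟩ =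
      (fun k : K => χ k) n := fun g n => hcf (n : G) g
  have h857 := @Cfsg.Agent.S0857.result G _ _ K L hKn hLn hLK hch hab (fun k : K => χ k)
    hKirr hinv
  rcases h857 with h | ⟨φ, e, hφ, he1, he2⟩ | ⟨F, hF, hcard, hsum⟩
  · exfalso
    exact absurd (hKle ⟨hLn, hNL, h⟩ hLK.le) (not_le_of_gt hLK)
  · exfalso
    exact hchief K L hKn hLn hNL hLK hch ⟨e, by rw [← he2, sq]⟩
  · have hcard2 : 1 < F.card := by
      rw [hcard]
      have h1 : L.relIndex K ≠ 1 := fun h1 =>
        absurd (Subgroup.relIndex_eq_one.mp h1) (not_le_of_gt hLK)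
      have h0 : L.relIndex K ≠ 0 := Subgroup.index_ne_zero_of_finite (H := L.subgroupOf K)
      omega
    obtain ⟨φ₁, hφ₁F, φ₂, hφ₂F, hne12⟩ := Finset.one_lt_card.mp hcard2
    have _l : Fintype L := Fintype.ofFinite _
    have hφ₁ := hF φ₁ hφ₁F
    have hφ₂ := hF φ₂ hφ₂F
    have hin : ∀ φ ∈ F, Cfsg.classInner (fun n : L => χ n) φ = 1 := by
      intro φ hφF
      have hs : (fun n : L => χ n) = ∑ φ ∈ F, φ := hsum
      rw [hs, classInner_sum_left]
      have h7 : ∀ η ∈ F, Cfsg.classInner η φ = if η = φ then 1 else 0 := fun η hη =>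
        irr_orthonormal (hF η hη) (hF φ hφF)
      rw [Finset.sum_congr rfl h7, Finset.sum_ite_eq', if_pos hφF]
    obtain ⟨T, hT, hLT⟩ := Cfsg.Agent.S0887.exists_stab L hLn φ₁
      (char_classFun (isCharacter_of_irr hφ₁))
    have _t : Fintype T := Fintype.ofFinite _
    have hne1 : Cfsg.classInner (fun n : L => χ n) φ₁ ≠ 0 := by
      rw [hin φ₁ hφ₁F]
      exact one_ne_zero
    refine ⟨T, ?_, hNL.trans hLT, ?_⟩
    · intro hTtop
      have hinvφ : ∀ (g : G) (n : L), φ₁ ⟨g * n * g⁻¹, hLn.conj_mem (n : G) n.2 g⟩ = φ₁ n := by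
        intro g n
        exact (hT g).mp (by rw [hTtop]; exact Subgroup.mem_top g) n
      have h8 := Cfsg.Agent.Lib.Helper3.CharAb.inv_restrict L hLn χ hχ φ₁ hφ₁ hne1 hinvφ
      have h9 := hin φ₂ hφ₂F
      rw [h8, classInner_smul_left, irr_inner_ne hφ₁ hφ₂ hne12, mul_zero] at h9
      exact zero_ne_one h9
    · obtain ⟨ψ, hψ, -, hind⟩ := Cfsg.Agent.S0169.exists_cliff L T hLn φ₁ hφ₁ hT hLT χ hχ hne1
      exact ⟨ψ, hψ, hind⟩

theorem rel_main : ∀ (n : ℕ) (G : Type u) [Group G] [Fintype G] (N : Subgroup G) [N.Normal],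
    Nat.card G = n → Group.IsSolvable (G ⧸ N) →
    (∀ (H K L : Subgroup G), N ≤ L → L < K → K ≤ H → (∀ h ∈ H, ∀ k ∈ K, h * k * h⁻¹ ∈ K) →
      (∀ h ∈ H, ∀ l ∈ L, h * l * h⁻¹ ∈ L) →
      (∀ M : Subgroup G, L ≤ M → M ≤ K → (∀ h ∈ H, ∀ m ∈ M, h * m * h⁻¹ ∈ M) →
        M = L ∨ M = K) →
      ¬ IsSquare (L.relIndex K)) →
    ∀ χ : G → ℂ, Cfsg.IsIrrCharacter G χ →
    ∃ (H : Subgroup G) (hNH : N ≤ H) (ψ : H → ℂ), Cfsg.IsIrrCharacter H ψ ∧
      Cfsg.indFun H ψ = χ ∧ Cfsg.IsIrrCharacter N (fun n : N => ψ ⟨(n : G), hNH n.2⟩) := by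
  intro n
  induction n using Nat.strong_induction_on with
  | _ n ih =>
    intro G _ _ N hNn hn hsolv hchief χ hχ
    classical
    by_cases hirrN : Cfsg.IsIrrCharacter N (fun n : N => χ n)
    · refine ⟨⊤, le_top, fun h => χ h, ?_, ?_, hirrN⟩
      · exact comp_isIrr (⊤ : Subgroup G).subtype (fun g => ⟨⟨g, Subgroup.mem_top g⟩, rfl⟩) hχ
      · exact indFun_top χ (char_classFun (isCharacter_of_irr hχ))
    · have hchief' : ∀ (K L : Subgroup G), K.Normal → L.Normal → N ≤ L → L < K →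
          (∀ M : Subgroup G, M.Normal → L ≤ M → M ≤ K → M = L ∨ M = K) →
          ¬ IsSquare (L.relIndex K) := by
        intro K L hKn hLn hNL hLK hch
        apply hchief ⊤ K L hNL hLK le_top (fun h _ k hk => hKn.conj_mem k hk h)
          (fun h _ l hl => hLn.conj_mem l hl h)
        intro M hLM hMK hMinv
        exact hch M ⟨fun m hm g => hMinv g (Subgroup.mem_top g) m hm⟩ hLM hMK
      obtain ⟨T, hTtop, hNT, ψ, hψ, hind⟩ := rel_step N hsolv hchief' χ hχ hirrN
      have _t : Fintype T := Fintype.ofFinite _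
      have hcardT : Nat.card T < n := by
        rw [← hn]
        have h1 := T.card_mul_index
        have h2 : T.index ≠ 1 := fun h => hTtop (Subgroup.index_eq_one.mp h)
        have h3 : T.index ≠ 0 := Subgroup.index_ne_zero_of_finite
        have h4 : 0 < Nat.card T := Nat.card_pos
        have h5 : 2 ≤ T.index := by omega
        nlinarith
      have hsolvT : Group.IsSolvable (T ⧸ N.subgroupOf T) := by
        have hf : Function.Injective
            (QuotientGroup.map (N.subgroupOf T) N T.subtype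
              (le_of_eq rfl : N.subgroupOf T ≤ N.comap T.subtype)) := by
          rw [← MonoidHom.ker_eq_bot_iff, QuotientGroup.ker_map]
          exact QuotientGroup.map_mk'_self (N.subgroupOf T)
        exact Group.isSolvable_of_isSolvable_injective hf
      have hchiefT : ∀ (H K L : Subgroup T), N.subgroupOf T ≤ L → L < K → K ≤ H →
          (∀ h ∈ H, ∀ k ∈ K, h * k * h⁻¹ ∈ K) → (∀ h ∈ H, ∀ l ∈ L, h * l * h⁻¹ ∈ L) →
          (∀ M : Subgroup T, L ≤ M → M ≤ K → (∀ h ∈ H, ∀ m ∈ M, h * m * h⁻¹ ∈ M) →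
            M = L ∨ M = K) → ¬ IsSquare (L.relIndex K) := by
        intro H K L hNL hLK hKH hK hL hM
        have hinj := T.subtype_injective
        rw [← Subgroup.relIndex_map_map_of_injective L K hinj]
        apply hchief (H.map T.subtype) (K.map T.subtype) (L.map T.subtype)
        · intro x hx
          exact ⟨⟨x, hNT hx⟩, hNL (Subgroup.mem_subgroupOf.mpr hx), rfl⟩
        · exact (Subgroup.map_lt_map_iff_of_injective hinj).mpr hLK
        · exact Subgroup.map_mono hKH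
        · rintro _ ⟨h, hh, rfl⟩ _ ⟨k, hk, rfl⟩
          exact ⟨h * k * h⁻¹, hK h hh k hk, rfl⟩
        · rintro _ ⟨h, hh, rfl⟩ _ ⟨l, hl, rfl⟩
          exact ⟨h * l * h⁻¹, hL h hh l hl, rfl⟩
        · intro M hLM hMK hMinv
          have hMT : M ≤ T := fun x hx => by
            obtain ⟨k, -, rfl⟩ := hMK hx
            exact k.2
          have h1 := hM (M.subgroupOf T)
            (fun l hl => Subgroup.mem_subgroupOf.mpr (hLM ⟨l, hl, rfl⟩))
            (fun m hm => by
              obtain ⟨k, hk, hkm⟩ := hMK (Subgroup.mem_subgroupOf.mp hm)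
              have : k = m := Subtype.ext hkm
              rw [← this]
              exact hk)
            (fun h hh m hm => Subgroup.mem_subgroupOf.mpr
              (hMinv h ⟨h, hh, rfl⟩ m (Subgroup.mem_subgroupOf.mp hm)))
          rcases h1 with h1 | h1
          · left
            rw [← h1, Subgroup.map_subgroupOf_eq_of_le hMT]
          · right
            rw [← h1, Subgroup.map_subgroupOf_eq_of_le hMT]
      obtain ⟨H', hNH', η, hη, hindη, hηN⟩ :=
        ih (Nat.card T) hcardT T (N.subgroupOf T) rfl hsolvT hchiefT ψ hψ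
      have hNH : N ≤ H'.map T.subtype := by
        intro x hx
        exact ⟨⟨x, hNT hx⟩, hNH' (Subgroup.mem_subgroupOf.mpr hx), rfl⟩
      refine ⟨H'.map T.subtype, hNH,
        η ∘ (H'.equivMapOfInjective T.subtype T.subtype_injective).symm, map_irr T H' hη, ?_, ?_⟩
      · rw [← ind_trans, hindη, hind]
      · have h5 := comp_isIrr (Subgroup.subgroupOfEquivOfLe hNT).symm.toMonoidHom
          (Subgroup.subgroupOfEquivOfLe hNT).symm.surjective hηN
        have h6 : ((fun n : N.subgroupOf T => η ⟨(n : T), hNH' n.2⟩) ∘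
            (Subgroup.subgroupOfEquivOfLe hNT).symm.toMonoidHom) =
            (fun n : N => (η ∘ (H'.equivMapOfInjective T.subtype T.subtype_injective).symm)
              ⟨(n : G), hNH n.2⟩) := by
          funext x
          show η ⟨(((Subgroup.subgroupOfEquivOfLe hNT).symm x : N.subgroupOf T) : T), _⟩ =
            η ((H'.equivMapOfInjective T.subtype T.subtype_injective).symm ⟨(x : G), hNH x.2⟩)
          apply congrArg η
          apply Subtype.ext
          apply Subtype.ext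
          rw [map_coe]
          rfl
        rw [← h6]
        exact h5

theorem result {G : Type*} [Group G] [Fintype G] (N : Subgroup G) [N.Normal] (hsolv : Group.IsSolvable (G ⧸ N)) (hchief : ∀ (H K L : Subgroup G), N ≤ L → L < K → K ≤ H → (∀ h ∈ H, ∀ k ∈ K, h * k * h⁻¹ ∈ K) → (∀ h ∈ H, ∀ l ∈ L, h * l * h⁻¹ ∈ L) → (∀ M : Subgroup G, L ≤ M → M ≤ K → (∀ h ∈ H, ∀ m ∈ M, h * m * h⁻¹ ∈ M) → M = L ∨ M = K) → ¬ IsSquare (L.relIndex K)) (χ : G → ℂ) (hχ : Cfsg.IsIrrCharacter G χ) : ∃ (H : Subgroup G) (hNH : N ≤ H) (ψ : H → ℂ), Cfsg.IsIrrCharacter H ψ ∧ Cfsg.indFun H ψ = χ ∧ Cfsg.IsIrrCharacter N (fun n : N => ψ ⟨(n : G), hNH n.2⟩) := by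
  exact rel_main (Nat.card G) G N rfl hsolv hchief χ hχ

end Cfsg.Agent.S0858
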