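import Mathlib
import Cfsg.Statements.S0860
import Cfsg.Agent.Lib.Helper3.CharPerm

set_option autoImplicit false
open Cfsg
open Cfsg.Agent.Lib.Helper3.CharPerm

namespace Cfsg.Agent.S0860

theorem result {G : Type*} [Group G] [Finite G] {A : Type*} [Group A] [MulAction A (Cfsg.IrrCharacter G)] [MulAction A (ConjClasses G)] (hcompat : ∀ (a : A) (χ : Cfsg.IrrCharacter G) (g g' : G), ConjClasses.mk g' = a • ConjClasses.mk g → ((a • χ : Cfsg.IrrCharacter G) : G → ℂ) g' = (χ : G → ℂ) g) (a : A) : Nat.card {χ : Cfsg.IrrCharacter G // a • χ = χ} = Nat.card {C : ConjClasses G // a • C = C} := by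
  classical
  have h1 := perm_lemma (fun C : ConjClasses G => a • C)
    (fun χ : Cfsg.IrrCharacter G => a⁻¹ • χ) (by
      intro χ g
      apply hcompat a⁻¹ χ (Quotient.out (a • ConjClasses.mk g)) g
      have hC : ConjClasses.mk (Quotient.out (a • ConjClasses.mk g)) = a • ConjClasses.mk g :=
        Quotient.out_eq _
      rw [hC, inv_smul_smul])
  rw [h1]
  refine Nat.card_congr (Equiv.subtypeEquivRight (fun χ => ?_))
  rw [inv_smul_eq_iff]
  exact eq_comm

end Cfsg.Agent.S0860
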