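import Mathlib
import Cfsg.Statements.S0861
import Cfsg.Agent.Lib.Helper3.Char
import Cfsg.Agent.Lib.Helper3.CharCore
import Cfsg.Agent.Lib.Helper3.CharTable
import Cfsg.Agent.Lib.Helper3.CharInd
import Cfsg.Agent.Lib.Helper3.CharInt
import Cfsg.Agent.Lib.Helper3.CharGalois
import Cfsg.Agent.Lib.Helper3.CharDeg
import Cfsg.Agent.S0169

set_option autoImplicit false
open Cfsg
open Cfsg.Agent.Lib.Helper3.Char Cfsg.Agent.Lib.Helper3.CharCore Cfsg.Agent.Lib.Helper3.CharTable Cfsg.Agent.Lib.Helper3.CharInd Cfsg.Agent.Lib.Helper3.CharInt Cfsg.Agent.Lib.Helper3.CharGalois Cfsg.Agent.Lib.Helper3.CharDeg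
open scoped ComplexConjugate IntermediateField
universe v

namespace Cfsg.Agent.S0861

theorem trace_ne_zero_ppow {V : Type*} [AddCommGroup V] [Module ℂ V] [FiniteDimensional ℂ V]
    (p : ℕ) [hp : Fact p.Prime] (k : ℕ) (f : V →ₗ[ℂ] V) (hf : f ^ (p ^ (k + 1)) = 1)
    (hdeg : ¬ p ∣ Module.finrank ℂ V) : LinearMap.trace ℂ V f ≠ 0 := by
  have hn : 0 < p ^ (k + 1) := pow_pos hp.out.pos _
  obtain ⟨m, hm, hformula⟩ := trace_pow_of_pow_eq_one f (p ^ (k + 1)) hn hf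
  have hζ := Complex.isPrimitiveRoot_exp (p ^ (k + 1)) hn.ne'
  generalize Complex.exp (2 * Real.pi * Complex.I / ((p ^ (k + 1) : ℕ) : ℂ)) = ζ at hζ hformula
  intro h0
  have h1 := hformula 1
  rw [pow_one, h0] at h1
  let F : Polynomial ℤ :=
    ∑ j ∈ Finset.range (p ^ (k + 1)), Polynomial.C (m j : ℤ) * Polynomial.X ^ j
  have hF : Polynomial.aeval ζ F = 0 := by
    have h2 : Polynomial.aeval ζ F =
        ∑ j ∈ Finset.range (p ^ (k + 1)), (m j : ℂ) * ζ ^ (j * 1) := by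
      simp [F]
    rw [h2, ← h1]
  have hdvd : Polynomial.cyclotomic (p ^ (k + 1)) ℤ ∣ F := by
    rw [Polynomial.cyclotomic_eq_minpoly hζ hn]
    exact minpoly.isIntegrallyClosed_dvd (hζ.isIntegral hn) hF
  obtain ⟨Q, hQ⟩ := hdvd
  have heval := congrArg (Polynomial.eval 1) hQ
  rw [Polynomial.eval_mul, Polynomial.eval_one_cyclotomic_prime_pow] at heval
  have hF1 : Polynomial.eval 1 F = (Module.finrank ℂ V : ℤ) := by
    rw [← hm]
    simp [F, Polynomial.eval_finsetSum]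
  rw [hF1] at heval
  apply hdeg
  have h3 : (p : ℤ) ∣ (Module.finrank ℂ V : ℤ) := ⟨_, heval⟩
  exact_mod_cast h3

theorem comm_of_all_linear {Q : Type v} [Group Q] [Finite Q]
    (h : ∀ β : Cfsg.IrrCharacter Q, (β : Q → ℂ) 1 = 1) : IsMulCommutative Q := by
  classical
  have _i : Fintype Q := Fintype.ofFinite Q
  have _j : Fintype (Cfsg.IrrCharacter Q) := Fintype.ofFinite _
  have h1 := sum_degree_sq (fun _ : Cfsg.IrrCharacter Q => 1) (fun β => by rw [h β]; simp)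
  simp only [one_pow, Finset.sum_const, Finset.card_univ, smul_eq_mul, mul_one] at h1
  rw [← Nat.card_eq_fintype_card, card_irr] at h1
  rw [← commProb_eq_one_iff, commProb_def', ← h1]
  exact div_self (by exact_mod_cast Nat.card_pos.ne')

theorem result {G : Type*} [Group G] [Finite G] (p : ℕ) [Fact p.Prime] (P : Sylow p G) [(P : Subgroup G).Normal] (hab : ∀ a ∈ P, ∀ b ∈ P, a * b = b * a) (g : G) (hg : g ∈ P) (hC : Subgroup.centralizer ({g} : Set G) = P) : Nat.card (Cfsg.IrrCharacter G) ≤ Nat.card P ∧ (Nat.card (Cfsg.IrrCharacter G) = Nat.card P → commutator G ≤ P) := by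
  classical
  have _i : Fintype G := Fintype.ofFinite G
  have _j : Fintype (Cfsg.IrrCharacter G) := Fintype.ofFinite _
  have hp : p.Prime := Fact.out
  have hN : Nat.card G ≠ 0 := Nat.card_pos.ne'
  have hfd := cyc_fd (Nat.card G) hN
  have hex : ∀ χ : Cfsg.IrrCharacter G, ∃ a : ℚ⟮zeta (Nat.card G)⟯,
      (a : ℂ) = (χ : G → ℂ) g ∧ IsIntegral ℤ a ∧
      ∀ (σ : ℚ⟮zeta (Nat.card G)⟯ →ₐ[ℚ] ℂ) (e : ℕ),
        σ (IntermediateField.AdjoinSimple.gen ℚ (zeta (Nat.card G))) = zeta (Nat.card G) ^ e →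
        σ a = (χ : G → ℂ) (g ^ e) := by
    intro χ
    obtain ⟨n, ρ, hirr, hρ⟩ := χ.2
    obtain ⟨a, h1, h2, h3⟩ := char_lift ρ g
    exact ⟨a, by rw [h1, hρ], h2, fun σ e he => by rw [h3 σ e he, hρ]⟩
  choose a ha1 ha2 ha3 using hex
  obtain ⟨k, hgk⟩ : ∃ k : ℕ, g ^ (p ^ (k + 1)) = 1 := by
    obtain ⟨k, hk⟩ := P.isPGroup' ⟨g, hg⟩
    refine ⟨k, ?_⟩
    have h1 : g ^ (p ^ k) = 1 := by
      have h2 := congrArg Subtype.val hk
      simpa using h2
    rw [pow_succ, pow_mul, h1, one_pow]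
  have hnz : ∀ χ : Cfsg.IrrCharacter G, (χ : G → ℂ) g ≠ 0 := by
    intro χ
    obtain ⟨n, ρ, hirr, hρ⟩ := χ.2
    have _ri : ρ.IsIrreducible := hirr
    rw [← hρ]
    apply trace_ne_zero_ppow p k (ρ g)
    · rw [← map_pow, hgk, map_one]
    · intro hdvd
      have hito := Cfsg.Agent.S0169.result ρ (P : Subgroup G) hab
      exact P.not_dvd_index (dvd_trans hdvd hito)
  have ha0 : ∀ χ, a χ ≠ 0 := by
    intro χ h
    apply hnz χ
    rw [← ha1 χ, h]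
    rfl
  have hcol : ∀ e : ℕ, e.Coprime (Nat.card G) →
      ∑ χ : Cfsg.IrrCharacter G, ‖(χ : G → ℂ) (g ^ e)‖ ^ 2 = (Nat.card P : ℝ) := by
    intro e he
    have h1 := column_orth (g ^ e) (g ^ e)
    have hgA : g = (g ^ e) ^ (Nat.gcdA e (Nat.card G)) := by
      have hb := Nat.gcd_eq_gcd_ab e (Nat.card G)
      rw [Nat.Coprime.gcd_eq_one he] at hb
      have h5 : g ^ ((e : ℤ) * Nat.gcdA e (Nat.card G) +
          (Nat.card G : ℤ) * Nat.gcdB e (Nat.card G)) = g := by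
        rw [← hb]
        simp
      rw [zpow_add, zpow_mul, zpow_mul, zpow_natCast, zpow_natCast, pow_card_eq_one', one_zpow,
        mul_one] at h5
      exact h5.symm
    have h3 : Subgroup.centralizer ({g ^ e} : Set G) = Subgroup.centralizer ({g} : Set G) := by
      ext y
      simp only [Subgroup.mem_centralizer_iff, Set.mem_singleton_iff, forall_eq]
      constructor
      · intro h
        have hc : Commute (g ^ e) y := h
        have h6 := hc.zpow_left (Nat.gcdA e (Nat.card G))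
        rw [← hgA] at h6
        exact h6
      · intro h
        have hc : Commute g y := h
        exact hc.pow_left e
    have h2 : Nat.card {y : G // y * g ^ e * y⁻¹ = g ^ e} = Nat.card P := by
      rw [card_conj_fiber (g ^ e) (g ^ e) (IsConj.refl _), h3, hC]
    rw [h2] at h1
    have h4 : ∀ χ : Cfsg.IrrCharacter G,
        (χ : G → ℂ) (g ^ e) * conj ((χ : G → ℂ) (g ^ e)) =
          ((‖(χ : G → ℂ) (g ^ e)‖ ^ 2 : ℝ) : ℂ) := by
      intro χ
      rw [Complex.mul_conj']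
      push_cast
      rfl
    rw [Finset.sum_congr rfl (fun χ _ => h4 χ), ← Complex.ofReal_sum] at h1
    exact_mod_cast h1
  have hσ : ∀ σ : ℚ⟮zeta (Nat.card G)⟯ →ₐ[ℚ] ℂ,
      ∑ χ : Cfsg.IrrCharacter G, ‖σ (a χ)‖ ^ 2 = (Nat.card P : ℝ) := by
    intro σ
    obtain ⟨e, he, hσe⟩ := emb_gen (Nat.card G) hN σ
    rw [Finset.sum_congr rfl (fun χ _ => by rw [ha3 χ σ e hσe])]
    exact hcol e he
  have hne : Nonempty (ℚ⟮zeta (Nat.card G)⟯ →ₐ[ℚ] ℂ) := ⟨IntermediateField.val _⟩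
  have hcpos : (0 : ℝ) < (Fintype.card (ℚ⟮zeta (Nat.card G)⟯ →ₐ[ℚ] ℂ) : ℝ) := by
    exact_mod_cast Fintype.card_pos
  generalize hc : (Fintype.card (ℚ⟮zeta (Nat.card G)⟯ →ₐ[ℚ] ℂ) : ℝ) = c at hcpos
  have htotal : ∑ χ : Cfsg.IrrCharacter G,
      ∑ σ : ℚ⟮zeta (Nat.card G)⟯ →ₐ[ℚ] ℂ, ‖σ (a χ)‖ ^ 2 = c * (Nat.card P : ℝ) := by
    rw [Finset.sum_comm, Finset.sum_congr rfl (fun σ _ => hσ σ), Finset.sum_const,
      Finset.card_univ, nsmul_eq_mul, hc]
  have hge : ∀ χ : Cfsg.IrrCharacter G,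
      c ≤ ∑ σ : ℚ⟮zeta (Nat.card G)⟯ →ₐ[ℚ] ℂ, ‖σ (a χ)‖ ^ 2 := by
    intro χ
    rw [← hc]
    exact sum_sq_ge_card (Nat.card G) (a χ) (ha2 χ) (ha0 χ)
  have hle : c * (Nat.card (Cfsg.IrrCharacter G) : ℝ) ≤ c * (Nat.card P : ℝ) := by
    rw [← htotal]
    have h3 := Finset.sum_le_sum (fun χ (_ : χ ∈ Finset.univ) => hge χ)
    rw [Finset.sum_const, Finset.card_univ, ← Nat.card_eq_fintype_card, nsmul_eq_mul] at h3
    linarith
  have hfirst : Nat.card (Cfsg.IrrCharacter G) ≤ Nat.card P := by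
    have h1 := le_of_mul_le_mul_left hle hcpos
    exact_mod_cast h1
  refine ⟨hfirst, fun heq => ?_⟩
  have heach : ∀ χ : Cfsg.IrrCharacter G,
      ∑ σ : ℚ⟮zeta (Nat.card G)⟯ →ₐ[ℚ] ℂ, ‖σ (a χ)‖ ^ 2 = c := by
    have hsum0 : ∑ χ : Cfsg.IrrCharacter G,
        ((∑ σ : ℚ⟮zeta (Nat.card G)⟯ →ₐ[ℚ] ℂ, ‖σ (a χ)‖ ^ 2) - c) = 0 := by
      rw [Finset.sum_sub_distrib, htotal, Finset.sum_const, Finset.card_univ,
        ← Nat.card_eq_fintype_card, nsmul_eq_mul, heq]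
      ring
    intro χ
    have h1 := (Finset.sum_eq_zero_iff_of_nonneg (fun χ _ => sub_nonneg.mpr (hge χ))).mp hsum0 χ
      (Finset.mem_univ χ)
    linarith
  rw [← Subgroup.Normal.quotient_commutative_iff_commutator_le]
  apply comm_of_all_linear
  intro β
  have hχ : Cfsg.IsIrrCharacter G
      ((β : G ⧸ (P : Subgroup G) → ℂ) ∘ (QuotientGroup.mk' (P : Subgroup G))) :=
    comp_isIrr _ (QuotientGroup.mk'_surjective _) β.2
  have hval : ∀ e : ℕ, ((β : G ⧸ (P : Subgroup G) → ℂ) ∘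
      (QuotientGroup.mk' (P : Subgroup G))) (g ^ e) = (β : G ⧸ (P : Subgroup G) → ℂ) 1 := by
    intro e
    show (β : G ⧸ (P : Subgroup G) → ℂ) ((QuotientGroup.mk' (P : Subgroup G)) (g ^ e)) = _
    have h1 : (QuotientGroup.mk' (P : Subgroup G)) (g ^ e) = 1 :=
      (QuotientGroup.eq_one_iff _).mpr (Subgroup.pow_mem _ hg e)
    rw [h1]
  obtain ⟨d, hdpos, hd⟩ := irr_one_pos β.2
  have h1 := heach ⟨_, hχ⟩
  have h2 : ∀ σ : ℚ⟮zeta (Nat.card G)⟯ →ₐ[ℚ] ℂ,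
      ‖σ (a ⟨_, hχ⟩)‖ ^ 2 = (d : ℝ) ^ 2 := by
    intro σ
    obtain ⟨e, he, hσe⟩ := emb_gen (Nat.card G) hN σ
    rw [ha3 ⟨_, hχ⟩ σ e hσe]
    show ‖((β : G ⧸ (P : Subgroup G) → ℂ) ∘ (QuotientGroup.mk' (P : Subgroup G))) (g ^ e)‖ ^ 2 =
      (d : ℝ) ^ 2
    rw [hval e, hd, Complex.norm_natCast]
  rw [Finset.sum_congr rfl (fun σ _ => h2 σ), Finset.sum_const, Finset.card_univ, nsmul_eq_mul,
    hc] at h1
  have h3 : (d : ℝ) ^ 2 = 1 := by
    have h4 : c * (d : ℝ) ^ 2 = c * 1 := by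
      rw [mul_one]
      exact h1
    exact mul_left_cancel₀ hcpos.ne' h4
  have h4 : d = 1 := by
    have h5 : d ^ 2 = 1 := by exact_mod_cast h3
    rcases Nat.lt_or_ge d 2 with h | h
    · omega
    · nlinarith
  rw [hd, h4]
  simp

end Cfsg.Agent.S0861
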