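import Mathlib
import Cfsg.Statements.S0862
import Cfsg.Agent.Lib.Helper3.Char
import Cfsg.Agent.Lib.Helper3.CharCore
import Cfsg.Agent.Lib.Helper3.CharInd
import Cfsg.Agent.Lib.Helper3.CharArith
import Cfsg.Agent.Lib.Helper3.CharInt
import Cfsg.Agent.Lib.Helper3.CharLinear
import Cfsg.Agent.Lib.Helper3.CharLin
import Cfsg.Agent.Lib.Helper3.CharAb
import Cfsg.Agent.Lib.Helper3.CharProj
import Cfsg.Agent.Lib.Helper3.CharDet

set_option autoImplicit false
open Cfsg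
open Cfsg.Agent.Lib.Helper3.Char Cfsg.Agent.Lib.Helper3.CharCore Cfsg.Agent.Lib.Helper3.CharInd Cfsg.Agent.Lib.Helper3.CharArith Cfsg.Agent.Lib.Helper3.CharInt Cfsg.Agent.Lib.Helper3.CharLinear Cfsg.Agent.Lib.Helper3.CharLin Cfsg.Agent.Lib.Helper3.CharAb Cfsg.Agent.Lib.Helper3.CharProj Cfsg.Agent.Lib.Helper3.CharDet
open Representation

namespace Cfsg.Agent.S0862

theorem result {G : Type*} [Group G] [Finite G] (N : Subgroup G) [N.Normal] (ϑ : N → ℂ) (hϑ : Cfsg.IsIrrCharacter N ϑ) (d : ℕ) (hd : ϑ 1 = d) (hcop : Nat.Coprime N.index d) (hext : ∃ η : G → ℂ, Cfsg.IsIrrCharacter G η ∧ (∀ n : N, η n = ϑ n)) (μ : G → ℂ) (hμ : Cfsg.IsCharacter G μ ∧ μ 1 = 1) (hμN : ∀ n : N, μ n = Cfsg.detChar ϑ n) : ∃! χ : G → ℂ, Cfsg.IsIrrCharacter G χ ∧ (∀ n : N, χ n = ϑ n) ∧ Cfsg.detChar χ = μ := by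
  classical
  have _i : Fintype G := Fintype.ofFinite G
  have _n : Fintype N := Fintype.ofFinite N
  obtain ⟨η, hη, hηN⟩ := hext
  obtain ⟨k, R, hRirr, hRchar⟩ := hη
  subst hRchar
  have hkd : k = d := by
    have h1 := hηN 1
    rw [hd] at h1
    have h2 : R.character ((1 : N) : G) = (k : ℂ) := by
      show R.character 1 = _
      rw [Representation.char_one, Module.finrank_fin_fun]
    rw [h2] at h1
    exact_mod_cast h1
  subst hkd
  obtain ⟨Mu, hMu⟩ := hom_of_deg_one hμ.1 hμ.2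
  have hDN : ∀ n : N, Cfsg.detChar ϑ n = LinearMap.det (R n) := by
    intro n
    have h1 : ϑ = R.character ∘ N.subtype := by
      funext n
      exact (hηN n).symm
    rw [h1, detChar_comp N.subtype ⟨k, R, rfl⟩, detChar_eq]
    rfl
  let δ : G →* ℂˣ := Mu * (detHom R)⁻¹
  have hδapp : ∀ g : G, δ g = Mu g * (detHom R g)⁻¹ := fun g => rfl
  have hδN : ∀ n ∈ N, δ n = 1 := by
    intro n hn
    rw [hδapp, mul_inv_eq_one]
    apply Units.ext
    have h1 := hμN ⟨n, hn⟩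
    rw [hMu, hDN] at h1
    exact h1
  have hδm : ∀ g : G, (δ g) ^ N.index = 1 := by
    intro g
    have h1 := pow_index_trivial N δ hδN
    exact congrArg (fun φ : G →* ℂˣ => φ g) h1
  have hbez : (N.index : ℤ) * Nat.gcdA N.index k + (k : ℤ) * Nat.gcdB N.index k = 1 := by
    have h1 := Nat.gcd_eq_gcd_ab N.index k
    rw [Nat.Coprime.gcd_eq_one hcop] at h1
    exact_mod_cast h1.symm
  generalize Nat.gcdA N.index k = a at hbez
  generalize Nat.gcdB N.index k = b at hbez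
  let β : G →* ℂˣ := δ ^ b
  have hβapp : ∀ g : G, β g = (δ g) ^ b := fun g => rfl
  have hβd : ∀ g : G, (β g) ^ k = δ g := by
    intro g
    rw [hβapp, ← zpow_natCast, ← zpow_mul]
    have h1 : b * (k : ℤ) = 1 - (N.index : ℤ) * a := by linarith
    rw [h1, zpow_sub, zpow_one, zpow_mul, zpow_natCast, hδm, one_zpow, inv_one, mul_one]
  have hβN : ∀ n ∈ N, β n = 1 := by
    intro n hn
    rw [hβapp, hδN n hn, one_zpow]
  have hχirr : Cfsg.IsIrrCharacter G ((fun g => (β g : ℂ)) * R.character) :=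
    lin_mul_irr (char_of_hom β).1 (char_of_hom β).2 ⟨k, R, hRirr, rfl⟩
  have hχN : ∀ n : N, ((fun g => (β g : ℂ)) * R.character) n = ϑ n := by
    intro n
    show ((β n : ℂˣ) : ℂ) * R.character n = ϑ n
    rw [hβN n n.2, Units.val_one, one_mul, hηN]
  have hχdet : Cfsg.detChar ((fun g => (β g : ℂ)) * R.character) = μ := by
    rw [detChar_twist, hMu]
    funext g
    show ((β g : ℂˣ) : ℂ) ^ k * LinearMap.det (R g) = (Mu g : ℂ)
    rw [← Units.val_pow_eq_pow_val, hβd, hδapp]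
    show ((Mu g * (detHom R g)⁻¹ : ℂˣ) : ℂ) * ((detHom R g : ℂˣ) : ℂ) = _
    rw [← Units.val_mul, inv_mul_cancel_right]
  refine ⟨(fun g => (β g : ℂ)) * R.character, ⟨hχirr, hχN, hχdet⟩, ?_⟩
  rintro χ' ⟨hχ', hχ'N, hχ'det⟩
  have hRN : Cfsg.IsIrrCharacter N (fun n : N => R.character n) := by
    have h1 : (fun n : N => R.character n) = ϑ := funext hηN
    rw [h1]
    exact hϑ
  have hne : Cfsg.classInner (fun n : N => χ' n) (fun n : N => R.character n) ≠ 0 := by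
    rw [funext hχ'N, funext hηN, irr_inner_self hϑ]
    exact one_ne_zero
  obtain ⟨β', hβ', hχ'β⟩ := gallagher_exists N R.character ⟨k, R, hRirr, rfl⟩ hRN χ' hχ' hne
  have hβ'1 : β' 1 = 1 := by
    have h1 := congrFun hχ'β 1
    have h2 : χ' 1 = ϑ 1 := hχ'N 1
    have h3 : R.character 1 = ϑ 1 := hηN 1
    rw [h2] at h1
    have h4 : ((β' ∘ (QuotientGroup.mk' N)) * R.character) 1 = β' 1 * ϑ 1 := by
      show β' ((QuotientGroup.mk' N) 1) * R.character 1 = _
      rw [map_one, h3]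
    rw [h4] at h1
    have h5 : ϑ 1 ≠ 0 := irr_one_ne_zero hϑ
    exact mul_right_cancel₀ h5 (h1.symm.trans (one_mul _).symm)
  obtain ⟨B', hB'⟩ := hom_of_deg_one (isCharacter_of_irr hβ') hβ'1
  let B'' : G →* ℂˣ := B'.comp (QuotientGroup.mk' N)
  have hχ'eq : χ' = (fun g => (B'' g : ℂ)) * R.character := by
    rw [hχ'β, hB']
    rfl
  have hB''N : ∀ n ∈ N, B'' n = 1 := by
    intro n hn
    show B' ((QuotientGroup.mk' N) n) = 1
    have h1 : (QuotientGroup.mk' N) n = 1 := (QuotientGroup.eq_one_iff n).mpr hn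
    rw [h1, map_one]
  have hdet' : ∀ g : G, (B'' g) ^ k = δ g := by
    intro g
    have h1 := congrFun hχ'det g
    rw [hχ'eq, detChar_twist, hMu] at h1
    have h2 : ((B'' g : ℂˣ) : ℂ) ^ k * ((detHom R g : ℂˣ) : ℂ) = ((Mu g : ℂˣ) : ℂ) := h1
    rw [hδapp]
    apply Units.ext
    rw [Units.val_mul, Units.val_pow_eq_pow_val, ← h2, mul_assoc, ← Units.val_mul,
      mul_inv_cancel, Units.val_one, mul_one]
  have hBβ : B'' = β := by
    refine MonoidHom.ext (fun g => ?_)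
    have h1 : (B'' g * (β g)⁻¹) ^ k = 1 := by
      rw [mul_pow, inv_pow, hdet', hβd, mul_inv_cancel]
    have h2 : (B'' g * (β g)⁻¹) ^ N.index = 1 := by
      have h3 := pow_index_trivial N (B'' * β⁻¹) (by
        intro n hn
        show B'' n * (β n)⁻¹ = 1
        rw [hB''N n hn, hβN n hn, inv_one, mul_one])
      exact congrArg (fun φ : G →* ℂˣ => φ g) h3
    have h4 : orderOf (B'' g * (β g)⁻¹) ∣ Nat.gcd N.index k :=
      Nat.dvd_gcd (orderOf_dvd_of_pow_eq_one h2) (orderOf_dvd_of_pow_eq_one h1)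
    rw [Nat.Coprime.gcd_eq_one hcop, Nat.dvd_one, orderOf_eq_one_iff] at h4
    exact mul_inv_eq_one.mp h4
  rw [hχ'eq, hBβ]

end Cfsg.Agent.S0862
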