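import Mathlib
import Cfsg.Statements.S0886
import Cfsg.Agent.Lib.Helper3.Char
import Cfsg.Agent.Lib.Helper3.CharCore
import Cfsg.Agent.Lib.Helper3.CharTable
import Cfsg.Agent.Lib.Helper3.CharInd
import Cfsg.Agent.Lib.Helper3.CharArith
import Cfsg.Agent.Lib.Helper3.CharNormal
import Cfsg.Agent.Lib.Helper3.CharStab
import Cfsg.Agent.Lib.Helper3.CharCliff
import Cfsg.Agent.Lib.Helper3.CharAb
import Cfsg.Agent.Lib.Helper3.CharCent
import Cfsg.Agent.Lib.Helper3.CharProj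
import Cfsg.Agent.S0148

set_option autoImplicit false
open Cfsg
open Cfsg.Agent.Lib.Helper3.Char Cfsg.Agent.Lib.Helper3.CharCore Cfsg.Agent.Lib.Helper3.CharTable Cfsg.Agent.Lib.Helper3.CharInd Cfsg.Agent.Lib.Helper3.CharArith Cfsg.Agent.Lib.Helper3.CharNormal Cfsg.Agent.Lib.Helper3.CharStab Cfsg.Agent.Lib.Helper3.CharCliff Cfsg.Agent.Lib.Helper3.CharAb Cfsg.Agent.Lib.Helper3.CharCent Cfsg.Agent.Lib.Helper3.CharProj
open scoped ComplexConjugate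

namespace Cfsg.Agent.S0886

theorem result {G : Type*} [Group G] [Finite G] (N : Subgroup G) [hN : N.Normal] (hcyc : IsCyclic (G ⧸ N)) (ϑ : N → ℂ) (hϑ : Cfsg.IsIrrCharacter N ϑ) (hinv : ∀ (g : G) (n : N), ϑ ⟨g * n * g⁻¹, hN.conj_mem (n : G) n.2 g⟩ = ϑ n) : ∃ χ : G → ℂ, Cfsg.IsIrrCharacter G χ ∧ ∀ n : N, χ n = ϑ n := by
  classical
  obtain ⟨Γ, instΓ, finΓ, f, ι, π, hsurj, hfι, hcentral, hnormal, hπ, hπι⟩ :=
    exists_cover N ϑ hϑ hinv
  have _i : Fintype Γ := Fintype.ofFinite Γ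
  have _g : Fintype G := Fintype.ofFinite G
  have _n : Fintype N := Fintype.ofFinite N
  let M : Subgroup Γ := N.comap f
  have _m : Fintype M := Fintype.ofFinite M
  let α : M →* N := (f.comp M.subtype).codRestrict N (fun x => x.2)
  have hιM : ∀ n : N, ι n ∈ M := by
    intro n
    show f (ι n) ∈ N
    rw [hfι]
    exact n.2
  have hαι : ∀ n : N, α ⟨ι n, hιM n⟩ = n := fun n => Subtype.ext (hfι n)
  have hαsurj : Function.Surjective α := fun n => ⟨⟨ι n, hιM n⟩, hαι n⟩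
  have hϑM : Cfsg.IsIrrCharacter M (ϑ ∘ α) := comp_isIrr α hαsurj hϑ
  have hInd : Cfsg.IsCharacter Γ (Cfsg.indFun M (ϑ ∘ α)) :=
    Cfsg.Agent.S0148.result M _ (isCharacter_of_irr hϑM)
  have hα1 : α 1 = 1 := map_one α
  have hInd1 : Cfsg.indFun M (ϑ ∘ α) 1 ≠ 0 := by
    rw [indFun_one]
    apply mul_ne_zero
    · have : M.index ≠ 0 := Subgroup.index_ne_zero_of_finite
      exact_mod_cast this
    · show ϑ (α 1) ≠ 0
      rw [hα1]
      exact irr_one_ne_zero hϑ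
  obtain ⟨Χ, hΧ, hΧne⟩ := exists_constituent hInd hInd1
  rw [frobenius' M (ϑ ∘ α) Χ (char_classFun (isCharacter_of_irr hΧ))] at hΧne
  have hΧM : Cfsg.IsCharacter M (fun m : M => Χ m) :=
    comp_isCharacter M.subtype (isCharacter_of_irr hΧ)
  have hΔ : Cfsg.IsCharacter M ((fun m : M => Χ m) - ϑ ∘ α) := sub_isCharacter hΧM hϑM hΧne
  have hN₀M : ι.range ≤ M := by
    rintro x ⟨n, rfl⟩
    exact hιM n
  have _n0 : Fintype ι.range := Fintype.ofFinite _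
  let α₀ : ι.range →* N := α.comp (Subgroup.inclusion hN₀M)
  have hα₀surj : Function.Surjective α₀ := fun n => ⟨⟨ι n, n, rfl⟩, hαι n⟩
  have hπN₀ : (fun x : ι.range => π x) = ϑ ∘ α₀ := by
    funext x
    obtain ⟨x, n, rfl⟩ := x
    show π (ι n) = ϑ (α ⟨ι n, _⟩)
    rw [hπι, hαι]
  have hπN₀irr : Cfsg.IsIrrCharacter ι.range (fun x : ι.range => π x) := by
    rw [hπN₀]
    exact comp_isIrr α₀ hα₀surj hϑ
  have hΔN₀ : Cfsg.IsCharacter ι.range (fun x : ι.range =>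
      ((fun m : M => Χ m) - ϑ ∘ α) ⟨x, hN₀M x.2⟩) :=
    comp_isCharacter (Subgroup.inclusion hN₀M) hΔ
  have hΧN₀ : (fun x : ι.range => Χ x) = (fun x : ι.range => π x) +
      (fun x : ι.range => ((fun m : M => Χ m) - ϑ ∘ α) ⟨x, hN₀M x.2⟩) := by
    funext x
    have h1 : π x = ϑ (α₀ x) := congrFun hπN₀ x
    show Χ x = π x + (Χ x - ϑ (α ⟨x, hN₀M x.2⟩))
    rw [h1]
    show Χ x = ϑ (α ⟨x, hN₀M x.2⟩) + (Χ x - ϑ (α ⟨x, hN₀M x.2⟩))
    ring
  have hne : Cfsg.classInner (fun x : ι.range => Χ x) (fun x : ι.range => π x) ≠ 0 := by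
    obtain ⟨m, hm⟩ := inner_char_nat hΔN₀ (isCharacter_of_irr hπN₀irr)
    rw [hΧN₀, classInner_add_left, irr_inner_self hπN₀irr, hm]
    have : (1 : ℂ) + (m : ℂ) = ((1 + m : ℕ) : ℂ) := by push_cast; ring
    rw [this]
    exact_mod_cast (by omega : 1 + m ≠ 0)
  have hnormal' : (ι.range).Normal := hnormal
  obtain ⟨β, hβ, hΧβ⟩ := gallagher_exists ι.range π hπ hπN₀irr Χ hΧ hne
  let φ : Γ ⧸ ι.range →* G ⧸ N := QuotientGroup.lift ι.range ((QuotientGroup.mk' N).comp f)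
    (by
      rintro x ⟨n, rfl⟩
      rw [MonoidHom.mem_ker]
      show (QuotientGroup.mk' N) (f (ι n)) = 1
      rw [hfι]
      exact (QuotientGroup.eq_one_iff _).mpr n.2)
  have hφker : φ.ker ≤ Subgroup.center (Γ ⧸ ι.range) := by
    intro q hq
    obtain ⟨γ, rfl⟩ := QuotientGroup.mk_surjective q
    rw [MonoidHom.mem_ker] at hq
    have h1 : f γ ∈ N := (QuotientGroup.eq_one_iff _).mp hq
    have h2 : γ * (ι ⟨f γ, h1⟩)⁻¹ ∈ f.ker := by
      rw [MonoidHom.mem_ker, map_mul, map_inv, hfι, mul_inv_cancel]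
    have h3 := hcentral h2
    have h4 : (QuotientGroup.mk γ : Γ ⧸ ι.range) =
        QuotientGroup.mk (γ * (ι ⟨f γ, h1⟩)⁻¹) := by
      rw [QuotientGroup.eq]
      have : γ⁻¹ * (γ * (ι ⟨f γ, h1⟩)⁻¹) = (ι ⟨f γ, h1⟩)⁻¹ := by group
      rw [this]
      exact (ι.range).inv_mem ⟨_, rfl⟩
    rw [h4, Subgroup.mem_center_iff]
    intro q'
    obtain ⟨γ', rfl⟩ := QuotientGroup.mk_surjective q'
    rw [← QuotientGroup.mk_mul, ← QuotientGroup.mk_mul, (Subgroup.mem_center_iff.mp h3) γ']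
  have hab : ∀ a b : Γ ⧸ ι.range, a * b = b * a :=
    commutative_of_cyclic_center_quotient φ hφker
  have hβ1 : β 1 = 1 := abelian_linear hab hβ
  have hΧ1 : Χ 1 = ϑ 1 := by
    rw [hΧβ]
    show β ((QuotientGroup.mk' ι.range) 1) * π 1 = ϑ 1
    rw [map_one, hβ1, one_mul]
    have h1 := hπι 1
    rw [map_one] at h1
    exact h1
  have hΔ0 : ((fun m : M => Χ m) - ϑ ∘ α) = 0 := by
    apply eq_zero_of_deg_zero hΔ
    show Χ 1 - ϑ (α 1) = 0
    rw [hα1, hΧ1, sub_self]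
  have hΧM' : ∀ m : M, Χ m = ϑ (α m) := by
    intro m
    have h1 := congrFun hΔ0 m
    exact sub_eq_zero.mp h1
  have hker : ∀ z : Γ, f z = 1 → Χ z = Χ 1 := by
    intro z hz
    have hzM : z ∈ M := by
      show f z ∈ N
      rw [hz]
      exact N.one_mem
    have h1 := hΧM' ⟨z, hzM⟩
    have h2 : α ⟨z, hzM⟩ = 1 := Subtype.ext hz
    rw [h2] at h1
    rw [hΧ1]
    exact h1
  obtain ⟨χ, hχ, hχf⟩ := descend f hsurj Χ hΧ hker
  refine ⟨χ, hχ, fun n => ?_⟩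
  have h1 := hχf (ι n)
  rw [hfι] at h1
  rw [h1]
  have h2 := hΧM' ⟨ι n, hιM n⟩
  rw [hαι] at h2
  exact h2

end Cfsg.Agent.S0886
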