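import Mathlib
import Cfsg.Statements.S0863
import Cfsg.Agent.Lib.Helper3.Char
import Cfsg.Agent.Lib.Helper3.CharCore
import Cfsg.Agent.Lib.Helper3.CharInd
import Cfsg.Agent.Lib.Helper3.CharArith
import Cfsg.Agent.Lib.Helper3.CharInt
import Cfsg.Agent.Lib.Helper3.CharLinear
import Cfsg.Agent.Lib.Helper3.CharLin
import Cfsg.Agent.Lib.Helper3.CharAb
import Cfsg.Agent.Lib.Helper3.CharProj
import Cfsg.Agent.Lib.Helper3.CharDet
import Cfsg.Agent.S0862
import Cfsg.Agent.S0886

set_option autoImplicit false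
open Cfsg
open Cfsg.Agent.Lib.Helper3.Char Cfsg.Agent.Lib.Helper3.CharCore Cfsg.Agent.Lib.Helper3.CharInd Cfsg.Agent.Lib.Helper3.CharArith Cfsg.Agent.Lib.Helper3.CharInt Cfsg.Agent.Lib.Helper3.CharLinear Cfsg.Agent.Lib.Helper3.CharLin Cfsg.Agent.Lib.Helper3.CharAb Cfsg.Agent.Lib.Helper3.CharProj Cfsg.Agent.Lib.Helper3.CharDet
open Representation
universe u

namespace Cfsg.Agent.S0863

theorem exists_cyclic_quot {G : Type u} [Group G] [Finite G] (N : Subgroup G) [hN : N.Normal]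
    (hsolv : Group.IsSolvable (G ⧸ N)) (hne : N ≠ ⊤) :
    ∃ M : Subgroup G, ∃ _ : M.Normal, N ≤ M ∧ M ≠ ⊤ ∧ IsCyclic (G ⧸ M) := by
  have hnt : Nontrivial (G ⧸ N) := by
    rw [← Finite.one_lt_card_iff_nontrivial]
    have h1 : N.index ≠ 1 := fun h => hne (Subgroup.index_eq_one.mp h)
    have h2 : N.index ≠ 0 := Subgroup.index_ne_zero_of_finite
    have h3 : Nat.card (G ⧸ N) = N.index := rfl
    omega
  have hcomm : commutator (G ⧸ N) ≠ ⊤ :=
    (Group.IsSolvable.commutator_lt_top_of_nontrivial (G ⧸ N)).ne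
  have hcard : Nat.card ((G ⧸ N) →* ℂˣ) ≠ 1 := by
    rw [card_hom_units]
    exact fun h => hcomm (Subgroup.index_eq_one.mp h)
  obtain ⟨φ, hφ⟩ : ∃ φ : (G ⧸ N) →* ℂˣ, φ ≠ 1 := by
    by_contra hall
    push Not at hall
    apply hcard
    have hu : Unique ((G ⧸ N) →* ℂˣ) := ⟨⟨1⟩, hall⟩
    exact Nat.card_unique
  refine ⟨(φ.comp (QuotientGroup.mk' N)).ker, inferInstance, ?_, ?_, ?_⟩
  · intro n hn
    rw [MonoidHom.mem_ker]
    show φ ((QuotientGroup.mk' N) n) = 1
    have h1 : (QuotientGroup.mk' N) n = 1 := (QuotientGroup.eq_one_iff n).mpr hn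
    rw [h1, map_one]
  · intro htop
    apply hφ
    refine MonoidHom.ext (fun q => ?_)
    obtain ⟨g, rfl⟩ := QuotientGroup.mk_surjective q
    have h1 : g ∈ (φ.comp (QuotientGroup.mk' N)).ker := by
      rw [htop]
      trivial
    exact MonoidHom.mem_ker.mp h1
  · have e := QuotientGroup.quotientKerEquivRange (φ.comp (QuotientGroup.mk' N))
    have hfr : Finite (φ.comp (QuotientGroup.mk' N)).range :=
      Finite.of_surjective (φ.comp (QuotientGroup.mk' N)).rangeRestrict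
        (MonoidHom.rangeRestrict_surjective _)
    exact isCyclic_of_surjective e.symm.toMonoidHom e.symm.surjective

theorem det_of_ext {G : Type u} [Group G] [Finite G] (N : Subgroup G) (ϑ : N → ℂ)
    (χ : G → ℂ) (hχ : Cfsg.IsIrrCharacter G χ) (hχN : ∀ n : N, χ n = ϑ n) :
    ∃ μ : G → ℂ, Cfsg.IsCharacter G μ ∧ μ 1 = 1 ∧ ∀ n : N, μ n = Cfsg.detChar ϑ n := by
  have hχc := isCharacter_of_irr hχ
  obtain ⟨D, hD⟩ := detChar_hom hχc
  refine ⟨fun g => (D g : ℂ), (char_of_hom D).1, (char_of_hom D).2, fun n => ?_⟩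
  have h1 : ϑ = χ ∘ N.subtype := by
    funext n
    exact (hχN n).symm
  rw [h1, detChar_comp N.subtype hχc, hD]
  rfl

theorem ext_of_det_solv : ∀ (k : ℕ) (G : Type u) [Group G] [Finite G] (N : Subgroup G)
    [hN : N.Normal], N.index = k → Group.IsSolvable (G ⧸ N) → ∀ (ϑ : N → ℂ),
    Cfsg.IsIrrCharacter N ϑ →
    (∀ (g : G) (n : N), ϑ ⟨g * n * g⁻¹, hN.conj_mem (n : G) n.2 g⟩ = ϑ n) →
    ∀ d : ℕ, ϑ 1 = d → Nat.Coprime N.index d →
    ∀ μ : G → ℂ, Cfsg.IsCharacter G μ → μ 1 = 1 → (∀ n : N, μ n = Cfsg.detChar ϑ n) →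
    ∃ χ : G → ℂ, Cfsg.IsIrrCharacter G χ ∧ ∀ n : N, χ n = ϑ n := by
  intro k
  induction k using Nat.strong_induction_on with
  | _ k ih =>
    intro G _ _ N hN hk hsolv ϑ hϑ hinv d hd hcop μ hμc hμ1 hμN
    classical
    by_cases htop : N = ⊤
    · have hmem : ∀ g : G, g ∈ N := fun g => by
        rw [htop]
        trivial
      let α : G →* N := MonoidHom.codRestrict (MonoidHom.id G) N hmem
      have hα : Function.Surjective α := fun n => ⟨n, Subtype.ext rfl⟩
      exact ⟨ϑ ∘ α, comp_isIrr α hα hϑ, fun n => congrArg ϑ (Subtype.ext rfl)⟩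
    · obtain ⟨M, hMn, hNM, hMtop, hcyc⟩ := exists_cyclic_quot N hsolv htop
      have hN' : (N.subgroupOf M).Normal := inferInstance
      let e : (N.subgroupOf M) ≃* N := Subgroup.subgroupOfEquivOfLe hNM
      have hϑ' : Cfsg.IsIrrCharacter (N.subgroupOf M) (ϑ ∘ e) :=
        comp_isIrr e.toMonoidHom e.surjective hϑ
      have hinv' : ∀ (t : M) (n : N.subgroupOf M),
          (ϑ ∘ e) ⟨t * n * t⁻¹, hN'.conj_mem (n : M) n.2 t⟩ = (ϑ ∘ e) n := by
        intro t n
        have h1 := hinv (t : G) (e n)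
        show ϑ (e ⟨t * n * t⁻¹, _⟩) = ϑ (e n)
        rw [← h1]
        exact congrArg ϑ (Subtype.ext rfl)
      have hrel : (N.subgroupOf M).index * M.index = N.index := Subgroup.relIndex_mul_index hNM
      have hMidx : 1 < M.index := by
        have h1 : M.index ≠ 1 := fun h => hMtop (Subgroup.index_eq_one.mp h)
        have h2 : M.index ≠ 0 := Subgroup.index_ne_zero_of_finite
        omega
      have hlt : (N.subgroupOf M).index < k := by
        rw [← hk, ← hrel]
        have h3 : 0 < (N.subgroupOf M).index :=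
          Nat.pos_of_ne_zero Subgroup.index_ne_zero_of_finite
        nlinarith
      have hsolv' : Group.IsSolvable (M ⧸ N.subgroupOf M) := by
        let ψ : M ⧸ N.subgroupOf M →* G ⧸ N :=
          QuotientGroup.map (N.subgroupOf M) N M.subtype (fun x hx => hx)
        have hψ : Function.Injective ψ := by
          rw [injective_iff_map_eq_one]
          intro q hq
          obtain ⟨x, rfl⟩ := QuotientGroup.mk_surjective q
          have h1 : ((x : G) : G ⧸ N) = 1 := hq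
          rw [QuotientGroup.eq_one_iff] at h1 ⊢
          exact h1
        exact Group.isSolvable_of_isSolvable_injective hψ
      have hcop' : Nat.Coprime (N.subgroupOf M).index d :=
        Nat.Coprime.coprime_dvd_left ⟨M.index, hrel.symm⟩ hcop
      have hd' : (ϑ ∘ e) 1 = d := by
        show ϑ (e 1) = d
        rw [map_one]
        exact hd
      have hμ'c : Cfsg.IsCharacter M (μ ∘ M.subtype) := comp_isCharacter M.subtype hμc
      have hμ'1 : (μ ∘ M.subtype) 1 = 1 := hμ1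
      have hμ'N : ∀ n : N.subgroupOf M, (μ ∘ M.subtype) n = Cfsg.detChar (ϑ ∘ e) n := by
        intro n
        have h0 : (ϑ ∘ e) = ϑ ∘ e.toMonoidHom := rfl
        rw [h0, detChar_comp e.toMonoidHom (isCharacter_of_irr hϑ)]
        show μ ((n : M) : G) = Cfsg.detChar ϑ (e n)
        rw [← hμN (e n)]
        rfl
      obtain ⟨η₀, hη₀, hη₀N⟩ := ih _ hlt M (N.subgroupOf M) rfl hsolv' (ϑ ∘ e) hϑ' hinv' d hd'
        hcop' (μ ∘ M.subtype) hμ'c hμ'1 hμ'N
      obtain ⟨η, ⟨hη, hηN, hηdet⟩, hηuniq⟩ := Cfsg.Agent.S0862.result (N.subgroupOf M) (ϑ ∘ e)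
        hϑ' d hd' hcop' ⟨η₀, hη₀, hη₀N⟩ (μ ∘ M.subtype) ⟨hμ'c, hμ'1⟩ hμ'N
      have hηinv : ∀ (g : G) (m : M),
          η ⟨g * m * g⁻¹, hMn.conj_mem (m : G) m.2 g⟩ = η m := by
        intro g m
        have hconj : (fun m : M => η ⟨g * m * g⁻¹, hMn.conj_mem (m : G) m.2 g⟩) = η := by
          apply hηuniq
          refine ⟨@conj_isIrr G _ M hMn η hη g, ?_, ?_⟩
          · intro n
            have hmem : (⟨g * ((n : M) : G) * g⁻¹, hMn.conj_mem _ (n : M).2 g⟩ : M) ∈
                N.subgroupOf M := by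
              rw [Subgroup.mem_subgroupOf]
              exact hN.conj_mem _ (Subgroup.mem_subgroupOf.mp n.2) g
            have h1 := hηN ⟨_, hmem⟩
            show η ⟨g * ((n : M) : G) * g⁻¹, _⟩ = ϑ (e n)
            rw [h1]
            show ϑ (e ⟨_, hmem⟩) = ϑ (e n)
            rw [← hinv g (e n)]
            exact congrArg ϑ (Subtype.ext rfl)
          · have h1 : (fun m : M => η ⟨g * m * g⁻¹, hMn.conj_mem (m : G) m.2 g⟩) =
                η ∘ (MulAut.conjNormal g : MulAut M).toMonoidHom := by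
              funext m
              exact congrArg η (Subtype.ext (MulAut.conjNormal_apply g m).symm)
            rw [h1, detChar_comp _ (isCharacter_of_irr hη), hηdet]
            funext m
            show μ (((MulAut.conjNormal g : MulAut M) m : M) : G) = μ (m : G)
            rw [MulAut.conjNormal_apply]
            exact char_classFun hμc (m : G) g
        exact congrFun hconj m
      obtain ⟨χ, hχ, hχM⟩ := @Cfsg.Agent.S0886.result G _ _ M hMn hcyc η hη hηinv
      refine ⟨χ, hχ, fun n => ?_⟩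
      have h1 := hχM ⟨n, hNM n.2⟩
      have h2 := hηN (e.symm n)
      have h3 : ((e.symm n : N.subgroupOf M) : M) = ⟨(n : G), hNM n.2⟩ := rfl
      rw [h3] at h2
      have h4 : χ (n : G) = η ⟨(n : G), hNM n.2⟩ := h1
      rw [h4, h2]
      show ϑ (e (e.symm n)) = ϑ n
      rw [MulEquiv.apply_symm_apply]

theorem result {G : Type*} [Group G] [Finite G] (N : Subgroup G) [hN : N.Normal] (hsolv : Group.IsSolvable (G ⧸ N)) (ϑ : N → ℂ) (hϑ : Cfsg.IsIrrCharacter N ϑ) (hinv : ∀ (g : G) (n : N), ϑ ⟨g * n * g⁻¹, hN.conj_mem (n : G) n.2 g⟩ = ϑ n) (d : ℕ) (hd : ϑ 1 = d) (hcop : Nat.Coprime N.index d) : (∃ χ : G → ℂ, Cfsg.IsIrrCharacter G χ ∧ (∀ n : N, χ n = ϑ n)) ↔ ∃ μ : G → ℂ, Cfsg.IsCharacter G μ ∧ μ 1 = 1 ∧ ∀ n : N, μ n = Cfsg.detChar ϑ n := by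
  constructor
  · rintro ⟨χ, hχ, hχN⟩
    exact det_of_ext N ϑ χ hχ hχN
  · rintro ⟨μ, hμc, hμ1, hμN⟩
    exact ext_of_det_solv N.index G N rfl hsolv ϑ hϑ hinv d hd hcop μ hμc hμ1 hμN

end Cfsg.Agent.S0863
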