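import Mathlib
import Cfsg.Statements.S0864
import Cfsg.Agent.Lib.Helper3.Char
import Cfsg.Agent.Lib.Helper3.CharArith
import Cfsg.Agent.Lib.Helper3.CharLinear
import Cfsg.Agent.Lib.Helper3.CharLin

set_option autoImplicit false
open Cfsg
open Cfsg.Agent.Lib.Helper3.Char Cfsg.Agent.Lib.Helper3.CharArith Cfsg.Agent.Lib.Helper3.CharLinear Cfsg.Agent.Lib.Helper3.CharLin

namespace Cfsg.Agent.S0864

theorem result {G : Type*} [Group G] [Finite G] (N : Subgroup G) [hN : N.Normal] (lam : N → ℂ) (hlam : Cfsg.IsCharacter N lam ∧ lam 1 = 1) (hinv : ∀ (g : G) (n : N), lam ⟨g * n * g⁻¹, hN.conj_mem (n : G) n.2 g⟩ = lam n) (hsyl : ∀ p : ℕ, p.Prime → p ∣ orderOf lam → ∃ (H : Subgroup G) (hNH : N ≤ H) (ν : H → ℂ), Nat.Coprime H.index p ∧ (∃ k : ℕ, N.relIndex H = p ^ k) ∧ Cfsg.IsCharacter H ν ∧ ν 1 = 1 ∧ ∀ n : N, ν ⟨(n : G), hNH n.2⟩ = lam n) : ∃ μ : G → ℂ, Cfsg.IsCharacter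 G μ ∧ μ 1 = 1 ∧ ∀ n : N, μ n = lam n := by
  classical
  obtain ⟨L, hL⟩ := hom_of_deg_one hlam.1 hlam.2
  have hLinv : ∀ (g x : G) (hx : x ∈ N) (hx' : g⁻¹ * x * g ∈ N),
      L ⟨g⁻¹ * x * g, hx'⟩ = L ⟨x, hx⟩ := by
    intro g x hx hx'
    have h1 := hinv g⁻¹ ⟨x, hx⟩
    simp only [inv_inv] at h1
    rw [hL] at h1
    exact Units.ext h1
  let S : AddSubgroup ℤ :=
    { carrier := {k | ∃ μ : G →* ℂˣ, ∀ n : N, μ n = (L n) ^ k}
      add_mem' := by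
        rintro a b ⟨μ₁, h₁⟩ ⟨μ₂, h₂⟩
        exact ⟨μ₁ * μ₂, fun n => by rw [MonoidHom.mul_apply, h₁, h₂, zpow_add]⟩
      zero_mem' := ⟨1, fun n => by simp⟩
      neg_mem' := by
        rintro a ⟨μ, h⟩
        exact ⟨μ⁻¹, fun n => by rw [MonoidHom.inv_apply, h, zpow_neg]⟩ }
  have hSmem : ∀ k : ℤ, k ∈ S ↔ ∃ μ : G →* ℂˣ, ∀ n : N, μ n = (L n) ^ k := fun k => Iff.rfl
  have hLpow : ∀ k : ℕ, lam ^ k = 1 → ∀ n : N, (L n) ^ k = 1 := by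
    intro k hk n
    have h1 := congrFun hk n
    rw [hL] at h1
    apply Units.ext
    rw [Units.val_pow_eq_pow_val]
    exact h1
  have hfin : lam ^ Nat.card N = 1 := by
    funext n
    rw [hL]
    show ((L n : ℂˣ) : ℂ) ^ Nat.card N = 1
    rw [← Units.val_pow_eq_pow_val, ← map_pow, pow_card_eq_one', map_one, Units.val_one]
  have hopos : 0 < orderOf lam :=
    Nat.pos_of_dvd_of_pos (orderOf_dvd_of_pow_eq_one hfin) Nat.card_pos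
  have hoS : ((orderOf lam : ℕ) : ℤ) ∈ S := by
    rw [hSmem]
    refine ⟨1, fun n => ?_⟩
    rw [zpow_natCast, hLpow _ (pow_orderOf_eq_one lam) n]
    rfl
  have hprime : ∀ p : ℕ, p.Prime → p ∣ orderOf lam →
      ∃ m : ℕ, (m : ℤ) ∈ S ∧ Nat.Coprime m p := by
    intro p hp hpo
    obtain ⟨H, hNH, ν, hcop, -, hνc, hν1, hνN⟩ := hsyl p hp hpo
    obtain ⟨V, hV⟩ := hom_of_deg_one hνc hν1
    have hVL : ∀ (x : G) (hx : x ∈ N), V ⟨x, hNH hx⟩ = L ⟨x, hx⟩ := by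
      intro x hx
      have h1 := hνN ⟨x, hx⟩
      rw [hV, hL] at h1
      exact Units.ext h1
    refine ⟨H.index, ?_, hcop⟩
    rw [hSmem]
    refine ⟨MonoidHom.transfer V, fun n => ?_⟩
    rw [transfer_normal N H hNH V ?_ (n : G) n.2, zpow_natCast, hVL (n : G) n.2]
    intro g x h1 h2 hxN
    have hx' : g⁻¹ * x * g ∈ N := by
      have h3 := hN.conj_mem x hxN g⁻¹
      rw [inv_inv] at h3
      exact h3
    rw [hVL _ hx', hVL _ hxN, hLinv g x hxN hx']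
  have h1S := one_mem_of_coprime S (orderOf lam) hopos hoS hprime
  rw [hSmem] at h1S
  obtain ⟨μ, hμ⟩ := h1S
  obtain ⟨hc, h1⟩ := char_of_hom μ
  refine ⟨fun g => (μ g : ℂ), hc, h1, fun n => ?_⟩
  rw [hL]
  show ((μ n : ℂˣ) : ℂ) = ((L n : ℂˣ) : ℂ)
  rw [hμ n, zpow_one]

end Cfsg.Agent.S0864
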