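import Mathlib
import Cfsg.Statements.S0865
import Cfsg.Agent.Lib.Helper3.Char
import Cfsg.Agent.Lib.Helper3.CharArith
import Cfsg.Agent.Lib.Helper3.CharLinear
import Cfsg.Agent.Lib.Helper3.CharLin
import Cfsg.Agent.S0864

set_option autoImplicit false
open Cfsg
open Cfsg.Agent.Lib.Helper3.Char Cfsg.Agent.Lib.Helper3.CharArith Cfsg.Agent.Lib.Helper3.CharLinear Cfsg.Agent.Lib.Helper3.CharLin

namespace Cfsg.Agent.S0865

theorem result {G : Type*} [Group G] [Finite G] (N : Subgroup G) [hN : N.Normal] (lam : N → ℂ) (hlam : Cfsg.IsCharacter N lam ∧ lam 1 = 1) (hinv : ∀ (g : G) (n : N), lam ⟨g * n * g⁻¹, hN.conj_mem (n : G) n.2 g⟩ = lam n) (hcop : Nat.Coprime N.index (orderOf lam)) : ∃ μ : G → ℂ, (Cfsg.IsCharacter G μ ∧ μ 1 = 1 ∧ (∀ n : N, μ n = lam n) ∧ orderOf μ = orderOf lam) ∧ ∀ μ' : G → ℂ, Cfsg.IsCharacter G μ' ∧ μ' 1 = 1 → (∀ n : N, μ' n = lam n) → Nat.Coprime N.index (orderOf μ') → μ' = μ := by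
  classical
  obtain ⟨L, hL⟩ := hom_of_deg_one hlam.1 hlam.2
  have hLo : orderOf lam = orderOf L := by
    rw [hL]
    exact orderOf_funOf L
  obtain ⟨μ₀, hμ₀c, hμ₀1, hμ₀N⟩ := Cfsg.Agent.S0864.result N lam hlam hinv (by
    intro p hp hpo
    refine ⟨N, le_refl N, lam, ?_, ⟨0, ?_⟩, hlam.1, hlam.2, fun n => rfl⟩
    · exact Nat.Coprime.coprime_dvd_right hpo hcop
    · rw [Subgroup.relIndex_self, pow_zero])
  obtain ⟨M₀, hM₀⟩ := hom_of_deg_one hμ₀c hμ₀1
  have hM₀N : ∀ n : N, M₀ n = L n := by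
    intro n
    have h1 := hμ₀N n
    rw [hM₀, hL] at h1
    exact Units.ext h1
  rw [hLo] at hcop
  have hLo1 : ∀ n : N, (L n) ^ orderOf L = 1 := by
    intro n
    rw [← MonoidHom.pow_apply, pow_orderOf_eq_one]
    rfl
  have hbez : (N.index : ℤ) * Nat.gcdA N.index (orderOf L) +
      (orderOf L : ℤ) * Nat.gcdB N.index (orderOf L) = 1 := by
    have h1 := Nat.gcd_eq_gcd_ab N.index (orderOf L)
    rw [Nat.Coprime.gcd_eq_one hcop] at h1
    exact_mod_cast h1.symm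
  generalize Nat.gcdA N.index (orderOf L) = a at hbez
  generalize Nat.gcdB N.index (orderOf L) = b at hbez
  let μ : G →* ℂˣ := M₀ ^ ((N.index : ℤ) * a)
  have hμN : ∀ n : N, μ n = L n := by
    intro n
    show (M₀ n) ^ ((N.index : ℤ) * a) = L n
    have h1 : (N.index : ℤ) * a = 1 - (orderOf L : ℤ) * b := by linarith
    rw [hM₀N, h1, zpow_sub, zpow_one, zpow_mul, zpow_natCast, hLo1, one_zpow, inv_one, mul_one]
  have hμo : μ ^ orderOf L = 1 := by
    have h1 : (M₀ ^ orderOf L) ^ N.index = 1 := pow_index_trivial N (M₀ ^ orderOf L) (by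
      intro n hn
      rw [MonoidHom.pow_apply]
      have h2 := hM₀N ⟨n, hn⟩
      have h3 : M₀ n = L ⟨n, hn⟩ := h2
      rw [h3, hLo1])
    refine MonoidHom.ext (fun g => ?_)
    have h1g : ((M₀ g) ^ orderOf L) ^ N.index = 1 :=
      congrArg (fun φ : G →* ℂˣ => φ g) h1
    show ((M₀ g) ^ ((N.index : ℤ) * a)) ^ orderOf L = 1
    rw [← zpow_natCast, ← zpow_mul]
    have h2 : (N.index : ℤ) * a * (orderOf L : ℤ) = ((orderOf L * N.index : ℕ) : ℤ) * a := by
      push_cast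
      ring
    rw [h2, zpow_mul, zpow_natCast, pow_mul, h1g, one_zpow]
  have hord : orderOf μ = orderOf L := by
    apply Nat.dvd_antisymm (orderOf_dvd_of_pow_eq_one hμo)
    apply orderOf_dvd_of_pow_eq_one
    ext n
    rw [MonoidHom.pow_apply, ← hμN, ← MonoidHom.pow_apply, pow_orderOf_eq_one]
    rfl
  obtain ⟨hc, h1⟩ := char_of_hom μ
  refine ⟨fun g => (μ g : ℂ), ⟨hc, h1, fun n => ?_, ?_⟩, ?_⟩
  · rw [hL]
    show ((μ n : ℂˣ) : ℂ) = ((L n : ℂˣ) : ℂ)
    rw [hμN]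
  · rw [orderOf_funOf, hord, hLo]
  · intro μ' hμ' hμ'N hcop'
    obtain ⟨M', hM'⟩ := hom_of_deg_one hμ'.1 hμ'.2
    have hM'N : ∀ n : N, M' n = L n := by
      intro n
      have h1 := hμ'N n
      rw [hM', hL] at h1
      exact Units.ext h1
    have ho' : orderOf μ' = orderOf M' := by
      rw [hM']
      exact orderOf_funOf M'
    rw [ho'] at hcop'
    have hδm : (M' * μ⁻¹) ^ N.index = 1 := pow_index_trivial N _ (by
      intro n hn
      rw [MonoidHom.mul_apply, MonoidHom.inv_apply]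
      have h1 : M' n = L ⟨n, hn⟩ := hM'N ⟨n, hn⟩
      have h2 : μ n = L ⟨n, hn⟩ := hμN ⟨n, hn⟩
      rw [h1, h2, mul_inv_cancel])
    have hδo : (M' * μ⁻¹) ^ (orderOf M' * orderOf L) = 1 := by
      refine MonoidHom.ext (fun g => ?_)
      have h1g : (M' g) ^ orderOf M' = 1 :=
        congrArg (fun φ : G →* ℂˣ => φ g) (pow_orderOf_eq_one M')
      have h2g : (μ g) ^ orderOf L = 1 := congrArg (fun φ : G →* ℂˣ => φ g) hμo
      show (M' g * (μ g)⁻¹) ^ (orderOf M' * orderOf L) = 1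
      rw [mul_pow, pow_mul, h1g, one_pow, one_mul, inv_pow, mul_comm, pow_mul, h2g, one_pow,
        inv_one]
    have hd1 : orderOf (M' * μ⁻¹) ∣ N.index := orderOf_dvd_of_pow_eq_one hδm
    have hd2 : orderOf (M' * μ⁻¹) ∣ orderOf M' * orderOf L := orderOf_dvd_of_pow_eq_one hδo
    have hcop2 : Nat.Coprime N.index (orderOf M' * orderOf L) := Nat.Coprime.mul_right hcop' hcop
    have hd3 : orderOf (M' * μ⁻¹) = 1 := by
      have h := Nat.dvd_gcd hd1 hd2
      rw [Nat.Coprime.gcd_eq_one hcop2] at h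
      exact Nat.dvd_one.mp h
    have hδ1 : M' * μ⁻¹ = 1 := orderOf_eq_one_iff.mp hd3
    have hMeq : M' = μ := by
      refine MonoidHom.ext (fun g => ?_)
      have h' : M' g * (μ g)⁻¹ = 1 := congrArg (fun φ : G →* ℂˣ => φ g) hδ1
      exact mul_inv_eq_one.mp h'
    rw [hM', hMeq]

end Cfsg.Agent.S0865
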