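import Mathlib
import Cfsg.Statements.S0888
import Cfsg.Agent.Lib.Helper3.Char
import Cfsg.Agent.Lib.Helper3.CharCore
import Cfsg.Agent.Lib.Helper3.CharInd
import Cfsg.Agent.Lib.Helper3.CharArith
import Cfsg.Agent.Lib.Helper3.CharInt
import Cfsg.Agent.Lib.Helper3.CharLinear
import Cfsg.Agent.Lib.Helper3.CharLin
import Cfsg.Agent.Lib.Helper3.CharProj
import Cfsg.Agent.S0864
import Cfsg.Agent.S0153

set_option autoImplicit false
open Cfsg
open Cfsg.Agent.Lib.Helper3.Char Cfsg.Agent.Lib.Helper3.CharCore Cfsg.Agent.Lib.Helper3.CharInd Cfsg.Agent.Lib.Helper3.CharArith Cfsg.Agent.Lib.Helper3.CharInt Cfsg.Agent.Lib.Helper3.CharLinear Cfsg.Agent.Lib.Helper3.CharLin Cfsg.Agent.Lib.Helper3.CharProj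
open Representation
universe u

namespace Cfsg.Agent.S0888

theorem smul_cancel {V : Type*} [AddCommGroup V] [Module ℂ V] [Nontrivial V]
    (T T' : Module.End ℂ V) (hT : T * T' = 1) (x y : ℂ) (h : x • T = y • T) : x = y := by
  have h1 : x • (1 : Module.End ℂ V) = y • (1 : Module.End ℂ V) := by
    rw [← hT, ← smul_mul_assoc, h, smul_mul_assoc]
  by_contra hne
  have h2 : (x - y) • (1 : Module.End ℂ V) = 0 := by rw [sub_smul, h1, sub_self]
  have h3 : (1 : Module.End ℂ V) = 0 := by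
    have h4 := congrArg (fun S => (x - y)⁻¹ • S) h2
    simpa [smul_smul, inv_mul_cancel₀ (sub_ne_zero.mpr hne)] using h4
  exact one_ne_zero h3

theorem cover_scalar_hom {G : Type u} [Group G] [Finite G] (N : Subgroup G) [hN : N.Normal]
    {d : ℕ} (hd : 0 < d) (Y : Representation ℂ N (Fin d → ℂ)) (hY : Y.IsIrreducible)
    (P : Subgroup G) (hNP : N ≤ P) (E : Representation ℂ P (Fin d → ℂ))
    (hE : ∀ n : N, E ⟨n, hNP n.2⟩ = Y n) :
    ∃ c : (P.comap (coverHom N Y)) →* ℂˣ, ∀ h : P.comap (coverHom N Y),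
      (h.1.1.2 : Module.End ℂ (Fin d → ℂ)) = (c h : ℂ) • E ⟨coverHom N Y h.1, h.2⟩ := by
  classical
  have _i : Y.IsIrreducible := hY
  haveI : Nonempty (Fin d) := ⟨⟨0, hd⟩⟩
  have key : ∀ h : P.comap (coverHom N Y), ∃ a : ℂ,
      (h.1.1.2 : Module.End ℂ (Fin d → ℂ)) = a • E ⟨coverHom N Y h.1, h.2⟩ := by
    intro h
    have hcomm : ∀ n : N,
        (E (⟨coverHom N Y h.1, h.2⟩ : P)⁻¹ * (h.1.1.2 : Module.End ℂ (Fin d → ℂ))) ∘ₗ Y n =
        Y n ∘ₗ (E (⟨coverHom N Y h.1, h.2⟩ : P)⁻¹ *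
          (h.1.1.2 : Module.End ℂ (Fin d → ℂ))) := by
      intro n
      have h1 := ((mem_cover N Y h.1.1).mp h.1.2).1 n
      show E (⟨coverHom N Y h.1, h.2⟩ : P)⁻¹ * (h.1.1.2 : Module.End ℂ (Fin d → ℂ)) * Y n =
        Y n * (E (⟨coverHom N Y h.1, h.2⟩ : P)⁻¹ * (h.1.1.2 : Module.End ℂ (Fin d → ℂ)))
      rw [mul_assoc, h1, ← hE, ← hE, ← mul_assoc, ← mul_assoc, ← map_mul, ← map_mul]
      congr 2
      apply Subtype.ext
      show (h.1.1.1)⁻¹ * ((MulAut.conjNormal h.1.1.1 n : N) : G) = (n : G) * (h.1.1.1)⁻¹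
      rw [MulAut.conjNormal_apply]
      group
    obtain ⟨a, ha⟩ := commute_scalar Y _ hcomm
    refine ⟨a, ?_⟩
    have h2 : E (⟨coverHom N Y h.1, h.2⟩ : P) * (E (⟨coverHom N Y h.1, h.2⟩ : P)⁻¹ *
        (h.1.1.2 : Module.End ℂ (Fin d → ℂ))) = (h.1.1.2 : Module.End ℂ (Fin d → ℂ)) := by
      rw [← mul_assoc, ← map_mul, mul_inv_cancel, map_one, one_mul]
    rw [← h2, ha, mul_smul_comm]
    congr 1
  choose a ha using key
  have hinvE : ∀ q q' : P, E q * E q' * E (q * q')⁻¹ = 1 := fun q q' => by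
    rw [← map_mul, ← map_mul, mul_inv_cancel, map_one]
  have ha0 : ∀ h, a h ≠ 0 := by
    intro h hzero
    have h1 := ha h
    rw [hzero, zero_smul] at h1
    have h2 : (h.1.1.2 : Module.End ℂ (Fin d → ℂ)) *
        ((h.1.1.2⁻¹ : (Module.End ℂ (Fin d → ℂ))ˣ) : Module.End ℂ (Fin d → ℂ)) = 1 :=
      Units.mul_inv _
    rw [h1, zero_mul] at h2
    exact zero_ne_one h2
  have hmul : ∀ h h' : P.comap (coverHom N Y), a (h * h') = a h * a h' := by
    intro h h'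
    have h1 := ha (h * h')
    have h2 : ((h * h').1.1.2 : Module.End ℂ (Fin d → ℂ)) =
        (h.1.1.2 : Module.End ℂ (Fin d → ℂ)) * (h'.1.1.2 : Module.End ℂ (Fin d → ℂ)) := rfl
    have h3 : (⟨coverHom N Y (h * h').1, (h * h').2⟩ : P) =
        ⟨coverHom N Y h.1, h.2⟩ * ⟨coverHom N Y h'.1, h'.2⟩ := rfl
    rw [h2, ha h, ha h', h3, map_mul, smul_mul_smul_comm] at h1
    exact (smul_cancel _ _ (hinvE _ _) _ _ h1).symm
  exact ⟨MonoidHom.mk' (fun h => Units.mk0 (a h) (ha0 h)) (fun h h' => Units.ext (hmul h h')),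
    fun h => ha h⟩

theorem result {G : Type*} [Group G] [Finite G] (N : Subgroup G) [hN : N.Normal] (ϑ : N → ℂ) (hϑ : Cfsg.IsIrrCharacter N ϑ) (hinv : ∀ (g : G) (n : N), ϑ ⟨g * n * g⁻¹, hN.conj_mem (n : G) n.2 g⟩ = ϑ n) (hsyl : ∀ p : ℕ, p.Prime → ∃ (P : Subgroup G) (hNP : N ≤ P) (η : P → ℂ), Nat.Coprime P.index p ∧ (∃ k : ℕ, N.relIndex P = p ^ k) ∧ Cfsg.IsIrrCharacter P η ∧ ∀ n : N, η ⟨(n : G), hNP n.2⟩ = ϑ n) : ∃ χ : G → ℂ, Cfsg.IsIrrCharacter G χ ∧ ∀ n : N, χ n = ϑ n := by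
  classical
  obtain ⟨d, Y, hYirr, hYchar⟩ := hϑ
  have _i : Y.IsIrreducible := hYirr
  have hd : 0 < d := by
    have h1 := finrank_ne_zero_of_irr Y
    rw [Module.finrank_fin_fun] at h1
    exact Nat.pos_of_ne_zero (by exact_mod_cast h1)
  haveI : Nonempty (Fin d) := ⟨⟨0, hd⟩⟩
  have hinv' : ∀ g : G, Representation.character
      (Y.comp (MulAut.conjNormal g : MulAut N).toMonoidHom :
        Representation ℂ N (Fin d → ℂ)) = Y.character := by
    intro g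
    funext n
    have h1 : Representation.character (Y.comp (MulAut.conjNormal g : MulAut N).toMonoidHom :
        Representation ℂ N (Fin d → ℂ)) n =
        Y.character (MulAut.conjNormal g n) := rfl
    have h2 : MulAut.conjNormal g n = ⟨g * n * g⁻¹, hN.conj_mem (n : G) n.2 g⟩ := by
      apply Subtype.ext
      rw [MulAut.conjNormal_apply]
    rw [h1, h2, hYchar, hinv g n]
  have hsurj := cover_surj N Y hd hinv'
  haveI hfin : Finite (cover N Y) := cover_finite N Y hYirr hd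
  obtain ⟨cM, hcM⟩ := cover_scalar_hom N hd Y hYirr N (le_refl N) Y (fun n => rfl)
  obtain ⟨lam, hlamdef⟩ : ∃ lam : N.comap (coverHom N Y) → ℂ,
      lam = fun m => (((cM m)⁻¹ : ℂˣ) : ℂ) := ⟨_, rfl⟩
  have hlam : Cfsg.IsCharacter (N.comap (coverHom N Y)) lam ∧ lam 1 = 1 := by
    rw [hlamdef]
    exact char_of_hom cM⁻¹
  have hMn : (N.comap (coverHom N Y)).Normal := inferInstance
  have hinvlam : ∀ (γ : cover N Y) (m : N.comap (coverHom N Y)),
      lam ⟨γ * m * γ⁻¹, hMn.conj_mem (m : cover N Y) m.2 γ⟩ = lam m := by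
    intro γ m
    have hc : cM ⟨γ * m * γ⁻¹, hMn.conj_mem (m : cover N Y) m.2 γ⟩ = cM m := by
      apply Units.ext
      have h1 : ((γ * (m : cover N Y) * γ⁻¹ : cover N Y).1.2 : Module.End ℂ (Fin d → ℂ)) =
          (cM ⟨γ * m * γ⁻¹, hMn.conj_mem (m : cover N Y) m.2 γ⟩ : ℂ) •
            Y ⟨coverHom N Y (γ * (m : cover N Y) * γ⁻¹),
              hMn.conj_mem (m : cover N Y) m.2 γ⟩ :=
        hcM ⟨γ * m * γ⁻¹, hMn.conj_mem (m : cover N Y) m.2 γ⟩
      have h2 := hcM m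
      have h3 := ((mem_cover N Y γ.1).mp γ.2).1 ⟨coverHom N Y m.1, m.2⟩
      have h4 : ((γ * (m : cover N Y) * γ⁻¹ : cover N Y).1.2 : Module.End ℂ (Fin d → ℂ)) =
          (γ.1.2 : Module.End ℂ (Fin d → ℂ)) * (m.1.1.2 : Module.End ℂ (Fin d → ℂ)) *
            ((γ.1.2⁻¹ : (Module.End ℂ (Fin d → ℂ))ˣ) : Module.End ℂ (Fin d → ℂ)) := rfl
      have h5 : (⟨coverHom N Y (γ * (m : cover N Y) * γ⁻¹),
          hMn.conj_mem (m : cover N Y) m.2 γ⟩ : N) =
          MulAut.conjNormal γ.1.1 ⟨coverHom N Y m.1, m.2⟩ := by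
        apply Subtype.ext
        rw [MulAut.conjNormal_apply]
        rfl
      have h6 : (γ.1.2 : Module.End ℂ (Fin d → ℂ)) * (m.1.1.2 : Module.End ℂ (Fin d → ℂ)) *
          ((γ.1.2⁻¹ : (Module.End ℂ (Fin d → ℂ))ˣ) : Module.End ℂ (Fin d → ℂ)) =
          (cM m : ℂ) • Y (MulAut.conjNormal γ.1.1 ⟨coverHom N Y m.1, m.2⟩) := by
        rw [h2, mul_smul_comm, smul_mul_assoc, h3, mul_assoc, Units.mul_inv, mul_one]
      rw [h4, h6, h5] at h1
      exact (smul_cancel (Y (MulAut.conjNormal γ.1.1 ⟨coverHom N Y m.1, m.2⟩))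
        (Y (MulAut.conjNormal γ.1.1 ⟨coverHom N Y m.1, m.2⟩)⁻¹)
        (by rw [← map_mul, mul_inv_cancel, map_one]) _ _ h1).symm
    rw [hlamdef]
    show (((cM ⟨γ * m * γ⁻¹, hMn.conj_mem (m : cover N Y) m.2 γ⟩)⁻¹ : ℂˣ) : ℂ) =
      (((cM m)⁻¹ : ℂˣ) : ℂ)
    rw [hc]
  have hsyl' : ∀ p : ℕ, p.Prime → p ∣ orderOf lam →
      ∃ (H : Subgroup (cover N Y)) (hMH : N.comap (coverHom N Y) ≤ H) (ν : H → ℂ),
        Nat.Coprime H.index p ∧ (∃ k : ℕ, (N.comap (coverHom N Y)).relIndex H = p ^ k) ∧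
        Cfsg.IsCharacter H ν ∧ ν 1 = 1 ∧
        ∀ m : N.comap (coverHom N Y), ν ⟨(m : cover N Y), hMH m.2⟩ = lam m := by
    intro p hp _
    obtain ⟨P, hNP, η, hcop, ⟨k, hk⟩, hη, hηN⟩ := hsyl p hp
    obtain ⟨d', E₀, hE₀irr, hE₀char⟩ := hη
    have hdd : d = d' := by
      have h1 := hηN 1
      rw [← hE₀char, ← hYchar] at h1
      have h2 : (⟨((1 : N) : G), hNP (1 : N).2⟩ : P) = 1 := rfl
      rw [h2, Representation.char_one, Representation.char_one, Module.finrank_fin_fun,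
        Module.finrank_fin_fun] at h1
      exact_mod_cast h1.symm
    subst hdd
    have _n : Fintype N := Fintype.ofFinite N
    obtain ⟨e⟩ := Cfsg.Agent.S0153.equiv_of_char d (Fin d → ℂ) (Fin d → ℂ)
      (E₀.comp (Subgroup.inclusion hNP) : Representation ℂ N (Fin d → ℂ)) Y
      (Module.finrank_fin_fun ℂ) (by
        funext n
        show E₀.character ⟨n, hNP n.2⟩ = Y.character n
        rw [hE₀char, hYchar, hηN])
    let U : (Module.End ℂ (Fin d → ℂ))ˣ :=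
      ⟨e.toLinearEquiv.toLinearMap, e.toLinearEquiv.symm.toLinearMap,
        LinearMap.ext (fun v => e.toLinearEquiv.apply_symm_apply v),
        LinearMap.ext (fun v => e.toLinearEquiv.symm_apply_apply v)⟩
    have hU : ∀ n : N, (U : Module.End ℂ (Fin d → ℂ)) * E₀ ⟨n, hNP n.2⟩ =
        Y n * (U : Module.End ℂ (Fin d → ℂ)) := fun n =>
      e.toIntertwiningMap.isIntertwining' n
    let E' : Representation ℂ P (Fin d → ℂ) :=
      (Units.coeHom _).comp ((MulAut.conj U).toMonoidHom.comp E₀.toHomUnits)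
    have hE'app : ∀ q : P, E' q = (U : Module.End ℂ (Fin d → ℂ)) * E₀ q *
        ((U⁻¹ : (Module.End ℂ (Fin d → ℂ))ˣ) : Module.End ℂ (Fin d → ℂ)) := fun q => rfl
    have hE' : ∀ n : N, E' ⟨n, hNP n.2⟩ = Y n := by
      intro n
      rw [hE'app, hU, mul_assoc, Units.mul_inv, mul_one]
    obtain ⟨cH, hcH⟩ := cover_scalar_hom N hd Y hYirr P hNP E' hE'
    have hMH : N.comap (coverHom N Y) ≤ P.comap (coverHom N Y) := Subgroup.comap_mono hNP
    refine ⟨P.comap (coverHom N Y), hMH, fun h => (((cH h)⁻¹ : ℂˣ) : ℂ), ?_, ⟨k, ?_⟩,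
      (char_of_hom cH⁻¹).1, (char_of_hom cH⁻¹).2, fun m => ?_⟩
    · rw [Subgroup.index_comap_of_surjective P hsurj]
      exact hcop
    · rw [Subgroup.relIndex_comap, Subgroup.map_comap_eq_self_of_surjective hsurj]
      exact hk
    · have hc : cH ⟨(m : cover N Y), hMH m.2⟩ = cM m := by
        apply Units.ext
        have h1 : (m.1.1.2 : Module.End ℂ (Fin d → ℂ)) =
            (cH ⟨(m : cover N Y), hMH m.2⟩ : ℂ) • E' ⟨coverHom N Y m.1, hMH m.2⟩ :=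
          hcH ⟨(m : cover N Y), hMH m.2⟩
        have h2 := hcM m
        have h3 : E' ⟨coverHom N Y m.1, hMH m.2⟩ = Y ⟨coverHom N Y m.1, m.2⟩ :=
          hE' ⟨coverHom N Y m.1, m.2⟩
        rw [h3, h2] at h1
        exact (smul_cancel (Y ⟨coverHom N Y m.1, m.2⟩) (Y (⟨coverHom N Y m.1, m.2⟩ : N)⁻¹)
          (by rw [← map_mul, mul_inv_cancel, map_one]) _ _ h1).symm
      rw [hlamdef]
      show (((cH ⟨(m : cover N Y), hMH m.2⟩)⁻¹ : ℂˣ) : ℂ) = (((cM m)⁻¹ : ℂˣ) : ℂ)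
      rw [hc]
  obtain ⟨μ', hμc, hμ1, hμM⟩ :=
    Cfsg.Agent.S0864.result (N.comap (coverHom N Y)) lam hlam hinvlam hsyl'
  obtain ⟨Λ, hΛ⟩ := hom_of_deg_one hμc hμ1
  have hΛM : ∀ m : N.comap (coverHom N Y), ((Λ m : ℂˣ) : ℂ) = (((cM m)⁻¹ : ℂˣ) : ℂ) := by
    intro m
    have h1 := hμM m
    rw [hΛ, hlamdef] at h1
    exact h1
  let Ξ : Representation ℂ (cover N Y) (Fin d → ℂ) :=
    { toFun := fun γ => ((Λ γ : ℂˣ) : ℂ) • coverRep N Y γ
      map_one' := by rw [map_one, map_one, Units.val_one, one_smul]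
      map_mul' := fun a b => by rw [map_mul, map_mul, Units.val_mul, smul_mul_smul_comm] }
  have hΞapp : ∀ γ : cover N Y, Ξ γ = ((Λ γ : ℂˣ) : ℂ) • coverRep N Y γ := fun γ => rfl
  have hΞM : ∀ m : N.comap (coverHom N Y), Ξ m = Y ⟨coverHom N Y m.1, m.2⟩ := by
    intro m
    rw [hΞapp, coverRep_apply, hcM m, hΛM m, smul_smul, Units.val_inv_eq_inv_val,
      inv_mul_cancel₀ (Units.ne_zero _), one_smul]
  have hΞirr : Ξ.IsIrreducible := by
    apply irr_of_comp (coverIncl N Y) Ξ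
    have h1 : (Ξ.comp (coverIncl N Y) : Representation ℂ N (Fin d → ℂ)) = Y := by
      ext n : 1
      have hm : coverIncl N Y n ∈ N.comap (coverHom N Y) := n.2
      exact hΞM ⟨coverIncl N Y n, hm⟩
    rw [h1]
    exact hYirr
  have hker : ∀ z : cover N Y, coverHom N Y z = 1 → Ξ.character z = Ξ.character 1 := by
    intro z hz
    have hzM : z ∈ N.comap (coverHom N Y) := by
      show coverHom N Y z ∈ N
      rw [hz]
      exact N.one_mem
    have h1 := hΞM ⟨z, hzM⟩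
    have h2 : (⟨coverHom N Y z, hzM⟩ : N) = 1 := Subtype.ext hz
    rw [h2, map_one] at h1
    show LinearMap.trace ℂ _ (Ξ z) = LinearMap.trace ℂ _ (Ξ 1)
    rw [show Ξ z = 1 from h1, show Ξ 1 = 1 from map_one Ξ]
  obtain ⟨χ, hχ, hχf⟩ := descend (coverHom N Y) hsurj Ξ.character ⟨d, Ξ, hΞirr, rfl⟩ hker
  refine ⟨χ, hχ, fun n => ?_⟩
  have h1 := hχf (coverIncl N Y n)
  rw [coverHom_incl] at h1
  rw [h1, ← hYchar]
  have hm : coverIncl N Y n ∈ N.comap (coverHom N Y) := n.2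
  have h2 := hΞM ⟨coverIncl N Y n, hm⟩
  show LinearMap.trace ℂ _ (Ξ (coverIncl N Y n)) = LinearMap.trace ℂ _ (Y n)
  rw [show Ξ (coverIncl N Y n) = Y n from h2]

end Cfsg.Agent.S0888
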