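import Mathlib
import Cfsg.Statements.S0866
import Cfsg.Agent.Lib.Helper3.Char
import Cfsg.Agent.Lib.Helper3.CharCore
import Cfsg.Agent.Lib.Helper3.CharInd
import Cfsg.Agent.Lib.Helper3.CharArith
import Cfsg.Agent.Lib.Helper3.CharLin
import Cfsg.Agent.Lib.Helper3.CharDet
import Cfsg.Agent.S0863
import Cfsg.Agent.S0888

set_option autoImplicit false
open Cfsg
open Cfsg.Agent.Lib.Helper3.Char Cfsg.Agent.Lib.Helper3.CharCore Cfsg.Agent.Lib.Helper3.CharInd Cfsg.Agent.Lib.Helper3.CharArith Cfsg.Agent.Lib.Helper3.CharLin Cfsg.Agent.Lib.Helper3.CharDet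

namespace Cfsg.Agent.S0866

theorem result {G : Type*} [Group G] [Finite G] (N : Subgroup G) [hN : N.Normal] (ϑ : N → ℂ) (hϑ : Cfsg.IsIrrCharacter N ϑ) (hinv : ∀ (g : G) (n : N), ϑ ⟨g * n * g⁻¹, hN.conj_mem (n : G) n.2 g⟩ = ϑ n) (d : ℕ) (hd : ϑ 1 = d) (hcop : Nat.Coprime N.index d) : (∃ χ : G → ℂ, Cfsg.IsIrrCharacter G χ ∧ (∀ n : N, χ n = ϑ n)) ↔ ∃ μ : G → ℂ, Cfsg.IsCharacter G μ ∧ μ 1 = 1 ∧ ∀ n : N, μ n = Cfsg.detChar ϑ n := by
  classical
  constructor
  · rintro ⟨χ, hχ, hχN⟩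
    exact Cfsg.Agent.S0863.det_of_ext N ϑ χ hχ hχN
  · rintro ⟨μ, hμc, hμ1, hμN⟩
    apply Cfsg.Agent.S0888.result N ϑ hϑ hinv
    intro p hp
    haveI : Fact p.Prime := ⟨hp⟩
    obtain ⟨S⟩ : Nonempty (Sylow p (G ⧸ N)) := inferInstance
    let P : Subgroup G := (S : Subgroup (G ⧸ N)).comap (QuotientGroup.mk' N)
    have hNP : N ≤ P := by
      intro n hn
      show (QuotientGroup.mk' N) n ∈ (S : Subgroup (G ⧸ N))
      have h1 : (QuotientGroup.mk' N) n = 1 := (QuotientGroup.eq_one_iff n).mpr hn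
      rw [h1]
      exact Subgroup.one_mem _
    have hPidx : P.index = (S : Subgroup (G ⧸ N)).index :=
      Subgroup.index_comap_of_surjective _ (QuotientGroup.mk'_surjective N)
    have hcopP : Nat.Coprime P.index p := by
      rw [hPidx]
      exact ((Nat.Prime.coprime_iff_not_dvd hp).mpr S.not_dvd_index).symm
    have hrel : N.relIndex P = Nat.card (S : Subgroup (G ⧸ N)) := by
      have h1 : N = (⊥ : Subgroup (G ⧸ N)).comap (QuotientGroup.mk' N) := by
        rw [MonoidHom.comap_bot, QuotientGroup.ker_mk']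
      have h2 : N.relIndex P = ((⊥ : Subgroup (G ⧸ N)).comap (QuotientGroup.mk' N)).relIndex P := by
        rw [← h1]
      rw [h2, Subgroup.relIndex_comap,
        Subgroup.map_comap_eq_self_of_surjective (QuotientGroup.mk'_surjective N),
        Subgroup.relIndex_bot_left]
    obtain ⟨k, hk⟩ := IsPGroup.iff_card.mp S.isPGroup'
    have hN' : (N.subgroupOf P).Normal := inferInstance
    let e : (N.subgroupOf P) ≃* N := Subgroup.subgroupOfEquivOfLe hNP
    have hϑ' : Cfsg.IsIrrCharacter (N.subgroupOf P) (ϑ ∘ e) :=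
      comp_isIrr e.toMonoidHom e.surjective hϑ
    have hinv' : ∀ (t : P) (n : N.subgroupOf P),
        (ϑ ∘ e) ⟨t * n * t⁻¹, hN'.conj_mem (n : P) n.2 t⟩ = (ϑ ∘ e) n := by
      intro t n
      have h1 := hinv (t : G) (e n)
      show ϑ (e ⟨t * n * t⁻¹, _⟩) = ϑ (e n)
      rw [← h1]
      exact congrArg ϑ (Subtype.ext rfl)
    have hidx' : (N.subgroupOf P).index = p ^ k := by
      rw [← hk, ← hrel]
      rfl
    have hsolv' : Group.IsSolvable (P ⧸ N.subgroupOf P) := by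
      have hpg : IsPGroup p (P ⧸ N.subgroupOf P) := IsPGroup.of_card (n := k) hidx'
      haveI := hpg.isNilpotent
      infer_instance
    have hcop' : Nat.Coprime (N.subgroupOf P).index d :=
      Nat.Coprime.coprime_dvd_left ⟨P.index, (Subgroup.relIndex_mul_index hNP).symm⟩ hcop
    have hd' : (ϑ ∘ e) 1 = d := by
      show ϑ (e 1) = d
      rw [map_one]
      exact hd
    have hμ'c : Cfsg.IsCharacter P (μ ∘ P.subtype) := comp_isCharacter P.subtype hμc
    have hμ'1 : (μ ∘ P.subtype) 1 = 1 := hμ1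
    have hμ'N : ∀ n : N.subgroupOf P, (μ ∘ P.subtype) n = Cfsg.detChar (ϑ ∘ e) n := by
      intro n
      have h0 : (ϑ ∘ e) = ϑ ∘ e.toMonoidHom := rfl
      rw [h0, detChar_comp e.toMonoidHom (isCharacter_of_irr hϑ)]
      show μ ((n : P) : G) = Cfsg.detChar ϑ (e n)
      rw [← hμN (e n)]
      rfl
    obtain ⟨η, hη, hηN⟩ := (Cfsg.Agent.S0863.result (N.subgroupOf P) hsolv' (ϑ ∘ e) hϑ' hinv' d
      hd' hcop').mpr ⟨μ ∘ P.subtype, hμ'c, hμ'1, hμ'N⟩
    refine ⟨P, hNP, η, hcopP, ⟨k, by rw [hrel, hk]⟩, hη, fun n => ?_⟩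
    have h2 := hηN (e.symm n)
    have h3 : ((e.symm n : N.subgroupOf P) : P) = ⟨(n : G), hNP n.2⟩ := rfl
    rw [h3] at h2
    rw [h2]
    show ϑ (e (e.symm n)) = ϑ n
    rw [MulEquiv.apply_symm_apply]

end Cfsg.Agent.S0866
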