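import Mathlib
import Cfsg.Statements.S0867
import Cfsg.Agent.Lib.Helper3.Char
import Cfsg.Agent.Lib.Helper3.CharCore
import Cfsg.Agent.Lib.Helper3.CharInd
import Cfsg.Agent.Lib.Helper3.CharArith
import Cfsg.Agent.Lib.Helper3.CharLin
import Cfsg.Agent.Lib.Helper3.CharDet
import Cfsg.Agent.S0862
import Cfsg.Agent.S0865
import Cfsg.Agent.S0866

set_option autoImplicit false
open Cfsg
open Cfsg.Agent.Lib.Helper3.Char Cfsg.Agent.Lib.Helper3.CharCore Cfsg.Agent.Lib.Helper3.CharInd Cfsg.Agent.Lib.Helper3.CharArith Cfsg.Agent.Lib.Helper3.CharLin Cfsg.Agent.Lib.Helper3.CharDet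

namespace Cfsg.Agent.S0867

theorem result {G : Type*} [Group G] [Finite G] (N : Subgroup G) [hN : N.Normal] (ϑ : N → ℂ) (hϑ : Cfsg.IsIrrCharacter N ϑ) (hinv : ∀ (g : G) (n : N), ϑ ⟨g * n * g⁻¹, hN.conj_mem (n : G) n.2 g⟩ = ϑ n) (d : ℕ) (hd : ϑ 1 = d) (hcop : Nat.Coprime N.index (Cfsg.detOrder ϑ * d)) : ∃ χ : G → ℂ, (Cfsg.IsIrrCharacter G χ ∧ (∀ n : N, χ n = ϑ n) ∧ Cfsg.detOrder χ = Cfsg.detOrder ϑ) ∧ ∀ χ' : G → ℂ, Cfsg.IsIrrCharacter G χ' → (∀ n : N, χ' n = ϑ n) → Nat.Coprime N.index (Cfsg.detOrder χ') → χ' = χ := by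
  classical
  have hcop1 : Nat.Coprime N.index (Cfsg.detOrder ϑ) := Nat.Coprime.coprime_mul_right_right hcop
  have hcop2 : Nat.Coprime N.index d := Nat.Coprime.coprime_mul_left_right hcop
  have hϑc := isCharacter_of_irr hϑ
  obtain ⟨D, hD⟩ := detChar_hom hϑc
  have hlam : Cfsg.IsCharacter N (Cfsg.detChar ϑ) ∧ Cfsg.detChar ϑ 1 = 1 := by
    rw [hD]
    exact char_of_hom D
  have hlaminv : ∀ (g : G) (n : N),
      Cfsg.detChar ϑ ⟨g * n * g⁻¹, hN.conj_mem (n : G) n.2 g⟩ = Cfsg.detChar ϑ n := by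
    intro g n
    have h1 : ϑ ∘ (MulAut.conjNormal g : MulAut N).toMonoidHom = ϑ := by
      funext m
      show ϑ (MulAut.conjNormal g m) = ϑ m
      rw [← hinv g m]
      exact congrArg ϑ (Subtype.ext (MulAut.conjNormal_apply g m))
    have h2 := detChar_comp (MulAut.conjNormal g : MulAut N).toMonoidHom hϑc
    rw [h1] at h2
    calc Cfsg.detChar ϑ ⟨g * n * g⁻¹, hN.conj_mem (n : G) n.2 g⟩
        = (Cfsg.detChar ϑ ∘ (MulAut.conjNormal g : MulAut N).toMonoidHom) n :=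
          congrArg (Cfsg.detChar ϑ) (Subtype.ext (MulAut.conjNormal_apply g n).symm)
      _ = Cfsg.detChar ϑ n := (congrFun h2 n).symm
  have hcopo : Nat.Coprime N.index (orderOf (Cfsg.detChar ϑ)) := hcop1
  obtain ⟨μ, ⟨hμc, hμ1, hμN, hμo⟩, hμuniq⟩ :=
    Cfsg.Agent.S0865.result N (Cfsg.detChar ϑ) hlam hlaminv hcopo
  obtain ⟨η, hη, hηN⟩ :=
    (Cfsg.Agent.S0866.result N ϑ hϑ hinv d hd hcop2).mpr ⟨μ, hμc, hμ1, hμN⟩
  obtain ⟨χ, ⟨hχ, hχN, hχdet⟩, hχuniq⟩ :=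
    Cfsg.Agent.S0862.result N ϑ hϑ d hd hcop2 ⟨η, hη, hηN⟩ μ ⟨hμc, hμ1⟩ hμN
  refine ⟨χ, ⟨hχ, hχN, ?_⟩, ?_⟩
  · show orderOf (Cfsg.detChar χ) = orderOf (Cfsg.detChar ϑ)
    rw [hχdet, hμo]
  · intro χ' hχ' hχ'N hcop'
    apply hχuniq
    refine ⟨hχ', hχ'N, ?_⟩
    have hχ'c := isCharacter_of_irr hχ'
    obtain ⟨D', hD'⟩ := detChar_hom hχ'c
    apply hμuniq (Cfsg.detChar χ') (by rw [hD']; exact char_of_hom D') ?_ hcop'
    intro n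
    have h1 : ϑ = χ' ∘ N.subtype := by
      funext n
      exact (hχ'N n).symm
    rw [h1, detChar_comp N.subtype hχ'c]
    rfl

end Cfsg.Agent.S0867
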