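import Mathlib
import Cfsg.Agent.Lib.Helper2.Sub
import Cfsg.Statements.S0869

set_option autoImplicit false
open Cfsg
open Cfsg.Agent.Lib.Helper2

namespace Cfsg.Agent.S0869

/-- Let S be a nonempty finite type and R an additive subgroup of the integer-valued functions on S that is closed under pointwise multiplication. If the constant function 1 is not in R, then there exist a point x of S and a prime p such that p divides f x for every f in R. -/
theorem result {S : Type*} [Finite S] [Nonempty S] (R : AddSubgroup (S → ℤ)) (hmul : ∀ f ∈ R, ∀ g ∈ R, f * g ∈ R) (h1 : (1 : S → ℤ) ∉ R) : ∃ (x : S) (p : ℕ), p.Prime ∧ ∀ f ∈ R, (p : ℤ) ∣ f x := by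
  classical
  haveI : Fintype S := Fintype.ofFinite S
  by_contra hcon
  push Not at hcon
  have hone : ∀ x : S, ∃ f ∈ R, f x = 1 := by
    intro x
    obtain ⟨n, hn⟩ : ∃ n : ℤ, R.map (Pi.evalAddMonoidHom (fun _ : S => ℤ) x) =
        AddSubgroup.zmultiples n := by
      obtain ⟨a, ha⟩ := Int.subgroup_cyclic (R.map (Pi.evalAddMonoidHom (fun _ : S => ℤ) x))
      exact ⟨a, by rw [ha, AddSubgroup.zmultiples_eq_closure]⟩
    have hdvd : ∀ f ∈ R, n ∣ f x := by
      intro f hf
      have h1 : f x ∈ R.map (Pi.evalAddMonoidHom (fun _ : S => ℤ) x) := ⟨f, hf, rfl⟩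
      rw [hn] at h1
      exact Int.mem_zmultiples_iff.1 h1
    by_cases hn1 : n.natAbs = 1
    · have h1 : (1 : ℤ) ∈ AddSubgroup.zmultiples n := by
        rw [Int.mem_zmultiples_iff]
        exact Int.natAbs_dvd_natAbs.1 (by rw [hn1]; simp)
      rw [← hn] at h1
      obtain ⟨f, hf, hfx⟩ := h1
      exact ⟨f, hf, hfx⟩
    · exfalso
      obtain ⟨p, hp, hpn⟩ := Nat.exists_prime_and_dvd hn1
      obtain ⟨f, hf, hfp⟩ := hcon x p hp
      apply hfp
      have h2 : (p : ℤ) ∣ n := Int.natCast_dvd.2 hpn
      exact h2.trans (hdvd f hf)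
  choose F hFR hF1 using hone
  have hprod : ∀ T : Finset S, (1 - ∏ x ∈ T, (1 - F x)) ∈ R := by
    intro T
    induction T using Finset.induction_on with
    | empty =>
      simp only [Finset.prod_empty, sub_self]
      exact R.zero_mem
    | insert a T ha ih =>
      rw [Finset.prod_insert ha]
      have e : 1 - (1 - F a) * ∏ x ∈ T, (1 - F x) =
          (1 - ∏ x ∈ T, (1 - F x)) + F a - F a * (1 - ∏ x ∈ T, (1 - F x)) := by ring
      rw [e]
      exact R.sub_mem (R.add_mem ih (hFR a)) (hmul _ (hFR a) _ ih)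
  have hzero : ∏ x : S, (1 - F x) = 0 := by
    funext y
    rw [Finset.prod_apply]
    apply Finset.prod_eq_zero (Finset.mem_univ y)
    simp [hF1 y]
  have := hprod Finset.univ
  rw [hzero, sub_zero] at this
  exact h1 this

end Cfsg.Agent.S0869
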