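import Mathlib
import Cfsg.Statements.S0870
import Cfsg.Agent.Lib.Helper3.Char
import Cfsg.Agent.Lib.Helper3.CharInd
import Cfsg.Agent.Lib.Helper3.CharPermInd

set_option autoImplicit false
open Cfsg
open Cfsg.Agent.Lib.Helper3.Char Cfsg.Agent.Lib.Helper3.CharInd Cfsg.Agent.Lib.Helper3.CharPermInd
open scoped ComplexConjugate

namespace Cfsg.Agent.S0870

theorem result {G : Type*} [Group G] [Fintype G] (H K : Subgroup G) : ∃ a : Subgroup G → ℕ, (∀ U, a U ≠ 0 → U ≤ H) ∧ Cfsg.indFun H (fun _ => 1) * Cfsg.indFun K (fun _ => 1) = ∑ U : Subgroup G, (a U : ℂ) • Cfsg.indFun U (fun _ => 1) := by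
  classical
  obtain ⟨l, hl, hprod⟩ := prod_perm H K
  refine ⟨fun U => l.count U, ?_, ?_⟩
  · intro U hU
    apply hl U
    by_contra hmem
    exact hU (List.count_eq_zero_of_not_mem hmem)
  · rw [hprod, Finset.sum_list_map_count]
    rw [Finset.sum_subset (Finset.subset_univ l.toFinset)]
    · apply Finset.sum_congr rfl
      intro U _
      exact (Nat.cast_smul_eq_nsmul ℂ _ _).symm
    · intro U _ hU
      rw [List.count_eq_zero_of_not_mem (fun h => hU (List.mem_toFinset.mpr h)), zero_smul]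

end Cfsg.Agent.S0870
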