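import Mathlib
import Cfsg.Statements.S0875
import Cfsg.Agent.Lib.Helper3.BrInt
import Cfsg.Agent.Lib.Helper3.Char
import Cfsg.Agent.Lib.Helper3.CharCore

set_option autoImplicit false
open Cfsg
open Cfsg.Agent.Lib.Helper3.BrInt Cfsg.Agent.Lib.Helper3.Char Cfsg.Agent.Lib.Helper3.CharCore

namespace Cfsg.Agent.S0875

theorem result {G : Type*} [Group G] [Fintype G] (m n : ℕ) (hmn : Nat.card G = m * n) (hcop : Nat.Coprime m n) (g : G) (hg : Nat.Coprime (orderOf g) m) (ϑ : G → ℂ) (hϑ1 : ∀ x : G, (∃ v : G, IsConj v g ∧ (∃ u : G, x = u * v ∧ Commute u v ∧ Nat.Coprime (orderOf u) n ∧ Nat.Coprime (orderOf v) m)) → ϑ x = n) (hϑ0 : ∀ x : G, (¬ ∃ v : G, IsConj v g ∧ (∃ u : G, x = u * v ∧ Commute u v ∧ Nat.Coprime (orderOf u) n ∧ Nat.Coprime (orderOf v) m)) → ϑ x = 0) : ∃ c : Cfsg.IrrCharacter G → ℂ, (∀ χ, c χ ∈ Cfsg.AlgInt) ∧ ϑ = ∑ᶠ χ : Cfsg.IrrCharacter G, c χ • (χ : G → ℂ) := by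
  classical
  have _fi : Fintype (Cfsg.IrrCharacter G) := Fintype.ofFinite _
  obtain ⟨k, hk1, hk0⟩ := Nat.chineseRemainder hcop.symm 1 0
  have hkm : m ∣ k := Nat.modEq_zero_iff_dvd.mp hk0
  have hchar : ∀ x : G, (∃ v : G, IsConj v g ∧ (∃ u : G, x = u * v ∧ Commute u v ∧
      Nat.Coprime (orderOf u) n ∧ Nat.Coprime (orderOf v) m)) ↔ IsConj (x ^ k) g := by
    intro x
    constructor
    · rintro ⟨v, hvg, u, rfl, hc, hu, hv⟩
      have h1 : u ^ k = 1 := by
        have h2 : orderOf u ∣ m * n := by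
          rw [← hmn]
          exact orderOf_dvd_natCard u
        have h3 : orderOf u ∣ m := hu.dvd_of_dvd_mul_right h2
        exact orderOf_dvd_iff_pow_eq_one.mp (h3.trans hkm)
      have h4 : v ^ k = v := by
        have h2 : orderOf v ∣ m * n := by
          rw [← hmn]
          exact orderOf_dvd_natCard v
        have h3 : orderOf v ∣ n := hv.dvd_of_dvd_mul_left h2
        have h5 := pow_eq_pow_iff_modEq.mpr (hk1.of_dvd h3)
        rwa [pow_one] at h5
      rw [hc.mul_pow, h1, h4, one_mul]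
      exact hvg
    · intro h
      have hox : orderOf x ∣ n * m := by
        rw [mul_comm, ← hmn]
        exact orderOf_dvd_natCard x
      refine ⟨x ^ k, h, x * (x ^ k)⁻¹, by group, ?_, ?_, ?_⟩
      · exact (Commute.self_pow x k).mul_left (Commute.refl (x ^ k)).inv_left
      · have h1 : (x * (x ^ k)⁻¹) ^ m = 1 := by
          have hc : Commute x (x ^ k)⁻¹ := (Commute.self_pow x k).inv_right
          rw [hc.mul_pow, inv_pow, ← pow_mul]
          have h2 : k * m ≡ 1 * m [MOD n * m] := Nat.ModEq.mul_right' m hk1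
          have h3 := pow_eq_pow_iff_modEq.mpr (h2.of_dvd hox)
          rw [h3, one_mul, mul_inv_cancel]
        have h4 : orderOf (x * (x ^ k)⁻¹) ∣ m := orderOf_dvd_of_pow_eq_one h1
        exact Nat.Coprime.coprime_dvd_left h4 hcop
      · have h1 : (x ^ k) ^ n = 1 := by
          rw [← pow_mul]
          have h2 : n * m ∣ k * n := by
            rw [mul_comm]
            exact Nat.mul_dvd_mul_right hkm n
          exact orderOf_dvd_iff_pow_eq_one.mp (hox.trans h2)
        have h4 : orderOf (x ^ k) ∣ n := orderOf_dvd_of_pow_eq_one h1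
        exact Nat.Coprime.coprime_dvd_left h4 hcop.symm
  have h1' : ∀ x : G, IsConj (x ^ k) g → ϑ x = n := fun x h => hϑ1 x ((hchar x).mpr h)
  have h0' : ∀ x : G, ¬ IsConj (x ^ k) g → ϑ x = 0 :=
    fun x h => hϑ0 x (fun h' => h ((hchar x).mp h'))
  have hcf : Cfsg.IsClassFunction G ϑ := by
    intro x t
    have h1 : IsConj ((t * x * t⁻¹) ^ k) g ↔ IsConj (x ^ k) g := by
      have h2 : IsConj (x ^ k) ((t * x * t⁻¹) ^ k) := by
        rw [conj_pow]
        exact isConj_iff.mpr ⟨t, rfl⟩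
      exact ⟨fun h3 => h2.trans h3, fun h3 => h2.symm.trans h3⟩
    by_cases h : IsConj (x ^ k) g
    · rw [h1' x h, h1' _ (h1.mpr h)]
    · rw [h0' x h, h0' _ (fun h' => h (h1.mp h'))]
  refine ⟨fun χ => Cfsg.classInner ϑ (χ : G → ℂ), fun χ => ?_, ?_⟩
  · rw [mem_integralClosure_iff]
    apply brauer_int ϑ hcf _ χ (isCharacter_of_irr χ.2)
    intro E _ p hp hel ψ hψ χ' hχ'
    exact sec_elem m n hmn hcop k hk1 hkm g E p hp hel ψ hψ χ' hχ' ϑ h1' h0'
  · rw [finsum_eq_sum_of_fintype]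
    exact class_fun_expand ϑ hcf

end Cfsg.Agent.S0875
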