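import Mathlib
import Cfsg.Statements.S0877
import Cfsg.Agent.Lib.Helper3.BrSuz

set_option autoImplicit false
open Cfsg
open Cfsg.Agent.Lib.Helper3.BrSuz

namespace Cfsg.Agent.S0877

theorem result {G : Type*} [Group G] [Finite G] (H : Subgroup G) (hHall : Nat.Coprime (Nat.card H) H.index) (hfus : ∀ x ∈ H, ∀ y ∈ H, IsConj x y → ∃ h ∈ H, h * x * h⁻¹ = y) (helem : ∀ (E : Subgroup G) (p : ℕ), p.Prime → Cfsg.IsElementary p E → Nat.card E ∣ Nat.card H → ∃ g : G, E.map (MulAut.conj g).toMonoidHom ≤ H) : ∃ K : Subgroup G, K.Normal ∧ K ⊔ H = ⊤ ∧ K ⊓ H = ⊥ := by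
  exact brauer_suzuki H hHall hfus helem

end Cfsg.Agent.S0877
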