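import Mathlib
import Cfsg.Statements.S0893
import Cfsg.Agent.Lib.Helper3.Char
import Cfsg.Agent.Lib.Helper3.CharCore
import Cfsg.Agent.Lib.Helper3.CharInd
import Cfsg.Agent.Lib.Helper3.CharProj
import Cfsg.Agent.Lib.Helper3.CharCliff
import Cfsg.Agent.Lib.Helper3.CharLinear
import Cfsg.Agent.Lib.Helper3.Extra
import Cfsg.Agent.S0148

set_option autoImplicit false
open Cfsg
open Cfsg.Agent.Lib.Helper3.Char Cfsg.Agent.Lib.Helper3.CharCore Cfsg.Agent.Lib.Helper3.CharInd Cfsg.Agent.Lib.Helper3.CharProj Cfsg.Agent.Lib.Helper3.CharCliff Cfsg.Agent.Lib.Helper3.CharLinear Cfsg.Agent.Lib.Helper3.Extra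
open scoped ComplexConjugate

namespace Cfsg.Agent.S0893

theorem result {P : Type*} [Group P] [Fintype P] (p n : ℕ) [Fact p.Prime] (hP : Cfsg.IsExtraspecial p P) (hcard : Nat.card P = p ^ (2 * n + 1)) (A : Subgroup P) (hab : ∀ a ∈ A, ∀ b ∈ A, a * b = b * a) (hA : Nat.card A = p ^ (n + 1)) (lam : A → ℂ) (hlam : Cfsg.IsCharacter A lam ∧ lam 1 = 1) (hZ : ∃ a : A, (a : P) ∈ Subgroup.center P ∧ lam a ≠ 1) : Cfsg.IsIrrCharacter P (Cfsg.indFun A lam) ∧ ∀ x : P, x ∉ Subgroup.center P → Cfsg.indFun A lam x = 0 := by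
  classical
  have hp : p.Prime := Fact.out
  have _fA : Fintype A := Fintype.ofFinite A
  obtain ⟨a, haZ, hla⟩ := hZ
  obtain ⟨μ, hμ⟩ := hom_of_deg_one hlam.1 hlam.2
  have hΨ : Cfsg.IsCharacter P (Cfsg.indFun A lam) := Cfsg.Agent.S0148.result A lam hlam.1
  have hΨ1 : Cfsg.indFun A lam 1 = (p : ℂ) ^ n := by
    rw [indFun_one, hlam.2, mul_one]
    have h1 := Subgroup.card_mul_index A
    rw [hA, hcard] at h1
    have h2 : A.index = p ^ n := by
      have e : p ^ (2 * n + 1) = p ^ (n + 1) * p ^ n := by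
        rw [← pow_add]
        congr 1
        omega
      rw [e] at h1
      exact Nat.eq_of_mul_eq_mul_left (pow_pos hp.pos _) h1
    rw [h2]
    push_cast
    rfl
  have hΨne : Cfsg.indFun A lam 1 ≠ 0 := by
    rw [hΨ1]
    exact pow_ne_zero _ (by exact_mod_cast hp.ne_zero)
  obtain ⟨χ, hχ, hin0⟩ := exists_constituent hΨ hΨne
  have hin := hin0
  rw [frobenius' A lam χ (char_classFun (isCharacter_of_irr hχ))] at hin
  have hne : χ (a : P) ≠ χ 1 := by
    intro heq
    apply hla
    obtain ⟨d, ρ, hirr, rfl⟩ := hχ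
    have _i : ρ.IsIrreducible := hirr
    obtain ⟨c, hc, hnc⟩ := center_norm ρ (a : P) haZ
    have hd : ρ.character 1 = (d : ℂ) := by
      rw [Representation.char_one, Module.finrank_fin_fun]
    have hd0 : (d : ℂ) ≠ 0 := by
      rw [← hd]
      exact irr_one_ne_zero ⟨d, ρ, hirr, rfl⟩
    have hc1 : c = 1 := by
      have e : ρ.character (a : P) = c * (d : ℂ) := by
        show LinearMap.trace ℂ _ (ρ (a : P)) = _
        rw [hc, map_smul, smul_eq_mul, LinearMap.trace_id, Module.finrank_fin_fun]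
      rw [e, hd] at heq
      have h5 : (c - 1) * (d : ℂ) = 0 := by rw [sub_mul, one_mul, heq, sub_self]
      rcases mul_eq_zero.mp h5 with h | h
      · exact sub_eq_zero.mp h
      · exact absurd h hd0
    subst hc1
    have hmul : ∀ b : A, ρ.character ((a * b : A) : P) = ρ.character (b : P) := by
      intro b
      show LinearMap.trace ℂ _ (ρ ((a : P) * (b : P))) = LinearMap.trace ℂ _ (ρ (b : P))
      rw [map_mul, hc, one_smul]
      rfl
    have hsum : ∑ b : A, ρ.character (b : P) * conj (lam b) =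
        conj (lam a) * ∑ b : A, ρ.character (b : P) * conj (lam b) := by
      conv_lhs =>
        rw [← Equiv.sum_comp (Equiv.mulLeft a)
          (fun b : A => ρ.character (b : P) * conj (lam b))]
      rw [Finset.mul_sum]
      refine Finset.sum_congr rfl (fun b _ => ?_)
      rw [Equiv.coe_mulLeft, hmul b, hμ]
      show _ * conj ((μ (a * b) : ℂ)) = conj (μ a : ℂ) * (_ * conj (μ b : ℂ))
      rw [map_mul]
      push_cast
      rw [map_mul]
      ring
    have hs0 : ∑ b : A, ρ.character (b : P) * conj (lam b) ≠ 0 := by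
      intro h0
      apply hin
      unfold Cfsg.classInner
      rw [h0, mul_zero]
    have h3 : conj (lam a) = 1 := by
      have h5 : (conj (lam a) - 1) * ∑ b : A, ρ.character (b : P) * conj (lam b) = 0 := by
        rw [sub_mul, one_mul, ← hsum, sub_self]
      rcases mul_eq_zero.mp h5 with h | h
      · exact sub_eq_zero.mp h
      · exact absurd h hs0
    have h6 := congrArg conj h3
    simpa using h6
  have hvan : ∀ g : P, g ∉ Subgroup.center P → χ g = 0 :=
    fun g hg => extra_vanish p hP hχ (a : P) haZ hne g hg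
  have hχ1 : χ 1 = (p : ℂ) ^ n := extra_degree p n hP hcard hχ hvan
  have hin2 : Cfsg.classInner (Cfsg.indFun A lam) χ ≠ 0 := by
    rw [classInner_conj_symm]
    intro h
    apply hin0
    have h6 := congrArg conj h
    simpa using h6
  have hsub := sub_isCharacter hΨ hχ hin2
  have h0 : (Cfsg.indFun A lam - χ) 1 = 0 := by rw [Pi.sub_apply, hΨ1, hχ1, sub_self]
  have hz := eq_zero_of_deg_zero hsub h0
  have heq : Cfsg.indFun A lam = χ := sub_eq_zero.mp hz
  rw [heq]
  exact ⟨hχ, hvan⟩

end Cfsg.Agent.S0893
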