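import Mathlib
import Cfsg.Statements.S0894
import Cfsg.Agent.Lib.Helper3.Char
import Cfsg.Agent.Lib.Helper3.CharCore
import Cfsg.Agent.Lib.Helper3.CharDeg
import Cfsg.Agent.Lib.Helper3.CharLinear
import Cfsg.Agent.Lib.Helper3.Extra

set_option autoImplicit false
open Cfsg
open Cfsg.Agent.Lib.Helper3.Char Cfsg.Agent.Lib.Helper3.CharCore Cfsg.Agent.Lib.Helper3.CharDeg Cfsg.Agent.Lib.Helper3.CharLinear Cfsg.Agent.Lib.Helper3.Extra

namespace Cfsg.Agent.S0894

theorem result {P : Type*} [Group P] [Finite P] (p n : ℕ) [Fact p.Prime] (hP : Cfsg.IsExtraspecial p P) (hcard : Nat.card P = p ^ (2 * n + 1)) : (∀ χ : Cfsg.IrrCharacter P, (χ : P → ℂ) 1 = 1 ∨ (χ : P → ℂ) 1 = (p : ℂ) ^ n) ∧ Nat.card {χ : Cfsg.IrrCharacter P // (χ : P → ℂ) 1 = (p : ℂ) ^ n} = p - 1 := by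
  classical
  have _fg : Fintype P := Fintype.ofFinite P
  have _fi : Fintype (Cfsg.IrrCharacter P) := Fintype.ofFinite _
  have hp : p.Prime := Fact.out
  have ha : ∀ χ : Cfsg.IrrCharacter P, (χ : P → ℂ) 1 = 1 ∨ (χ : P → ℂ) 1 = (p : ℂ) ^ n := by
    intro χ
    by_cases h : ∀ z ∈ Subgroup.center P, (χ : P → ℂ) z = (χ : P → ℂ) 1
    · exact Or.inl (extra_linear p hP χ h)
    · right
      have h' : ∃ z, z ∈ Subgroup.center P ∧ (χ : P → ℂ) z ≠ (χ : P → ℂ) 1 := by
        by_contra hcon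
        apply h
        intro z hz
        by_contra h2
        exact hcon ⟨z, hz, h2⟩
      obtain ⟨z₀, hz₀, hne⟩ := h'
      exact extra_degree p n hP hcard χ.2 (fun g hg => extra_vanish p hP χ.2 z₀ hz₀ hne g hg)
  refine ⟨ha, ?_⟩
  have hn : n ≠ 0 := by
    rintro rfl
    have h1 : Nat.card (Subgroup.center P) = Nat.card P := by
      rw [hP.2, hcard]
      simp
    have h2 : Subgroup.center P = ⊤ := Subgroup.eq_top_of_card_eq _ h1
    have h3 : commutator P = ⊥ := (commutator_eq_bot_iff_center_eq_top P).mpr h2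
    rw [hP.1.2.2] at h3
    have h4 : Nat.card (Subgroup.center P) = 1 := by
      rw [h3]
      simp
    rw [hP.2] at h4
    exact hp.one_lt.ne' h4
  have hdeg : ∀ ψ : Cfsg.IrrCharacter P, ∃ m : ℕ, 0 < m ∧ (ψ : P → ℂ) 1 = (m : ℂ) :=
    fun ψ => irr_one_pos ψ.2
  choose dg hdpos hdeq using hdeg
  have hdg : ∀ ψ, dg ψ = 1 ∨ dg ψ = p ^ n := by
    intro ψ
    rcases ha ψ with h | h
    · left
      rw [hdeq ψ] at h
      exact_mod_cast h
    · right
      rw [hdeq ψ] at h
      exact_mod_cast h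
  have hpn : p ^ n ≠ 1 := by
    intro h
    have h1 : 1 < p ^ n := Nat.one_lt_pow hn hp.one_lt
    omega
  have hsum := sum_degree_sq dg hdeq
  have hterm : ∀ ψ : Cfsg.IrrCharacter P, dg ψ ^ 2 =
      (if dg ψ = 1 then 1 else 0) + (if dg ψ = p ^ n then 1 else 0) * p ^ (2 * n) := by
    intro ψ
    rcases hdg ψ with h | h
    · rw [if_pos h, if_neg (by rw [h]; exact fun h' => hpn h'.symm), h]
      simp
    · rw [if_neg (by rw [h]; exact hpn), if_pos h, h]
      ring
  rw [Finset.sum_congr rfl (fun ψ _ => hterm ψ), Finset.sum_add_distrib, ← Finset.sum_mul,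
    Finset.sum_boole, Finset.sum_boole, hcard] at hsum
  have hlin : (Finset.univ.filter (fun ψ : Cfsg.IrrCharacter P => dg ψ = 1)).card =
      p ^ (2 * n) := by
    have h5 : Nat.card {χ : Cfsg.IrrCharacter P // (χ : P → ℂ) 1 = 1} =
        (Subgroup.center P).index := by
      rw [card_linear, card_hom_units, hP.1.2.2]
    have h6 : (Subgroup.center P).index = p ^ (2 * n) := by
      have h7 := Subgroup.card_mul_index (Subgroup.center P)
      rw [hP.2, hcard, pow_succ, mul_comm] at h7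
      exact Nat.eq_of_mul_eq_mul_right hp.pos h7
    rw [← h6, ← h5, Nat.card_eq_fintype_card, Fintype.card_subtype]
    congr 1
    apply Finset.filter_congr
    intro ψ _
    rw [hdeq ψ]
    exact_mod_cast Iff.rfl
  have hcnt : Nat.card {χ : Cfsg.IrrCharacter P // (χ : P → ℂ) 1 = (p : ℂ) ^ n} =
      (Finset.univ.filter (fun ψ : Cfsg.IrrCharacter P => dg ψ = p ^ n)).card := by
    rw [Nat.card_eq_fintype_card, Fintype.card_subtype]
    congr 1
    apply Finset.filter_congr
    intro ψ _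
    rw [hdeq ψ]
    exact_mod_cast Iff.rfl
  rw [hcnt]
  rw [hlin] at hsum
  generalize (Finset.univ.filter (fun ψ : Cfsg.IrrCharacter P => dg ψ = p ^ n)).card = k at hsum
  have h8 : p ^ (2 * n) * p = p ^ (2 * n) * (1 + k) := by
    rw [← pow_succ]
    simp only [Nat.cast_id] at hsum
    rw [hsum]
    ring
  have h9 := Nat.eq_of_mul_eq_mul_left (pow_pos hp.pos _) h8
  omega

end Cfsg.Agent.S0894
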