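import Mathlib
import Cfsg.Statements.S0895
import Cfsg.Agent.Lib.Helper3.Char
import Cfsg.Agent.S0158

set_option autoImplicit false
open Cfsg
open Cfsg.Agent.Lib.Helper3.Char
open scoped ComplexConjugate
open scoped Matrix

namespace Cfsg.Agent.S0895

theorem result {G : Type*} [Group G] [Fintype G] (χ : G → ℂ) (hχ : Cfsg.IsIrrCharacter G χ) (hreal : ∀ g : G, (χ g).im = 0) (d : ℕ) (hd : χ 1 = d) (hodd : Odd d) : (Nat.card G : ℂ)⁻¹ * ∑ s : G, χ (s * s) = 1 := by
  classical
  obtain ⟨n, σ, hirr, rfl⟩ := hχ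
  have hnd : n = d := by
    rw [Representation.char_one, Module.finrank_fin_fun] at hd
    exact_mod_cast hd
  have hreal' : σ.character = (fun g => conj (σ.character g)) := by
    funext g
    exact (Complex.conj_eq_iff_im.mpr (hreal g)).symm
  obtain ⟨B, c, hB0, hinv, hBT, hc1, hν⟩ := (Cfsg.Agent.S0158.fs_main σ hirr).2 hreal'
  rw [hν]
  rcases hc1 with rfl | rfl
  · rfl
  exfalso
  have hM1 : ∀ g : G, LinearMap.toMatrix' (σ g⁻¹) * LinearMap.toMatrix' (σ g) = 1 := by
    intro g
    rw [← LinearMap.toMatrix'_mul, ← map_mul, inv_mul_cancel, map_one]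
    exact LinearMap.toMatrix'_one
  have hcomm : ∀ g : G, LinearMap.toMatrix' (σ g) * B = B * (LinearMap.toMatrix' (σ g⁻¹))ᵀ := by
    intro g
    have h1 := hinv g
    have h2 : (LinearMap.toMatrix' (σ g))ᵀ * (LinearMap.toMatrix' (σ g⁻¹))ᵀ = 1 := by
      rw [← Matrix.transpose_mul, hM1, Matrix.transpose_one]
    calc LinearMap.toMatrix' (σ g) * B
        = LinearMap.toMatrix' (σ g) * B * ((LinearMap.toMatrix' (σ g))ᵀ *
          (LinearMap.toMatrix' (σ g⁻¹))ᵀ) := by rw [h2, mul_one]
      _ = (LinearMap.toMatrix' (σ g) * B * (LinearMap.toMatrix' (σ g))ᵀ) *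
          (LinearMap.toMatrix' (σ g⁻¹))ᵀ := by rw [mul_assoc, mul_assoc, mul_assoc]
      _ = B * (LinearMap.toMatrix' (σ g⁻¹))ᵀ := by rw [h1]
  let U : Subrepresentation σ :=
    { toSubmodule := LinearMap.range (Matrix.toLin' B)
      apply_mem_toSubmodule := by
        rintro g v ⟨w, rfl⟩
        refine ⟨Matrix.toLin' ((LinearMap.toMatrix' (σ g⁻¹))ᵀ) w, ?_⟩
        have h3 : σ g = Matrix.toLin' (LinearMap.toMatrix' (σ g)) :=
          (Matrix.toLin'_toMatrix' (σ g)).symm
        rw [h3, ← LinearMap.comp_apply, ← LinearMap.comp_apply, ← Matrix.toLin'_mul,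
          ← Matrix.toLin'_mul, hcomm g] }
  have hsimple : IsSimpleOrder (Subrepresentation σ) := hirr
  have hU : U = ⊤ := by
    rcases eq_bot_or_eq_top U with h | h
    · exfalso
      have h4 : LinearMap.range (Matrix.toLin' B) = ⊥ :=
        congrArg Subrepresentation.toSubmodule h
      have h5 : Matrix.toLin' B = 0 := LinearMap.range_eq_bot.mp h4
      apply hB0
      have h6 : Matrix.toLin' B = Matrix.toLin' 0 := by rw [h5, map_zero]
      exact Matrix.toLin'.injective h6
    · exact h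
  have hsurj : Function.Surjective (Matrix.toLin' B) := by
    have h4 : LinearMap.range (Matrix.toLin' B) = ⊤ :=
      congrArg Subrepresentation.toSubmodule hU
    exact LinearMap.range_eq_top.mp h4
  have hunit : IsUnit B := by
    apply Matrix.mulVec_surjective_iff_isUnit.mp
    intro v
    obtain ⟨w, hw⟩ := hsurj v
    exact ⟨w, by rw [← hw, Matrix.toLin'_apply]⟩
  have hdet : B.det ≠ 0 := ((Matrix.isUnit_iff_isUnit_det B).mp hunit).ne_zero
  have h7 := congrArg Matrix.det hBT
  have hn : Odd n := by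
    rw [hnd]
    exact hodd
  rw [Matrix.det_transpose, Matrix.det_smul, Fintype.card_fin, hn.neg_one_pow] at h7
  have h8 : B.det = 0 := by linear_combination h7 / 2
  exact hdet h8

end Cfsg.Agent.S0895
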