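import Mathlib
import Cfsg.Statements.S0901
import Cfsg.Agent.Lib.Helper3.BlkLocal

set_option autoImplicit false
open Cfsg
open Cfsg.Agent.Lib.Helper3.BlkLocal

namespace Cfsg.Agent.S0901

theorem result (p : ℕ) [Fact p.Prime] (M : Ideal Cfsg.AlgInt) (hM : Cfsg.IsPModular p M) : (∀ ε₁ ε₂ : Cfsg.AlgInt, (∃ m : ℕ, ¬ p ∣ m ∧ (ε₁ : ℂ) ^ m = 1) → (∃ m : ℕ, ¬ p ∣ m ∧ (ε₂ : ℂ) ^ m = 1) → ε₁ - ε₂ ∈ M → ε₁ = ε₂) ∧ (∀ a : Cfsg.AlgInt, a ∉ M → ∃ ε : Cfsg.AlgInt, (∃ m : ℕ, ¬ p ∣ m ∧ (ε : ℂ) ^ m = 1) ∧ a - ε ∈ M) := by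
  classical
  have hp := (Fact.out : p.Prime)
  have hMp := hM.2.1.isPrime
  constructor
  · rintro ε₁ ε₂ ⟨m₁, hm₁, h₁⟩ ⟨m₂, hm₂, h₂⟩ hmem
    by_contra hne
    have hN : ¬ p ∣ m₁ * m₂ := fun h => (hp.dvd_mul.mp h).elim hm₁ hm₂
    have hN0 : m₁ * m₂ ≠ 0 := fun h => hN (h ▸ dvd_zero p)
    have e₁ : ε₁ ^ (m₁ * m₂) = 1 := by
      apply Subtype.ext
      push_cast
      rw [pow_mul, h₁, one_pow]
    have e₂ : ε₂ ^ (m₁ * m₂) = 1 := by
      apply Subtype.ext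
      push_cast
      rw [mul_comm, pow_mul, h₂, one_pow]
    obtain ⟨N, hNeq⟩ : ∃ N, m₁ * m₂ = N + 1 := Nat.exists_eq_succ_of_ne_zero hN0
    rw [hNeq] at e₁ e₂ hN
    obtain ⟨ζ, hζ⟩ : ∃ ζ : Cfsg.AlgInt, ζ = ε₂ * ε₁ ^ N := ⟨_, rfl⟩
    have hζN : ζ ^ (N + 1) = 1 := by
      rw [hζ, mul_pow, e₂, one_mul, ← pow_mul, mul_comm, pow_mul, e₁, one_pow]
    have hζ1 : ζ ≠ 1 := by
      intro h1
      apply hne
      have h2 : ζ * ε₁ = ε₁ := by rw [h1, one_mul]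
      rw [hζ, mul_assoc, ← pow_succ, e₁, mul_one] at h2
      exact h2.symm
    have hmemζ : 1 - ζ ∈ M := by
      have h3 : 1 - ζ = ε₁ ^ N * (ε₁ - ε₂) := by
        rw [hζ, mul_sub, ← pow_succ, e₁]
        ring
      rw [h3]
      exact M.mul_mem_left _ hmem
    have hgeom : ∑ j ∈ Finset.range (N + 1), ζ ^ j = 0 := by
      have h4 := mul_geom_sum ζ (N + 1)
      rw [hζN, sub_self] at h4
      rcases mul_eq_zero.mp h4 with h5 | h5
      · exact absurd (sub_eq_zero.mp h5) hζ1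
      · exact h5
    have hNmem : ((N + 1 : ℕ) : Cfsg.AlgInt) =
        (1 - ζ) * ∑ j ∈ Finset.range (N + 1), ∑ i ∈ Finset.range j, ζ ^ i := by
      have h6 : ∀ j : ℕ, (ζ - 1) * ∑ i ∈ Finset.range j, ζ ^ i = ζ ^ j - 1 :=
        fun j => mul_geom_sum ζ j
      have h7 : (ζ - 1) * ∑ j ∈ Finset.range (N + 1), ∑ i ∈ Finset.range j, ζ ^ i =
          -((N + 1 : ℕ) : Cfsg.AlgInt) := by
        rw [Finset.mul_sum, Finset.sum_congr rfl (fun j _ => h6 j), Finset.sum_sub_distrib, hgeom,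
          Finset.sum_const, Finset.card_range, nsmul_eq_mul, mul_one, zero_sub]
      have h8 : (1 - ζ) * ∑ j ∈ Finset.range (N + 1), ∑ i ∈ Finset.range j, ζ ^ i =
          -((ζ - 1) * ∑ j ∈ Finset.range (N + 1), ∑ i ∈ Finset.range j, ζ ^ i) := by ring
      rw [h8, h7, neg_neg]
    have h9 : ((N + 1 : ℕ) : Cfsg.AlgInt) ∈ M := by
      rw [hNmem]
      exact M.mul_mem_right _ hmemζ
    exact hN ((nat_mem_iff hM _).mp h9)
  · intro a ha
    have _hMp' : M.IsPrime := hMp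
    obtain ⟨π, hπ⟩ : ∃ π : Cfsg.AlgInt →+* Cfsg.AlgInt ⧸ M, π = Ideal.Quotient.mk M := ⟨_, rfl⟩
    have hπ0 : ∀ z, π z = 0 ↔ z ∈ M := by
      intro z
      rw [hπ]
      exact Ideal.Quotient.eq_zero_iff_mem
    have hpK : ((p : ℕ) : Cfsg.AlgInt ⧸ M) = 0 := by
      have h1 : π (p : Cfsg.AlgInt) = 0 := (hπ0 _).mpr hM.2.2
      rwa [map_natCast] at h1
    have _cp : CharP (Cfsg.AlgInt ⧸ M) p := (CharP.charP_iff_prime_eq_zero hp).mpr hpK
    let _alg : Algebra (ZMod p) (Cfsg.AlgInt ⧸ M) := ZMod.algebra _ p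
    have _st : IsScalarTower ℤ (ZMod p) (Cfsg.AlgInt ⧸ M) :=
      IsScalarTower.of_algebraMap_eq (fun x => by simp)
    have hint : IsIntegral (ZMod p) (π a) := by
      have h1 : IsIntegral ℤ a := integralClosure.isIntegral a
      have h2 : IsIntegral ℤ (π a) := by
        rw [hπ]
        exact h1.map (Ideal.Quotient.mkₐ ℤ M)
      exact h2.tower_top
    have hfg := hint.fg_adjoin_singleton
    have _mf : Module.Finite (ZMod p)
        (Subalgebra.toSubmodule (Algebra.adjoin (ZMod p) {π a})) := Module.Finite.iff_fg.mpr hfg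
    have _ff : Finite (Subalgebra.toSubmodule (Algebra.adjoin (ZMod p) {π a})) :=
      Module.finite_of_finite (ZMod p)
    have hninj : ¬ Function.Injective (fun n : ℕ =>
        (⟨π a ^ n, (Subalgebra.mem_toSubmodule _).mpr
          (pow_mem (Algebra.self_mem_adjoin_singleton _ _) n)⟩ :
          Subalgebra.toSubmodule (Algebra.adjoin (ZMod p) {π a}))) :=
      not_injective_infinite_finite _
    obtain ⟨i, j, hij, hne⟩ : ∃ i j : ℕ, π a ^ i = π a ^ j ∧ i ≠ j := by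
      by_contra hno
      push Not at hno
      apply hninj
      intro i j hij
      exact hno i j (congrArg Subtype.val hij)
    have hπa : π a ≠ 0 := fun h => ha ((hπ0 a).mp h)
    have hone : ∀ i j : ℕ, i < j → π a ^ i = π a ^ j → ∃ n : ℕ, n ≠ 0 ∧ π a ^ n = 1 := by
      intro i j hlt hij
      refine ⟨j - i, by omega, ?_⟩
      have h1 : π a ^ i * π a ^ (j - i) = π a ^ i * 1 := by
        rw [← pow_add, mul_one, hij]
        congr 1
        omega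
      exact mul_left_cancel₀ (pow_ne_zero i hπa) h1
    obtain ⟨n, hn0, hn⟩ : ∃ n : ℕ, n ≠ 0 ∧ π a ^ n = 1 := by
      rcases lt_or_gt_of_ne hne with h | h
      · exact hone i j h hij
      · exact hone j i h hij.symm
    obtain ⟨s, n', hn', hnn⟩ := Nat.exists_eq_pow_mul_and_not_dvd hn0 p hp.ne_one
    have hn'1 : π a ^ n' = 1 := by
      have h1 : (π a ^ n' - 1) ^ (p ^ s) = 0 := by
        rw [sub_pow_char_pow, one_pow, ← pow_mul, mul_comm, ← hnn, hn, sub_self]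
      exact sub_eq_zero.mp ((pow_eq_zero_iff (pow_ne_zero s hp.ne_zero)).mp h1)
    have hn'0 : n' ≠ 0 := fun h => hn' (h ▸ dvd_zero p)
    have hmem : a ^ n' - 1 ∈ M := by
      rw [← hπ0, map_sub, map_pow, map_one, hn'1, sub_self]
    have hprim := Complex.isPrimitiveRoot_exp n' hn'0
    have hfac := Polynomial.X_pow_sub_one_eq_prod (Nat.pos_of_ne_zero hn'0) hprim
    have hev : (a : ℂ) ^ n' - 1 = ∏ ζ ∈ Polynomial.nthRootsFinset n' (1 : ℂ), ((a : ℂ) - ζ) := by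
      have h1 := congrArg (Polynomial.eval (a : ℂ)) hfac
      simpa [Polynomial.eval_prod] using h1
    have hζint : ∀ ζ ∈ Polynomial.nthRootsFinset n' (1 : ℂ), ζ ∈ Cfsg.AlgInt := by
      intro ζ hζ
      have h1 : ζ ^ n' = 1 := (Polynomial.mem_nthRootsFinset (Nat.pos_of_ne_zero hn'0) 1).mp hζ
      rw [mem_integralClosure_iff]
      apply IsIntegral.of_pow (Nat.pos_of_ne_zero hn'0)
      rw [h1]
      exact isIntegral_one
    have hprod : ∏ ζ ∈ (Polynomial.nthRootsFinset n' (1 : ℂ)).attach,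
        (a - ⟨ζ.1, hζint ζ.1 ζ.2⟩) = a ^ n' - 1 := by
      apply Subtype.ext
      rw [SubmonoidClass.coe_finsetProd]
      push_cast
      rw [hev]
      exact Finset.prod_attach _ (fun ζ : ℂ => (a : ℂ) - ζ)
    rw [← hprod] at hmem
    obtain ⟨ζ, _, hζm⟩ := Ideal.IsPrime.prod_mem_iff.mp hmem
    refine ⟨⟨ζ.1, hζint ζ.1 ζ.2⟩, ⟨n', hn', ?_⟩, hζm⟩
    exact (Polynomial.mem_nthRootsFinset (Nat.pos_of_ne_zero hn'0) 1).mp ζ.2

end Cfsg.Agent.S0901
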