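import Mathlib
import Cfsg.Statements.S0902
import Cfsg.Agent.Lib.Helper3.Char
import Cfsg.Agent.Lib.Helper3.CharCore
import Cfsg.Agent.Lib.Helper3.BlkLocal
import Cfsg.Agent.Lib.Helper3.BlkOsima
import Cfsg.Agent.Lib.Helper3.BlkOrth
import Cfsg.Agent.Lib.Helper3.BlkOrth2
import Cfsg.Agent.Lib.Helper3.BlkOrth4
import Cfsg.Agent.Lib.Helper3.BlkLink

set_option autoImplicit false
open Cfsg
open Cfsg.Agent.Lib.Helper3.Char Cfsg.Agent.Lib.Helper3.CharCore Cfsg.Agent.Lib.Helper3.BlkLocal Cfsg.Agent.Lib.Helper3.BlkOsima Cfsg.Agent.Lib.Helper3.BlkOrth Cfsg.Agent.Lib.Helper3.BlkOrth2 Cfsg.Agent.Lib.Helper3.BlkOrth4 Cfsg.Agent.Lib.Helper3.BlkLink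

namespace Cfsg.Agent.S0902

theorem result {G : Type*} [Group G] [Finite G] (p : ℕ) [Fact p.Prime] (M : Ideal Cfsg.AlgInt) (hM : Cfsg.IsPModular p M) (χ ψ : Cfsg.IrrCharacter G) (h : Cfsg.SameBlock M (χ : G → ℂ) (ψ : G → ℂ)) (M' : Ideal Cfsg.AlgInt) (hM' : Cfsg.IsPModular p M') (g : G) : ∃ r : Cfsg.AlgInt, r ∈ M' ∧ (r : ℂ) = Cfsg.centralChar (χ : G → ℂ) g - Cfsg.centralChar (ψ : G → ℂ) g := by
  classical
  have _fg : Fintype G := Fintype.ofFinite G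
  have _fi : Fintype (Cfsg.IrrCharacter G) := Fintype.ofFinite _
  have hMp := hM.2.1.isPrime
  have hMp' := hM'.2.1.isPrime
  obtain ⟨A, hA⟩ : ∃ A : Set (Cfsg.IrrCharacter G),
      A = {φ | Relation.ReflTransGen (Lnk p) χ φ} := ⟨_, rfl⟩
  have hclosed : ∀ φ ∈ A, ∀ φ' : Cfsg.IrrCharacter G, Lnk p φ φ' → φ' ∈ A := by
    intro φ hφ φ' hl
    rw [hA] at hφ ⊢
    exact Relation.ReflTransGen.tail hφ hl
  have hχA : χ ∈ A := by
    rw [hA]
    exact Relation.ReflTransGen.refl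
  have hsub := union_blocks hMp A (link_coeff_lr hM A hclosed) χ hχA
  have hψA : ψ ∈ A := hsub h
  rw [hA] at hψA
  have key : ∀ φ : Cfsg.IrrCharacter G, Relation.ReflTransGen (Lnk p) χ φ →
      Cfsg.SameBlock M' (χ : G → ℂ) (φ : G → ℂ) := by
    intro φ hφ
    induction hφ with
    | refl => exact sb_refl hMp' _
    | tail _ hl ih =>
      apply sb_trans hMp' ih
      by_contra hns
      exact hl (diff_block_orth hM' _ _ hns)
  have hsame := key ψ hψA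
  refine ⟨⟨Cfsg.centralChar (χ : G → ℂ) g - Cfsg.centralChar (ψ : G → ℂ) g,
    (mem_integralClosure_iff ℤ ℂ).mpr
      (IsIntegral.sub (cc_integral _ χ.2 g) (cc_integral _ ψ.2 g))⟩, ?_, rfl⟩
  exact (li_int_iff hMp' _).mp (hsame g)

end Cfsg.Agent.S0902
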