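import Mathlib
import Cfsg.Statements.S0905
import Cfsg.Agent.Lib.Helper3.Core
import Cfsg.Agent.Lib.Helper3.BlkCore
import Cfsg.Agent.Lib.Helper3.BlkGreen

set_option autoImplicit false
open Cfsg
open Cfsg.Agent.Lib.Helper3.Core Cfsg.Agent.Lib.Helper3.BlkCore Cfsg.Agent.Lib.Helper3.BlkGreen

namespace Cfsg.Agent.S0905

theorem gen_finsum_mem_ite {α : Type*} [Fintype α] {N : Type*} [AddCommMonoid N] (s : Set α)
    [DecidablePred (· ∈ s)] (f : α → N) :
    ∑ᶠ i ∈ s, f i = ∑ i : α, if i ∈ s then f i else 0 := by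
  have h1 : s = ((Finset.univ.filter (· ∈ s) : Finset α) : Set α) := by
    ext x
    simp
  have h2 : ∑ᶠ i ∈ s, f i = ∑ᶠ i ∈ ((Finset.univ.filter (· ∈ s) : Finset α) : Set α), f i := by
    rw [← h1]
  rw [h2, finsum_mem_coe_finset, Finset.sum_filter]

theorem result {G : Type*} [Group G] [Finite G] (p : ℕ) [Fact p.Prime] (F : Type*) [Field F] [CharP F p] (g : G) (hg : ∀ x : G, IsConj g x → x ∉ Subgroup.centralizer (Cfsg.pCore p G : Set G)) : IsNilpotent (∑ᶠ x ∈ ConjClasses.carrier (ConjClasses.mk g), MonoidAlgebra.single x (1 : F) : MonoidAlgebra F G) := by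
  classical
  have _fg : Fintype G := Fintype.ofFinite G
  have hp := (Fact.out : p.Prime)
  obtain ⟨K, hK⟩ : ∃ K : Set G, K = ConjClasses.carrier (ConjClasses.mk g) := ⟨_, rfl⟩
  have hKmem : ∀ c, c ∈ K ↔ IsConj c g := by
    intro c
    rw [hK, ConjClasses.mem_carrier_iff_mk_eq, ConjClasses.mk_eq_mk_iff_isConj]
  have hKconj : ∀ t c, t * c * t⁻¹ ∈ K ↔ c ∈ K := by
    intro t c
    rw [hKmem, hKmem]
    constructor
    · intro h
      exact (isConj_iff.mpr ⟨t, rfl⟩).trans h
    · intro h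
      exact (isConj_iff.mpr ⟨t⁻¹, by group⟩).trans h
  rw [← hK, gen_finsum_mem_ite]
  obtain ⟨x, hx⟩ : ∃ x : MonoidAlgebra F G,
      x = ∑ c : G, if c ∈ K then MonoidAlgebra.single c (1 : F) else 0 := ⟨_, rfl⟩
  rw [← hx]
  have hzx : ∀ (z : MonoidAlgebra F G) (h : G),
      (z * x).coeff h = ∑ c : G, if c ∈ K then z.coeff (h * c⁻¹) else 0 := by
    intro z h
    rw [hx, Finset.mul_sum, MonoidAlgebra.coeff_sum, Finsupp.finsetSum_apply]
    refine Finset.sum_congr rfl (fun c _ => ?_)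
    by_cases hc : c ∈ K
    · rw [if_pos hc, if_pos hc, MonoidAlgebra.coeff_mul_single_apply, mul_one]
    · rw [if_neg hc, if_neg hc, mul_zero, MonoidAlgebra.coeff_zero, Finsupp.zero_apply]
  have hxz : ∀ (z : MonoidAlgebra F G) (h : G),
      (x * z).coeff h = ∑ c : G, if c ∈ K then z.coeff (c⁻¹ * h) else 0 := by
    intro z h
    rw [hx, Finset.sum_mul, MonoidAlgebra.coeff_sum, Finsupp.finsetSum_apply]
    refine Finset.sum_congr rfl (fun c _ => ?_)
    by_cases hc : c ∈ K
    · rw [if_pos hc, if_pos hc, MonoidAlgebra.coeff_single_mul_apply, one_mul]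
    · rw [if_neg hc, if_neg hc, zero_mul, MonoidAlgebra.coeff_zero, Finsupp.zero_apply]
  have hcomm : ∀ z : MonoidAlgebra F G, x * z = z * x := by
    intro z
    apply MonoidAlgebra.ext
    apply Finsupp.ext
    intro h
    rw [hxz, hzx, ← Equiv.sum_comp (MulAut.conj h⁻¹).toEquiv
      (fun c => if c ∈ K then z.coeff (h * c⁻¹) else 0)]
    refine Finset.sum_congr rfl (fun c _ => ?_)
    show (if c ∈ K then z.coeff (c⁻¹ * h) else 0) =
      if h⁻¹ * c * h⁻¹⁻¹ ∈ K then z.coeff (h * (h⁻¹ * c * h⁻¹⁻¹)⁻¹) else 0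
    have e : h * (h⁻¹ * c * h⁻¹⁻¹)⁻¹ = c⁻¹ * h := by group
    by_cases hc : c ∈ K
    · rw [if_pos hc, if_pos ((hKconj h⁻¹ c).mpr hc), e]
    · rw [if_neg hc, if_neg (fun h' => hc ((hKconj h⁻¹ c).mp h'))]
  by_contra hnil
  have hpow : ∀ n : ℕ, x ^ n ≠ 0 := fun n h0 => hnil ⟨n, h0⟩
  obtain ⟨k, _, hk⟩ := Module.End.exists_ker_pow_eq_ker_pow_succ (LinearMap.mulLeft F x)
  have hLpow : ∀ (n : ℕ) (z : MonoidAlgebra F G),
      ((LinearMap.mulLeft F x) ^ n) z = x ^ n * z := by
    intro n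
    induction n with
    | zero =>
      intro z
      simp
    | succ n ih =>
      intro z
      rw [pow_succ, Module.End.mul_apply, LinearMap.mulLeft_apply, ih, pow_succ, mul_assoc]
  obtain ⟨Q, hQ⟩ : ∃ Q : Subgroup G, Q = Cfsg.pCore p G := ⟨_, rfl⟩
  have hQn : Q.Normal := by
    rw [hQ]
    exact pCore_normal (G := G) p
  have hQp : IsPGroup p Q := by
    rw [hQ]
    exact pCore_isPGroup (G := G) p
  obtain ⟨n, hn⟩ := IsPGroup.iff_card.mp hQp
  obtain ⟨w, hw⟩ : ∃ w : G → F, w = fun h => (x ^ k).coeff h := ⟨_, rfl⟩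
  have hw0 : w ≠ 0 := by
    intro h0
    apply hpow k
    apply MonoidAlgebra.ext
    apply Finsupp.ext
    intro h
    have h1 := congrFun h0 h
    rw [hw] at h1
    rw [MonoidAlgebra.coeff_zero, Finsupp.zero_apply]
    exact h1
  obtain ⟨y', hy0, hyfix, hyS⟩ := fix_exists (F := F) p n Q hn w hw0
  obtain ⟨Φ, hΦ⟩ : ∃ Φ : MonoidAlgebra F G →ₗ[F] (G → F),
      ∀ z h, Φ z h = (x ^ k * z).coeff h :=
    ⟨{ toFun := fun z h => (x ^ k * z).coeff h
       map_add' := by
        intro z z'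
        funext h
        simp [mul_add, MonoidAlgebra.coeff_add]
       map_smul' := by
        intro c z
        funext h
        simp [MonoidAlgebra.coeff_smul] }, fun z h => rfl⟩
  have hyR : y' ∈ LinearMap.range Φ := by
    apply hyS
    · intro f hf v hv
      obtain ⟨z, rfl⟩ := LinearMap.mem_range.mp hf
      refine LinearMap.mem_range.mpr ⟨z * MonoidAlgebra.single v⁻¹ 1, ?_⟩
      funext h
      rw [hΦ, rtr_apply, hΦ, ← mul_assoc, MonoidAlgebra.coeff_mul_single_apply, inv_inv, mul_one]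
    · refine LinearMap.mem_range.mpr ⟨1, ?_⟩
      funext h
      rw [hΦ, mul_one, hw]
  obtain ⟨z, hz⟩ := LinearMap.mem_range.mp hyR
  have hyc : ∀ h, (x ^ k * z).coeff h = y' h := by
    intro h
    rw [← hz, hΦ]
  have hfixv : ∀ v ∈ Q, ∀ t, y' (t * v) = y' t := fun v hv t => congrFun (hyfix v hv) t
  have hyx : (x ^ k * z) * x = 0 := by
    apply MonoidAlgebra.ext
    apply Finsupp.ext
    intro h
    rw [hzx, MonoidAlgebra.coeff_zero, Finsupp.zero_apply]
    simp only [hyc]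
    have key := @orbit_sum_smul p hp Q _ _ hQp G _
      { smul := fun q c => (q : G) * c * (q : G)⁻¹
        one_smul := by
          intro c
          show ((1 : Q) : G) * c * ((1 : Q) : G)⁻¹ = c
          simp
        mul_smul := by
          intro s t c
          show ((s * t : Q) : G) * c * ((s * t : Q) : G)⁻¹ =
            (s : G) * ((t : G) * c * (t : G)⁻¹) * (s : G)⁻¹
          simp only [Subgroup.coe_mul]
          group }
      F _ ⊤ (fun c => if c ∈ K then y' (h * c⁻¹) else 0) (fun _ => trivial) (by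
        intro q c
        show (if (q : G) * c * (q : G)⁻¹ ∈ K then y' (h * ((q : G) * c * (q : G)⁻¹)⁻¹) else 0) =
          if c ∈ K then y' (h * c⁻¹) else 0
        have e1 : h * ((q : G) * c * (q : G)⁻¹)⁻¹ =
            h * c⁻¹ * (c * (q : G) * c⁻¹) * (q : G)⁻¹ := by group
        by_cases hc : c ∈ K
        · rw [if_pos hc, if_pos ((hKconj q c).mpr hc), e1, hfixv _ (Q.inv_mem q.2),
            hfixv _ (hQn.conj_mem q q.2 c)]
        · rw [if_neg hc, if_neg (fun h' => hc ((hKconj q c).mp h'))]) (by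
        intro c hc
        show (if c ∈ K then y' (h * c⁻¹) else 0) = 0
        rw [if_neg]
        intro hcK
        apply hg c ((hKmem c).mp hcK).symm
        rw [Subgroup.mem_centralizer_iff]
        intro q hq
        have h1 : q * c * q⁻¹ = c := hc ⟨q, by
          rw [hQ]
          exact hq⟩
        exact mul_inv_eq_iff_eq_mul.mp h1)
    obtain ⟨T, _, hT⟩ := key
    rw [hT, nsmul_eq_mul, CharP.cast_eq_zero, zero_mul]
  have h2 : x ^ (k + 1) * z = 0 := by
    rw [pow_succ, mul_assoc, hcomm z, ← mul_assoc]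
    exact hyx
  have h3 : z ∈ LinearMap.ker ((LinearMap.mulLeft F x) ^ k.succ) := by
    rw [LinearMap.mem_ker, hLpow]
    exact h2
  rw [← hk, LinearMap.mem_ker, hLpow] at h3
  apply hy0
  funext h
  rw [← hyc h, h3, MonoidAlgebra.coeff_zero, Finsupp.zero_apply]
  rfl

end Cfsg.Agent.S0905
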