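import Mathlib
import Cfsg.Statements.S0906
import Cfsg.Agent.Lib.Helper3.BlkLocal
import Cfsg.Agent.Lib.Helper3.BlkOrth2

set_option autoImplicit false
open Cfsg
open Cfsg.Agent.Lib.Helper3.BlkLocal Cfsg.Agent.Lib.Helper3.BlkOrth2

namespace Cfsg.Agent.S0906

theorem result {G : Type*} [Group G] [Finite G] (p : ℕ) [Fact p.Prime] (M : Ideal Cfsg.AlgInt) (hM : Cfsg.IsPModular p M) (B : Set (Cfsg.IrrCharacter G)) (hB : Cfsg.IsPBlock M B) : ∃ g : G, Cfsg.IsDefectClass M B g := by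
  classical
  have _fg : Fintype G := Fintype.ofFinite G
  exact defect_class hM.2.1.isPrime B hB

end Cfsg.Agent.S0906
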