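import Mathlib
import Cfsg.Statements.S0907
import Cfsg.Agent.Lib.Helper3.BlkLocal
import Cfsg.Agent.Lib.Helper3.BlkOsima
import Cfsg.Agent.Lib.Helper3.BlkOrth3

set_option autoImplicit false
open scoped ComplexConjugate
open Cfsg
open Cfsg.Agent.Lib.Helper3.BlkLocal Cfsg.Agent.Lib.Helper3.BlkOsima Cfsg.Agent.Lib.Helper3.BlkOrth3
open scoped ComplexConjugate

namespace Cfsg.Agent.S0907

theorem result {G : Type*} [Group G] [Finite G] (p : ℕ) [Fact p.Prime] (M : Ideal Cfsg.AlgInt) (hM : Cfsg.IsPModular p M) (B : Set (Cfsg.IrrCharacter G)) (hB : Cfsg.IsPBlock M B) (x y : G) (hx : ¬ p ∣ orderOf x) (hy : p ∣ orderOf y) : ∑ᶠ χ ∈ B, (χ : G → ℂ) x * conj ((χ : G → ℂ) y) = 0 := by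
  classical
  have _fg : Fintype G := Fintype.ofFinite G
  have _fi : Fintype (Cfsg.IrrCharacter G) := Fintype.ofFinite _
  rw [finsum_mem_ite]
  exact weak_orth hM B hB x y hx hy

end Cfsg.Agent.S0907
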