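import Mathlib
import Cfsg.Statements.S0910
import Cfsg.Agent.Lib.Helper3.Char
import Cfsg.Agent.Lib.Helper3.CharCore
import Cfsg.Agent.Lib.Helper3.CharInt
import Cfsg.Agent.Lib.Helper3.CharGal
import Cfsg.Agent.Lib.Helper3.CharEig
import Cfsg.Agent.Lib.Helper3.CharArith
import Cfsg.Agent.Lib.Helper3.CharLinear
import Cfsg.Agent.Lib.Helper3.BlkLocal
import Cfsg.Agent.S0143

set_option autoImplicit false
open Cfsg
open Cfsg.Agent.Lib.Helper3.Char Cfsg.Agent.Lib.Helper3.CharCore Cfsg.Agent.Lib.Helper3.CharInt Cfsg.Agent.Lib.Helper3.CharGal Cfsg.Agent.Lib.Helper3.CharEig Cfsg.Agent.Lib.Helper3.CharArith Cfsg.Agent.Lib.Helper3.CharLinear Cfsg.Agent.Lib.Helper3.BlkLocal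

namespace Cfsg.Agent.S0910

theorem result {G : Type*} [Group G] [Finite G] (p : ℕ) [Fact p.Prime] (M : Ideal Cfsg.AlgInt) (hM : Cfsg.IsPModular p M) [IsSimpleGroup G] (hna : ∃ a b : G, a * b ≠ b * a) (χ : Cfsg.IrrCharacter G) (hχ : χ ∈ Cfsg.principalBlock M G) (k : ℕ) (hdeg : (χ : G → ℂ) 1 = (p : ℂ) ^ k) : (χ : G → ℂ) = fun _ => 1 := by
  classical
  have _fg : Fintype G := Fintype.ofFinite G
  have hMp := hM.2.1.isPrime
  have hp := hM.1
  obtain ⟨d, ρ, hirr, hρ⟩ := χ.2
  have hirr' : ρ.IsIrreducible := hirr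
  have hd : (χ : G → ℂ) 1 = (d : ℂ) := by
    rw [← hρ, Representation.char_one, Module.finrank_fin_fun]
  have hdk : d = p ^ k := by
    have h1 : (d : ℂ) = ((p ^ k : ℕ) : ℂ) := by rw [← hd, hdeg]; push_cast; rfl
    exact_mod_cast h1
  by_contra hne
  have hne' : ρ.character ≠ fun _ => 1 := by rw [hρ]; exact hne
  have hcomm : ¬ ∀ a b : G, a * b = b * a := by
    obtain ⟨a, b, hab⟩ := hna
    intro h; exact hab (h a b)
  have hk : k ≠ 0 := by
    intro hk0
    have h1 : (χ : G → ℂ) 1 = 1 := by rw [hdeg, hk0, pow_zero]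
    obtain ⟨lam, hlam⟩ := hom_of_deg_one (isCharacter_of_irr χ.2) h1
    have hK : (MonoidHom.ker lam).Normal := MonoidHom.normal_ker lam
    rcases hK.eq_bot_or_eq_top with h | h
    · have hinj := (MonoidHom.ker_eq_bot_iff lam).mp h
      apply hcomm
      intro a b
      apply hinj
      rw [map_mul, map_mul, mul_comm]
    · apply hne
      rw [hlam]
      funext g
      have hg : g ∈ MonoidHom.ker lam := by rw [h]; exact Subgroup.mem_top g
      rw [MonoidHom.mem_ker.mp hg]
      rfl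
  have hpd : p ∣ d := by rw [hdk]; exact dvd_pow_self p hk
  have hdG : d ∣ Nat.card G := by
    have := Cfsg.Agent.Lib.Helper3.CharInt.degree_dvd_card ρ
    rwa [Module.finrank_fin_fun] at this
  have hpG : p ∣ Nat.card G := hpd.trans hdG
  have _fp : Fact p.Prime := ⟨hp⟩
  obtain ⟨P⟩ := (inferInstance : Nonempty (Sylow p G))
  have hPnt : Nontrivial (P : Subgroup G) := by
    have h1 : Nat.card (P : Subgroup G) = p ^ (Nat.card G).factorization p := P.card_eq_multiplicity
    have h2 : 0 < (Nat.card G).factorization p :=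
      hp.factorization_pos_of_dvd Nat.card_pos.ne' hpG
    have h3 : 1 < Nat.card (P : Subgroup G) := by
      rw [h1]
      exact Nat.one_lt_pow h2.ne' hp.one_lt
    exact (Finite.one_lt_card_iff_nontrivial).mp h3
  have hcnt : Nontrivial (Subgroup.center (P : Subgroup G)) := P.isPGroup'.center_nontrivial
  obtain ⟨⟨z0, hz0⟩, hz0ne⟩ := exists_ne (1 : Subgroup.center (P : Subgroup G))
  set z : G := (z0 : G) with hz
  have hz1 : z ≠ 1 := by
    intro h
    apply hz0ne
    apply Subtype.ext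
    apply Subtype.ext
    exact h
  have hPle : (P : Subgroup G) ≤ Subgroup.centralizer ({z} : Set G) := by
    intro x hx
    rw [Subgroup.mem_centralizer_iff]
    intro y hy
    rw [Set.mem_singleton_iff] at hy
    subst hy
    have h1 := Subgroup.mem_center_iff.mp hz0 ⟨x, hx⟩
    have h2 := congrArg (Subtype.val) h1
    exact h2.symm
  have hidx : ¬ p ∣ (Subgroup.centralizer ({z} : Set G)).index := by
    intro h
    exact P.not_dvd_index (h.trans (Subgroup.index_dvd_of_le hPle))
  have hcop : Nat.Coprime (Module.finrank ℂ (Fin d → ℂ))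
      (Subgroup.centralizer ({z} : Set G)).index := by
    rw [Module.finrank_fin_fun, hdk]
    exact Nat.Coprime.pow_left k ((Nat.Prime.coprime_iff_not_dvd hp).mpr hidx)
  have hχz : (χ : G → ℂ) z = 0 := by
    rcases zero_or_norm_eq ρ z hcop with h0 | h0
    · rw [← hρ, h0]
    · exfalso
      exact Cfsg.Agent.S0143.not_scalar_of_simple ρ hirr hne' hcomm z hz1 (scalar_of_norm_eq ρ z h0)
  have h1 := hχ z
  unfold Cfsg.centralChar at h1
  rw [hχz, mul_zero, zero_div, sub_zero, mul_one, div_one] at h1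
  exact hidx ((li_nat_iff hM _).mp h1)

end Cfsg.Agent.S0910
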