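import Mathlib
import Cfsg.Statements.S0914
import Cfsg.Agent.Lib.Helper3.BlkLocal
import Cfsg.Agent.Lib.Helper3.BlkOsima
import Cfsg.Agent.Lib.Helper3.BlkOrth4

set_option autoImplicit false
open Cfsg
open Cfsg.Agent.Lib.Helper3.BlkLocal Cfsg.Agent.Lib.Helper3.BlkOsima Cfsg.Agent.Lib.Helper3.BlkOrth4

namespace Cfsg.Agent.S0914

theorem result {G : Type*} [Group G] [Finite G] (p : ℕ) [Fact p.Prime] (M : Ideal Cfsg.AlgInt) (hM : Cfsg.IsPModular p M) (χ : Cfsg.IrrCharacter G) : ¬ p ∣ Nat.card G / Cfsg.charDegree (χ : G → ℂ) ↔ Cfsg.blockOf M (χ : G → ℂ) = {χ} := by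
  classical
  have _fg : Fintype G := Fintype.ofFinite G
  constructor
  · intro h
    exact singleton_of_not_dvd hM χ h
  · intro h
    exact not_dvd_of_singleton hM χ h

end Cfsg.Agent.S0914
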