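import Mathlib
import Cfsg.Statements.S0915
import Cfsg.Agent.Lib.Helper3.Char
import Cfsg.Agent.Lib.Helper3.CharCore
import Cfsg.Agent.Lib.Helper3.CharArith
import Cfsg.Agent.Lib.Helper3.Core
import Cfsg.Agent.Lib.Helper3.BlkLocal
import Cfsg.Agent.Lib.Helper3.BlkOsima
import Cfsg.Agent.Lib.Helper3.BlkCore
import Cfsg.Agent.Lib.Helper3.BlkPrin2
import Cfsg.Agent.Lib.Helper3.GrpHH

set_option autoImplicit false
open Cfsg
open Cfsg.Agent.Lib.Helper3.Char Cfsg.Agent.Lib.Helper3.CharCore Cfsg.Agent.Lib.Helper3.CharArith Cfsg.Agent.Lib.Helper3.Core Cfsg.Agent.Lib.Helper3.BlkLocal Cfsg.Agent.Lib.Helper3.BlkOsima Cfsg.Agent.Lib.Helper3.BlkCore Cfsg.Agent.Lib.Helper3.BlkPrin2 Cfsg.Agent.Lib.Helper3.GrpHH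
open scoped ComplexConjugate

namespace Cfsg.Agent.S0915

theorem result {G : Type*} [Group G] [Finite G] (p : ℕ) [Fact p.Prime] (M : Ideal Cfsg.AlgInt) (hM : Cfsg.IsPModular p M) (hsolv : Cfsg.IsPSolvable p G) (hcore : Cfsg.pPrimeCore p G = ⊥) (χ ψ : Cfsg.IrrCharacter G) : Cfsg.SameBlock M (χ : G → ℂ) (ψ : G → ℂ) := by
  classical
  have _fg : Fintype G := Fintype.ofFinite G
  have hMp := hM.2.1.isPrime
  have hQn : (Cfsg.pCore p G).Normal := pCore_normal (G := G) p
  have hQp : IsPGroup p (Cfsg.pCore p G) := pCore_isPGroup (G := G) p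
  have hCQ := cent_core_le p hsolv hcore
  obtain ⟨oneG, hoG⟩ : ∃ o : Cfsg.IrrCharacter G, (o : G → ℂ) = fun _ => 1 :=
    ⟨⟨_, isIrr_one G⟩, rfl⟩
  have hone : ∀ u ∈ Cfsg.pCore p G, (oneG : G → ℂ) u = (oneG : G → ℂ) 1 := by
    intro u _
    rw [hoG]
  have key : ∀ χ : Cfsg.IrrCharacter G, Cfsg.SameBlock M (χ : G → ℂ) (oneG : G → ℂ) := by
    intro χ
    obtain ⟨χ', hχ', hker⟩ := exists_ker hM (Cfsg.pCore p G) hQp
      (Cfsg.blockOf M (χ : G → ℂ)) ⟨χ, rfl⟩
    have h1 : Cfsg.SameBlock M (χ' : G → ℂ) (oneG : G → ℂ) := by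
      apply sb_of_preg hM
      intro g hg
      by_cases hg1 : g = 1
      · have h2 : Cfsg.centralChar (χ' : G → ℂ) g - Cfsg.centralChar (oneG : G → ℂ) g = 0 := by
          unfold Cfsg.centralChar
          rw [hg1, mul_div_assoc, mul_div_assoc, div_self (irr_one_ne_zero χ'.2),
            div_self (irr_one_ne_zero oneG.2), sub_self]
        rw [h2]
        exact li_zero hMp
      · have hex : ∃ u ∈ Cfsg.pCore p G, u * g ≠ g * u := by
          by_contra hno
          push Not at hno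
          have hgC : g ∈ Subgroup.centralizer ((Cfsg.pCore p G : Subgroup G) : Set G) := by
            rw [Subgroup.mem_centralizer_iff]
            intro u hu
            exact hno u hu
          have hgQ := hCQ hgC
          obtain ⟨k, hk⟩ := hQp ⟨g, hgQ⟩
          have hk' : g ^ (p ^ k) = 1 := by
            have h3 := congrArg (fun t : Cfsg.pCore p G => (t : G)) hk
            simpa using h3
          obtain ⟨j, _, hj⟩ := (Nat.dvd_prime_pow (Fact.out : p.Prime)).mp
            (orderOf_dvd_of_pow_eq_one hk')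
          rcases Nat.eq_zero_or_pos j with h0 | hpos
          · rw [h0, pow_zero] at hj
            exact hg1 (orderOf_eq_one_iff.mp hj)
          · apply hg
            rw [hj]
            exact dvd_pow_self p hpos.ne'
        exact li_sub hMp (central_li_of_ker hM (Cfsg.pCore p G) hQp χ' hker g hex)
          (central_li_of_ker hM (Cfsg.pCore p G) hQp oneG hone g hex)
    exact sb_trans hMp hχ' h1
  exact sb_trans hMp (key χ) (sb_symm (key ψ))

end Cfsg.Agent.S0915
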