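import Mathlib
import Cfsg.Statements.S0918
import Cfsg.Agent.Lib.Helper3.BlkLocal
import Cfsg.Agent.Lib.Helper3.BlkBrauer

set_option autoImplicit false
open Cfsg
open Cfsg.Agent.Lib.Helper3.BlkLocal Cfsg.Agent.Lib.Helper3.BlkBrauer

namespace Cfsg.Agent.S0918

theorem result {G : Type*} [Group G] [Finite G] (p : ℕ) [Fact p.Prime] (M : Ideal Cfsg.AlgInt) (hM : Cfsg.IsPModular p M) (P H : Subgroup G) (hP : IsPGroup p P) (hPH : P ≤ H) (hCH : Subgroup.centralizer (P : Set G) ≤ H) (hHN : H ≤ Subgroup.normalizer (P : Set G)) (b : Set (Cfsg.IrrCharacter H)) (hb : Cfsg.IsPBlock M b) (B : Set (Cfsg.IrrCharacter G)) (hB : Cfsg.IsPBlock M B) : Cfsg.IsInducedBlock M H b B ↔ ∀ ξ ∈ b, ∀ χ ∈ B, ∀ g : G, Cfsg.MemLocalIdeal M (Cfsg.brauerCentralChar P H (ξ : H → ℂ) g - Cfsg.centralChar (χ : G → ℂ) g) := by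
  classical
  have _fg : Fintype G := Fintype.ofFinite G
  have hMp := hM.2.1.isPrime
  constructor
  · rintro ⟨_, _, hcong⟩ ξ hξ χ hχ g
    have h1 := brauer_diff hM P H hP hPH hHN ξ g
    have h2 := li_sub hMp (hcong ξ hξ χ hχ g) h1
    rw [sub_sub_sub_cancel_left] at h2
    exact h2
  · intro h
    refine ⟨hb, hB, ?_⟩
    intro ξ hξ χ hχ g
    have h1 := brauer_diff hM P H hP hPH hHN ξ g
    have h2 := li_add hMp h1 (h ξ hξ χ hχ g)
    rw [sub_add_sub_cancel] at h2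
    exact h2

end Cfsg.Agent.S0918
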