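import Mathlib
import Cfsg.Statements.S0920
import Cfsg.Agent.Lib.Helper3.Char
import Cfsg.Agent.Lib.Helper3.CharCore
import Cfsg.Agent.Lib.Helper3.CharInt
import Cfsg.Agent.Lib.Helper3.Core
import Cfsg.Agent.Lib.Helper3.BlkLocal
import Cfsg.Agent.Lib.Helper3.BlkOsima
import Cfsg.Agent.Lib.Helper3.BlkOrth
import Cfsg.Agent.Lib.Helper3.BlkOrth2
import Cfsg.Agent.Lib.Helper3.BlkBrauer
import Cfsg.Agent.Lib.Helper3.BlkFirst
import Cfsg.Agent.Lib.Helper3.BlkFirst2
import Cfsg.Agent.Lib.Helper3.BlkFirst3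
import Cfsg.Agent.Lib.Helper3.GrpSyl
import Cfsg.Agent.S0908
import Cfsg.Agent.S0911
import Cfsg.Agent.S0917
import Cfsg.Agent.S0919
import Cfsg.Agent.S0923

set_option autoImplicit false
open Cfsg
open Cfsg.Agent.Lib.Helper3.Char Cfsg.Agent.Lib.Helper3.CharCore Cfsg.Agent.Lib.Helper3.CharInt Cfsg.Agent.Lib.Helper3.Core Cfsg.Agent.Lib.Helper3.BlkLocal Cfsg.Agent.Lib.Helper3.BlkOsima Cfsg.Agent.Lib.Helper3.BlkOrth Cfsg.Agent.Lib.Helper3.BlkOrth2 Cfsg.Agent.Lib.Helper3.BlkBrauer Cfsg.Agent.Lib.Helper3.BlkFirst Cfsg.Agent.Lib.Helper3.BlkFirst2 Cfsg.Agent.Lib.Helper3.BlkFirst3 Cfsg.Agent.Lib.Helper3.GrpSyl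

namespace Cfsg.Agent.S0920

theorem result {G : Type*} [Group G] [Finite G] (p : ℕ) [Fact p.Prime] (M : Ideal Cfsg.AlgInt) (hM : Cfsg.IsPModular p M) (D : Subgroup G) (hD : IsPGroup p D) : (∀ b : Set (Cfsg.IrrCharacter (Subgroup.normalizer (D : Set G))), Cfsg.IsPBlock M b → Cfsg.IsDefectGroup p M b (D.subgroupOf (Subgroup.normalizer (D : Set G))) → ∃ B : Set (Cfsg.IrrCharacter G), Cfsg.IsPBlock M B ∧ Cfsg.IsDefectGroup p M B D ∧ Cfsg.IsInducedBlock M (Subgroup.normalizer (D : Set G)) b B) ∧ (∀ B : Set (Cfsg.IrrCharacter G), Cfsg.IsPBlock M B → Cfsg.IsDefectGroup p M B D → ∃! b : Set (Cfsg.IrrCharacter (Subgroup.normalizer (D : Set G))), Cfsg.IsPBlock M b ∧ Cfsg.IsDefectGroup p M b (D.subgroupOf (Subgroup.normalizer (D : Set G))) ∧ Cfsg.IsInducedBlock M (Subgroup.normalizer (D : Set G)) b B) := by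
  classical
  have _fg : Fintype G := Fintype.ofFinite G
  have _fn : Fintype ↥(Subgroup.normalizer (D : Set G)) := Fintype.ofFinite _
  have _fcn : Fintype (ConjClasses ↥(Subgroup.normalizer (D : Set G))) := Fintype.ofFinite _
  have hMp := hM.2.1.isPrime
  have hp : Fact p.Prime := inferInstance
  have hDN : D ≤ Subgroup.normalizer (D : Set G) := Subgroup.le_normalizer
  have hCN : Subgroup.centralizer (D : Set G) ≤ Subgroup.normalizer (D : Set G) :=
    Subgroup.centralizer_le_normalizer _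
  have hchain : ∀ (b : Set (Cfsg.IrrCharacter ↥(Subgroup.normalizer (D : Set G)))) (B : Set (Cfsg.IrrCharacter G)),
      Cfsg.IsInducedBlock M (Subgroup.normalizer (D : Set G)) b B → ∀ ξ ∈ b, ∀ χ ∈ B,
      ∀ (z : ↥(Subgroup.normalizer (D : Set G))) (T : Sylow p (Subgroup.centralizer ({z} : Set ↥(Subgroup.normalizer (D : Set G))))),
      (T : Subgroup (Subgroup.centralizer ({z} : Set ↥(Subgroup.normalizer (D : Set G))))).map
        (Subgroup.centralizer ({z} : Set ↥(Subgroup.normalizer (D : Set G)))).subtype =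
        D.subgroupOf (Subgroup.normalizer (D : Set G)) →
      MemLocalIdeal M (Cfsg.centralChar (ξ : ↥(Subgroup.normalizer (D : Set G)) → ℂ) z - Cfsg.centralChar (χ : G → ℂ) (z : G)) := by
    intro b B hind ξ hξ χ hχ z T hT
    have h1 := brauer_eq_cc D z T hT (ξ : ↥(Subgroup.normalizer (D : Set G)) → ℂ) (char_classFun (isCharacter_of_irr ξ.2))
    have h2 := brauer_diff hM D (Subgroup.normalizer (D : Set G)) hD hDN le_rfl ξ (z : G)
    have h3 := hind.2.2 ξ hξ χ hχ (z : G)
    rw [h1] at h2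
    have h4 := li_sub hMp h3 h2
    rw [sub_sub_sub_cancel_left] at h4
    exact h4
  have hne : ∀ {Γ : Type _} [Group Γ] (b : Set (Cfsg.IrrCharacter Γ)), Cfsg.IsPBlock M b →
      ∃ ξ : Cfsg.IrrCharacter Γ, ξ ∈ b := by
    intro Γ _ b hb
    obtain ⟨ξ0, h0⟩ := hb
    exact ⟨ξ0, by rw [h0]; exact sb_refl hMp _⟩
  constructor
  · intro b hb hDb
    obtain ⟨B, hind⟩ := Cfsg.Agent.S0919.result p M hM D (Subgroup.normalizer (D : Set G)) hD hDN
      hCN le_rfl b hb
    have hB := hind.2.1
    refine ⟨B, hB, ?_, hind⟩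
    obtain ⟨E, hE, hle⟩ := Cfsg.Agent.S0917.result p M hM (Subgroup.normalizer (D : Set G)) b hb
      B hB hind _ hDb
    have hDE : D ≤ E := by
      intro d hd
      exact hle ⟨⟨d, hDN hd⟩, Subgroup.mem_subgroupOf.mpr hd, rfl⟩
    obtain ⟨z, hz, T, hT⟩ := id hDb
    obtain ⟨ξ, hξ⟩ := hne b hb
    obtain ⟨χ, hχ⟩ := hne B hB
    have h1 := hchain b B hind ξ hξ χ hχ z T hT.symm
    have h5 : ¬ MemLocalIdeal M (Cfsg.centralChar (χ : G → ℂ) (z : G)) := by
      intro h
      apply hz.2.2 ξ hξ
      have h6 := li_add hMp h1 h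
      rw [sub_add_cancel] at h6
      exact h6
    obtain ⟨y, hy, SE, hSE⟩ := id hE
    obtain ⟨x, Q, hxQ⟩ := (Cfsg.Agent.S0911.result p M hM B hB y hy SE (z : G)).2 ⟨χ, hχ, h5⟩
    obtain ⟨_, S', hS'⟩ := sylow_cent D z T hT.symm
    have hcard : Nat.card E ≤ Nat.card D := by
      rw [hSE]
      calc Nat.card ((SE : Subgroup (Subgroup.centralizer ({y} : Set G))).map
            (Subgroup.centralizer ({y} : Set G)).subtype)
          = Nat.card (((SE : Subgroup (Subgroup.centralizer ({y} : Set G))).map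
            (Subgroup.centralizer ({y} : Set G)).subtype).map (MulAut.conj x).toMonoidHom) :=
            (Subgroup.card_map_of_injective (MulAut.conj x).injective).symm
        _ ≤ Nat.card ((Q : Subgroup (Subgroup.centralizer ({(z : G)} : Set G))).map
            (Subgroup.centralizer ({(z : G)} : Set G)).subtype) := Subgroup.card_le_of_le hxQ
        _ = Nat.card Q := Subgroup.card_map_of_injective (Subgroup.subtype_injective _)
        _ = Nat.card S' := by rw [Q.card_eq_multiplicity, S'.card_eq_multiplicity]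
        _ = Nat.card ((S' : Subgroup (Subgroup.centralizer ({(z : G)} : Set G))).map
            (Subgroup.centralizer ({(z : G)} : Set G)).subtype) :=
            (Subgroup.card_map_of_injective (Subgroup.subtype_injective _)).symm
        _ = Nat.card D := by rw [hS']
    have hED := Subgroup.eq_of_le_of_card_ge hDE hcard
    exact hED ▸ hE
  · intro B hB hDB
    obtain ⟨b, hbind, hbD⟩ := first_main_exists hM B hB D hDB
    have hb := hbind.1
    have hdefb : Cfsg.IsDefectGroup p M b (D.subgroupOf (Subgroup.normalizer (D : Set G))) := by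
      obtain ⟨zc, hzc⟩ := defect_class hMp b hb
      obtain ⟨T⟩ : Nonempty (Sylow p (Subgroup.centralizer ({zc} : Set ↥(Subgroup.normalizer (D : Set G))))) := inferInstance
      have hDb : Cfsg.IsDefectGroup p M b ((T : Subgroup _).map
          (Subgroup.centralizer ({zc} : Set ↥(Subgroup.normalizer (D : Set G)))).subtype) := ⟨zc, hzc, T, rfl⟩
      have h1 := hbD _ hDb
      have h2 : D.subgroupOf (Subgroup.normalizer (D : Set G)) = (T : Subgroup _).map
          (Subgroup.centralizer ({zc} : Set ↥(Subgroup.normalizer (D : Set G)))).subtype := by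
        ext n
        rw [Subgroup.mem_subgroupOf]
        constructor
        · intro hn
          have h3 := (SetLike.ext_iff.mp h1 (n : G)).mpr hn
          obtain ⟨m, hm, hmn⟩ := h3
          have h4 : m = n := Subtype.ext hmn
          rw [← h4]
          exact hm
        · intro hn
          exact (SetLike.ext_iff.mp h1 (n : G)).mp ⟨n, hn, rfl⟩
      rw [h2]
      exact hDb
    refine ⟨b, ⟨hb, hdefb, hbind⟩, ?_⟩
    rintro b₂ ⟨hb₂, hdefb₂, hind₂⟩
    obtain ⟨ξ₁, hξ₁⟩ := hne b hb
    obtain ⟨ξ₂, hξ₂⟩ := hne b₂ hb₂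
    obtain ⟨χ, hχ⟩ := hne B hB
    have hmem : ξ₂ ∈ b := by
      by_contra hnot
      have e1 := om_classes (Cfsg.blockCoeff b) (blockCoeff_classFun b) (ξ₁ : ↥(Subgroup.normalizer (D : Set G)) → ℂ)
        (char_classFun (isCharacter_of_irr ξ₁.2))
      have e2 := om_classes (Cfsg.blockCoeff b) (blockCoeff_classFun b) (ξ₂ : ↥(Subgroup.normalizer (D : Set G)) → ℂ)
        (char_classFun (isCharacter_of_irr ξ₂.2))
      rw [blockCoeff_om, if_pos hξ₁, div_self (irr_one_ne_zero ξ₁.2)] at e1
      rw [blockCoeff_om, if_neg hnot, zero_div] at e2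
      have e3 : (1 : ℂ) = ∑ C : ConjClasses ↥(Subgroup.normalizer (D : Set G)),
          Cfsg.blockCoeff b (Quotient.out C) *
            (Cfsg.centralChar (ξ₁ : ↥(Subgroup.normalizer (D : Set G)) → ℂ) (Quotient.out C) -
              Cfsg.centralChar (ξ₂ : ↥(Subgroup.normalizer (D : Set G)) → ℂ) (Quotient.out C)) := by
        have e4 : (1 : ℂ) = 1 - 0 := by ring
        rw [e4]
        nth_rewrite 1 [e1]
        nth_rewrite 1 [e2]
        rw [← Finset.sum_sub_distrib]
        refine Finset.sum_congr rfl (fun C _ => ?_)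
        ring
      apply not_li_one hMp
      rw [e3]
      apply li_sum hMp
      intro C _
      by_cases ha : MemLocalIdeal M (Cfsg.blockCoeff b (Quotient.out C))
      · apply li_mul_right hMp ha
        exact lr_sub hMp (lr_of_isIntegral hMp (cc_integral _ ξ₁.2 _))
          (lr_of_isIntegral hMp (cc_integral _ ξ₂.2 _))
      · apply li_mul_left hMp (osima_fun hMp b hb _)
        by_cases hzc : ((Quotient.out C : ↥(Subgroup.normalizer (D : Set G))) : G) ∈ Subgroup.centralizer (D : Set G)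
        · have hcomm : ∀ q ∈ D.subgroupOf (Subgroup.normalizer (D : Set G)),
              q * Quotient.out C = Quotient.out C * q := by
            intro q hq
            apply Subtype.ext
            exact Subgroup.mem_centralizer_iff.mp hzc (q : G) (Subgroup.mem_subgroupOf.mp hq)
          obtain ⟨T', hT'⟩ := sylow_of_coeff hM b hb _ hdefb (Quotient.out C) ha hcomm
          have h1 := hchain b B hbind ξ₁ hξ₁ χ hχ _ T' hT'
          have h2 := hchain b₂ B hind₂ ξ₂ hξ₂ χ hχ _ T' hT'
          have h3 := li_sub hMp h1 h2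
          rw [sub_sub_sub_cancel_right] at h3
          exact h3
        · have hex : ∃ u ∈ D.subgroupOf (Subgroup.normalizer (D : Set G)),
              u * Quotient.out C ≠ Quotient.out C * u := by
            rw [Subgroup.mem_centralizer_iff] at hzc
            push Not at hzc
            obtain ⟨d, hd, hne'⟩ := hzc
            refine ⟨⟨d, hDN hd⟩, Subgroup.mem_subgroupOf.mpr hd, ?_⟩
            intro h
            apply hne'
            exact congrArg (fun k : ↥(Subgroup.normalizer (D : Set G)) => (k : G)) h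
          have hQn : (D.subgroupOf (Subgroup.normalizer (D : Set G))).Normal :=
            Subgroup.normal_in_normalizer
          have h1 := cc_li_of_not_cent hM (D.subgroupOf (Subgroup.normalizer (D : Set G)))
            hD.comap_subtype b hb ξ₁ hξ₁ _ hex
          have h2 := cc_li_of_not_cent hM (D.subgroupOf (Subgroup.normalizer (D : Set G)))
            hD.comap_subtype b₂ hb₂ ξ₂ hξ₂ _ hex
          exact li_sub hMp h1 h2
    exact Cfsg.Agent.S0923.block_eq_of_mem hMp b₂ b hb₂ hb ξ₂ hξ₂ hmem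

end Cfsg.Agent.S0920
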