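import Mathlib
import Cfsg.Statements.S0921
import Cfsg.Agent.Lib.Helper3.Core
import Cfsg.Agent.Lib.Helper3.BlkLocal
import Cfsg.Agent.Lib.Helper3.BlkOsima
import Cfsg.Agent.Lib.Helper3.BlkCover

set_option autoImplicit false
open Cfsg
open Cfsg.Agent.Lib.Helper3.Core Cfsg.Agent.Lib.Helper3.BlkLocal Cfsg.Agent.Lib.Helper3.BlkOsima Cfsg.Agent.Lib.Helper3.BlkCover

namespace Cfsg.Agent.S0921

theorem result {G : Type*} [Group G] [Finite G] (p : ℕ) [Fact p.Prime] (M : Ideal Cfsg.AlgInt) (hM : Cfsg.IsPModular p M) [Fintype G] (χ ψ : Cfsg.IrrCharacter G) (h : Cfsg.SameBlock M (χ : G → ℂ) (ψ : G → ℂ)) (θ : Cfsg.IrrCharacter (Cfsg.pPrimeCore p G)) [Fintype (Cfsg.pPrimeCore p G)] : Cfsg.classInner (fun n : Cfsg.pPrimeCore p G => (χ : G → ℂ) n) (θ : Cfsg.pPrimeCore p G → ℂ) ≠ 0 ↔ Cfsg.classInner (fun n : Cfsg.pPrimeCore p G => (ψ : G → ℂ) n) (θ : Cfsg.pPrimeCore p G → ℂ) ≠ 0 := by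
  have _hN : (Cfsg.pPrimeCore p G).Normal := pPrimeCore_normal p
  have hp := (Fact.out : p.Prime)
  have hcop := pPrimeCore_cop (G := G) p
  have hNp : ¬ p ∣ Nat.card (Cfsg.pPrimeCore p G) := by
    intro hd
    exact hp.one_lt.ne' (Nat.Coprime.eq_one_of_dvd hcop.symm hd)
  constructor
  · exact cover_block hM _ hNp θ θ.2 χ ψ h
  · exact cover_block hM _ hNp θ θ.2 ψ χ (sb_symm h)

end Cfsg.Agent.S0921
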