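import Mathlib
import Cfsg.Statements.S0924
import Cfsg.Agent.Lib.Helper3.Char
import Cfsg.Agent.Lib.Helper3.CharCore
import Cfsg.Agent.Lib.Helper3.BlkLocal
import Cfsg.Agent.Lib.Helper3.BlkOsima
import Cfsg.Agent.Lib.Helper3.BlkOrth
import Cfsg.Agent.Lib.Helper3.BlkOrth2
import Cfsg.Agent.Lib.Helper3.BlkMinMax
import Cfsg.Agent.Lib.Helper3.BlkMinMax2
import Cfsg.Agent.Lib.Helper3.BlkRel
import Cfsg.Agent.Lib.Helper3.BlkSecond
import Cfsg.Agent.Lib.Helper3.BlkSecond2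
import Cfsg.Agent.S0911

set_option autoImplicit false
open Cfsg
open Cfsg.Agent.Lib.Helper3.Char Cfsg.Agent.Lib.Helper3.CharCore Cfsg.Agent.Lib.Helper3.BlkLocal Cfsg.Agent.Lib.Helper3.BlkOsima Cfsg.Agent.Lib.Helper3.BlkOrth Cfsg.Agent.Lib.Helper3.BlkOrth2 Cfsg.Agent.Lib.Helper3.BlkMinMax Cfsg.Agent.Lib.Helper3.BlkMinMax2 Cfsg.Agent.Lib.Helper3.BlkRel Cfsg.Agent.Lib.Helper3.BlkSecond Cfsg.Agent.Lib.Helper3.BlkSecond2

namespace Cfsg.Agent.S0924

theorem result {G : Type*} [Group G] [Finite G] (p : ℕ) [Fact p.Prime] (M : Ideal Cfsg.AlgInt) (hM : Cfsg.IsPModular p M) (χ : Cfsg.IrrCharacter G) (g x : G) (hx : Cfsg.IsPPart p g x) (hD : ∀ D : Subgroup G, Cfsg.IsDefectGroup p M (Cfsg.blockOf M (χ : G → ℂ)) D → x ∉ D) : (χ : G → ℂ) g = 0 := by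
  classical
  have _fg : Fintype G := Fintype.ofFinite G
  have _fi : Fintype (Cfsg.IrrCharacter G) := Fintype.ofFinite _
  have hMp := hM.2.1.isPrime
  obtain ⟨B', hB'def⟩ : ∃ B' : Set (Cfsg.IrrCharacter G), B' = Cfsg.blockOf M (χ : G → ℂ) :=
    ⟨_, rfl⟩
  have hB'blk : Cfsg.IsPBlock M B' := ⟨χ, hB'def⟩
  have hχB' : χ ∈ B' := by
    rw [hB'def]
    exact sb_refl hMp _
  rw [← hB'def] at hD
  obtain ⟨g₀, hg₀⟩ := defect_class hMp B' hB'blk
  obtain ⟨D⟩ : Nonempty (Sylow p (Subgroup.centralizer ({g₀} : Set G))) := inferInstance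
  have hxz := ppart_mem_zpowers p g x hx
  obtain ⟨y, hxy, hcomm, ⟨n, hn⟩, hy⟩ := hx
  have hxp : x ^ (p ^ n) = 1 := by
    rw [← hn]
    exact pow_orderOf_eq_one x
  obtain ⟨a, ha⟩ : ∃ a : G → ℂ, a = Cfsg.blockCoeff B' := ⟨_, rfl⟩
  have haC : Cfsg.IsClassFunction G a := by
    rw [ha]
    exact blockCoeff_classFun B'
  have halr : ∀ g, MemLocalRing M (a g) := by
    rw [ha]
    exact osima_fun hMp B' hB'blk
  have ha2 : ∀ h : G, ∑ g : G, a g * a (g⁻¹ * h) = a h := by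
    rw [ha]
    exact blockCoeff_idem B'
  have hBr : ∀ c : G, c * x = x * c → MemLocalIdeal M (a c) := by
    intro c hc
    by_contra hnot
    have hlr := halr c
    rw [ha] at hnot hlr
    obtain ⟨x₀, Q, hQ⟩ := (Cfsg.Agent.S0911.result p M hM B' hB'blk g₀ hg₀ D c).1 hlr hnot
    obtain ⟨k, hk⟩ := sylow_conj_le c Q (Subgroup.zpowers x) (zpowers_pgroup p x n hxp)
      (comm_of_zpowers x c hc)
    have hE : Cfsg.IsDefectGroup p M B'
        ((((D : Subgroup (Subgroup.centralizer ({g₀} : Set G))).map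
          (Subgroup.centralizer ({g₀} : Set G)).subtype).map (MulAut.conj x₀).toMonoidHom).map
            (MulAut.conj k).toMonoidHom) :=
      defectGroup_conj B' _ (defectGroup_conj B' _ ⟨g₀, hg₀, D, rfl⟩ x₀) k
    apply hD _ hE
    exact Subgroup.map_mono hQ (hk (Subgroup.mem_zpowers x))
  have hχC := char_classFun (isCharacter_of_irr χ.2)
  have hfin := rel_hs_char hM a halr ha2 g x hxz n hxp (fun w => haC w g) hBr (χ : G → ℂ) hχC
  have hom : (∑ g : G, a g * (χ : G → ℂ) g) / (χ : G → ℂ) 1 = 1 := by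
    rw [ha, blockCoeff_om B' χ, if_pos hχB', div_self (irr_one_ne_zero χ.2)]
  rw [conv_char a haC (χ : G → ℂ) χ.2 g, hom, one_mul] at hfin
  exact hfin

end Cfsg.Agent.S0924
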