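import Mathlib
import Cfsg.Statements.S0925
import Cfsg.Agent.Lib.Helper3.Char
import Cfsg.Agent.Lib.Helper3.CharCore
import Cfsg.Agent.Lib.Helper3.BlkLocal
import Cfsg.Agent.Lib.Helper3.BlkOsima
import Cfsg.Agent.Lib.Helper3.BlkOrth
import Cfsg.Agent.Lib.Helper3.BlkOrth2
import Cfsg.Agent.Lib.Helper3.BlkRel
import Cfsg.Agent.Lib.Helper3.BlkSecond
import Cfsg.Agent.Lib.Helper3.BlkSecond2
import Cfsg.Agent.Lib.Helper3.BlkSecond3

set_option autoImplicit false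
open Cfsg
open Cfsg.Agent.Lib.Helper3.Char Cfsg.Agent.Lib.Helper3.CharCore Cfsg.Agent.Lib.Helper3.BlkLocal Cfsg.Agent.Lib.Helper3.BlkOsima Cfsg.Agent.Lib.Helper3.BlkOrth Cfsg.Agent.Lib.Helper3.BlkOrth2 Cfsg.Agent.Lib.Helper3.BlkRel Cfsg.Agent.Lib.Helper3.BlkSecond Cfsg.Agent.Lib.Helper3.BlkSecond2 Cfsg.Agent.Lib.Helper3.BlkSecond3
open scoped ComplexConjugate

namespace Cfsg.Agent.S0925

theorem result {G : Type*} [Group G] [Finite G] (p : ℕ) [Fact p.Prime] (M : Ideal Cfsg.AlgInt) (hM : Cfsg.IsPModular p M) : (∀ (ϑ : G → ℂ), Cfsg.IsClassFunction G ϑ → ∀ x : G, (∃ k : ℕ, orderOf x = p ^ k) → (∀ u z : G, Cfsg.IsPPart p u z → IsConj x z → ϑ u = 0) → ∀ B : Set (Cfsg.IrrCharacter G), Cfsg.IsPBlock M B → ∀ u z : G, Cfsg.IsPPart p u z → IsConj x z → Cfsg.blockPart B ϑ u = 0) ∧ (∀ g h x y : G, Cfsg.IsPPart p g x → Cfsg.IsPPart p h y → ¬ IsConj x y → ∀ B : Set (Cfsg.IrrCharacter G), Cfsg.IsPBlock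 M B → ∑ᶠ χ ∈ B, (χ : G → ℂ) g * (χ : G → ℂ) h⁻¹ = 0) := by
  classical
  have _fg : Fintype G := Fintype.ofFinite G
  have _fi : Fintype (Cfsg.IrrCharacter G) := Fintype.ofFinite _
  have hMp := hM.2.1.isPrime
  have hii : ∀ g h x y : G, Cfsg.IsPPart p g x → Cfsg.IsPPart p h y → ¬ IsConj x y →
      ∀ B : Set (Cfsg.IrrCharacter G), Cfsg.IsPBlock M B →
      ∑ χ : Cfsg.IrrCharacter G,
        (if χ ∈ B then (χ : G → ℂ) g * (χ : G → ℂ) h⁻¹ else 0) = 0 := by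
    intro g h x y hx hy hnc B hB
    exact block_orth hM B hB g h x y hx hy hnc
  refine ⟨?_, ?_⟩
  · intro ϑ hϑ x hxo hvan B hB u z hu hxz
    rw [blockPart_eq]
    have h1 : ∀ χ : Cfsg.IrrCharacter G,
        (if χ ∈ B then ((Nat.card G : ℂ)⁻¹ * ∑ w : G, ϑ w * conj ((χ : G → ℂ) w)) *
          (χ : G → ℂ) u else 0) =
        (Nat.card G : ℂ)⁻¹ * ∑ w : G,
          ϑ w * (if χ ∈ B then (χ : G → ℂ) u * (χ : G → ℂ) w⁻¹ else 0) := by
      intro χ
      split_ifs with hχ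
      · rw [mul_assoc, Finset.sum_mul]
        congr 1
        refine Finset.sum_congr rfl (fun w _ => ?_)
        rw [char_inv (isCharacter_of_irr χ.2) w]
        ring
      · simp
    rw [Finset.sum_congr rfl (fun χ _ => h1 χ), ← Finset.mul_sum, Finset.sum_comm]
    have h2 : ∀ w : G, ∑ χ : Cfsg.IrrCharacter G,
        ϑ w * (if χ ∈ B then (χ : G → ℂ) u * (χ : G → ℂ) w⁻¹ else 0) = 0 := by
      intro w
      rw [← Finset.mul_sum]
      obtain ⟨zw, hzw, _⟩ := exists_ppart p w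
      by_cases hc : IsConj x zw
      · rw [hvan w zw hzw hc, zero_mul]
      · rw [hii u w z zw hu hzw (fun h => hc (hxz.trans h)) B hB, mul_zero]
    rw [Finset.sum_congr rfl (fun w _ => h2 w), Finset.sum_const_zero, mul_zero]
  · intro g h x y hx hy hnc B hB
    rw [finsum_mem_ite]
    exact hii g h x y hx hy hnc B hB

end Cfsg.Agent.S0925
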