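import Mathlib
import Cfsg.Statements.S0926
import Cfsg.Agent.Lib.Helper3.Char
import Cfsg.Agent.Lib.Helper3.CharCore
import Cfsg.Agent.Lib.Helper3.CharInt
import Cfsg.Agent.Lib.Helper3.BlkLocal
import Cfsg.Agent.Lib.Helper3.BlkOsima
import Cfsg.Agent.Lib.Helper3.BlkOrth
import Cfsg.Agent.Lib.Helper3.BlkOrth4
import Cfsg.Agent.Lib.Helper3.BlkCong
import Cfsg.Agent.Lib.Helper3.BlkDef
import Cfsg.Agent.Lib.Helper3.BlkHeight
import Cfsg.Agent.S0923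
import Cfsg.Agent.S0924

set_option autoImplicit false
open Cfsg
open Cfsg.Agent.Lib.Helper3.Char Cfsg.Agent.Lib.Helper3.CharCore Cfsg.Agent.Lib.Helper3.CharInt Cfsg.Agent.Lib.Helper3.BlkLocal Cfsg.Agent.Lib.Helper3.BlkOsima Cfsg.Agent.Lib.Helper3.BlkOrth Cfsg.Agent.Lib.Helper3.BlkOrth4 Cfsg.Agent.Lib.Helper3.BlkCong Cfsg.Agent.Lib.Helper3.BlkDef Cfsg.Agent.Lib.Helper3.BlkHeight

namespace Cfsg.Agent.S0926

theorem result {G : Type*} [Group G] [Finite G] (p : ℕ) [Fact p.Prime] (M : Ideal Cfsg.AlgInt) (hM : Cfsg.IsPModular p M) (B : Set (Cfsg.IrrCharacter G)) (hB : Cfsg.IsPBlock M B) (D : Subgroup G) (hD : Cfsg.IsDefectGroup p M B D) (χ : Cfsg.IrrCharacter G) (hχ : χ ∈ B) (h0 : Cfsg.blockHeight p B (χ : G → ℂ) = 0) (x : G) (hx : ∃ k : ℕ, orderOf x = p ^ k) : (∃ g : G, g * x * g⁻¹ ∈ D) ↔ ∃ u : G, (∃ z : G, Cfsg.IsPPart p u z ∧ IsConj x z) ∧ (χ : G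 → ℂ) u ≠ 0 := by
  classical
  have _fg : Fintype G := Fintype.ofFinite G
  have hMp := hM.2.1.isPrime
  obtain ⟨k, hk⟩ := hx
  constructor
  · rintro ⟨g, hg⟩
    obtain ⟨y₀, hy₀, P, rfl⟩ := hD
    obtain ⟨x', hx'P, hx'eq⟩ := hg
    have hx'eq' : (x' : G) = g * x * g⁻¹ := hx'eq
    have hc : g * x * g⁻¹ * y₀ = y₀ * (g * x * g⁻¹) := by
      rw [← hx'eq']
      exact (Subgroup.mem_centralizer_iff.mp x'.2 y₀ (Set.mem_singleton y₀)).symm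
    have ho : orderOf (g * x * g⁻¹) = orderOf x :=
      (SemiconjBy.orderOf_eq g (show SemiconjBy g x (g * x * g⁻¹) by
        unfold SemiconjBy
        group)).symm
    have hxk : (g * x * g⁻¹) ^ (p ^ k) = 1 := by
      rw [← hk, ← ho]
      exact pow_orderOf_eq_one _
    have hy₀reg : ¬ p ∣ orderOf y₀ := by
      intro h
      apply hy₀.2.1
      rw [blockCoeff_sing hM B hB y₀ h]
      exact li_zero hMp
    refine ⟨g * x * g⁻¹ * y₀, ⟨g * x * g⁻¹, ⟨y₀, rfl, hc, ⟨k, by rw [ho, hk]⟩, hy₀reg⟩,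
      isConj_iff.mpr ⟨g, rfl⟩⟩, ?_⟩
    intro h
    apply hz_not_li_mul hM B hB y₀ hy₀ χ hχ h0 (g * x * g⁻¹) hc k hxk
    rw [h]
    exact li_zero hMp
  · rintro ⟨u, ⟨z, hz, hxz⟩, hne⟩
    by_contra hcon
    push Not at hcon
    apply hne
    apply Cfsg.Agent.S0924.result p M hM χ u z hz
    intro D' hD' hzD'
    have hBeq : Cfsg.blockOf M (χ : G → ℂ) = B :=
      Cfsg.Agent.S0923.block_eq_of_mem hMp _ B ⟨χ, rfl⟩ hB χ (sb_refl hMp _) hχ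
    rw [hBeq] at hD'
    obtain ⟨x₀, k', hle⟩ := defect_conj_le hM B hB D D' hD hD'
    obtain ⟨d', ⟨d, hd, rfl⟩, hd'⟩ := hle hzD'
    obtain ⟨s, hs⟩ := isConj_iff.mp hxz
    apply hcon ((k' * x₀)⁻¹ * s)
    have h1 : k' * (x₀ * d * x₀⁻¹) * k'⁻¹ = z := hd'
    have h2 : (k' * x₀)⁻¹ * s * x * ((k' * x₀)⁻¹ * s)⁻¹ = d := by
      have h3 : s * x * s⁻¹ = k' * (x₀ * d * x₀⁻¹) * k'⁻¹ := by rw [hs, h1]
      calc (k' * x₀)⁻¹ * s * x * ((k' * x₀)⁻¹ * s)⁻¹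
          = (k' * x₀)⁻¹ * (s * x * s⁻¹) * (k' * x₀) := by group
        _ = (k' * x₀)⁻¹ * (k' * (x₀ * d * x₀⁻¹) * k'⁻¹) * (k' * x₀) := by rw [h3]
        _ = d := by group
    rw [h2]
    exact hd

end Cfsg.Agent.S0926
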