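import Mathlib
import Cfsg.Statements.S0927
import Cfsg.Agent.Lib.Helper3.Char
import Cfsg.Agent.Lib.Helper3.CharCore
import Cfsg.Agent.Lib.Helper3.CharInt
import Cfsg.Agent.Lib.Helper3.BlkLocal
import Cfsg.Agent.Lib.Helper3.BlkOsima
import Cfsg.Agent.Lib.Helper3.BlkOrth
import Cfsg.Agent.Lib.Helper3.BlkOrth4
import Cfsg.Agent.Lib.Helper3.BlkCong
import Cfsg.Agent.Lib.Helper3.BlkHeight

set_option autoImplicit false
open Cfsg
open Cfsg.Agent.Lib.Helper3.Char Cfsg.Agent.Lib.Helper3.CharCore Cfsg.Agent.Lib.Helper3.CharInt Cfsg.Agent.Lib.Helper3.BlkLocal Cfsg.Agent.Lib.Helper3.BlkOsima Cfsg.Agent.Lib.Helper3.BlkOrth Cfsg.Agent.Lib.Helper3.BlkOrth4 Cfsg.Agent.Lib.Helper3.BlkCong Cfsg.Agent.Lib.Helper3.BlkHeight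

namespace Cfsg.Agent.S0927

theorem result {G : Type*} [Group G] [Finite G] (p : ℕ) [Fact p.Prime] (M : Ideal Cfsg.AlgInt) (hM : Cfsg.IsPModular p M) (B : Set (Cfsg.IrrCharacter G)) (hB : Cfsg.IsPBlock M B) (y : G) (hy : Cfsg.IsDefectClass M B y) (P : Sylow p (Subgroup.centralizer ({y} : Set G))) (x : Subgroup.centralizer ({y} : Set G)) (hx : x ∈ (P : Subgroup (Subgroup.centralizer ({y} : Set G)))) : (∀ χ ∈ B, Cfsg.blockHeight p B (χ : G → ℂ) = 0 → ¬ Cfsg.MemLocalIdeal M ((χ : G → ℂ) ((x : G) * y))) ∧ ((∀ w ∈ (P : Subgroup (Subgroup.centralizer ({y} : Set G))), x * w = w * x) → ∀ χ ∈ B, ¬ Cfsg.MemLocalIdeal M (Cfsg.centralChar (χ : G → ℂ) ((x : G) * y))) := by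
  classical
  have hMp := hM.2.1.isPrime
  have hp : Fact p.Prime := inferInstance
  have hc : (x : G) * y = y * (x : G) :=
    (Subgroup.mem_centralizer_iff.mp x.2 y (Set.mem_singleton y)).symm
  obtain ⟨k, hk⟩ := P.isPGroup' ⟨x, hx⟩
  have hxk : (x : G) ^ (p ^ k) = 1 := by
    have h1 := congrArg (fun t : (P : Subgroup (Subgroup.centralizer ({y} : Set G))) =>
      ((t : Subgroup.centralizer ({y} : Set G)) : G)) hk
    simpa using h1
  have ha : ∀ χ ∈ B, Cfsg.blockHeight p B (χ : G → ℂ) = 0 →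
      ¬ Cfsg.MemLocalIdeal M ((χ : G → ℂ) ((x : G) * y)) :=
    fun χ hχ h0 => hz_not_li_mul hM B hB y hy χ hχ h0 (x : G) hc k hxk
  refine ⟨ha, ?_⟩
  intro hcen χ hχ
  obtain ⟨χ₁, hχ₁⟩ := id hB
  have hne : B.Nonempty := ⟨χ₁, by rw [hχ₁]; exact sb_refl hMp _⟩
  obtain ⟨χ₀, hχ₀, h0⟩ := exists_height_zero p B hne
  have hsb : Cfsg.SameBlock M (χ₀ : G → ℂ) (χ : G → ℂ) := by
    rw [hχ₁] at hχ₀ hχ
    exact sb_trans hMp (sb_symm hχ₀) hχ
  intro hli
  have h1 : Cfsg.MemLocalIdeal M (Cfsg.centralChar (χ₀ : G → ℂ) ((x : G) * y)) := by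
    have h2 := li_add hMp (hsb ((x : G) * y)) hli
    rwa [sub_add_cancel] at h2
  apply ha χ₀ hχ₀ h0
  obtain ⟨n, hn, hn1, hndvd⟩ := irr_degree_dvd_card χ₀.2
  have h6 : Cfsg.charDegree (χ₀ : G → ℂ) = n := charDegree_eq hn1
  have hv := val_index_defect hM B hB y hy χ₀ hχ₀ h0
  have h7 : (Subgroup.centralizer ({(x : G) * y} : Set G)).index *
      Nat.card (Subgroup.centralizer ({(x : G) * y} : Set G)) = Nat.card G :=
    Subgroup.index_mul_card _
  have hi0 : (Subgroup.centralizer ({(x : G) * y} : Set G)).index ≠ 0 :=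
    Subgroup.index_ne_zero_of_finite
  have hc0 : Nat.card (Subgroup.centralizer ({(x : G) * y} : Set G)) ≠ 0 := Nat.card_pos.ne'
  have hPle : (P : Subgroup (Subgroup.centralizer ({y} : Set G))).map
      (Subgroup.centralizer ({y} : Set G)).subtype ≤
      Subgroup.centralizer ({(x : G) * y} : Set G) := by
    rintro w ⟨w', hw', rfl⟩
    rw [Subgroup.mem_centralizer_iff]
    intro g hg
    rw [Set.mem_singleton_iff] at hg
    subst hg
    have e1 := hcen w' hw'
    have e1' : (x : G) * (w' : G) = (w' : G) * (x : G) := congrArg Subtype.val e1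
    have e2 : (w' : G) * y = y * (w' : G) :=
      (Subgroup.mem_centralizer_iff.mp w'.2 y (Set.mem_singleton y)).symm
    show ((x : G) * y) * (w' : G) = (w' : G) * ((x : G) * y)
    calc (x : G) * y * (w' : G) = (x : G) * (y * (w' : G)) := mul_assoc _ _ _
      _ = (x : G) * ((w' : G) * y) := by rw [e2]
      _ = ((x : G) * (w' : G)) * y := (mul_assoc _ _ _).symm
      _ = ((w' : G) * (x : G)) * y := by rw [e1']
      _ = (w' : G) * ((x : G) * y) := mul_assoc _ _ _
  have hcardP : Nat.card ((P : Subgroup (Subgroup.centralizer ({y} : Set G))).map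
      (Subgroup.centralizer ({y} : Set G)).subtype) =
      p ^ (Nat.card (Subgroup.centralizer ({y} : Set G))).factorization p := by
    rw [Subgroup.card_map_of_injective (Subgroup.subtype_injective _)]
    exact P.card_eq_multiplicity
  have hdvd : p ^ (Nat.card (Subgroup.centralizer ({y} : Set G))).factorization p ∣
      Nat.card (Subgroup.centralizer ({(x : G) * y} : Set G)) := by
    rw [← hcardP]
    exact Subgroup.card_dvd_of_le hPle
  have h8 := (hp.out.pow_dvd_iff_le_factorization hc0).mp hdvd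
  have h9 : ((Subgroup.centralizer ({(x : G) * y} : Set G)).index).factorization p +
      (Nat.card (Subgroup.centralizer ({(x : G) * y} : Set G))).factorization p =
      (Nat.card G).factorization p := by
    rw [← h7, Nat.factorization_mul hi0 hc0]
    rfl
  have h10 : ((Subgroup.centralizer ({(x : G) * y} : Set G)).index).factorization p ≤
      n.factorization p := by
    rw [h6] at hv
    omega
  have h11 := ratio_lr hM n ((Subgroup.centralizer ({(x : G) * y} : Set G)).index) hi0 hn.ne' h10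
  have h12 : (χ₀ : G → ℂ) ((x : G) * y) =
      ((n : ℂ) / ((Subgroup.centralizer ({(x : G) * y} : Set G)).index : ℂ)) *
        Cfsg.centralChar (χ₀ : G → ℂ) ((x : G) * y) := by
    unfold Cfsg.centralChar
    rw [hn1]
    have hn0 : (n : ℂ) ≠ 0 := by exact_mod_cast hn.ne'
    have hi0' : ((Subgroup.centralizer ({(x : G) * y} : Set G)).index : ℂ) ≠ 0 := by
      exact_mod_cast hi0
    field_simp
  rw [h12]
  exact li_mul_left hMp h11 h1

end Cfsg.Agent.S0927
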