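import Mathlib
import Cfsg.Statements.S0929
import Cfsg.Agent.Lib.Helper3.Char
import Cfsg.Agent.Lib.Helper3.CharCore
import Cfsg.Agent.Lib.Helper3.Core
import Cfsg.Agent.Lib.Helper3.BlkLocal
import Cfsg.Agent.Lib.Helper3.BlkOsima
import Cfsg.Agent.Lib.Helper3.BlkOrth
import Cfsg.Agent.Lib.Helper3.BlkOrth2
import Cfsg.Agent.Lib.Helper3.BlkFirst
import Cfsg.Agent.Lib.Helper3.BlkFirst2
import Cfsg.Agent.Lib.Helper3.BlkSecond
import Cfsg.Agent.Lib.Helper3.BlkSecond2
import Cfsg.Agent.S0908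
import Cfsg.Agent.S0911
import Cfsg.Agent.S0912
import Cfsg.Agent.S0917
import Cfsg.Agent.S0923
import Cfsg.Agent.S0924

set_option autoImplicit false
open Cfsg
open Cfsg.Agent.Lib.Helper3.Char Cfsg.Agent.Lib.Helper3.CharCore Cfsg.Agent.Lib.Helper3.Core Cfsg.Agent.Lib.Helper3.BlkLocal Cfsg.Agent.Lib.Helper3.BlkOsima Cfsg.Agent.Lib.Helper3.BlkOrth Cfsg.Agent.Lib.Helper3.BlkOrth2 Cfsg.Agent.Lib.Helper3.BlkFirst Cfsg.Agent.Lib.Helper3.BlkFirst2 Cfsg.Agent.Lib.Helper3.BlkSecond Cfsg.Agent.Lib.Helper3.BlkSecond2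

namespace Cfsg.Agent.S0929

theorem result {G : Type*} [Group G] [Finite G] (p : ℕ) [Fact p.Prime] (M : Ideal Cfsg.AlgInt) (hM : Cfsg.IsPModular p M) (B : Set (Cfsg.IrrCharacter G)) (hB : Cfsg.IsPBlock M B) (P : Subgroup G) (hP : Cfsg.IsDefectGroup p M B P) (g : G) (hg : ∃ χ ∈ B, ¬ Cfsg.MemLocalIdeal M (Cfsg.centralChar (χ : G → ℂ) g)) : ∃ x : G, IsConj g x ∧ x ∈ Subgroup.centralizer (P : Set G) ∧ ∀ z : G, Cfsg.IsPPart p x z → z ∈ P ∧ ∀ w ∈ P, z * w = w * z := by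
  classical
  have _fg : Fintype G := Fintype.ofFinite G
  have hMp := hM.2.1.isPrime
  obtain ⟨χ, hχ, hχg⟩ := hg
  obtain ⟨b, hbind, hbD⟩ := first_main_exists hM B hB P hP
  have _fn : Fintype (Subgroup.normalizer (P : Set G)) := Fintype.ofFinite _
  obtain ⟨ξ, hξ⟩ : ∃ ξ : Cfsg.IrrCharacter (Subgroup.normalizer (P : Set G)), ξ ∈ b := by
    obtain ⟨ξ0, h0⟩ := hbind.1
    exact ⟨ξ0, by rw [h0]; exact sb_refl hMp _⟩
  have hbeq : b = Cfsg.blockOf M (ξ : Subgroup.normalizer (P : Set G) → ℂ) :=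
    Cfsg.Agent.S0923.block_eq_of_mem hMp b _ hbind.1 ⟨ξ, rfl⟩ ξ hξ (sb_refl hMp _)
  have hind := hbind.2.2 ξ hξ χ hχ g
  have hnot : ¬ MemLocalIdeal M (Cfsg.inducedCentralChar (Subgroup.normalizer (P : Set G))
      (ξ : Subgroup.normalizer (P : Set G) → ℂ) g) := by
    intro h
    apply hχg
    have h1 := li_sub hMp h hind
    rw [sub_sub_cancel] at h1
    exact h1
  have hex : ∃ h : Subgroup.normalizer (P : Set G), IsConj g (h : G) ∧
      ¬ MemLocalIdeal M (Cfsg.centralChar (ξ : Subgroup.normalizer (P : Set G) → ℂ) h) := by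
    by_contra hne
    push Not at hne
    exact hnot (ind_li_of_forall hMp _ ξ g hne)
  obtain ⟨h, hconj, hh⟩ := hex
  obtain ⟨zc, hzc⟩ := defect_class hMp b hbind.1
  obtain ⟨T⟩ : Nonempty (Sylow p (Subgroup.centralizer
    ({zc} : Set (Subgroup.normalizer (P : Set G))))) := inferInstance
  have hDb : Cfsg.IsDefectGroup p M b ((T : Subgroup _).map
      (Subgroup.centralizer ({zc} : Set (Subgroup.normalizer (P : Set G)))).subtype) :=
    ⟨zc, hzc, T, rfl⟩
  have hTP := hbD _ hDb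
  obtain ⟨x, Q, hxQ⟩ := (Cfsg.Agent.S0911.result p M hM b hbind.1 zc hzc T h).2 ⟨ξ, hξ, hh⟩
  have hcomm : ∀ w ∈ P, w * (h : G) = (h : G) * w := by
    intro w hw
    have hxN : (x : G)⁻¹ ∈ Subgroup.normalizer (P : Set G) := Subgroup.inv_mem _ x.2
    have h1 : (x : G)⁻¹ * w * (x : G)⁻¹⁻¹ ∈ P := (Subgroup.mem_normalizer_iff.mp hxN w).mp hw
    have h1' := (SetLike.ext_iff.mp hTP ((x : G)⁻¹ * w * (x : G)⁻¹⁻¹)).mpr h1
    obtain ⟨t, ht, hte⟩ := Subgroup.mem_map.mp h1'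
    have h2 : x * t * x⁻¹ ∈ ((T : Subgroup _).map
        (Subgroup.centralizer ({zc} : Set (Subgroup.normalizer (P : Set G)))).subtype).map
        (MulAut.conj x).toMonoidHom :=
      Subgroup.mem_map.mpr ⟨t, ht, by simp [MulAut.conj_apply]⟩
    obtain ⟨c, _, hce⟩ := Subgroup.mem_map.mp (hxQ h2)
    have h3 := c.2
    rw [Subgroup.mem_centralizer_iff] at h3
    have h4 : h * (c : Subgroup.normalizer (P : Set G)) =
        (c : Subgroup.normalizer (P : Set G)) * h := h3 h rfl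
    have h5 : (c : Subgroup.normalizer (P : Set G)) = x * t * x⁻¹ := hce
    rw [h5] at h4
    have h6 : ((x * t * x⁻¹ : Subgroup.normalizer (P : Set G)) : G) = w := by
      have h7 : (t : G) = (x : G)⁻¹ * w * (x : G)⁻¹⁻¹ := hte
      simp only [Subgroup.coe_mul, Subgroup.coe_inv]
      rw [h7]
      group
    have h8 := congrArg (fun k : Subgroup.normalizer (P : Set G) => (k : G)) h4
    simp only [Subgroup.coe_mul] at h8
    rw [Subgroup.coe_mul, Subgroup.coe_mul] at h6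
    rw [h6] at h8
    exact h8.symm
  refine ⟨(h : G), hconj, ?_, ?_⟩
  · rw [Subgroup.mem_centralizer_iff]
    exact hcomm
  · intro z hz
    have hzpow := ppart_mem_zpowers p (h : G) z hz
    have hzN : z ∈ Subgroup.normalizer (P : Set G) := by
      have h1 : Subgroup.zpowers (h : G) ≤ Subgroup.normalizer (P : Set G) := by
        rw [Subgroup.zpowers_le]
        exact h.2
      exact h1 hzpow
    have hz' := ppart_sub p (Subgroup.normalizer (P : Set G)) h z hz hzN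
    constructor
    · by_contra hzP
      have h1 := Cfsg.Agent.S0924.result p M hM ξ h ⟨z, hzN⟩ hz' (by
        intro D' hD' hmem
        rw [← hbeq] at hD'
        have h2 := hbD D' hD'
        apply hzP
        exact (SetLike.ext_iff.mp h2 z).mp (Subgroup.mem_map.mpr ⟨⟨z, hzN⟩, hmem, rfl⟩))
      apply hh
      unfold Cfsg.centralChar
      rw [h1, mul_zero, zero_div]
      exact li_zero hMp
    · intro w hw
      exact comm_of_zpowers (h : G) w (hcomm w hw) z hzpow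

end Cfsg.Agent.S0929
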