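import Mathlib
import Cfsg.Statements.S0930
import Cfsg.Agent.Lib.Helper3.Char
import Cfsg.Agent.Lib.Helper3.CharCore
import Cfsg.Agent.Lib.Helper3.Core
import Cfsg.Agent.Lib.Helper3.BlkLocal
import Cfsg.Agent.Lib.Helper3.BlkOsima
import Cfsg.Agent.Lib.Helper3.BlkOrth
import Cfsg.Agent.Lib.Helper3.BlkOrth2
import Cfsg.Agent.Lib.Helper3.BlkDef
import Cfsg.Agent.Lib.Helper3.BlkFirst
import Cfsg.Agent.Lib.Helper3.BlkFirst2
import Cfsg.Agent.Lib.Helper3.BlkSecond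
import Cfsg.Agent.Lib.Helper3.BlkSecond2
import Cfsg.Agent.S0927
import Cfsg.Agent.S0929

set_option autoImplicit false
open Cfsg
open Cfsg.Agent.Lib.Helper3.Char Cfsg.Agent.Lib.Helper3.CharCore Cfsg.Agent.Lib.Helper3.Core Cfsg.Agent.Lib.Helper3.BlkLocal Cfsg.Agent.Lib.Helper3.BlkOsima Cfsg.Agent.Lib.Helper3.BlkOrth Cfsg.Agent.Lib.Helper3.BlkOrth2 Cfsg.Agent.Lib.Helper3.BlkDef Cfsg.Agent.Lib.Helper3.BlkFirst Cfsg.Agent.Lib.Helper3.BlkFirst2 Cfsg.Agent.Lib.Helper3.BlkSecond Cfsg.Agent.Lib.Helper3.BlkSecond2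

namespace Cfsg.Agent.S0930

theorem result {G : Type*} [Group G] [Finite G] (p : ℕ) [Fact p.Prime] (M : Ideal Cfsg.AlgInt) (hM : Cfsg.IsPModular p M) (H : Subgroup G) (b : Set (Cfsg.IrrCharacter H)) (B : Set (Cfsg.IrrCharacter G)) (hind : Cfsg.IsInducedBlock M H b B) (D : Subgroup H) (hD : Cfsg.IsDefectGroup p M b D) (P : Subgroup G) (hP : Cfsg.IsDefectGroup p M B P) (x : G) (hx : x ∈ P) (hxc : ∀ w ∈ P, x * w = w * x) : ∃ g : G, g * x * g⁻¹ ∈ D.map H.subtype ∧ ∀ w ∈ D.map H.subtype, (g * x * g⁻¹) * w = w * (g * x * g⁻¹) := by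
  classical
  have _fg : Fintype G := Fintype.ofFinite G
  have _fh : Fintype H := Fintype.ofFinite H
  have hMp := hM.2.1.isPrime
  have hp : Fact p.Prime := inferInstance
  have hb := hind.1
  have hB := hind.2.1
  obtain ⟨y, hy, S, hS⟩ := id hP
  obtain ⟨χ, hχ⟩ : ∃ χ : Cfsg.IrrCharacter G, χ ∈ B := by
    obtain ⟨χ0, h0⟩ := hB
    exact ⟨χ0, by rw [h0]; exact sb_refl hMp _⟩
  obtain ⟨ξ, hξ⟩ : ∃ ξ : Cfsg.IrrCharacter H, ξ ∈ b := by
    obtain ⟨ξ0, h0⟩ := hb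
    exact ⟨ξ0, by rw [h0]; exact sb_refl hMp _⟩
  have hxS : x ∈ (S : Subgroup (Subgroup.centralizer ({y} : Set G))).map
      (Subgroup.centralizer ({y} : Set G)).subtype := (SetLike.ext_iff.mp hS x).mp hx
  obtain ⟨x', hx', hx'e⟩ := Subgroup.mem_map.mp hxS
  have hx'e' : (x' : G) = x := hx'e
  have hcen : ∀ w ∈ (S : Subgroup (Subgroup.centralizer ({y} : Set G))), x' * w = w * x' := by
    intro w hw
    apply Subtype.ext
    rw [Subgroup.coe_mul, Subgroup.coe_mul, hx'e']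
    apply hxc
    exact (SetLike.ext_iff.mp hS (w : G)).mpr (Subgroup.mem_map.mpr ⟨w, hw, rfl⟩)
  have h927 := (Cfsg.Agent.S0927.result p M hM B hB y hy S x' hx').2 hcen χ hχ
  rw [hx'e'] at h927
  have hind2 := hind.2.2 ξ hξ χ hχ (x * y)
  have hnot : ¬ MemLocalIdeal M (Cfsg.inducedCentralChar H (ξ : H → ℂ) (x * y)) := by
    intro h
    apply h927
    have h1 := li_sub hMp h hind2
    rw [sub_sub_cancel] at h1
    exact h1
  have hex : ∃ h : H, IsConj (x * y) (h : G) ∧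
      ¬ MemLocalIdeal M (Cfsg.centralChar (ξ : H → ℂ) h) := by
    by_contra hne
    push Not at hne
    exact hnot (ind_li_of_forall hMp _ ξ (x * y) hne)
  obtain ⟨h, hconj, hh⟩ := hex
  obtain ⟨h', hconj', _, hpp⟩ := Cfsg.Agent.S0929.result p M hM b hb D hD h ⟨ξ, hξ, hh⟩
  have hconjG : IsConj (x * y) (h' : G) := by
    apply hconj.trans
    obtain ⟨c, hc⟩ := isConj_iff.mp hconj'
    exact isConj_iff.mpr ⟨(c : G), by rw [← hc]; simp⟩
  obtain ⟨t, ht⟩ := isConj_iff.mp hconjG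
  have hxy : x * y = y * x := by
    have h1 := x'.2
    rw [Subgroup.mem_centralizer_iff] at h1
    have h2 := h1 y rfl
    rw [hx'e'] at h2
    exact h2.symm
  have hxord : ∃ k : ℕ, orderOf x = p ^ k := by
    obtain ⟨k, hk⟩ := S.isPGroup' ⟨x', hx'⟩
    have hxk : x ^ (p ^ k) = 1 := by
      have h1 := congrArg (fun t : (S : Subgroup (Subgroup.centralizer ({y} : Set G))) =>
        ((t : Subgroup.centralizer ({y} : Set G)) : G)) hk
      simp only [Subgroup.coe_pow, Subgroup.coe_one] at h1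
      rw [hx'e'] at h1
      exact h1
    have h2 := orderOf_dvd_of_pow_eq_one hxk
    obtain ⟨j, _, hj⟩ := (Nat.dvd_prime_pow hp.out).mp h2
    exact ⟨j, hj⟩
  have hyreg : ¬ p ∣ orderOf y := by
    intro hdiv
    apply hy.2.1
    rw [blockCoeff_sing hM B hB y hdiv]
    exact li_zero hMp
  have hpart : Cfsg.IsPPart p (x * y) x := ⟨y, rfl, hxy, hxord, hyreg⟩
  have hpart2 := ppart_conj p (x * y) x t hpart
  rw [ht] at hpart2
  have hzpow := ppart_mem_zpowers p (h' : G) (t * x * t⁻¹) hpart2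
  have hzH : t * x * t⁻¹ ∈ H := by
    have h1 : Subgroup.zpowers (h' : G) ≤ H := by
      rw [Subgroup.zpowers_le]
      exact h'.2
    exact h1 hzpow
  have hz' := ppart_sub p H h' (t * x * t⁻¹) hpart2 hzH
  obtain ⟨hzD, hzc⟩ := hpp _ hz'
  refine ⟨t, Subgroup.mem_map.mpr ⟨⟨t * x * t⁻¹, hzH⟩, hzD, rfl⟩, ?_⟩
  intro w hw
  obtain ⟨w', hw', rfl⟩ := Subgroup.mem_map.mp hw
  have h1 := congrArg (fun k : H => (k : G)) (hzc w' hw')
  exact h1

end Cfsg.Agent.S0930
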