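import Mathlib
import Cfsg.Statements.S0931
import Cfsg.Agent.Lib.Helper3.Char
import Cfsg.Agent.Lib.Helper3.CharCore
import Cfsg.Agent.Lib.Helper3.CharInt
import Cfsg.Agent.Lib.Helper3.CharInd
import Cfsg.Agent.Lib.Helper3.CharArith
import Cfsg.Agent.Lib.Helper3.BlkLocal
import Cfsg.Agent.Lib.Helper3.BlkOsima
import Cfsg.Agent.Lib.Helper3.BlkOrth
import Cfsg.Agent.Lib.Helper3.BlkOrth2
import Cfsg.Agent.Lib.Helper3.BlkOrth4
import Cfsg.Agent.Lib.Helper3.BlkDef
import Cfsg.Agent.Lib.Helper3.BlkCong
import Cfsg.Agent.Lib.Helper3.BlkDefect2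
import Cfsg.Agent.S0934
import Cfsg.Agent.S0908

set_option autoImplicit false
open Cfsg
open Cfsg.Agent.Lib.Helper3.Char Cfsg.Agent.Lib.Helper3.CharCore Cfsg.Agent.Lib.Helper3.CharInt Cfsg.Agent.Lib.Helper3.CharInd Cfsg.Agent.Lib.Helper3.CharArith Cfsg.Agent.Lib.Helper3.BlkLocal Cfsg.Agent.Lib.Helper3.BlkOsima Cfsg.Agent.Lib.Helper3.BlkOrth Cfsg.Agent.Lib.Helper3.BlkOrth2 Cfsg.Agent.Lib.Helper3.BlkOrth4 Cfsg.Agent.Lib.Helper3.BlkDef Cfsg.Agent.Lib.Helper3.BlkCong Cfsg.Agent.Lib.Helper3.BlkDefect2
open scoped ComplexConjugate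

namespace Cfsg.Agent.S0931

theorem result {G : Type*} [Group G] [Finite G] (p : ℕ) [Fact p.Prime] (M : Ideal Cfsg.AlgInt) (hM : Cfsg.IsPModular p M) (H : Subgroup G) (b : Set (Cfsg.IrrCharacter H)) (B : Set (Cfsg.IrrCharacter G)) (hind : Cfsg.IsInducedBlock M H b B) : Cfsg.blockDefect p b = 0 ↔ Cfsg.blockDefect p B = 0 := by
  classical
  have _fg : Fintype G := Fintype.ofFinite G
  have _fh : Fintype H := Fintype.ofFinite H
  have _kG : Fintype (ConjClasses G) := Fintype.ofFinite _
  have _fi : Fintype (Cfsg.IrrCharacter G) := Fintype.ofFinite _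
  have hp := hM.1
  have hMp := hM.2.1.isPrime
  obtain ⟨hb, hB, hcong⟩ := hind
  obtain ⟨χ0, hχ0⟩ := id hB
  have hχ0B : χ0 ∈ B := by
    rw [hχ0]
    exact sb_refl hMp _
  obtain ⟨ξ0, hξ0⟩ := id hb
  have hξ0b : ξ0 ∈ b := by
    rw [hξ0]
    exact sb_refl hMp _
  have hG0 : Nat.card G ≠ 0 := Nat.card_pos.ne'
  have hH0 : Nat.card H ≠ 0 := Nat.card_pos.ne'
  rw [defect_zero_iff p b ⟨ξ0, hξ0b⟩, defect_zero_iff p B ⟨χ0, hχ0B⟩]
  have hcf := blockCoeff_classFun B
  have hR := osima_fun hMp B hB
  constructor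
  · intro hb0
    by_contra hcon
    have hd : Cfsg.blockDefect p B ≠ 0 := by
      intro h0
      exact hcon ((defect_zero_iff p B ⟨χ0, hχ0B⟩).mp h0)
    have hvan : ∀ x : H, p ∣ orderOf x → (ξ0 : H → ℂ) x = 0 :=
      fun x hx => vanish_of_full hp ξ0 (hb0 ξ0 hξ0b) x hx
    have hind0 : ∀ g : G, p ∣ orderOf g → Cfsg.inducedCentralChar H (ξ0 : H → ℂ) g = 0 := by
      intro g hg
      unfold Cfsg.inducedCentralChar
      rw [finsum_mem_ite]
      apply Finset.sum_eq_zero
      intro h _
      by_cases hc : IsConj g (h : G)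
      · rw [if_pos (by exact hc)]
        have ho : orderOf h = orderOf g := by
          rw [← Subgroup.orderOf_coe]
          rw [isConj_iff] at hc
          obtain ⟨c, hc⟩ := hc
          rw [← hc]
          exact (SemiconjBy.orderOf_eq c (show SemiconjBy c g (c * g * c⁻¹) by
            unfold SemiconjBy
            group)).symm
        rw [hvan h (by rw [ho]; exact hg), zero_div]
      · rw [if_neg (by exact hc)]
    have hsing : ∀ χ ∈ B, ∀ g : G, p ∣ orderOf g →
        MemLocalIdeal M (Cfsg.centralChar (χ : G → ℂ) g) := by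
      intro χ hχ g hg
      have h1 := hcong ξ0 hξ0b χ hχ g
      rw [hind0 g hg, zero_sub] at h1
      have h2 := li_neg h1
      rw [neg_neg] at h2
      exact h2
    obtain ⟨g0, hg0⟩ := defect_class hMp B hB
    obtain ⟨hg1, hg2, hg3⟩ := id hg0
    have hgreg : ¬ p ∣ orderOf g0 := by
      intro h
      apply hg2
      rw [blockCoeff_sing hM B hB g0 h]
      exact li_zero hMp
    obtain ⟨D0⟩ : Nonempty (Sylow p (Subgroup.centralizer ({g0} : Set G))) := inferInstance
    have h908 := Cfsg.Agent.S0908.result p M hM B hB _ ⟨g0, hg0, D0, rfl⟩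
    rw [Subgroup.card_map_of_injective (Subgroup.subtype_injective _)] at h908
    have hcard0 : Nat.card D0 =
        p ^ (Nat.card (Subgroup.centralizer ({g0} : Set G))).factorization p :=
      Sylow.card_eq_multiplicity D0
    have hc_eq : (Nat.card (Subgroup.centralizer ({g0} : Set G))).factorization p =
        Cfsg.blockDefect p B := by
      rw [hcard0] at h908
      exact Nat.pow_right_injective hp.two_le h908
    have hnt : Nontrivial D0 := by
      rw [← Finite.one_lt_card_iff_nontrivial, h908]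
      exact Nat.one_lt_pow hd hp.one_lt
    have hcen := IsPGroup.center_nontrivial (D0.isPGroup')
    obtain ⟨z0, hz0⟩ := exists_ne (1 : Subgroup.center D0)
    obtain ⟨z, hz⟩ : ∃ z : G, z = ((z0 : D0) : Subgroup.centralizer ({g0} : Set G)) := ⟨_, rfl⟩
    have hz1 : z ≠ 1 := by
      intro h1
      apply hz0
      apply Subtype.ext
      apply Subtype.ext
      apply Subtype.ext
      rw [hz] at h1
      exact h1
    obtain ⟨k, hk⟩ := D0.isPGroup' (z0 : D0)
    have hzk : z ^ (p ^ k) = 1 := by
      rw [hz]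
      have h1 := congrArg (fun t : D0 => ((t : Subgroup.centralizer ({g0} : Set G)) : G)) hk
      simpa using h1
    have hzg : z * g0 = g0 * z := by
      have h1 := ((z0 : D0) : Subgroup.centralizer ({g0} : Set G)).2
      rw [Subgroup.mem_centralizer_iff] at h1
      rw [hz]
      exact (h1 g0 rfl).symm
    have hsg : p ∣ orderOf (g0 * z) := psing_mul hp g0 z hgreg hzg k hzk hz1
    have hDcent : ∀ x ∈ (D0 : Subgroup (Subgroup.centralizer ({g0} : Set G))).map
        (Subgroup.centralizer ({g0} : Set G)).subtype,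
        x ∈ Subgroup.centralizer ({g0 * z} : Set G) := by
      intro x hx
      obtain ⟨y, hy, rfl⟩ := hx
      rw [Subgroup.mem_centralizer_iff]
      intro w hw
      rw [Set.mem_singleton_iff.mp hw]
      have h1 := y.2
      rw [Subgroup.mem_centralizer_iff] at h1
      have h2 : g0 * (y : G) = (y : G) * g0 := h1 g0 rfl
      have h3 : (z0 : D0) * ⟨y, hy⟩ = ⟨y, hy⟩ * (z0 : D0) :=
        (Subgroup.mem_center_iff.mp z0.2 ⟨y, hy⟩).symm
      have h4 : z * (y : G) = (y : G) * z := by
        rw [hz]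
        have h5 := congrArg (fun t : D0 => ((t : Subgroup.centralizer ({g0} : Set G)) : G)) h3
        simpa using h5
      show g0 * z * (y : G) = (y : G) * (g0 * z)
      rw [mul_assoc, h4, ← mul_assoc, h2, mul_assoc]
    have hSne : ((fun χ : Cfsg.IrrCharacter G =>
        (Cfsg.charDegree (χ : G → ℂ)).factorization p) '' B).Nonempty :=
      ⟨_, ⟨χ0, hχ0B, rfl⟩⟩
    obtain ⟨χ1, hχ1B, hχ1⟩ := Nat.sInf_mem hSne
    have hχ1' : (Cfsg.charDegree (χ1 : G → ℂ)).factorization p = sInf ((fun χ : Cfsg.IrrCharacter G =>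
        (Cfsg.charDegree (χ : G → ℂ)).factorization p) '' B) := hχ1
    obtain ⟨n, hn0, hn, hndvd⟩ := irr_degree_dvd_card χ1.2
    rw [charDegree_eq hn] at hχ1'
    have hle : n.factorization p ≤ (Nat.card G).factorization p :=
      (Nat.factorization_le_iff_dvd hn0.ne' hG0).mpr hndvd p
    have hdef : Cfsg.blockDefect p B = (Nat.card G).factorization p - n.factorization p := by
      unfold Cfsg.blockDefect
      rw [hχ1']
    have hidx : ∀ x : G, (Subgroup.centralizer ({x} : Set G)).index.factorization p +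
        (Nat.card (Subgroup.centralizer ({x} : Set G))).factorization p =
        (Nat.card G).factorization p := by
      intro x
      have h4 := Subgroup.card_mul_index (Subgroup.centralizer ({x} : Set G))
      have h5 : (Subgroup.centralizer ({x} : Set G)).index ≠ 0 := by
        intro h0
        rw [h0, mul_zero] at h4
        exact hG0 h4.symm
      have h6 := congrArg (fun n : ℕ => n.factorization p) h4
      rw [Nat.factorization_mul Nat.card_pos.ne' h5] at h6
      simp only [Finsupp.coe_add, Pi.add_apply] at h6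
      omega
    have hidx0 : ∀ x : G, (Subgroup.centralizer ({x} : Set G)).index ≠ 0 := by
      intro x h0
      have h4 := Subgroup.card_mul_index (Subgroup.centralizer ({x} : Set G))
      rw [h0, mul_zero] at h4
      exact hG0 h4.symm
    have hi0 : n.factorization p ≤
        (Subgroup.centralizer ({g0} : Set G)).index.factorization p := by
      have h1 := hidx g0
      omega
    have hi1 : (Subgroup.centralizer ({g0 * z} : Set G)).index.factorization p ≤
        n.factorization p := by
      have h1 := hidx (g0 * z)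
      have h2 : Nat.card ((D0 : Subgroup (Subgroup.centralizer ({g0} : Set G))).map
          (Subgroup.centralizer ({g0} : Set G)).subtype) ∣
          Nat.card (Subgroup.centralizer ({g0 * z} : Set G)) :=
        Subgroup.card_dvd_of_le hDcent
      rw [Subgroup.card_map_of_injective (Subgroup.subtype_injective _), hcard0] at h2
      have h3 := (hp.pow_dvd_iff_le_factorization Nat.card_pos.ne').mp h2
      omega
    have hn0' : (n : ℂ) ≠ 0 := by exact_mod_cast hn0.ne'
    have hi1c : ((Subgroup.centralizer ({g0 * z} : Set G)).index : ℂ) ≠ 0 := by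
      exact_mod_cast hidx0 (g0 * z)
    have h5 := hsing χ1 hχ1B (g0 * z) hsg
    have h6 : MemLocalIdeal M ((χ1 : G → ℂ) (g0 * z)) := by
      have e : (χ1 : G → ℂ) (g0 * z) =
          ((n : ℂ) / ((Subgroup.centralizer ({g0 * z} : Set G)).index : ℂ)) *
            Cfsg.centralChar (χ1 : G → ℂ) (g0 * z) := by
        unfold Cfsg.centralChar
        rw [hn]
        field_simp
      rw [e]
      exact li_mul_left hMp (ratio_lr hM _ _ (hidx0 _) hn0.ne' hi1) h5
    have h7 := char_cong hM (isCharacter_of_irr χ1.2) z g0 hzg k hzk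
    rw [hzg] at h7
    have h8 := li_sub hMp h6 h7
    rw [sub_sub_cancel] at h8
    apply hg3 χ1 hχ1B
    have e : Cfsg.centralChar (χ1 : G → ℂ) g0 =
        (((Subgroup.centralizer ({g0} : Set G)).index : ℂ) / (n : ℂ)) * (χ1 : G → ℂ) g0 := by
      unfold Cfsg.centralChar
      rw [hn]
      field_simp
    rw [e]
    exact li_mul_left hMp (ratio_lr hM _ _ hn0.ne' (hidx0 _) hi0) h8
  · intro hB0 ξ hξ
    by_contra hcon
    push Not at hcon
    have h1 := blockCoeff_om B χ0
    rw [if_pos hχ0B] at h1
    have h3 := om_classes (Cfsg.blockCoeff B) hcf (χ0 : G → ℂ)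
      (char_classFun (isCharacter_of_irr χ0.2))
    rw [h1, div_self (irr_one_ne_zero χ0.2)] at h3
    have h4 := Cfsg.Agent.S0934.ind_classes H (Cfsg.blockCoeff B) hcf (ξ : H → ℂ)
    have h6 : MemLocalIdeal M ((∑ C : ConjClasses G, Cfsg.blockCoeff B (Quotient.out C) *
        Cfsg.inducedCentralChar H (ξ : H → ℂ) (Quotient.out C)) -
        ∑ C : ConjClasses G, Cfsg.blockCoeff B (Quotient.out C) *
          Cfsg.centralChar (χ0 : G → ℂ) (Quotient.out C)) := by
      rw [← Finset.sum_sub_distrib]
      apply li_sum hMp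
      intro C _
      rw [← mul_sub]
      exact li_mul_left hMp (hR _) (hcong ξ hξ χ0 hχ0B _)
    rw [← h4, ← h3] at h6
    obtain ⟨m, hm0, hm⟩ := irr_one_pos ξ.2
    rw [charDegree_eq hm] at hcon
    have hT : MemLocalIdeal M ((∑ h : H, Cfsg.blockCoeff B (h : G) * (ξ : H → ℂ) h) /
        (ξ : H → ℂ) 1) := by
      have e : ∀ h : H, Cfsg.blockCoeff B (h : G) * (ξ : H → ℂ) h =
          (Nat.card G : ℂ)⁻¹ * ∑ χ : Cfsg.IrrCharacter G,
            (if χ ∈ B then (χ : G → ℂ) 1 * (conj ((χ : G → ℂ) (h : G)) * (ξ : H → ℂ) h) else 0) := by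
        intro h
        rw [blockCoeff_eq B, mul_assoc, Finset.sum_mul]
        congr 1
        refine Finset.sum_congr rfl (fun χ _ => ?_)
        split_ifs
        · ring
        · rw [zero_mul]
      rw [Finset.sum_congr rfl (fun h _ => e h), ← Finset.mul_sum, Finset.sum_comm,
        Finset.mul_sum, Finset.sum_div]
      apply li_sum hMp
      intro χ _
      by_cases hχ : χ ∈ B
      · simp only [if_pos hχ]
        obtain ⟨n, hn0, hn⟩ := irr_one_pos χ.2
        obtain ⟨c, hc⟩ := inner_char_nat
          (comp_isCharacter H.subtype (isCharacter_of_irr χ.2)) (isCharacter_of_irr ξ.2)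
        have hc' : ∑ h : H, conj ((χ : G → ℂ) (h : G)) * (ξ : H → ℂ) h =
            (Nat.card H : ℂ) * (c : ℂ) := by
          unfold Cfsg.classInner at hc
          have hHc : (Nat.card H : ℂ) ≠ 0 := by exact_mod_cast hH0
          have h7 : ∑ h : H, (χ : G → ℂ) (h : G) * conj ((ξ : H → ℂ) h) =
              (Nat.card H : ℂ) * (c : ℂ) := by
            have h8 : (Nat.card H : ℂ)⁻¹ * ∑ h : H, (χ : G → ℂ) (h : G) * conj ((ξ : H → ℂ) h) =
                (c : ℂ) := hc
            rw [← h8, ← mul_assoc, mul_inv_cancel₀ hHc, one_mul]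
          have h9 := congrArg (starRingEnd ℂ) h7
          rw [map_sum, map_mul, Complex.conj_natCast, Complex.conj_natCast] at h9
          rw [← h9]
          refine Finset.sum_congr rfl (fun h _ => ?_)
          rw [map_mul, Complex.conj_conj]
        rw [← Finset.mul_sum, hc', hn, hm]
        have e2 : (Nat.card G : ℂ)⁻¹ * ((n : ℂ) * ((Nat.card H : ℂ) * (c : ℂ))) / (m : ℂ) =
            (((n * Nat.card H : ℕ) : ℂ) / ((Nat.card G * m : ℕ) : ℂ)) * (c : ℂ) := by
          have hGc : (Nat.card G : ℂ) ≠ 0 := by exact_mod_cast hG0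
          have hmc : (m : ℂ) ≠ 0 := by exact_mod_cast hm0.ne'
          push_cast
          field_simp
        rw [e2]
        apply li_mul_right hMp _ (lr_of_isIntegral hMp (isIntegral_natCast _))
        apply ratio_li hM _ _ (Nat.mul_ne_zero hG0 hm0.ne')
        rw [Nat.factorization_mul hG0 hm0.ne', Nat.factorization_mul hn0.ne' hH0]
        simp only [Finsupp.coe_add, Pi.add_apply]
        have h10 := hB0 χ hχ
        rw [charDegree_eq hn] at h10
        omega
      · simp only [if_neg hχ]
        rw [Finset.sum_const_zero, mul_zero, zero_div]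
        exact li_zero hMp
    have h11 := li_sub hMp hT h6
    rw [sub_sub_cancel] at h11
    exact not_li_one hMp h11

end Cfsg.Agent.S0931
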