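import Mathlib
import Cfsg.Statements.S0932
import Cfsg.Agent.Lib.Helper3.Char
import Cfsg.Agent.Lib.Helper3.CharCore
import Cfsg.Agent.Lib.Helper3.CharInt
import Cfsg.Agent.Lib.Helper3.CharInd

set_option autoImplicit false
open Cfsg
open Cfsg.Agent.Lib.Helper3.Char Cfsg.Agent.Lib.Helper3.CharCore Cfsg.Agent.Lib.Helper3.CharInt Cfsg.Agent.Lib.Helper3.CharInd

namespace Cfsg.Agent.S0932

theorem fiber_card' {G : Type*} [Group G] [Fintype G] [DecidableEq G] (g h : G) :
    ((Finset.univ.filter (fun x : G => x⁻¹ * g * x = h)).card : ℂ) =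
      if IsConj g h then (Nat.card (Subgroup.centralizer ({g} : Set G)) : ℂ) else 0 := by
  classical
  have h1 : (Finset.univ.filter (fun x : G => x⁻¹ * g * x = h)).card =
      Nat.card {y : G // y * g * y⁻¹ = h} := by
    rw [Nat.card_eq_fintype_card, Fintype.card_subtype]
    apply Finset.card_bij (fun x _ => x⁻¹)
    · intro x hx
      rw [Finset.mem_filter] at hx ⊢
      refine ⟨Finset.mem_univ _, ?_⟩
      rw [inv_inv]
      exact hx.2
    · intro x _ y _ hxy
      exact inv_injective hxy
    · intro y hy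
      rw [Finset.mem_filter] at hy
      refine ⟨y⁻¹, ?_, inv_inv y⟩
      rw [Finset.mem_filter]
      refine ⟨Finset.mem_univ _, ?_⟩
      rw [inv_inv]
      exact hy.2
  rw [h1]
  by_cases hc : IsConj g h
  · rw [if_pos hc, card_conj_fiber g h hc]
  · rw [if_neg hc]
    have hemp : IsEmpty {y : G // y * g * y⁻¹ = h} := by
      refine ⟨fun y => hc (isConj_iff.mpr ⟨y.1, y.2⟩)⟩
    rw [Nat.card_of_isEmpty]
    simp

theorem indFun_eq_sum {G : Type*} [Group G] [Fintype G] (H : Subgroup G) [Fintype H]
    (ξ : H → ℂ) (g : G) [DecidablePred (fun h : H => IsConj g (h : G))] :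
    Cfsg.indFun H ξ g = (Nat.card H : ℂ)⁻¹ *
      ((Nat.card (Subgroup.centralizer ({g} : Set G)) : ℂ) *
        ∑ h : H, if IsConj g (h : G) then ξ h else 0) := by
  classical
  unfold Cfsg.indFun
  congr 1
  have h1 : ∀ y : G, Cfsg.extendByZero H ξ y = ∑ h : H, if y = (h : G) then ξ h else 0 := by
    intro y
    by_cases hy : y ∈ H
    · rw [extendByZero_mem H ξ hy, Finset.sum_eq_single (⟨y, hy⟩ : H)]
      · rw [if_pos rfl]
      · intro b _ hb
        rw [if_neg]
        intro h
        apply hb
        exact Subtype.ext h.symm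
      · intro h
        exact absurd (Finset.mem_univ _) h
    · rw [extendByZero_not_mem H ξ hy]
      symm
      apply Finset.sum_eq_zero
      intro h _
      rw [if_neg]
      intro he
      apply hy
      rw [he]
      exact h.2
  rw [Finset.sum_congr rfl (fun x _ => h1 (x⁻¹ * g * x)), Finset.sum_comm, Finset.mul_sum]
  refine Finset.sum_congr rfl (fun h _ => ?_)
  rw [← Finset.sum_filter, Finset.sum_const, nsmul_eq_mul, fiber_card' g (h : G)]
  split_ifs <;> ring

theorem result {G : Type*} [Group G] [Fintype G] (H : Subgroup G) (ξ : H → ℂ) (hξ : Cfsg.IsCharacter H ξ) (g : G) : Cfsg.inducedCentralChar H ξ g = Cfsg.centralChar (Cfsg.indFun H ξ) g := by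
  classical
  have _k : Fintype H := Fintype.ofFinite H
  unfold Cfsg.inducedCentralChar Cfsg.centralChar
  have hset : {h : H | IsConj g (h : G)} =
      ↑(Finset.univ.filter (fun h : H => IsConj g (h : G))) := by
    ext h
    simp
  rw [hset, finsum_mem_coe_finset, Finset.sum_filter, indFun_eq_sum H ξ g,
    indFun_eq_sum H ξ 1]
  have h1 : ∑ h : H, (if IsConj (1 : G) (h : G) then ξ h else 0) = ξ 1 := by
    rw [Finset.sum_eq_single (1 : H)]
    · rw [if_pos]
      exact IsConj.refl _
    · intro b _ hb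
      rw [if_neg]
      intro h
      apply hb
      have h2 := isConj_one_right.mp h
      exact Subtype.ext h2
    · intro h
      exact absurd (Finset.mem_univ _) h
  have h2 : Nat.card (Subgroup.centralizer ({(1 : G)} : Set G)) = Nat.card G := by
    have h3 : Subgroup.centralizer ({(1 : G)} : Set G) = ⊤ := by
      ext x
      simp [Subgroup.mem_centralizer_iff]
    rw [h3, Subgroup.card_top]
  rw [h1, h2]
  have h4 := Subgroup.card_mul_index (Subgroup.centralizer ({g} : Set G))
  have h5 : (Nat.card G : ℂ) = (Nat.card (Subgroup.centralizer ({g} : Set G)) : ℂ) *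
      ((Subgroup.centralizer ({g} : Set G)).index : ℂ) := by
    exact_mod_cast h4.symm
  have hH : (Nat.card H : ℂ) ≠ 0 := by exact_mod_cast Nat.card_pos.ne'
  have hC : (Nat.card (Subgroup.centralizer ({g} : Set G)) : ℂ) ≠ 0 := by
    exact_mod_cast Nat.card_pos.ne'
  have hI : ((Subgroup.centralizer ({g} : Set G)).index : ℂ) ≠ 0 := by
    intro h
    rw [h, mul_zero] at h5
    have : (Nat.card G : ℂ) ≠ 0 := by exact_mod_cast Nat.card_pos.ne'
    exact this h5
  rw [h5]
  have h6 : ∑ h : H, (if IsConj g (h : G) then ξ h / ξ 1 else 0) =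
      (∑ h : H, if IsConj g (h : G) then ξ h else 0) / ξ 1 := by
    rw [Finset.sum_div]
    refine Finset.sum_congr rfl (fun h _ => ?_)
    split_ifs
    · rfl
    · rw [zero_div]
  rw [h6]
  by_cases hξ1 : ξ 1 = 0
  · rw [hξ1]
    simp
  · field_simp

end Cfsg.Agent.S0932
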