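import Mathlib
import Cfsg.Statements.S0933
import Cfsg.Agent.Lib.Helper3.Char
import Cfsg.Agent.Lib.Helper3.CharCore
import Cfsg.Agent.Lib.Helper3.BlkLocal
import Cfsg.Agent.Lib.Helper3.BlkOsima
import Cfsg.Agent.Lib.Helper3.BlkCover
import Cfsg.Agent.S0932

set_option autoImplicit false
open Cfsg
open Cfsg.Agent.Lib.Helper3.Char Cfsg.Agent.Lib.Helper3.CharCore Cfsg.Agent.Lib.Helper3.BlkLocal Cfsg.Agent.Lib.Helper3.BlkOsima Cfsg.Agent.Lib.Helper3.BlkCover

namespace Cfsg.Agent.S0933

theorem result {G : Type*} [Group G] [Fintype G] (p : ℕ) [Fact p.Prime] (M : Ideal Cfsg.AlgInt) (hM : Cfsg.IsPModular p M) (H : Subgroup G) (ξ : Cfsg.IrrCharacter H) (hind : Cfsg.IsIrrCharacter G (Cfsg.indFun H (ξ : H → ℂ))) : Cfsg.IsInducedBlock M H (Cfsg.blockOf M (ξ : H → ℂ)) (Cfsg.blockOf M (Cfsg.indFun H (ξ : H → ℂ))) := by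
  classical
  have _k : Fintype H := Fintype.ofFinite H
  have hMp : M.IsPrime := hM.2.1.isPrime
  refine ⟨⟨ξ, rfl⟩, ⟨⟨_, hind⟩, rfl⟩, ?_⟩
  intro ξ' hξ' χ hχ g
  have h1 : Cfsg.inducedCentralChar H (ξ' : H → ℂ) g - Cfsg.centralChar (χ : G → ℂ) g =
      (Cfsg.inducedCentralChar H (ξ' : H → ℂ) g - Cfsg.inducedCentralChar H (ξ : H → ℂ) g) +
      (Cfsg.centralChar (Cfsg.indFun H (ξ : H → ℂ)) g - Cfsg.centralChar (χ : G → ℂ) g) := by
    rw [Cfsg.Agent.S0932.result H (ξ : H → ℂ) (isCharacter_of_irr ξ.2) g]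
    ring
  rw [h1]
  apply li_add hMp
  · have hv : (fun η : Cfsg.IrrCharacter H =>
        (∑ h : H, (if IsConj g (h : G) then (1 : ℂ) else 0) * (η : H → ℂ) h) /
          (η : H → ℂ) 1) ∈ Zring M hMp H := by
      refine ⟨fun h => if IsConj g (h : G) then 1 else 0, ?_, ?_, fun η => rfl⟩
      · intro h k
        have e : IsConj g ((k * h * k⁻¹ : H) : G) ↔ IsConj g (h : G) := by
          have e1 : IsConj (h : G) ((k * h * k⁻¹ : H) : G) := by
            rw [isConj_iff]
            exact ⟨(k : G), by simp⟩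
          constructor
          · intro h2
            exact h2.trans e1.symm
          · intro h2
            exact h2.trans e1
        show (if IsConj g ((k * h * k⁻¹ : H) : G) then (1 : ℂ) else 0) =
          if IsConj g (h : G) then 1 else 0
        simp only [e]
      · intro h
        show Cfsg.MemLocalRing M (if IsConj g (h : G) then (1 : ℂ) else 0)
        split_ifs
        · exact lr_one hMp
        · exact lr_zero hMp
    have h2 := Z_sameBlock hMp hv ξ' ξ (sb_symm hξ')
    have h3 : ∀ η : Cfsg.IrrCharacter H, Cfsg.inducedCentralChar H (η : H → ℂ) g =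
        (∑ h : H, (if IsConj g (h : G) then (1 : ℂ) else 0) * (η : H → ℂ) h) /
          (η : H → ℂ) 1 := by
      intro η
      unfold Cfsg.inducedCentralChar
      rw [finsum_mem_ite, Finset.sum_div]
      refine Finset.sum_congr rfl (fun h _ => ?_)
      by_cases hc : IsConj g (h : G)
      · rw [if_pos hc, if_pos (by exact hc), one_mul]
      · rw [if_neg hc, if_neg (by exact hc), zero_mul, zero_div]
    rw [h3, h3]
    exact h2
  · exact hχ g

end Cfsg.Agent.S0933
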