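import Mathlib
import Cfsg.Statements.S0938
import Cfsg.Agent.Lib.Helper3.Char
import Cfsg.Agent.Lib.Helper3.CharCore
import Cfsg.Agent.Lib.Helper3.CharArith
import Cfsg.Agent.Lib.Helper3.BlkLocal
import Cfsg.Agent.Lib.Helper3.BlkOsima
import Cfsg.Agent.Lib.Helper3.BlkOrth
import Cfsg.Agent.Lib.Helper3.BlkOrth2
import Cfsg.Agent.Lib.Helper3.BlkDef
import Cfsg.Agent.Lib.Helper3.BlkCover
import Cfsg.Agent.Lib.Helper3.BlkKer

set_option autoImplicit false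
open Cfsg
open Cfsg.Agent.Lib.Helper3.Char Cfsg.Agent.Lib.Helper3.CharCore Cfsg.Agent.Lib.Helper3.CharArith Cfsg.Agent.Lib.Helper3.BlkLocal Cfsg.Agent.Lib.Helper3.BlkOsima Cfsg.Agent.Lib.Helper3.BlkOrth Cfsg.Agent.Lib.Helper3.BlkOrth2 Cfsg.Agent.Lib.Helper3.BlkDef Cfsg.Agent.Lib.Helper3.BlkCover Cfsg.Agent.Lib.Helper3.BlkKer
open scoped ComplexConjugate

namespace Cfsg.Agent.S0938

theorem result {G : Type*} [Group G] [Finite G] (p : ℕ) [Fact p.Prime] (M : Ideal Cfsg.AlgInt) (hM : Cfsg.IsPModular p M) (B : Set (Cfsg.IrrCharacter G)) (hB : Cfsg.IsPBlock M B) (χ : Cfsg.IrrCharacter G) (hχ : χ ∈ B) : ∃ K : Subgroup G, K.Normal ∧ (K : Set G) = Cfsg.blockKer B ∧ ¬ p ∣ Nat.card K ∧ (∀ g ∈ K, (χ : G → ℂ) g = (χ : G → ℂ) 1) ∧ ∀ N : Subgroup G, N.Normal → ¬ p ∣ Nat.card N → (∀ g ∈ N, (χ : G → ℂ) g = (χ : G → ℂ) 1) → N ≤ K := by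
  classical
  have _fg : Fintype G := Fintype.ofFinite G
  have _fi : Fintype (Cfsg.IrrCharacter G) := Fintype.ofFinite _
  have hp := hM.1
  have hMp := hM.2.1.isPrime
  have hsub : ∀ ψ : Cfsg.IrrCharacter G, ∃ S : Subgroup G, S.Normal ∧
      ∀ g, g ∈ S ↔ (ψ : G → ℂ) g = (ψ : G → ℂ) 1 :=
    fun ψ => char_ker_sub _ (isCharacter_of_irr ψ.2)
  let K : Subgroup G :=
    { carrier := Cfsg.blockKer B
      mul_mem' := by
        intro a b ha hb ψ hψ
        obtain ⟨S, _, hS⟩ := hsub ψ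
        exact (hS _).mp (S.mul_mem ((hS a).mpr (ha ψ hψ)) ((hS b).mpr (hb ψ hψ)))
      one_mem' := fun ψ _ => rfl
      inv_mem' := by
        intro a ha ψ hψ
        obtain ⟨S, _, hS⟩ := hsub ψ
        exact (hS _).mp (S.inv_mem ((hS a).mpr (ha ψ hψ))) }
  have hKmem : ∀ g : G, g ∈ K ↔ ∀ ψ ∈ B, (ψ : G → ℂ) g = (ψ : G → ℂ) 1 := fun g => Iff.rfl
  refine ⟨K, ?_, rfl, ?_, ?_, ?_⟩
  · constructor
    intro n hn g
    rw [hKmem] at hn ⊢
    intro ψ hψ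
    rw [char_classFun (isCharacter_of_irr ψ.2) n g]
    exact hn ψ hψ
  · intro hdvd
    obtain ⟨u, hu⟩ := exists_prime_orderOf_dvd_card' (G := K) p hdvd
    have hu' : orderOf (u : G) = p := by
      rw [Subgroup.orderOf_coe]
      exact hu
    have h1 := blockCoeff_sing hM B hB (u : G) (by rw [hu'])
    have h2 := blockCoeff_one_ne_zero hMp B hB
    apply h2
    rw [← h1, blockCoeff_eq B, blockCoeff_eq B]
    congr 1
    refine Finset.sum_congr rfl (fun ψ _ => ?_)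
    by_cases hψ : ψ ∈ B
    · rw [if_pos hψ, if_pos hψ, (hKmem u).mp u.2 ψ hψ]
    · rw [if_neg hψ, if_neg hψ]
  · intro g hg
    exact (hKmem g).mp hg χ hχ
  · intro N hN hNp hNχ g hg
    have _fN : Fintype N := Fintype.ofFinite N
    rw [hKmem]
    intro ψ hψ
    have hsame : Cfsg.SameBlock M (χ : G → ℂ) (ψ : G → ℂ) := by
      obtain ⟨χ0, rfl⟩ := hB
      exact sb_trans hMp (sb_symm hχ) hψ
    have hin : Cfsg.classInner (fun n : N => (χ : G → ℂ) n) (fun _ : N => (1 : ℂ)) ≠ 0 := by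
      unfold Cfsg.classInner
      simp only [map_one, mul_one]
      have e : ∑ n : N, (χ : G → ℂ) (n : G) = (Nat.card N : ℂ) * (χ : G → ℂ) 1 := by
        rw [Finset.sum_congr rfl (fun (n : N) _ => hNχ (n : G) n.2), Finset.sum_const, Finset.card_univ,
          Nat.card_eq_fintype_card, nsmul_eq_mul]
      rw [e, ← mul_assoc, inv_mul_cancel₀ (Nat.cast_ne_zero.mpr Nat.card_pos.ne'), one_mul]
      exact irr_one_ne_zero χ.2
    have hin' := cover_block hM N hNp (fun _ : N => (1 : ℂ)) (isIrr_one N) χ ψ hsame hin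
    exact const_of_inner_one N (ψ : G → ℂ) ψ.2 hin' g hg

end Cfsg.Agent.S0938
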