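import Mathlib
import Cfsg.Statements.S0939
import Cfsg.Agent.Lib.Helper3.Core
import Cfsg.Agent.Lib.Helper3.BlkLocal
import Cfsg.Agent.Lib.Helper3.BlkCover
import Cfsg.Agent.Lib.Helper3.BlkCover2

set_option autoImplicit false
open Cfsg
open Cfsg.Agent.Lib.Helper3.Core Cfsg.Agent.Lib.Helper3.BlkLocal Cfsg.Agent.Lib.Helper3.BlkCover Cfsg.Agent.Lib.Helper3.BlkCover2

namespace Cfsg.Agent.S0939

theorem result {G : Type*} [Group G] [Finite G] (p : ℕ) [Fact p.Prime] (M : Ideal Cfsg.AlgInt) (hM : Cfsg.IsPModular p M) (hnc : ∃ k : ℕ, (Cfsg.pPrimeCore p G).index = p ^ k) : Cfsg.principalBlock M G = {χ : Cfsg.IrrCharacter G | ∀ n ∈ Cfsg.pPrimeCore p G, (χ : G → ℂ) n = (χ : G → ℂ) 1} := by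
  classical
  have _fg : Fintype G := Fintype.ofFinite G
  have _hN : (Cfsg.pPrimeCore p G).Normal := pPrimeCore_normal p
  have hp := (Fact.out : p.Prime)
  have hcop := pPrimeCore_cop (G := G) p
  have hNp : ¬ p ∣ Nat.card (Cfsg.pPrimeCore p G) := by
    intro hd
    exact hp.one_lt.ne' (Nat.Coprime.eq_one_of_dvd hcop.symm hd)
  obtain ⟨k, hk⟩ := hnc
  exact principal_ncomp hM (Cfsg.pPrimeCore p G) hNp hk

end Cfsg.Agent.S0939
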