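import Mathlib
import Cfsg.Statements.S0940
import Cfsg.Agent.Lib.Helper3.Char
import Cfsg.Agent.Lib.Helper3.CharCore
import Cfsg.Agent.Lib.Helper3.CharArith
import Cfsg.Agent.Lib.Helper3.BlkLocal
import Cfsg.Agent.Lib.Helper3.BlkOsima
import Cfsg.Agent.Lib.Helper3.BlkOrth
import Cfsg.Agent.Lib.Helper3.BlkOrth2
import Cfsg.Agent.Lib.Helper3.BlkOrth3
import Cfsg.Agent.Lib.Helper3.BlkOrth4
import Cfsg.Agent.Lib.Helper3.BlkSecond3
import Cfsg.Agent.Lib.Helper3.GrpPReg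
import Cfsg.Agent.Lib.Helper3.BlkSoc1
import Cfsg.Agent.Lib.Helper3.BlkSoc2
import Cfsg.Agent.S0936

set_option autoImplicit false
open Cfsg
open Cfsg.Agent.Lib.Helper3.Char Cfsg.Agent.Lib.Helper3.CharCore Cfsg.Agent.Lib.Helper3.CharArith Cfsg.Agent.Lib.Helper3.BlkLocal Cfsg.Agent.Lib.Helper3.BlkOsima Cfsg.Agent.Lib.Helper3.BlkOrth Cfsg.Agent.Lib.Helper3.BlkOrth2 Cfsg.Agent.Lib.Helper3.BlkOrth3 Cfsg.Agent.Lib.Helper3.BlkOrth4 Cfsg.Agent.Lib.Helper3.BlkSecond3 Cfsg.Agent.Lib.Helper3.GrpPReg Cfsg.Agent.Lib.Helper3.BlkSoc1 Cfsg.Agent.Lib.Helper3.BlkSoc2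
open scoped ComplexConjugate

namespace Cfsg.Agent.S0940

theorem count_pairs {G : Type*} [Group G] [Fintype G] [DecidableEq G] (p : ℕ) (g : G)
    [DecidablePred (fun x : G => ∃ k : ℕ, orderOf x = p ^ k)] :
    ∑ x : G, (if (∃ k : ℕ, orderOf x = p ^ k) then
      (if p ∣ orderOf (x * g) then (0 : ℂ) else 1) else 0) =
      (Nat.card {xy : G × G // (∃ k : ℕ, orderOf xy.1 = p ^ k) ∧ ¬ p ∣ orderOf xy.2 ∧
        xy.1 * xy.2 = g} : ℂ) := by
  have e : {x : G // (∃ k : ℕ, orderOf x = p ^ k) ∧ ¬ p ∣ orderOf (x * g)} ≃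
      {xy : G × G // (∃ k : ℕ, orderOf xy.1 = p ^ k) ∧ ¬ p ∣ orderOf xy.2 ∧
        xy.1 * xy.2 = g} :=
    { toFun := fun x => ⟨(x.1⁻¹, x.1 * g), by
        refine ⟨?_, x.2.2, ?_⟩
        · show ∃ k : ℕ, orderOf x.1⁻¹ = p ^ k
          rw [orderOf_inv]
          exact x.2.1
        · show x.1⁻¹ * (x.1 * g) = g
          rw [inv_mul_cancel_left]⟩
      invFun := fun xy => ⟨xy.1.1⁻¹, by
        refine ⟨?_, ?_⟩
        · rw [orderOf_inv]
          exact xy.2.1
        · have h2 : xy.1.1 * xy.1.2 = g := xy.2.2.2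
          have h1 : xy.1.1⁻¹ * g = xy.1.2 := inv_mul_eq_iff_eq_mul.mpr h2.symm
          have h3 : ¬ p ∣ orderOf xy.1.2 := xy.2.2.1
          intro h4
          apply h3
          have h5 : orderOf (xy.1.1⁻¹ * g) = orderOf xy.1.2 := congrArg orderOf h1
          exact h5 ▸ h4⟩
      left_inv := fun x => Subtype.ext (inv_inv _)
      right_inv := fun xy => Subtype.ext (Prod.ext (inv_inv _) (by
        show xy.1.1⁻¹ * g = xy.1.2
        exact inv_mul_eq_iff_eq_mul.mpr xy.2.2.2.symm)) }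
  have h1 : ∀ x : G, (if (∃ k : ℕ, orderOf x = p ^ k) then
      (if p ∣ orderOf (x * g) then (0 : ℂ) else 1) else 0) =
      if ((∃ k : ℕ, orderOf x = p ^ k) ∧ ¬ p ∣ orderOf (x * g)) then 1 else 0 := by
    intro x
    by_cases hP : ∃ k : ℕ, orderOf x = p ^ k
    · by_cases hQ : p ∣ orderOf (x * g)
      · rw [if_pos hP, if_pos hQ, if_neg (fun h => h.2 hQ)]
      · rw [if_pos hP, if_neg hQ, if_pos ⟨hP, hQ⟩]
    · rw [if_neg hP, if_neg (fun h => hP h.1)]
  rw [Finset.sum_congr rfl (fun x _ => h1 x), Finset.sum_boole, ← Nat.card_congr e,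
    Nat.card_eq_fintype_card, Fintype.card_subtype]

theorem sum_pelt_coeff {p : ℕ} [Fact p.Prime] {M : Ideal Cfsg.AlgInt} (hM : Cfsg.IsPModular p M)
    {G : Type*} [Group G] [Fintype G] [Fintype (Cfsg.IrrCharacter G)]
    (B : Set (Cfsg.IrrCharacter G)) (hB : Cfsg.IsPBlock M B) (g : G) (hg : ¬ p ∣ orderOf g)
    [DecidablePred (fun x : G => ∃ k : ℕ, orderOf x = p ^ k)] :
    ∑ x : G, (if (∃ k : ℕ, orderOf x = p ^ k) then Cfsg.blockCoeff B (x * g) else 0) =
      Cfsg.blockCoeff B g := by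
  classical
  obtain ⟨f, hf⟩ : ∃ f : G → ℂ,
      f = fun x => if (∃ k : ℕ, orderOf x = p ^ k) then (1 : ℂ) else 0 := ⟨_, rfl⟩
  have hfv : ∀ x : G, (∃ k : ℕ, orderOf x = p ^ k) → f x = 1 := by
    intro x hx
    rw [hf]
    exact if_pos hx
  have hfv0 : ∀ x : G, ¬ (∃ k : ℕ, orderOf x = p ^ k) → f x = 0 := by
    intro x hx
    rw [hf]
    exact if_neg hx
  have hfc : Cfsg.IsClassFunction G f := by
    intro x k
    have h1 : orderOf (k * x * k⁻¹) = orderOf x :=
      (SemiconjBy.orderOf_eq k (show SemiconjBy k x (k * x * k⁻¹) by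
        unfold SemiconjBy
        group)).symm
    by_cases hx : ∃ j : ℕ, orderOf x = p ^ j
    · have hx' : ∃ j : ℕ, orderOf (k * x * k⁻¹) = p ^ j := by
        obtain ⟨j, hj⟩ := hx
        exact ⟨j, h1.trans hj⟩
      rw [hfv _ hx, hfv _ hx']
    · have hx' : ¬ ∃ j : ℕ, orderOf (k * x * k⁻¹) = p ^ j := by
        rintro ⟨j, hj⟩
        exact hx ⟨j, h1.symm.trans hj⟩
      rw [hfv0 _ hx, hfv0 _ hx']
  have h0 : ∀ x : G, (if (∃ k : ℕ, orderOf x = p ^ k) then Cfsg.blockCoeff B (x * g) else 0) =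
      f x * Cfsg.blockCoeff B (x * g) := by
    intro x
    by_cases hx : ∃ k : ℕ, orderOf x = p ^ k
    · rw [if_pos hx, hfv x hx, one_mul]
    · rw [if_neg hx, hfv0 x hx, zero_mul]
  have hA1 : ∀ χ : Cfsg.IrrCharacter G,
      ∑ x : G, f x * ((χ : G → ℂ) 1 * conj ((χ : G → ℂ) (x * g))) =
      ∑ x : G, f x * (conj ((χ : G → ℂ) x) * conj ((χ : G → ℂ) g)) := by
    intro χ
    obtain ⟨n, hn, h1⟩ := irr_one_pos χ.2
    have h2 := conv_char f hfc (fun y => conj ((χ : G → ℂ) y)) (isIrr_conj χ.2) g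
    have h3 : conj ((χ : G → ℂ) 1) = (χ : G → ℂ) 1 := by
      rw [h1]
      exact Complex.conj_natCast n
    have h4 : (χ : G → ℂ) 1 ≠ 0 := irr_one_ne_zero χ.2
    calc ∑ x : G, f x * ((χ : G → ℂ) 1 * conj ((χ : G → ℂ) (x * g)))
        = (χ : G → ℂ) 1 * ∑ x : G, f x * conj ((χ : G → ℂ) (x * g)) := by
          rw [Finset.mul_sum]
          refine Finset.sum_congr rfl (fun x _ => ?_)
          ring
      _ = (χ : G → ℂ) 1 * (((∑ x : G, f x * conj ((χ : G → ℂ) x)) / conj ((χ : G → ℂ) 1)) *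
            conj ((χ : G → ℂ) g)) := by rw [h2]
      _ = (∑ x : G, f x * conj ((χ : G → ℂ) x)) * conj ((χ : G → ℂ) g) := by
          rw [h3]
          field_simp
      _ = ∑ x : G, f x * (conj ((χ : G → ℂ) x) * conj ((χ : G → ℂ) g)) := by
          rw [Finset.sum_mul]
          refine Finset.sum_congr rfl (fun x _ => ?_)
          ring
  have h1 : ∀ x : G, f x * Cfsg.blockCoeff B (x * g) = (Nat.card G : ℂ)⁻¹ *
      ∑ χ : Cfsg.IrrCharacter G,
        (if χ ∈ B then f x * ((χ : G → ℂ) 1 * conj ((χ : G → ℂ) (x * g))) else 0) := by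
    intro x
    rw [blockCoeff_eq, mul_left_comm, Finset.mul_sum]
    congr 1
    refine Finset.sum_congr rfl (fun χ _ => ?_)
    split_ifs
    · rfl
    · rw [mul_zero]
  have h2 : ∀ χ : Cfsg.IrrCharacter G,
      ∑ x : G, (if χ ∈ B then f x * ((χ : G → ℂ) 1 * conj ((χ : G → ℂ) (x * g))) else 0) =
      ∑ x : G, (if χ ∈ B then f x * (conj ((χ : G → ℂ) x) * conj ((χ : G → ℂ) g)) else 0) := by
    intro χ
    by_cases hχ : χ ∈ B
    · simp only [if_pos hχ]
      exact hA1 χ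
    · simp only [if_neg hχ]
  rw [Finset.sum_congr rfl (fun x _ => h0 x), Finset.sum_congr rfl (fun x _ => h1 x),
    ← Finset.mul_sum, Finset.sum_comm, Finset.sum_congr rfl (fun χ _ => h2 χ), Finset.sum_comm,
    Finset.sum_eq_single 1]
  · rw [blockCoeff_eq]
    congr 1
    refine Finset.sum_congr rfl (fun χ _ => ?_)
    have hf1 : f 1 = 1 := hfv 1 ⟨0, by rw [orderOf_one, pow_zero]⟩
    obtain ⟨n, hn, h3⟩ := irr_one_pos χ.2
    split_ifs
    · rw [hf1, one_mul, h3, Complex.conj_natCast]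
    · rfl
  · intro x _ hx1
    by_cases hx : ∃ k : ℕ, orderOf x = p ^ k
    · have hbo := block_orth hM B hB x g⁻¹ x 1
        ⟨1, mul_one x, Commute.one_right x, hx, by
          rw [orderOf_one]
          exact (Fact.out : p.Prime).one_lt.ne' ∘ Nat.dvd_one.mp⟩
        ⟨g⁻¹, one_mul _, Commute.one_left _, ⟨0, by rw [orderOf_one, pow_zero]⟩, by
          rw [orderOf_inv]
          exact hg⟩
        (fun hc => hx1 (isConj_one_left.mp hc))
      rw [inv_inv] at hbo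
      have h3 : ∑ χ : Cfsg.IrrCharacter G,
          (if χ ∈ B then f x * (conj ((χ : G → ℂ) x) * conj ((χ : G → ℂ) g)) else 0) =
          f x * conj (∑ χ : Cfsg.IrrCharacter G,
            (if χ ∈ B then (χ : G → ℂ) x * (χ : G → ℂ) g else 0)) := by
        rw [map_sum, Finset.mul_sum]
        refine Finset.sum_congr rfl (fun χ _ => ?_)
        split_ifs
        · rw [map_mul]
        · rw [map_zero, mul_zero]
      rw [h3, hbo, map_zero, mul_zero]
    · simp only [hfv0 x hx, zero_mul, ite_self, Finset.sum_const_zero]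
  · intro h
    exact absurd (Finset.mem_univ _) h

theorem result {G : Type*} [Group G] [Finite G] (p : ℕ) [Fact p.Prime] (M : Ideal Cfsg.AlgInt) (hM : Cfsg.IsPModular p M) (g : G) (hg : ¬ p ∣ orderOf g) : Cfsg.MemLocalIdeal M (Cfsg.blockCoeff (Cfsg.principalBlock M G) g - (Nat.card {xy : G × G // (∃ k : ℕ, orderOf xy.1 = p ^ k) ∧ ¬ p ∣ orderOf xy.2 ∧ xy.1 * xy.2 = g} : ℂ) / (Nat.card {y : G // ¬ p ∣ orderOf y} : ℂ)) := by
  classical
  have _fg : Fintype G := Fintype.ofFinite G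
  have _fc : Fintype (ConjClasses G) := Fintype.ofFinite _
  have _fi : Fintype (Cfsg.IrrCharacter G) := Fintype.ofFinite _
  have hMp := hM.2.1.isPrime
  obtain ⟨oneG, hoG⟩ : ∃ o : Cfsg.IrrCharacter G, (o : G → ℂ) = fun _ => 1 :=
    ⟨⟨_, isIrr_one G⟩, rfl⟩
  have hB : Cfsg.IsPBlock M (Cfsg.principalBlock M G) := ⟨oneG, by rw [hoG]; rfl⟩
  obtain ⟨s, hs⟩ : ∃ s : G → ℂ, s = fun x => if p ∣ orderOf x then (0 : ℂ) else 1 := ⟨_, rfl⟩
  have hsc : Cfsg.IsClassFunction G s := by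
    rw [hs]
    exact Cfsg.Agent.S0936.preg_classFun p
  have hslr : ∀ x, Cfsg.MemLocalRing M (s x) := by
    intro x
    rw [hs]
    simp only
    split_ifs
    · exact lr_zero hMp
    · exact lr_one hMp
  obtain ⟨R, hRdef⟩ : ∃ R : ℕ, R = Nat.card {y : G // ¬ p ∣ orderOf y} := ⟨_, rfl⟩
  have hR : ¬ p ∣ R := by
    rw [hRdef]
    exact preg_card_not_dvd p
  have hsR : ∑ x : G, s x = (R : ℂ) := by
    rw [hs, hRdef, Nat.card_eq_fintype_card, Fintype.card_subtype, Finset.sum_ite,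
      Finset.sum_const_zero, zero_add, Finset.sum_const, nsmul_eq_mul, mul_one]
  have hRlr : Cfsg.MemLocalRing M (R : ℂ) := by
    have h1 := lr_int hMp (R : Cfsg.AlgInt)
    simpa using h1
  obtain ⟨a, ha⟩ : ∃ a : G → ℂ, a = Cfsg.blockCoeff (Cfsg.principalBlock M G) := ⟨_, rfl⟩
  have hac : Cfsg.IsClassFunction G a := by
    rw [ha]
    exact blockCoeff_classFun _
  have halr : ∀ x, Cfsg.MemLocalRing M (a x) := by
    intro x
    rw [ha]
    exact osima_fun hMp _ hB x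
  obtain ⟨W, hW⟩ : ∃ W : G → ℂ, W = fun x => s x - (R : ℂ) * a x := ⟨_, rfl⟩
  have hWc : Cfsg.IsClassFunction G W := by
    intro x k
    rw [hW]
    simp only
    rw [hsc x k, hac x k]
  have hWlr : ∀ x, Cfsg.MemLocalRing M (W x) := by
    intro x
    rw [hW]
    exact lr_sub hMp (hslr x) (lr_mul hMp hRlr (halr x))
  have hω : ∀ χ : Cfsg.IrrCharacter G,
      Cfsg.MemLocalIdeal M ((∑ x : G, W x * (χ : G → ℂ) x) / (χ : G → ℂ) 1) := by
    intro χ
    have hχ1 := irr_one_ne_zero χ.2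
    have hsplit : (∑ x : G, W x * (χ : G → ℂ) x) / (χ : G → ℂ) 1 =
        (∑ x : G, s x * (χ : G → ℂ) x) / (χ : G → ℂ) 1 -
          (R : ℂ) * ((∑ x : G, a x * (χ : G → ℂ) x) / (χ : G → ℂ) 1) := by
      rw [hW]
      simp only [sub_mul, Finset.sum_sub_distrib, sub_div, mul_assoc, ← Finset.mul_sum,
        mul_div_assoc]
    have hom := blockCoeff_om (Cfsg.principalBlock M G) χ
    rw [hsplit, ha, hom]
    by_cases hχ : χ ∈ Cfsg.principalBlock M G
    · rw [if_pos hχ, div_self hχ1, mul_one]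
      have h1 : Cfsg.SameBlock M (fun _ => 1) (χ : G → ℂ) := hχ
      have hkey : Cfsg.MemLocalIdeal M ((∑ x : G, s x * (χ : G → ℂ) x) / (χ : G → ℂ) 1 -
          (∑ x : G, s x * (oneG : G → ℂ) x) / (oneG : G → ℂ) 1) := by
        rw [om_classes s hsc _ (char_classFun (isCharacter_of_irr χ.2)),
          om_classes s hsc _ (char_classFun (isCharacter_of_irr oneG.2)),
          ← Finset.sum_sub_distrib]
        apply li_sum hMp
        intro C _
        rw [← mul_sub]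
        apply li_mul_left hMp (hslr _)
        have h2 := li_neg (h1 (Quotient.out C))
        rw [neg_sub] at h2
        rw [hoG]
        exact h2
      have hone : (∑ x : G, s x * (oneG : G → ℂ) x) / (oneG : G → ℂ) 1 = (R : ℂ) := by
        rw [hoG]
        simp only [mul_one, div_one]
        exact hsR
      rw [hone] at hkey
      exact hkey
    · rw [if_neg hχ, zero_div, mul_zero, sub_zero]
      have h1 := diff_block_orth hM χ oneG (by
        rw [hoG]
        intro h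
        exact hχ (sb_symm h))
      have h2 : ∑ x : G, s x * (χ : G → ℂ) x = 0 := by
        rw [← h1]
        refine Finset.sum_congr rfl (fun x _ => ?_)
        rw [hs, hoG]
        by_cases hc : p ∣ orderOf x
        · simp [hc]
        · simp [hc]
      rw [h2, zero_div]
      exact li_zero hMp
  have hsoc := soc hM W hWc hWlr hω g
  have hN := count_pairs p g
  have hA := sum_pelt_coeff hM (Cfsg.principalBlock M G) hB g hg
  have hfin : ∑ x : G, (if (∃ k : ℕ, orderOf x = p ^ k) then W (x * g) else 0) =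
      (Nat.card {xy : G × G // (∃ k : ℕ, orderOf xy.1 = p ^ k) ∧ ¬ p ∣ orderOf xy.2 ∧
        xy.1 * xy.2 = g} : ℂ) - (R : ℂ) * Cfsg.blockCoeff (Cfsg.principalBlock M G) g := by
    rw [← hN, ← hA, Finset.mul_sum, ← Finset.sum_sub_distrib]
    refine Finset.sum_congr rfl (fun x _ => ?_)
    rw [hW, hs, ha]
    by_cases hx : ∃ k : ℕ, orderOf x = p ^ k
    · rw [if_pos hx, if_pos hx, if_pos hx]
    · rw [if_neg hx, if_neg hx, if_neg hx, mul_zero, sub_zero]
  rw [hfin] at hsoc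
  have hRinv := lr_nat_inv hM hR
  have h3 := li_mul_right hMp (li_neg hsoc) hRinv
  have hR0 : (R : ℂ) ≠ 0 := by
    intro h0
    apply hR
    have h1 : R = 0 := by exact_mod_cast h0
    rw [h1]
    exact dvd_zero _
  have e : -((Nat.card {xy : G × G // (∃ k : ℕ, orderOf xy.1 = p ^ k) ∧ ¬ p ∣ orderOf xy.2 ∧
        xy.1 * xy.2 = g} : ℂ) - (R : ℂ) * Cfsg.blockCoeff (Cfsg.principalBlock M G) g) *
      (R : ℂ)⁻¹ = Cfsg.blockCoeff (Cfsg.principalBlock M G) g -
      (Nat.card {xy : G × G // (∃ k : ℕ, orderOf xy.1 = p ^ k) ∧ ¬ p ∣ orderOf xy.2 ∧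
        xy.1 * xy.2 = g} : ℂ) / (R : ℂ) := by
    field_simp
    ring
  rw [e, hRdef] at h3
  exact h3

end Cfsg.Agent.S0940
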