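import Mathlib
import Cfsg.Statements.S0941
import Cfsg.Agent.Lib.Helper3.Char
import Cfsg.Agent.Lib.Helper3.CharCore
import Cfsg.Agent.Lib.Helper3.CharProj
import Cfsg.Agent.Lib.Helper3.BlkLocal
import Cfsg.Agent.Lib.Helper3.BlkOsima
import Cfsg.Agent.Lib.Helper3.BlkOrth
import Cfsg.Agent.Lib.Helper3.BlkOrth2
import Cfsg.Agent.Lib.Helper3.BlkCore
import Cfsg.Agent.Lib.Helper3.BlkInfl

set_option autoImplicit false
open Cfsg
open Cfsg.Agent.Lib.Helper3.Char Cfsg.Agent.Lib.Helper3.CharCore Cfsg.Agent.Lib.Helper3.CharProj Cfsg.Agent.Lib.Helper3.BlkLocal Cfsg.Agent.Lib.Helper3.BlkOsima Cfsg.Agent.Lib.Helper3.BlkOrth Cfsg.Agent.Lib.Helper3.BlkOrth2 Cfsg.Agent.Lib.Helper3.BlkCore Cfsg.Agent.Lib.Helper3.BlkInfl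

namespace Cfsg.Agent.S0941

theorem result {G : Type*} [Group G] [Finite G] (p : ℕ) [Fact p.Prime] (M : Ideal Cfsg.AlgInt) (hM : Cfsg.IsPModular p M) (P : Subgroup G) [P.Normal] (hP : IsPGroup p P) (hC : ∃ k : ℕ, (Subgroup.centralizer (P : Set G)).index = p ^ k) : (∀ χ ψ : Cfsg.IrrCharacter (G ⧸ P), Cfsg.SameBlock M (χ : G ⧸ P → ℂ) (ψ : G ⧸ P → ℂ) ↔ Cfsg.SameBlock M ((χ : G ⧸ P → ℂ) ∘ QuotientGroup.mk) ((ψ : G ⧸ P → ℂ) ∘ QuotientGroup.mk)) ∧ ∀ B : Set (Cfsg.IrrCharacter G), Cfsg.IsPBlock M B → ∃ χ : Cfsg.IrrCharacter (G ⧸ P), ∃ θ ∈ B, (θ : G → ℂ) = (χ : G ⧸ P → ℂ) ∘ QuotientGroup.mk := by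
  classical
  have _fg : Fintype G := Fintype.ofFinite G
  have _fq : Fintype (G ⧸ P) := Fintype.ofFinite _
  have hp := hM.1
  have hMp := hM.2.1.isPrime
  have hcc : ∀ (χ : Cfsg.IrrCharacter (G ⧸ P)) (g : G),
      Cfsg.centralChar ((χ : G ⧸ P → ℂ) ∘ QuotientGroup.mk) g =
        (((Subgroup.centralizer ({g} : Set G)).index /
          (Subgroup.centralizer ({(QuotientGroup.mk g : G ⧸ P)} : Set (G ⧸ P))).index : ℕ) : ℂ) *
          Cfsg.centralChar (χ : G ⧸ P → ℂ) (QuotientGroup.mk g) := by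
    intro χ g
    have hdvd := index_cent_quot_dvd P g
    have h1 : ((Subgroup.centralizer ({g} : Set G)).index : ℂ) =
        (((Subgroup.centralizer ({g} : Set G)).index /
          (Subgroup.centralizer ({(QuotientGroup.mk g : G ⧸ P)} : Set (G ⧸ P))).index : ℕ) : ℂ) *
        ((Subgroup.centralizer ({(QuotientGroup.mk g : G ⧸ P)} : Set (G ⧸ P))).index : ℂ) := by
      rw [← Nat.cast_mul, Nat.div_mul_cancel hdvd]
    unfold Cfsg.centralChar
    rw [h1]
    simp only [Function.comp_apply]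
    have h2 : (QuotientGroup.mk (1 : G) : G ⧸ P) = 1 := rfl
    rw [h2]
    ring
  constructor
  · intro χ ψ
    constructor
    · intro h g
      rw [hcc χ g, hcc ψ g, ← mul_sub]
      exact li_mul_left hMp (lr_of_isIntegral hMp (isIntegral_natCast _)) (h _)
    · intro h
      apply sameBlock_of_preg hM
      intro y hy
      obtain ⟨x, rfl, hx⟩ := preg_lift hp P y hy
      obtain ⟨k, hk⟩ := hC
      have hxC : x ∈ Subgroup.centralizer (P : Set G) := preg_mem_of_index hp _ hk x hx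
      have hxP : ∀ u ∈ P, u * x = x * u := by
        rw [Subgroup.mem_centralizer_iff] at hxC
        exact hxC
      have hidx := index_cent_quot_eq hp P hP x hx hxP
      have e : ∀ φ : Cfsg.IrrCharacter (G ⧸ P),
          Cfsg.centralChar ((φ : G ⧸ P → ℂ) ∘ QuotientGroup.mk) x =
            Cfsg.centralChar (φ : G ⧸ P → ℂ) (QuotientGroup.mk x) := by
        intro φ
        unfold Cfsg.centralChar
        rw [hidx]
        rfl
      rw [← e χ, ← e ψ]
      exact h x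
  · intro B hB
    obtain ⟨θ, hθ, hker⟩ := exists_ker hM P hP B hB
    obtain ⟨χ, hχ, hχθ⟩ := descend (QuotientGroup.mk' P) (QuotientGroup.mk'_surjective P)
      (θ : G → ℂ) θ.2 (by
        intro z hz
        apply hker
        exact (QuotientGroup.eq_one_iff z).mp hz)
    refine ⟨⟨χ, hχ⟩, θ, hθ, ?_⟩
    funext x
    exact (hχθ x).symm

end Cfsg.Agent.S0941
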