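import Mathlib
import Cfsg.Statements.S0942
import Cfsg.Agent.Lib.Helper3.Char
import Cfsg.Agent.Lib.Helper3.CharCore
import Cfsg.Agent.Lib.Helper3.Core
import Cfsg.Agent.Lib.Helper3.BlkLocal
import Cfsg.Agent.Lib.Helper3.BlkOsima
import Cfsg.Agent.Lib.Helper3.BlkCover
import Cfsg.Agent.Lib.Helper3.BlkPrin

set_option autoImplicit false
open Cfsg
open Cfsg.Agent.Lib.Helper3.Char Cfsg.Agent.Lib.Helper3.CharCore Cfsg.Agent.Lib.Helper3.Core Cfsg.Agent.Lib.Helper3.BlkLocal Cfsg.Agent.Lib.Helper3.BlkOsima Cfsg.Agent.Lib.Helper3.BlkCover Cfsg.Agent.Lib.Helper3.BlkPrin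
open scoped ComplexConjugate

namespace Cfsg.Agent.S0942

theorem result {G : Type*} [Group G] [Finite G] (p : ℕ) [Fact p.Prime] (M : Ideal Cfsg.AlgInt) (hM : Cfsg.IsPModular p M) (u : G) (hu : ∃ k : ℕ, orderOf u = p ^ k) (v : G) (hv : v ∈ Cfsg.centralizerPPrimeCore p u) (χ : Cfsg.IrrCharacter G) (hχ : χ ∈ Cfsg.principalBlock M G) : (χ : G → ℂ) (u * v) = (χ : G → ℂ) u := by
  classical
  have _fg : Fintype G := Fintype.ofFinite G
  have _fh : Fintype (Subgroup.centralizer ({u} : Set G)) := Fintype.ofFinite _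
  obtain ⟨v', hv', rfl⟩ := hv
  have hcop := pPrimeCore_cop (G := Subgroup.centralizer ({u} : Set G)) p
  have hnorm := pPrimeCore_normal (G := Subgroup.centralizer ({u} : Set G)) p
  have hv'reg : ¬ p ∣ orderOf v' := by
    intro hdvd
    have h1 : orderOf (⟨v', hv'⟩ : Cfsg.pPrimeCore p (Subgroup.centralizer ({u} : Set G))) =
        orderOf v' := Subgroup.orderOf_mk _ _
    have h2 := orderOf_dvd_natCard
      (⟨v', hv'⟩ : Cfsg.pPrimeCore p (Subgroup.centralizer ({u} : Set G)))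
    rw [h1] at h2
    exact (Nat.Prime.coprime_iff_not_dvd (Fact.out)).mp hcop.symm (hdvd.trans h2)
  have h1reg : ¬ p ∣ orderOf (1 : Subgroup.centralizer ({u} : Set G)) := by
    rw [orderOf_one]
    exact (Fact.out : p.Prime).one_lt.ne' ∘ Nat.dvd_one.mp
  have h1 := sec_part hM u hu χ v' hv'reg
  have h2 := sec_part hM u hu χ 1 h1reg
  rw [if_pos hχ] at h1 h2
  have h3 : Cfsg.blockPart (Cfsg.principalBlock M (Subgroup.centralizer ({u} : Set G)))
      (fun c : Subgroup.centralizer ({u} : Set G) => (χ : G → ℂ) (u * (c : G))) v' =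
      Cfsg.blockPart (Cfsg.principalBlock M (Subgroup.centralizer ({u} : Set G)))
      (fun c : Subgroup.centralizer ({u} : Set G) => (χ : G → ℂ) (u * (c : G))) 1 := by
    unfold Cfsg.blockPart
    refine finsum_mem_congr rfl ?_
    intro ξ hξ
    rw [prin_ker hM (Cfsg.pPrimeCore p (Subgroup.centralizer ({u} : Set G))) hcop ξ hξ v' hv']
  rw [h1, h2] at h3
  simpa using h3

end Cfsg.Agent.S0942
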