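import Mathlib
import Cfsg.Statements.S0943
import Cfsg.Agent.Lib.Helper3.Char
import Cfsg.Agent.Lib.Helper3.CharInt

set_option autoImplicit false
open Cfsg
open Cfsg.Agent.Lib.Helper3.Char Cfsg.Agent.Lib.Helper3.CharInt

namespace Cfsg.Agent.S0943

theorem result {G : Type*} [Group G] [Finite G] (χ : Cfsg.IrrCharacter G) (u v : G) (hc : ∀ x y : G, IsConj u x → IsConj v y → (χ : G → ℂ) (x * y) = (χ : G → ℂ) (u * v)) : (χ : G → ℂ) u * (χ : G → ℂ) v = (χ : G → ℂ) 1 * (χ : G → ℂ) (u * v) := by
  classical
  have _i : Fintype G := Fintype.ofFinite G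
  obtain ⟨χ, n, ρ, hirr, rfl⟩ := χ
  have hc' : ∀ x y : G, IsConj u x → IsConj v y →
      ρ.character (x * y) = ρ.character (u * v) := hc
  change ρ.character u * ρ.character v = ρ.character 1 * ρ.character (u * v)
  have : ρ.IsIrreducible := hirr
  have hd := finrank_ne_zero_of_irr ρ
  have hind : ∀ w : G, ∀ g h : G, (if IsConj w (h * g * h⁻¹) then (1 : ℂ) else 0) =
      if IsConj w g then (1 : ℂ) else 0 := by
    intro w g h
    have hiff : IsConj w (h * g * h⁻¹) ↔ IsConj w g := by
      constructor
      · intro hc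
        exact hc.trans (isConj_iff.mpr ⟨h⁻¹, by group⟩)
      · intro hc
        exact hc.trans (isConj_iff.mpr ⟨h, rfl⟩)
    simp only [hiff]
  have h := central_mul (fun g => if IsConj u g then (1 : ℂ) else 0)
    (fun g => if IsConj v g then (1 : ℂ) else 0) (hind u) (hind v) ρ
  have hs : ∀ w : G, ∑ g : G, (if IsConj w g then (1 : ℂ) else 0) * ρ.character g =
      (∑ g : G, if IsConj w g then (1 : ℂ) else 0) * ρ.character w := by
    intro w
    rw [Finset.sum_mul]
    refine Finset.sum_congr rfl (fun g _ => ?_)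
    by_cases hg : IsConj w g
    · obtain ⟨c, hc⟩ := isConj_iff.mp hg
      rw [← hc, Representation.char_conj]
    · rw [if_neg hg, zero_mul, zero_mul]
  have hN : ∀ w : G, (∑ g : G, if IsConj w g then (1 : ℂ) else 0) ≠ 0 := by
    intro w
    rw [Finset.sum_boole]
    have h1 : 0 < (Finset.univ.filter (fun g : G => IsConj w g)).card :=
      Finset.card_pos.mpr ⟨w, Finset.mem_filter.mpr ⟨Finset.mem_univ _, IsConj.refl w⟩⟩
    exact_mod_cast h1.ne'
  have hsuv : ∑ g : G, (∑ x : G, (if IsConj u x then (1 : ℂ) else 0) *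
      (if IsConj v (x⁻¹ * g) then (1 : ℂ) else 0)) * ρ.character g =
      (∑ g : G, if IsConj u g then (1 : ℂ) else 0) *
        (∑ g : G, if IsConj v g then (1 : ℂ) else 0) * ρ.character (u * v) := by
    calc ∑ g : G, (∑ x : G, (if IsConj u x then (1 : ℂ) else 0) *
          (if IsConj v (x⁻¹ * g) then (1 : ℂ) else 0)) * ρ.character g
        = ∑ x : G, ∑ g : G, (if IsConj u x then (1 : ℂ) else 0) *
            (if IsConj v (x⁻¹ * g) then (1 : ℂ) else 0) * ρ.character g := by
          rw [Finset.sum_comm]
          refine Finset.sum_congr rfl (fun g _ => ?_)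
          rw [Finset.sum_mul]
      _ = ∑ x : G, ∑ y : G, (if IsConj u x then (1 : ℂ) else 0) *
            (if IsConj v y then (1 : ℂ) else 0) * ρ.character (x * y) := by
          refine Finset.sum_congr rfl (fun x _ => ?_)
          rw [← Equiv.sum_comp (Equiv.mulLeft x) (fun g => (if IsConj u x then (1 : ℂ) else 0) *
            (if IsConj v (x⁻¹ * g) then (1 : ℂ) else 0) * ρ.character g)]
          refine Finset.sum_congr rfl (fun y _ => ?_)
          simp only [Equiv.coe_mulLeft, inv_mul_cancel_left]
      _ = ∑ x : G, ∑ y : G, (if IsConj u x then (1 : ℂ) else 0) *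
            (if IsConj v y then (1 : ℂ) else 0) * ρ.character (u * v) := by
          refine Finset.sum_congr rfl (fun x _ => Finset.sum_congr rfl (fun y _ => ?_))
          by_cases hx : IsConj u x
          · by_cases hy : IsConj v y
            · rw [hc' x y hx hy]
            · rw [if_neg hy, mul_zero, zero_mul, zero_mul]
          · rw [if_neg hx, zero_mul, zero_mul, zero_mul]
      _ = _ := by
          rw [Finset.sum_mul_sum, Finset.sum_mul]
          refine Finset.sum_congr rfl (fun x _ => ?_)
          rw [Finset.sum_mul]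
  rw [hs u, hs v, hsuv] at h
  rw [Representation.char_one]
  have hNu := hN u
  have hNv := hN v
  field_simp at h
  exact h

end Cfsg.Agent.S0943
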