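import Mathlib
import Cfsg.Statements.S0944
import Cfsg.Agent.Lib.Helper3.Char

set_option autoImplicit false
open Cfsg
open Cfsg.Agent.Lib.Helper3.Char

namespace Cfsg.Agent.S0944

theorem result {G : Type*} [Group G] [Finite G] (χ : Cfsg.IrrCharacter G) (u : G) (hu : orderOf u = 2) : ∃ n : ℤ, (χ : G → ℂ) u = (n : ℂ) ∧ (2 : ℤ) ∣ (Cfsg.charDegree (χ : G → ℂ) : ℤ) - n := by
  classical
  obtain ⟨χ, n, ρ, hirr, rfl⟩ := χ
  have hu2 : u ^ 2 = 1 := by rw [← hu, pow_orderOf_eq_one]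
  have hf : (ρ u) ^ 2 = 1 := by rw [← map_pow, hu2, map_one]
  obtain ⟨m, hm, hformula⟩ := trace_pow_of_pow_eq_one (ρ u) 2 (by norm_num) hf
  have h1 := hformula 1
  have h0 := hformula 0
  have hexp : Complex.exp (2 * Real.pi * Complex.I / (2 : ℕ)) = -1 := by
    have : 2 * (Real.pi : ℂ) * Complex.I / ((2 : ℕ) : ℂ) = Real.pi * Complex.I := by
      push_cast
      ring
    rw [this, Complex.exp_pi_mul_I]
  rw [hexp] at h1 h0
  rw [Finset.sum_range_succ, Finset.sum_range_one] at h1 h0 hm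
  simp only [pow_one, mul_one, mul_zero, pow_zero] at h1 h0
  have hchar : ρ.character u = ((m 0 : ℤ) - (m 1 : ℤ) : ℤ) := by
    change LinearMap.trace ℂ _ (ρ u) = _
    rw [h1]
    push_cast
    ring
  have hdeg : Cfsg.charDegree ρ.character = m 0 + m 1 := by
    unfold Cfsg.charDegree
    rw [Representation.char_one, ← hm]
    have h2 : (((m 0 + m 1 : ℕ) : ℂ)).re = ((m 0 + m 1 : ℕ) : ℝ) := Complex.natCast_re _
    rw [h2, Nat.floor_natCast]
  refine ⟨(m 0 : ℤ) - (m 1 : ℤ), hchar, ?_⟩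
  change (2 : ℤ) ∣ (Cfsg.charDegree ρ.character : ℤ) - ((m 0 : ℤ) - (m 1 : ℤ))
  rw [hdeg]
  exact ⟨(m 1 : ℤ), by push_cast; ring⟩

end Cfsg.Agent.S0944
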