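import Cfsg.Statements.S0945
import Mathlib
import Cfsg.Agent.Lib.Helper6.HomoCycN

set_option autoImplicit false
open Cfsg

namespace Cfsg.Agent.S0945

open Cfsg.Agent.Lib.Helper6 Cfsg.Agent.Lib.Helper2

/-- Let P be a Sylow 2-subgroup of the finite group G isomorphic to Z/2^m × Z/2^m with m ≥ 1. Then (i) the index of C_G(P) in N_G(P) is 1 or 3, and (ii) if it is not 1, then for every z ≠ 1 in P, C_G(z) ∩ N_G(P) = C_G(P). -/
theorem result {G : Type*} [Group G] [Finite G] (P : Sylow 2 G) (m : ℕ) (hm : 1 ≤ m) (e : (P : Subgroup G) ≃* Multiplicative (ZMod (2 ^ m) × ZMod (2 ^ m))) : ((Subgroup.centralizer (P : Set G)).relIndex (Subgroup.normalizer (P : Set G)) = 1 ∨ (Subgroup.centralizer (P : Set G)).relIndex (Subgroup.normalizer (P : Set G)) = 3) ∧ ((Subgroup.centralizer (P : Set G)).relIndex (Subgroup.normalizer (P : Set G)) ≠ 1 → ∀ z ∈ (P : Subgroup G), z ≠ 1 → Subgroup.centralizer ({z} : Set G) ⊓ Subgroup.normalizer (P : Set G) = Subgroup.centralizer (P : Set G)) := by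
  classical
  haveI : Fact (Nat.Prime 2) := ⟨Nat.prime_two⟩
  have hi := HomoCycN.relIndex_one_or_three P m hm e
  refine ⟨hi, ?_⟩
  intro hne z hz hz1
  have h3 : (Subgroup.centralizer (P : Set G)).relIndex (Subgroup.normalizer (P : Set G)) = 3 := by
    rcases hi with h | h
    · exact absurd h hne
    · exact h
  apply le_antisymm
  · rintro n ⟨hnz, hnN⟩
    have hn3 : n ^ 3 ∈ Subgroup.centralizer (P : Set G) := by
      haveI : ((Subgroup.centralizer ((P : Subgroup G) : Set G)).subgroupOf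
          (Subgroup.normalizer ((P : Subgroup G) : Set G))).Normal := by
        rw [← Subgroup.normalizerMonoidHom_ker]
        infer_instance
      have h4 := Subgroup.pow_index_mem ((Subgroup.centralizer ((P : Subgroup G) : Set G)).subgroupOf
          (Subgroup.normalizer ((P : Subgroup G) : Set G)))
          (⟨n, hnN⟩ : ↥(Subgroup.normalizer ((P : Subgroup G) : Set G)))
      have h3' : (Subgroup.centralizer ((P : Subgroup G) : Set G)).relIndex
          (Subgroup.normalizer ((P : Subgroup G) : Set G)) = 3 := h3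
      rw [← Subgroup.relIndex, h3'] at h4
      exact h4
    obtain ⟨k, hk⟩ := P.isPGroup' ⟨z, hz⟩
    have hzk : z ^ (2 ^ k) = 1 := by simpa using congrArg Subtype.val hk
    have hd : orderOf z ∣ 2 ^ k := orderOf_dvd_of_pow_eq_one hzk
    obtain ⟨j, -, hj⟩ := (Nat.dvd_prime_pow Nat.prime_two).1 hd
    have hj1 : j ≠ 0 := by
      rintro rfl
      rw [pow_zero, orderOf_eq_one_iff] at hj
      exact hz1 hj
    obtain ⟨i, rfl⟩ := Nat.exists_eq_succ_of_ne_zero hj1
    have htP : z ^ (2 ^ i) ∈ (P : Subgroup G) := Subgroup.pow_mem _ hz _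
    have htt : z ^ (2 ^ i) * z ^ (2 ^ i) = 1 := by
      rw [← pow_add, ← two_mul, ← pow_succ', ← hj, pow_orderOf_eq_one]
    have ht1 : z ^ (2 ^ i) ≠ 1 := by
      apply pow_ne_one_of_lt_orderOf (by positivity)
      rw [hj]; exact Nat.pow_lt_pow_right (by norm_num) (Nat.lt_succ_self i)
    have hnt : n * z ^ (2 ^ i) * n⁻¹ = z ^ (2 ^ i) := by
      have h1 : n * z = z * n := Subgroup.mem_centralizer_singleton_iff.1 hnz
      have h2 : Commute n z := h1
      have h5 : Commute n (z ^ (2 ^ i)) := h2.pow_right _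
      rw [h5.eq]; group
    have hnorm : ∀ x ∈ (P : Subgroup G), n * x * n⁻¹ ∈ (P : Subgroup G) :=
      fun x hx => (Subgroup.mem_normalizer_iff.1 hnN x).1 hx
    apply HomoCycN.mem_centralizer_of_fix P m e n hnN
    intro t' ht' htt'
    by_contra hmove
    have ht'1 : t' ≠ 1 := by
      intro hc
      apply hmove
      rw [hc]; group
    have d1 : z ^ (2 ^ i) ≠ t' := by
      intro hc
      apply hmove
      rw [← hc]; exact hnt
    have d2 : z ^ (2 ^ i) ≠ n * t' * n⁻¹ := by
      intro hc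
      apply d1
      apply HomoCyc.conj_inj' (h := n)
      rw [hnt]; exact hc
    have d3 : t' ≠ n * t' * n⁻¹ := fun hc => hmove hc.symm
    have hcase := HomoCyc.inv_count (P : Subgroup G) m hm e (z ^ (2 ^ i)) t' (n * t' * n⁻¹)
      (n * (n * t' * n⁻¹) * n⁻¹) htP ht' (hnorm _ ht') (hnorm _ (hnorm _ ht')) htt htt'
      (HomoCyc.conj_sq_one htt' n) (HomoCyc.conj_sq_one (HomoCyc.conj_sq_one htt' n) n)
      ht1 ht'1 (HomoCyc.conj_ne_one ht'1 n) (HomoCyc.conj_ne_one (HomoCyc.conj_ne_one ht'1 n) n)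
      d1 d2 d3
    rcases hcase with hc | hc | hc
    · apply d2
      apply HomoCyc.conj_inj' (h := n)
      rw [hnt, hc]
    · have h6 := Subgroup.mem_centralizer_iff.1 hn3 t' ht'
      apply d3
      have h7 : n ^ 3 * t' * (n ^ 3)⁻¹ = n * (n * (n * t' * n⁻¹) * n⁻¹) * n⁻¹ := by
        rw [pow_succ, pow_two]; group
      rw [hc] at h7
      rw [← h7, ← h6]; group
    · apply d3
      apply HomoCyc.conj_inj' (h := n)
      exact hc.symm
  · intro c hc
    refine ⟨?_, Subgroup.centralizer_le_normalizer _ hc⟩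
    exact Subgroup.centralizer_le (Set.singleton_subset_iff.2 hz) hc

end Cfsg.Agent.S0945
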