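import Mathlib
import Cfsg.Statements.S0947
import Cfsg.Agent.Lib.Helper3.Char
import Cfsg.Agent.Lib.Helper3.CharCore
import Cfsg.Agent.Lib.Helper3.Core
import Cfsg.Agent.Lib.Helper3.BlkLocal
import Cfsg.Agent.Lib.Helper3.BlkOsima
import Cfsg.Agent.Lib.Helper3.BlkCover
import Cfsg.Agent.Lib.Helper3.BlkPrin
import Cfsg.Agent.Lib.Helper3.BlkPrin2

set_option autoImplicit false
open Cfsg
open Cfsg.Agent.Lib.Helper3.Char Cfsg.Agent.Lib.Helper3.CharCore Cfsg.Agent.Lib.Helper3.Core Cfsg.Agent.Lib.Helper3.BlkLocal Cfsg.Agent.Lib.Helper3.BlkOsima Cfsg.Agent.Lib.Helper3.BlkCover Cfsg.Agent.Lib.Helper3.BlkPrin Cfsg.Agent.Lib.Helper3.BlkPrin2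
open scoped ComplexConjugate

namespace Cfsg.Agent.S0947

theorem result {G : Type*} [Group G] [Finite G] (p : ℕ) [Fact p.Prime] (M : Ideal Cfsg.AlgInt) (hM : Cfsg.IsPModular p M) (z : G) (hz : ∃ k : ℕ, orderOf z = p ^ k) (hz1 : z ≠ 1) (y : Subgroup.centralizer ({z} : Set G)) (hy : ¬ p ∣ orderOf y) : (∑ᶠ ζ ∈ Cfsg.principalBlock M G, ‖(ζ : G → ℂ) (z * (y : G))‖ ^ 2 = ∑ᶠ χ ∈ Cfsg.principalBlock M (Subgroup.centralizer ({z} : Set G)), ‖(χ : Subgroup.centralizer ({z} : Set G) → ℂ) y‖ ^ 2) ∧ ((∃ k : ℕ, (Cfsg.pPrimeCore p (Subgroup.centralizer ({z} : Set G))).index = p ^ k) → ∑ᶠ ζ ∈ Cfsg.principalBlock M G, ‖(ζ : G → ℂ) (z * (y : G))‖ ^ 2 = ((p ^ (Nat.card (Subgroup.centralizer ({z} : Set G))).factorization p : ℕ) : ℝ)) := by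
  classical
  have _fg : Fintype G := Fintype.ofFinite G
  have _fh : Fintype (Subgroup.centralizer ({z} : Set G)) := Fintype.ofFinite _
  have _fi : Fintype (Cfsg.IrrCharacter G) := Fintype.ofFinite _
  have _fih : Fintype (Cfsg.IrrCharacter (Subgroup.centralizer ({z} : Set G))) :=
    Fintype.ofFinite _
  have _h1 := hz1
  have hi : (∑ᶠ ζ ∈ Cfsg.principalBlock M G, ‖(ζ : G → ℂ) (z * (y : G))‖ ^ 2 : ℝ) =
      ∑ᶠ χ ∈ Cfsg.principalBlock M (Subgroup.centralizer ({z} : Set G)),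
        ‖(χ : Subgroup.centralizer ({z} : Set G) → ℂ) y‖ ^ 2 := by
    apply Complex.ofReal_injective
    rw [finsum_norm_sq, finsum_norm_sq]
    exact prin_sec_sum hM z hz y hy
  refine ⟨hi, ?_⟩
  rintro ⟨k, hk⟩
  rw [hi]
  apply Complex.ofReal_injective
  rw [finsum_norm_sq, prin_deg_sum hM k hk y hy]
  have hfac : (Nat.card (Subgroup.centralizer ({z} : Set G))).factorization p = k := by
    have h4 : Nat.card (Cfsg.pPrimeCore p (Subgroup.centralizer ({z} : Set G))) *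
        (Cfsg.pPrimeCore p (Subgroup.centralizer ({z} : Set G))).index =
        Nat.card (Subgroup.centralizer ({z} : Set G)) := Subgroup.card_mul_index _
    rw [hk] at h4
    have hcop := pPrimeCore_cop (G := Subgroup.centralizer ({z} : Set G)) p
    have hndvd : ¬ p ∣ Nat.card (Cfsg.pPrimeCore p (Subgroup.centralizer ({z} : Set G))) :=
      (Nat.Prime.coprime_iff_not_dvd Fact.out).mp hcop.symm
    rw [← h4, Nat.factorization_mul Nat.card_pos.ne'
      (pow_ne_zero _ (Fact.out : p.Prime).ne_zero), Finsupp.add_apply,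
      Nat.factorization_eq_zero_of_not_dvd hndvd, zero_add,
      Nat.Prime.factorization_pow Fact.out, Finsupp.single_eq_same]
  rw [hfac]
  push_cast
  rfl

end Cfsg.Agent.S0947
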