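import Cfsg.Statements.S0950
import Mathlib
import Cfsg.Agent.Lib.Helper6.Q8Syl
import Cfsg.Agent.Lib.Helper1.Frob

set_option autoImplicit false
open Cfsg

namespace Cfsg.Agent.S0950

open Cfsg.Agent.Lib.Helper6

/-- Let S be a Sylow 2-subgroup of the finite group G that is isomorphic to the quaternion group of order 8, and suppose S has no normal complement in G. Then any two subgroups of order 4 of S are conjugate by an element of the normalizer of S. -/
theorem result {G : Type*} [Group G] [Finite G] (S : Sylow 2 G) (e : (S : Subgroup G) ≃* QuaternionGroup 2) (hnc : ∀ N : Subgroup G, N.Normal → ¬ Subgroup.IsComplement' N (S : Subgroup G)) (A B : Subgroup G) (hA : A ≤ S) (hB : B ≤ S) (hA4 : Nat.card A = 4) (hB4 : Nat.card B = 4) : ∃ n ∈ Subgroup.normalizer ((S : Subgroup G) : Set G), B = A.map (MulAut.conj n).toMonoidHom := by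
  classical
  haveI : Fact (Nat.Prime 2) := ⟨Nat.prime_two⟩
  have hcard : Nat.card ↥(S : Subgroup G) = 8 := by
    rw [Nat.card_congr e.toEquiv, Nat.card_eq_fintype_card]; decide
  obtain ⟨z, hzdef⟩ : ∃ z : G, z = ((e.symm (QuaternionGroup.a 2) : ↥(S : Subgroup G)) : G) :=
    ⟨_, rfl⟩
  have hinv : ∀ x ∈ (S : Subgroup G), x * x = 1 → x = 1 ∨ x = z := by
    intro x hx hxx
    have h1 : e ⟨x, hx⟩ * e ⟨x, hx⟩ = 1 := by
      rw [← map_mul]
      have : (⟨x, hx⟩ * ⟨x, hx⟩ : ↥(S : Subgroup G)) = 1 := Subtype.ext hxx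
      rw [this, map_one]
    have h2 : ∀ q : QuaternionGroup 2, q * q = 1 → (q = 1 ∨ q = QuaternionGroup.a 2) := by decide
    rcases h2 _ h1 with h | h
    · left
      have : (⟨x, hx⟩ : ↥(S : Subgroup G)) = 1 := by
        apply e.injective; rw [h, map_one]
      exact congrArg Subtype.val this
    · right
      have : (⟨x, hx⟩ : ↥(S : Subgroup G)) = e.symm (QuaternionGroup.a 2) := by
        rw [← h, e.symm_apply_apply]
      rw [hzdef, ← this]
  have hex : ∃ Q : Subgroup G, Q ≤ (S : Subgroup G) ∧ ∃ g ∈ Subgroup.normalizer (Q : Set G),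
      (orderOf g).Coprime 2 ∧ g ∉ Subgroup.centralizer (Q : Set G) := by
    by_contra hcon
    push_neg at hcon
    obtain ⟨N, hN, hc⟩ := Cfsg.Agent.Lib.Helper1.Frob.exists_normal_complement S
      (fun Q hQ g hg ho => hcon Q hQ g hg ho)
    exact hnc N hN hc
  obtain ⟨Q, hQS, g, hgQ, hgo, hgC⟩ := hex
  have hodd : Odd (orderOf g) := Nat.coprime_two_right.mp hgo
  have hQeq : Q = (S : Subgroup G) := by
    by_contra hne
    apply hgC
    have hdvd : Nat.card Q ∣ 2 ^ 3 := by
      have := Subgroup.card_dvd_of_le hQS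
      rw [hcard] at this
      exact this
    have hlt : Nat.card Q < 8 := by
      by_contra h
      push_neg at h
      exact hne (Subgroup.eq_of_le_of_card_ge hQS (by rw [hcard]; exact h))
    obtain ⟨j, hj, hjc⟩ := (Nat.dvd_prime_pow Nat.prime_two).mp hdvd
    have hcases : Nat.card Q = 4 ∨ ∀ x ∈ Q, x * x = 1 := by
      interval_cases j
      · right
        intro x hx
        have h1 : orderOf (⟨x, hx⟩ : ↥Q) ∣ Nat.card ↥Q := orderOf_dvd_natCard _
        rw [hjc, Subgroup.orderOf_mk] at h1
        have h2 : x ^ 2 = 1 := orderOf_dvd_iff_pow_eq_one.mp (h1.trans (by norm_num))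
        rw [← pow_two]; exact h2
      · right
        intro x hx
        have h1 : orderOf (⟨x, hx⟩ : ↥Q) ∣ Nat.card ↥Q := orderOf_dvd_natCard _
        rw [hjc, Subgroup.orderOf_mk] at h1
        have h2 : x ^ 2 = 1 := orderOf_dvd_iff_pow_eq_one.mp (h1.trans (by norm_num))
        rw [← pow_two]; exact h2
      · left; rw [hjc]; norm_num
      · rw [hjc] at hlt; norm_num at hlt
    rcases hcases with h4 | hsq
    · obtain ⟨-, -, a, haQ, ha4, hQz⟩ := Q8Syl.cyclic_of_card_four S z hinv Q hQS h4
      have hga := Q8Syl.commute_of_odd a g 2 (by rw [ha4]; norm_num) hodd (by rw [← hQz]; exact hgQ)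
      rw [Subgroup.mem_centralizer_iff]
      intro x hx
      rw [hQz] at hx
      obtain ⟨i, rfl⟩ := Subgroup.mem_zpowers_iff.mp hx
      have h1 : Commute g a := hga
      exact (h1.zpow_right i).eq.symm
    · rw [Subgroup.mem_centralizer_iff]
      intro x hx
      have hgx : g * x * g⁻¹ ∈ Q := (Subgroup.mem_normalizer_iff.mp hgQ x).mp hx
      have e1 : g * x * g⁻¹ = x := by
        rcases hinv x (hQS hx) (hsq x hx) with h | h
        · rw [h]; group
        · rcases hinv _ (hQS hgx) (hsq _ hgx) with h' | h'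
          · have hx1 : x = 1 := by
              have e2 : x = g⁻¹ * (g * x * g⁻¹) * g := by group
              rw [e2, h']; group
            rw [hx1]; group
          · rw [h', h]
      calc x * g = (g * x * g⁻¹) * g := by rw [e1]
        _ = g * x := by group
  subst hQeq
  have hconjS : ∀ (n : G), n ∈ Subgroup.normalizer ((S : Subgroup G) : Set G) →
      ∀ X : Subgroup G, X ≤ (S : Subgroup G) →
      X.map (MulAut.conj n).toMonoidHom ≤ (S : Subgroup G) := by
    intro n hn X hX x hx
    obtain ⟨y, hy, rfl⟩ := hx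
    exact (Subgroup.mem_normalizer_iff.mp hn y).mp (hX hy)
  have hcardmap : ∀ (n : G) (X : Subgroup G),
      Nat.card ↥(X.map (MulAut.conj n).toMonoidHom) = Nat.card X :=
    fun n X => Subgroup.card_map_of_injective (MulAut.conj n).injective
  have hnn : ∀ (n : G), n ∈ Subgroup.normalizer ((S : Subgroup G) : Set G) → Odd (orderOf n) →
      n ∉ Subgroup.centralizer ((S : Subgroup G) : Set G) → ∀ X : Subgroup G,
      X ≤ (S : Subgroup G) → Nat.card X = 4 → X.map (MulAut.conj n).toMonoidHom ≠ X := by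
    intro n hn ho hc X hXS hX4 heq
    apply Q8Syl.not_normalize S z hcard hinv n hn ho hc X hXS hX4
    rw [Subgroup.mem_normalizer_iff_map_conj_eq]
    exact heq
  have hg2N : g * g ∈ Subgroup.normalizer ((S : Subgroup G) : Set G) := Subgroup.mul_mem _ hgQ hgQ
  have hg2odd : Odd (orderOf (g * g)) := by
    rw [← pow_two]
    exact Odd.of_dvd_nat hodd (orderOf_pow_dvd 2)
  have hg2C : g * g ∉ Subgroup.centralizer ((S : Subgroup G) : Set G) := by
    intro h
    apply hgC
    have hcop : (2).Coprime (orderOf g) := Nat.coprime_two_left.mpr hodd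
    obtain ⟨m, hm⟩ := exists_pow_eq_self_of_coprime hcop
    rw [← hm, pow_two]
    exact Subgroup.pow_mem _ h m
  have d1 := hnn g hgQ hodd hgC A hA hA4
  have d2 := hnn (g * g) hg2N hg2odd hg2C A hA hA4
  have d3 := hnn g hgQ hodd hgC (A.map (MulAut.conj g).toMonoidHom) (hconjS g hgQ A hA)
    (by rw [hcardmap]; exact hA4)
  rw [Q8Syl.map_conj_twice] at d3
  rcases Q8Syl.eq_of_three S z hcard hinv A (A.map (MulAut.conj g).toMonoidHom)
    (A.map (MulAut.conj (g * g)).toMonoidHom) B hA (hconjS g hgQ A hA) (hconjS _ hg2N A hA) hB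
    hA4 (by rw [hcardmap]; exact hA4) (by rw [hcardmap]; exact hA4) hB4 (Ne.symm d1) (Ne.symm d2)
    (Ne.symm d3) with h | h | h
  · refine ⟨1, Subgroup.one_mem _, ?_⟩
    rw [h]
    ext x; rw [ASMax.mem_map_conj]; simp
  · exact ⟨g, hgQ, h⟩
  · exact ⟨g * g, hg2N, h⟩

end Cfsg.Agent.S0950
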