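import Mathlib
import Cfsg.Statements.S0952
import Cfsg.Agent.Lib.Helper3.BlkLocal
import Cfsg.Agent.Lib.Helper3.BlkOsima
import Cfsg.Agent.Lib.Helper3.BlkOrth4

set_option autoImplicit false
open scoped ComplexConjugate
open Cfsg
open Cfsg.Agent.Lib.Helper3.BlkLocal Cfsg.Agent.Lib.Helper3.BlkOsima Cfsg.Agent.Lib.Helper3.BlkOrth4
open scoped ComplexConjugate

namespace Cfsg.Agent.S0952

theorem result {G : Type*} [Group G] [Finite G] (p : ℕ) [Fact p.Prime] (M : Ideal Cfsg.AlgInt) (hM : Cfsg.IsPModular p M) (χ ψ : Cfsg.IrrCharacter G) (h : ¬ Cfsg.SameBlock M (χ : G → ℂ) (ψ : G → ℂ)) : ∑ᶠ x ∈ {x : G | ¬ p ∣ orderOf x}, (χ : G → ℂ) x * conj ((ψ : G → ℂ) x) = 0 := by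
  classical
  have _fg : Fintype G := Fintype.ofFinite G
  have _fi : Fintype (Cfsg.IrrCharacter G) := Fintype.ofFinite _
  rw [finsum_mem_ite]
  have h1 := diff_block_orth hM χ ψ h
  refine Eq.trans ?_ h1
  refine Finset.sum_congr rfl (fun x _ => ?_)
  by_cases hx : p ∣ orderOf x
  · rw [if_pos hx, if_neg]
    intro h2
    exact h2 hx
  · rw [if_neg hx, if_pos]
    exact hx

end Cfsg.Agent.S0952
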