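import Mathlib
import Cfsg.Statements.S0955
import Cfsg.Agent.Lib.Helper3.Char
import Cfsg.Agent.Lib.Helper3.CharCore
import Cfsg.Agent.Lib.Helper3.Core
import Cfsg.Agent.Lib.Helper3.BlkLocal
import Cfsg.Agent.Lib.Helper3.BlkOsima
import Cfsg.Agent.Lib.Helper3.BlkOrth
import Cfsg.Agent.Lib.Helper3.BlkOrth2
import Cfsg.Agent.Lib.Helper3.BlkFirst
import Cfsg.Agent.S0908
import Cfsg.Agent.S0912
import Cfsg.Agent.S0917

set_option autoImplicit false
open Cfsg
open Cfsg.Agent.Lib.Helper3.Char Cfsg.Agent.Lib.Helper3.CharCore Cfsg.Agent.Lib.Helper3.Core Cfsg.Agent.Lib.Helper3.BlkLocal Cfsg.Agent.Lib.Helper3.BlkOsima Cfsg.Agent.Lib.Helper3.BlkOrth Cfsg.Agent.Lib.Helper3.BlkOrth2 Cfsg.Agent.Lib.Helper3.BlkFirst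

namespace Cfsg.Agent.S0955

theorem result {G : Type*} [Group G] [Finite G] (p : ℕ) [Fact p.Prime] (M : Ideal Cfsg.AlgInt) (hM : Cfsg.IsPModular p M) (B : Set (Cfsg.IrrCharacter G)) (hB : Cfsg.IsPBlock M B) (D : Subgroup G) (hD : Cfsg.IsDefectGroup p M B D) : (Cfsg.pCore p (Subgroup.normalizer (D : Set G))).map (Subgroup.normalizer (D : Set G)).subtype = D := by
  classical
  have _fg : Fintype G := Fintype.ofFinite G
  have hMp := hM.2.1.isPrime
  have hcardD := Cfsg.Agent.S0908.result p M hM B hB D hD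
  have hDp : IsPGroup p D := IsPGroup.of_card hcardD
  obtain ⟨y, hy, S, hS⟩ := id hD
  have hyc : y ∈ Subgroup.centralizer (D : Set G) := by
    rw [Subgroup.mem_centralizer_iff]
    intro d hd
    rw [hS] at hd
    obtain ⟨c, _, rfl⟩ := Subgroup.mem_map.mp hd
    have h1 := c.2
    rw [Subgroup.mem_centralizer_iff] at h1
    exact (h1 y rfl).symm
  have _fn : Fintype (Subgroup.normalizer (D : Set G)) := Fintype.ofFinite _
  obtain ⟨b, hbind⟩ := exists_induced hM D (Subgroup.normalizer (D : Set G)) hDp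
    Subgroup.le_normalizer (Subgroup.centralizer_le_normalizer _) le_rfl B hB y hyc hy.2.1
  obtain ⟨z, hz⟩ := defect_class hMp b hbind.1
  obtain ⟨T⟩ : Nonempty (Sylow p (Subgroup.centralizer
    ({z} : Set (Subgroup.normalizer (D : Set G))))) := inferInstance
  have hDb : Cfsg.IsDefectGroup p M b ((T : Subgroup _).map
      (Subgroup.centralizer ({z} : Set (Subgroup.normalizer (D : Set G)))).subtype) :=
    ⟨z, hz, T, rfl⟩
  have h912 := Cfsg.Agent.S0912.result p M hM b hbind.1 _ hDb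
  obtain ⟨E, hE, hle⟩ := Cfsg.Agent.S0917.result p M hM _ b hbind.1 B hB hbind _ hDb
  have hcardE := Cfsg.Agent.S0908.result p M hM B hB E hE
  have hsub : D ≤ (Cfsg.pCore p (Subgroup.normalizer (D : Set G))).map
      (Subgroup.normalizer (D : Set G)).subtype := by
    have h1 : D.subgroupOf (Subgroup.normalizer (D : Set G)) ≤
        Cfsg.pCore p (Subgroup.normalizer (D : Set G)) := by
      apply le_pCore
      · exact Subgroup.normal_in_normalizer
      · exact hDp.comap_subtype
    intro d hd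
    exact Subgroup.mem_map.mpr ⟨⟨d, Subgroup.le_normalizer hd⟩,
      h1 (Subgroup.mem_subgroupOf.mpr hd), rfl⟩
  apply (Subgroup.eq_of_le_of_card_ge hsub ?_).symm
  calc Nat.card ((Cfsg.pCore p (Subgroup.normalizer (D : Set G))).map
        (Subgroup.normalizer (D : Set G)).subtype) ≤ Nat.card E :=
        Subgroup.card_le_of_le ((Subgroup.map_mono h912).trans hle)
    _ = Nat.card D := by rw [hcardE, hcardD]

end Cfsg.Agent.S0955
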