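import Mathlib
import Cfsg.Statements.S0956
import Cfsg.Agent.Lib.Helper3.Char
import Cfsg.Agent.Lib.Helper3.CharCore
import Cfsg.Agent.Lib.Helper3.BlkLocal
import Cfsg.Agent.Lib.Helper3.BlkOsima
import Cfsg.Agent.Lib.Helper3.BlkOrth
import Cfsg.Agent.Lib.Helper3.BlkDef
import Cfsg.Agent.Lib.Helper3.BlkMinMax
import Cfsg.Agent.Lib.Helper3.BlkBr
import Cfsg.Agent.Lib.Helper3.BlkBrauer
import Cfsg.Agent.Lib.Helper3.BlkFirst3
import Cfsg.Agent.Lib.Helper3.BlkGreen
import Cfsg.Agent.S0911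

set_option autoImplicit false
open Cfsg
open Cfsg.Agent.Lib.Helper3.Char Cfsg.Agent.Lib.Helper3.CharCore Cfsg.Agent.Lib.Helper3.BlkLocal Cfsg.Agent.Lib.Helper3.BlkOsima Cfsg.Agent.Lib.Helper3.BlkOrth Cfsg.Agent.Lib.Helper3.BlkDef Cfsg.Agent.Lib.Helper3.BlkMinMax Cfsg.Agent.Lib.Helper3.BlkBr Cfsg.Agent.Lib.Helper3.BlkBrauer Cfsg.Agent.Lib.Helper3.BlkFirst3 Cfsg.Agent.Lib.Helper3.BlkGreen

namespace Cfsg.Agent.S0956

theorem act_orbit {p : ℕ} {M : Ideal Cfsg.AlgInt} (hM : Cfsg.IsPModular p M) {G : Type*}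
    [Group G] [Fintype G] (S : Subgroup G) (hS : IsPGroup p S) (act : S → G → G)
    (h1 : ∀ g, act 1 g = g) (hmul : ∀ s t g, act (s * t) g = act s (act t g)) (F : G → ℂ)
    (hF : ∀ s g, F (act s g) = F g) (hlr : ∀ g, Cfsg.MemLocalRing M (F g))
    (hfix : ∀ g, (∀ s, act s g = g) → Cfsg.MemLocalIdeal M (F g)) :
    Cfsg.MemLocalIdeal M (∑ g : G, F g) :=
  @orbit_sum_li p M hM S _ _ hS G _ { smul := act, one_smul := h1, mul_smul := hmul } F hF hlr hfix

theorem card_le_of_coeff {p : ℕ} [hp : Fact p.Prime] {M : Ideal Cfsg.AlgInt}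
    (hM : Cfsg.IsPModular p M) {G : Type*} [Group G] [Finite G]
    (B : Set (Cfsg.IrrCharacter G)) (hB : Cfsg.IsPBlock M B) (D : Subgroup G)
    (hD : Cfsg.IsDefectGroup p M B D) (z : G)
    (hz : ¬ Cfsg.MemLocalIdeal M (Cfsg.blockCoeff B z)) (S : Subgroup G) (hS : IsPGroup p S)
    (hSz : ∀ s ∈ S, s * z = z * s) : Nat.card S ≤ Nat.card D := by
  have _fg : Fintype G := Fintype.ofFinite G
  have hMp := hM.2.1.isPrime
  obtain ⟨y, hy, T₁, hT₁⟩ := id hD
  obtain ⟨x, Q, hxQ⟩ := (Cfsg.Agent.S0911.result p M hM B hB y hy T₁ z).1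
    (osima_fun hMp B hB z) hz
  rw [← hT₁] at hxQ
  have hSC : S ≤ Subgroup.centralizer ({z} : Set G) := by
    intro s hs
    rw [Subgroup.mem_centralizer_iff]
    intro h hh
    rw [Set.mem_singleton_iff.mp hh]
    exact (hSz s hs).symm
  have hsub : IsPGroup p (S.subgroupOf (Subgroup.centralizer ({z} : Set G))) := hS.comap_subtype
  obtain ⟨T', hT'⟩ := hsub.exists_le_sylow
  have h0 : Nat.card S = Nat.card (S.subgroupOf (Subgroup.centralizer ({z} : Set G))) :=
    (Nat.card_congr (Subgroup.subgroupOfEquivOfLe hSC).toEquiv).symm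
  have h1 : Nat.card (S.subgroupOf (Subgroup.centralizer ({z} : Set G))) ≤ Nat.card T' :=
    Subgroup.card_le_of_le hT'
  have h2 : Nat.card ((Q : Subgroup (Subgroup.centralizer ({z} : Set G))).map
      (Subgroup.centralizer ({z} : Set G)).subtype) = Nat.card Q :=
    Subgroup.card_map_of_injective (Subgroup.subtype_injective _)
  have h3 : Nat.card T' = Nat.card Q := by
    rw [T'.card_eq_multiplicity, Q.card_eq_multiplicity]
  have h4 := Subgroup.card_le_of_le hxQ
  have h5 : Nat.card (D.map (MulAut.conj x).toMonoidHom) = Nat.card D :=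
    Subgroup.card_map_of_injective (MulAut.conj x).injective
  rw [h0]
  calc Nat.card (S.subgroupOf (Subgroup.centralizer ({z} : Set G))) ≤ Nat.card T' := h1
    _ = Nat.card Q := h3
    _ = Nat.card ((Q : Subgroup (Subgroup.centralizer ({z} : Set G))).map
      (Subgroup.centralizer ({z} : Set G)).subtype) := h2.symm
    _ ≤ Nat.card (D.map (MulAut.conj x).toMonoidHom) := h4
    _ = Nat.card D := h5

theorem result {G : Type*} [Group G] [Finite G] (p : ℕ) [Fact p.Prime] (M : Ideal Cfsg.AlgInt) (hM : Cfsg.IsPModular p M) (B : Set (Cfsg.IrrCharacter G)) (hB : Cfsg.IsPBlock M B) (D : Subgroup G) (hD : Cfsg.IsDefectGroup p M B D) (P : Sylow p G) (hDP : D ≤ P) : ∃ x : G, ¬ p ∣ orderOf x ∧ (∃ S : Sylow p (Subgroup.centralizer ({x} : Set G)), (S : Subgroup (Subgroup.centralizer ({x} : Set G))).map (Subgroup.centralizer ({x} : Set G)).subtype = D) ∧ (P : Subgroup G) ⊓ (P : Subgroup G).map (MulAut.conj x).toMonoidHom = D := by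
  classical
  have _fg : Fintype G := Fintype.ofFinite G
  have hMp := hM.2.1.isPrime
  obtain ⟨a, ha⟩ : ∃ a : G → ℂ, a = Cfsg.blockCoeff B := ⟨_, rfl⟩
  have hac : Cfsg.IsClassFunction G a := by
    rw [ha]
    exact blockCoeff_classFun B
  have halr : ∀ g, Cfsg.MemLocalRing M (a g) := by
    intro g
    rw [ha]
    exact osima_fun hMp B hB g
  have haid : ∀ x, ∑ g : G, a g * a (g⁻¹ * x) = a x := by
    intro x
    rw [ha]
    exact blockCoeff_idem B x
  have hasing : ∀ y, p ∣ orderOf y → a y = 0 := by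
    intro y hy
    rw [ha]
    exact blockCoeff_sing hM B hB y hy
  obtain ⟨x₀, hx₀, S₀, hS₀⟩ := id hD
  have hDp : IsPGroup p D := by
    rw [hS₀]
    exact S₀.isPGroup'.map _
  obtain ⟨C, hC⟩ : ∃ C : Subgroup G, C = Subgroup.centralizer (D : Set G) := ⟨_, rfl⟩
  have hCmem : ∀ g, g ∈ C ↔ ∀ d ∈ D, d * g = g * d := by
    intro g
    rw [hC, Subgroup.mem_centralizer_iff]
    rfl
  have hCconj : ∀ v ∈ C, ∀ g, v * g * v⁻¹ ∈ C ↔ g ∈ C := by
    intro v hv g
    constructor
    · intro h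
      have h1 := C.mul_mem (C.mul_mem (C.inv_mem hv) h) hv
      have e : v⁻¹ * (v * g * v⁻¹) * v = g := by group
      rwa [e] at h1
    · intro h
      exact C.mul_mem (C.mul_mem hv h) (C.inv_mem hv)
  have hDconj : ∀ d ∈ D, ∀ g, d * g * d⁻¹ ∈ C ↔ g ∈ C := by
    intro d hd g
    rw [hC]
    exact cent_conj_iff D d g (Subgroup.le_normalizer hd)
  have hx₀C : x₀ ∈ C := by
    rw [hCmem]
    intro d hd
    rw [hS₀] at hd
    obtain ⟨t, _, rfl⟩ := hd
    exact (Subgroup.mem_centralizer_iff.mp t.2 x₀ rfl).symm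
  have hax₀ : ¬ Cfsg.MemLocalIdeal M (a x₀) := by
    rw [ha]
    exact hx₀.2.1
  obtain ⟨Q, hQ⟩ : ∃ Q : Subgroup G, Q = (P : Subgroup G) ⊓ C := ⟨_, rfl⟩
  have hQP : Q ≤ (P : Subgroup G) := by
    rw [hQ]
    exact inf_le_left
  have hQC : Q ≤ C := by
    rw [hQ]
    exact inf_le_right
  have hQp : IsPGroup p Q := P.isPGroup'.to_le hQP
  have _fQ : Fintype Q := Fintype.ofFinite _
  obtain ⟨ε, hε⟩ : ∃ ε : G → ℂ, ε = fun g : G => if g ∈ C then a g else 0 := ⟨_, rfl⟩
  have hε1 : ∀ g, g ∈ C → ε g = a g := by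
    intro g hg
    rw [hε]
    exact if_pos hg
  have hε0 : ∀ g, g ∉ C → ε g = 0 := by
    intro g hg
    rw [hε]
    exact if_neg hg
  have hεlr : ∀ g, Cfsg.MemLocalRing M (ε g) := by
    intro g
    by_cases hg : g ∈ C
    · rw [hε1 g hg]
      exact halr g
    · rw [hε0 g hg]
      exact lr_zero hMp
  have hεinv : ∀ v ∈ Q, ∀ g, ε (v * g * v⁻¹) = ε g := by
    intro v hv g
    by_cases hg : g ∈ C
    · rw [hε1 g hg, hε1 _ ((hCconj v (hQC hv) g).mpr hg)]
      exact hac g v
    · rw [hε0 g hg, hε0 _ (fun h => hg ((hCconj v (hQC hv) g).mp h))]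
  have hDorb : ∀ F : G → ℂ, (∀ d ∈ D, ∀ g, F (d * g * d⁻¹) = F g) →
      (∀ g, Cfsg.MemLocalRing M (F g)) → (∀ g, g ∈ C → Cfsg.MemLocalIdeal M (F g)) →
      Cfsg.MemLocalIdeal M (∑ g : G, F g) := by
    intro F hF hlr hfix
    apply act_orbit hM D hDp (fun d g => (d : G) * g * (d : G)⁻¹)
    · intro g
      show ((1 : D) : G) * g * ((1 : D) : G)⁻¹ = g
      simp
    · intro s t g
      show ((s * t : D) : G) * g * ((s * t : D) : G)⁻¹ =
        (s : G) * ((t : G) * g * (t : G)⁻¹) * (s : G)⁻¹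
      simp only [Subgroup.coe_mul]
      group
    · intro s g
      exact hF s s.2 g
    · exact hlr
    · intro g hg
      apply hfix
      rw [hCmem]
      intro d hd
      have h1 : d * g * d⁻¹ = g := hg ⟨d, hd⟩
      exact mul_inv_eq_iff_eq_mul.mp h1
  have hεid : ∀ x, Cfsg.MemLocalIdeal M (∑ g : G, ε g * ε (g⁻¹ * x) - ε x) := by
    intro x
    by_cases hx : x ∈ C
    · rw [hε1 x hx, ← haid x, ← Finset.sum_sub_distrib]
      have e2 : ∀ g : G, ε g * ε (g⁻¹ * x) - a g * a (g⁻¹ * x) =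
          -(if g ∈ C then 0 else a g * a (g⁻¹ * x)) := by
        intro g
        by_cases hg : g ∈ C
        · rw [if_pos hg, hε1 g hg, hε1 _ (C.mul_mem (C.inv_mem hg) hx), sub_self, neg_zero]
        · rw [if_neg hg, hε0 g hg, zero_mul, zero_sub]
      rw [Finset.sum_congr rfl (fun g _ => e2 g), Finset.sum_neg_distrib]
      apply li_neg
      apply hDorb
      · intro d hd g
        have hxd : d * x = x * d := (hCmem x).mp hx d hd
        have e4 : (d * g * d⁻¹)⁻¹ * x = d * (g⁻¹ * x) * d⁻¹ := by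
          have h2 : d⁻¹ * x = x * d⁻¹ := by
            rw [eq_mul_inv_iff_mul_eq, mul_assoc, ← hxd, ← mul_assoc, inv_mul_cancel, one_mul]
          rw [mul_inv_rev, mul_inv_rev, inv_inv, mul_assoc, mul_assoc, mul_assoc, h2]
          group
        by_cases hg : g ∈ C
        · rw [if_pos hg, if_pos ((hDconj d hd g).mpr hg)]
        · rw [if_neg hg, if_neg (fun h => hg ((hDconj d hd g).mp h)), e4, hac g d, hac _ d]
      · intro g
        split_ifs
        · exact lr_zero hMp
        · exact lr_mul hMp (halr g) (halr _)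
      · intro g hg
        rw [if_pos hg]
        exact li_zero hMp
    · rw [hε0 x hx, sub_zero]
      have e5 : ∀ g : G, ε g * ε (g⁻¹ * x) = 0 := by
        intro g
        by_cases hg : g ∈ C
        · rw [hε0 (g⁻¹ * x) (fun h => hx (by
            have h2 := C.mul_mem hg h
            rwa [mul_inv_cancel_left] at h2)), mul_zero]
        · rw [hε0 g hg, zero_mul]
      rw [Finset.sum_congr rfl (fun g _ => e5 g), Finset.sum_const_zero]
      exact li_zero hMp
  have hex : ∃ g₀, ¬ Cfsg.MemLocalIdeal M (∑ v : Q, ε (g₀ * (v : G))) := by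
    by_contra hno
    push Not at hno
    have h1 := green_key hM Q hQp ε hεlr hεid hεinv hno x₀
    rw [hε1 x₀ hx₀C] at h1
    exact hax₀ h1
  obtain ⟨g₀, hg₀⟩ := hex
  have hg₀C : g₀ ∈ C := by
    by_contra hnot
    apply hg₀
    have e : ∀ v : Q, ε (g₀ * (v : G)) = 0 := by
      intro v
      apply hε0
      intro h
      apply hnot
      have h2 := C.mul_mem h (C.inv_mem (hQC v.2))
      rwa [mul_inv_cancel_right] at h2
    rw [Finset.sum_congr rfl (fun v _ => e v), Finset.sum_const_zero]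
    exact li_zero hMp
  have hsumQ : ¬ Cfsg.MemLocalIdeal M (∑ v : Q, a (g₀ * (v : G))) := by
    intro h
    apply hg₀
    have e : ∀ v : Q, ε (g₀ * (v : G)) = a (g₀ * (v : G)) :=
      fun v => hε1 _ (C.mul_mem hg₀C (hQC v.2))
    rw [Finset.sum_congr rfl (fun v _ => e v)]
    exact h
  obtain ⟨v₀, hv₀⟩ : ∃ v₀ : Q, ¬ Cfsg.MemLocalIdeal M (a (g₀ * (v₀ : G))) := by
    by_contra hno
    push Not at hno
    exact hsumQ (li_sum hMp _ _ (fun v _ => hno v))
  obtain ⟨y, hy⟩ : ∃ y : G, y = g₀ * (v₀ : G) := ⟨_, rfl⟩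
  rw [← hy] at hv₀
  have hyC : y ∈ C := by
    rw [hy]
    exact C.mul_mem hg₀C (hQC v₀.2)
  have hyreg : ¬ p ∣ orderOf y := by
    intro h
    apply hv₀
    rw [hasing y h]
    exact li_zero hMp
  have hyB : ¬ Cfsg.MemLocalIdeal M (Cfsg.blockCoeff B y) := by
    rw [← ha]
    exact hv₀
  have hyD : ∀ q ∈ D, q * y = y * q := (hCmem y).mp hyC
  refine ⟨y, hyreg, sylow_of_coeff hM B hB D hD y hyB hyD, ?_⟩
  obtain ⟨S, hS⟩ : ∃ S : Subgroup G,
      S = (P : Subgroup G) ⊓ (P : Subgroup G).map (MulAut.conj y).toMonoidHom := ⟨_, rfl⟩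
  rw [← hS]
  have hSP : S ≤ (P : Subgroup G) := by
    rw [hS]
    exact inf_le_left
  have hSp : IsPGroup p S := P.isPGroup'.to_le hSP
  have hSy : ∀ s ∈ S, y⁻¹ * s * y ∈ (P : Subgroup G) := by
    intro s hs
    rw [hS] at hs
    obtain ⟨t, ht, hts⟩ := hs.2
    have e : y⁻¹ * s * y = t := by
      rw [← hts]
      show y⁻¹ * (y * t * y⁻¹) * y = t
      group
    rw [e]
    exact ht
  have hDS : D ≤ S := by
    intro d hd
    rw [hS]
    refine ⟨hDP hd, d, hDP hd, ?_⟩
    show y * d * y⁻¹ = d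
    rw [← hyD d hd, mul_inv_cancel_right]
  refine (Subgroup.eq_of_le_of_card_ge hDS ?_).symm
  by_contra hlt
  push Not at hlt
  have hA : Cfsg.MemLocalIdeal M (∑ g : G, if g ∈ (P : Subgroup G) then a (y * g) else 0) := by
    apply act_orbit hM S hSp (fun s g => y⁻¹ * (s : G) * y * g * (s : G)⁻¹)
    · intro g
      show y⁻¹ * ((1 : S) : G) * y * g * ((1 : S) : G)⁻¹ = g
      simp
    · intro s t g
      show y⁻¹ * ((s * t : S) : G) * y * g * ((s * t : S) : G)⁻¹ =
        y⁻¹ * (s : G) * y * (y⁻¹ * (t : G) * y * g * (t : G)⁻¹) * (s : G)⁻¹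
      simp only [Subgroup.coe_mul]
      group
    · intro s g
      show (if y⁻¹ * (s : G) * y * g * (s : G)⁻¹ ∈ (P : Subgroup G) then
        a (y * (y⁻¹ * (s : G) * y * g * (s : G)⁻¹)) else 0) =
        if g ∈ (P : Subgroup G) then a (y * g) else 0
      have h1 : y⁻¹ * (s : G) * y * g * (s : G)⁻¹ ∈ (P : Subgroup G) ↔ g ∈ (P : Subgroup G) := by
        constructor
        · intro h
          have h2 := (P : Subgroup G).mul_mem ((P : Subgroup G).mul_mem
            ((P : Subgroup G).inv_mem (hSy s s.2)) h) (hSP s.2)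
          have e : (y⁻¹ * (s : G) * y)⁻¹ * (y⁻¹ * (s : G) * y * g * (s : G)⁻¹) * (s : G) = g := by
            group
          rwa [e] at h2
        · intro h
          exact (P : Subgroup G).mul_mem ((P : Subgroup G).mul_mem (hSy s s.2) h)
            ((P : Subgroup G).inv_mem (hSP s.2))
      have h3 : y * (y⁻¹ * (s : G) * y * g * (s : G)⁻¹) = (s : G) * (y * g) * (s : G)⁻¹ := by
        group
      by_cases hg : g ∈ (P : Subgroup G)
      · rw [if_pos hg, if_pos (h1.mpr hg), h3]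
        exact hac _ _
      · rw [if_neg hg, if_neg (fun h => hg (h1.mp h))]
    · intro g
      show Cfsg.MemLocalRing M (if g ∈ (P : Subgroup G) then a (y * g) else 0)
      split_ifs
      · exact halr _
      · exact lr_zero hMp
    · intro g hg
      show Cfsg.MemLocalIdeal M (if g ∈ (P : Subgroup G) then a (y * g) else 0)
      by_cases hgP : g ∈ (P : Subgroup G)
      · rw [if_pos hgP]
        by_contra hnli
        have hcomm : ∀ s ∈ S, s * (y * g) = (y * g) * s := by
          intro s hs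
          have h1 : y⁻¹ * s * y * g * s⁻¹ = g := hg ⟨s, hs⟩
          have h2 : s * (y * g) * s⁻¹ = y * g := by
            calc s * (y * g) * s⁻¹ = y * (y⁻¹ * s * y * g * s⁻¹) := by group
              _ = y * g := by rw [h1]
          exact mul_inv_eq_iff_eq_mul.mp h2
        have h5 := card_le_of_coeff hM B hB D hD (y * g) (by
          rw [← ha]
          exact hnli) S hSp hcomm
        omega
      · rw [if_neg hgP]
        exact li_zero hMp
  have hB1 : ∑ g : G, (if g ∈ (P : Subgroup G) then a (y * g) else 0) =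
      ∑ g : G, (if g ∈ (P : Subgroup G) then a (g₀ * g) else 0) := by
    rw [← Equiv.sum_comp (Equiv.mulLeft (v₀ : G))
      (fun g => if g ∈ (P : Subgroup G) then a (g₀ * g) else 0)]
    refine Finset.sum_congr rfl (fun g _ => ?_)
    show (if g ∈ (P : Subgroup G) then a (y * g) else 0) =
      if (v₀ : G) * g ∈ (P : Subgroup G) then a (g₀ * ((v₀ : G) * g)) else 0
    have h1 : (v₀ : G) * g ∈ (P : Subgroup G) ↔ g ∈ (P : Subgroup G) :=
      Subgroup.mul_mem_cancel_left _ (hQP v₀.2)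
    by_cases hg : g ∈ (P : Subgroup G)
    · rw [if_pos hg, if_pos (h1.mpr hg), hy, mul_assoc]
    · rw [if_neg hg, if_neg (fun h => hg (h1.mp h))]
  have hB2 : ∑ v : Q, a (g₀ * (v : G)) =
      ∑ g : G, (if g ∈ (P : Subgroup G) ∧ g ∈ C then a (g₀ * g) else 0) := by
    rw [← sum_subgroup_eq Q (fun g => if g ∈ (P : Subgroup G) ∧ g ∈ C then a (g₀ * g) else 0)]
    · refine Finset.sum_congr rfl (fun v _ => ?_)
      rw [if_pos ⟨hQP v.2, hQC v.2⟩]
    · intro g hg
      rw [if_neg]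
      intro h
      apply hg
      rw [hQ]
      exact h
  have hB3 : Cfsg.MemLocalIdeal M
      (∑ g : G, (if g ∈ (P : Subgroup G) then a (g₀ * g) else 0) -
      ∑ g : G, (if g ∈ (P : Subgroup G) ∧ g ∈ C then a (g₀ * g) else 0)) := by
    rw [← Finset.sum_sub_distrib]
    have e : ∀ g : G, (if g ∈ (P : Subgroup G) then a (g₀ * g) else 0) -
        (if g ∈ (P : Subgroup G) ∧ g ∈ C then a (g₀ * g) else 0) =
        if g ∈ (P : Subgroup G) ∧ g ∉ C then a (g₀ * g) else 0 := by
      intro g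
      by_cases h1 : g ∈ (P : Subgroup G)
      · by_cases h2 : g ∈ C
        · rw [if_pos h1, if_pos ⟨h1, h2⟩, if_neg (fun h => h.2 h2), sub_self]
        · rw [if_pos h1, if_neg (fun h => h2 h.2), if_pos ⟨h1, h2⟩, sub_zero]
      · rw [if_neg h1, if_neg (fun h => h1 h.1), if_neg (fun h => h1 h.1), sub_zero]
    rw [Finset.sum_congr rfl (fun g _ => e g)]
    apply hDorb
    · intro d hd g
      have hP1 : d * g * d⁻¹ ∈ (P : Subgroup G) ↔ g ∈ (P : Subgroup G) := by
        constructor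
        · intro h
          have h2 := (P : Subgroup G).mul_mem ((P : Subgroup G).mul_mem
            ((P : Subgroup G).inv_mem (hDP hd)) h) (hDP hd)
          have e1 : d⁻¹ * (d * g * d⁻¹) * d = g := by group
          rwa [e1] at h2
        · intro h
          exact (P : Subgroup G).mul_mem ((P : Subgroup G).mul_mem (hDP hd) h)
            ((P : Subgroup G).inv_mem (hDP hd))
      have hC1 := hDconj d hd g
      have hg₀d : d * g₀ = g₀ * d := (hCmem g₀).mp hg₀C d hd
      have e2 : g₀ * (d * g * d⁻¹) = d * (g₀ * g) * d⁻¹ := by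
        rw [← mul_assoc, ← mul_assoc, ← hg₀d]
        group
      by_cases h : g ∈ (P : Subgroup G) ∧ g ∉ C
      · rw [if_pos h, if_pos ⟨hP1.mpr h.1, fun h' => h.2 (hC1.mp h')⟩, e2]
        exact hac _ _
      · rw [if_neg h, if_neg (fun h' => h ⟨hP1.mp h'.1, fun h'' => h'.2 (hC1.mpr h'')⟩)]
    · intro g
      split_ifs
      · exact halr _
      · exact lr_zero hMp
    · intro g hg
      rw [if_neg (fun h => h.2 hg)]
      exact li_zero hMp
  apply hsumQ
  rw [hB2]
  rw [hB1] at hA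
  have h6 := li_sub hMp hA hB3
  rw [sub_sub_cancel] at h6
  exact h6

end Cfsg.Agent.S0956
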