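import Mathlib
import Cfsg.Statements.S0958
import Cfsg.Agent.Lib.Helper3.Char
import Cfsg.Agent.Lib.Helper3.CharCore
import Cfsg.Agent.Lib.Helper3.Core
import Cfsg.Agent.Lib.Helper3.BlkLocal
import Cfsg.Agent.Lib.Helper3.BlkOsima
import Cfsg.Agent.Lib.Helper3.BlkOrth
import Cfsg.Agent.Lib.Helper3.BlkOrth2
import Cfsg.Agent.Lib.Helper3.BlkFirst
import Cfsg.Agent.S0908
import Cfsg.Agent.S0912
import Cfsg.Agent.S0917

set_option autoImplicit false
open Cfsg
open Cfsg.Agent.Lib.Helper3.Char Cfsg.Agent.Lib.Helper3.CharCore Cfsg.Agent.Lib.Helper3.Core Cfsg.Agent.Lib.Helper3.BlkLocal Cfsg.Agent.Lib.Helper3.BlkOsima Cfsg.Agent.Lib.Helper3.BlkOrth Cfsg.Agent.Lib.Helper3.BlkOrth2 Cfsg.Agent.Lib.Helper3.BlkFirst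

namespace Cfsg.Agent.S0958

theorem result {G : Type*} [Group G] [Finite G] (p : ℕ) [Fact p.Prime] (M : Ideal Cfsg.AlgInt) (hM : Cfsg.IsPModular p M) (P H : Subgroup G) (hP : IsPGroup p P) (hPH : P ⊔ Subgroup.centralizer (P : Set G) ≤ H) (hHN : H ≤ Subgroup.normalizer (P : Set G)) (B : Set (Cfsg.IrrCharacter G)) (hB : Cfsg.IsPBlock M B) : (∃ b : Set (Cfsg.IrrCharacter H), Cfsg.IsInducedBlock M H b B) ↔ ∃ D : Subgroup G, Cfsg.IsDefectGroup p M B D ∧ ∃ x : G, P.map (MulAut.conj x).toMonoidHom ≤ D := by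
  classical
  have _fg : Fintype G := Fintype.ofFinite G
  have _fh : Fintype H := Fintype.ofFinite H
  have hMp := hM.2.1.isPrime
  have hPH' : P ≤ H := le_sup_left.trans hPH
  have hCH : Subgroup.centralizer (P : Set G) ≤ H := le_sup_right.trans hPH
  constructor
  · rintro ⟨b, hb⟩
    obtain ⟨z, hz⟩ := defect_class hMp b hb.1
    obtain ⟨T⟩ : Nonempty (Sylow p (Subgroup.centralizer ({z} : Set H))) := inferInstance
    have hDb : Cfsg.IsDefectGroup p M b ((T : Subgroup _).map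
        (Subgroup.centralizer ({z} : Set H)).subtype) := ⟨z, hz, T, rfl⟩
    have h912 := Cfsg.Agent.S0912.result p M hM b hb.1 _ hDb
    obtain ⟨E, hE, hle⟩ := Cfsg.Agent.S0917.result p M hM _ b hb.1 B hB hb _ hDb
    have h1 : P.subgroupOf H ≤ Cfsg.pCore p H := by
      apply le_pCore
      · exact (Subgroup.normal_subgroupOf_iff_le_normalizer hPH').mpr hHN
      · exact hP.comap_subtype
    refine ⟨E, hE, 1, ?_⟩
    intro g hg
    obtain ⟨q, hq, rfl⟩ := Subgroup.mem_map.mp hg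
    apply hle
    refine Subgroup.mem_map.mpr ⟨⟨q, hPH' hq⟩, h912 (h1 (Subgroup.mem_subgroupOf.mpr hq)), ?_⟩
    simp
  · rintro ⟨D, hD, x, hx⟩
    obtain ⟨y, hy, S, hS⟩ := id hD
    have hyD : ∀ d ∈ D, d * y = y * d := by
      intro d hd
      rw [hS] at hd
      obtain ⟨c, _, rfl⟩ := Subgroup.mem_map.mp hd
      have h1 := c.2
      rw [Subgroup.mem_centralizer_iff] at h1
      exact (h1 y rfl).symm
    have hyc : x⁻¹ * y * x ∈ Subgroup.centralizer (P : Set G) := by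
      rw [Subgroup.mem_centralizer_iff]
      intro q hq
      have h1 : x * q * x⁻¹ ∈ D := by
        apply hx
        exact Subgroup.mem_map.mpr ⟨q, hq, by simp [MulAut.conj_apply]⟩
      have h2 := hyD _ h1
      have h3 : q * (x⁻¹ * y * x) = x⁻¹ * (x * q * x⁻¹ * y) * x := by group
      rw [h3, h2]
      group
    have hval : Cfsg.blockCoeff B (x⁻¹ * y * x) = Cfsg.blockCoeff B y := by
      have h1 := blockCoeff_classFun B y x⁻¹
      rw [inv_inv] at h1
      exact h1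
    exact exists_induced hM P H hP hPH' hCH hHN B hB _ hyc (by rw [hval]; exact hy.2.1)

end Cfsg.Agent.S0958
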