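import Mathlib
import Cfsg.Statements.S0959
import Cfsg.Agent.Lib.Helper3.Char
import Cfsg.Agent.Lib.Helper3.CharCore
import Cfsg.Agent.Lib.Helper3.BlkLocal
import Cfsg.Agent.Lib.Helper3.BlkOsima
import Cfsg.Agent.Lib.Helper3.BlkMinMax
import Cfsg.Agent.Lib.Helper3.BlkMinMax2
import Cfsg.Agent.S0911

set_option autoImplicit false
open Cfsg
open Cfsg.Agent.Lib.Helper3.Char Cfsg.Agent.Lib.Helper3.CharCore Cfsg.Agent.Lib.Helper3.BlkLocal Cfsg.Agent.Lib.Helper3.BlkOsima Cfsg.Agent.Lib.Helper3.BlkMinMax Cfsg.Agent.Lib.Helper3.BlkMinMax2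

namespace Cfsg.Agent.S0959

theorem result {G : Type*} [Group G] [Finite G] (p : ℕ) [Fact p.Prime] (M : Ideal Cfsg.AlgInt) (hM : Cfsg.IsPModular p M) (B : Set (Cfsg.IrrCharacter G)) (hB : Cfsg.IsPBlock M B) (D : Subgroup G) (hD : Cfsg.IsDefectGroup p M B D) (P : Subgroup G) (hP : IsPGroup p P) : (∃ g : G, Cfsg.MemLocalRing M (Cfsg.blockCoeff B g) ∧ ¬ Cfsg.MemLocalIdeal M (Cfsg.blockCoeff B g) ∧ ∃ c : G, IsConj g c ∧ c ∈ Subgroup.centralizer (P : Set G)) ↔ ∃ x : G, P.map (MulAut.conj x).toMonoidHom ≤ D := by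
  classical
  have hMp := hM.2.1.isPrime
  obtain ⟨y₀, hy₀, Q₀, hDeq⟩ := id hD
  constructor
  · rintro ⟨g, hlr, hnli, c, hgc, hcP⟩
    obtain ⟨x₀, Q, hQ⟩ := (Cfsg.Agent.S0911.result p M hM B hB y₀ hy₀ Q₀ g).1 hlr hnli
    rw [← hDeq] at hQ
    obtain ⟨s, hs⟩ := isConj_iff.mp hgc
    have hP' : IsPGroup p (P.map (MulAut.conj s⁻¹).toMonoidHom) := hP.map _
    obtain ⟨k, hk⟩ := sylow_conj_le g Q (P.map (MulAut.conj s⁻¹).toMonoidHom) hP' (by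
      rintro r ⟨u, hu, rfl⟩
      have h1 := Subgroup.mem_centralizer_iff.mp hcP u hu
      show s⁻¹ * u * s⁻¹⁻¹ * g = g * (s⁻¹ * u * s⁻¹⁻¹)
      rw [inv_inv]
      have h2 : u * (s * g * s⁻¹) = (s * g * s⁻¹) * u := by rw [hs]; exact h1
      calc s⁻¹ * u * s * g = s⁻¹ * (u * (s * g * s⁻¹)) * s := by group
        _ = s⁻¹ * ((s * g * s⁻¹) * u) * s := by rw [h2]
        _ = g * (s⁻¹ * u * s) := by group)
    refine ⟨(k * x₀)⁻¹ * s⁻¹, ?_⟩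
    rintro w ⟨u, hu, rfl⟩
    have h1 : s⁻¹ * u * s⁻¹⁻¹ ∈ P.map (MulAut.conj s⁻¹).toMonoidHom := ⟨u, hu, rfl⟩
    obtain ⟨d', ⟨d, hd, rfl⟩, hd'⟩ := Subgroup.map_mono hQ (hk h1)
    have h2 : k * (x₀ * d * x₀⁻¹) * k⁻¹ = s⁻¹ * u * s⁻¹⁻¹ := hd'
    show (k * x₀)⁻¹ * s⁻¹ * u * ((k * x₀)⁻¹ * s⁻¹)⁻¹ ∈ D
    have h3 : (k * x₀)⁻¹ * s⁻¹ * u * ((k * x₀)⁻¹ * s⁻¹)⁻¹ = d := by
      calc (k * x₀)⁻¹ * s⁻¹ * u * ((k * x₀)⁻¹ * s⁻¹)⁻¹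
          = (k * x₀)⁻¹ * (s⁻¹ * u * s⁻¹⁻¹) * (k * x₀) := by group
        _ = (k * x₀)⁻¹ * (k * (x₀ * d * x₀⁻¹) * k⁻¹) * (k * x₀) := by rw [h2]
        _ = d := by group
    rw [h3]
    exact hd
  · rintro ⟨x, hx⟩
    refine ⟨y₀, hy₀.1, hy₀.2.1, x⁻¹ * y₀ * x, isConj_iff.mpr ⟨x⁻¹, by rw [inv_inv]⟩, ?_⟩
    rw [Subgroup.mem_centralizer_iff]
    intro u hu
    have h1 : x * u * x⁻¹ ∈ D := hx ⟨u, hu, rfl⟩
    rw [hDeq] at h1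
    obtain ⟨w, _, hw⟩ := h1
    have h2 : y₀ * (w : G) = (w : G) * y₀ :=
      Subgroup.mem_centralizer_iff.mp w.2 y₀ (Set.mem_singleton y₀)
    have hw' : (w : G) = x * u * x⁻¹ := hw
    rw [hw'] at h2
    calc u * (x⁻¹ * y₀ * x) = x⁻¹ * ((x * u * x⁻¹) * y₀) * x := by group
      _ = x⁻¹ * (y₀ * (x * u * x⁻¹)) * x := by rw [h2]
      _ = x⁻¹ * y₀ * x * u := by group

end Cfsg.Agent.S0959
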