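import Mathlib
import Cfsg.Statements.S0962
import Cfsg.Agent.Lib.Helper3.Char
import Cfsg.Agent.Lib.Helper3.CharCore
import Cfsg.Agent.Lib.Helper3.BlkLocal
import Cfsg.Agent.Lib.Helper3.BlkOsima
import Cfsg.Agent.Lib.Helper3.BlkOrth
import Cfsg.Agent.Lib.Helper3.BlkOrth2
import Cfsg.Agent.Lib.Helper3.BlkDef
import Cfsg.Agent.Lib.Helper3.BlkMat
import Cfsg.Agent.Lib.Helper3.BlkHeight
import Cfsg.Agent.S0923

set_option autoImplicit false
open Cfsg
open Cfsg.Agent.Lib.Helper3.Char Cfsg.Agent.Lib.Helper3.CharCore Cfsg.Agent.Lib.Helper3.BlkLocal Cfsg.Agent.Lib.Helper3.BlkOsima Cfsg.Agent.Lib.Helper3.BlkOrth Cfsg.Agent.Lib.Helper3.BlkOrth2 Cfsg.Agent.Lib.Helper3.BlkDef Cfsg.Agent.Lib.Helper3.BlkMat Cfsg.Agent.Lib.Helper3.BlkHeight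

namespace Cfsg.Agent.S0962

theorem result {G : Type*} [Group G] [Finite G] (p : ℕ) [Fact p.Prime] (M : Ideal Cfsg.AlgInt) (hM : Cfsg.IsPModular p M) (d : ℕ) : Nat.card {B : Set (Cfsg.IrrCharacter G) // Cfsg.IsPBlock M B ∧ d ≤ Cfsg.blockDefect p B} ≤ Nat.card {C : ConjClasses G // ∃ g : G, ConjClasses.mk g = C ∧ Cfsg.IsPRegular p g ∧ d ≤ (Nat.card (Subgroup.centralizer ({g} : Set G))).factorization p} := by
  classical
  have _fg : Fintype G := Fintype.ofFinite G
  have _fi : Fintype (Cfsg.IrrCharacter G) := Fintype.ofFinite _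
  have _fc : Fintype (ConjClasses G) := Fintype.ofFinite _
  have hMp := hM.2.1.isPrime
  have _f1 : Fintype {B : Set (Cfsg.IrrCharacter G) // Cfsg.IsPBlock M B ∧ d ≤ Cfsg.blockDefect p B} :=
    Fintype.ofFinite _
  have _f2 : Fintype {C : ConjClasses G // ∃ g : G, ConjClasses.mk g = C ∧ Cfsg.IsPRegular p g ∧
      d ≤ (Nat.card (Subgroup.centralizer ({g} : Set G))).factorization p} := Fintype.ofFinite _
  rw [Nat.card_eq_fintype_card, Nat.card_eq_fintype_card]
  have hch : ∀ B : {B : Set (Cfsg.IrrCharacter G) // Cfsg.IsPBlock M B ∧ d ≤ Cfsg.blockDefect p B},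
      ∃ χ : Cfsg.IrrCharacter G, χ ∈ B.1 ∧ Cfsg.blockHeight p B.1 (χ : G → ℂ) = 0 := by
    intro B
    obtain ⟨χ₀, h0⟩ := B.2.1
    have hne : B.1.Nonempty := ⟨χ₀, by rw [h0]; exact sb_refl hMp _⟩
    obtain ⟨χ, h1, h2⟩ := exists_height_zero p B.1 hne
    exact ⟨χ, h1, h2⟩
  choose c hc1 hc2 using hch
  set A : Matrix {B : Set (Cfsg.IrrCharacter G) // Cfsg.IsPBlock M B ∧ d ≤ Cfsg.blockDefect p B}
      {C : ConjClasses G // ∃ g : G, ConjClasses.mk g = C ∧ Cfsg.IsPRegular p g ∧
      d ≤ (Nat.card (Subgroup.centralizer ({g} : Set G))).factorization p} ℂ :=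
    fun B K => Cfsg.blockCoeff B.1 (Quotient.out K.1) with hA
  set W : Matrix {C : ConjClasses G // ∃ g : G, ConjClasses.mk g = C ∧ Cfsg.IsPRegular p g ∧
      d ≤ (Nat.card (Subgroup.centralizer ({g} : Set G))).factorization p}
      {B : Set (Cfsg.IrrCharacter G) // Cfsg.IsPBlock M B ∧ d ≤ Cfsg.blockDefect p B} ℂ :=
    fun K B => Cfsg.centralChar ((c B : Cfsg.IrrCharacter G) : G → ℂ) (Quotient.out K.1) with hW
  have key : ∀ B B', MemLocalIdeal M ((A * W) B B' - (1 : Matrix _ _ ℂ) B B') := by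
    intro B B'
    have h1 := om_classes (Cfsg.blockCoeff B.1) (blockCoeff_classFun B.1)
      ((c B' : Cfsg.IrrCharacter G) : G → ℂ) (char_classFun (isCharacter_of_irr (c B').2))
    rw [blockCoeff_om] at h1
    have h2 : (if c B' ∈ B.1 then ((c B' : Cfsg.IrrCharacter G) : G → ℂ) 1 else 0) /
        ((c B' : Cfsg.IrrCharacter G) : G → ℂ) 1 = (1 : Matrix _ _ ℂ) B B' := by
      by_cases hBB : B = B'
      · subst hBB
        rw [if_pos (hc1 B), Matrix.one_apply_eq, div_self (irr_one_ne_zero (c B).2)]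
      · rw [Matrix.one_apply_ne hBB, if_neg, zero_div]
        intro hmem
        apply hBB
        exact Subtype.ext (Cfsg.Agent.S0923.block_eq_of_mem hMp B.1 B'.1 B.2.1 B'.2.1 (c B') hmem
          (hc1 B'))
    rw [h2] at h1
    have e1 : (A * W) B B' = ∑ C ∈ Finset.univ.filter (fun C : ConjClasses G =>
        ∃ g : G, ConjClasses.mk g = C ∧ Cfsg.IsPRegular p g ∧
        d ≤ (Nat.card (Subgroup.centralizer ({g} : Set G))).factorization p),
        Cfsg.blockCoeff B.1 (Quotient.out C) *
          Cfsg.centralChar ((c B' : Cfsg.IrrCharacter G) : G → ℂ) (Quotient.out C) := by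
      rw [Matrix.mul_apply]
      exact (Finset.sum_subtype (Finset.univ.filter (fun C : ConjClasses G =>
        ∃ g : G, ConjClasses.mk g = C ∧ Cfsg.IsPRegular p g ∧
        d ≤ (Nat.card (Subgroup.centralizer ({g} : Set G))).factorization p))
        (fun x => by rw [Finset.mem_filter]; exact ⟨fun h => h.2, fun h => ⟨Finset.mem_univ _, h⟩⟩)
        (fun C => Cfsg.blockCoeff B.1 (Quotient.out C) *
          Cfsg.centralChar ((c B' : Cfsg.IrrCharacter G) : G → ℂ) (Quotient.out C))).symm
    rw [h1, e1, ← Finset.sum_filter_add_sum_filter_not Finset.univ (fun C : ConjClasses G =>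
        ∃ g : G, ConjClasses.mk g = C ∧ Cfsg.IsPRegular p g ∧
        d ≤ (Nat.card (Subgroup.centralizer ({g} : Set G))).factorization p)
        (fun C => Cfsg.blockCoeff B.1 (Quotient.out C) *
          Cfsg.centralChar ((c B' : Cfsg.IrrCharacter G) : G → ℂ) (Quotient.out C)),
      sub_add_cancel_left]
    apply li_neg
    apply li_sum hMp
    intro C hC
    rw [Finset.mem_filter] at hC
    have hg : ConjClasses.mk (Quotient.out C) = C := Quotient.out_eq C
    by_cases hreg : p ∣ orderOf (Quotient.out C)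
    · rw [blockCoeff_sing hM B.1 B.2.1 _ hreg, zero_mul]
      exact li_zero hMp
    · have hlt : (Nat.card (Subgroup.centralizer ({Quotient.out C} : Set G))).factorization p < d := by
        by_contra hge
        exact hC.2 ⟨Quotient.out C, hg, hreg, not_lt.mp hge⟩
      apply li_mul_left hMp (osima_fun hMp B.1 B.2.1 _)
      apply central_li_of_small hM
      have hidx : Nat.card (Subgroup.centralizer ({Quotient.out C} : Set G)) *
          (Subgroup.centralizer ({Quotient.out C} : Set G)).index = Nat.card G :=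
        Subgroup.card_mul_index _
      have hfac : (Nat.card (Subgroup.centralizer ({Quotient.out C} : Set G))).factorization p +
          (Subgroup.centralizer ({Quotient.out C} : Set G)).index.factorization p =
          (Nat.card G).factorization p := by
        rw [← hidx, Nat.factorization_mul Nat.card_pos.ne' Subgroup.index_ne_zero_of_finite]
        rfl
      have hz := height_zero_val p B'.1 (c B') (hc1 B') (hc2 B')
      have hdef := B'.2.2
      unfold Cfsg.blockDefect at hdef
      omega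
  have hdet : (A * W).det ≠ 0 := det_ne_zero_of_li hMp (A * W) key
  have hunit : IsUnit (A * W) := (Matrix.isUnit_iff_isUnit_det _).mpr (isUnit_iff_ne_zero.mpr hdet)
  have hr := Matrix.rank_of_isUnit (A * W) hunit
  have hr2 := Matrix.rank_mul_le_left A W
  have hr3 := Matrix.rank_le_card_width A
  omega

end Cfsg.Agent.S0962
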