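import Mathlib
import Cfsg.Statements.S0963
import Cfsg.Agent.Lib.Helper3.Char
import Cfsg.Agent.Lib.Helper3.CharCore
import Cfsg.Agent.Lib.Helper3.CharArith
import Cfsg.Agent.Lib.Helper3.CharInd
import Cfsg.Agent.Lib.Helper3.CharNormal
import Cfsg.Agent.S0932
import Cfsg.Agent.S0174

set_option autoImplicit false
open Cfsg
open Cfsg.Agent.Lib.Helper3.Char Cfsg.Agent.Lib.Helper3.CharCore Cfsg.Agent.Lib.Helper3.CharArith Cfsg.Agent.Lib.Helper3.CharInd Cfsg.Agent.Lib.Helper3.CharNormal
open scoped ComplexConjugate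

namespace Cfsg.Agent.S0963

theorem result {G : Type*} [Group G] [Fintype G] (N : Subgroup G) [N.Normal] [Fintype N] (χ : Cfsg.IrrCharacter G) (θ : Cfsg.IrrCharacter N) : Cfsg.classInner (fun n : N => (χ : G → ℂ) n) (θ : N → ℂ) ≠ 0 ↔ ∀ n : N, Cfsg.centralChar (χ : G → ℂ) (n : G) = Cfsg.inducedCentralChar N (θ : N → ℂ) (n : G) := by
  classical
  have hN : N.Normal := inferInstance
  obtain ⟨χ, hχ⟩ := χ
  obtain ⟨θ, hθ⟩ := θ
  change Cfsg.classInner (fun n : N => χ n) θ ≠ 0 ↔
    ∀ n : N, Cfsg.centralChar χ (n : G) = Cfsg.inducedCentralChar N θ (n : G)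
  have hcardG : (Nat.card G : ℂ) ≠ 0 := by exact_mod_cast Nat.card_pos.ne'
  have hcardN : (Nat.card N : ℂ) ≠ 0 := by exact_mod_cast Nat.card_pos.ne'
  have hχ1 := irr_one_ne_zero hχ
  have hθ1 := irr_one_ne_zero hθ
  have hidx : ∀ g : G, ((Subgroup.centralizer ({g} : Set G)).index : ℂ) ≠ 0 := by
    intro g
    have h4 := Subgroup.card_mul_index (Subgroup.centralizer ({g} : Set G))
    intro h
    have h5 : (Subgroup.centralizer ({g} : Set G)).index = 0 := by exact_mod_cast h
    rw [h5, mul_zero] at h4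
    exact Nat.card_pos.ne' h4.symm
  have hind1 : Cfsg.indFun N θ 1 ≠ 0 := by
    have h1 := @indFun_normal_mem G _ _ N hN θ (1 : N)
    change Cfsg.indFun N θ ((1 : N) : G) ≠ 0
    rw [h1]
    have h2 : ∀ x : G, θ ⟨x * ((1 : N) : G) * x⁻¹, hN.conj_mem _ (1 : N).2 x⟩ = θ 1 := by
      intro x
      congr 1
      apply Subtype.ext
      simp
    rw [Finset.sum_congr rfl (fun x _ => h2 x), Finset.sum_const, Finset.card_univ,
      ← Nat.card_eq_fintype_card, nsmul_eq_mul]
    exact mul_ne_zero (inv_ne_zero hcardN) (mul_ne_zero hcardG hθ1)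
  have h932 : ∀ g : G, Cfsg.inducedCentralChar N θ g = Cfsg.centralChar (Cfsg.indFun N θ) g :=
    fun g => Cfsg.Agent.S0932.result N θ (isCharacter_of_irr hθ) g
  constructor
  · intro hcon n
    rw [h932]
    unfold Cfsg.centralChar
    have h174 := Cfsg.Agent.S0174.result N hN χ hχ θ hθ hcon
    rw [orbit_set_eq N hN θ, finsum_mem_coe_finset] at h174
    have hres := ind_restrict N hN θ
    rw [sum_cj_eq N hN θ] at hres
    set Φ : N → ℂ := ∑ ψ ∈ Finset.univ.image (cj N hN θ), ψ with hΦ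
    have hs : ((Finset.univ.filter (fun j : G => cj N hN θ j = θ)).card : ℂ) ≠ 0 := by
      have h1 : 0 < (Finset.univ.filter (fun j : G => cj N hN θ j = θ)).card :=
        Finset.card_pos.mpr ⟨1, Finset.mem_filter.mpr ⟨Finset.mem_univ _, cj_one N hN θ⟩⟩
      exact_mod_cast h1.ne'
    have e1 : ∀ m : N, χ m = Cfsg.classInner (fun n : N => χ n) θ * Φ m := by
      intro m
      have := congrFun h174 m
      simpa using this
    have e2 : ∀ m : N, Cfsg.indFun N θ m = (Nat.card N : ℂ)⁻¹ *
        (((Finset.univ.filter (fun j : G => cj N hN θ j = θ)).card : ℂ) * Φ m) := by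
      intro m
      have := congrFun hres m
      simpa using this
    have e11 : χ 1 = Cfsg.classInner (fun n : N => χ n) θ * Φ 1 := e1 1
    have e21 : Cfsg.indFun N θ 1 = (Nat.card N : ℂ)⁻¹ *
        (((Finset.univ.filter (fun j : G => cj N hN θ j = θ)).card : ℂ) * Φ 1) := e2 1
    rw [e1 n, e2 n, e11, e21]
    have hΦ1 : Φ 1 ≠ 0 := by
      intro h
      rw [h, mul_zero] at e11
      exact hχ1 e11
    field_simp
  · intro hall
    have hrel : (fun n : N => χ n) = (χ 1 / Cfsg.indFun N θ 1) • (fun n : N => Cfsg.indFun N θ n) := by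
      funext n
      have h1 := hall n
      rw [h932] at h1
      unfold Cfsg.centralChar at h1
      have h2 := hidx (n : G)
      simp only [Pi.smul_apply, smul_eq_mul]
      field_simp at h1 ⊢
      linear_combination h1
    rw [hrel, classInner_smul_left]
    apply mul_ne_zero (div_ne_zero hχ1 hind1)
    rw [classInner_conj_symm, ← frobenius N θ _ (indFun_classFun N θ)]
    intro h
    have h3 : Cfsg.classInner (Cfsg.indFun N θ) (Cfsg.indFun N θ) = 0 := by
      simpa using h
    have h4 := inner_self_eq_zero h3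
    apply hind1
    rw [h4]
    rfl

end Cfsg.Agent.S0963
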