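import Mathlib
import Cfsg.Statements.S0964
import Cfsg.Agent.Lib.Helper3.Char
import Cfsg.Agent.Lib.Helper3.CharCore
import Cfsg.Agent.Lib.Helper3.CharNormal
import Cfsg.Agent.Lib.Helper3.BlkLocal
import Cfsg.Agent.Lib.Helper3.BlkOsima
import Cfsg.Agent.Lib.Helper3.BlkClif
import Cfsg.Agent.Lib.Helper3.BlkClif2

set_option autoImplicit false
open Cfsg
open Cfsg.Agent.Lib.Helper3.Char Cfsg.Agent.Lib.Helper3.CharCore Cfsg.Agent.Lib.Helper3.CharNormal Cfsg.Agent.Lib.Helper3.BlkLocal Cfsg.Agent.Lib.Helper3.BlkOsima Cfsg.Agent.Lib.Helper3.BlkClif Cfsg.Agent.Lib.Helper3.BlkClif2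

namespace Cfsg.Agent.S0964

theorem result {G : Type*} [Group G] [Fintype G] (p : ℕ) [Fact p.Prime] (M : Ideal Cfsg.AlgInt) (hM : Cfsg.IsPModular p M) (N : Subgroup G) [hN : N.Normal] [Fintype N] (B : Set (Cfsg.IrrCharacter G)) (hB : Cfsg.IsPBlock M B) (b : Set (Cfsg.IrrCharacter N)) (hb : Cfsg.IsPBlock M b) (χ : Cfsg.IrrCharacter G) (hχ : χ ∈ B) (θ : Cfsg.IrrCharacter N) (hθ : θ ∈ b) (hcon : Cfsg.classInner (fun n : N => (χ : G → ℂ) n) (θ : N → ℂ) ≠ 0) (χ' : Cfsg.IrrCharacter G) (hχ' : χ' ∈ B) (ψ : Cfsg.IrrCharacter N) (hψ : Cfsg.classInner (fun n : N => (χ' : G → ℂ) n) (ψ : N → ℂ) ≠ 0) : ∃ g : G, ∃ θ' ∈ b, ∀ n : N, (ψ : N → ℂ) n = (θ' : N → ℂ) ⟨g * n * g⁻¹, hN.conj_mem n n.2 g⟩ := by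
  classical
  have hMp := hM.2.1.isPrime
  have hsb : Cfsg.SameBlock M (χ' : G → ℂ) (χ : G → ℂ) := by
    obtain ⟨χ₀, rfl⟩ := hB
    exact sb_trans hMp (sb_symm hχ') hχ
  have h : ∀ n : N, MemLocalIdeal M (Cfsg.inducedCentralChar N (ψ : N → ℂ) (n : G) -
      Cfsg.inducedCentralChar N (θ : N → ℂ) (n : G)) := by
    intro n
    rw [← lying_cc N χ' ψ hψ n, ← lying_cc N χ θ hcon n]
    exact hsb n
  obtain ⟨g, hg⟩ := exists_cj_sameBlock hMp N ψ θ h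
  have hθ' : cjI N hN g ψ ∈ b := by
    obtain ⟨θ₀, rfl⟩ := hb
    exact sb_trans hMp hθ (sb_symm hg)
  refine ⟨g⁻¹, cjI N hN g ψ, hθ', ?_⟩
  intro n
  rw [cjI_val, cj_apply]
  exact congrArg (ψ : N → ℂ) (Subtype.ext (by simp [mul_assoc]))

end Cfsg.Agent.S0964
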