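import Mathlib
import Cfsg.Statements.S0966
import Cfsg.Agent.Lib.Helper3.Char
import Cfsg.Agent.Lib.Helper3.CharCore
import Cfsg.Agent.Lib.Helper3.CharInd
import Cfsg.Agent.Lib.Helper3.CharCliff
import Cfsg.Agent.Lib.Helper3.CharProj
import Cfsg.Agent.Lib.Helper3.CharNormal
import Cfsg.Agent.Lib.Helper3.BlkLocal
import Cfsg.Agent.Lib.Helper3.BlkOsima
import Cfsg.Agent.Lib.Helper3.BlkOrth
import Cfsg.Agent.Lib.Helper3.BlkOrth2
import Cfsg.Agent.Lib.Helper3.BlkDef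
import Cfsg.Agent.Lib.Helper3.BlkBr
import Cfsg.Agent.Lib.Helper3.BlkClif
import Cfsg.Agent.Lib.Helper3.BlkClif2
import Cfsg.Agent.S0923
import Cfsg.Agent.S0965

set_option autoImplicit false
open Cfsg
open Cfsg.Agent.Lib.Helper3.Char Cfsg.Agent.Lib.Helper3.CharCore Cfsg.Agent.Lib.Helper3.CharInd Cfsg.Agent.Lib.Helper3.CharCliff Cfsg.Agent.Lib.Helper3.CharProj Cfsg.Agent.Lib.Helper3.CharNormal Cfsg.Agent.Lib.Helper3.BlkLocal Cfsg.Agent.Lib.Helper3.BlkOsima Cfsg.Agent.Lib.Helper3.BlkOrth Cfsg.Agent.Lib.Helper3.BlkOrth2 Cfsg.Agent.Lib.Helper3.BlkDef Cfsg.Agent.Lib.Helper3.BlkBr Cfsg.Agent.Lib.Helper3.BlkClif Cfsg.Agent.Lib.Helper3.BlkClif2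
open scoped ComplexConjugate

namespace Cfsg.Agent.S0966

theorem result {G : Type*} [Group G] [Fintype G] (p : ℕ) [Fact p.Prime] (M : Ideal Cfsg.AlgInt) (hM : Cfsg.IsPModular p M) (N : Subgroup G) [N.Normal] [Fintype N] (hidx : ∃ k : ℕ, N.index = p ^ k) (b : Set (Cfsg.IrrCharacter N)) (hb : Cfsg.IsPBlock M b) : ∃! B : Set (Cfsg.IrrCharacter G), Cfsg.IsPBlock M B ∧ ∃ χ ∈ B, ∃ θ ∈ b, Cfsg.classInner (fun n : N => (χ : G → ℂ) n) (θ : N → ℂ) ≠ 0 := by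
  classical
  have hMp := hM.2.1.isPrime
  have hp : Fact p.Prime := inferInstance
  have hN : N.Normal := inferInstance
  have _fi : Fintype (Cfsg.IrrCharacter G) := Fintype.ofFinite _
  have _fc : Fintype (ConjClasses G) := Fintype.ofFinite _
  obtain ⟨θ, hθ⟩ : ∃ θ : Cfsg.IrrCharacter N, θ ∈ b := by
    obtain ⟨θ0, h0⟩ := hb
    exact ⟨θ0, by rw [h0]; exact sb_refl hMp _⟩
  have hexχ : ∃ χ : Cfsg.IrrCharacter G,
      Cfsg.classInner (fun n : N => (χ : G → ℂ) n) (θ : N → ℂ) ≠ 0 := by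
    by_contra hne
    push Not at hne
    have h0 : Cfsg.indFun N (θ : N → ℂ) = 0 := by
      apply class_fun_eq_zero_of_inner _ (indFun_classFun N _)
      intro χ hχ
      rw [frobenius N (θ : N → ℂ) χ (char_classFun (isCharacter_of_irr hχ)),
        classInner_conj_symm (fun h : N => χ h) (θ : N → ℂ), hne ⟨χ, hχ⟩, map_zero]
    have h1 := indFun_one N (θ : N → ℂ)
    rw [h0] at h1
    have h2 : (N.index : ℂ) ≠ 0 := by
      have h3 : N.index ≠ 0 := Subgroup.index_ne_zero_of_finite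
      exact_mod_cast h3
    exact mul_ne_zero h2 (irr_one_ne_zero θ.2) h1.symm
  obtain ⟨χ₁, hχ₁⟩ := hexχ
  refine ⟨Cfsg.blockOf M (χ₁ : G → ℂ), ⟨⟨χ₁, rfl⟩, χ₁, sb_refl hMp _, θ, hθ, hχ₁⟩, ?_⟩
  rintro B₂ ⟨hB₂, hcov₂⟩
  have hB₁ : Cfsg.IsPBlock M (Cfsg.blockOf M (χ₁ : G → ℂ)) := ⟨χ₁, rfl⟩
  have hχ₁B : χ₁ ∈ Cfsg.blockOf M (χ₁ : G → ℂ) := sb_refl hMp _
  have h965a := (Cfsg.Agent.S0965.result p M hM N _ hB₁ b hb).mp ⟨χ₁, hχ₁B, θ, hθ, hχ₁⟩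
  have h965b := (Cfsg.Agent.S0965.result p M hM N B₂ hB₂ b hb).mp hcov₂
  obtain ⟨χ₂, hχ₂⟩ : ∃ χ : Cfsg.IrrCharacter G, χ ∈ B₂ := by
    obtain ⟨χ0, h0⟩ := hB₂
    exact ⟨χ0, by rw [h0]; exact sb_refl hMp _⟩
  have hdiff : ∀ n : N, MemLocalIdeal M (Cfsg.centralChar (χ₁ : G → ℂ) (n : G) -
      Cfsg.centralChar (χ₂ : G → ℂ) (n : G)) := by
    intro n
    have h1 := h965a χ₁ hχ₁B θ hθ n
    have h2 := h965b χ₂ hχ₂ θ hθ n
    have h3 := li_sub hMp h1 h2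
    rw [sub_sub_sub_cancel_right] at h3
    exact h3
  obtain ⟨k, hk⟩ := hidx
  have hsing : ∀ g : G, g ∉ N → p ∣ orderOf g := by
    intro g hg
    by_contra hnd
    apply hg
    have h1 : g ^ (p ^ k) ∈ N := by
      rw [← hk]
      exact N.pow_index_mem g
    have h2 : (p ^ k).Coprime (orderOf g) :=
      Nat.Coprime.pow_left k ((Nat.Prime.coprime_iff_not_dvd hp.out).mpr hnd)
    obtain ⟨m, hm⟩ := exists_pow_eq_self_of_coprime h2
    rw [← hm]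
    exact N.pow_mem h1 m
  have hχ₂B₁ : χ₂ ∈ Cfsg.blockOf M (χ₁ : G → ℂ) := by
    by_contra hnot
    have e1 := om_classes (Cfsg.blockCoeff (Cfsg.blockOf M (χ₁ : G → ℂ)))
      (blockCoeff_classFun _) (χ₁ : G → ℂ) (char_classFun (isCharacter_of_irr χ₁.2))
    have e2 := om_classes (Cfsg.blockCoeff (Cfsg.blockOf M (χ₁ : G → ℂ)))
      (blockCoeff_classFun _) (χ₂ : G → ℂ) (char_classFun (isCharacter_of_irr χ₂.2))
    rw [blockCoeff_om, if_pos hχ₁B, div_self (irr_one_ne_zero χ₁.2)] at e1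
    rw [blockCoeff_om, if_neg hnot, zero_div] at e2
    have e3 : (1 : ℂ) = ∑ C : ConjClasses G,
        Cfsg.blockCoeff (Cfsg.blockOf M (χ₁ : G → ℂ)) (Quotient.out C) *
          (Cfsg.centralChar (χ₁ : G → ℂ) (Quotient.out C) -
            Cfsg.centralChar (χ₂ : G → ℂ) (Quotient.out C)) := by
      have e4 : (1 : ℂ) = 1 - 0 := by ring
      rw [e4]
      nth_rewrite 1 [e1]
      nth_rewrite 1 [e2]
      rw [← Finset.sum_sub_distrib]
      refine Finset.sum_congr rfl (fun C _ => ?_)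
      ring
    apply not_li_one hMp
    rw [e3]
    apply li_sum hMp
    intro C _
    by_cases hmem : Quotient.out C ∈ N
    · exact li_mul_left hMp (osima_fun hMp _ hB₁ _) (hdiff ⟨Quotient.out C, hmem⟩)
    · rw [blockCoeff_sing hM _ hB₁ _ (hsing _ hmem), zero_mul]
      exact li_zero hMp
  exact Cfsg.Agent.S0923.block_eq_of_mem hMp B₂ _ hB₂ hB₁ χ₂ hχ₂ hχ₂B₁

end Cfsg.Agent.S0966
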