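import Mathlib
import Cfsg.Statements.S0967
import Cfsg.Agent.Lib.Helper3.Char
import Cfsg.Agent.Lib.Helper3.CharInd
import Cfsg.Agent.Lib.Helper3.BlkLocal
import Cfsg.Agent.Lib.Helper3.BlkOsima
import Cfsg.Agent.Lib.Helper3.BlkOrth
import Cfsg.Agent.Lib.Helper3.BlkOrth2

set_option autoImplicit false
open Cfsg
open Cfsg.Agent.Lib.Helper3.Char Cfsg.Agent.Lib.Helper3.CharInd Cfsg.Agent.Lib.Helper3.BlkLocal Cfsg.Agent.Lib.Helper3.BlkOsima Cfsg.Agent.Lib.Helper3.BlkOrth Cfsg.Agent.Lib.Helper3.BlkOrth2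

namespace Cfsg.Agent.S0967

theorem result {G : Type*} [Group G] [Finite G] (p : ℕ) [Fact p.Prime] (M : Ideal Cfsg.AlgInt) (hM : Cfsg.IsPModular p M) (N : Subgroup G) [N.Normal] (hN : ¬ p ∣ Nat.card N) (χ : Cfsg.IrrCharacter (G ⧸ N)) (ψ : Cfsg.IrrCharacter G) (hψ : ψ ∈ Cfsg.blockOf M ((χ : G ⧸ N → ℂ) ∘ QuotientGroup.mk)) : ∃ ψ' : Cfsg.IrrCharacter (G ⧸ N), (ψ : G → ℂ) = (ψ' : G ⧸ N → ℂ) ∘ QuotientGroup.mk ∧ Cfsg.SameBlock M (χ : G ⧸ N → ℂ) (ψ' : G ⧸ N → ℂ) := by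
  classical
  have _fg : Fintype G := Fintype.ofFinite G
  have _fq : Fintype (G ⧸ N) := Fintype.ofFinite _
  have hprime := hM.2.1.isPrime
  have hirr : ∀ φ : Cfsg.IrrCharacter (G ⧸ N),
      Cfsg.IsIrrCharacter G ((φ : G ⧸ N → ℂ) ∘ QuotientGroup.mk) := fun φ =>
    comp_isIrr (QuotientGroup.mk' N) (QuotientGroup.mk'_surjective N) φ.2
  obtain ⟨ι, hι⟩ : ∃ ι : Cfsg.IrrCharacter (G ⧸ N) → Cfsg.IrrCharacter G,
      ∀ φ, ((ι φ : Cfsg.IrrCharacter G) : G → ℂ) = (φ : G ⧸ N → ℂ) ∘ QuotientGroup.mk :=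
    ⟨fun φ => ⟨_, hirr φ⟩, fun φ => rfl⟩
  have hinj : Function.Injective ι := by
    intro φ φ' h
    apply Subtype.ext
    have h1 : (φ : G ⧸ N → ℂ) ∘ QuotientGroup.mk = (φ' : G ⧸ N → ℂ) ∘ QuotientGroup.mk := by
      rw [← hι φ, ← hι φ', h]
    funext q
    obtain ⟨g, rfl⟩ := QuotientGroup.mk_surjective q
    exact congrFun h1 g
  have hcard : (Nat.card G : ℂ) = (Nat.card N : ℂ) * (Nat.card (G ⧸ N) : ℂ) := by
    have h1 := Subgroup.card_mul_index N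
    rw [Subgroup.index_eq_card] at h1
    exact_mod_cast h1.symm
  have hN0 : (Nat.card N : ℂ) ≠ 0 := by exact_mod_cast Nat.card_pos.ne'
  have hQ0 : (Nat.card (G ⧸ N) : ℂ) ≠ 0 := by exact_mod_cast Nat.card_pos.ne'
  have hA : ∀ g : G, Cfsg.MemLocalRing M
      (Cfsg.blockCoeff (ι '' Cfsg.blockOf M (χ : G ⧸ N → ℂ)) g) := by
    intro g
    have h1 : Cfsg.blockCoeff (ι '' Cfsg.blockOf M (χ : G ⧸ N → ℂ)) g =
        (Nat.card N : ℂ)⁻¹ * Cfsg.blockCoeff (Cfsg.blockOf M (χ : G ⧸ N → ℂ))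
          (QuotientGroup.mk g : G ⧸ N) := by
      unfold Cfsg.blockCoeff
      rw [finsum_mem_image (fun a _ b _ h => hinj h), hcard]
      simp only [hι]
      rw [mul_inv, mul_assoc]
      rfl
    rw [h1]
    exact lr_mul hprime (lr_nat_inv hM hN) (osima_fun hprime _ ⟨χ, rfl⟩ _)
  have hχA : ι χ ∈ ι '' Cfsg.blockOf M (χ : G ⧸ N → ℂ) :=
    ⟨χ, sb_refl hprime _, rfl⟩
  have h2 := union_blocks hprime _ hA (ι χ) hχA
  have h3 : ψ ∈ Cfsg.blockOf M ((ι χ : Cfsg.IrrCharacter G) : G → ℂ) := by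
    rw [hι]
    exact hψ
  obtain ⟨ψ', hψ', hψ'2⟩ := h2 h3
  refine ⟨ψ', ?_, hψ'⟩
  rw [← hψ'2, hι]

end Cfsg.Agent.S0967
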