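import Mathlib
import Cfsg.Statements.S0971
import Cfsg.Agent.Lib.Helper3.Char
import Cfsg.Agent.Lib.Helper3.CharCore
import Cfsg.Agent.Lib.Helper3.BlkLocal
import Cfsg.Agent.Lib.Helper3.BlkOsima
import Cfsg.Agent.Lib.Helper3.BlkCore
import Cfsg.Agent.S0919
import Cfsg.Agent.S0965

set_option autoImplicit false
open Cfsg
open Cfsg.Agent.Lib.Helper3.Char Cfsg.Agent.Lib.Helper3.CharCore Cfsg.Agent.Lib.Helper3.BlkLocal Cfsg.Agent.Lib.Helper3.BlkOsima Cfsg.Agent.Lib.Helper3.BlkCore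

namespace Cfsg.Agent.S0971

theorem result {G : Type*} [Group G] [Fintype G] (p : ℕ) [Fact p.Prime] (M : Ideal Cfsg.AlgInt) (hM : Cfsg.IsPModular p M) (Q : Subgroup G) [Q.Normal] (hQ : IsPGroup p Q) [Fintype ↥(Q ⊔ Subgroup.centralizer (Q : Set G))] (b : Set (Cfsg.IrrCharacter ↥(Q ⊔ Subgroup.centralizer (Q : Set G)))) (hb : Cfsg.IsPBlock M b) : Cfsg.InducedBlockDefined M (Q ⊔ Subgroup.centralizer (Q : Set G)) b ∧ ∀ B : Set (Cfsg.IrrCharacter G), Cfsg.IsPBlock M B → (∃ χ ∈ B, ∃ θ ∈ b, Cfsg.classInner (fun n : ↥(Q ⊔ Subgroup.centralizer (Q : Set G)) => (χ : G → ℂ) n) (θ : ↥(Q ⊔ Subgroup.centralizer (Q : Set G)) → ℂ) ≠ 0) → Cfsg.IsInducedBlock M (Q ⊔ Subgroup.centralizer (Q : Set G)) b B := by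
  classical
  have hMp := hM.2.1.isPrime
  have hQL : Q ≤ Q ⊔ Subgroup.centralizer (Q : Set G) := le_sup_left
  have hCL : Subgroup.centralizer (Q : Set G) ≤ Q ⊔ Subgroup.centralizer (Q : Set G) :=
    le_sup_right
  have hLN : Q ⊔ Subgroup.centralizer (Q : Set G) ≤ Subgroup.normalizer (Q : Set G) := by
    rw [Subgroup.normalizer_eq_top]
    exact le_top
  have hLnorm : (Q ⊔ Subgroup.centralizer (Q : Set G)).Normal := inferInstance
  refine ⟨Cfsg.Agent.S0919.result p M hM Q _ hQ hQL hCL hLN b hb, ?_⟩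
  intro B hB hcov
  have h965 := (Cfsg.Agent.S0965.result p M hM (Q ⊔ Subgroup.centralizer (Q : Set G)) B hB b
    hb).mp hcov
  obtain ⟨χ₀, hχ₀, hker⟩ := exists_ker hM Q hQ B hB
  refine ⟨hb, hB, ?_⟩
  intro ξ hξ χ hχ g
  by_cases hg : g ∈ Q ⊔ Subgroup.centralizer (Q : Set G)
  · have h1 := h965 χ hχ ξ hξ ⟨g, hg⟩
    have h2 := li_neg h1
    rw [neg_sub] at h2
    exact h2
  · have hempty : {h : ↥(Q ⊔ Subgroup.centralizer (Q : Set G)) | IsConj g (h : G)} = ∅ := by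
      ext h
      simp only [Set.mem_ofPred_eq, Set.mem_empty_iff_false, iff_false]
      intro hc
      apply hg
      obtain ⟨c, hc'⟩ := isConj_iff.mp hc
      have h1 : g = c⁻¹ * (h : G) * c⁻¹⁻¹ := by
        rw [← hc']
        group
      rw [h1]
      exact hLnorm.conj_mem _ h.2 c⁻¹
    have h0 : Cfsg.inducedCentralChar (Q ⊔ Subgroup.centralizer (Q : Set G))
        (ξ : ↥(Q ⊔ Subgroup.centralizer (Q : Set G)) → ℂ) g = 0 := by
      unfold Cfsg.inducedCentralChar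
      rw [hempty, finsum_mem_empty]
    rw [h0, zero_sub]
    apply li_neg
    have hncent : ∃ u ∈ Q, u * g ≠ g * u := by
      by_contra hall
      push Not at hall
      apply hg
      apply hCL
      rw [Subgroup.mem_centralizer_iff]
      exact hall
    have h1 := central_li_of_ker hM Q hQ χ₀ hker g hncent
    have hsb : MemLocalIdeal M (Cfsg.centralChar (χ : G → ℂ) g -
        Cfsg.centralChar (χ₀ : G → ℂ) g) := by
      obtain ⟨χ₁, rfl⟩ := hB
      exact (sb_trans hMp (sb_symm hχ) hχ₀) g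
    have h2 := li_add hMp hsb h1
    rw [sub_add_cancel] at h2
    exact h2

end Cfsg.Agent.S0971
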