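import Mathlib
import Cfsg.Statements.S0973
import Cfsg.Agent.Lib.Helper3.Char
import Cfsg.Agent.Lib.Helper3.CharCore
import Cfsg.Agent.Lib.Helper3.CharInt
import Cfsg.Agent.Lib.Helper3.CharNormal
import Cfsg.Agent.Lib.Helper3.Core
import Cfsg.Agent.Lib.Helper3.BlkLocal
import Cfsg.Agent.Lib.Helper3.BlkOsima
import Cfsg.Agent.Lib.Helper3.BlkOrth
import Cfsg.Agent.Lib.Helper3.BlkOrth2
import Cfsg.Agent.Lib.Helper3.BlkBrauer
import Cfsg.Agent.Lib.Helper3.BlkFirst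
import Cfsg.Agent.Lib.Helper3.BlkFirst2
import Cfsg.Agent.Lib.Helper3.BlkFirst3
import Cfsg.Agent.Lib.Helper3.BlkClif
import Cfsg.Agent.Lib.Helper3.BlkClif2
import Cfsg.Agent.Lib.Helper3.BlkTr
import Cfsg.Agent.Lib.Helper3.GrpSyl
import Cfsg.Agent.S0908
import Cfsg.Agent.S0911
import Cfsg.Agent.S0917
import Cfsg.Agent.S0919
import Cfsg.Agent.S0920
import Cfsg.Agent.S0923
import Cfsg.Agent.S0964

set_option autoImplicit false
open Cfsg
open Cfsg.Agent.Lib.Helper3.Char Cfsg.Agent.Lib.Helper3.CharCore Cfsg.Agent.Lib.Helper3.CharInt Cfsg.Agent.Lib.Helper3.CharNormal Cfsg.Agent.Lib.Helper3.Core Cfsg.Agent.Lib.Helper3.BlkLocal Cfsg.Agent.Lib.Helper3.BlkOsima Cfsg.Agent.Lib.Helper3.BlkOrth Cfsg.Agent.Lib.Helper3.BlkOrth2 Cfsg.Agent.Lib.Helper3.BlkBrauer Cfsg.Agent.Lib.Helper3.BlkFirst Cfsg.Agent.Lib.Helper3.BlkFirst2 Cfsg.Agent.Lib.Helper3.BlkFirst3 Cfsg.Agent.Lib.Helper3.BlkClif Cfsg.Agent.Lib.Helper3.BlkClif2 Cfsg.Agent.Lib.Helper3.BlkTr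 Cfsg.Agent.Lib.Helper3.GrpSyl

namespace Cfsg.Agent.S0973

theorem result {G : Type*} [Group G] [Finite G] (p : ℕ) [Fact p.Prime] (M : Ideal Cfsg.AlgInt) (hM : Cfsg.IsPModular p M) (B : Set (Cfsg.IrrCharacter G)) (hB : Cfsg.IsPBlock M B) (P : Subgroup G) (hP : Cfsg.IsDefectGroup p M B P) : (∃ b : Set (Cfsg.IrrCharacter ↥(P ⊔ Subgroup.centralizer (P : Set G))), Cfsg.IsDefectGroup p M b (P.subgroupOf (P ⊔ Subgroup.centralizer (P : Set G))) ∧ Cfsg.IsInducedBlock M (P ⊔ Subgroup.centralizer (P : Set G)) b B) ∧ ∀ b b' : Set (Cfsg.IrrCharacter ↥(P ⊔ Subgroup.centralizer (P : Set G))), Cfsg.IsInducedBlock M (P ⊔ Subgroup.centralizer (P : Set G)) b B → Cfsg.IsInducedBlock M (P ⊔ Subgroup.centralizer (P : Set G)) b' B → ∃ n ∈ Subgroup.normalizer (P : Set G), ∀ θ ∈ b, ∃ θ' ∈ b', ∀ x : ↥(P ⊔ Subgroup.centralizer (P : Set G)), ∀ hx : n * (x : G) * n⁻¹ ∈ P ⊔ Subgroup.centralizer (P : Set G), (θ' : ↥(P ⊔ Subgroup.centralizer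 (P : Set G)) → ℂ) x = (θ : ↥(P ⊔ Subgroup.centralizer (P : Set G)) → ℂ) ⟨n * (x : G) * n⁻¹, hx⟩ := by
  classical
  have _fg : Fintype G := Fintype.ofFinite G
  have hMp := hM.2.1.isPrime
  have hp : Fact p.Prime := inferInstance
  have hcardP := Cfsg.Agent.S0908.result p M hM B hB P hP
  have hPp : IsPGroup p P := IsPGroup.of_card hcardP
  have hPL : P ≤ P ⊔ Subgroup.centralizer (P : Set G) := le_sup_left
  have hCL : Subgroup.centralizer (P : Set G) ≤ P ⊔ Subgroup.centralizer (P : Set G) := le_sup_right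
  have hPN : P ≤ Subgroup.normalizer (P : Set G) := Subgroup.le_normalizer
  have hCN : Subgroup.centralizer (P : Set G) ≤ Subgroup.normalizer (P : Set G) := Subgroup.centralizer_le_normalizer _
  have hLN : P ⊔ Subgroup.centralizer (P : Set G) ≤ Subgroup.normalizer (P : Set G) := sup_le hPN hCN
  have _fl : Fintype ↥(P ⊔ Subgroup.centralizer (P : Set G)) := Fintype.ofFinite _
  have _fn : Fintype ↥(Subgroup.normalizer (P : Set G)) := Fintype.ofFinite _
  have _fln : Fintype ↥((P ⊔ Subgroup.centralizer (P : Set G)).subgroupOf (Subgroup.normalizer (P : Set G))) := Fintype.ofFinite _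
  have hne : ∀ {Γ : Type _} [Group Γ] (b : Set (Cfsg.IrrCharacter Γ)), Cfsg.IsPBlock M b →
      ∃ ξ : Cfsg.IrrCharacter Γ, ξ ∈ b := by
    intro Γ _ b hb
    obtain ⟨ξ0, h0⟩ := hb
    exact ⟨ξ0, by rw [h0]; exact sb_refl hMp _⟩
  constructor
  · obtain ⟨y, hy, S, hS⟩ := id hP
    have hyc : y ∈ Subgroup.centralizer (P : Set G) := by
      rw [Subgroup.mem_centralizer_iff]
      intro d hd
      have hd' := (SetLike.ext_iff.mp hS d).mp hd
      obtain ⟨c, _, rfl⟩ := Subgroup.mem_map.mp hd'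
      have h1 := c.2
      rw [Subgroup.mem_centralizer_iff] at h1
      exact (h1 y rfl).symm
    obtain ⟨b, hbind⟩ := exists_induced hM P (P ⊔ Subgroup.centralizer (P : Set G)) hPp hPL hCL hLN B hB y hyc hy.2.1
    exact ⟨b, (defect_of_induced hM B hB P hP (P ⊔ Subgroup.centralizer (P : Set G)) hPL hLN b hbind).2, hbind⟩
  · intro b b' hb hb'
    have hQn : (P.subgroupOf (Subgroup.normalizer (P : Set G))).Normal := Subgroup.normal_in_normalizer
    have hLnorm : ((P ⊔ Subgroup.centralizer (P : Set G)).subgroupOf (Subgroup.normalizer (P : Set G))).Normal := by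
      rw [Subgroup.subgroupOf_sup hPN hCN]
      infer_instance
    have hCQ : Subgroup.centralizer ((P.subgroupOf (Subgroup.normalizer (P : Set G)) : Subgroup ↥(Subgroup.normalizer (P : Set G))) : Set ↥(Subgroup.normalizer (P : Set G))) ≤
        (P ⊔ Subgroup.centralizer (P : Set G)).subgroupOf (Subgroup.normalizer (P : Set G)) := by
      intro n hn
      rw [Subgroup.mem_subgroupOf]
      apply hCL
      rw [Subgroup.mem_centralizer_iff]
      intro q hq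
      have h1 := Subgroup.mem_centralizer_iff.mp hn ⟨q, hPN hq⟩ (Subgroup.mem_subgroupOf.mpr hq)
      exact congrArg (fun k : ↥(Subgroup.normalizer (P : Set G)) => (k : G)) h1
    have hkey : ∀ c : Set (Cfsg.IrrCharacter ↥(P ⊔ Subgroup.centralizer (P : Set G))), Cfsg.IsInducedBlock M (P ⊔ Subgroup.centralizer (P : Set G)) c B → ∀ ξ ∈ c,
        ∃ η : Cfsg.IrrCharacter ↥(Subgroup.normalizer (P : Set G)),
          Cfsg.classInner (fun n : ↥((P ⊔ Subgroup.centralizer (P : Set G)).subgroupOf (Subgroup.normalizer (P : Set G))) => (η : ↥(Subgroup.normalizer (P : Set G)) → ℂ) n)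
            ((trI (Subgroup.subgroupOfEquivOfLe hLN) ξ : Cfsg.IrrCharacter
              ↥((P ⊔ Subgroup.centralizer (P : Set G)).subgroupOf (Subgroup.normalizer (P : Set G)))) : ↥((P ⊔ Subgroup.centralizer (P : Set G)).subgroupOf (Subgroup.normalizer (P : Set G))) → ℂ) ≠ 0 ∧
          Cfsg.IsPBlock M (Cfsg.blockOf M (η : ↥(Subgroup.normalizer (P : Set G)) → ℂ)) ∧
          Cfsg.IsDefectGroup p M (Cfsg.blockOf M (η : ↥(Subgroup.normalizer (P : Set G)) → ℂ)) (P.subgroupOf (Subgroup.normalizer (P : Set G))) ∧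
          Cfsg.IsInducedBlock M (Subgroup.normalizer (P : Set G)) (Cfsg.blockOf M (η : ↥(Subgroup.normalizer (P : Set G)) → ℂ)) B := by
      intro c hc ξ hξ
      obtain ⟨η, hη⟩ := exists_lying_over ((P ⊔ Subgroup.centralizer (P : Set G)).subgroupOf (Subgroup.normalizer (P : Set G)))
        (trI (Subgroup.subgroupOfEquivOfLe hLN) ξ)
      have hβ : Cfsg.IsPBlock M (Cfsg.blockOf M (η : ↥(Subgroup.normalizer (P : Set G)) → ℂ)) := ⟨η, rfl⟩
      have hcB := trB_block (M := M) (Subgroup.subgroupOfEquivOfLe hLN) c hc.1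
      have h1 := induced_of_cover hM (P.subgroupOf (Subgroup.normalizer (P : Set G))) hPp.comap_subtype
        ((P ⊔ Subgroup.centralizer (P : Set G)).subgroupOf (Subgroup.normalizer (P : Set G))) hCQ _ hcB _ hβ
        ⟨η, sb_refl hMp _, trI (Subgroup.subgroupOfEquivOfLe hLN) ξ, ⟨ξ, hξ, rfl⟩, hη⟩
      have h2 := ind_trans hMp (P ⊔ Subgroup.centralizer (P : Set G)) (Subgroup.normalizer (P : Set G)) hLN c _ B h1 hc
      have h3 := (defect_of_induced hM B hB P hP (Subgroup.normalizer (P : Set G)) hPN le_rfl _ h2).2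
      exact ⟨η, hη, hβ, h3, h2⟩
    obtain ⟨ξ₁, hξ₁⟩ := hne b hb.1
    obtain ⟨ξ₂, hξ₂⟩ := hne b' hb'.1
    obtain ⟨η₁, hη₁, hβ₁, hd₁, hi₁⟩ := hkey b hb ξ₁ hξ₁
    obtain ⟨η₂, hη₂, hβ₂, hd₂, hi₂⟩ := hkey b' hb' ξ₂ hξ₂
    have huniq := (Cfsg.Agent.S0920.result p M hM P hPp).2 B hB hP
    have hβeq : Cfsg.blockOf M (η₁ : ↥(Subgroup.normalizer (P : Set G)) → ℂ) = Cfsg.blockOf M (η₂ : ↥(Subgroup.normalizer (P : Set G)) → ℂ) :=
      huniq.unique ⟨hβ₁, hd₁, hi₁⟩ ⟨hβ₂, hd₂, hi₂⟩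
    have hη₁mem : η₁ ∈ Cfsg.blockOf M (η₂ : ↥(Subgroup.normalizer (P : Set G)) → ℂ) := by
      rw [← hβeq]
      exact sb_refl hMp _
    obtain ⟨g, θ', hθ', hg⟩ := Cfsg.Agent.S0964.result p M hM ((P ⊔ Subgroup.centralizer (P : Set G)).subgroupOf (Subgroup.normalizer (P : Set G)))
      (Cfsg.blockOf M (η₂ : ↥(Subgroup.normalizer (P : Set G)) → ℂ)) hβ₂
      (trI (Subgroup.subgroupOfEquivOfLe hLN) '' b')
      (trB_block (Subgroup.subgroupOfEquivOfLe hLN) b' hb'.1) η₂ (sb_refl hMp _)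
      (trI (Subgroup.subgroupOfEquivOfLe hLN) ξ₂) ⟨ξ₂, hξ₂, rfl⟩ hη₂ η₁ hη₁mem
      (trI (Subgroup.subgroupOfEquivOfLe hLN) ξ₁) hη₁
    refine ⟨((g⁻¹ : ↥(Subgroup.normalizer (P : Set G))) : G), (g⁻¹).2, ?_⟩
    intro θ hθ
    have hsb : Cfsg.SameBlock M
        ((trI (Subgroup.subgroupOfEquivOfLe hLN) θ : Cfsg.IrrCharacter
          ↥((P ⊔ Subgroup.centralizer (P : Set G)).subgroupOf (Subgroup.normalizer (P : Set G)))) : ↥((P ⊔ Subgroup.centralizer (P : Set G)).subgroupOf (Subgroup.normalizer (P : Set G))) → ℂ)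
        ((trI (Subgroup.subgroupOfEquivOfLe hLN) ξ₁ : Cfsg.IrrCharacter
          ↥((P ⊔ Subgroup.centralizer (P : Set G)).subgroupOf (Subgroup.normalizer (P : Set G)))) : ↥((P ⊔ Subgroup.centralizer (P : Set G)).subgroupOf (Subgroup.normalizer (P : Set G))) → ℂ) := by
      obtain ⟨ξ0, h0⟩ := trB_block (M := M) (Subgroup.subgroupOfEquivOfLe hLN) b hb.1
      have ha : trI (Subgroup.subgroupOfEquivOfLe hLN) θ ∈
          trI (Subgroup.subgroupOfEquivOfLe hLN) '' b := ⟨θ, hθ, rfl⟩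
      have hb2 : trI (Subgroup.subgroupOfEquivOfLe hLN) ξ₁ ∈
          trI (Subgroup.subgroupOfEquivOfLe hLN) '' b := ⟨ξ₁, hξ₁, rfl⟩
      rw [h0] at ha hb2
      exact sb_trans hMp (sb_symm ha) hb2
    have hsb2 := sb_cj ((P ⊔ Subgroup.centralizer (P : Set G)).subgroupOf (Subgroup.normalizer (P : Set G))) hLnorm _ _ g⁻¹ hsb
    have hcjξ : cj ((P ⊔ Subgroup.centralizer (P : Set G)).subgroupOf (Subgroup.normalizer (P : Set G))) hLnorm
        ((trI (Subgroup.subgroupOfEquivOfLe hLN) ξ₁ : Cfsg.IrrCharacter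
          ↥((P ⊔ Subgroup.centralizer (P : Set G)).subgroupOf (Subgroup.normalizer (P : Set G)))) : ↥((P ⊔ Subgroup.centralizer (P : Set G)).subgroupOf (Subgroup.normalizer (P : Set G))) → ℂ) g⁻¹ =
        (θ' : ↥((P ⊔ Subgroup.centralizer (P : Set G)).subgroupOf (Subgroup.normalizer (P : Set G))) → ℂ) := by
      funext l
      rw [cj_apply, hg]
      exact congrArg (θ' : ↥((P ⊔ Subgroup.centralizer (P : Set G)).subgroupOf (Subgroup.normalizer (P : Set G))) → ℂ) (Subtype.ext (by simp [mul_assoc]))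
    rw [hcjξ] at hsb2
    have hmem : cjI ((P ⊔ Subgroup.centralizer (P : Set G)).subgroupOf (Subgroup.normalizer (P : Set G))) hLnorm g⁻¹ (trI (Subgroup.subgroupOfEquivOfLe hLN) θ) ∈
        trI (Subgroup.subgroupOfEquivOfLe hLN) '' b' := by
      obtain ⟨ξ0, h0⟩ := trB_block (M := M) (Subgroup.subgroupOfEquivOfLe hLN) b' hb'.1
      rw [h0] at hθ' ⊢
      exact sb_trans hMp hθ' (sb_symm hsb2)
    obtain ⟨θ'', hθ'', hθ''e⟩ := hmem
    refine ⟨θ'', hθ'', ?_⟩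
    intro x hx
    have h1 : (θ'' : ↥(P ⊔ Subgroup.centralizer (P : Set G)) → ℂ) x =
        ((trI (Subgroup.subgroupOfEquivOfLe hLN) θ'' : Cfsg.IrrCharacter
          ↥((P ⊔ Subgroup.centralizer (P : Set G)).subgroupOf (Subgroup.normalizer (P : Set G)))) : ↥((P ⊔ Subgroup.centralizer (P : Set G)).subgroupOf (Subgroup.normalizer (P : Set G))) → ℂ)
          ((Subgroup.subgroupOfEquivOfLe hLN).symm x) := by
      rw [trI_apply, MulEquiv.apply_symm_apply]
    rw [h1, hθ''e, cjI_val, cj_apply, trI_apply]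
    exact congrArg (θ : ↥(P ⊔ Subgroup.centralizer (P : Set G)) → ℂ) (Subtype.ext rfl)

end Cfsg.Agent.S0973
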