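import Mathlib
import Cfsg.Agent.Lib.Helper2.OrbitCount
import Cfsg.Statements.S0985

set_option autoImplicit false
open Cfsg
open Cfsg.Agent.Lib.Helper2

namespace Cfsg.Agent.S0985

/-- If the number of Sylow p-subgroups of a finite group is not congruent to 1 modulo p^k, then there are two distinct Sylow p-subgroups P and R such that the index of P ∩ R in P is at most p^(k-1). -/
theorem result {G : Type*} [Group G] [Finite G] (p k : ℕ) [Fact p.Prime] (h : ¬ Nat.card (Sylow p G) ≡ 1 [MOD p ^ k]) : ∃ P R : Sylow p G, P ≠ R ∧ ((R : Subgroup G).subgroupOf (P : Subgroup G)).index ≤ p ^ (k - 1) := by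
  classical
  by_contra hcon
  push Not at hcon
  apply h
  obtain ⟨P⟩ : Nonempty (Sylow p G) := inferInstance
  apply OrbitCount.card_modEq_one_of_orbits (G := ↥(P : Subgroup G)) (p ^ k) P
  · intro g
    show (g : G) • P = P
    rw [Sylow.smul_eq_iff_mem_normalizer]
    exact Subgroup.le_normalizer g.2
  · intro R hR
    have h1 := hcon P R (Ne.symm hR)
    have hstab : MulAction.stabilizer ↥(P : Subgroup G) R =
        (R : Subgroup G).subgroupOf (P : Subgroup G) := by
      ext u
      rw [MulAction.mem_stabilizer_iff, Subgroup.mem_subgroupOf]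
      have h2 : u • R = (u : G) • R := rfl
      rw [h2, Sylow.smul_eq_iff_mem_normalizer]
      have h3 := IsPGroup.inf_normalizer_sylow P.isPGroup' R
      constructor
      · intro hu
        exact ((le_of_eq h3) ⟨u.2, hu⟩).2
      · intro hu
        exact Subgroup.le_normalizer hu
    have hcard : Nat.card (MulAction.orbit ↥(P : Subgroup G) R) =
        ((R : Subgroup G).subgroupOf (P : Subgroup G)).index := by
      rw [← hstab, MulAction.index_stabilizer, Nat.card_coe_set_eq]
    rw [hcard]
    have hPp : IsPGroup p ↥(P : Subgroup G) := P.isPGroup'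
    obtain ⟨n, hn⟩ := hPp.index ((R : Subgroup G).subgroupOf (P : Subgroup G))
    rw [hn] at h1 ⊢
    have hlt : k - 1 < n := (Nat.pow_lt_pow_iff_right (Fact.out : p.Prime).one_lt).1 h1
    exact pow_dvd_pow p (by omega)

end Cfsg.Agent.S0985
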