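import Mathlib
import Cfsg.Agent.Lib.Helper2.Sub
import Cfsg.Statements.S0991

set_option autoImplicit false
open Cfsg
open Cfsg.Agent.Lib.Helper2

namespace Cfsg.Agent.S0991

/-- Embedding Theorem: if a non-abelian finite simple group has a proper subgroup of index n, then it is isomorphic to a subgroup of the alternating group of degree n. -/
theorem result {G : Type*} [Group G] [Finite G] [IsSimpleGroup G] (hG : ¬ IsMulCommutative G) (H : Subgroup G) (hH : H ≠ ⊤) : ∃ f : G →* ↥(alternatingGroup (Fin H.index)), Function.Injective f := by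
  classical
  let e : G ⧸ H ≃ Fin H.index := Finite.equivFinOfCardEq rfl
  let ψ : G →* Equiv.Perm (Fin H.index) :=
    (e.permCongrHom).toMonoidHom.comp (MulAction.toPermHom G (G ⧸ H))
  have hker : ψ.ker = ⊥ := by
    rcases (inferInstance : ψ.ker.Normal).eq_bot_or_eq_top with h | h
    · exact h
    · exfalso
      apply hH
      rw [eq_top_iff]
      intro g _
      have hg : g ∈ ψ.ker := by rw [h]; trivial
      rw [MonoidHom.mem_ker] at hg
      have h1 : (MulAction.toPermHom G (G ⧸ H)) g = 1 := by
        have h2 : (e.permCongrHom) ((MulAction.toPermHom G (G ⧸ H)) g) = 1 := hg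
        exact (MulEquiv.map_eq_one_iff _).1 h2
      have h3 : g • ((1 : G) : G ⧸ H) = ((1 : G) : G ⧸ H) := by
        have := congrArg (fun σ : Equiv.Perm (G ⧸ H) => σ ((1 : G) : G ⧸ H)) h1
        simpa using this
      rw [MulAction.Quotient.smul_coe, smul_eq_mul, mul_one, QuotientGroup.eq] at h3
      have h4 := H.inv_mem h3
      simpa using h4
  have hinj : Function.Injective ψ := (MonoidHom.ker_eq_bot_iff ψ).1 hker
  have hsign : ∀ g : G, Equiv.Perm.sign (ψ g) = 1 := by
    intro g
    rcases (inferInstance : ((Equiv.Perm.sign).comp ψ).ker.Normal).eq_bot_or_eq_top with h | h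
    · exfalso
      apply hG
      have hinj2 : Function.Injective ((Equiv.Perm.sign).comp ψ) :=
        (MonoidHom.ker_eq_bot_iff _).1 h
      refine ⟨⟨fun a b => hinj2 ?_⟩⟩
      rw [map_mul, map_mul, mul_comm]
    · have hg : g ∈ ((Equiv.Perm.sign).comp ψ).ker := by rw [h]; trivial
      exact hg
  refine ⟨ψ.codRestrict (alternatingGroup (Fin H.index)) (fun g => ?_), ?_⟩
  · rw [Equiv.Perm.mem_alternatingGroup]
    exact hsign g
  · intro a b hab
    apply hinj
    exact congrArg Subtype.val hab

end Cfsg.Agent.S0991
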