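import Cfsg.Statements.S1007
import Mathlib
import Cfsg.Agent.Lib.Helper6.G168b

set_option autoImplicit false
open Cfsg

namespace Cfsg.Agent.S1007

open Subgroup Cfsg.Agent.S1003 Cfsg.Agent.Lib.Helper6.G168 Cfsg.Agent.S1004 Cfsg.Agent.Lib.Helper6.G168b

theorem struct {G : Type*} [Group G] [Finite G] [IsSimpleGroup G] (h : Nat.card G = 168)
    (T : Sylow 2 G) (a b : G) (haT : a ∈ (T : Subgroup G)) (hbT : b ∈ (T : Subgroup G))
    (ha : orderOf a = 4) (hb : orderOf b = 2) (hba : b ≠ a ^ 2) :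
    b ∉ zpowers a ∧ b * a * b⁻¹ = a⁻¹ ∧
      (∀ t ∈ (T : Subgroup G), t ∉ zpowers a → b⁻¹ * t ∈ zpowers a) ∧
      (∀ t ∈ (T : Subgroup G), t * a ^ 2 = a ^ 2 * t) ∧
      (∀ x ∈ (T : Subgroup G), ∀ y ∈ (T : Subgroup G),
        (x * y ∈ zpowers a ↔ (x ∈ zpowers a ↔ y ∈ zpowers a))) := by
  have hAT : zpowers a ≤ (T : Subgroup G) := Subgroup.zpowers_le.mpr haT
  obtain ⟨hnorm, hmul⟩ := idx2 (zpowers a) (T : Subgroup G) hAT
    (by rw [c2 h T, Nat.card_zpowers, ha])
  have ha1 : a ≠ 1 := ne1 ha (by norm_num)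
  have hb1 : b ≠ 1 := ne1 hb (by norm_num)
  have hbb : b * b = 1 := by rw [← pow_two, ← hb]; exact pow_orderOf_eq_one b
  have ha2 : orderOf (a ^ 2) = 2 := by
    rw [orderOf_pow_of_dvd (by norm_num) (by rw [ha]; norm_num), ha]
  have hbA : b ∉ zpowers a := by
    intro hbA
    rcases zp4 a b ha hbA with h1 | h1 | h1 | h1
    · exact hb1 h1
    · rw [h1, ha] at hb; omega
    · exact hba h1
    · rw [h1, orderOf_inv, ha] at hb; omega
  have hcos : ∀ t ∈ (T : Subgroup G), t ∉ zpowers a → b⁻¹ * t ∈ zpowers a := by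
    intro t ht htA
    rw [hmul b⁻¹ (inv_mem hbT) t ht]
    exact ⟨fun hh => absurd ((Subgroup.inv_mem_iff _).mp hh) hbA, fun hh => absurd hh htA⟩
  have hc : b * a * b⁻¹ ∈ zpowers a := hnorm b hbT a (Subgroup.mem_zpowers a)
  have hco : orderOf (b * a * b⁻¹) = 4 := by rw [oconj]; exact ha
  have hinv : b * a * b⁻¹ = a⁻¹ := by
    rcases zp4 a _ ha hc with h1 | h1 | h1 | h1
    · rw [h1, orderOf_one] at hco; omega
    · exfalso
      have hab : Commute b a := by
        show b * a = a * b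
        calc b * a = (b * a * b⁻¹) * b := by group
          _ = a * b := by rw [h1]
      have hac : ∀ t ∈ (T : Subgroup G), t * a = a * t := by
        intro t ht
        by_cases htA : t ∈ zpowers a
        · obtain ⟨i, rfl⟩ := Subgroup.mem_zpowers_iff.mp htA
          exact ((Commute.refl a).zpow_left i).eq
        · obtain ⟨i, hi⟩ := Subgroup.mem_zpowers_iff.mp (hcos t ht htA)
          have : t = b * a ^ i := by rw [hi]; group
          rw [this]
          exact (hab.mul_left ((Commute.refl a).zpow_left i)).eq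
      have := cen_unique h T a (a ^ 2) haT (Subgroup.pow_mem _ haT 2) ha1
        (ne1 ha2 (by norm_num)) hac
        (fun t ht => ((show Commute t a from hac t ht).pow_right 2).eq)
      apply ha1
      have h2 : a * 1 = a * a := by rw [mul_one, ← pow_two]; exact this
      exact (mul_left_cancel h2).symm
    · rw [h1, ha2] at hco; omega
    · exact h1
  have h4 : a ^ 4 = 1 := by rw [← ha]; exact pow_orderOf_eq_one a
  have hb2 : b * a ^ 2 = a ^ 2 * b := by
    have e1 : b * a = a⁻¹ * b := by rw [← hinv]; group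
    have e4 : a⁻¹ * a⁻¹ = a ^ 2 := by
      have : a ^ 2 * (a * a) = 1 := by rw [← pow_two, ← pow_add]; exact h4
      have h5 : a ^ 2 = (a * a)⁻¹ := eq_inv_of_mul_eq_one_left this
      rw [h5, mul_inv_rev]
    calc b * a ^ 2 = b * a * a := by rw [pow_two, mul_assoc]
      _ = a⁻¹ * b * a := by rw [e1]
      _ = a⁻¹ * (b * a) := by rw [mul_assoc]
      _ = a⁻¹ * (a⁻¹ * b) := by rw [e1]
      _ = (a⁻¹ * a⁻¹) * b := by rw [mul_assoc]
      _ = a ^ 2 * b := by rw [e4]
  refine ⟨hbA, hinv, hcos, ?_, hmul⟩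
  intro t ht
  by_cases htA : t ∈ zpowers a
  · obtain ⟨i, rfl⟩ := Subgroup.mem_zpowers_iff.mp htA
    exact (((Commute.refl a).zpow_left i).pow_right 2).eq
  · obtain ⟨i, hi⟩ := Subgroup.mem_zpowers_iff.mp (hcos t ht htA)
    have : t = b * a ^ i := by rw [hi]; group
    rw [this]
    exact ((show Commute b (a ^ 2) from hb2).mul_left
      (((Commute.refl a).zpow_left i).pow_right 2)).eq

theorem kf_in_T {G : Type*} [Group G] [Finite G] [IsSimpleGroup G] (h : Nat.card G = 168)
    (T : Sylow 2 G) (a b : G) (haT : a ∈ (T : Subgroup G)) (hbT : b ∈ (T : Subgroup G))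
    (ha : orderOf a = 4) (hb : orderOf b = 2) (hba : b ≠ a ^ 2)
    (U : Subgroup G) (hUT : U ≤ (T : Subgroup G)) [IsKleinFour U] :
    a ^ 2 ∈ U ∧ ∃ t ∈ U, (t = b ∨ t = b * a ^ 2 ∨ t = b * a ∨ t = b * a⁻¹) := by
  obtain ⟨hbA, hinv, hcos, hcen, hmul⟩ := struct h T a b haT hbT ha hb hba
  have hinvA : ∀ w ∈ zpowers a, w * w = 1 → w ≠ 1 → w = a ^ 2 := by
    intro w hw hww hw1
    rcases zp4 a w ha hw with h1 | h1 | h1 | h1
    · exact absurd h1 hw1
    · exfalso
      rw [h1, ← pow_two] at hww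
      have := orderOf_dvd_of_pow_eq_one hww
      rw [ha] at this; omega
    · exact h1
    · exfalso
      rw [h1, ← mul_inv_rev, inv_eq_one, ← pow_two] at hww
      have := orderOf_dvd_of_pow_eq_one hww
      rw [ha] at this; omega
  have hcard := kf_card U
  have hz : a ^ 2 ∈ U := by
    obtain ⟨u, huU, hu1, -⟩ := exists_third U (by omega) 1
    obtain ⟨u', huU', hu1', huu'⟩ := exists_third U (by omega) u
    by_cases huA : u ∈ zpowers a
    · rw [← hinvA u huA (kf_sq U u huU) hu1]; exact huU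
    by_cases huA' : u' ∈ zpowers a
    · rw [← hinvA u' huA' (kf_sq U u' huU') hu1']; exact huU'
    have h1 : u * u' ∈ zpowers a :=
      (hmul u (hUT huU) u' (hUT huU')).mpr (iff_of_false huA huA')
    have h2 : u * u' ≠ 1 := by
      intro hh
      apply huu'
      have e1 : u⁻¹ = u := inv_eq_of_mul_eq_one_right (kf_sq U u huU)
      have : u' = u⁻¹ := eq_inv_of_mul_eq_one_right hh
      rw [this, e1]
    rw [← hinvA _ h1 (kf_sq U _ (mul_mem huU huU')) h2]
    exact mul_mem huU huU'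
  refine ⟨hz, ?_⟩
  obtain ⟨t, htU, ht1, htz⟩ := exists_third U (by omega) (a ^ 2)
  have htA : t ∉ zpowers a := fun hh => htz (hinvA t hh (kf_sq U t htU) ht1)
  have h3 := hcos t (hUT htU) htA
  refine ⟨t, htU, ?_⟩
  rcases zp4 a _ ha h3 with h1 | h1 | h1 | h1
  · left
    have := eq_mul_of_inv_mul_eq h1
    rwa [mul_one] at this
  · right; right; left; exact eq_mul_of_inv_mul_eq h1
  · right; left; exact eq_mul_of_inv_mul_eq h1
  · right; right; right; exact eq_mul_of_inv_mul_eq h1

theorem two_kf {G : Type*} [Group G] [Finite G] [IsSimpleGroup G] (h : Nat.card G = 168)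
    (T : Sylow 2 G) : ∃ U₀ U₁ : Subgroup G, U₀ ≠ U₁ ∧ U₀ ≤ (T : Subgroup G) ∧
      U₁ ≤ (T : Subgroup G) ∧ IsKleinFour U₀ ∧ IsKleinFour U₁ ∧
      ∀ U : Subgroup G, U ≤ (T : Subgroup G) → IsKleinFour U → U = U₀ ∨ U = U₁ := by
  obtain ⟨a, haT, ha⟩ := exists_four h T
  obtain ⟨b, hbT, hb, hba⟩ := exists_inv_ne h T (a ^ 2)
  obtain ⟨hbA, hinv, hcos, hcen, hmul⟩ := struct h T a b haT hbT ha hb hba
  have h4 : a ^ 4 = 1 := by rw [← ha]; exact pow_orderOf_eq_one a
  have ha1 : a ≠ 1 := ne1 ha (by norm_num)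
  have hb1 : b ≠ 1 := ne1 hb (by norm_num)
  have hbb : b * b = 1 := by rw [← pow_two, ← hb]; exact pow_orderOf_eq_one b
  have hzz : a ^ 2 * a ^ 2 = 1 := by rw [← pow_add]; exact h4
  have ha2 : orderOf (a ^ 2) = 2 := by
    rw [orderOf_pow_of_dvd (by norm_num) (by rw [ha]; norm_num), ha]
  have hz1 : a ^ 2 ≠ 1 := ne1 ha2 (by norm_num)
  have hc0 : a ^ 2 * b = b * a ^ 2 := (hcen b hbT).symm
  have hbaT : b * a ∈ (T : Subgroup G) := mul_mem hbT haT
  have hba2 : (b * a) * (b * a) = 1 := by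
    calc b * a * (b * a) = (b * a * b⁻¹) * (b * b) * a := by group
      _ = 1 := by rw [hinv, hbb]; group
  have hc1 : a ^ 2 * (b * a) = (b * a) * a ^ 2 := (hcen (b * a) hbaT).symm
  have hba1 : b * a ≠ 1 := by
    intro hh
    have : a = b⁻¹ := eq_inv_of_mul_eq_one_right hh
    rw [this, orderOf_inv, hb] at ha
    omega
  have hzba : a ^ 2 ≠ b * a := by
    intro hh
    rw [pow_two] at hh
    have : a = b := mul_right_cancel hh
    rw [this, hb] at ha
    omega
  have hzT : a ^ 2 ∈ (T : Subgroup G) := Subgroup.pow_mem _ haT 2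
  have hcard0 := V4_card (a ^ 2) b hzz hbb hc0 hz1 hb1 (Ne.symm hba)
  have hcard1 := V4_card (a ^ 2) (b * a) hzz hba2 hc1 hz1 hba1 hzba
  refine ⟨V4 (a ^ 2) b hzz hbb hc0, V4 (a ^ 2) (b * a) hzz hba2 hc1, ?_,
    V4_le _ _ _ _ _ _ hzT hbT, V4_le _ _ _ _ _ _ hzT hbaT,
    kf_of _ hcard0 (V4_sq _ _ _ _ _), kf_of _ hcard1 (V4_sq _ _ _ _ _), ?_⟩
  · intro heq
    have h1 : b ∈ V4 (a ^ 2) (b * a) hzz hba2 hc1 := by
      rw [← heq]; exact (V4_mem _ _ _ _ _ _).mpr (Or.inr (Or.inr (Or.inl rfl)))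
    have h2 : b * a ∈ V4 (a ^ 2) (b * a) hzz hba2 hc1 :=
      (V4_mem _ _ _ _ _ _).mpr (Or.inr (Or.inr (Or.inl rfl)))
    have h3 : a ∈ V4 (a ^ 2) (b * a) hzz hba2 hc1 := by
      have hh := mul_mem (inv_mem h1) h2
      rwa [inv_mul_cancel_left] at hh
    have h5 := V4_sq _ _ _ _ _ a h3
    rw [← pow_two] at h5
    have := orderOf_dvd_of_pow_eq_one h5
    rw [ha] at this; omega
  · intro U hUT hU
    haveI := hU
    obtain ⟨hzU, t, htU, ht⟩ := kf_in_T h T a b haT hbT ha hb hba U hUT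
    have hU0 : b ∈ U → U = V4 (a ^ 2) b hzz hbb hc0 := fun hbU =>
      (Subgroup.eq_of_le_of_card_ge (V4_le _ _ _ _ _ U hzU hbU)
        (by rw [kf_card U, hcard0])).symm
    have hU1 : b * a ∈ U → U = V4 (a ^ 2) (b * a) hzz hba2 hc1 := fun hbU =>
      (Subgroup.eq_of_le_of_card_ge (V4_le _ _ _ _ _ U hzU hbU)
        (by rw [kf_card U, hcard1])).symm
    rcases ht with ht | ht | ht | ht
    · left; exact hU0 (ht ▸ htU)
    · left; apply hU0
      have hh := mul_mem htU (inv_mem hzU)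
      rwa [ht, mul_inv_cancel_right] at hh
    · right; exact hU1 (ht ▸ htU)
    · right; apply hU1
      have hh := mul_mem htU hzU
      have e : b * a⁻¹ * a ^ 2 = b * a := by group
      rwa [ht, e] at hh

theorem kf_not_conj {G : Type*} [Group G] [Finite G] [IsSimpleGroup G] (h : Nat.card G = 168)
    (T : Sylow 2 G) (U W : Subgroup G) (hU : U ≤ (T : Subgroup G)) (hW : W ≤ (T : Subgroup G))
    [IsKleinFour U] [IsKleinFour W] (hne : U ≠ W) (g : G) :
    U.map (MulAut.conj g).toMonoidHom ≠ W := by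
  intro hmap
  obtain ⟨hnU, -⟩ := idx2 U (T : Subgroup G) hU (by rw [c2 h T, kf_card U])
  obtain ⟨hnW, -⟩ := idx2 W (T : Subgroup G) hW (by rw [c2 h T, kf_card W])
  have hWmem : ∀ w : G, w ∈ W ↔ g⁻¹ * w * g ∈ U := by
    intro w
    rw [← hmap, Subgroup.mem_map]
    constructor
    · rintro ⟨u, hu, rfl⟩
      simp only [MulEquiv.coe_toMonoidHom, MulAut.conj_apply]
      have : g⁻¹ * (g * u * g⁻¹) * g = u := by group
      rw [this]; exact hu
    · intro hw
      refine ⟨g⁻¹ * w * g, hw, ?_⟩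
      simp only [MulEquiv.coe_toMonoidHom, MulAut.conj_apply]
      group
  have hTN : (T : Subgroup G) ≤ normalizer (W : Set G) := fun t ht =>
    mem_norm_of W t (hnW t ht) (fun w hw => by
      have := hnW t⁻¹ (inv_mem ht) w hw
      rwa [inv_inv] at this)
  have hgTN : ((g • T : Sylow 2 G) : Subgroup G) ≤ normalizer (W : Set G) := by
    intro x hx
    rw [Cfsg.Agent.Lib.Helper6.SylowConj.mem_smul_sylow] at hx
    have key : ∀ y : G, g⁻¹ * y * g ∈ (T : Subgroup G) → ∀ w ∈ W, y * w * y⁻¹ ∈ W := by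
      intro y hy w hw
      rw [hWmem] at hw ⊢
      have := hnU _ hy _ hw
      have e : g⁻¹ * (y * w * y⁻¹) * g = (g⁻¹ * y * g) * (g⁻¹ * w * g) * (g⁻¹ * y * g)⁻¹ := by
        group
      rw [e]; exact this
    apply mem_norm_of W x (key x hx)
    intro w hw
    have hx' : g⁻¹ * x⁻¹ * g ∈ (T : Subgroup G) := by
      have := inv_mem hx
      have e : (g⁻¹ * x * g)⁻¹ = g⁻¹ * x⁻¹ * g := by group
      rwa [e] at this
    have := key x⁻¹ hx' w hw
    rwa [inv_inv] at this
  obtain ⟨n, hn⟩ := MulAction.exists_smul_eq (normalizer (W : Set G))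
    ((g • T).subtype hgTN) (T.subtype hTN)
  simp_rw [Sylow.smul_subtype, Subgroup.smul_def, smul_smul] at hn
  have hm : (n : G) * g ∈ (T : Subgroup G) := by
    have := Sylow.smul_eq_iff_mem_normalizer.mp (Sylow.subtype_injective hn)
    rw [← N2 h T]; exact this
  apply hne
  apply Subgroup.eq_of_le_of_card_ge
  · intro u hu
    have hu' : ((n : G) * g)⁻¹ * u * ((n : G) * g) ∈ U := by
      have := hnU _ (inv_mem hm) u hu
      rwa [inv_inv] at this
    have h1 : g * (((n : G) * g)⁻¹ * u * ((n : G) * g)) * g⁻¹ ∈ W := by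
      rw [hWmem]
      have e : g⁻¹ * (g * (((n : G) * g)⁻¹ * u * ((n : G) * g)) * g⁻¹) * g =
          ((n : G) * g)⁻¹ * u * ((n : G) * g) := by group
      rw [e]; exact hu'
    have h2 := (Subgroup.mem_normalizer_iff.mp n.2 _).mp h1
    have e : (n : G) * (g * (((n : G) * g)⁻¹ * u * ((n : G) * g)) * g⁻¹) * (n : G)⁻¹ = u := by
      group
    rwa [e] at h2
  · rw [kf_card U, kf_card W]

theorem kf_norm {G : Type*} [Group G] [Finite G] [IsSimpleGroup G] (h : Nat.card G = 168)
    (U : Subgroup G) [IsKleinFour U] :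
    Nonempty (↥(normalizer (U : Set G)) ≃* Equiv.Perm (Fin 4)) := by
  have hcard := kf_card U
  have hpg : IsPGroup 2 U := IsPGroup.of_card (n := 2) (by rw [hcard]; norm_num)
  obtain ⟨T, hUT⟩ := hpg.exists_le_sylow
  obtain ⟨z, hzT, hz2, hzC⟩ := exists_cen h T
  have hzc : ∀ t ∈ (T : Subgroup G), t * z = z * t := fun t ht =>
    (mem_cent_iff z t).mp (by rw [hzC]; exact ht)
  obtain ⟨hnU, hmulU⟩ := idx2 U (T : Subgroup G) hUT (by rw [c2 h T, hcard])
  have hz1 : z ≠ 1 := ne1 hz2 (by norm_num)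
  have hzU : z ∈ U := by
    by_contra hzU
    apply nonab h T
    have hform : ∀ t ∈ (T : Subgroup G), ∃ u ∈ U, t = u ∨ t = z * u := by
      intro t ht
      by_cases htU : t ∈ U
      · exact ⟨t, htU, Or.inl rfl⟩
      · refine ⟨z⁻¹ * t, ?_, Or.inr (by group)⟩
        rw [hmulU z⁻¹ (inv_mem hzT) t ht]
        exact ⟨fun hh => absurd ((Subgroup.inv_mem_iff _).mp hh) hzU, fun hh => absurd hh htU⟩
    intro x hx y hy
    obtain ⟨u, hu, hxu⟩ := hform x hx
    obtain ⟨v, hv, hyv⟩ := hform y hy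
    have huv : Commute u v := kf_comm U u v hu hv
    have hzu : Commute z u := (hzc u (hUT hu)).symm
    have hzv : Commute z v := (hzc v (hUT hv)).symm
    rcases hxu with rfl | rfl <;> rcases hyv with rfl | rfl
    · exact huv.eq
    · exact (hzu.symm.mul_right huv).eq
    · exact (hzv.mul_left huv).eq
    · exact (((Commute.refl z).mul_right hzv).mul_left (hzu.symm.mul_right huv)).eq
  obtain ⟨t, htU, ht1, htz⟩ := exists_third U (by omega) z
  have htt : t * t = 1 := kf_sq U t htU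
  have ht2 : orderOf t = 2 := orderOf_eq_prime (by rw [pow_two]; exact htt) ht1
  have hcen := inv_cen h t ht2
  obtain ⟨Tt, hTt⟩ := cen_sylow h t hcen.2
  have hUTt : U ≤ (Tt : Subgroup G) := by
    intro u hu
    rw [← hTt, mem_cent_iff]
    exact kf_comm U u t hu htU
  have hTne : T ≠ Tt := by
    intro heq
    apply htz
    symm
    apply cen_unique h T z t hzT (hUT htU) hz1 ht1 hzc
    intro s hs
    exact (mem_cent_iff t s).mp (by rw [hTt, ← heq]; exact hs)
  obtain ⟨hnUt, -⟩ := idx2 U (Tt : Subgroup G) hUTt (by rw [c2 h Tt, hcard])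
  have hTN : (T : Subgroup G) ≤ normalizer (U : Set G) := fun s hs =>
    mem_norm_of U s (hnU s hs) (fun w hw => by
      have := hnU s⁻¹ (inv_mem hs) w hw
      rwa [inv_inv] at this)
  have hTtN : (Tt : Subgroup G) ≤ normalizer (U : Set G) := fun s hs =>
    mem_norm_of U s (hnUt s hs) (fun w hw => by
      have := hnUt s⁻¹ (inv_mem hs) w hw
      rwa [inv_inv] at this)
  have hinf : (T : Subgroup G) ⊓ (Tt : Subgroup G) = U := by
    symm
    apply Subgroup.eq_of_le_of_card_ge (le_inf hUT hUTt)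
    have h1 : Nat.card ((T : Subgroup G) ⊓ (Tt : Subgroup G) : Subgroup G) ∣ 8 := by
      rw [← c2 h T]; exact Subgroup.card_dvd_of_le inf_le_left
    have h2 : Nat.card ((T : Subgroup G) ⊓ (Tt : Subgroup G) : Subgroup G) ≠ 8 := by
      intro h8
      apply hTne
      have e1 : (T : Subgroup G) ⊓ (Tt : Subgroup G) = (T : Subgroup G) :=
        Subgroup.eq_of_le_of_card_ge inf_le_left (by rw [h8, c2 h T])
      have e2 : (T : Subgroup G) ⊓ (Tt : Subgroup G) = (Tt : Subgroup G) :=
        Subgroup.eq_of_le_of_card_ge inf_le_right (by rw [h8, c2 h Tt])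
      exact Sylow.ext (e1.symm.trans e2)
    have h3 := Nat.le_of_dvd (by norm_num) h1
    have h4 : 4 ≤ Nat.card ((T : Subgroup G) ⊓ (Tt : Subgroup G) : Subgroup G) := by
      rw [← hcard]
      exact Nat.le_of_dvd Nat.card_pos (Subgroup.card_dvd_of_le (le_inf hUT hUTt))
    rw [hcard]
    obtain ⟨c, hc⟩ := h1
    interval_cases hn : Nat.card ((T : Subgroup G) ⊓ (Tt : Subgroup G) : Subgroup G) <;> omega
  obtain ⟨N, hNdef⟩ : ∃ N : Subgroup G, N = normalizer (U : Set G) := ⟨_, rfl⟩
  rw [← hNdef] at hTN hTtN ⊢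
  have hUN : U ≤ N := hUT.trans hTN
  have hN8 : 8 ∣ Nat.card N := by rw [← c2 h T]; exact Subgroup.card_dvd_of_le hTN
  have hN168 : Nat.card N ∣ 168 := h ▸ Subgroup.card_subgroup_dvd_card N
  have hNne8 : Nat.card N ≠ 8 := by
    intro h8
    apply hTne
    have e1 : (T : Subgroup G) = N := Subgroup.eq_of_le_of_card_ge hTN (by rw [h8, c2 h T])
    have e2 : (Tt : Subgroup G) = N := Subgroup.eq_of_le_of_card_ge hTtN (by rw [h8, c2 h Tt])
    exact Sylow.ext (e1.trans e2.symm)
  have htN : t ∈ N := hUN htU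
  have hN24le : Nat.card N ≤ 24 := by
    have hcl := Cfsg.Agent.Lib.Helper1.card_eq_card_conj_mul_card_centralizer (⟨t, htN⟩ : N)
    have hA : Nat.card {u : N // IsConj (⟨t, htN⟩ : N) u} ≤ 3 := by
      have hmem : ∀ u : {u : N // IsConj (⟨t, htN⟩ : N) u},
          ((u : N) : G) ∈ ((U : Set G) \ {1}) := by
        rintro ⟨u, hu⟩
        obtain ⟨c, hc⟩ := isConj_iff.mp hu
        have hcu : ((c : N) : G) * t * ((c : N) : G)⁻¹ = (u : G) := by
          have := congrArg Subtype.val hc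
          simpa using this
        constructor
        · show (u : G) ∈ U
          rw [← hcu]
          have hcN : (c : G) ∈ normalizer (U : Set G) := by rw [← hNdef]; exact c.2
          exact (Subgroup.mem_normalizer_iff.mp hcN t).mp htU
        · intro h1
          have h1' : (u : G) = 1 := h1
          rw [← hcu] at h1'
          apply ht1
          have : t = ((c : N) : G)⁻¹ * (((c : N) : G) * t * ((c : N) : G)⁻¹) * ((c : N) : G) := by
            group
          rw [this, h1']; group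
      have hinj : Function.Injective (fun u : {u : N // IsConj (⟨t, htN⟩ : N) u} =>
          (⟨((u : N) : G), hmem u⟩ : ↥((U : Set G) \ {1}))) := by
        intro u v huv
        have := congrArg Subtype.val huv
        exact Subtype.ext (Subtype.ext this)
      have h1 := Nat.card_le_card_of_injective _ hinj
      have h2 : Nat.card ↥((U : Set G) \ {1}) = 3 := by
        rw [Nat.card_coe_set_eq, Set.ncard_sdiff_singleton_of_mem (one_mem U)]
        have : (U : Set G).ncard = 4 := (Nat.card_coe_set_eq _).symm.trans hcard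
        rw [this]
      exact h1.trans (le_of_eq h2)
    have hB : Nat.card (centralizer ({(⟨t, htN⟩ : N)} : Set N)) ≤ 8 := by
      have hmem : ∀ x : centralizer ({(⟨t, htN⟩ : N)} : Set N),
          (((x : N) : G)) ∈ centralizer ({t} : Set G) := by
        rintro ⟨x, hx⟩
        rw [mem_cent_iff]
        have := Subgroup.mem_centralizer_singleton_iff.mp hx
        exact congrArg Subtype.val this
      have hinj : Function.Injective (fun x : centralizer ({(⟨t, htN⟩ : N)} : Set N) =>
          (⟨((x : N) : G), hmem x⟩ : centralizer ({t} : Set G))) := by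
        intro x y hxy
        have := congrArg Subtype.val hxy
        exact Subtype.ext (Subtype.ext this)
      have h1 := Nat.card_le_card_of_injective _ hinj
      rw [hcen.2] at h1
      exact h1
    rw [hcl]
    calc _ ≤ 3 * 8 := Nat.mul_le_mul hA hB
      _ = 24 := by norm_num
  have hN24 : Nat.card N = 24 := by
    obtain ⟨c, hc⟩ := hN8
    have hc3 : c ≤ 3 := by omega
    have hc1 : c ≠ 1 := by intro h1; apply hNne8; rw [hc, h1]
    have hc0 : c ≠ 0 := by
      intro h0
      have := Nat.card_pos (α := N)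
      rw [hc, h0] at this; omega
    have hc2 : c ≠ 2 := by
      intro h2
      rw [hc, h2] at hN168
      omega
    have : c = 3 := by omega
    rw [hc, this]
  have hVcard : Nat.card (U.subgroupOf N) = 4 := by
    rw [Nat.card_congr (Subgroup.subgroupOfEquivOfLe hUN).toEquiv, hcard]
  haveI : (U.subgroupOf N).Normal := by
    rw [hNdef]; exact Subgroup.normal_in_normalizer
  have hC : ∀ n : N, (∀ v ∈ U.subgroupOf N, n * v = v * n) → n ∈ U.subgroupOf N := by
    intro n hn
    rw [Subgroup.mem_subgroupOf, ← hinf, Subgroup.mem_inf]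
    have h1 := hn ⟨z, hUN hzU⟩ (Subgroup.mem_subgroupOf.mpr hzU)
    have h2 := hn ⟨t, htN⟩ (Subgroup.mem_subgroupOf.mpr htU)
    constructor
    · rw [← hzC, mem_cent_iff]
      exact congrArg Subtype.val h1
    · rw [← hTt, mem_cent_iff]
      exact congrArg Subtype.val h2
  have hcent : ∀ u : N, u ≠ 1 → ¬ (∀ n : N, n * u = u * n) := by
    intro u hu1 hall
    have huV : u ∈ U.subgroupOf N := hC u (fun v _ => (hall v).symm)
    have huU : (u : G) ∈ U := Subgroup.mem_subgroupOf.mp huV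
    have hu1' : (u : G) ≠ 1 := fun hh => hu1 (Subtype.ext hh)
    have hu2 : orderOf (u : G) = 2 :=
      orderOf_eq_prime (by rw [pow_two]; exact kf_sq U _ huU) hu1'
    have hcu := inv_cen h (u : G) hu2
    have hle : N ≤ centralizer ({(u : G)} : Set G) := by
      intro n hn
      rw [mem_cent_iff]
      exact congrArg Subtype.val (hall ⟨n, hn⟩)
    have := Subgroup.card_dvd_of_le hle
    rw [hcu.2, hN24] at this
    omega
  exact S4rec hN24 (U.subgroupOf N) hVcard hC hcent

/-- Let G be a simple group of order 168 and T a Sylow 2-subgroup. Then T contains exactly two subgroups that are Klein four-groups; they are not conjugate in G; and the normalizer of every Klein four-subgroup of G is isomorphic to the symmetric group of degree 4. -/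
theorem result {G : Type*} [Group G] [Finite G] [IsSimpleGroup G] (h : Nat.card G = 168) (T : Sylow 2 G) : Nat.card {U : Subgroup G // U ≤ (T : Subgroup G) ∧ IsKleinFour ↥U} = 2 ∧ (∀ U W : Subgroup G, U ≤ (T : Subgroup G) → W ≤ (T : Subgroup G) → IsKleinFour ↥U → IsKleinFour ↥W → U ≠ W → ∀ g : G, U.map (MulAut.conj g).toMonoidHom ≠ W) ∧ ∀ U : Subgroup G, IsKleinFour ↥U → Nonempty (↥(Subgroup.normalizer (U : Set G)) ≃* Equiv.Perm (Fin 4)) := by
  refine ⟨?_, ?_, ?_⟩
  · obtain ⟨U₀, U₁, hne, h0, h1, hk0, hk1, hall⟩ := two_kf h T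
    rw [Nat.card_eq_two_iff]
    refine ⟨⟨U₀, h0, hk0⟩, ⟨U₁, h1, hk1⟩, fun hh => hne (congrArg Subtype.val hh), ?_⟩
    ext ⟨U, hU, hkU⟩
    simp only [Set.mem_insert_iff, Set.mem_singleton_iff, Set.mem_univ, iff_true]
    rcases hall U hU hkU with hh | hh
    · left; exact Subtype.ext hh
    · right; exact Subtype.ext hh
  · intro U W hU hW hkU hkW hne g
    haveI := hkU
    haveI := hkW
    exact kf_not_conj h T U W hU hW hne g
  · intro U hkU
    haveI := hkU
    exact kf_norm h U

end Cfsg.Agent.S1007
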