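import Cfsg.Statements.S1008
import Mathlib
import Cfsg.Agent.S1007

set_option autoImplicit false
open Cfsg

namespace Cfsg.Agent.S1008

open Subgroup Cfsg.Agent.S1003 Cfsg.Agent.Lib.Helper6.G168 Cfsg.Agent.S1004 Cfsg.Agent.Lib.Helper6.G168b Cfsg.Agent.S1007

theorem mem_map_conj {G : Type*} [Group G] (K : Subgroup G) (g x : G) :
    x ∈ K.map (MulAut.conj g).toMonoidHom ↔ g⁻¹ * x * g ∈ K := by
  rw [Subgroup.mem_map]
  constructor
  · rintro ⟨u, hu, rfl⟩
    simp only [MulEquiv.coe_toMonoidHom, MulAut.conj_apply]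
    have : g⁻¹ * (g * u * g⁻¹) * g = u := by group
    rw [this]; exact hu
  · intro hw
    refine ⟨g⁻¹ * x * g, hw, ?_⟩
    simp only [MulEquiv.coe_toMonoidHom, MulAut.conj_apply]
    group

theorem card_map_conj {G : Type*} [Group G] (K : Subgroup G) (g : G) :
    Nat.card (K.map (MulAut.conj g).toMonoidHom) = Nat.card K :=
  (Nat.card_congr (K.equivMapOfInjective _ (MulAut.conj g).injective).toEquiv).symm

theorem norm_map {G : Type*} [Group G] (U : Subgroup G) (g : G) :
    normalizer ((U.map (MulAut.conj g).toMonoidHom : Subgroup G) : Set G) =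
      (normalizer (U : Set G)).map (MulAut.conj g).toMonoidHom := by
  ext x
  rw [mem_map_conj, Subgroup.mem_normalizer_iff, Subgroup.mem_normalizer_iff]
  constructor
  · intro hx v
    have := hx (g * v * g⁻¹)
    rw [mem_map_conj, mem_map_conj] at this
    have e1 : g⁻¹ * (g * v * g⁻¹) * g = v := by group
    have e2 : g⁻¹ * (x * (g * v * g⁻¹) * x⁻¹) * g = g⁻¹ * x * g * v * (g⁻¹ * x * g)⁻¹ := by group
    rw [e1, e2] at this
    exact this
  · intro hx w
    rw [mem_map_conj, mem_map_conj]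
    have := hx (g⁻¹ * w * g)
    have e2 : g⁻¹ * x * g * (g⁻¹ * w * g) * (g⁻¹ * x * g)⁻¹ = g⁻¹ * (x * w * x⁻¹) * g := by group
    rw [e2] at this
    exact this

theorem kf_map {G : Type*} [Group G] [Finite G] (U : Subgroup G) [IsKleinFour U] (g : G) :
    IsKleinFour (U.map (MulAut.conj g).toMonoidHom) := by
  apply kf_of _ (by rw [card_map_conj, kf_card U])
  intro w hw
  rw [mem_map_conj] at hw
  have := kf_sq U _ hw
  have e : w * w = g * ((g⁻¹ * w * g) * (g⁻¹ * w * g)) * g⁻¹ := by group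
  rw [e, this]; group

theorem le_norm_of_idx2 {G : Type*} [Group G] [Finite G] (K H : Subgroup G) (hKH : K ≤ H)
    (hcard : Nat.card H = 2 * Nat.card K) : H ≤ normalizer (K : Set G) := by
  obtain ⟨hn, -⟩ := idx2 K H hKH hcard
  intro s hs
  exact mem_norm_of K s (hn s hs) (fun w hw => by
    have := hn s⁻¹ (inv_mem hs) w hw
    rwa [inv_inv] at this)

theorem exists_ord {G : Type*} [Group G] [Finite G] (M : Subgroup G) (p : ℕ) [Fact p.Prime]
    (hp : p ∣ Nat.card M) : ∃ x ∈ M, orderOf x = p := by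
  obtain ⟨x, hx⟩ := exists_prime_orderOf_dvd_card' p hp
  exact ⟨x, x.2, by rw [Subgroup.orderOf_coe, hx]⟩

theorem norm_smul {G : Type*} [Group G] {p : ℕ} (P : Sylow p G) (g y : G) :
    y ∈ normalizer (((g • P : Sylow p G) : Subgroup G) : Set G) ↔
      g⁻¹ * y * g ∈ normalizer ((P : Subgroup G) : Set G) := by
  constructor
  · intro hy
    apply Sylow.smul_eq_iff_mem_normalizer.mp
    have hy' : y • (g • P) = g • P := Sylow.smul_eq_iff_mem_normalizer.mpr hy
    calc (g⁻¹ * y * g) • P = g⁻¹ • (y • (g • P)) := by rw [smul_smul, smul_smul, mul_assoc]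
      _ = g⁻¹ • (g • P) := by rw [hy']
      _ = P := inv_smul_smul g P
  · intro hy
    apply Sylow.smul_eq_iff_mem_normalizer.mp
    have hy' : (g⁻¹ * y * g) • P = P := Sylow.smul_eq_iff_mem_normalizer.mpr hy
    calc y • (g • P) = g • ((g⁻¹ * y * g) • P) := by
          rw [smul_smul, smul_smul]; congr 1; group
      _ = g • P := by rw [hy']

theorem inf_bound {G : Type*} [Group G] [Finite G] (M A B : Subgroup G) (hA : A ≤ M)
    (hB : B ≤ M) : Nat.card A * Nat.card B ≤ Nat.card M * Nat.card (A ⊓ B : Subgroup G) := by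
  have e1 : (A.subgroupOf M).index * Nat.card A = Nat.card M := by
    rw [← Nat.card_congr (Subgroup.subgroupOfEquivOfLe hA).toEquiv]
    exact Subgroup.index_mul_card _
  have e2 : (B.subgroupOf M).index * Nat.card B = Nat.card M := by
    rw [← Nat.card_congr (Subgroup.subgroupOfEquivOfLe hB).toEquiv]
    exact Subgroup.index_mul_card _
  have e3 : ((A ⊓ B).subgroupOf M).index * Nat.card (A ⊓ B : Subgroup G) = Nat.card M := by
    rw [← Nat.card_congr (Subgroup.subgroupOfEquivOfLe (inf_le_left.trans hA)).toEquiv]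
    exact Subgroup.index_mul_card _
  have e4 : (A ⊓ B).subgroupOf M = A.subgroupOf M ⊓ B.subgroupOf M := by
    ext x; simp [Subgroup.mem_subgroupOf]
  have hle : ((A ⊓ B).subgroupOf M).index ≤ (A.subgroupOf M).index * (B.subgroupOf M).index := by
    rw [e4]; exact Subgroup.index_inf_le
  have hpos : 0 < Nat.card M := Nat.card_pos
  have key : Nat.card A * Nat.card B * Nat.card M ≤
      Nat.card M * Nat.card (A ⊓ B : Subgroup G) * Nat.card M := by
    calc Nat.card A * Nat.card B * Nat.card M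
        = Nat.card A * Nat.card B *
            (((A ⊓ B).subgroupOf M).index * Nat.card (A ⊓ B : Subgroup G)) := by rw [e3]
      _ ≤ Nat.card A * Nat.card B * (((A.subgroupOf M).index * (B.subgroupOf M).index) *
            Nat.card (A ⊓ B : Subgroup G)) :=
          Nat.mul_le_mul_left _ (Nat.mul_le_mul_right _ hle)
      _ = ((A.subgroupOf M).index * Nat.card A) * ((B.subgroupOf M).index * Nat.card B) *
            Nat.card (A ⊓ B : Subgroup G) := by ring
      _ = Nat.card M * Nat.card (A ⊓ B : Subgroup G) * Nat.card M := by rw [e1, e2]; ring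
  exact Nat.le_of_mul_le_mul_right key hpos

section main
variable {G : Type*} [Group G] [Finite G] [IsSimpleGroup G]

theorem idx7 (h : Nat.card G = 168) (H : Subgroup G) (hH : H ≠ ⊤) : Nat.card H ≤ 24 := by
  have hinj : Function.Injective (MulAction.toPermHom G (G ⧸ H)) := by
    rw [← MonoidHom.ker_eq_bot_iff]
    have hn : (MulAction.toPermHom G (G ⧸ H)).ker.Normal := MonoidHom.normal_ker _
    rcases hn.eq_bot_or_eq_top with hb | ht
    · exact hb
    · exfalso
      apply hH
      rw [eq_top_iff, ← ht, ← Subgroup.normalCore_eq_ker]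
      exact Subgroup.normalCore_le H
  have hdvd := Subgroup.card_dvd_of_injective _ hinj
  rw [Nat.card_perm, h] at hdvd
  have h7 : 7 ≤ H.index := ge7 _ hdvd
  have hmul := Subgroup.card_mul_index H
  rw [h] at hmul
  have : Nat.card H * 7 ≤ Nat.card H * H.index := Nat.mul_le_mul_left _ h7
  rw [hmul] at this
  omega

theorem sub7 (h : Nat.card G = 168) (M : Subgroup G) (hM24 : Nat.card M ≤ 24) (x : G)
    (hxM : x ∈ M) (hx : orderOf x = 7) :
    ∃ P : Sylow 7 G, M ≤ normalizer ((P : Subgroup G) : Set G) := by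
  haveI := f7
  obtain ⟨P, hPe, hC⟩ := cent7 h x hx
  refine ⟨P, ?_⟩
  have hPM : (P : Subgroup G) ≤ M := by rw [← hPe]; exact Subgroup.zpowers_le.mpr hxM
  intro m hm
  by_contra hmN
  have hne : m • P ≠ P := fun hh => hmN (Sylow.smul_eq_iff_mem_normalizer.mp hh)
  have hmPM : ((m • P : Sylow 7 G) : Subgroup G) ≤ M := by
    intro q hq
    rw [Cfsg.Agent.Lib.Helper6.SylowConj.mem_smul_sylow] at hq
    have := M.mul_mem (M.mul_mem hm (hPM hq)) (M.inv_mem hm)
    have e : m * (m⁻¹ * q * m) * m⁻¹ = q := by group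
    rwa [e] at this
  have hinj : Function.Injective
      (fun pq : ↥(P : Subgroup G) × ↥((m • P : Sylow 7 G) : Subgroup G) =>
      (⟨(pq.1 : G) * (pq.2 : G), M.mul_mem (hPM pq.1.2) (hmPM pq.2.2)⟩ : M)) := by
    rintro ⟨p, q⟩ ⟨p', q'⟩ hpq
    have h1 : (p : G) * (q : G) = (p' : G) * (q' : G) := congrArg Subtype.val hpq
    have h2 : (p' : G)⁻¹ * (p : G) = (q' : G) * (q : G)⁻¹ := by
      calc (p' : G)⁻¹ * (p : G) = (p' : G)⁻¹ * ((p : G) * (q : G)) * (q : G)⁻¹ := by group
        _ = (p' : G)⁻¹ * ((p' : G) * (q' : G)) * (q : G)⁻¹ := by rw [h1]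
        _ = (q' : G) * (q : G)⁻¹ := by group
    have h3 : (p' : G)⁻¹ * (p : G) = 1 := by
      by_contra hw
      apply hne
      symm
      apply TI_prime (c7 h) P (m • P) _ hw (mul_mem (inv_mem p'.2) p.2)
      rw [h2]; exact mul_mem q'.2 (inv_mem q.2)
    have h4 : (p : G) = (p' : G) := (inv_mul_eq_one.mp h3).symm
    have h5 : (q : G) = (q' : G) := by
      rw [h4] at h1
      exact mul_left_cancel h1
    exact Prod.ext (Subtype.ext h4) (Subtype.ext h5)
  have hc := Nat.card_le_card_of_injective _ hinj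
  rw [Nat.card_prod, c7 h P, c7 h (m • P)] at hc
  omega

theorem max21 (h : Nat.card G = 168) (M : Subgroup G) (hM : IsCoatom M) (x : G)
    (hxM : x ∈ M) (hx : orderOf x = 7) :
    ∃ P : Sylow 7 G, M = normalizer ((P : Subgroup G) : Set G) := by
  obtain ⟨P, hMN⟩ := sub7 h M (idx7 h M hM.1) x hxM hx
  refine ⟨P, ?_⟩
  rcases hM.le_iff.mp hMN with h1 | h1
  · exfalso
    have := N7 h P
    rw [h1, Subgroup.card_top, h] at this
    omega
  · exact h1.symm

theorem norm_card (h : Nat.card G = 168) (U : Subgroup G) [IsKleinFour U] :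
    Nat.card (normalizer (U : Set G)) = 24 := by
  obtain ⟨e⟩ := kf_norm h U
  rw [Nat.card_congr e.toEquiv, Nat.card_perm, Nat.card_fin]
  rfl

theorem coatom24 (h : Nat.card G = 168) (N : Subgroup G) (hN : Nat.card N = 24) :
    IsCoatom N := by
  refine ⟨?_, ?_⟩
  · intro ht
    rw [ht, Subgroup.card_top, h] at hN; omega
  · intro b hb
    by_contra hbt
    have := idx7 h b hbt
    have hle : Nat.card b ≤ Nat.card N := by rw [hN]; exact this
    exact (ne_of_lt hb) (Subgroup.eq_of_le_of_card_ge hb.le hle)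

theorem not_max_2 (h : Nat.card G = 168) (M : Subgroup G) (hM : IsCoatom M) (k : ℕ)
    (hk : Nat.card M = 2 ^ k) : False := by
  have hpg : IsPGroup 2 M := IsPGroup.of_card hk
  obtain ⟨T, hMT⟩ := hpg.exists_le_sylow
  obtain ⟨U₀, U₁, -, h0, -, hk0, -, -⟩ := two_kf h T
  haveI := hk0
  have hTN : (T : Subgroup G) ≤ normalizer (U₀ : Set G) :=
    le_norm_of_idx2 _ _ h0 (by rw [c2 h T, kf_card U₀])
  have hc := norm_card h U₀
  rcases hM.le_iff.mp (hMT.trans hTN) with h1 | h1
  · rw [h1, Subgroup.card_top, h] at hc; omega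
  · have := Subgroup.card_le_of_le hMT
    rw [← h1, hc, c2 h T] at this
    omega

theorem syl3_of (h : Nat.card G = 168) (x : G) (hx : orderOf x = 3) :
    ∃ P : Sylow 3 G, zpowers x = (P : Subgroup G) := by
  have hpx : IsPGroup 3 (zpowers x) :=
    IsPGroup.of_card (n := 1) (by rw [Nat.card_zpowers, hx, pow_one])
  obtain ⟨P, hP⟩ := hpx.exists_le_sylow
  exact ⟨P, Subgroup.eq_of_le_of_card_ge hP (by rw [Nat.card_zpowers, hx, c3 h P])⟩

theorem N3card (h : Nat.card G = 168) (P : Sylow 3 G) :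
    Nat.card (normalizer ((P : Subgroup G) : Set G)) = 6 := by
  have n3 := (Cfsg.Agent.S1003.result h).2.1
  have := card_norm P
  rw [n3, h] at this
  omega

theorem norm3_le (h : Nat.card G = 168) (P : Sylow 3 G) :
    ∃ K : Subgroup G, normalizer ((P : Subgroup G) : Set G) ≤ K ∧ Nat.card K = 24 := by
  obtain ⟨T⟩ : Nonempty (Sylow 2 G) := inferInstance
  obtain ⟨U₀, U₁, -, h0, -, hk0, -, -⟩ := two_kf h T
  haveI := hk0
  obtain ⟨K₀, hK₀⟩ : ∃ K₀ : Subgroup G, K₀ = normalizer (U₀ : Set G) := ⟨_, rfl⟩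
  have hc : Nat.card K₀ = 24 := by rw [hK₀]; exact norm_card h U₀
  obtain ⟨Q⟩ : Nonempty (Sylow 3 K₀) := inferInstance
  have hQ3 : Nat.card (Q : Subgroup K₀) = 3 :=
    syl_card_gen Q 3 8 (by rw [hc]) ⟨1, by norm_num⟩ (by norm_num)
  have hNQ : 6 ≤ Nat.card (normalizer ((Q : Subgroup K₀) : Set K₀)) := by
    have h1 : Nat.card (Sylow 3 K₀) % 3 = 1 := card_sylow_modEq_one 3 K₀
    obtain ⟨h2, h3⟩ := card_idx Q
    rw [hQ3, hc] at h3
    have h4 : (Q : Subgroup K₀).index = 8 := by omega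
    rw [h4] at h2
    have hle := Nat.le_of_dvd (by norm_num) h2
    have hcn := card_norm Q
    rw [hc] at hcn
    obtain ⟨c, hc'⟩ := h2
    interval_cases hn : Nat.card (Sylow 3 K₀) <;> omega
  obtain ⟨P₀, hP₀⟩ : ∃ P₀ : Sylow 3 G, (Q : Subgroup K₀).map K₀.subtype = (P₀ : Subgroup G) := by
    have hcard : Nat.card ((Q : Subgroup K₀).map K₀.subtype) = 3 := by
      exact ((Nat.card_congr ((Q : Subgroup K₀).equivMapOfInjective _
        K₀.subtype_injective).toEquiv).symm).trans hQ3
    have hpg : IsPGroup 3 ((Q : Subgroup K₀).map K₀.subtype) :=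
      IsPGroup.of_card (n := 1) (by rw [hcard, pow_one])
    obtain ⟨P₀, hP₀⟩ := hpg.exists_le_sylow
    exact ⟨P₀, Subgroup.eq_of_le_of_card_ge hP₀ (by rw [hcard, c3 h P₀])⟩
  have hS : (normalizer ((Q : Subgroup K₀) : Set K₀)).map K₀.subtype ≤
      normalizer ((P₀ : Subgroup G) : Set G) := by
    rintro _ ⟨n, hn, rfl⟩
    have key : ∀ n' : K₀, n' ∈ normalizer ((Q : Subgroup K₀) : Set K₀) →
        ∀ p ∈ (P₀ : Subgroup G), (n' : G) * p * (n' : G)⁻¹ ∈ (P₀ : Subgroup G) := by
      intro n' hn' p hp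
      rw [← hP₀] at hp ⊢
      obtain ⟨q, hq, rfl⟩ := hp
      exact ⟨n' * q * n'⁻¹, (Subgroup.mem_normalizer_iff.mp hn' q).mp hq, rfl⟩
    apply mem_norm_of _ _ (key n hn)
    intro p hp
    have := key n⁻¹ (inv_mem hn) p hp
    simpa using this
  have hScard : Nat.card ((normalizer ((Q : Subgroup K₀) : Set K₀)).map K₀.subtype) =
      Nat.card (normalizer ((Q : Subgroup K₀) : Set K₀)) :=
    (Nat.card_congr ((normalizer ((Q : Subgroup K₀) : Set K₀)).equivMapOfInjective _
      K₀.subtype_injective).toEquiv).symm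
  have hSeq : (normalizer ((Q : Subgroup K₀) : Set K₀)).map K₀.subtype =
      normalizer ((P₀ : Subgroup G) : Set G) :=
    Subgroup.eq_of_le_of_card_ge hS (by rw [hScard, N3card h P₀]; exact hNQ)
  have hN0 : normalizer ((P₀ : Subgroup G) : Set G) ≤ K₀ := by
    rw [← hSeq]
    rintro _ ⟨n, -, rfl⟩
    exact n.2
  obtain ⟨g, hg⟩ := MulAction.exists_smul_eq G P₀ P
  refine ⟨K₀.map (MulAut.conj g).toMonoidHom, ?_, by rw [card_map_conj, hc]⟩
  intro x hx
  rw [mem_map_conj]
  apply hN0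
  rw [← hg] at hx
  exact (norm_smul P₀ g x).mp hx

theorem not_max_3 (h : Nat.card G = 168) (M : Subgroup G) (hM : IsCoatom M)
    (hc : Nat.card M = 3) : False := by
  have hpg : IsPGroup 3 M := IsPGroup.of_card (n := 1) (by rw [hc, pow_one])
  obtain ⟨P, hMP⟩ := hpg.exists_le_sylow
  have hN := N3card h P
  rcases hM.le_iff.mp (hMP.trans Subgroup.le_normalizer) with h1 | h1
  · rw [h1, Subgroup.card_top, h] at hN; omega
  · rw [h1, hc] at hN; omega

theorem not_max_6 (h : Nat.card G = 168) (M : Subgroup G) (hM : IsCoatom M)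
    (hc : Nat.card M = 6) : False := by
  obtain ⟨x, hxM, hx⟩ := exists_ord M 3 (by rw [hc]; norm_num)
  obtain ⟨P, hP⟩ := syl3_of h x hx
  have hPM : (P : Subgroup G) ≤ M := by rw [← hP]; exact Subgroup.zpowers_le.mpr hxM
  have hMN : M ≤ normalizer ((P : Subgroup G) : Set G) :=
    le_norm_of_idx2 _ _ hPM (by rw [hc, c3 h P])
  have hMe : M = normalizer ((P : Subgroup G) : Set G) :=
    Subgroup.eq_of_le_of_card_ge hMN (by rw [N3card h P, hc])
  obtain ⟨K, hK, hKc⟩ := norm3_le h P
  have hMK : M ≤ K := hMN.trans hK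
  rcases hM.le_iff.mp hMK with h1 | h1
  · rw [h1, Subgroup.card_top, h] at hKc; omega
  · rw [h1, hc] at hKc; omega

theorem norm4 (h : Nat.card G = 168) (D : Subgroup G) (hD : Nat.card D = 4) (x : G)
    (hx : orderOf x = 3) (hxN : x ∈ normalizer (D : Set G)) : IsKleinFour D := by
  apply kf_of D hD
  by_contra hno
  push_neg at hno
  obtain ⟨c, hcD, hcc⟩ := hno
  have hpg : IsPGroup 2 D := IsPGroup.of_card (n := 2) (by rw [hD]; norm_num)
  obtain ⟨T, hDT⟩ := hpg.exists_le_sylow
  have ho : orderOf c = 4 := by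
    rcases ord_T h T c (hDT hcD) with h1 | h1 | h1
    · exfalso; apply hcc; rw [orderOf_eq_one_iff.mp h1, one_mul]
    · exfalso; apply hcc; rw [← pow_two, ← h1]; exact pow_orderOf_eq_one c
    · exact h1
  have hDe : zpowers c = D :=
    Subgroup.eq_of_le_of_card_ge (Subgroup.zpowers_le.mpr hcD) (by rw [Nat.card_zpowers, ho, hD])
  have h1 : x * c * x⁻¹ ∈ zpowers c := by
    rw [hDe]; exact (Subgroup.mem_normalizer_iff.mp hxN c).mp hcD
  have hco : orderOf (x * c * x⁻¹) = 4 := by rw [oconj]; exact ho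
  have hcomm : x * c * x⁻¹ = c := by
    rcases zp4 c _ ho h1 with h2 | h2 | h2 | h2
    · rw [h2, orderOf_one] at hco; omega
    · exact h2
    · exfalso
      have ha2 : orderOf (c ^ 2) = 2 := by
        rw [orderOf_pow_of_dvd (by norm_num) (by rw [ho]; norm_num), ho]
      rw [h2, ha2] at hco; omega
    · exfalso
      have e2 : x * c⁻¹ * x⁻¹ = c := by
        have : x * c⁻¹ * x⁻¹ = (x * c * x⁻¹)⁻¹ := by group
        rw [this, h2, inv_inv]
      have e3 : x ^ 3 = 1 := by rw [← hx]; exact pow_orderOf_eq_one x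
      have e4 : c = c⁻¹ := by
        calc c = x ^ 3 * c * (x ^ 3)⁻¹ := by rw [e3]; simp
          _ = x * (x * (x * c * x⁻¹) * x⁻¹) * x⁻¹ := by
              simp only [pow_succ, pow_zero, one_mul, mul_inv_rev, mul_assoc]
          _ = x * (x * c⁻¹ * x⁻¹) * x⁻¹ := by rw [h2]
          _ = x * c * x⁻¹ := by rw [e2]
          _ = c⁻¹ := h2
      apply hcc
      have e5 : c * c = c * c⁻¹ := congrArg (fun w => c * w) e4
      rw [e5, mul_inv_cancel]
  obtain ⟨k, -, hk⟩ := cent2 h c (Or.inr ho)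
  have hxC : x ∈ centralizer ({c} : Set G) := by
    rw [mem_cent_iff]
    calc x * c = (x * c * x⁻¹) * x := by group
      _ = c * x := by rw [hcomm]
  have hd : orderOf x ∣ 2 ^ k := by
    rw [← hk, ← Subgroup.orderOf_mk x hxC]
    exact orderOf_dvd_natCard _
  rw [hx] at hd
  have := (Nat.Prime.dvd_of_dvd_pow Nat.prime_three hd)
  omega

theorem not_max_12 (h : Nat.card G = 168) (M : Subgroup G) (hM : IsCoatom M)
    (hc : Nat.card M = 12) : False := by
  obtain ⟨x, hxM, hx⟩ := exists_ord M 3 (by rw [hc]; norm_num)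
  obtain ⟨K, hK⟩ := Sylow.exists_subgroup_card_pow_prime (G := M) 2 (n := 2)
    (by rw [hc]; norm_num)
  obtain ⟨V, hV⟩ : ∃ V : Subgroup G, V = K.map M.subtype := ⟨_, rfl⟩
  have hVc : Nat.card V = 4 := by
    rw [hV, ← Nat.card_congr (K.equivMapOfInjective _ M.subtype_injective).toEquiv, hK]
    norm_num
  have hVM : V ≤ M := by
    rw [hV]; rintro _ ⟨k, -, rfl⟩; exact k.2
  have hconj : ∀ m ∈ M, V.map (MulAut.conj m).toMonoidHom = V := by
    intro m hm
    by_contra hne
    obtain ⟨V', hV'⟩ : ∃ V' : Subgroup G, V' = V.map (MulAut.conj m).toMonoidHom := ⟨_, rfl⟩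
    rw [← hV'] at hne
    have hV'c : Nat.card V' = 4 := by rw [hV', card_map_conj, hVc]
    have hV'M : V' ≤ M := by
      intro w hw
      rw [hV', mem_map_conj] at hw
      have := M.mul_mem (M.mul_mem hm (hVM hw)) (M.inv_mem hm)
      have e : m * (m⁻¹ * w * m) * m⁻¹ = w := by group
      rwa [e] at this
    have hb := inf_bound M V V' hVM hV'M
    rw [hVc, hV'c, hc] at hb
    haveI : Nontrivial (V ⊓ V' : Subgroup G) :=
      Finite.one_lt_card_iff_nontrivial.mp (by omega)
    obtain ⟨⟨u, hu⟩, hu1⟩ := exists_ne (1 : (V ⊓ V' : Subgroup G))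
    have hu1' : u ≠ 1 := fun hh => hu1 (Subtype.ext hh)
    have hVab : ∀ (W : Subgroup G), Nat.card W = 4 → ∀ a ∈ W, ∀ b ∈ W, a * b = b * a := by
      intro W hW a ha b hb
      have := IsPGroup.commutative_of_card_eq_prime_sq (p := 2) (G := W) (by rw [hW]; norm_num)
        ⟨a, ha⟩ ⟨b, hb⟩
      exact congrArg Subtype.val this
    have hpg : IsPGroup 2 V := IsPGroup.of_card (n := 2) (by rw [hVc]; norm_num)
    obtain ⟨T, hVT⟩ := hpg.exists_le_sylow
    have hou : orderOf u = 2 ∨ orderOf u = 4 := by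
      rcases ord_T h T u (hVT hu.1) with h1 | h1 | h1
      · exact absurd (orderOf_eq_one_iff.mp h1) hu1'
      · left; exact h1
      · right; exact h1
    obtain ⟨k, -, hk⟩ := cent2 h u hou
    have hVC : V ≤ centralizer ({u} : Set G) := fun v hv =>
      (mem_cent_iff u v).mpr (hVab V hVc v hv u hu.1)
    have hV'C : V' ≤ centralizer ({u} : Set G) := fun v hv =>
      (mem_cent_iff u v).mpr (hVab V' hV'c v hv u hu.2)
    have hsupM : V ⊔ V' = M := by
      apply Subgroup.eq_of_le_of_card_ge (sup_le hVM hV'M)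
      have h4 : 4 ∣ Nat.card (V ⊔ V' : Subgroup G) := by
        rw [← hVc]; exact Subgroup.card_dvd_of_le le_sup_left
      have h12 : Nat.card (V ⊔ V' : Subgroup G) ∣ 12 := by
        rw [← hc]; exact Subgroup.card_dvd_of_le (sup_le hVM hV'M)
      have hne4 : Nat.card (V ⊔ V' : Subgroup G) ≠ 4 := by
        intro h4'
        apply hne
        have e1 : V = V ⊔ V' := Subgroup.eq_of_le_of_card_ge le_sup_left (by rw [h4', hVc])
        have e2 : V' = V ⊔ V' := Subgroup.eq_of_le_of_card_ge le_sup_right (by rw [h4', hV'c])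
        exact e2.trans e1.symm
      rw [hc]
      have hle := Nat.le_of_dvd (by norm_num) h12
      obtain ⟨c, hc'⟩ := h4
      obtain ⟨d, hd⟩ := h12
      interval_cases hn : Nat.card (V ⊔ V' : Subgroup G) <;> omega
    have hxC : x ∈ centralizer ({u} : Set G) := (sup_le hVC hV'C) (by rw [hsupM]; exact hxM)
    have hd : orderOf x ∣ 2 ^ k := by
      rw [← hk, ← Subgroup.orderOf_mk x hxC]
      exact orderOf_dvd_natCard _
    rw [hx] at hd
    have := (Nat.Prime.dvd_of_dvd_pow Nat.prime_three hd)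
    omega
  have hMN : M ≤ normalizer (V : Set G) := by
    intro m hm
    apply mem_norm_of V m
    · intro v hv
      have h1 : m * v * m⁻¹ ∈ V.map (MulAut.conj m).toMonoidHom := by
        rw [mem_map_conj]
        have e : m⁻¹ * (m * v * m⁻¹) * m = v := by group
        rw [e]; exact hv
      rw [hconj m hm] at h1
      exact h1
    · intro v hv
      have h1 : m⁻¹ * v * m ∈ V.map (MulAut.conj m⁻¹).toMonoidHom := by
        rw [mem_map_conj]
        have e : m⁻¹⁻¹ * (m⁻¹ * v * m) * m⁻¹ = v := by group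
        rw [e]; exact hv
      rw [hconj m⁻¹ (inv_mem hm)] at h1
      exact h1
  haveI := norm4 h V hVc x hx (hMN hxM)
  have hNc := norm_card h V
  rcases hM.le_iff.mp hMN with h1 | h1
  · rw [h1, Subgroup.card_top, h] at hNc; omega
  · rw [h1, hc] at hNc; omega

theorem ord24 (h : Nat.card G = 168) (M : Subgroup G) (hc : Nat.card M = 24) :
    ∃ D : Subgroup G, IsKleinFour D ∧ M = normalizer (D : Set G) := by
  obtain ⟨x, hxM, hx⟩ := exists_ord M 3 (by rw [hc]; norm_num)
  obtain ⟨K, hK⟩ := Sylow.exists_subgroup_card_pow_prime (G := M) 2 (n := 3)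
    (by rw [hc]; norm_num)
  have hKc : Nat.card (K.map M.subtype) = 8 := by
    rw [← Nat.card_congr (K.equivMapOfInjective _ M.subtype_injective).toEquiv, hK]
    norm_num
  have hpg : IsPGroup 2 (K.map M.subtype) := IsPGroup.of_card (n := 3) (by rw [hKc]; norm_num)
  obtain ⟨T, hT⟩ := hpg.exists_le_sylow
  have hTe : K.map M.subtype = (T : Subgroup G) :=
    Subgroup.eq_of_le_of_card_ge hT (by rw [hKc, c2 h T])
  have hTM : (T : Subgroup G) ≤ M := by
    rw [← hTe]; rintro _ ⟨k, -, rfl⟩; exact k.2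
  obtain ⟨m, hmM, hmT⟩ : ∃ m ∈ M, m ∉ (T : Subgroup G) := by
    by_contra hno
    push_neg at hno
    have := Subgroup.card_le_of_le (show M ≤ (T : Subgroup G) from hno)
    rw [hc, c2 h T] at this
    omega
  have hne : m • T ≠ T := by
    intro hh
    apply hmT
    have := Sylow.smul_eq_iff_mem_normalizer.mp hh
    rw [← N2 h T]; exact this
  have hmTM : ((m • T : Sylow 2 G) : Subgroup G) ≤ M := by
    intro q hq
    rw [Cfsg.Agent.Lib.Helper6.SylowConj.mem_smul_sylow] at hq
    have := M.mul_mem (M.mul_mem hmM (hTM hq)) (M.inv_mem hmM)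
    have e : m * (m⁻¹ * q * m) * m⁻¹ = q := by group
    rwa [e] at this
  obtain ⟨D, hD⟩ : ∃ D : Subgroup G,
      D = (T : Subgroup G) ⊓ ((m • T : Sylow 2 G) : Subgroup G) := ⟨_, rfl⟩
  have hb := inf_bound M (T : Subgroup G) ((m • T : Sylow 2 G) : Subgroup G) hTM hmTM
  rw [c2 h T, c2 h (m • T), hc, ← hD] at hb
  have hDT : D ≤ (T : Subgroup G) := by rw [hD]; exact inf_le_left
  have hDT' : D ≤ ((m • T : Sylow 2 G) : Subgroup G) := by rw [hD]; exact inf_le_right
  have hD8 : Nat.card D ∣ 8 := by rw [← c2 h T]; exact Subgroup.card_dvd_of_le hDT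
  have hDne : Nat.card D ≠ 8 := by
    intro h8
    apply hne
    have e1 : D = (T : Subgroup G) := Subgroup.eq_of_le_of_card_ge hDT (by rw [h8, c2 h T])
    have e2 : D = ((m • T : Sylow 2 G) : Subgroup G) :=
      Subgroup.eq_of_le_of_card_ge hDT' (by rw [h8, c2 h (m • T)])
    exact Sylow.ext (e2.symm.trans e1)
  have hDc : Nat.card D = 4 := by
    have hle := Nat.le_of_dvd (by norm_num) hD8
    obtain ⟨c, hc'⟩ := hD8
    interval_cases hn : Nat.card D <;> omega
  have hTN : (T : Subgroup G) ≤ normalizer (D : Set G) :=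
    le_norm_of_idx2 _ _ hDT (by rw [c2 h T, hDc])
  have hT'N : ((m • T : Sylow 2 G) : Subgroup G) ≤ normalizer (D : Set G) :=
    le_norm_of_idx2 _ _ hDT' (by rw [c2 h (m • T), hDc])
  have hsupM : (T : Subgroup G) ⊔ ((m • T : Sylow 2 G) : Subgroup G) = M := by
    apply Subgroup.eq_of_le_of_card_ge (sup_le hTM hmTM)
    have h8 : 8 ∣ Nat.card ((T : Subgroup G) ⊔ ((m • T : Sylow 2 G) : Subgroup G) :
        Subgroup G) := by
      rw [← c2 h T]; exact Subgroup.card_dvd_of_le le_sup_left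
    have h24 : Nat.card ((T : Subgroup G) ⊔ ((m • T : Sylow 2 G) : Subgroup G) :
        Subgroup G) ∣ 24 := by
      rw [← hc]; exact Subgroup.card_dvd_of_le (sup_le hTM hmTM)
    have hne8 : Nat.card ((T : Subgroup G) ⊔ ((m • T : Sylow 2 G) : Subgroup G) :
        Subgroup G) ≠ 8 := by
      intro h8'
      apply hne
      have e1 : (T : Subgroup G) = (T : Subgroup G) ⊔ ((m • T : Sylow 2 G) : Subgroup G) :=
        Subgroup.eq_of_le_of_card_ge le_sup_left (by rw [h8', c2 h T])
      have e2 : ((m • T : Sylow 2 G) : Subgroup G) =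
          (T : Subgroup G) ⊔ ((m • T : Sylow 2 G) : Subgroup G) :=
        Subgroup.eq_of_le_of_card_ge le_sup_right (by rw [h8', c2 h (m • T)])
      exact Sylow.ext (e2.trans e1.symm)
    rw [hc]
    have hle := Nat.le_of_dvd (by norm_num) h24
    obtain ⟨c, hc'⟩ := h8
    obtain ⟨d, hd⟩ := h24
    interval_cases hn : Nat.card ((T : Subgroup G) ⊔ ((m • T : Sylow 2 G) : Subgroup G) :
        Subgroup G) <;> omega
  have hMN : M ≤ normalizer (D : Set G) := by rw [← hsupM]; exact sup_le hTN hT'N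
  haveI := norm4 h D hDc x hx (hMN hxM)
  exact ⟨D, inferInstance, Subgroup.eq_of_le_of_card_ge hMN (by rw [norm_card h D, hc])⟩

theorem cen_mem_kf (h : Nat.card G = 168) (T : Sylow 2 G) (z : G)
    (hzT : z ∈ (T : Subgroup G)) (hzc : ∀ t ∈ (T : Subgroup G), t * z = z * t)
    (U : Subgroup G) (hUT : U ≤ (T : Subgroup G)) [IsKleinFour U] : z ∈ U := by
  obtain ⟨hnU, hmulU⟩ := idx2 U (T : Subgroup G) hUT (by rw [c2 h T, kf_card U])
  by_contra hzU
  apply nonab h T
  have hform : ∀ t ∈ (T : Subgroup G), ∃ u ∈ U, t = u ∨ t = z * u := by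
    intro t ht
    by_cases htU : t ∈ U
    · exact ⟨t, htU, Or.inl rfl⟩
    · refine ⟨z⁻¹ * t, ?_, Or.inr (by group)⟩
      rw [hmulU z⁻¹ (inv_mem hzT) t ht]
      exact ⟨fun hh => absurd ((Subgroup.inv_mem_iff _).mp hh) hzU, fun hh => absurd hh htU⟩
  intro x hx y hy
  obtain ⟨u, hu, hxu⟩ := hform x hx
  obtain ⟨v, hv, hyv⟩ := hform y hy
  have huv : Commute u v := kf_comm U u v hu hv
  have hzu : Commute z u := (hzc u (hUT hu)).symm
  have hzv : Commute z v := (hzc v (hUT hv)).symm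
  rcases hxu with rfl | rfl <;> rcases hyv with rfl | rfl
  · exact huv.eq
  · exact (hzu.symm.mul_right huv).eq
  · exact (hzv.mul_left huv).eq
  · exact (((Commute.refl z).mul_right hzv).mul_left (hzu.symm.mul_right huv)).eq

theorem kf_unique (h : Nat.card G = 168) (U W : Subgroup G) [IsKleinFour U] [IsKleinFour W]
    (hN : normalizer (U : Set G) = normalizer (W : Set G)) : U = W := by
  by_contra hne
  have hU2 : IsPGroup 2 U := IsPGroup.of_card (n := 2) (by rw [kf_card U]; norm_num)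
  have hW2 : IsPGroup 2 W := IsPGroup.of_card (n := 2) (by rw [kf_card W]; norm_num)
  have hUNW : U ≤ normalizer (W : Set G) := by rw [← hN]; exact Subgroup.le_normalizer
  have hsup : IsPGroup 2 (U ⊔ W : Subgroup G) := hU2.to_sup_of_normal_right' hW2 hUNW
  obtain ⟨T, hT⟩ := hsup.exists_le_sylow
  obtain ⟨z, hzT, hz2, hzC⟩ := exists_cen h T
  have hzc : ∀ t ∈ (T : Subgroup G), t * z = z * t := fun t ht =>
    (mem_cent_iff z t).mp (by rw [hzC]; exact ht)
  have hzU : z ∈ U := cen_mem_kf h T z hzT hzc U (le_sup_left.trans hT)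
  have hzW : z ∈ W := cen_mem_kf h T z hzT hzc W (le_sup_right.trans hT)
  have hNc := norm_card h U
  obtain ⟨x, hxN, hx⟩ := exists_ord (normalizer (U : Set G)) 3 (by rw [hNc]; norm_num)
  have hxN' : x ∈ normalizer (W : Set G) := by rw [← hN]; exact hxN
  have hyU : x * z * x⁻¹ ∈ U := (Subgroup.mem_normalizer_iff.mp hxN z).mp hzU
  have hyW : x * z * x⁻¹ ∈ W := (Subgroup.mem_normalizer_iff.mp hxN' z).mp hzW
  by_cases hy : x * z * x⁻¹ = z
  · have hxT : x ∈ (T : Subgroup G) := by
      rw [← hzC, mem_cent_iff]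
      calc x * z = (x * z * x⁻¹) * x := by group
        _ = z * x := by rw [hy]
    rcases ord_T h T x hxT with h1 | h1 | h1 <;> omega
  · have hz1 : z ≠ 1 := ne1 hz2 (by norm_num)
    have hy1 : x * z * x⁻¹ ≠ 1 := by
      apply ne1 (n := 2) _ (by norm_num)
      rw [oconj]; exact hz2
    have hzz := kf_sq U z hzU
    have hyy := kf_sq U _ hyU
    have hcomm := kf_comm U z _ hzU hyU
    have hc4 := V4_card z (x * z * x⁻¹) hzz hyy hcomm hz1 hy1 (Ne.symm hy)
    have e1 : V4 z (x * z * x⁻¹) hzz hyy hcomm = U :=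
      Subgroup.eq_of_le_of_card_ge (V4_le _ _ _ _ _ U hzU hyU) (by rw [kf_card U, hc4])
    have e2 : V4 z (x * z * x⁻¹) hzz hyy hcomm = W :=
      Subgroup.eq_of_le_of_card_ge (V4_le _ _ _ _ _ W hzW hyW) (by rw [kf_card W, hc4])
    exact hne (e1.symm.trans e2)

end main

/-- In a simple group of order 168 every maximal subgroup is either isomorphic to the symmetric group of degree 4 or non-abelian of order 21; the maximal subgroups of order 21 form one conjugacy class and those isomorphic to the symmetric group of degree 4 form exactly two conjugacy classes. -/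
theorem result {G : Type*} [Group G] [Finite G] [IsSimpleGroup G] (h : Nat.card G = 168) : (∀ M : Subgroup G, IsCoatom M → Nonempty (↥M ≃* Equiv.Perm (Fin 4)) ∨ (Nat.card ↥M = 21 ∧ ¬ IsMulCommutative ↥M)) ∧ (∀ M M' : Subgroup G, IsCoatom M → IsCoatom M' → Nat.card ↥M = 21 → Nat.card ↥M' = 21 → ∃ g : G, M' = M.map (MulAut.conj g).toMonoidHom) ∧ ∃ M₁ M₂ : Subgroup G, IsCoatom M₁ ∧ IsCoatom M₂ ∧ Nonempty (↥M₁ ≃* Equiv.Perm (Fin 4)) ∧ Nonempty (↥M₂ ≃* Equiv.Perm (Fin 4)) ∧ (∀ g : G, M₂ ≠ M₁.map (MulAut.conj g).toMonoidHom) ∧ ∀ M : Subgroup G, IsCoatom M → Nonempty (↥M ≃* Equiv.Perm (Fin 4)) → ∃ g : G, M = M₁.map (MulAut.conj g).toMonoidHom ∨ M = M₂.map (MulAut.conj g).toMonoidHom := by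
  haveI := f7
  refine ⟨?_, ?_, ?_⟩
  · intro M hM
    by_cases h7 : 7 ∣ Nat.card M
    · right
      obtain ⟨x, hxM, hx⟩ := exists_ord M 7 h7
      obtain ⟨P, hMP⟩ := max21 h M hM x hxM hx
      refine ⟨by rw [hMP]; exact N7 h P, ?_⟩
      intro hcomm
      apply burn P (by rw [c7 h P]; norm_num) (by rw [c7 h P, h]; norm_num)
      intro n hn
      rw [Subgroup.mem_centralizer_iff]
      intro p hp
      have hnM : n ∈ M := by rw [hMP]; exact hn
      have hpM : p ∈ M := by rw [hMP]; exact Subgroup.le_normalizer hp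
      have := hcomm.is_comm.comm (⟨p, hpM⟩ : M) ⟨n, hnM⟩
      exact congrArg Subtype.val this
    · left
      have hM24 := idx7 h M hM.1
      have hdvd : Nat.card M ∣ 24 := by
        have h168 : Nat.card M ∣ 7 * 24 := by
          have := Subgroup.card_subgroup_dvd_card M
          rw [h] at this; exact this
        have hco : Nat.Coprime (Nat.card M) 7 :=
          (Nat.Coprime.symm ((Nat.Prime.coprime_iff_not_dvd (by norm_num)).mpr h7))
        exact hco.dvd_of_dvd_mul_left h168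
      have hle := Nat.le_of_dvd (by norm_num) hdvd
      have hpos : 0 < Nat.card M := Nat.card_pos
      obtain ⟨c, hc⟩ := hdvd
      have hcases : Nat.card M = 1 ∨ Nat.card M = 2 ∨ Nat.card M = 3 ∨ Nat.card M = 4 ∨
          Nat.card M = 6 ∨ Nat.card M = 8 ∨ Nat.card M = 12 ∨ Nat.card M = 24 := by
        interval_cases hn : Nat.card M <;> omega
      rcases hcases with h1 | h1 | h1 | h1 | h1 | h1 | h1 | h1
      · exact (not_max_2 h M hM 0 (by rw [h1]; norm_num)).elim
      · exact (not_max_2 h M hM 1 (by rw [h1]; norm_num)).elim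
      · exact (not_max_3 h M hM h1).elim
      · exact (not_max_2 h M hM 2 (by rw [h1]; norm_num)).elim
      · exact (not_max_6 h M hM h1).elim
      · exact (not_max_2 h M hM 3 (by rw [h1]; norm_num)).elim
      · exact (not_max_12 h M hM h1).elim
      · obtain ⟨D, hD, hMD⟩ := ord24 h M h1
        haveI := hD
        subst hMD
        exact kf_norm h D
  · intro M M' hM hM' hc hc'
    obtain ⟨x, hxM, hx⟩ := exists_ord M 7 (by rw [hc]; norm_num)
    obtain ⟨x', hxM', hx'⟩ := exists_ord M' 7 (by rw [hc']; norm_num)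
    obtain ⟨P, hMP⟩ := max21 h M hM x hxM hx
    obtain ⟨P', hMP'⟩ := max21 h M' hM' x' hxM' hx'
    obtain ⟨g, hg⟩ := MulAction.exists_smul_eq G P P'
    refine ⟨g, ?_⟩
    rw [hMP, hMP', ← hg]
    ext y
    rw [mem_map_conj]
    exact norm_smul P g y
  · obtain ⟨T⟩ : Nonempty (Sylow 2 G) := inferInstance
    obtain ⟨U₀, U₁, hne, h0, h1, hk0, hk1, hall⟩ := two_kf h T
    haveI := hk0
    haveI := hk1
    refine ⟨normalizer (U₀ : Set G), normalizer (U₁ : Set G),
      coatom24 h _ (norm_card h U₀), coatom24 h _ (norm_card h U₁),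
      kf_norm h U₀, kf_norm h U₁, ?_, ?_⟩
    · intro g heq
      haveI : IsKleinFour (U₀.map (MulAut.conj g).toMonoidHom) := kf_map U₀ g
      have := kf_unique h (U₀.map (MulAut.conj g).toMonoidHom) U₁ (by rw [norm_map, ← heq])
      exact kf_not_conj h T U₀ U₁ h0 h1 hne g this
    · intro M hM hMe
      obtain ⟨e⟩ := hMe
      have hc : Nat.card M = 24 := by
        rw [Nat.card_congr e.toEquiv, Nat.card_perm, Nat.card_fin]
        rfl
      obtain ⟨D, hD, hMD⟩ := ord24 h M hc
      haveI := hD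
      have hpg : IsPGroup 2 D := IsPGroup.of_card (n := 2) (by rw [kf_card D]; norm_num)
      obtain ⟨T', hDT'⟩ := hpg.exists_le_sylow
      obtain ⟨g, hg⟩ := MulAction.exists_smul_eq G T T'
      refine ⟨g, ?_⟩
      haveI : IsKleinFour (D.map (MulAut.conj g⁻¹).toMonoidHom) := kf_map D g⁻¹
      have hD'T : D.map (MulAut.conj g⁻¹).toMonoidHom ≤ (T : Subgroup G) := by
        intro w hw
        rw [mem_map_conj, inv_inv] at hw
        have := hDT' hw
        rw [← hg, Cfsg.Agent.Lib.Helper6.SylowConj.mem_smul_sylow] at this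
        have e' : g⁻¹ * (g * w * g⁻¹) * g = w := by group
        rwa [e'] at this
      have hDe : D = (D.map (MulAut.conj g⁻¹).toMonoidHom).map (MulAut.conj g).toMonoidHom := by
        ext w
        rw [mem_map_conj, mem_map_conj, inv_inv]
        have e' : g * (g⁻¹ * w * g) * g⁻¹ = w := by group
        rw [e']
      rcases hall _ hD'T inferInstance with h2 | h2
      · left
        have hD2 : D = U₀.map (MulAut.conj g).toMonoidHom := by rw [← h2]; exact hDe
        rw [hMD, hD2, norm_map]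
      · right
        have hD2 : D = U₁.map (MulAut.conj g).toMonoidHom := by rw [← h2]; exact hDe
        rw [hMD, hD2, norm_map]

end Cfsg.Agent.S1008
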