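import Mathlib
import Cfsg.Agent.Lib.Helper2.SylowAux
import Cfsg.Agent.Lib.Helper2.CoprimeAct2
import Cfsg.Statements.S1009

set_option autoImplicit false
open Cfsg
open Cfsg.Agent.Lib.Helper2

namespace Cfsg.Agent.S1009

/-- Brodkey's Theorem: if a finite group has abelian Sylow p-subgroups, then there are two Sylow p-subgroups whose intersection equals the intersection of all Sylow p-subgroups. -/
theorem result {G : Type*} [Group G] [Finite G] (p : ℕ) [Fact p.Prime] (hab : ∀ P : Sylow p G, IsMulCommutative ↥(P : Subgroup G)) : ∃ P Q : Sylow p G, (P : Subgroup G) ⊓ (Q : Subgroup G) = ⨅ R : Sylow p G, (R : Subgroup G) := by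
  classical
  obtain ⟨⟨P, Q⟩, hmin⟩ := Finite.exists_min
    (fun x : Sylow p G × Sylow p G => Nat.card ↥((x.1 : Subgroup G) ⊓ (x.2 : Subgroup G)))
  refine ⟨P, Q, ?_⟩
  have hPn : (P : Subgroup G) ≤ Subgroup.normalizer
      ((((P : Subgroup G) ⊓ (Q : Subgroup G) : Subgroup G)) : Set G) := by
    intro g hg
    apply CoprimeAct.mem_normalizer_of_forall
    · intro d hd
      have h := (hab P).is_comm.comm ⟨g, hg⟩ ⟨d, hd.1⟩
      have h' : g * d = d * g := congrArg Subtype.val h
      rw [h', mul_inv_cancel_right]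
      exact hd
    · intro d hd
      have h := (hab P).is_comm.comm ⟨g, hg⟩ ⟨d, hd.1⟩
      have h' : g * d = d * g := congrArg Subtype.val h
      rw [mul_assoc, ← h', inv_mul_cancel_left]
      exact hd
  have hQn : (Q : Subgroup G) ≤ Subgroup.normalizer
      ((((P : Subgroup G) ⊓ (Q : Subgroup G) : Subgroup G)) : Set G) := by
    intro g hg
    apply CoprimeAct.mem_normalizer_of_forall
    · intro d hd
      have h := (hab Q).is_comm.comm ⟨g, hg⟩ ⟨d, hd.2⟩
      have h' : g * d = d * g := congrArg Subtype.val h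
      rw [h', mul_inv_cancel_right]
      exact hd
    · intro d hd
      have h := (hab Q).is_comm.comm ⟨g, hg⟩ ⟨d, hd.2⟩
      have h' : g * d = d * g := congrArg Subtype.val h
      rw [mul_assoc, ← h', inv_mul_cancel_left]
      exact hd
  apply le_antisymm
  · apply le_iInf
    intro R
    obtain ⟨h, hhN, hh⟩ := SylowAux.exists_conj_le_sylow_of_le P hPn
      (inf_le_right : (R : Subgroup G) ⊓ Subgroup.normalizer
        ((((P : Subgroup G) ⊓ (Q : Subgroup G) : Subgroup G)) : Set G) ≤ _)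
      (R.isPGroup'.to_le inf_le_left)
    have hle : ((h⁻¹ • R : Sylow p G) : Subgroup G) ⊓ (Q : Subgroup G) ≤
        (P : Subgroup G) ⊓ (Q : Subgroup G) := by
      rintro y ⟨hy1, hy2⟩
      refine ⟨?_, hy2⟩
      have hy1' : h * y * h⁻¹ ∈ (R : Subgroup G) := by
        have := (SylowAux.mem_smul_sylow R h⁻¹ y).1 hy1
        rwa [inv_inv] at this
      have hyN := hQn hy2
      have h2 : h * y * h⁻¹ ∈ Subgroup.normalizer
          ((((P : Subgroup G) ⊓ (Q : Subgroup G) : Subgroup G)) : Set G) :=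
        Subgroup.mul_mem _ (Subgroup.mul_mem _ hhN hyN) (Subgroup.inv_mem _ hhN)
      have h3 := hh (h * y * h⁻¹) ⟨hy1', h2⟩
      have e : h⁻¹ * (h * y * h⁻¹) * h = y := by group
      rwa [e] at h3
    have hcard := hmin (h⁻¹ • R, Q)
    have heq := Subgroup.eq_of_le_of_card_ge hle hcard
    intro d hd
    have hd' : h⁻¹ * d * h ∈ (P : Subgroup G) ⊓ (Q : Subgroup G) := by
      have := (Subgroup.mem_normalizer_iff.1 (Subgroup.inv_mem _ hhN) d).1 hd
      rwa [inv_inv] at this
    rw [← heq] at hd'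
    have h4 := (SylowAux.mem_smul_sylow R h⁻¹ _).1 hd'.1
    have e : h⁻¹⁻¹ * (h⁻¹ * d * h) * h⁻¹ = d := by group
    rwa [e] at h4
  · exact le_inf (iInf_le _ P) (iInf_le _ Q)

end Cfsg.Agent.S1009
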