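import Mathlib
import Cfsg.Agent.Lib.Helper2.PrimeDeg
import Cfsg.Statements.S1013

set_option autoImplicit false
open Cfsg
open Cfsg.Agent.Lib.Helper2

namespace Cfsg.Agent.S1013

/-- Let G be a transitive permutation group of prime degree p having more than one Sylow p-subgroup, and suppose a Sylow p-subgroup P has prime index in its normalizer. Then G is simple. -/
theorem result {α : Type*} [Fintype α] [DecidableEq α] {p : ℕ} [Fact p.Prime] (hα : Fintype.card α = p) (G : Subgroup (Equiv.Perm α)) [MulAction.IsPretransitive ↥G α] (P : Sylow p ↥G) (hn : 1 < Nat.card (Sylow p ↥G)) (ht : (((P : Subgroup ↥G).subgroupOf (Subgroup.normalizer ((P : Subgroup ↥G) : Set ↥G))).index).Prime) : IsSimpleGroup ↥G := by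
  classical
  have hp : p.Prime := Fact.out
  haveI hprim : MulAction.IsPreprimitive ↥G α :=
    MulAction.IsPreprimitive.of_prime_card (by rw [Nat.card_eq_fintype_card, hα]; exact hp)
  have hne : Nonempty α := by
    rw [← Fintype.card_pos_iff, hα]
    exact hp.pos
  obtain ⟨a⟩ := hne
  have hGdvd : Nat.card G ∣ p.factorial := by
    have h1 := Subgroup.card_subgroup_dvd_card G
    rwa [Nat.card_perm, Nat.card_eq_fintype_card (α := α), hα] at h1
  have hpG : p ∣ Nat.card G := by
    have h1 := MulAction.index_stabilizer_of_transitive (G := ↥G) (x := a)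
    have h2 := Subgroup.index_mul_card (MulAction.stabilizer ↥G a)
    rw [h1, Nat.card_eq_fintype_card (α := α), hα] at h2
    exact Dvd.intro _ h2
  have hG0 : Nat.card G ≠ 0 := Nat.card_pos.ne'
  have hp2 : ¬ p ^ 2 ∣ Nat.card G := by
    intro h
    have h1 : p ^ 2 ∣ p.factorial := h.trans hGdvd
    obtain ⟨m, hm⟩ : ∃ m, p = m + 1 := ⟨p - 1, by have := hp.pos; omega⟩
    rw [hm, Nat.factorial_succ, pow_two] at h1
    have h2 : (m + 1) ∣ m.factorial := Nat.dvd_of_mul_dvd_mul_left (Nat.succ_pos m) h1
    rw [← hm] at h2
    have h3 := (hp.dvd_factorial).1 h2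
    omega
  have hfac : (Nat.card G).factorization p = 1 := by
    apply le_antisymm
    · by_contra hlt
      push Not at hlt
      exact hp2 ((hp.pow_dvd_iff_le_factorization hG0).2 hlt)
    · exact (hp.dvd_iff_one_le_factorization hG0).1 hpG
  have hPcard : Nat.card P = p := by rw [P.card_eq_multiplicity, hfac, pow_one]
  haveI : Nontrivial G := by
    rw [← Finite.one_lt_card_iff_nontrivial]
    exact lt_of_lt_of_le hp.one_lt (Nat.le_of_dvd Nat.card_pos hpG)
  refine ⟨fun K hK => ?_⟩
  by_cases hKbot : K = ⊥
  · left; exact hKbot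
  right
  haveI := hK
  have hKt : MulAction.IsPretransitive K α := by
    apply MulAction.IsQuasiPreprimitive.isPretransitive_of_normal
    intro hfix
    apply hKbot
    rw [Subgroup.eq_bot_iff_forall]
    intro k hk
    apply Subtype.ext
    ext c
    have h1 : c ∈ MulAction.fixedPoints K α := by rw [hfix]; trivial
    exact h1 ⟨k, hk⟩
  have hpK : p ∣ Nat.card K := by
    have h1 := MulAction.index_stabilizer_of_transitive (G := ↥K) (x := a)
    have h2 := Subgroup.index_mul_card (MulAction.stabilizer ↥K a)
    rw [h1, Nat.card_eq_fintype_card (α := α), hα] at h2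
    exact Dvd.intro _ h2
  have hKidx : Nat.Coprime K.index p := by
    rw [Nat.coprime_comm, Nat.Prime.coprime_iff_not_dvd hp]
    intro h
    apply hp2
    rw [← Subgroup.index_mul_card K, pow_two]
    exact Nat.mul_dvd_mul h hpK
  have hPK : (P : Subgroup G) ≤ K := by
    intro x hx
    have hox : orderOf x ∣ p := by
      rw [← hPcard]
      have h1 := Subgroup.card_dvd_of_le ((Subgroup.zpowers_le).2 hx)
      rwa [Nat.card_zpowers] at h1
    have hcop : Nat.Coprime K.index (orderOf x) := Nat.Coprime.coprime_dvd_right hox hKidx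
    obtain ⟨m, hm⟩ := exists_pow_eq_self_of_coprime hcop
    rw [← hm]
    exact K.pow_mem (Subgroup.pow_index_mem K x) m
  have hfrat := Sylow.normalizer_sup_eq_top' P hPK
  by_cases hNK : Subgroup.normalizer ((P : Subgroup G) : Set G) ≤ K
  · rw [← hfrat]
    exact (sup_eq_right.2 hNK).symm
  · exfalso
    have hL : K ⊓ Subgroup.normalizer ((P : Subgroup G) : Set G) ≤ P := by
      have hPL : (P : Subgroup G) ≤ K ⊓ Subgroup.normalizer ((P : Subgroup G) : Set G) :=
        le_inf hPK Subgroup.le_normalizer
      have h1 := Subgroup.relIndex_mul_relIndex (P : Subgroup G)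
        (K ⊓ Subgroup.normalizer ((P : Subgroup G) : Set G))
        (Subgroup.normalizer ((P : Subgroup G) : Set G)) hPL inf_le_right
      have ht' : ((P : Subgroup G).relIndex
          (Subgroup.normalizer ((P : Subgroup G) : Set G))).Prime := ht
      rw [← h1] at ht'
      rcases ht'.eq_one_or_self_of_dvd _ (Dvd.intro _ rfl) with h | h
      · exact Subgroup.relIndex_eq_one.1 h
      · exfalso
        apply hNK
        have h2 : (K ⊓ Subgroup.normalizer ((P : Subgroup G) : Set G)).relIndex
            (Subgroup.normalizer ((P : Subgroup G) : Set G)) = 1 := by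
          have h3 := ht'.pos
          have h4 : (P : Subgroup G).relIndex
              (K ⊓ Subgroup.normalizer ((P : Subgroup G) : Set G)) *
              (K ⊓ Subgroup.normalizer ((P : Subgroup G) : Set G)).relIndex
                (Subgroup.normalizer ((P : Subgroup G) : Set G)) =
              (P : Subgroup G).relIndex
                (K ⊓ Subgroup.normalizer ((P : Subgroup G) : Set G)) * 1 := by
            rw [mul_one]
            exact h.symm
          exact Nat.eq_of_mul_eq_mul_left (Nat.pos_of_mul_pos_right h3) h4
        exact (Subgroup.relIndex_eq_one.1 h2).trans inf_le_left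
    have hcardK : Nat.card K = p := by
      apply PrimeDeg.card_eq_of_self_normalizing (K := ↥K) (α := α) hα
        ((P : Subgroup G).subgroupOf K)
      · rw [Nat.card_congr (Subgroup.subgroupOfEquivOfLe hPK).toEquiv, hPcard]
      · intro k hk
        rw [Subgroup.mem_subgroupOf]
        apply hL
        refine ⟨k.2, ?_⟩
        apply Lift.conj_le_mem_normalizer
        intro x hx
        have h1 := (Subgroup.mem_normalizer_iff.1 hk ⟨x, hPK hx⟩).1
          (Subgroup.mem_subgroupOf.2 hx)
        exact Subgroup.mem_subgroupOf.1 h1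
    have hKP : (P : Subgroup G) = K :=
      Subgroup.eq_of_le_of_card_ge hPK (by rw [hcardK, hPcard])
    have hPn : (P : Subgroup G).Normal := by rw [hKP]; exact hK
    haveI := Sylow.unique_of_normal P hPn
    rw [Nat.card_unique] at hn
    exact lt_irrefl _ hn

end Cfsg.Agent.S1013
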