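import Mathlib
import Cfsg.Statements.S1024

set_option autoImplicit false
open Cfsg

namespace Cfsg.Agent.S1024

open Cfsg.Lie

set_option maxRecDepth 100000 in
theorem neg_fact (D : ChevalleyDatum) (hD : D ∈ [chevG2, chevB2, chevD4, chevF4, chevE6, chevE7, chevE8]) :
    ∀ r < D.nroots, D.negIdx.getD r 0 < D.nroots ∧ D.negIdx.getD r 0 ≠ r := by
  simp only [List.mem_cons, List.not_mem_nil, or_false] at hD
  rcases hD with rfl | rfl | rfl | rfl | rfl | rfl | rfl <;> decide

theorem chainCoeff_pos (D : ChevalleyDatum) (r s u : ℕ) : ∀ km ∈ D.chainCoeff r s u, km.1 ≠ 0 := by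
  intro km hkm
  unfold ChevalleyDatum.chainCoeff at hkm
  simp only [List.mem_flatMap, List.mem_map] at hkm
  obtain ⟨e, _, q, _, rfl⟩ := hkm
  simp

theorem xMat_zero (D : ChevalleyDatum) {F : Type*} [Field F] (r : Fin D.nroots) : D.xMat F r 0 = 1 := by
  ext row col
  rcases col with i | s
  · rcases row with i' | u
    · simp [ChevalleyDatum.xMat, Matrix.one_apply]
    · simp [ChevalleyDatum.xMat, Matrix.one_apply]
  · by_cases hs : s = r
    · rcases row with i' | u
      · simp [ChevalleyDatum.xMat, Matrix.one_apply, hs]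
      · simp [ChevalleyDatum.xMat, Matrix.one_apply, hs]
    · by_cases hn : s.val = D.negIdx.getD r.val 0
      · rcases row with i' | u
        · simp [ChevalleyDatum.xMat, Matrix.one_apply, hs, hn]
        · by_cases hus : u = s
          · simp [ChevalleyDatum.xMat, Matrix.one_apply, hs, hn, hus]
          · simp [ChevalleyDatum.xMat, Matrix.one_apply, hs, hn, hus]
      · rcases row with i' | u
        · simp [ChevalleyDatum.xMat, Matrix.one_apply, hs, hn]
        · have hsum : ((D.chainCoeff r.val s.val u.val).map fun km => ((km.2 : ℤ) : F) * (0 : F) ^ km.1).sum = 0 := by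
            apply List.sum_eq_zero
            intro x hx
            rw [List.mem_map] at hx
            obtain ⟨km, hkm, rfl⟩ := hx
            rw [zero_pow (chainCoeff_pos D _ _ _ km hkm), mul_zero]
          simp [ChevalleyDatum.xMat, Matrix.one_apply, hs, hn, hsum]

theorem xMat_entry (D : ChevalleyDatum) {F : Type*} [Field F] (r s : Fin D.nroots) (hs : s ≠ r)
    (hn : s.val = D.negIdx.getD r.val 0) (t : F) : D.xMat F r t (Sum.inr r) (Sum.inr s) = -(t ^ 2) := by
  simp [ChevalleyDatum.xMat, hs, hn, Ne.symm hs]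

/-- `x_r(0) = 1`, and `x_r(t) = 1` forces `t = 0`: the map `t ↦ x_r(t)` is injective. -/
theorem result {F : Type*} [Field F] (D : Cfsg.Lie.ChevalleyDatum) (hD : D ∈ [Cfsg.Lie.chevG2, Cfsg.Lie.chevB2, Cfsg.Lie.chevD4, Cfsg.Lie.chevF4, Cfsg.Lie.chevE6, Cfsg.Lie.chevE7, Cfsg.Lie.chevE8]) (r : ℕ) (hr : r < D.nroots) (t : F) :
    D.x F r t = 1 ↔ t = 0 := by
  constructor
  · intro h
    obtain ⟨hlt, hne⟩ := neg_fact D hD r hr
    unfold ChevalleyDatum.x at h
    rw [dif_pos hr] at h
    have h1 := xMat_entry D (F := F) ⟨r, hr⟩ ⟨D.negIdx.getD r 0, hlt⟩ (by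
      intro hc
      exact hne (congrArg Fin.val hc)) rfl t
    rw [h] at h1
    have hne' : (Sum.inr (⟨r, hr⟩ : Fin D.nroots) : D.Idx) ≠ Sum.inr ⟨D.negIdx.getD r 0, hlt⟩ := by
      intro hc
      exact hne (congrArg Fin.val (Sum.inr.inj hc)).symm
    rw [Matrix.one_apply_ne hne'] at h1
    have h2 : t ^ 2 = 0 := by
      rw [← neg_eq_zero]; exact h1.symm
    exact pow_eq_zero_iff (two_ne_zero) |>.1 h2
  · rintro rfl
    unfold ChevalleyDatum.x
    rw [dif_pos hr]
    exact xMat_zero D _

end Cfsg.Agent.S1024
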