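import Mathlib
import Cfsg.Statements.S1118
import Cfsg.Agent.Lib.Helper2.RankOne

set_option autoImplicit false
open Cfsg
open Cfsg.Agent.Lib.Helper2.RankOne

namespace Cfsg.Agent.S1118

/-- In the rank-one set-up (`G` finite and doubly transitive on `Ω`, `t` an involution moving `a`, `Q` normal in `G_a` with `G_a = Q D`, `Q ⊓ D = 1` for the two-point stabiliser `D = G_a ⊓ G_{t • a}`, `|Q|` even, `|D|` odd), the normaliser of a subset of `Q` containing a non-identity element lies in `G_a`; consequently `N_G(Q) = N_G(G_a) = G_a`. -/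
theorem result {G Ω : Type*} [Group G] [Finite G] [MulAction G Ω] {a : Ω} {t : G} {Q : Subgroup G}
    (hS : Cfsg.IsRankOneSetup G Ω a t Q) :
    (∀ X : Set G, X ⊆ (Q : Set G) → (∃ x ∈ X, x ≠ 1) → Subgroup.normalizer X ≤ MulAction.stabilizer G a) ∧
      Subgroup.normalizer (Q : Set G) = MulAction.stabilizer G a ∧
      Subgroup.normalizer (MulAction.stabilizer G a : Set G) = MulAction.stabilizer G a := by
  have key : ∀ X : Set G, X ⊆ (Q : Set G) → (∃ x ∈ X, x ≠ 1) →
      Subgroup.normalizer X ≤ MulAction.stabilizer G a := by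
    intro X hXQ ⟨x, hxX, hx1⟩ n hn
    rw [Subgroup.mem_set_normalizer_iff] at hn
    have h1 : n * x * n⁻¹ ∈ Q := hXQ ((hn x).1 hxX)
    by_contra hna
    have hc : n⁻¹ • a ≠ a := by
      intro h
      apply hna
      rw [MulAction.mem_stabilizer_iff]
      have h0 := congrArg (fun w => n • w) h
      simp only [smul_inv_smul] at h0
      exact h0.symm
    have h2 : x • (n⁻¹ • a) = n⁻¹ • a := by
      have h3 : (n * x * n⁻¹) • a = a := MulAction.mem_stabilizer_iff.1 (hS.le h1)
      rw [mul_smul, mul_smul] at h3
      have h0 := congrArg (fun w => n⁻¹ • w) h3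
      simp only [inv_smul_smul] at h0
      exact h0
    exact hx1 (semiregular hS (hXQ hxX) hc h2)
  refine ⟨key, ?_, ?_⟩
  · apply le_antisymm
    · exact key (Q : Set G) (le_refl _) (exists_ne_one hS)
    · intro h hh
      rw [Subgroup.mem_set_normalizer_iff]
      intro n
      constructor
      · intro hn
        exact hS.conj_mem h hh n hn
      · intro hn
        have h1 := hS.conj_mem h⁻¹ (inv_mem hh) _ hn
        have h2 : h⁻¹ * (h * n * h⁻¹) * h⁻¹⁻¹ = n := by group
        rw [h2] at h1
        exact h1
  · apply le_antisymm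
    · intro n hn
      rw [Subgroup.mem_set_normalizer_iff] at hn
      obtain ⟨x, hxQ, hx1⟩ := exists_ne_one hS
      have h1 : n * x * n⁻¹ ∈ MulAction.stabilizer G a := (hn x).1 (hS.le hxQ)
      by_contra hna
      have hc : n⁻¹ • a ≠ a := by
        intro h
        apply hna
        rw [MulAction.mem_stabilizer_iff]
        have h0 := congrArg (fun w => n • w) h
        simp only [smul_inv_smul] at h0
        exact h0.symm
      have h2 : x • (n⁻¹ • a) = n⁻¹ • a := by
        have h3 : (n * x * n⁻¹) • a = a := MulAction.mem_stabilizer_iff.1 h1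
        rw [mul_smul, mul_smul] at h3
        have h0 := congrArg (fun w => n⁻¹ • w) h3
        simp only [inv_smul_smul] at h0
        exact h0
      exact hx1 (semiregular hS hxQ hc h2)
    · exact Subgroup.le_normalizer

end Cfsg.Agent.S1118
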