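import Mathlib
import Cfsg.Statements.S1119
import Cfsg.Agent.Lib.Helper2.RankOne

set_option autoImplicit false
open Cfsg
open Cfsg.Agent.Lib.Helper2.RankOne

namespace Cfsg.Agent.S1119

section
variable {G Ω : Type*} [Group G] [MulAction G Ω] {a : Ω} {t : G} {Q : Subgroup G}

theorem q_smul_ne (hS : Cfsg.IsRankOneSetup G Ω a t Q) {q : G} (hq : q ∈ Q) : q • (t • a) ≠ a := by
  intro h
  apply ta_ne hS
  have h1 : q • a = a := MulAction.mem_stabilizer_iff.1 (hS.le hq)
  have h2 : q • (t • a) = q • a := by rw [h, h1]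
  exact smul_left_cancel q h2

theorem exists_unique_Q (hS : Cfsg.IsRankOneSetup G Ω a t Q) (b c : Ω) (hb : b ≠ a) (hc : c ≠ a) :
    ∃! x : Q, (x : G) • b = c := by
  obtain ⟨q₁, hq₁, h1⟩ := exists_Q_smul hS hb
  obtain ⟨q₂, hq₂, h2⟩ := exists_Q_smul hS hc
  refine ⟨⟨q₂ * q₁⁻¹, mul_mem hq₂ (inv_mem hq₁)⟩, ?_, ?_⟩
  · show (q₂ * q₁⁻¹) • b = c
    rw [← h1, mul_smul, inv_smul_smul, h2]
  · intro x hx
    have hx' : (x : G) • b = c := hx
    have h3 : ((q₂ * q₁⁻¹)⁻¹ * (x : G)) • b = b := by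
      rw [mul_smul, hx', ← h2, ← h1, mul_inv_rev, inv_inv, mul_smul, inv_smul_smul]
    have h4 := semiregular hS (mul_mem (inv_mem (mul_mem hq₂ (inv_mem hq₁))) x.2) hb h3
    apply Subtype.ext
    show (x : G) = q₂ * q₁⁻¹
    exact (inv_mul_eq_one.1 h4).symm

theorem pretrans (hS : Cfsg.IsRankOneSetup G Ω a t Q) : MulAction.IsPretransitive G Ω := by
  have h : ∀ c : Ω, ∃ g : G, g • a = c := by
    intro c
    by_cases hc : c = a
    · exact ⟨1, by rw [one_smul, hc]⟩
    · obtain ⟨q, _, hq⟩ := exists_Q_smul hS hc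
      exact ⟨q * t, by rw [mul_smul, hq]⟩
  constructor
  intro c d
  obtain ⟨g₁, h1⟩ := h c
  obtain ⟨g₂, h2⟩ := h d
  exact ⟨g₂ * g₁⁻¹, by rw [← h1, mul_smul, inv_smul_smul, h2]⟩

theorem card_Omega [Finite G] (hS : Cfsg.IsRankOneSetup G Ω a t Q) : Nat.card Ω = Nat.card Q + 1 := by
  classical
  let φ : Option Q → Ω := fun o => match o with
    | none => a
    | some q => (q : G) • (t • a)
  have hinj : Function.Injective φ := by
    intro o₁ o₂ h
    rcases o₁ with _ | q₁ <;> rcases o₂ with _ | q₂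
    · rfl
    · exact absurd h.symm (q_smul_ne hS q₂.2)
    · exact absurd h (q_smul_ne hS q₁.2)
    · have h' : (q₁ : G) • (t • a) = (q₂ : G) • (t • a) := h
      have h3 : ((q₂ : G)⁻¹ * (q₁ : G)) • (t • a) = t • a := by
        rw [mul_smul, h', inv_smul_smul]
      have h4 := semiregular hS (mul_mem (inv_mem q₂.2) q₁.2) (ta_ne hS) h3
      congr 1
      apply Subtype.ext
      exact inv_mul_eq_one.1 h4 |>.symm
  have hsurj : Function.Surjective φ := by
    intro c
    by_cases hc : c = a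
    · exact ⟨none, hc.symm⟩
    · obtain ⟨q, hq, h⟩ := exists_Q_smul hS hc
      exact ⟨some ⟨q, hq⟩, h⟩
  rw [← Nat.card_congr (Equiv.ofBijective φ ⟨hinj, hsurj⟩), Finite.card_option]

theorem card_Ga [Finite G] (hS : Cfsg.IsRankOneSetup G Ω a t Q) :
    Nat.card (MulAction.stabilizer G a) = Nat.card Q *
      Nat.card ↥(MulAction.stabilizer G a ⊓ MulAction.stabilizer G (t • a)) := by
  let φ : Q × ↥(MulAction.stabilizer G a ⊓ MulAction.stabilizer G (t • a)) → MulAction.stabilizer G a :=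
    fun p => ⟨(p.1 : G) * (p.2 : G), mul_mem (hS.le p.1.2) (Subgroup.mem_inf.1 p.2.2).1⟩
  have hinj : Function.Injective φ := by
    rintro ⟨q₁, d₁⟩ ⟨q₂, d₂⟩ h
    have h' : (q₁ : G) * (d₁ : G) = (q₂ : G) * (d₂ : G) := congrArg Subtype.val h
    have h1 : (q₁ : G) * (d₁ : G) * t * 1 = (q₂ : G) * (d₂ : G) * t * 1 := by rw [h']
    have h2 := canon_unique hS q₁.2 d₁.2 (one_mem _) q₂.2 d₂.2 (one_mem _) h1
    exact Prod.ext (Subtype.ext h2.1) (Subtype.ext h2.2.1)
  have hsurj : Function.Surjective φ := by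
    rintro ⟨g, hg⟩
    obtain ⟨q, hq, d, hd, rfl⟩ := decomp hS hg
    exact ⟨(⟨q, hq⟩, ⟨d, hd⟩), rfl⟩
  rw [← Nat.card_congr (Equiv.ofBijective φ ⟨hinj, hsurj⟩), Nat.card_prod]

theorem card_G [Finite G] (hS : Cfsg.IsRankOneSetup G Ω a t Q) :
    Nat.card G = Nat.card Q *
      Nat.card ↥(MulAction.stabilizer G a ⊓ MulAction.stabilizer G (t • a)) * (Nat.card Q + 1) := by
  haveI := pretrans hS
  rw [← card_Ga hS, ← card_Omega hS, ← MulAction.index_stabilizer_of_transitive G a,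
    Subgroup.card_mul_index]

end

/-- In the rank-one set-up (`G` finite and doubly transitive on `Ω`, `t` an involution moving `a`, `Q` normal in `G_a` with `G_a = Q D`, `Q ⊓ D = 1` for the two-point stabiliser `D = G_a ⊓ G_{t • a}`, `|Q|` even, `|D|` odd): `Q` acts regularly on `Ω` minus `a`; hence `|Ω| = |Q| + 1`, `|G| = |Q| |D| (|Q| + 1)`, some Sylow 2-subgroup of `G` lies in `Q`, and each `g ∉ G_a` is uniquely `x t y` with `x ∈ G_a`, `y ∈ Q` (canonical form). -/
theorem result {G Ω : Type*} [Group G] [Finite G] [MulAction G Ω] {a : Ω} {t : G} {Q : Subgroup G}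
    (hS : Cfsg.IsRankOneSetup G Ω a t Q) :
    (∀ b c : Ω, b ≠ a → c ≠ a → ∃! x : Q, (x : G) • b = c) ∧
      Nat.card Ω = Nat.card Q + 1 ∧
      Nat.card G = Nat.card Q * Nat.card ↥(MulAction.stabilizer G a ⊓ MulAction.stabilizer G (t • a)) * (Nat.card Q + 1) ∧
      (∃ P : Sylow 2 G, (P : Subgroup G) ≤ Q) ∧
      ∀ g : G, g ∉ MulAction.stabilizer G a → ∃! p : G × G, p.1 ∈ MulAction.stabilizer G a ∧ p.2 ∈ Q ∧ g = p.1 * t * p.2 := by
  refine ⟨exists_unique_Q hS, card_Omega hS, card_G hS, ?_, ?_⟩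
  · haveI : Fact (Nat.Prime 2) := ⟨Nat.prime_two⟩
    obtain ⟨P₀⟩ : Nonempty (Sylow 2 Q) := inferInstance
    have hcard : Nat.card ((P₀ : Subgroup Q).map Q.subtype) = 2 ^ (Nat.card G).factorization 2 := by
      rw [Subgroup.card_map_of_injective (Subgroup.subtype_injective Q), Sylow.card_eq_multiplicity,
        card_G hS]
      congr 1
      have hQ0 : Nat.card Q ≠ 0 := Nat.card_pos.ne'
      have hD0 : Nat.card ↥(MulAction.stabilizer G a ⊓ MulAction.stabilizer G (t • a)) ≠ 0 :=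
        Nat.card_pos.ne'
      rw [Nat.factorization_mul (mul_ne_zero hQ0 hD0) (Nat.succ_ne_zero _),
        Nat.factorization_mul hQ0 hD0]
      have h1 : (Nat.card ↥(MulAction.stabilizer G a ⊓ MulAction.stabilizer G (t • a))).factorization 2 = 0 := by
        apply Nat.factorization_eq_zero_of_not_dvd
        rw [← even_iff_two_dvd, Nat.not_even_iff_odd]
        exact hS.odd_card
      have h2 : (Nat.card Q + 1).factorization 2 = 0 := by
        apply Nat.factorization_eq_zero_of_not_dvd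
        rw [← even_iff_two_dvd, Nat.not_even_iff_odd]
        exact hS.even_card.add_one
      simp only [Finsupp.coe_add, Pi.add_apply, h1, h2, add_zero]
    refine ⟨Sylow.ofCard _ hcard, ?_⟩
    rw [Sylow.coe_ofCard]
    exact Subgroup.map_subtype_le _
  · intro g hg
    have hc : g⁻¹ • a ≠ a := by
      intro h
      apply hg
      rw [MulAction.mem_stabilizer_iff]
      have h0 := congrArg (fun w => g • w) h
      simp only [smul_inv_smul] at h0
      exact h0.symm
    obtain ⟨q, hq, hqa⟩ := exists_Q_smul hS hc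
    have tt := hS.mul_self
    refine ⟨(g * q * t, q⁻¹), ⟨?_, inv_mem hq, ?_⟩, ?_⟩
    · show g * q * t ∈ MulAction.stabilizer G a
      rw [MulAction.mem_stabilizer_iff, mul_smul, mul_smul, hqa, smul_inv_smul]
    · show g = g * q * t * t * q⁻¹
      rw [mul_assoc (g * q) t t, tt, mul_one, mul_assoc, mul_inv_cancel, mul_one]
    · rintro ⟨x', y'⟩ ⟨hx', hy', hgxy⟩
      have hx'' : x' ∈ MulAction.stabilizer G a := hx'
      have hy'' : y' ∈ Q := hy'
      have hgxy' : g = x' * t * y' := hgxy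
      have hx0 : g * q * t ∈ MulAction.stabilizer G a := by
        rw [MulAction.mem_stabilizer_iff, mul_smul, mul_smul, hqa, smul_inv_smul]
      obtain ⟨q₁, hq₁, d₁, hd₁, e₁⟩ := decomp hS hx''
      obtain ⟨q₂, hq₂, d₂, hd₂, e₂⟩ := decomp hS hx0
      have h1 : q₁ * d₁ * t * y' = q₂ * d₂ * t * q⁻¹ := by
        rw [← e₁, ← e₂, ← hgxy']
        rw [mul_assoc (g * q) t t, tt, mul_one, mul_assoc, mul_inv_cancel, mul_one]
      have h2 := canon_unique hS hq₁ hd₁ hy'' hq₂ hd₂ (inv_mem hq) h1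
      have h3 : x' = g * q * t := by rw [e₁, e₂, h2.1, h2.2.1]
      exact Prod.ext h3 h2.2.2

end Cfsg.Agent.S1119
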