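import Mathlib
import Cfsg.Statements.S1120
import Cfsg.Agent.Lib.Helper2.RankOneFix

set_option autoImplicit false
open Cfsg
open Cfsg.Agent.Lib.Helper2.RankOne Cfsg.Agent.Lib.Helper2.Isolated Cfsg.Agent.Lib.Helper2.InvDecomp
open Cfsg.Agent.Lib.Helper2.RankOneInv Cfsg.Agent.Lib.Helper2.RankOnePair Cfsg.Agent.Lib.Helper2.RankOneFix

namespace Cfsg.Agent.S1120

theorem no_involution_of_odd {H : Type*} [Group H] {N : Subgroup H} (hodd : Odd (Nat.card N))
    {s : H} (hs : s ∈ N) (hss : s * s = 1) : s = 1 := by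
  have h1 : Odd (orderOf s) := odd_orderOf_of_mem hodd hs
  apply eq_of_sq_eq_of_odd h1 (by rw [orderOf_one]; exact odd_one)
  rw [hss, one_mul]

theorem normal_odd_le {G Ω : Type*} [Group G] [Finite G] [MulAction G Ω] {a : Ω} {t : G}
    {Q : Subgroup G} (hS : Cfsg.IsRankOneSetup G Ω a t Q) {x y : G}
    (hx : x ∈ MulAction.stabilizer G a) (hx1 : x ≠ 1) (hxx : x * x = 1)
    (hy : y ∈ MulAction.stabilizer G a) (hy1 : y ≠ 1) (hyy : y * y = 1) (hxy : x ≠ y)
    (hcomm : x * y = y * x) (N : Subgroup G) [N.Normal] (hodd : Odd (Nat.card N)) :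
    N ≤ MulAction.stabilizer G a := by
  have hxi : x⁻¹ = x := inv_eq_self_of_mul_self hxx
  have hxa : x • a = a := MulAction.mem_stabilizer_iff.1 hx
  have hnorm : ∀ n ∈ N, x * n * x⁻¹ ∈ N := fun n hn => Subgroup.Normal.conj_mem inferInstance n hn x
  intro n hn
  obtain ⟨c, z, hcN, hcx, hzN, hzi, rfl⟩ := decomp_exists hxx hodd hnorm hn
  have hca : c ∈ MulAction.stabilizer G a :=
    MulAction.mem_stabilizer_iff.2 (fix_of_centralized hS hx1 hxx hxa hcx)
  refine mul_mem hca ?_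
  have huu : (z * x) * (z * x) = 1 := by
    have e : (z * x) * (z * x) = z * (x * z * x⁻¹) := by rw [hxi]; group
    rw [e, hzi, mul_inv_cancel]
  have hu1 : z * x ≠ 1 := by
    intro h
    have hzx : z = x := by
      have e : z = (z * x) * x⁻¹ := by group
      rw [e, h, one_mul, hxi]
    rw [hzx] at hzN
    exact hx1 (no_involution_of_odd hodd hzN hxx)
  by_contra hz
  have hu : z * x ∉ MulAction.stabilizer G a := by
    intro h
    apply hz
    have e : z = (z * x) * x⁻¹ := by group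
    rw [e]
    exact mul_mem h (inv_mem hx)
  obtain ⟨j, hj⟩ := odd_mul hS hy hy1 hyy hu hu1 huu
  have hpow : (y * (z * x)) ^ (2 * j + 1) = 1 := by rw [← hj]; exact pow_orderOf_eq_one _
  have hyx2 : (y * x) * (y * x) = 1 := by
    have e : (y * x) * (y * x) = y * (x * y) * x := by group
    rw [e, hcomm]
    have e2 : y * (y * x) * x = (y * y) * (x * x) := by group
    rw [e2, hyy, hxx, one_mul]
  have hq : (QuotientGroup.mk (y * (z * x)) : G ⧸ N) = QuotientGroup.mk (y * x) := by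
    rw [QuotientGroup.eq]
    have e : (y * (z * x))⁻¹ * (y * x) = x⁻¹ * z⁻¹ * x⁻¹⁻¹ := by group
    rw [e]
    exact Subgroup.Normal.conj_mem inferInstance _ (inv_mem hzN) _
  have hq2 : (QuotientGroup.mk (y * x) : G ⧸ N) ^ (2 * j + 1) = 1 := by
    rw [← hq, ← QuotientGroup.mk_pow, hpow, QuotientGroup.mk_one]
  have hq3 : (QuotientGroup.mk (y * x) : G ⧸ N) ^ 2 = 1 := by
    rw [← QuotientGroup.mk_pow, pow_two, hyx2, QuotientGroup.mk_one]
  have hq4 : (QuotientGroup.mk (y * x) : G ⧸ N) = 1 := by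
    rw [pow_succ, pow_mul, hq3, one_pow, one_mul] at hq2
    exact hq2
  have hyxN : y * x ∈ N := (QuotientGroup.eq_one_iff _).1 hq4
  have h1 := no_involution_of_odd hodd hyxN hyx2
  apply hxy
  have e : x = y⁻¹ * (y * x) := by group
  rw [e, h1, mul_one, inv_eq_self_of_mul_self hyy]

/-- In the rank-one set-up (`G` finite and doubly transitive on `Ω`, `t` an involution moving `a`, `Q` normal in `G_a` with `G_a = Q D`, `Q ⊓ D = 1` for the two-point stabiliser `D = G_a ⊓ G_{t • a}`, `|Q|` even, `|D|` odd), if `G` has 2-rank at least 2 then `O_{2'}(G)` equals the normal core of `G_a`. -/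
theorem result {G Ω : Type*} [Group G] [Finite G] [MulAction G Ω] {a : Ω} {t : G} {Q : Subgroup G}
    (hS : Cfsg.IsRankOneSetup G Ω a t Q)
    (h2 : ∃ x y : G, x ≠ 1 ∧ y ≠ 1 ∧ x ≠ y ∧ x * x = 1 ∧ y * y = 1 ∧ x * y = y * x) :
    Cfsg.pPrimeCore 2 G = (MulAction.stabilizer G a).normalCore := by
  obtain ⟨x₀, y₀, hx₀1, hy₀1, hxy₀, hxx₀, hyy₀, hcomm₀⟩ := h2
  have := pretrans hS
  obtain ⟨c, hc⟩ := exists_fixed hS hxx₀
  obtain ⟨g, hg⟩ := MulAction.exists_smul_eq G c a
  have hxa : (g * x₀ * g⁻¹) • a = a := by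
    rw [mul_smul, mul_smul, ← hg, inv_smul_smul, hc]
  have hxx : (g * x₀ * g⁻¹) * (g * x₀ * g⁻¹) = 1 := conj_mul_self hxx₀ g
  have hyy : (g * y₀ * g⁻¹) * (g * y₀ * g⁻¹) = 1 := conj_mul_self hyy₀ g
  have hx1 : g * x₀ * g⁻¹ ≠ 1 := by
    intro h
    apply hx₀1
    have e : x₀ = g⁻¹ * (g * x₀ * g⁻¹) * g := by group
    rw [e, h]; group
  have hy1 : g * y₀ * g⁻¹ ≠ 1 := by
    intro h
    apply hy₀1
    have e : y₀ = g⁻¹ * (g * y₀ * g⁻¹) * g := by group
    rw [e, h]; group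
  have hxy : g * x₀ * g⁻¹ ≠ g * y₀ * g⁻¹ := by
    intro h
    apply hxy₀
    have e : x₀ = g⁻¹ * (g * x₀ * g⁻¹) * g := by group
    rw [e, h]; group
  have hcomm : (g * x₀ * g⁻¹) * (g * y₀ * g⁻¹) = (g * y₀ * g⁻¹) * (g * x₀ * g⁻¹) := by
    have e1 : (g * x₀ * g⁻¹) * (g * y₀ * g⁻¹) = g * (x₀ * y₀) * g⁻¹ := by group
    rw [e1, hcomm₀]; group
  have hya : (g * y₀ * g⁻¹) • a = a := fix_of_centralized hS hx1 hxx hxa hcomm.symm
  apply le_antisymm
  · apply sSup_le
    rintro N ⟨hN, hNc⟩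
    rw [Nat.coprime_two_right] at hNc
    rw [Subgroup.normal_le_normalCore]
    exact normal_odd_le hS (MulAction.mem_stabilizer_iff.2 hxa) hx1 hxx
      (MulAction.mem_stabilizer_iff.2 hya) hy1 hyy hxy hcomm N hNc
  · apply le_sSup
    refine ⟨inferInstance, ?_⟩
    rw [Nat.coprime_two_right]
    by_contra hodd
    rw [Nat.not_odd_iff_even, even_iff_two_dvd] at hodd
    have : Fact (Nat.Prime 2) := ⟨Nat.prime_two⟩
    obtain ⟨s, hs⟩ := exists_prime_orderOf_dvd_card' 2 hodd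
    have hs2 : orderOf (s : G) = 2 := by rw [Subgroup.orderOf_coe]; exact hs
    have hss : (s : G) * (s : G) = 1 := mul_self_of_orderOf_two hs2
    have hs1 : (s : G) ≠ 1 := by
      intro h
      rw [h, orderOf_one] at hs2
      exact absurd hs2 (by decide)
    have hsa : (s : G) ∈ MulAction.stabilizer G a := Subgroup.normalCore_le _ s.2
    have hsQ : (s : G) ∈ Q := inv_mem_Q hS hsa hss
    have hconj : t⁻¹ * (s : G) * t⁻¹⁻¹ ∈ (MulAction.stabilizer G a).normalCore :=
      Subgroup.Normal.conj_mem inferInstance _ s.2 _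
    have hconj2 := Subgroup.normalCore_le _ hconj
    rw [inv_inv, t_inv hS, MulAction.mem_stabilizer_iff, mul_smul, mul_smul] at hconj2
    have hsb : (s : G) • (t • a) = t • a := by
      have h0 := congrArg (fun w => t • w) hconj2
      simp only [smul_smul t t, hS.mul_self, one_smul] at h0
      exact h0
    exact hs1 (semiregular hS hsQ (ta_ne hS) hsb)

end Cfsg.Agent.S1120
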