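import Mathlib
import Cfsg.Statements.S1122
import Cfsg.Agent.Lib.Helper2.RankOnePair

set_option autoImplicit false
open Cfsg
open Cfsg.Agent.Lib.Helper2.RankOne Cfsg.Agent.Lib.Helper2.Isolated Cfsg.Agent.Lib.Helper2.InvDecomp
open Cfsg.Agent.Lib.Helper2.RankOneInv Cfsg.Agent.Lib.Helper2.RankOnePair

namespace Cfsg.Agent.S1122

/-- In the rank-one set-up (`G` finite and doubly transitive on `Ω`, `t` an involution moving `a`, `Q` normal in `G_a` with `G_a = Q D`, `Q ⊓ D = 1` for the two-point stabiliser `D = G_a ⊓ G_{t • a}`, `|Q|` even, `|D|` odd), with `K` the set of elements of `D` inverted by `t`: `|K|` is the number of involutions of `G_a`, and for each involution `s` of `G_a` the `K`-conjugates of `s` are all the involutions of `G_a`. -/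
theorem result {G Ω : Type*} [Group G] [Finite G] [MulAction G Ω] {a : Ω} {t : G} {Q : Subgroup G}
    (hS : Cfsg.IsRankOneSetup G Ω a t Q) :
    Nat.card (Cfsg.invertedBy (MulAction.stabilizer G a ⊓ MulAction.stabilizer G (t • a)) t) = Nat.card (Cfsg.involutionsIn (MulAction.stabilizer G a : Set G)) ∧
      ∀ s ∈ Cfsg.involutionsIn (MulAction.stabilizer G a : Set G), ∀ s' ∈ Cfsg.involutionsIn (MulAction.stabilizer G a : Set G),
        ∃ k ∈ Cfsg.invertedBy (MulAction.stabilizer G a ⊓ MulAction.stabilizer G (t • a)) t, k⁻¹ * s * k = s' := by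
  obtain ⟨s₀, r₀, hs₀, hs₀1, hs₀s, -, -⟩ := pair_exists hS
  constructor
  · have hmem : ∀ k : ↥(Cfsg.invertedBy (MulAction.stabilizer G a ⊓ MulAction.stabilizer G (t • a)) t),
        (k : G)⁻¹ * s₀ * (k : G) ∈ Cfsg.involutionsIn (MulAction.stabilizer G a : Set G) := by
      intro k
      have hk1 := (Subgroup.mem_inf.1 k.2.1).1
      refine ⟨mul_mem (mul_mem (inv_mem hk1) hs₀) hk1, ?_, ?_⟩
      · intro h1
        apply hs₀1
        have e : s₀ = (k : G) * ((k : G)⁻¹ * s₀ * (k : G)) * (k : G)⁻¹ := by group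
        rw [e, h1]; group
      · have e : ((k : G)⁻¹ * s₀ * (k : G)) * ((k : G)⁻¹ * s₀ * (k : G)) =
            (k : G)⁻¹ * (s₀ * s₀) * (k : G) := by group
        rw [e, hs₀s]; group
    let φ : ↥(Cfsg.invertedBy (MulAction.stabilizer G a ⊓ MulAction.stabilizer G (t • a)) t) →
        ↥(Cfsg.involutionsIn (MulAction.stabilizer G a : Set G)) :=
      fun k => ⟨(k : G)⁻¹ * s₀ * (k : G), hmem k⟩
    have hinj : Function.Injective φ := by
      intro k k' h
      have h' : (k : G)⁻¹ * s₀ * (k : G) = (k' : G)⁻¹ * s₀ * (k' : G) := congrArg Subtype.val h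
      exact Subtype.ext (K_conj_inj hS hs₀ hs₀1 hs₀s k.2.1 k.2.2 k'.2.1 k'.2.2 h')
    have hsurj : Function.Surjective φ := by
      rintro ⟨s', hs', hs1', hss'⟩
      obtain ⟨k, hk, hki, hks⟩ := K_conj_exists hS hs₀ hs₀1 hs₀s hs' hs1' hss'
      exact ⟨⟨k, hk, hki⟩, Subtype.ext hks⟩
    exact Nat.card_congr (Equiv.ofBijective φ ⟨hinj, hsurj⟩)
  · intro s hs s' hs'
    obtain ⟨k, hk, hki, hks⟩ := K_conj_exists hS hs.1 hs.2.1 hs.2.2 hs'.1 hs'.2.1 hs'.2.2
    exact ⟨k, ⟨hk, hki⟩, hks⟩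

end Cfsg.Agent.S1122
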