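import Mathlib
import Cfsg.Statements.S1124
import Cfsg.Agent.Lib.Helper2.InvDecomp

set_option autoImplicit false
open scoped Pointwise
open Cfsg
open Cfsg.Agent.Lib.Helper2.Isolated Cfsg.Agent.Lib.Helper2.InvDecomp

namespace Cfsg.Agent.S1124

/-- Let `t` be an element of order 2 of a finite group normalising a subgroup `X` of odd order, `Y = C_X(t)` and `Z` the set of elements of `X` inverted by `t`. Then `(y, z) ↦ y z` is a bijection `Y × Z → X`, so `|X| = |Y| |Z|`, and the subgroup generated by `Z` is normal in `X`. -/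
theorem result {M : Type*} [Group M] [Finite M]
    (t : M) (ht : orderOf t = 2) (X : Subgroup M) (hodd : Odd (Nat.card X))
    (hnorm : ∀ x ∈ X, t * x * t⁻¹ ∈ X) :
    (∀ x ∈ X, ∃! p : M × M, p.1 ∈ X ⊓ Subgroup.centralizer {t} ∧ p.2 ∈ Cfsg.invertedBy X t ∧ x = p.1 * p.2) ∧
      Nat.card X = Nat.card ↥(X ⊓ Subgroup.centralizer {t}) * Nat.card (Cfsg.invertedBy X t) ∧
      ∀ x ∈ X, MulAut.conj x • Subgroup.closure (Cfsg.invertedBy X t) = Subgroup.closure (Cfsg.invertedBy X t) := by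
  have htt : t * t = 1 := mul_self_of_orderOf_two ht
  refine ⟨?_, card_decomp htt hodd hnorm, ?_⟩
  · intro x hx
    obtain ⟨y, z, hyX, hyt, hzX, hzi, rfl⟩ := decomp_exists htt hodd hnorm hx
    refine ⟨(y, z), ⟨Subgroup.mem_inf.2 ⟨hyX, by
      rw [Subgroup.mem_centralizer_singleton_iff]; exact hyt⟩, ⟨hzX, hzi⟩, rfl⟩, ?_⟩
    rintro ⟨y', z'⟩ ⟨hy', hz', h⟩
    have hy'' := (Subgroup.mem_inf.1 hy').2
    rw [Subgroup.mem_centralizer_singleton_iff] at hy''
    have h2 := decomp_unique htt hodd hyt hzX hzi hy'' hz'.1 hz'.2 h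
    exact Prod.ext h2.1.symm h2.2.symm
  · have key : ∀ x ∈ X, ∀ w ∈ Subgroup.closure (Cfsg.invertedBy X t),
        x * w * x⁻¹ ∈ Subgroup.closure (Cfsg.invertedBy X t) := by
      intro x hx w hw
      induction hw using Subgroup.closure_induction with
      | mem z hz =>
        obtain ⟨y, z₁, hyX, hyt, hz₁X, hz₁i, rfl⟩ := decomp_exists htt hodd hnorm hx
        have hconj : ∀ w ∈ Cfsg.invertedBy X t, y * w * y⁻¹ ∈ Cfsg.invertedBy X t := by
          rintro w ⟨hwX, hwi⟩
          refine ⟨X.mul_mem (X.mul_mem hyX hwX) (X.inv_mem hyX), ?_⟩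
          have e : t * (y * w * y⁻¹) * t⁻¹ = y * (t * w * t⁻¹) * y⁻¹ := by
            have e1 : t * y = y * t := hyt.symm
            have e2 : y⁻¹ * t⁻¹ = t⁻¹ * y⁻¹ := by rw [← mul_inv_rev, ← mul_inv_rev, e1]
            calc t * (y * w * y⁻¹) * t⁻¹ = (t * y) * w * (y⁻¹ * t⁻¹) := by group
              _ = (y * t) * w * (t⁻¹ * y⁻¹) := by rw [e1, e2]
              _ = y * (t * w * t⁻¹) * y⁻¹ := by group
          rw [e, hwi]; group
        have e : y * z₁ * z * (y * z₁)⁻¹ = (y * z₁ * y⁻¹) * (y * z * y⁻¹) * (y * z₁ * y⁻¹)⁻¹ := by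
          group
        rw [e]
        exact Subgroup.mul_mem _ (Subgroup.mul_mem _
          (Subgroup.subset_closure (hconj z₁ ⟨hz₁X, hz₁i⟩)) (Subgroup.subset_closure (hconj z hz)))
          (Subgroup.inv_mem _ (Subgroup.subset_closure (hconj z₁ ⟨hz₁X, hz₁i⟩)))
      | one =>
        have e : x * 1 * x⁻¹ = 1 := by group
        rw [e]; exact Subgroup.one_mem _
      | mul p q _ _ hp hq =>
        have e : x * (p * q) * x⁻¹ = (x * p * x⁻¹) * (x * q * x⁻¹) := by group
        rw [e]; exact Subgroup.mul_mem _ hp hq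
      | inv p _ hp =>
        have e : x * p⁻¹ * x⁻¹ = (x * p * x⁻¹)⁻¹ := by group
        rw [e]; exact Subgroup.inv_mem _ hp
    intro x hx
    ext w
    rw [Subgroup.mem_smul_pointwise_iff_exists]
    constructor
    · rintro ⟨s, hs, rfl⟩
      exact key x hx s hs
    · intro hw
      refine ⟨x⁻¹ * w * x, ?_, ?_⟩
      · have h1 := key x⁻¹ (X.inv_mem hx) w hw
        rw [inv_inv] at h1
        exact h1
      · show x * (x⁻¹ * w * x) * x⁻¹ = w
        group

end Cfsg.Agent.S1124
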