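import Mathlib
import Cfsg.Statements.S1125
import Cfsg.Agent.Lib.Helper2.RankOneFix

set_option autoImplicit false
open Cfsg
open Cfsg.Agent.Lib.Helper2.RankOne Cfsg.Agent.Lib.Helper2.Isolated Cfsg.Agent.Lib.Helper2.InvDecomp
open Cfsg.Agent.Lib.Helper2.RankOneInv Cfsg.Agent.Lib.Helper2.RankOnePair Cfsg.Agent.Lib.Helper2.RankOneFix

namespace Cfsg.Agent.S1125

/-- In the rank-one set-up (`G` finite and doubly transitive on `Ω`, `t` an involution moving `a`, `Q` normal in `G_a` with `G_a = Q D`, `Q ⊓ D = 1` for the two-point stabiliser `D = G_a ⊓ G_{t • a}`, `|Q|` even, `|D|` odd), let `X ⊆ D` fix at least three points of `Ω`. Then `C_G(X)` is doubly transitive on the fixed-point set of `X`, `|C_Q(X)|` is even, and `C_{G_a}(X) = C_Q(X) C_D(X)`. -/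
theorem result {G Ω : Type*} [Group G] [Finite G] [MulAction G Ω] {a : Ω} {t : G} {Q : Subgroup G}
    (hS : Cfsg.IsRankOneSetup G Ω a t Q)
    (X : Set G) (hX : X ⊆ ((MulAction.stabilizer G a ⊓ MulAction.stabilizer G (t • a)) : Set G))
    (h3 : ∃ b c d : Ω, b ≠ c ∧ b ≠ d ∧ c ≠ d ∧ ∀ x ∈ X, x • b = b ∧ x • c = c ∧ x • d = d) :
    (∀ b₁ b₂ c₁ c₂ : Ω, (∀ x ∈ X, x • b₁ = b₁ ∧ x • b₂ = b₂ ∧ x • c₁ = c₁ ∧ x • c₂ = c₂) →
        b₁ ≠ b₂ → c₁ ≠ c₂ → ∃ g ∈ Subgroup.centralizer X, g • b₁ = c₁ ∧ g • b₂ = c₂) ∧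
      Even (Nat.card ↥(Subgroup.centralizer X ⊓ Q)) ∧
      (Subgroup.centralizer X ⊓ Q) ⊔ (Subgroup.centralizer X ⊓ (MulAction.stabilizer G a ⊓ MulAction.stabilizer G (t • a))) = Subgroup.centralizer X ⊓ MulAction.stabilizer G a := by
  obtain ⟨p₁, p₂, p₃, h12, h13, h23, hfix⟩ := h3
  have hXa : ∀ x ∈ X, x • a = a := fun x hx =>
    MulAction.mem_stabilizer_iff.1 (Subgroup.mem_inf.1 (hX hx)).1
  have hXb : ∀ x ∈ X, x • (t • a) = t • a := fun x hx =>
    MulAction.mem_stabilizer_iff.1 (Subgroup.mem_inf.1 (hX hx)).2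
  have stepA : ∀ p p' : Ω, (∀ x ∈ X, x • p = p) → (∀ x ∈ X, x • p' = p') →
      ∃ h ∈ Subgroup.centralizer X, h • p = p' := by
    intro p p' hp hp'
    by_cases hpp : p = p'
    · exact ⟨1, one_mem _, by rw [one_smul, hpp]⟩
    · have hthird : ∃ e : Ω, (∀ x ∈ X, x • e = e) ∧ e ≠ p ∧ e ≠ p' := by
        by_cases e1 : p₁ ≠ p ∧ p₁ ≠ p'
        · exact ⟨p₁, fun x hx => (hfix x hx).1, e1.1, e1.2⟩
        by_cases e2 : p₂ ≠ p ∧ p₂ ≠ p'
        · exact ⟨p₂, fun x hx => (hfix x hx).2.1, e2.1, e2.2⟩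
        refine ⟨p₃, fun x hx => (hfix x hx).2.2, ?_, ?_⟩
        · intro h
          subst h
          by_cases q1 : p₁ = p'
          · by_cases q2 : p₂ = p'
            · exact h12 (q1.trans q2.symm)
            · exact e2 ⟨h23, q2⟩
          · exact e1 ⟨h13, q1⟩
        · intro h
          subst h
          by_cases q1 : p₁ = p
          · by_cases q2 : p₂ = p
            · exact h12 (q1.trans q2.symm)
            · exact e2 ⟨q2, h23⟩
          · exact e1 ⟨q1, h13⟩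
      obtain ⟨e, he, hep, hep'⟩ := hthird
      obtain ⟨h, hh, _, h2⟩ := T hS (c := e) (c' := p) (c'' := p') he hp hp' (Ne.symm hep)
        (Ne.symm hep')
      exact ⟨h, hh, h2⟩
  have part1 : ∀ b₁ b₂ c₁ c₂ : Ω,
      (∀ x ∈ X, x • b₁ = b₁ ∧ x • b₂ = b₂ ∧ x • c₁ = c₁ ∧ x • c₂ = c₂) →
      b₁ ≠ b₂ → c₁ ≠ c₂ → ∃ g ∈ Subgroup.centralizer X, g • b₁ = c₁ ∧ g • b₂ = c₂ := by
    intro b₁ b₂ c₁ c₂ hall hb hc
    obtain ⟨h₁, hh₁, e₁⟩ := stepA b₁ c₁ (fun x hx => (hall x hx).1) (fun x hx => (hall x hx).2.2.1)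
    have hfix2 : ∀ x ∈ X, x • (h₁ • b₂) = h₁ • b₂ := by
      intro x hx
      rw [← mul_smul, (Subgroup.mem_centralizer_iff.1 hh₁) x hx, mul_smul, (hall x hx).2.1]
    have hne : h₁ • b₂ ≠ c₁ := by
      rw [← e₁]
      intro h
      exact hb (smul_left_cancel h₁ h).symm
    obtain ⟨h₂, hh₂, e₂, e₃⟩ := T hS (c := c₁) (c' := h₁ • b₂) (c'' := c₂)
      (fun x hx => (hall x hx).2.2.1) hfix2 (fun x hx => (hall x hx).2.2.2) hne hc.symm
    exact ⟨h₂ * h₁, mul_mem hh₂ hh₁, by rw [mul_smul, e₁, e₂], by rw [mul_smul, e₃]⟩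
  refine ⟨part1, ?_, ?_⟩
  · obtain ⟨h, hh, e1, e2⟩ := part1 a (t • a) (t • a) a
      (fun x hx => ⟨hXa x hx, hXb x hx, hXb x hx, hXa x hx⟩) (ta_ne hS).symm (ta_ne hS)
    obtain ⟨m, hu1, huu, hua, hub⟩ := swap_involution hS (ta_ne hS).symm e1 e2
    have huC : h ^ m ∈ Subgroup.centralizer X := pow_mem hh m
    obtain ⟨c, hc⟩ := exists_fixed hS huu
    have hcX : ∀ x ∈ X, x • c = c := fun x hx =>
      fix_of_centralized hS hu1 huu hc ((Subgroup.mem_centralizer_iff.1 huC) x hx)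
    obtain ⟨h', hh', e'⟩ := stepA c a hcX hXa
    have hsC : h' * h ^ m * h'⁻¹ ∈ Subgroup.centralizer X :=
      mul_mem (mul_mem hh' huC) (inv_mem hh')
    have hsa : (h' * h ^ m * h'⁻¹) • a = a := by
      rw [mul_smul, mul_smul, ← e', inv_smul_smul, hc]
    have hss : (h' * h ^ m * h'⁻¹) * (h' * h ^ m * h'⁻¹) = 1 := conj_mul_self huu h'
    have hs1 : h' * h ^ m * h'⁻¹ ≠ 1 := by
      intro h0
      apply hu1
      have e : h ^ m = h'⁻¹ * (h' * h ^ m * h'⁻¹) * h' := by group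
      rw [e, h0]; group
    have hsQ : h' * h ^ m * h'⁻¹ ∈ Q := inv_mem_Q hS (MulAction.mem_stabilizer_iff.2 hsa) hss
    have hmem : h' * h ^ m * h'⁻¹ ∈ Subgroup.centralizer X ⊓ Q := Subgroup.mem_inf.2 ⟨hsC, hsQ⟩
    have : Fact (Nat.Prime 2) := ⟨Nat.prime_two⟩
    have h2 : orderOf (h' * h ^ m * h'⁻¹) = 2 :=
      orderOf_eq_prime (by rw [pow_two]; exact hss) hs1
    have h3 := Subgroup.orderOf_dvd_natCard _ hmem
    rw [h2] at h3
    exact even_iff_two_dvd.2 h3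
  · apply le_antisymm
    · apply sup_le
      · exact inf_le_inf_left _ hS.le
      · exact inf_le_inf_left _ inf_le_left
    · intro g hg
      obtain ⟨hgC, hga⟩ := Subgroup.mem_inf.1 hg
      have hga' : g • a = a := MulAction.mem_stabilizer_iff.1 hga
      have hgb : ∀ x ∈ X, x • (g • (t • a)) = g • (t • a) := by
        intro x hx
        rw [← mul_smul, (Subgroup.mem_centralizer_iff.1 hgC) x hx, mul_smul, hXb x hx]
      have hne : g • (t • a) ≠ a := by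
        intro h
        apply ta_ne hS
        exact smul_left_cancel g (h.trans hga'.symm)
      obtain ⟨q, hq, hqb, hqX⟩ := T0 hS (Y := X)
        (fun y hy => (Subgroup.mem_inf.1 (hX hy)).1) (ta_ne hS) hne hXb hgb
      have hqC : q ∈ Subgroup.centralizer X := by
        rw [Subgroup.mem_centralizer_iff]
        exact hqX
      have hd : q⁻¹ * g ∈ Subgroup.centralizer X ⊓
          (MulAction.stabilizer G a ⊓ MulAction.stabilizer G (t • a)) := by
        refine Subgroup.mem_inf.2 ⟨mul_mem (inv_mem hqC) hgC,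
          Subgroup.mem_inf.2 ⟨mul_mem (inv_mem (hS.le hq)) hga, ?_⟩⟩
        rw [MulAction.mem_stabilizer_iff, mul_smul, ← hqb, inv_smul_smul]
      have e : g = q * (q⁻¹ * g) := by group
      rw [e]
      exact Subgroup.mul_mem_sup (Subgroup.mem_inf.2 ⟨hqC, hq⟩) hd

end Cfsg.Agent.S1125
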