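import Mathlib
import Cfsg.Statements.S1126
import Cfsg.Agent.Lib.Helper2.RankOneFix
import Cfsg.Agent.S1125

set_option autoImplicit false
open Cfsg
open Cfsg.Agent.Lib.Helper2.RankOne Cfsg.Agent.Lib.Helper2.Isolated Cfsg.Agent.Lib.Helper2.InvDecomp
open Cfsg.Agent.Lib.Helper2.RankOneInv Cfsg.Agent.Lib.Helper2.RankOnePair Cfsg.Agent.Lib.Helper2.RankOneFix

namespace Cfsg.Agent.S1126

/-- In the rank-one set-up (`G` finite and doubly transitive on `Ω`, `t` an involution moving `a`, `Q` normal in `G_a` with `G_a = Q D`, `Q ⊓ D = 1` for the two-point stabiliser `D = G_a ⊓ G_{t • a}`, `|Q|` even, `|D|` odd), a subset `X ⊆ D` fixing at least three points of `Ω` is conjugate by an element of `D` into `V = C_D(t)`. -/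
theorem result {G Ω : Type*} [Group G] [Finite G] [MulAction G Ω] {a : Ω} {t : G} {Q : Subgroup G}
    (hS : Cfsg.IsRankOneSetup G Ω a t Q)
    (X : Set G) (hX : X ⊆ ((MulAction.stabilizer G a ⊓ MulAction.stabilizer G (t • a)) : Set G))
    (h3 : ∃ b c d : Ω, b ≠ c ∧ b ≠ d ∧ c ≠ d ∧ ∀ x ∈ X, x • b = b ∧ x • c = c ∧ x • d = d) :
    ∃ k ∈ (MulAction.stabilizer G a ⊓ MulAction.stabilizer G (t • a)), ∀ x ∈ X, (k * x * k⁻¹) * t = t * (k * x * k⁻¹) := by
  obtain ⟨part1, -, -⟩ := Cfsg.Agent.S1125.result hS X hX h3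
  have hXa : ∀ x ∈ X, x • a = a := fun x hx =>
    MulAction.mem_stabilizer_iff.1 (Subgroup.mem_inf.1 (hX hx)).1
  have hXb : ∀ x ∈ X, x • (t • a) = t • a := fun x hx =>
    MulAction.mem_stabilizer_iff.1 (Subgroup.mem_inf.1 (hX hx)).2
  have tt := hS.mul_self
  have ti := t_inv hS
  have tt' : ∀ w : G, t * (t * w) = w := fun w => by rw [← mul_assoc, tt, one_mul]
  obtain ⟨h, hh, e1, e2⟩ := part1 a (t • a) (t • a) a
    (fun x hx => ⟨hXa x hx, hXb x hx, hXb x hx, hXa x hx⟩) (ta_ne hS).symm (ta_ne hS)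
  obtain ⟨m, hu1, huu, hua, hub⟩ := swap_involution hS (ta_ne hS).symm e1 e2
  have huC : h ^ m ∈ Subgroup.centralizer X := pow_mem hh m
  generalize h ^ m = u at hu1 huu hua hub huC
  have hui : u⁻¹ = u := inv_eq_self_of_mul_self huu
  have hk1D : t * u ∈ MulAction.stabilizer G a ⊓ MulAction.stabilizer G (t • a) := by
    refine Subgroup.mem_inf.2 ⟨?_, ?_⟩
    · rw [MulAction.mem_stabilizer_iff, mul_smul, hua, tta hS]
    · rw [MulAction.mem_stabilizer_iff, mul_smul, hub]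
  have hk1i : t * (t * u) * t⁻¹ = (t * u)⁻¹ := by
    rw [mul_inv_rev, hui, ti]
    simp only [mul_assoc, tt']
  have htu : t * (t * u) = u := tt' u
  obtain ⟨j, hj⟩ := odd_orderOf_of_mem hS.odd_card hk1D
  generalize t * u = k₁ at hk1D hk1i htu hj
  have hmm : k₁ ^ (j + 1) * k₁ ^ (j + 1) = k₁ := by
    rw [← pow_add]
    have e : j + 1 + (j + 1) = orderOf k₁ + 1 := by omega
    rw [e, pow_succ, pow_orderOf_eq_one, one_mul]
  have hmi : t * k₁ ^ (j + 1) * t⁻¹ = (k₁ ^ (j + 1))⁻¹ := inverts_pow hk1i _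
  have hmD : k₁ ^ (j + 1) ∈ MulAction.stabilizer G a ⊓ MulAction.stabilizer G (t • a) :=
    pow_mem hk1D _
  generalize k₁ ^ (j + 1) = mm at hmm hmi hmD
  have hu : mm⁻¹ * t * mm = u := by
    have e : mm⁻¹ * t = t * mm := by
      rw [← hmi, ti]
      simp only [mul_assoc, tt, mul_one]
    rw [e, mul_assoc, hmm, htu]
  have ht : t = mm * u * mm⁻¹ := by
    rw [← hu]; group
  refine ⟨mm, hmD, ?_⟩
  intro x hx
  have hxu : x * u = u * x := (Subgroup.mem_centralizer_iff.1 huC) x hx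
  calc (mm * x * mm⁻¹) * t = (mm * x * mm⁻¹) * (mm * u * mm⁻¹) :=
        congrArg (fun w => (mm * x * mm⁻¹) * w) ht
    _ = mm * (x * u) * mm⁻¹ := by group
    _ = mm * (u * x) * mm⁻¹ := by rw [hxu]
    _ = (mm * u * mm⁻¹) * (mm * x * mm⁻¹) := by group
    _ = t * (mm * x * mm⁻¹) := (congrArg (fun w => w * (mm * x * mm⁻¹)) ht).symm

end Cfsg.Agent.S1126
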