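import Mathlib
import Cfsg.Statements.S1127
import Cfsg.Agent.Lib.Helper2.RankOnePair

set_option autoImplicit false
open Cfsg
open Cfsg.Agent.Lib.Helper2.RankOne Cfsg.Agent.Lib.Helper2.Isolated Cfsg.Agent.Lib.Helper2.InvDecomp
open Cfsg.Agent.Lib.Helper2.RankOneInv Cfsg.Agent.Lib.Helper2.RankOnePair

namespace Cfsg.Agent.S1127

/-- In the rank-one set-up (`G` finite and doubly transitive on `Ω`, `t` an involution moving `a`, `Q` normal in `G_a` with `G_a = Q D`, `Q ⊓ D = 1` for the two-point stabiliser `D = G_a ⊓ G_{t • a}`, `|Q|` even, `|D|` odd): if `s` is an involution of `G_a` and `r ∈ Q` satisfy `t s t = r⁻¹ t r`, then `C_D(t) = C_D(s)`; moreover `C_D(t) ⊓ C_D(K) = C_D(I ∩ G_a)`, where `K` is the set of elements of `D` inverted by `t` and `I ∩ G_a` the set of involutions of `G_a`. -/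
theorem result {G Ω : Type*} [Group G] [Finite G] [MulAction G Ω] {a : Ω} {t : G} {Q : Subgroup G}
    (hS : Cfsg.IsRankOneSetup G Ω a t Q) :
    (∀ s r : G, s ∈ Cfsg.involutionsIn (MulAction.stabilizer G a : Set G) → r ∈ Q → t * s * t = r⁻¹ * t * r →
        (MulAction.stabilizer G a ⊓ MulAction.stabilizer G (t • a)) ⊓ Subgroup.centralizer {t} = (MulAction.stabilizer G a ⊓ MulAction.stabilizer G (t • a)) ⊓ Subgroup.centralizer {s}) ∧
      (MulAction.stabilizer G a ⊓ MulAction.stabilizer G (t • a)) ⊓ Subgroup.centralizer {t} ⊓ Subgroup.centralizer (Cfsg.invertedBy (MulAction.stabilizer G a ⊓ MulAction.stabilizer G (t • a)) t) =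
        (MulAction.stabilizer G a ⊓ MulAction.stabilizer G (t • a)) ⊓ Subgroup.centralizer (Cfsg.involutionsIn (MulAction.stabilizer G a : Set G)) := by
  have part1 : ∀ s r : G, s ∈ Cfsg.involutionsIn (MulAction.stabilizer G a : Set G) → r ∈ Q →
      t * s * t = r⁻¹ * t * r →
      (MulAction.stabilizer G a ⊓ MulAction.stabilizer G (t • a)) ⊓ Subgroup.centralizer {t} =
        (MulAction.stabilizer G a ⊓ MulAction.stabilizer G (t • a)) ⊓ Subgroup.centralizer {s} := by
    rintro s r ⟨hs, hs1, hss⟩ hr h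
    have le1 : (MulAction.stabilizer G a ⊓ MulAction.stabilizer G (t • a)) ⊓ Subgroup.centralizer {t} ≤
        (MulAction.stabilizer G a ⊓ MulAction.stabilizer G (t • a)) ⊓ Subgroup.centralizer {s} := by
      intro d hd
      obtain ⟨hdD, hdt⟩ := Subgroup.mem_inf.1 hd
      rw [Subgroup.mem_centralizer_singleton_iff] at hdt
      replace hdt : t * d = d * t := hdt.symm
      obtain ⟨hd1, hd2⟩ := Subgroup.mem_inf.1 hdD
      refine Subgroup.mem_inf.2 ⟨hdD, ?_⟩
      rw [Subgroup.mem_centralizer_singleton_iff]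
      have e2 : d⁻¹ * t = t * d⁻¹ := by
        have e0 : d⁻¹ * t = d⁻¹ * (t * d) * d⁻¹ := by group
        rw [e0, hdt]; group
      have e : t * (d * s * d⁻¹) * t = (d * r * d⁻¹)⁻¹ * t * (d * r * d⁻¹) := by
        calc t * (d * s * d⁻¹) * t = (t * d) * s * (d⁻¹ * t) := by group
          _ = (d * t) * s * (t * d⁻¹) := by rw [hdt, e2]
          _ = d * (t * s * t) * d⁻¹ := by group
          _ = d * (r⁻¹ * t * r) * d⁻¹ := by rw [h]
          _ = d * r⁻¹ * (t * d⁻¹) * (d * r * d⁻¹) := by group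
          _ = d * r⁻¹ * (d⁻¹ * t) * (d * r * d⁻¹) := by rw [e2]
          _ = (d * r * d⁻¹)⁻¹ * t * (d * r * d⁻¹) := by group
      have h2 := pair_unique hS hs hr h (mul_mem (mul_mem hd1 hs) (inv_mem hd1))
        (hS.conj_mem d hd1 r hr) e
      have e3 : s * d = (d * s * d⁻¹) * d := by rw [← h2.1]
      rw [e3]; group
    apply le_antisymm le1
    intro d hd
    obtain ⟨hdD, hds⟩ := Subgroup.mem_inf.1 hd
    rw [Subgroup.mem_centralizer_singleton_iff] at hds
    have hnorm : ∀ x ∈ MulAction.stabilizer G a ⊓ MulAction.stabilizer G (t • a),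
        t * x * t⁻¹ ∈ MulAction.stabilizer G a ⊓ MulAction.stabilizer G (t • a) := by
      intro x hx
      rw [t_inv hS]
      exact t_conj_mem hS hx
    obtain ⟨y, z, hyD, hyt, hzD, hzi, rfl⟩ := decomp_exists hS.mul_self hS.odd_card hnorm hdD
    have hy : y ∈ (MulAction.stabilizer G a ⊓ MulAction.stabilizer G (t • a)) ⊓
        Subgroup.centralizer {t} := by
      refine Subgroup.mem_inf.2 ⟨hyD, ?_⟩
      rw [Subgroup.mem_centralizer_singleton_iff]
      exact hyt
    have hys := (Subgroup.mem_inf.1 (le1 hy)).2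
    rw [Subgroup.mem_centralizer_singleton_iff] at hys
    replace hys : s * y = y * s := hys.symm
    replace hds : s * (y * z) = (y * z) * s := hds.symm
    have hsz : s * z = z * s := by
      have e0 : y * (s * z) = y * (z * s) := by
        calc y * (s * z) = (y * s) * z := by group
          _ = (s * y) * z := by rw [hys]
          _ = s * (y * z) := by group
          _ = (y * z) * s := by rw [hds]
          _ = y * (z * s) := by group
      exact mul_left_cancel e0
    have e : z⁻¹ * s * z = (1 : G)⁻¹ * s * 1 := by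
      have e0 : z⁻¹ * s * z = z⁻¹ * (s * z) := by group
      rw [e0, hsz]; group
    have hz1 : z = 1 := K_conj_inj hS hs hs1 hss hzD hzi (one_mem _) (by simp) e
    rw [hz1, mul_one]
    exact hy
  refine ⟨part1, ?_⟩
  obtain ⟨s, r, hs, hs1, hss, hr, h⟩ := pair_exists hS
  have p1 := part1 s r ⟨hs, hs1, hss⟩ hr h
  apply le_antisymm
  · intro d hd
    obtain ⟨hd12, hdK⟩ := Subgroup.mem_inf.1 hd
    rw [p1] at hd12
    obtain ⟨hdD, hds⟩ := Subgroup.mem_inf.1 hd12
    refine Subgroup.mem_inf.2 ⟨hdD, ?_⟩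
    rw [Subgroup.mem_centralizer_iff]
    rintro s' ⟨hs', hs1', hss'⟩
    obtain ⟨k, hk, hki, hks⟩ := K_conj_exists hS hs hs1 hss hs' hs1' hss'
    rw [Subgroup.mem_centralizer_iff] at hdK
    have hkd : k * d = d * k := hdK k ⟨hk, hki⟩
    rw [Subgroup.mem_centralizer_singleton_iff] at hds
    replace hds : s * d = d * s := hds.symm
    rw [← hks]
    have hkd' : k⁻¹ * d = d * k⁻¹ := by
      have e0 : k⁻¹ * d = k⁻¹ * (d * k) * k⁻¹ := by group
      rw [e0, ← hkd]; group
    calc k⁻¹ * s * k * d = k⁻¹ * s * (k * d) := by group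
      _ = k⁻¹ * s * (d * k) := by rw [hkd]
      _ = k⁻¹ * (s * d) * k := by group
      _ = k⁻¹ * (d * s) * k := by rw [hds]
      _ = (k⁻¹ * d) * s * k := by group
      _ = (d * k⁻¹) * s * k := by rw [hkd']
      _ = d * (k⁻¹ * s * k) := by group
  · intro d hd
    obtain ⟨hdD, hdI⟩ := Subgroup.mem_inf.1 hd
    rw [Subgroup.mem_centralizer_iff] at hdI
    have hds : s * d = d * s := hdI s ⟨hs, hs1, hss⟩
    have hdDt : d ∈ (MulAction.stabilizer G a ⊓ MulAction.stabilizer G (t • a)) ⊓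
        Subgroup.centralizer {t} := by
      rw [p1]
      refine Subgroup.mem_inf.2 ⟨hdD, ?_⟩
      rw [Subgroup.mem_centralizer_singleton_iff]
      exact hds.symm
    refine Subgroup.mem_inf.2 ⟨hdDt, ?_⟩
    rw [Subgroup.mem_centralizer_iff]
    rintro k ⟨hk, hki⟩
    have hdt := (Subgroup.mem_inf.1 hdDt).2
    rw [Subgroup.mem_centralizer_singleton_iff] at hdt
    replace hdt : t * d = d * t := hdt.symm
    have hk1 := (Subgroup.mem_inf.1 hk).1
    have hk' : d * k * d⁻¹ ∈ MulAction.stabilizer G a ⊓ MulAction.stabilizer G (t • a) :=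
      mul_mem (mul_mem hdD hk) (inv_mem hdD)
    have hki' : t * (d * k * d⁻¹) * t⁻¹ = (d * k * d⁻¹)⁻¹ := by
      have e2 : d⁻¹ * t⁻¹ = t⁻¹ * d⁻¹ := by rw [← mul_inv_rev, ← mul_inv_rev, hdt]
      calc t * (d * k * d⁻¹) * t⁻¹ = (t * d) * k * (d⁻¹ * t⁻¹) := by group
        _ = (d * t) * k * (t⁻¹ * d⁻¹) := by rw [hdt, e2]
        _ = d * (t * k * t⁻¹) * d⁻¹ := by group
        _ = d * k⁻¹ * d⁻¹ := by rw [hki]
        _ = (d * k * d⁻¹)⁻¹ := by group
    have hks' : k⁻¹ * s * k ∈ Cfsg.involutionsIn (MulAction.stabilizer G a : Set G) := by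
      refine ⟨mul_mem (mul_mem (inv_mem hk1) hs) hk1, ?_, ?_⟩
      · intro h1
        apply hs1
        have e : s = k * (k⁻¹ * s * k) * k⁻¹ := by group
        rw [e, h1]; group
      · have e : (k⁻¹ * s * k) * (k⁻¹ * s * k) = k⁻¹ * (s * s) * k := by group
        rw [e, hss]; group
    have hcomm := hdI (k⁻¹ * s * k) hks'
    have e : (d * k * d⁻¹)⁻¹ * s * (d * k * d⁻¹) = k⁻¹ * s * k := by
      have e1 : d⁻¹ * s * d = s := by
        have e0 : d⁻¹ * s * d = d⁻¹ * (s * d) := by group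
        rw [e0, hds]; group
      calc (d * k * d⁻¹)⁻¹ * s * (d * k * d⁻¹) = d * k⁻¹ * (d⁻¹ * s * d) * k * d⁻¹ := by group
        _ = d * k⁻¹ * s * k * d⁻¹ := by rw [e1]
        _ = d * (k⁻¹ * s * k) * d⁻¹ := by group
        _ = (k⁻¹ * s * k) * d * d⁻¹ := by rw [← hcomm]
        _ = k⁻¹ * s * k := by group
    have h3 := K_conj_inj hS hs hs1 hss hk' hki' hk hki e
    have e4 : k * d = (d * k * d⁻¹) * d := by rw [h3]
    rw [e4]; group

end Cfsg.Agent.S1127
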