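import Mathlib
import Cfsg.Statements.S1128
import Cfsg.Agent.Lib.Helper2.RankOneFix
import Cfsg.Agent.S1125

set_option autoImplicit false
open Cfsg
open Cfsg.Agent.Lib.Helper2.RankOne Cfsg.Agent.Lib.Helper2.Isolated Cfsg.Agent.Lib.Helper2.InvDecomp
open Cfsg.Agent.Lib.Helper2.RankOneInv Cfsg.Agent.Lib.Helper2.RankOnePair Cfsg.Agent.Lib.Helper2.RankOneFix

namespace Cfsg.Agent.S1128

theorem eq_one_of_conj_inv_of_odd {H : Type*} [Group H] {k x : H} (hk : Odd (orderOf k))
    (hx : Odd (orderOf x)) (h : k * x * k⁻¹ = x⁻¹) : x = 1 := by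
  have h2 : (k * k) * x = x * (k * k) := by
    have e1 : k * x = x⁻¹ * k := by
      have e0 : k * x = (k * x * k⁻¹) * k := by group
      rw [e0, h]
    have e2 : k * x⁻¹ = x * k := by
      have e0 : k * x⁻¹ = (k * x * k⁻¹)⁻¹ * k := by group
      rw [e0, h, inv_inv]
    calc (k * k) * x = k * (k * x) := by group
      _ = k * (x⁻¹ * k) := by rw [e1]
      _ = (k * x⁻¹) * k := by group
      _ = (x * k) * k := by rw [e2]
      _ = x * (k * k) := by group
  have hc : Commute (k * k) x := h2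
  obtain ⟨j, hj⟩ := hk
  have hkk : (k * k) ^ (j + 1) = k := by
    rw [← pow_two, ← pow_mul]
    have e : 2 * (j + 1) = orderOf k + 1 := by omega
    rw [e, pow_succ, pow_orderOf_eq_one, one_mul]
  have hc2 : Commute k x := by
    have h3 := hc.pow_left (j + 1)
    rw [hkk] at h3
    exact h3
  have h4 : x = x⁻¹ := by
    rw [← h, hc2.eq]; group
  have h5 : x * x = 1 * 1 := by
    rw [one_mul]
    nth_rewrite 1 [h4]
    exact inv_mul_cancel x
  exact Cfsg.Agent.Lib.Helper2.Isolated.eq_of_sq_eq_of_odd hx (by rw [orderOf_one]; exact odd_one) h5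

/-- In the rank-one set-up (`G` finite and doubly transitive on `Ω`, `t` an involution moving `a`, `Q` normal in `G_a` with `G_a = Q D`, `Q ⊓ D = 1` for the two-point stabiliser `D = G_a ⊓ G_{t • a}`, `|Q|` even, `|D|` odd), with the action faithful and `G` containing two distinct commuting involutions: every non-identity element of `D` inverted by `t` acts fixed-point-freely on `Q`. -/
theorem result {G Ω : Type*} [Group G] [Finite G] [MulAction G Ω] [FaithfulSMul G Ω] {a : Ω} {t : G} {Q : Subgroup G}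
    (hS : Cfsg.IsRankOneSetup G Ω a t Q)
    (h2 : ∃ x y : G, x ≠ 1 ∧ y ≠ 1 ∧ x ≠ y ∧ x * x = 1 ∧ y * y = 1 ∧ x * y = y * x)
    (x : G) (hx : x ∈ Cfsg.invertedBy (MulAction.stabilizer G a ⊓ MulAction.stabilizer G (t • a)) t) (hx1 : x ≠ 1) :
    Q ⊓ Subgroup.centralizer {x} = ⊥ := by
  obtain ⟨hxD, hxi⟩ := hx
  rw [Subgroup.eq_bot_iff_forall]
  intro q hq
  obtain ⟨hqQ, hqx⟩ := Subgroup.mem_inf.1 hq
  rw [Subgroup.mem_centralizer_singleton_iff] at hqx
  by_contra hq1
  have hxa : x • a = a := MulAction.mem_stabilizer_iff.1 (Subgroup.mem_inf.1 hxD).1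
  have hxb : x • (t • a) = t • a := MulAction.mem_stabilizer_iff.1 (Subgroup.mem_inf.1 hxD).2
  have h3pt : q • (t • a) ≠ t • a := by
    intro h
    exact hq1 (semiregular hS hqQ (ta_ne hS) h)
  have h3a : q • (t • a) ≠ a := q_smul_ne hS hqQ
  have hx3 : x • (q • (t • a)) = q • (t • a) := by
    rw [← mul_smul, ← hqx, mul_smul, hxb]
  have hXD : ({x} : Set G) ⊆ ((MulAction.stabilizer G a ⊓ MulAction.stabilizer G (t • a) : Subgroup G) : Set G) := by
    intro y hy
    rw [Set.mem_singleton_iff] at hy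
    rw [hy]
    exact hxD
  obtain ⟨part1, -, -⟩ := Cfsg.Agent.S1125.result hS ({x} : Set G) hXD
    ⟨a, t • a, q • (t • a), (ta_ne hS).symm, h3a.symm, h3pt.symm, by
      intro y hy
      rw [Set.mem_singleton_iff] at hy
      rw [hy]
      exact ⟨hxa, hxb, hx3⟩⟩
  obtain ⟨h, hh, e1, e2⟩ := part1 a (t • a) (t • a) a (by
      intro y hy
      rw [Set.mem_singleton_iff] at hy
      rw [hy]
      exact ⟨hxa, hxb, hxb, hxa⟩) (ta_ne hS).symm (ta_ne hS)
  obtain ⟨m, hu1, huu, hua, hub⟩ := swap_involution hS (ta_ne hS).symm e1 e2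
  have huC : h ^ m ∈ Subgroup.centralizer ({x} : Set G) := pow_mem hh m
  generalize h ^ m = u at hu1 huu hua hub huC
  have hxu : x * u = u * x := (Subgroup.mem_centralizer_iff.1 huC) x rfl
  have hk1D : t * u ∈ MulAction.stabilizer G a ⊓ MulAction.stabilizer G (t • a) := by
    refine Subgroup.mem_inf.2 ⟨?_, ?_⟩
    · rw [MulAction.mem_stabilizer_iff, mul_smul, hua, tta hS]
    · rw [MulAction.mem_stabilizer_iff, mul_smul, hub]
  have hk : (t * u) * x * (t * u)⁻¹ = x⁻¹ := by
    have e : (t * u) * x * (t * u)⁻¹ = t * (u * x * u⁻¹) * t⁻¹ := by group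
    rw [e, ← hxu, mul_inv_cancel_right, hxi]
  exact hx1 (eq_one_of_conj_inv_of_odd (odd_orderOf_of_mem hS.odd_card hk1D)
    (odd_orderOf_of_mem hS.odd_card hxD) hk)

end Cfsg.Agent.S1128
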