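import Mathlib
import Cfsg.Statements.S1166
import Cfsg.Agent.Lib.Helper2.RankOne

set_option autoImplicit false
open Cfsg
open Cfsg.Agent.Lib.Helper2.RankOne

namespace Cfsg.Agent.S1166

/-- In the rank-one set-up (`G` finite and doubly transitive on `Ω`, `t` an involution moving `a`, `Q` normal in `G_a` with `G_a = Q D`, `Q ⊓ D = 1` for the two-point stabiliser `D = G_a ⊓ G_{t • a}`, `|Q|` even, `|D|` odd), with `t x t = g_x h_x t f_x` and `t y t = g_y h_y t f_y` (`g, f ∈ Q`, `h ∈ D`) for `x, y ∈ Q ∖ 1` with `x y ≠ 1`: then `z = f_x g_y ≠ 1`, and if `t z t = g_z h_z t f_z` and `t (x y) t = g' h' t f'` then `f' = (t h_y t)⁻¹ f_z (t h_y t) f_y` and `h' = h_x h_z h_y` (H6). -/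
theorem result {G Ω : Type*} [Group G] [Finite G] [MulAction G Ω] {a : Ω} {t : G} {Q : Subgroup G}
    (hS : Cfsg.IsRankOneSetup G Ω a t Q)
    (x y gx hx fx gy hy fy : G) (hxQ : x ∈ Q) (hx1 : x ≠ 1) (hyQ : y ∈ Q) (hy1 : y ≠ 1) (hxy : x * y ≠ 1)
    (hgx : gx ∈ Q) (hhx : hx ∈ (MulAction.stabilizer G a ⊓ MulAction.stabilizer G (t • a))) (hfx : fx ∈ Q) (ex : t * x * t = gx * hx * t * fx)
    (hgy : gy ∈ Q) (hhy : hy ∈ (MulAction.stabilizer G a ⊓ MulAction.stabilizer G (t • a))) (hfy : fy ∈ Q) (ey : t * y * t = gy * hy * t * fy) :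
    fx * gy ≠ 1 ∧
      ∀ gz hz fz g' h' f' : G, gz ∈ Q → hz ∈ (MulAction.stabilizer G a ⊓ MulAction.stabilizer G (t • a)) → fz ∈ Q → t * (fx * gy) * t = gz * hz * t * fz →
        g' ∈ Q → h' ∈ (MulAction.stabilizer G a ⊓ MulAction.stabilizer G (t • a)) → f' ∈ Q → t * (x * y) * t = g' * h' * t * f' →
          f' = (t * hy * t)⁻¹ * fz * (t * hy * t) * fy ∧ h' = hx * hz * hy := by
  have ti := t_inv hS
  have tt := hS.mul_self
  have tt' : ∀ w : G, t * (t * w) = w := fun w => by rw [← mul_assoc, tt, one_mul]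
  have hx' : x = t * (gx * hx * t * fx) * t := by
    rw [← ex]
    simp only [mul_assoc, tt, tt', mul_one]
  have hy' : y = t * (gy * hy * t * fy) * t := by
    rw [← ey]
    simp only [mul_assoc, tt, tt', mul_one]
  have hhx1 := (Subgroup.mem_inf.1 hhx).1
  have hhy1 := (Subgroup.mem_inf.1 hhy).1
  have hthy := t_conj_mem hS hhy
  have hthy1 := (Subgroup.mem_inf.1 hthy).1
  constructor
  · intro hz
    have hgy' : gy = fx⁻¹ := eq_inv_of_mul_eq_one_right hz
    have e : t * (x * y) * t = gx * hx * (t * hy * t) * fy := by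
      rw [hx', hy', hgy']
      simp only [mul_assoc, mul_inv_rev, ti, tt, tt', inv_inv, mul_inv_cancel_left,
        inv_mul_cancel_left, mul_inv_cancel, inv_mul_cancel, mul_one, one_mul]
    have hmem : t * (x * y) * t ∈ MulAction.stabilizer G a := by
      rw [e]
      exact mul_mem (mul_mem (mul_mem (hS.le hgx) hhx1) hthy1) (hS.le hfy)
    have h2 : x * y ∈ MulAction.stabilizer G (t • a) := by
      rw [MulAction.mem_stabilizer_iff]
      rw [MulAction.mem_stabilizer_iff, mul_smul, mul_smul] at hmem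
      have h0 := congrArg (fun w => t • w) hmem
      simp only [smul_smul t t, tt, one_smul] at h0
      exact h0
    have h3 : x * y ∈ Q ⊓ MulAction.stabilizer G (t • a) :=
      Subgroup.mem_inf.2 ⟨mul_mem hxQ hyQ, h2⟩
    rw [hS.inf_eq_bot, Subgroup.mem_bot] at h3
    exact hxy h3
  · intro gz hz fz g' h' f' hgz hhz hfz ez hg' hh' hf' e'
    have hgz' : gz = t * (fx * gy) * t * (hz * t * fz)⁻¹ := by
      rw [ez]
      simp only [mul_assoc, mul_inv_rev, ti, tt, tt', inv_inv, mul_inv_cancel_left,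
        inv_mul_cancel_left, mul_inv_cancel, inv_mul_cancel, mul_one, one_mul]
    have e2 : g' * h' * t * f' = (gx * (hx * gz * hx⁻¹)) * (hx * hz * hy) * t *
        ((t * hy * t)⁻¹ * fz * (t * hy * t)⁻¹⁻¹ * fy) := by
      rw [← e', hx', hy', hgz']
      simp only [mul_assoc, mul_inv_rev, ti, tt, tt', inv_inv, mul_inv_cancel_left,
        inv_mul_cancel_left, mul_inv_cancel, inv_mul_cancel, mul_one, one_mul]
    have h3 := canon_unique hS hg' hh' hf' (mul_mem hgx (hS.conj_mem hx hhx1 gz hgz))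
      (mul_mem (mul_mem hhx hhz) hhy) (mul_mem (hS.conj_mem _ (inv_mem hthy1) fz hfz) hfy) e2
    rw [inv_inv] at h3
    exact ⟨h3.2.2, h3.2.1⟩

end Cfsg.Agent.S1166
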