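import Mathlib
import Cfsg.Agent.Lib.Helper2.SylowAux
import Cfsg.Statements.S1176

set_option autoImplicit false
open Cfsg
open Cfsg.Agent.Lib.Helper2

namespace Cfsg.Agent.S1176

/-- Let x₀ be an involution of the finite group G and D its conjugacy class. Assume (a) for each x ∈ D the subgroup W(x) generated by the members of D commuting with x is a 2-group of nilpotency class at most 2, and (b) the product of two distinct commuting members of D again lies in D. Then for all x, y ∈ D, if xy has even order greater than 2, its order is 4. -/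
theorem result {G : Type*} [Group G] [Finite G] (x₀ : G) (hx₀ : orderOf x₀ = 2) (ha : ∀ x : G, IsConj x₀ x → IsPGroup 2 ↥(Subgroup.closure {y : G | IsConj x₀ y ∧ Commute y x}) ∧ ⁅⁅Subgroup.closure {y : G | IsConj x₀ y ∧ Commute y x}, Subgroup.closure {y : G | IsConj x₀ y ∧ Commute y x}⁆, Subgroup.closure {y : G | IsConj x₀ y ∧ Commute y x}⁆ = ⊥) (hb : ∀ x y : G, IsConj x₀ x → IsConj x₀ y → x ≠ y → Commute x y → IsConj x₀ (x * y)) (x y : G) (hx : IsConj x₀ x) (hy : IsConj x₀ y) (heven : Even (orderOf (x * y))) (hgt : 2 < orderOf (x * y)) : orderOf (x * y) = 4 := by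
  have inv_of_conj : ∀ g : G, IsConj x₀ g → g * g = 1 := by
    intro g hg
    obtain ⟨c, hc⟩ := isConj_iff.1 hg
    have h1 : x₀ * x₀ = 1 := by rw [← pow_two, ← hx₀, pow_orderOf_eq_one]
    rw [← hc]
    calc c * x₀ * c⁻¹ * (c * x₀ * c⁻¹) = c * (x₀ * x₀) * c⁻¹ := by group
      _ = 1 := by rw [h1]; group
  have hx2 := inv_of_conj x hx
  have hy2 := inv_of_conj y hy
  have hxinv : x⁻¹ = x := inv_eq_of_mul_eq_one_right hx2
  have hyinv : y⁻¹ = y := inv_eq_of_mul_eq_one_right hy2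
  obtain ⟨m, hm⟩ := heven
  generalize hw : x * y = w at hm hgt ⊢
  have hxw : x * w * x⁻¹ = w⁻¹ := by
    rw [← hw, mul_inv_rev, hxinv, hyinv, ← mul_assoc, hx2, one_mul]
  have hyw : y * w * y⁻¹ = w⁻¹ := by
    rw [← hw, mul_inv_rev, hxinv, hyinv, mul_assoc, mul_assoc, hy2, mul_one]
  have hxwk : ∀ k : ℕ, x * w ^ k * x⁻¹ = (w ^ k)⁻¹ := by
    intro k
    rw [← conj_pow, hxw, inv_pow]
  have hywk : ∀ k : ℕ, y * w ^ k * y⁻¹ = (w ^ k)⁻¹ := by
    intro k
    rw [← conj_pow, hyw, inv_pow]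
  have hz1 : w ^ m ≠ 1 := pow_ne_one_of_lt_orderOf (by omega) (by omega)
  have hzz : w ^ m * w ^ m = 1 := by rw [← pow_add, ← hm, pow_orderOf_eq_one]
  have hzinv : (w ^ m)⁻¹ = w ^ m := inv_eq_of_mul_eq_one_right hzz
  have hxz : x * w ^ m = w ^ m * x := by
    have h1 := (hxwk m).trans hzinv
    rwa [mul_inv_eq_iff_eq_mul] at h1
  have hyz : y * w ^ m = w ^ m * y := by
    have h1 := (hywk m).trans hzinv
    rwa [mul_inv_eq_iff_eq_mul] at h1
  have hu : IsConj x₀ (w ^ m * x) := by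
    rcases Nat.even_or_odd' m with ⟨k, hk | hk⟩
    · have e1 : (w ^ k)⁻¹ = x * w ^ k * x := by rw [← hxwk k, hxinv]
      have e2 : w ^ k * x * (w ^ k)⁻¹ = w ^ m * x := by
        rw [e1, hk, two_mul, pow_add]
        calc w ^ k * x * (x * w ^ k * x) = w ^ k * (x * x) * w ^ k * x := by
              simp only [mul_assoc]
          _ = w ^ k * w ^ k * x := by rw [hx2, mul_one]
      rw [← e2]
      exact hx.trans (isConj_iff.2 ⟨w ^ k, rfl⟩)
    · have e1 : (w ^ k)⁻¹ = x * w ^ k * x := by rw [← hxwk k, hxinv]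
      have e2 : w ^ k * (x * y * x⁻¹) * (w ^ k)⁻¹ = w ^ m * x := by
        rw [e1, hk, hxinv, hw]
        calc w ^ k * (w * x) * (x * w ^ k * x) = w ^ k * w * (x * x) * w ^ k * x := by
              simp only [mul_assoc]
          _ = w ^ (2 * k + 1) * x := by
              rw [hx2, mul_one, two_mul, pow_succ, pow_add]
              simp only [mul_assoc]
              congr 1
              rw [← mul_assoc, ← mul_assoc, ← pow_succ, ← pow_succ']
      rw [← e2]
      exact (hy.trans (isConj_iff.2 ⟨x, rfl⟩)).trans (isConj_iff.2 ⟨w ^ k, rfl⟩)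
  have hne : x ≠ w ^ m * x := by
    intro h
    apply hz1
    have h2 : w ^ m * x = 1 * x := by rw [one_mul]; exact h.symm
    exact mul_right_cancel h2
  have hcomm : Commute x (w ^ m * x) := by
    show x * (w ^ m * x) = w ^ m * x * x
    rw [← mul_assoc, hxz]
  have hz := hb x (w ^ m * x) hx hu hne hcomm
  have ez : x * (w ^ m * x) = w ^ m := by
    rw [← mul_assoc, hxz, mul_assoc, hx2, mul_one]
  rw [ez] at hz
  obtain ⟨-, hbot⟩ := ha (w ^ m) hz
  have hxW : x ∈ Subgroup.closure {y : G | IsConj x₀ y ∧ Commute y (w ^ m)} :=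
    Subgroup.subset_closure ⟨hx, hxz⟩
  have hyW : y ∈ Subgroup.closure {y : G | IsConj x₀ y ∧ Commute y (w ^ m)} :=
    Subgroup.subset_closure ⟨hy, hyz⟩
  have h1 := Subgroup.commutator_mem_commutator (Subgroup.commutator_mem_commutator hxW hyW) hxW
  rw [hbot, Subgroup.mem_bot, commutatorElement_eq_one_iff_commute] at h1
  have h1' : (x * y * x⁻¹ * y⁻¹) * x = x * (x * y * x⁻¹ * y⁻¹) := h1
  have e3 : x * y * x⁻¹ * y⁻¹ = w ^ 2 := by
    rw [hxinv, hyinv, pow_two, ← hw]
    simp only [mul_assoc]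
  rw [e3] at h1'
  have h2 : w ^ 2 * x = x * w ^ 2 := h1'
  have h3 := hxwk 2
  rw [← h2, mul_inv_cancel_right] at h3
  have h4 : w ^ 4 = 1 := by
    have : w ^ 4 = w ^ 2 * w ^ 2 := by rw [← pow_add]
    rw [this]
    nth_rewrite 1 [h3]
    exact inv_mul_cancel _
  obtain ⟨c, hc⟩ := orderOf_dvd_of_pow_eq_one h4
  rcases c with _ | _ | c
  · omega
  · omega
  · nlinarith

end Cfsg.Agent.S1176
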