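import Mathlib
import Cfsg.Agent.Lib.Helper2.SylowAux
import Cfsg.Statements.S1177

set_option autoImplicit false
open Cfsg
open Cfsg.Agent.Lib.Helper2.SylowAux

namespace Cfsg.Agent.S1177

/-- Let A be a nontrivial elementary abelian 2-subgroup of a finite group G which is a T.I. set (each conjugate of A meets A trivially or equals A) and which does not commute elementwise with any conjugate of A other than A itself. Then for every a ∈ A, a ≠ 1, every conjugate of A contained in C_G(a) is equal to A (A is weakly closed in C_G(a)). -/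
theorem result {G : Type*} [Group G] [Finite G] (A : Subgroup G) (hA : Cfsg.IsElementaryAbelian 2 A) (hA1 : A ≠ ⊥) (hTI : ∀ g : G, A.map (MulAut.conj g).toMonoidHom ⊓ A = ⊥ ∨ A.map (MulAut.conj g).toMonoidHom = A) (hb : ∀ g : G, (∀ a ∈ A, ∀ b ∈ A.map (MulAut.conj g).toMonoidHom, a * b = b * a) → A.map (MulAut.conj g).toMonoidHom = A) (a : G) (ha : a ∈ A) (ha1 : a ≠ 1) (g : G) (hg : A.map (MulAut.conj g).toMonoidHom ≤ Subgroup.centralizer ({a} : Set G)) : A.map (MulAut.conj g).toMonoidHom = A := by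
  have : Fact (Nat.Prime 2) := ⟨Nat.prime_two⟩
  have hmem : ∀ (h y : G), y ∈ A.map (MulAut.conj h).toMonoidHom ↔ h⁻¹ * y * h ∈ A :=
    fun h y => mem_map_conj A h y
  have hA2 : IsPGroup 2 A := isPGroup_of_elementary A hA.2
  obtain ⟨B, hBdef⟩ : ∃ B : Subgroup G, B = A.map (MulAut.conj g).toMonoidHom := ⟨_, rfl⟩
  have hB : ∀ y, y ∈ B ↔ g⁻¹ * y * g ∈ A := by
    rw [hBdef]; exact hmem g
  have hbg : (∀ a ∈ A, ∀ b ∈ B, a * b = b * a) → B = A := by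
    rw [hBdef]; exact hb g
  have hTIg : B ⊓ A = ⊥ ∨ B = A := by
    rw [hBdef]; exact hTI g
  have hB2 : IsPGroup 2 B := by
    rw [hBdef]; exact hA2.map _
  rw [← hBdef] at hg ⊢
  by_contra hne
  have hBA : B ⊓ A = ⊥ := hTIg.resolve_right hne
  have hBN : ∀ b ∈ B, A.map (MulAut.conj b).toMonoidHom = A := by
    intro b hbB
    refine (hTI b).resolve_left ?_
    intro h
    have hcb := hg hbB
    rw [Subgroup.mem_centralizer_singleton_iff] at hcb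
    have h1 : a ∈ A.map (MulAut.conj b).toMonoidHom ⊓ A := by
      refine Subgroup.mem_inf.2 ⟨?_, ha⟩
      rw [hmem]
      have e : b⁻¹ * a * b = a := by
        rw [mul_assoc, ← hcb]; group
      rw [e]; exact ha
    rw [h] at h1
    exact ha1 (Subgroup.mem_bot.1 h1)
  have hBN' : ∀ b ∈ B, ∀ y, y ∈ A ↔ b * y * b⁻¹ ∈ A := by
    intro b hbB y
    have h1 := hBN b hbB
    have e : b⁻¹ * (b * y * b⁻¹) * b = y := by group
    have h2 := hmem b (b * y * b⁻¹)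
    rw [e, h1] at h2
    exact h2.symm
  have hnorm : B ≤ Subgroup.normalizer (A : Set G) := by
    intro b hbB
    rw [Subgroup.mem_normalizer_iff]
    exact hBN' b hbB
  have hP : IsPGroup 2 (B ⊔ A : Subgroup G) := hB2.to_sup_of_normal_right' hA2 hnorm
  by_cases hPN : (B ⊔ A : Subgroup G) ≤ Subgroup.normalizer (B : Set G)
  · apply hne
    apply hbg
    intro a' ha' b hbB
    have h1 : a' * b * a'⁻¹ ∈ B := by
      have h0 := hPN (Subgroup.mem_sup_right ha')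
      rw [Subgroup.mem_normalizer_iff] at h0
      exact (h0 b).1 hbB
    have h2 : b * a'⁻¹ * b⁻¹ ∈ A := (hBN' b hbB a'⁻¹).1 (A.inv_mem ha')
    have h3 : a' * b * a'⁻¹ * b⁻¹ ∈ B ⊓ A := by
      refine Subgroup.mem_inf.2 ⟨B.mul_mem h1 (B.inv_mem hbB), ?_⟩
      have e : a' * b * a'⁻¹ * b⁻¹ = a' * (b * a'⁻¹ * b⁻¹) := by group
      rw [e]; exact A.mul_mem ha' h2
    rw [hBA, Subgroup.mem_bot] at h3
    calc a' * b = (a' * b * a'⁻¹ * b⁻¹) * b * a' := by group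
      _ = b * a' := by rw [h3]; group
  · have hN1 : Subgroup.normalizer (B : Set G) ⊓ (B ⊔ A) ≠ B ⊔ A := by
      intro h
      apply hPN
      rw [← h]; exact inf_le_left
    obtain ⟨x, hxP, hxN, hxnorm⟩ := exists_normalizing_not_mem hP inf_le_right hN1
    have hxNB : x ∉ Subgroup.normalizer (B : Set G) :=
      fun h => hxN (Subgroup.mem_inf.2 ⟨h, hxP⟩)
    have hBN1 : ∀ b ∈ B, b ∈ Subgroup.normalizer (B : Set G) ⊓ (B ⊔ A) :=
      fun b hbB => Subgroup.mem_inf.2 ⟨Subgroup.le_normalizer hbB, Subgroup.mem_sup_left hbB⟩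
    have hx1 : ∀ b ∈ B, x * b * x⁻¹ ∈ Subgroup.normalizer (B : Set G) :=
      fun b hbB => (Subgroup.mem_inf.1 ((hxnorm b).1 (hBN1 b hbB))).1
    have hx2 : ∀ b ∈ B, x⁻¹ * b * x ∈ Subgroup.normalizer (B : Set G) := by
      intro b hbB
      have h1 := hBN1 b hbB
      have e : b = x * (x⁻¹ * b * x) * x⁻¹ := by group
      rw [e] at h1
      exact (Subgroup.mem_inf.1 ((hxnorm _).2 h1)).1
    have hg' : ∀ y, y ∈ A.map (MulAut.conj (g⁻¹ * x * g)).toMonoidHom ↔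
        x⁻¹ * (g * y * g⁻¹) * x ∈ B := by
      intro y
      rw [hmem, hB]
      have e : (g⁻¹ * x * g)⁻¹ * y * (g⁻¹ * x * g) = g⁻¹ * (x⁻¹ * (g * y * g⁻¹) * x) * g := by
        group
      rw [e]
    have hfinal : A.map (MulAut.conj (g⁻¹ * x * g)).toMonoidHom = A → False := by
      intro hfin
      have key : ∀ y, y ∈ A ↔ x⁻¹ * (g * y * g⁻¹) * x ∈ B := by
        intro y
        have h1 := hg' y
        rw [hfin] at h1
        exact h1
      apply hxNB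
      rw [Subgroup.mem_normalizer_iff]
      intro n
      have e : x⁻¹ * (g * (g⁻¹ * (x * n * x⁻¹) * g) * g⁻¹) * x = n := by group
      have k := key (g⁻¹ * (x * n * x⁻¹) * g)
      rw [e] at k
      have k2 := hB (x * n * x⁻¹)
      exact (k2.trans k).symm
    have hTI' : A.map (MulAut.conj (g⁻¹ * x * g)).toMonoidHom ⊓ A = ⊥ :=
      (hTI (g⁻¹ * x * g)).resolve_right hfinal
    have hcc : ∀ b₁ ∈ B, ∀ b₂ ∈ B, b₁ * (x * b₂ * x⁻¹) = (x * b₂ * x⁻¹) * b₁ := by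
      intro b₁ hb₁ b₂ hb₂
      have hc := hx1 b₂ hb₂
      rw [Subgroup.mem_normalizer_iff] at hc
      have hw1 : (x * b₂ * x⁻¹) * b₁ * (x * b₂ * x⁻¹)⁻¹ * b₁⁻¹ ∈ B :=
        B.mul_mem ((hc b₁).1 hb₁) (B.inv_mem hb₁)
      have hd := hx2 b₁ hb₁
      rw [Subgroup.mem_normalizer_iff] at hd
      have hu : (x⁻¹ * b₁ * x) * b₂⁻¹ * (x⁻¹ * b₁ * x)⁻¹ ∈ B := (hd b₂⁻¹).1 (B.inv_mem hb₂)
      have hw2 : x⁻¹ * ((x * b₂ * x⁻¹) * b₁ * (x * b₂ * x⁻¹)⁻¹ * b₁⁻¹) * x ∈ B := by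
        have e : x⁻¹ * ((x * b₂ * x⁻¹) * b₁ * (x * b₂ * x⁻¹)⁻¹ * b₁⁻¹) * x =
            b₂ * ((x⁻¹ * b₁ * x) * b₂⁻¹ * (x⁻¹ * b₁ * x)⁻¹) := by group
        rw [e]
        exact B.mul_mem hb₂ hu
      have hw3 : g⁻¹ * ((x * b₂ * x⁻¹) * b₁ * (x * b₂ * x⁻¹)⁻¹ * b₁⁻¹) * g ∈
          A.map (MulAut.conj (g⁻¹ * x * g)).toMonoidHom ⊓ A := by
        refine Subgroup.mem_inf.2 ⟨?_, (hB _).1 hw1⟩
        rw [hg']
        have e : g * (g⁻¹ * ((x * b₂ * x⁻¹) * b₁ * (x * b₂ * x⁻¹)⁻¹ * b₁⁻¹) * g) * g⁻¹ =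
            (x * b₂ * x⁻¹) * b₁ * (x * b₂ * x⁻¹)⁻¹ * b₁⁻¹ := by group
        rw [e]
        exact hw2
      rw [hTI', Subgroup.mem_bot] at hw3
      have hw4 : (x * b₂ * x⁻¹) * b₁ * (x * b₂ * x⁻¹)⁻¹ * b₁⁻¹ = 1 := by
        have e : (x * b₂ * x⁻¹) * b₁ * (x * b₂ * x⁻¹)⁻¹ * b₁⁻¹ =
            g * (g⁻¹ * ((x * b₂ * x⁻¹) * b₁ * (x * b₂ * x⁻¹)⁻¹ * b₁⁻¹) * g) * g⁻¹ := by group
        rw [e, hw3]; group
      calc b₁ * (x * b₂ * x⁻¹)
          = ((x * b₂ * x⁻¹) * b₁ * (x * b₂ * x⁻¹)⁻¹ * b₁⁻¹)⁻¹ * ((x * b₂ * x⁻¹) * b₁) := by group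
        _ = (x * b₂ * x⁻¹) * b₁ := by rw [hw4]; group
    apply hfinal
    apply hb
    intro a' ha' b hb'
    rw [hg'] at hb'
    have hb1 : g * a' * g⁻¹ ∈ B := by
      rw [hB]
      have e : g⁻¹ * (g * a' * g⁻¹) * g = a' := by group
      rw [e]; exact ha'
    have h1 := hcc _ hb1 _ hb'
    have e : x * (x⁻¹ * (g * b * g⁻¹) * x) * x⁻¹ = g * b * g⁻¹ := by group
    rw [e] at h1
    calc a' * b = g⁻¹ * (g * a' * g⁻¹ * (g * b * g⁻¹)) * g := by group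
      _ = b * a' := by rw [h1]; group

end Cfsg.Agent.S1177
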