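import Mathlib
import Cfsg.Statements.S1178
import Cfsg.Agent.Lib.Helper2.SylowAux

set_option autoImplicit false
open Cfsg
open Cfsg.Agent.Lib.Helper2.SylowAux

namespace Cfsg.Agent.S1178

/-- Let A be a subgroup of a Sylow 2-subgroup S of the finite group G which is weakly closed in S. If a conjugate g A g⁻¹ commutes elementwise with A, then g A g⁻¹ = A. -/
theorem result {G : Type*} [Group G] [Finite G] (S : Sylow 2 G) (A : Subgroup G) (hW : Cfsg.IsWeaklyClosed A (S : Subgroup G)) (g : G) (hc : ∀ a ∈ A, ∀ b ∈ A.map (MulAut.conj g).toMonoidHom, a * b = b * a) : A.map (MulAut.conj g).toMonoidHom = A := by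
  have : Fact (Nat.Prime 2) := ⟨Nat.prime_two⟩
  obtain ⟨hAS, hwc⟩ := hW
  have hA : IsPGroup 2 A := S.isPGroup'.to_le hAS
  have hAg : IsPGroup 2 (A.map (MulAut.conj g).toMonoidHom) := hA.map _
  have hnorm : A ≤ Subgroup.normalizer ((A.map (MulAut.conj g).toMonoidHom : Subgroup G) : Set G) := by
    intro a ha
    rw [Subgroup.mem_normalizer_iff]
    intro n
    constructor
    · intro hn
      have e : a * n * a⁻¹ = n := by
        rw [hc a ha n hn]; group
      rw [e]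
      exact hn
    · intro hn
      have e0 := hc a ha _ hn
      have e2 : a * n = a * (a * n * a⁻¹) := by
        rw [e0]; group
      have e : a * n * a⁻¹ = n := (mul_left_cancel e2).symm
      rw [← e]
      exact hn
  have hsup : IsPGroup 2 (A ⊔ A.map (MulAut.conj g).toMonoidHom : Subgroup G) :=
    hA.to_sup_of_normal_right' hAg hnorm
  obtain ⟨h, hh⟩ := exists_conj_le_sylow S hsup
  have h1 : A.map (MulAut.conj h⁻¹).toMonoidHom ≤ S := by
    intro y hy
    rw [mem_map_conj] at hy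
    have h0 := hh _ (Subgroup.mem_sup_left hy)
    have e : h⁻¹ * (h⁻¹⁻¹ * y * h⁻¹) * h = y := by group
    rw [e] at h0
    exact h0
  have h2 : A.map (MulAut.conj (h⁻¹ * g)).toMonoidHom ≤ S := by
    intro y hy
    rw [mem_map_conj] at hy
    have hm : g * ((h⁻¹ * g)⁻¹ * y * (h⁻¹ * g)) * g⁻¹ ∈ A.map (MulAut.conj g).toMonoidHom := by
      rw [mem_map_conj]
      have e : g⁻¹ * (g * ((h⁻¹ * g)⁻¹ * y * (h⁻¹ * g)) * g⁻¹) * g = (h⁻¹ * g)⁻¹ * y * (h⁻¹ * g) := by
        group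
      rw [e]
      exact hy
    have h0 := hh _ (Subgroup.mem_sup_right hm)
    have e : h⁻¹ * (g * ((h⁻¹ * g)⁻¹ * y * (h⁻¹ * g)) * g⁻¹) * h = y := by group
    rw [e] at h0
    exact h0
  have e1 := hwc _ h1
  have e2 := hwc _ h2
  have m1 : ∀ y, y ∈ A ↔ h * y * h⁻¹ ∈ A := by
    intro y
    have h0 := mem_map_conj A h⁻¹ y
    rw [e1, inv_inv] at h0
    exact h0
  have m2 : ∀ y, y ∈ A ↔ (h⁻¹ * g)⁻¹ * y * (h⁻¹ * g) ∈ A := by
    intro y
    have h0 := mem_map_conj A (h⁻¹ * g) y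
    rw [e2] at h0
    exact h0
  ext y
  rw [mem_map_conj]
  have k2 := m2 (h⁻¹ * y * h)
  have k1 := m1 (h⁻¹ * y * h)
  have e3 : (h⁻¹ * g)⁻¹ * (h⁻¹ * y * h) * (h⁻¹ * g) = g⁻¹ * y * g := by group
  have e4 : h * (h⁻¹ * y * h) * h⁻¹ = y := by group
  rw [e3] at k2
  rw [e4] at k1
  exact k2.symm.trans k1

end Cfsg.Agent.S1178
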