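import Mathlib
import Cfsg.Statements.S1181
import Cfsg.Agent.Lib.Helper2.Isolated

set_option autoImplicit false
open Cfsg
open Cfsg.Agent.Lib.Helper2.Isolated

namespace Cfsg.Agent.S1181

/-- Let z be an isolated involution of the finite group G and N a normal subgroup with z ∉ N. Then the centralizer of zN in G/N is the image of C_G(z), and zN is an isolated involution of G/N. -/
theorem result {G : Type*} [Group G] [Finite G] (z : G) (hz : Cfsg.IsIsolatedInvolution z) (N : Subgroup G) [N.Normal] (hzN : z ∉ N) : Subgroup.centralizer ({(QuotientGroup.mk z : G ⧸ N)} : Set (G ⧸ N)) = (Subgroup.centralizer ({z} : Set G)).map (QuotientGroup.mk' N) ∧ Cfsg.IsIsolatedInvolution (QuotientGroup.mk z : G ⧸ N) := by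
  have hz2 := hz.1
  have hzz : z * z = 1 := mul_self_of_orderOf_two hz2
  have hzi : z⁻¹ = z := inv_eq_self_of_mul_self hzz
  have hqzz : (QuotientGroup.mk z : G ⧸ N) * QuotientGroup.mk z = 1 := by
    rw [← QuotientGroup.mk_mul, hzz, QuotientGroup.mk_one]
  have hqzi : (QuotientGroup.mk z : G ⧸ N)⁻¹ = QuotientGroup.mk z := inv_eq_self_of_mul_self hqzz
  constructor
  · ext q
    induction q using QuotientGroup.induction_on with
    | _ g =>
    rw [Subgroup.mem_centralizer_singleton_iff, Subgroup.mem_map]
    constructor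
    · intro hcomm
      have hrN : g * z * g⁻¹ * z ∈ N := by
        rw [← QuotientGroup.eq_one_iff]
        simp only [QuotientGroup.mk_mul, QuotientGroup.mk_inv]
        have e1 : (QuotientGroup.mk g : G ⧸ N) * QuotientGroup.mk z * (QuotientGroup.mk g)⁻¹ * QuotientGroup.mk z
            = ((QuotientGroup.mk g : G ⧸ N) * QuotientGroup.mk z) * (QuotientGroup.mk g)⁻¹ * QuotientGroup.mk z := by group
        rw [e1, hcomm]
        have e2 : (QuotientGroup.mk z : G ⧸ N) * QuotientGroup.mk g * (QuotientGroup.mk g)⁻¹ * QuotientGroup.mk z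
            = (QuotientGroup.mk z : G ⧸ N) * QuotientGroup.mk z := by group
        rw [e2, hqzz]
      obtain ⟨k, hk, _, _, hkconj⟩ := exists_conj z hz g
      have hkN : k ∈ N := (Subgroup.zpowers_le.2 hrN) hk
      refine ⟨k⁻¹ * g, ?_, ?_⟩
      · rw [Subgroup.mem_centralizer_singleton_iff]
        have e1 : k⁻¹ * g * z = k⁻¹ * (g * z * g⁻¹) * g := by group
        rw [e1, ← hkconj]; group
      · show (QuotientGroup.mk (k⁻¹ * g) : G ⧸ N) = QuotientGroup.mk g
        rw [QuotientGroup.mk_mul, QuotientGroup.mk_inv, (QuotientGroup.eq_one_iff k).2 hkN, inv_one, one_mul]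
    · rintro ⟨c, hc, hcg⟩
      rw [Subgroup.mem_centralizer_singleton_iff] at hc
      have hcg' : (QuotientGroup.mk c : G ⧸ N) = QuotientGroup.mk g := hcg
      rw [← hcg', ← QuotientGroup.mk_mul, ← QuotientGroup.mk_mul, hc]
  · refine ⟨?_, ?_⟩
    · haveI : Fact (Nat.Prime 2) := ⟨Nat.prime_two⟩
      apply orderOf_eq_prime
      · rw [pow_two]; exact hqzz
      · intro h1
        exact hzN ((QuotientGroup.eq_one_iff z).1 h1)
    · intro q
      induction q using QuotientGroup.induction_on with
      | _ g =>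
      intro hcomm
      have hodd := prod_odd z hz g
      have hss : (g * z * g⁻¹) * (g * z * g⁻¹) = 1 := conj_mul_self hzz g
      have e0 : (QuotientGroup.mk g : G ⧸ N) * QuotientGroup.mk z * (QuotientGroup.mk g)⁻¹ =
          QuotientGroup.mk (g * z * g⁻¹) := by
        simp only [QuotientGroup.mk_mul, QuotientGroup.mk_inv]
      rw [e0] at hcomm ⊢
      generalize g * z * g⁻¹ = s at hss hodd hcomm ⊢
      have hqss : (QuotientGroup.mk s : G ⧸ N) * QuotientGroup.mk s = 1 := by
        rw [← QuotientGroup.mk_mul, hss, QuotientGroup.mk_one]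
      have hsq : (s * z) * (s * z) ∈ N := by
        rw [← QuotientGroup.eq_one_iff]
        simp only [QuotientGroup.mk_mul]
        have e1 : (QuotientGroup.mk s : G ⧸ N) * QuotientGroup.mk z * (QuotientGroup.mk s * QuotientGroup.mk z)
            = (QuotientGroup.mk s : G ⧸ N) * (QuotientGroup.mk z * QuotientGroup.mk s) * QuotientGroup.mk z := by group
        rw [e1, hcomm.eq]
        have e2 : (QuotientGroup.mk s : G ⧸ N) * (QuotientGroup.mk s * QuotientGroup.mk z) * QuotientGroup.mk z
            = ((QuotientGroup.mk s : G ⧸ N) * QuotientGroup.mk s) * (QuotientGroup.mk z * QuotientGroup.mk z) := by group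
        rw [e2, hqss, hqzz, one_mul]
      have hsz : s * z ∈ N := mem_of_sq_mem_of_odd hodd N hsq
      have h1 : (QuotientGroup.mk s : G ⧸ N) * QuotientGroup.mk z = 1 := by
        rw [← QuotientGroup.mk_mul]; exact (QuotientGroup.eq_one_iff _).2 hsz
      rw [← hqzi]
      exact eq_inv_of_mul_eq_one_left h1

end Cfsg.Agent.S1181
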