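import Mathlib
import Cfsg.Statements.S1182
import Cfsg.Agent.Lib.Helper2.Isolated

set_option autoImplicit false
open Cfsg
open Cfsg.Agent.Lib.Helper2.Isolated

namespace Cfsg.Agent.S1182

/-- Let z be an isolated involution of the finite group G and H a subgroup normalized by z. If x, y ∈ H both commute with z and y = h x h⁻¹ for some h ∈ H, then y = c x c⁻¹ for some c ∈ H commuting with z. -/
theorem result {G : Type*} [Group G] [Finite G] (z : G) (hz : Cfsg.IsIsolatedInvolution z) (H : Subgroup G) (hzH : z ∈ Subgroup.normalizer (H : Set G)) (x y : G) (hx : x ∈ H) (hy : y ∈ H) (hxz : Commute x z) (hyz : Commute y z) (h : G) (hh : h ∈ H) (hconj : h * x * h⁻¹ = y) : ∃ c ∈ H, Commute c z ∧ c * x * c⁻¹ = y := by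
  have hz2 := hz.1
  have hzz : z * z = 1 := mul_self_of_orderOf_two hz2
  have hzi : z⁻¹ = z := inv_eq_self_of_mul_self hzz
  obtain ⟨k, hk, _, _, hkconj⟩ := exists_conj z hz h
  have hrH : h * z * h⁻¹ * z ∈ H := by
    have h1 : z * h⁻¹ * z⁻¹ ∈ H := (Subgroup.mem_normalizer_iff.1 hzH h⁻¹).1 (H.inv_mem hh)
    have h2 : h * z * h⁻¹ * z = h * (z * h⁻¹ * z⁻¹) := by rw [hzi]; group
    rw [h2]
    exact H.mul_mem hh h1
  have hsy : Commute (h * z * h⁻¹) y := by
    show h * z * h⁻¹ * y = y * (h * z * h⁻¹)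
    rw [← hconj]
    have e1 : x * z = z * x := hxz.eq
    have e3 : h * z * h⁻¹ * (h * x * h⁻¹) = h * (z * x) * h⁻¹ := by group
    rw [e3, ← e1]; group
  have hry' : Commute (h * z * h⁻¹ * z) y := hsy.mul_left hyz.symm
  have hry : h * z * h⁻¹ * z ∈ Subgroup.centralizer ({y} : Set G) := by
    rw [Subgroup.mem_centralizer_singleton_iff]
    exact hry'.eq
  have hkH : k ∈ H := (Subgroup.zpowers_le.2 hrH) hk
  have hky : k ∈ Subgroup.centralizer ({y} : Set G) := (Subgroup.zpowers_le.2 hry) hk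
  rw [Subgroup.mem_centralizer_singleton_iff] at hky
  refine ⟨k⁻¹ * h, H.mul_mem (H.inv_mem hkH) hh, ?_, ?_⟩
  · show k⁻¹ * h * z = z * (k⁻¹ * h)
    have e1 : k⁻¹ * h * z = k⁻¹ * (h * z * h⁻¹) * h := by group
    rw [e1, ← hkconj]; group
  · have e1 : k⁻¹ * h * x * (k⁻¹ * h)⁻¹ = k⁻¹ * (h * x * h⁻¹) * k := by group
    rw [e1, hconj]
    have e2 : k⁻¹ * y * k = k⁻¹ * (k * y) * k⁻¹ * k := by rw [hky]; group
    rw [e2]; group

end Cfsg.Agent.S1182
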