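import Mathlib
import Cfsg.Agent.Lib.Helper2.Iso3
import Cfsg.Agent.S1182
import Cfsg.Statements.S1183

set_option autoImplicit false
open Cfsg
open Cfsg.Agent.Lib.Helper2

namespace Cfsg.Agent.S1183

/-- Let z be an isolated involution of the finite group G and C = C_G(z). Then the subgroup of G generated by its elements of odd order is all of G if and only if the subgroup of C generated by its elements of odd order is all of C. -/
theorem result {G : Type*} [Group G] [Finite G] (z : G) (hz : Cfsg.IsIsolatedInvolution z) : Cfsg.pResidual 2 G = ⊤ ↔ Cfsg.pResidual 2 ↥(Subgroup.centralizer ({z} : Set G)) = ⊤ := by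
  apply Iso3.residual_iff z hz
  intro x y hx hy h hconj
  obtain ⟨c, -, hc, hcx⟩ := Cfsg.Agent.S1182.result z hz ⊤ (by rw [Subgroup.mem_normalizer_iff]; intro h; simp) x y (Subgroup.mem_top _) (Subgroup.mem_top _) hx hy h (Subgroup.mem_top _) hconj
  exact ⟨c, hc, hcx⟩

end Cfsg.Agent.S1183
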