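import Mathlib
import Cfsg.Statements.S1184
import Cfsg.Agent.Lib.Helper2.Isolated

set_option autoImplicit false
open Cfsg
open Cfsg.Agent.Lib.Helper2.Isolated

namespace Cfsg.Agent.S1184

/-- Let z be an isolated involution of the finite group G. If s and t are distinct conjugates of z, then st does not commute with z. -/
theorem result {G : Type*} [Group G] [Finite G] (z : G) (hz : Cfsg.IsIsolatedInvolution z) (g h : G) (hne : g * z * g⁻¹ ≠ h * z * h⁻¹) : ¬ Commute (g * z * g⁻¹ * (h * z * h⁻¹)) z := by
  intro hcomm
  apply hne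
  have hz2 := hz.1
  have hzz : z * z = 1 := mul_self_of_orderOf_two hz2
  have hzi : z⁻¹ = z := inv_eq_self_of_mul_self hzz
  have ha := prod_odd z hz g
  have hb := prod_odd z hz h
  have hss : (g * z * g⁻¹) * (g * z * g⁻¹) = 1 := conj_mul_self hzz g
  have htt : (h * z * h⁻¹) * (h * z * h⁻¹) = 1 := conj_mul_self hzz h
  generalize g * z * g⁻¹ = s at hss ha hcomm ⊢
  generalize h * z * h⁻¹ = t at htt hb hcomm ⊢
  have hsi : s⁻¹ = s := inv_eq_self_of_mul_self hss
  have hti : t⁻¹ = t := inv_eq_self_of_mul_self htt
  have key : (s * z) * (s * z) = (t * z) * (t * z) := by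
    have e1 : s * t * z = z * (s * t) := hcomm.eq
    have e2 : t * z * t = s * z * s := by
      have : t * z * t = s * (s * t * z) * t := by
        rw [← mul_assoc, ← mul_assoc, hss, one_mul]
      rw [this, e1]
      have : s * (z * (s * t)) * t = s * z * s * (t * t) := by group
      rw [this, htt, mul_one]
    have e3 : s * z * (s * z) = (s * z * s) * z := by group
    have e4 : t * z * (t * z) = (t * z * t) * z := by group
    rw [e3, e4, e2]
  have h1 := eq_of_sq_eq_of_odd ha hb key
  exact mul_right_cancel h1

end Cfsg.Agent.S1184
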