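import Mathlib
import Cfsg.Statements.S1185
import Cfsg.Agent.Lib.Helper2.Isolated

set_option autoImplicit false
open Cfsg
open Cfsg.Agent.Lib.Helper2.Isolated

namespace Cfsg.Agent.S1185

/-- Let z be an isolated involution of the finite group G with centralizer C. Then for every g ∈ G there is exactly one element k in the coset gC that has odd order and is inverted by z. -/
theorem result {G : Type*} [Group G] [Finite G] (z : G) (hz : Cfsg.IsIsolatedInvolution z) (g : G) : ∃! k : G, (Odd (orderOf k) ∧ z * k * z⁻¹ = k⁻¹) ∧ g⁻¹ * k ∈ Subgroup.centralizer ({z} : Set G) := by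
  have hz2 := hz.1
  have hzz : z * z = 1 := mul_self_of_orderOf_two hz2
  have hzi : z⁻¹ = z := inv_eq_self_of_mul_self hzz
  obtain ⟨k, _, hkodd, hkinv, hconj⟩ := exists_conj z hz g
  have hcent : ∀ k' : G, g⁻¹ * k' ∈ Subgroup.centralizer ({z} : Set G) ↔ k' * z * k'⁻¹ = g * z * g⁻¹ := by
    intro k'
    rw [Subgroup.mem_centralizer_singleton_iff]
    constructor
    · intro h1
      have : k' * z * k'⁻¹ = g * (g⁻¹ * k' * z) * k'⁻¹ := by group
      rw [this, h1]; group
    · intro h1
      have : g⁻¹ * k' * z = g⁻¹ * (k' * z * k'⁻¹) * k' := by group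
      rw [this, h1]; group
  refine ⟨k, ⟨⟨hkodd, hkinv⟩, (hcent k).2 hconj⟩, ?_⟩
  rintro k' ⟨⟨hk'odd, hk'inv⟩, hk'c⟩
  have h1 := (hcent k').1 hk'c
  rw [← hconj, conj_by_inverted hk'inv, conj_by_inverted hkinv] at h1
  exact eq_of_sq_eq_of_odd hk'odd hkodd (mul_right_cancel h1)

end Cfsg.Agent.S1185
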