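import Mathlib
import Cfsg.Statements.S1243
import Cfsg.Agent.Lib.Helper2.SylowAux

set_option autoImplicit false
open Cfsg
open Cfsg.Agent.Lib.Helper2.SylowAux

namespace Cfsg.Agent.S1243

/-- Let T be a Sylow p-subgroup of the finite group G and W ≤ T a subgroup weakly closed in T. If d and g d g⁻¹ both centralize W, then g d g⁻¹ = h d h⁻¹ for some h ∈ N_G(W). -/
theorem result {G : Type*} [Group G] [Finite G] {p : ℕ} [Fact p.Prime] (T : Sylow p G) (W : Subgroup G) (hW : Cfsg.IsWeaklyClosed W (T : Subgroup G)) (d g : G) (hd : d ∈ Subgroup.centralizer (W : Set G)) (hgd : g * d * g⁻¹ ∈ Subgroup.centralizer (W : Set G)) : ∃ h ∈ Subgroup.normalizer (W : Set G), h * d * h⁻¹ = g * d * g⁻¹ := by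
  obtain ⟨hWT, hwc⟩ := hW
  have hWp : IsPGroup p W := T.isPGroup'.to_le hWT
  have h1 : W ≤ Subgroup.centralizer ({g * d * g⁻¹} : Set G) := by
    intro w hw
    rw [Subgroup.mem_centralizer_singleton_iff]
    exact (Subgroup.mem_centralizer_iff.1 hgd w hw)
  have h2 : W.map (MulAut.conj g).toMonoidHom ≤ Subgroup.centralizer ({g * d * g⁻¹} : Set G) := by
    rintro _ ⟨w, hw, rfl⟩
    rw [Subgroup.mem_centralizer_singleton_iff]
    show g * w * g⁻¹ * (g * d * g⁻¹) = g * d * g⁻¹ * (g * w * g⁻¹)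
    have h0 : w * d = d * w := Subgroup.mem_centralizer_iff.1 hd w hw
    have e1 : g * w * g⁻¹ * (g * d * g⁻¹) = g * (w * d) * g⁻¹ := by group
    rw [e1, h0]; group
  obtain ⟨c, hc, P, hP, hWP, hcP⟩ := exists_conj_common h1 h2 hWp (hWp.map _)
  obtain ⟨k, hk⟩ := exists_conj_le_sylow T hP
  have e1 := hwc k⁻¹ (by
    intro y hy
    rw [mem_map_conj, inv_inv] at hy
    have h0 := hk _ (hWP hy)
    have e : k⁻¹ * (k * y * k⁻¹) * k = y := by group
    rw [e] at h0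
    exact h0)
  have e2 := hwc (k⁻¹ * (c * g)) (by
    intro y hy
    rw [mem_map_conj] at hy
    have hm := hcP (g * ((k⁻¹ * (c * g))⁻¹ * y * (k⁻¹ * (c * g))) * g⁻¹) ⟨_, hy, rfl⟩
    have h0 := hk _ hm
    have e : k⁻¹ * (c * (g * ((k⁻¹ * (c * g))⁻¹ * y * (k⁻¹ * (c * g))) * g⁻¹) * c⁻¹) * k = y := by
      group
    rw [e] at h0
    exact h0)
  have m1 : ∀ y, y ∈ W ↔ k * y * k⁻¹ ∈ W := by
    intro y
    have h0 := mem_map_conj W k⁻¹ y
    rw [e1, inv_inv] at h0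
    exact h0
  have m2 : ∀ y, y ∈ W ↔ (k⁻¹ * (c * g))⁻¹ * y * (k⁻¹ * (c * g)) ∈ W := by
    intro y
    have h0 := mem_map_conj W (k⁻¹ * (c * g)) y
    rw [e2] at h0
    exact h0
  refine ⟨c * g, ?_, ?_⟩
  · rw [Subgroup.mem_normalizer_iff]
    intro n
    have k2 := m2 (k⁻¹ * ((c * g) * n * (c * g)⁻¹) * k)
    have k1 := m1 (k⁻¹ * ((c * g) * n * (c * g)⁻¹) * k)
    have e3 : (k⁻¹ * (c * g))⁻¹ * (k⁻¹ * ((c * g) * n * (c * g)⁻¹) * k) * (k⁻¹ * (c * g)) = n := by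
      group
    have e4 : k * (k⁻¹ * ((c * g) * n * (c * g)⁻¹) * k) * k⁻¹ = (c * g) * n * (c * g)⁻¹ := by group
    rw [e3] at k2
    rw [e4] at k1
    exact k2.symm.trans k1
  · rw [Subgroup.mem_centralizer_singleton_iff] at hc
    have e : c * g * d * (c * g)⁻¹ = (c * (g * d * g⁻¹)) * c⁻¹ := by group
    rw [e, hc]; group

end Cfsg.Agent.S1243
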