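import Mathlib
import Cfsg.Agent.Lib.Helper2.Quasi
import Cfsg.Statements.S1258

set_option autoImplicit false
open Cfsg
open Cfsg.Agent.Lib.Helper2.Quasi
open scoped commutatorElement

namespace Cfsg.Agent.S1258

/-- If the central quotient of a finite group X is non-abelian simple, then X = X' Z(X) and the commutator subgroup X' is quasisimple. -/
theorem result {X : Type*} [Group X] [Finite X] (hs : IsSimpleGroup (X ⧸ Subgroup.center X)) (hna : ¬ IsMulCommutative (X ⧸ Subgroup.center X)) : commutator X ⊔ Subgroup.center X = ⊤ ∧ Cfsg.IsQuasisimple ↥(commutator X) := by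
  have hn : ((commutator X).map (QuotientGroup.mk' (Subgroup.center X))).Normal :=
    Subgroup.Normal.map inferInstance _ (QuotientGroup.mk'_surjective _)
  have htop : (commutator X).map (QuotientGroup.mk' (Subgroup.center X)) = ⊤ := by
    rcases hn.eq_bot_or_eq_top with h | h
    · exfalso
      apply hna
      rw [Subgroup.map_eq_bot_iff, QuotientGroup.ker_mk'] at h
      refine ⟨⟨?_⟩⟩
      intro a b
      induction a using QuotientGroup.induction_on with
      | H x =>
        induction b using QuotientGroup.induction_on with
        | H y =>
          have h1 : ⁅x, y⁆ ∈ Subgroup.center X := h (Subgroup.commutator_mem_commutator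
            (Subgroup.mem_top x) (Subgroup.mem_top y))
          have h2 : ((x * y : X) : X ⧸ Subgroup.center X) = ((y * x : X) : X ⧸ Subgroup.center X) := by
            rw [QuotientGroup.eq]
            have e : (x * y)⁻¹ * (y * x) = ⁅y⁻¹, x⁻¹⁆ := by
              rw [commutatorElement_def]; group
            rw [e]
            exact h (Subgroup.commutator_mem_commutator
              (Subgroup.mem_top _) (Subgroup.mem_top _))
          exact h2
    · exact h
  have hsup : commutator X ⊔ Subgroup.center X = ⊤ := by
    rw [eq_top_iff]
    intro x _
    obtain ⟨a, ha, z, hz, rfl⟩ := exists_decomp_of_map_eq_top _ htop x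
    exact Subgroup.mul_mem _ (Subgroup.mem_sup_left ha) (Subgroup.mem_sup_right hz)
  refine ⟨hsup, ?_, ?_⟩
  · rw [Subgroup.isPerfect_iff]
    apply le_antisymm
    · exact Subgroup.commutator_le_left _ _
    · exact commutator_le_of_map_eq_top _ htop
  · let φ : ↥(commutator X) →* X ⧸ Subgroup.center X :=
      (QuotientGroup.mk' (Subgroup.center X)).comp (commutator X).subtype
    have hφ : Function.Surjective φ := by
      intro q
      have h0 : q ∈ (commutator X).map (QuotientGroup.mk' (Subgroup.center X)) := by
        rw [htop]; trivial
      obtain ⟨y, hy, rfl⟩ := h0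
      exact ⟨⟨y, hy⟩, rfl⟩
    have hker : φ.ker = Subgroup.center ↥(commutator X) := by
      ext d
      rw [MonoidHom.mem_ker, Subgroup.mem_center_iff]
      have h1 : φ d = 1 ↔ (d : X) ∈ Subgroup.center X := by
        show ((d : X) : X ⧸ Subgroup.center X) = 1 ↔ _
        exact QuotientGroup.eq_one_iff _
      rw [h1]
      constructor
      · intro hd g
        apply Subtype.ext
        exact (Subgroup.mem_center_iff.1 hd) (g : X)
      · intro hd
        rw [Subgroup.mem_center_iff]
        intro x
        obtain ⟨a, ha, z, hz, rfl⟩ := exists_decomp_of_map_eq_top _ htop x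
        have h2 : a * (d : X) = (d : X) * a := congrArg Subtype.val (hd ⟨a, ha⟩)
        have h3 : ∀ g, g * z = z * g := Subgroup.mem_center_iff.1 hz
        calc a * z * (d : X) = a * (z * (d : X)) := by group
          _ = a * ((d : X) * z) := by rw [h3]
          _ = (a * (d : X)) * z := by group
          _ = (d : X) * a * z := by rw [h2]
          _ = (d : X) * (a * z) := by group
    have e : ↥(commutator X) ⧸ Subgroup.center ↥(commutator X) ≃* X ⧸ Subgroup.center X :=
      (QuotientGroup.quotientMulEquivOfEq hker.symm).trans
        (QuotientGroup.quotientKerEquivOfSurjective φ hφ)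
    exact e.isSimpleGroup

end Cfsg.Agent.S1258
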