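import Mathlib
import Cfsg.Agent.Lib.Helper2.Quasi
import Cfsg.Statements.S1259

set_option autoImplicit false
open Cfsg
open Cfsg.Agent.Lib.Helper2.Quasi

namespace Cfsg.Agent.S1259

/-- In a quasisimple group, every subnormal subgroup is either the whole group or central. -/
theorem result {X : Type*} [Group X] [Finite X] (hX : Cfsg.IsQuasisimple X) (H : Subgroup X) (hH : H.IsSubnormal) : H = ⊤ ∨ H ≤ Subgroup.center X := by
  induction hH with
  | top => left; rfl
  | step H K hle hK hN ih =>
    rcases ih with rfl | hKZ
    · have hHn : H.Normal := by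
        constructor
        intro n hn g
        have h1 := hN.conj_mem ⟨n, trivial⟩ (Subgroup.mem_subgroupOf.2 hn) ⟨g, trivial⟩
        exact Subgroup.mem_subgroupOf.1 h1
      exact normal_eq_top_or_le_center hX H hHn
    · right; exact hle.trans hKZ

end Cfsg.Agent.S1259
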