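import Mathlib
import Cfsg.Agent.Lib.Helper2.Sub
import Cfsg.Statements.S1260

set_option autoImplicit false
open Cfsg
open Cfsg.Agent.Lib.Helper2

namespace Cfsg.Agent.S1260

/-- Let H be a subnormal subgroup of the finite group G and K a subgroup of H. Then K is a component of H if and only if K, viewed in G, is a component of G. -/
theorem result {G : Type*} [Group G] [Finite G] (H : Subgroup G) (hH : H.IsSubnormal) (K : Subgroup ↥H) : Cfsg.IsComponent K ↔ Cfsg.IsComponent (K.map H.subtype) := by
  have e := K.equivMapOfInjective H.subtype H.subtype_injective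
  constructor
  · rintro ⟨h1, h2⟩
    exact ⟨h1.trans' hH, Quasi.quasisimple_of_mulEquiv e h2⟩
  · rintro ⟨h1, h2⟩
    refine ⟨?_, Quasi.quasisimple_of_mulEquiv e.symm h2⟩
    have h3 : ((K.map H.subtype).subgroupOf H).IsSubnormal := h1.subgroupOf
    have h4 : (K.map H.subtype).subgroupOf H = K :=
      Subgroup.comap_map_eq_self_of_injective H.subtype_injective K
    rw [h4] at h3
    exact h3

end Cfsg.Agent.S1260
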