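import Mathlib
import Cfsg.Agent.Lib.Helper2.Comp
import Cfsg.Statements.S1264

set_option autoImplicit false
open Cfsg
open Cfsg.Agent.Lib.Helper2

namespace Cfsg.Agent.S1264

/-- Let G be finite, C = C_G(F(G)) the centralizer of the Fitting subgroup, and N a solvable subgroup of C normalized by C. Then N ≤ Z(F(G)). -/
theorem result {G : Type*} [Group G] [Finite G] (N : Subgroup G) (hN : N ≤ Subgroup.centralizer (Cfsg.fittingSubgroup G : Set G)) (hnorm : Subgroup.centralizer (Cfsg.fittingSubgroup G : Set G) ≤ Subgroup.normalizer (N : Set G)) (hsolv : Group.IsSolvable ↥N) : N ≤ (Subgroup.center ↥(Cfsg.fittingSubgroup G)).map (Cfsg.fittingSubgroup G).subtype := by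
  have hCn : (Subgroup.centralizer (Cfsg.fittingSubgroup G : Set G)).Normal := by
    haveI := Fit.fitting_normal (G := G)
    exact Subgroup.normal_centralizer
  have hsn : N.IsSubnormal := (Sub.RelSN.of_normal hN hnorm).isSubnormal hCn.isSubnormal
  have hNF := Comp.sn_solvable_centralizing_le_fitting hsn hsolv hN
  intro x hx
  refine ⟨⟨x, hNF hx⟩, ?_, rfl⟩
  rw [SetLike.mem_coe, Subgroup.mem_center_iff]
  intro g
  apply Subtype.ext
  exact (Subgroup.mem_centralizer_iff.1 (hN hx)) (g : G) g.2

end Cfsg.Agent.S1264
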