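import Mathlib
import Cfsg.Agent.Lib.Helper2.CoprimeAct2
import Cfsg.Agent.Lib.Helper2.PComp
import Cfsg.Statements.S1280

set_option autoImplicit false
open Cfsg
open Cfsg.Agent.Lib.Helper2

namespace Cfsg.Agent.S1280

/-- Let θ be a solvable A-signalizer functor (A a noncyclic elementary abelian p-subgroup of the finite group G), and X, Y members of its family with Y ≤ N_G(X). Then X ⊔ Y (= XY) is again in the family. -/
theorem result {G : Type*} [Group G] [Finite G] (p : ℕ) [Fact p.Prime] (A : Subgroup G) (hA : Cfsg.IsElementaryAbelian p A) (hA2 : p ^ 2 ≤ Nat.card ↥A) (θ : G → Subgroup G) (hθ : Cfsg.IsSolvableSignalizerFunctor p A θ) (X Y : Subgroup G) (hX : X ∈ Cfsg.signalizerFamily p A θ) (hY : Y ∈ Cfsg.signalizerFamily p A θ) (hn : Y ≤ Subgroup.normalizer (X : Set G)) : X ⊔ Y ∈ Cfsg.signalizerFamily p A θ := by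
  obtain ⟨hXs, hXp, hXA, hXθ⟩ := hX
  obtain ⟨hYs, hYp, hYA, hYθ⟩ := hY
  have hp : p.Prime := Fact.out
  have hXc : (Nat.card X).Coprime p := ((Nat.Prime.coprime_iff_not_dvd hp).2 hXp).symm
  have hYc : (Nat.card Y).Coprime p := ((Nat.Prime.coprime_iff_not_dvd hp).2 hYp).symm
  refine ⟨CoprimeAct.isSolvable_sup_of_le_normalizer X Y hn hXs hYs, ?_, ?_, ?_⟩
  · have h1 := PComp.coprime_sup_of_le_normalizer p Y X hn hYc hXc
    rw [sup_comm] at h1
    exact (Nat.Prime.coprime_iff_not_dvd hp).1 h1.symm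
  · intro b hb u hu
    obtain ⟨x, hx, y, hy, rfl⟩ := CoprimeAct.mem_sup_of_le_normalizer X Y hn hu
    have e : b * (x * y) * b⁻¹ = (b * x * b⁻¹) * (b * y * b⁻¹) := by group
    rw [e]
    exact Subgroup.mul_mem _ (Subgroup.mem_sup_left (hXA b hb x hx))
      (Subgroup.mem_sup_right (hYA b hb y hy))
  · intro a ha ha1
    have hza : Subgroup.zpowers a ≤ A := by rw [Subgroup.zpowers_le]; exact ha
    exact CoprimeAct.sup_inf_centralizer_le X Y (θ a) hn hXc a (hA.2 a ha)
      (fun c hc => hXA c (hza hc)) (fun c hc => hYA c (hza hc)) (hXθ a ha ha1) (hYθ a ha ha1)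

end Cfsg.Agent.S1280
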