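import Mathlib
import Cfsg.Agent.Lib.Helper2.CoprimeAct
import Cfsg.Agent.Lib.Helper2.SylowAux
import Cfsg.Statements.S1281

set_option autoImplicit false
open Cfsg
open Cfsg.Agent.Lib.Helper2

namespace Cfsg.Agent.S1281

/-- Let θ be a solvable A-signalizer functor on the finite group G (A a noncyclic elementary abelian p-subgroup) and N a normal subgroup of order prime to p. Then for all non-identity a, b ∈ A, the image of θ a in G / N meets the centralizer of the image of b inside the image of θ b. -/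
theorem result {G : Type*} [Group G] [Finite G] (p : ℕ) [Fact p.Prime] (A : Subgroup G) (hA : Cfsg.IsElementaryAbelian p A) (hA2 : p ^ 2 ≤ Nat.card ↥A) (θ : G → Subgroup G) (hθ : Cfsg.IsSolvableSignalizerFunctor p A θ) (N : Subgroup G) [N.Normal] (hN : ¬ p ∣ Nat.card ↥N) (a b : G) (ha : a ∈ A) (ha1 : a ≠ 1) (hb : b ∈ A) (hb1 : b ≠ 1) : (θ a).map (QuotientGroup.mk' N) ⊓ Subgroup.centralizer {QuotientGroup.mk' N b} ≤ (θ b).map (QuotientGroup.mk' N) := by
  obtain ⟨⟨hθc, hθp, hθA, hθb⟩, -⟩ := hθ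
  rintro z ⟨⟨x, hx, rfl⟩, hz⟩
  have hz := Subgroup.mem_centralizer_singleton_iff.1 (show (QuotientGroup.mk' N) x ∈ Subgroup.centralizer {(QuotientGroup.mk' N) b} from hz)
  have hcop : (Nat.card ↥(θ a ⊓ N)).Coprime p := by
    have h1 : Nat.card ↥(θ a ⊓ N) ∣ Nat.card ↥N := Subgroup.card_dvd_of_le inf_le_right
    exact (Nat.Coprime.coprime_dvd_left h1
      (((Nat.Prime.coprime_iff_not_dvd (Fact.out : p.Prime)).2 hN).symm))
  have hPA : Subgroup.zpowers b ≤ A := by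
    rw [Subgroup.zpowers_le]; exact hb
  have hP : IsPGroup p (Subgroup.zpowers b) :=
    SylowAux.isPGroup_of_elementary _ (fun c hc => hA.2 c (hPA hc))
  have hnorm : ∀ c ∈ A, c ∈ Subgroup.normalizer ((θ a ⊓ N : Subgroup G) : Set G) := by
    intro c hc
    rw [Subgroup.mem_normalizer_iff]
    intro h
    constructor
    · rintro ⟨h1, h2⟩
      exact ⟨hθA a ha ha1 c hc h h1, ‹N.Normal›.conj_mem h h2 c⟩
    · rintro ⟨h1, h2⟩
      have h3 := hθA a ha ha1 c⁻¹ (A.inv_mem hc) _ h1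
      have h4 := ‹N.Normal›.conj_mem _ h2 c⁻¹
      have e : c⁻¹ * (c * h * c⁻¹) * c⁻¹⁻¹ = h := by group
      rw [e] at h3 h4
      exact ⟨h3, h4⟩
  have hxn : x ∈ Subgroup.normalizer ((θ a ⊓ N : Subgroup G) : Set G) := by
    rw [Subgroup.mem_normalizer_iff]
    intro h
    constructor
    · rintro ⟨h1, h2⟩
      exact ⟨(θ a).mul_mem ((θ a).mul_mem hx h1) ((θ a).inv_mem hx), ‹N.Normal›.conj_mem h h2 x⟩
    · rintro ⟨h1, h2⟩
      have h3 := (θ a).mul_mem ((θ a).mul_mem ((θ a).inv_mem hx) h1) hx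
      have h4 := ‹N.Normal›.conj_mem _ h2 x⁻¹
      have e : x⁻¹ * (x * h * x⁻¹) * x⁻¹⁻¹ = h := by group
      have e' : x⁻¹ * (x * h * x⁻¹) * x = h := by group
      rw [e] at h4
      rw [e'] at h3
      exact ⟨h3, h4⟩
  have hcomm : ∀ c ∈ Subgroup.zpowers b, c * x * c⁻¹ * x⁻¹ ∈ θ a ⊓ N := by
    intro c hc
    refine ⟨(θ a).mul_mem (hθA a ha ha1 c (hPA hc) x hx) ((θ a).inv_mem hx), ?_⟩
    show c * x * c⁻¹ * x⁻¹ ∈ N
    rw [← QuotientGroup.eq_one_iff, ← QuotientGroup.mk'_apply, map_mul, map_mul, map_mul,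
      map_inv, map_inv]
    obtain ⟨k, rfl⟩ := Subgroup.mem_zpowers_iff.1 hc
    rw [map_zpow]
    have h5 : Commute ((QuotientGroup.mk' N) b) ((QuotientGroup.mk' N) x) := hz.symm
    have h6 := (h5.zpow_left k).eq
    rw [h6]
    group
  obtain ⟨m, hm, hmc⟩ := CoprimeAct.coprime_fix (θ a ⊓ N) hcop (Subgroup.zpowers b) hP
    (fun c hc => hnorm c (hPA hc)) x hxn hcomm
  refine ⟨x * m, ?_, ?_⟩
  · refine hθb a ha ha1 b hb hb1 ⟨(θ a).mul_mem hx hm.1, ?_⟩
    show x * m ∈ Subgroup.centralizer {b}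
    rw [Subgroup.mem_centralizer_singleton_iff]
    exact (hmc b (Subgroup.mem_zpowers b)).symm
  · rw [map_mul]
    have h7 : (QuotientGroup.mk' N) m = 1 := (QuotientGroup.eq_one_iff m).2 hm.2
    rw [h7, mul_one]

end Cfsg.Agent.S1281
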