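import Mathlib
import Cfsg.Agent.Lib.Helper2.Gen3
import Cfsg.Statements.S1282

set_option autoImplicit false
open Cfsg
open Cfsg.Agent.Lib.Helper2

namespace Cfsg.Agent.S1282

/-- Let A be an elementary abelian p-subgroup of rank at least 3 of the finite group G, q ≠ p a prime, and Q₁, Q₂ q-subgroups normalized by A with D = Q₁ ∩ Q₂ different from both. Then there is a non-identity a ∈ A such that, for i = 1 and i = 2, N_{Q_i}(D) ∩ C_G(a) is not contained in D. -/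
theorem result {G : Type*} [Group G] [Finite G] (p : ℕ) [Fact p.Prime] (A : Subgroup G) (hA : Cfsg.IsElementaryAbelian p A) (hA3 : p ^ 3 ≤ Nat.card ↥A) (q : ℕ) [Fact q.Prime] (hqp : q ≠ p) (Q₁ Q₂ : Subgroup G) (h₁ : IsPGroup q ↥Q₁) (h₂ : IsPGroup q ↥Q₂) (hA₁ : A ≤ Subgroup.normalizer (Q₁ : Set G)) (hA₂ : A ≤ Subgroup.normalizer (Q₂ : Set G)) (hD₁ : Q₁ ⊓ Q₂ ≠ Q₁) (hD₂ : Q₁ ⊓ Q₂ ≠ Q₂) : ∃ a ∈ A, a ≠ 1 ∧ ¬ (Subgroup.normalizer ((Q₁ ⊓ Q₂ : Subgroup G) : Set G) ⊓ Q₁ ⊓ Subgroup.centralizer {a} ≤ Q₁ ⊓ Q₂) ∧ ¬ (Subgroup.normalizer ((Q₁ ⊓ Q₂ : Subgroup G) : Set G) ⊓ Q₂ ⊓ Subgroup.centralizer {a} ≤ Q₁ ⊓ Q₂) := by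
  have hp : p.Prime := Fact.out
  have hAc : ∀ x ∈ A, ∀ y ∈ A, x * y = y * x := fun x hx y hy => by
    have h := hA.1.is_comm.comm ⟨x, hx⟩ ⟨y, hy⟩
    exact congrArg Subtype.val h
  have hAe := hA.2
  have hAne : A ≠ ⊥ := by
    intro h
    rw [h, Subgroup.card_bot] at hA3
    have h1 : 1 < p ^ 3 := Nat.one_lt_pow (by norm_num) hp.one_lt
    omega
  have hAD : A ≤ Subgroup.normalizer ((Q₁ ⊓ Q₂ : Subgroup G) : Set G) := by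
    intro b hb
    apply Lift.conj_le_mem_normalizer
    intro d hd
    exact ⟨(Subgroup.mem_normalizer_iff.1 (hA₁ hb) d).1 hd.1,
      (Subgroup.mem_normalizer_iff.1 (hA₂ hb) d).1 hd.2⟩
  obtain ⟨B₁, hB₁A, hr₁, hn₁⟩ := Gen.exists_hyp p q hqp A Q₁ (Q₁ ⊓ Q₂) hAc hAe hAne h₁
    inf_le_left hD₁ hA₁ hAD
  obtain ⟨B₂, hB₂A, hr₂, hn₂⟩ := Gen.exists_hyp p q hqp A Q₂ (Q₁ ⊓ Q₂) hAc hAe hAne h₂
    inf_le_right hD₂ hA₂ hAD
  have hne := Gen.inf_ne_bot p A B₁ B₂ hA3 hB₁A hB₂A hr₁ hr₂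
  obtain ⟨a, ha1⟩ := (Subgroup.ne_bot_iff_exists_ne_one).1 hne
  refine ⟨a, hB₁A a.2.1, fun h => ha1 (Subtype.ext h), ?_, ?_⟩
  · intro hcon
    apply hn₁
    exact le_trans (inf_le_inf_left _
      (Subgroup.centralizer_le (Set.singleton_subset_iff.2 a.2.1))) hcon
  · intro hcon
    apply hn₂
    exact le_trans (inf_le_inf_left _
      (Subgroup.centralizer_le (Set.singleton_subset_iff.2 a.2.2))) hcon

end Cfsg.Agent.S1282
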