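import Mathlib
import Cfsg.Statements.S1300

set_option autoImplicit false
open Cfsg

namespace Cfsg.Agent.S1300

/-- For a finite group G, balance in the sense of commuting involutions is the same as 1-balance for the prime 2. -/
theorem result {G : Type*} [Group G] [Finite G] : Cfsg.IsBalanced G ↔ Cfsg.IsKBalanced 2 1 G := by
  have hle : ∀ x : G, Cfsg.centralizerPPrimeCore 2 x ≤ Subgroup.centralizer ({x} : Set G) := by
    intro x
    unfold Cfsg.centralizerPPrimeCore
    exact Subgroup.map_subtype_le _
  constructor
  · intro hbal A hA hcard b hb hcomm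
    have hcard2 : Nat.card A = 2 := by simpa using hcard
    have hnt : ∃ x ∈ A, x ≠ 1 := by
      by_contra hcon
      push Not at hcon
      have hbot : A = ⊥ := by
        rw [Subgroup.eq_bot_iff_forall]
        exact hcon
      rw [hbot] at hcard2
      simp at hcard2
    obtain ⟨x, hx, hx1⟩ := hnt
    have hox : orderOf x = 2 := orderOf_eq_prime (hA.2 x hx) hx1
    have h1 : Cfsg.signalizerDelta 2 A ≤ Cfsg.centralizerPPrimeCore 2 x := by
      unfold Cfsg.signalizerDelta
      exact iInf_le (fun a : {a : G // a ∈ A ∧ a ≠ 1} => Cfsg.centralizerPPrimeCore 2 (a : G))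
        ⟨x, hx, hx1⟩
    have h2 := hbal x b hox hb (hcomm x hx)
    calc Cfsg.signalizerDelta 2 A ⊓ Subgroup.centralizer {b}
        ≤ Cfsg.centralizerPPrimeCore 2 x ⊓ Subgroup.centralizer {b} := inf_le_inf_right _ h1
      _ = Cfsg.centralizerPPrimeCore 2 b ⊓ Subgroup.centralizer {x} := h2
      _ ≤ Cfsg.centralizerPPrimeCore 2 b := inf_le_left
  · intro hk
    have key : ∀ x y : G, orderOf x = 2 → orderOf y = 2 → x * y = y * x →
        Cfsg.centralizerPPrimeCore 2 x ⊓ Subgroup.centralizer {y} ≤
          Cfsg.centralizerPPrimeCore 2 y ⊓ Subgroup.centralizer {x} := by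
      intro x y hx hy hxy
      have hx2 : x ^ 2 = 1 := by rw [← hx]; exact pow_orderOf_eq_one x
      have hmemA : ∀ a ∈ Subgroup.zpowers x, a = 1 ∨ a = x := by
        intro a ha
        obtain ⟨k, rfl⟩ := Subgroup.mem_zpowers_iff.1 ha
        have h0 := zpow_mod_orderOf x k
        rw [hx] at h0
        rcases Int.emod_two_eq_zero_or_one k with h | h
        · left
          rw [← h0]
          have : k % ((2 : ℕ) : ℤ) = 0 := by exact_mod_cast h
          rw [this]; simp
        · right
          rw [← h0]
          have : k % ((2 : ℕ) : ℤ) = 1 := by exact_mod_cast h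
          rw [this]; simp
      have hEA : Cfsg.IsElementaryAbelian 2 (Subgroup.zpowers x) := by
        refine ⟨inferInstance, ?_⟩
        intro a ha
        rcases hmemA a ha with rfl | rfl
        · simp
        · exact hx2
      have hcard : Nat.card (Subgroup.zpowers x) = 2 ^ 1 := by
        rw [Nat.card_zpowers, hx]; rfl
      have hcomm : ∀ a ∈ Subgroup.zpowers x, a * y = y * a := by
        intro a ha
        rcases hmemA a ha with rfl | rfl
        · simp
        · exact hxy
      have h1 := hk (Subgroup.zpowers x) hEA hcard y hy hcomm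
      have h2 : Cfsg.centralizerPPrimeCore 2 x ≤ Cfsg.signalizerDelta 2 (Subgroup.zpowers x) := by
        unfold Cfsg.signalizerDelta
        refine le_iInf ?_
        rintro ⟨a, ha, ha1⟩
        rcases hmemA a ha with rfl | rfl
        · exact absurd rfl ha1
        · exact le_rfl
      refine le_inf ?_ ?_
      · exact le_trans (inf_le_inf_right _ h2) h1
      · exact le_trans inf_le_left (hle x)
    intro x y hx hy hxy
    exact le_antisymm (key x y hx hy hxy) (key y x hy hx hxy.symm)

end Cfsg.Agent.S1300
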