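import Mathlib
import Cfsg.Statements.S1304

set_option autoImplicit false
open Cfsg
open scoped commutatorElement

namespace Cfsg.Agent.S1304

/-- Let X be a perfect group and α an automorphism of X with α(x) x⁻¹ central for every x. Then α is the identity. -/
theorem result {X : Type*} [Group X] (hperf : commutator X = ⊤) (α : X ≃* X) (h : ∀ x : X, α x * x⁻¹ ∈ Subgroup.center X) : ∀ x : X, α x = x := by
  have key : ∀ a b : X, α ⁅a, b⁆ = ⁅a, b⁆ := by
    intro a b
    have ha := h a
    have hb := h b
    rw [Subgroup.mem_center_iff] at ha hb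
    have ea : α a = (α a * a⁻¹) * a := by group
    have eb : α b = (α b * b⁻¹) * b := by group
    rw [commutatorElement_def, map_mul, map_mul, map_mul, map_inv, map_inv]
    generalize α a * a⁻¹ = za at ha ea
    generalize α b * b⁻¹ = zb at hb eb
    rw [ea, eb]
    have h1 : za * a * (zb * b) * (za * a)⁻¹ * (zb * b)⁻¹ = za * (a * zb * b * a⁻¹) * za⁻¹ * b⁻¹ * zb⁻¹ := by group
    rw [h1, ← ha (a * zb * b * a⁻¹)]
    have h2 : a * zb * b * a⁻¹ * za * za⁻¹ * b⁻¹ * zb⁻¹ = a * (zb * (b * a⁻¹ * b⁻¹)) * zb⁻¹ := by group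
    rw [h2, ← hb (b * a⁻¹ * b⁻¹)]
    group
  have hle : commutator X ≤ (α.toMonoidHom).eqLocus (MonoidHom.id X) := by
    rw [commutator_def, Subgroup.commutator_le]
    intro a _ b _
    exact key a b
  intro x
  have hx : x ∈ commutator X := by rw [hperf]; trivial
  exact hle hx

end Cfsg.Agent.S1304
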