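import Mathlib
import Cfsg.Agent.Lib.Helper2.Comp
import Cfsg.Statements.S1317

set_option autoImplicit false
open Cfsg
open Cfsg.Agent.Lib.Helper2

namespace Cfsg.Agent.S1317

/-- For a finite group X, the centre of the layer E(X) is F(X) ∩ E(X). -/
theorem result {X : Type*} [Group X] [Finite X] : (Subgroup.center ↥(Cfsg.layer X)).map (Cfsg.layer X).subtype = Cfsg.fittingSubgroup X ⊓ Cfsg.layer X := by
  haveI hEn := Comp.layer_normal (G := X)
  apply le_antisymm
  · refine le_inf ?_ (Subgroup.map_subtype_le _)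
    have hZn : ((Subgroup.center ↥(Cfsg.layer X)).map (Cfsg.layer X).subtype).Normal := by
      constructor
      rintro _ ⟨z, hz, rfl⟩ g
      have hz' := Subgroup.mem_center_iff.1 hz
      refine ⟨⟨g * (z : X) * g⁻¹, hEn.conj_mem _ z.2 g⟩, ?_, rfl⟩
      rw [SetLike.mem_coe, Subgroup.mem_center_iff]
      intro y
      apply Subtype.ext
      have h1 := hz' ⟨g⁻¹ * (y : X) * g, by
        have h0 := hEn.conj_mem _ y.2 g⁻¹
        simpa using h0⟩
      have h2 : g⁻¹ * (y : X) * g * (z : X) = (z : X) * (g⁻¹ * (y : X) * g) :=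
        congrArg Subtype.val h1
      show (y : X) * (g * (z : X) * g⁻¹) = g * (z : X) * g⁻¹ * (y : X)
      calc (y : X) * (g * (z : X) * g⁻¹) = g * (g⁻¹ * (y : X) * g * (z : X)) * g⁻¹ := by group
        _ = g * ((z : X) * (g⁻¹ * (y : X) * g)) * g⁻¹ := by rw [h2]
        _ = g * (z : X) * g⁻¹ * (y : X) := by group
    have hnil : Group.IsNilpotent ↥((Subgroup.center ↥(Cfsg.layer X)).map (Cfsg.layer X).subtype) := by
      apply Comp.nilpotent_of_commutator_central
      have h1 : ⁅(Subgroup.center ↥(Cfsg.layer X)).map (Cfsg.layer X).subtype,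
          (Subgroup.center ↥(Cfsg.layer X)).map (Cfsg.layer X).subtype⁆ = ⊥ := by
        rw [Subgroup.commutator_eq_bot_iff_le_centralizer]
        rintro _ ⟨z, hz, rfl⟩
        rw [Subgroup.mem_centralizer_iff]
        rintro _ ⟨w, hw, rfl⟩
        have h2 := (Subgroup.mem_center_iff.1 hz) w
        exact congrArg Subtype.val h2
      rw [h1]
      exact Subgroup.commutator_bot_left _
    exact Fit.le_fitting _ hZn hnil
  · rintro x ⟨hxF, hxE⟩
    refine ⟨⟨x, hxE⟩, ?_, rfl⟩
    rw [SetLike.mem_coe, Subgroup.mem_center_iff]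
    intro g
    apply Subtype.ext
    have h1 : Cfsg.layer X ≤ Subgroup.centralizer (Cfsg.fittingSubgroup X : Set X) := by
      rw [← Subgroup.commutator_eq_bot_iff_le_centralizer]
      exact Comp.layer_comm_fitting
    have h2 := (Subgroup.mem_centralizer_iff.1 (h1 g.2)) x hxF
    exact h2.symm

end Cfsg.Agent.S1317
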