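import Mathlib
import Cfsg.Agent.Lib.Helper2.Comp
import Cfsg.Statements.S1319

set_option autoImplicit false
open Cfsg
open Cfsg.Agent.Lib.Helper2

namespace Cfsg.Agent.S1319

/-- Let A be a subnormal subgroup of the finite group X with E(A) = A. Then A ≤ E(X) and A is normal in E(X). -/
theorem result {X : Type*} [Group X] [Finite X] (A : Subgroup X) (hsn : A.IsSubnormal) (hA : Cfsg.layer ↥A = ⊤) : A ≤ Cfsg.layer X ∧ (A.subgroupOf (Cfsg.layer X)).Normal := by
  have hle : ∀ K : Subgroup ↥A, Cfsg.IsComponent K → Cfsg.IsComponent (K.map A.subtype) := by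
    intro K hK
    exact ⟨hK.1.trans' hsn, Quasi.quasisimple_of_mulEquiv
      (K.equivMapOfInjective A.subtype A.subtype_injective) hK.2⟩
  have hA1 : A ≤ Cfsg.layer X := by
    have h1 : (Cfsg.layer ↥A).map A.subtype ≤ Cfsg.layer X := by
      rw [Subgroup.map_le_iff_le_comap]
      apply sSup_le
      intro K hK
      rw [← Subgroup.map_le_iff_le_comap]
      exact Comp.le_layer (hle K hK)
    rw [hA] at h1
    intro x hx
    exact h1 ⟨⟨x, hx⟩, trivial, rfl⟩
  refine ⟨hA1, ?_⟩
  rw [Subgroup.normal_subgroupOf_iff_le_normalizer hA1]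
  apply sSup_le
  intro L hL
  rcases Sub.comp_sn ((Sub.relSN_top_iff L).2 hL.1) hL.2 ((Sub.relSN_top_iff A).2 hsn) with h | h
  · exact h.trans Subgroup.le_normalizer
  · rw [Subgroup.commutator_eq_bot_iff_le_centralizer] at h
    intro l hl
    have h1 := Subgroup.mem_centralizer_iff.1 (h hl)
    rw [Subgroup.mem_normalizer_iff]
    intro a
    constructor
    · intro ha
      have h2 := h1 a ha
      have e : l * a * l⁻¹ = a := by
        rw [← h2]; group
      rw [e]; exact ha
    · intro ha
      have h2 := h1 _ ha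
      have e : a = l * a * l⁻¹ := by
        calc a = l⁻¹ * (l * a * l⁻¹ * l) := by group
          _ = l⁻¹ * (l * (l * a * l⁻¹)) := by rw [h2]
          _ = l * a * l⁻¹ := by group
      rw [e]; exact ha

end Cfsg.Agent.S1319
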