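import Mathlib
import Cfsg.Agent.Lib.Helper2.Gen2
import Cfsg.Statements.S1331

set_option autoImplicit false
open Cfsg
open Cfsg.Agent.Lib.Helper2

namespace Cfsg.Agent.S1331

/-- Let θ be a solvable A-signalizer functor on the finite group G for the prime p, A elementary abelian of rank at least 3, X a member of the family of θ, and B ≤ A with |B| ≥ p². Then X is generated by the subgroups X ∩ ⋂_{d ∈ D, d ≠ 1} θ d, D ranging over the subgroups of index p in B. -/
theorem result {G : Type*} [Group G] [Finite G] (p : ℕ) [Fact p.Prime] (A : Subgroup G) (hA : Cfsg.IsElementaryAbelian p A) (hA3 : p ^ 3 ≤ Nat.card ↥A) (θ : G → Subgroup G) (hθ : Cfsg.IsSolvableSignalizerFunctor p A θ) (X : Subgroup G) (hX : X ∈ Cfsg.signalizerFamily p A θ) (B : Subgroup G) (hB : B ≤ A) (hB2 : p ^ 2 ≤ Nat.card ↥B) : X = ⨆ D : {D : Subgroup G // D ≤ B ∧ D.relIndex B = p}, X ⊓ Cfsg.signalizerInf (D : Subgroup G) θ := by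
  obtain ⟨hsol, hXp, hXinv, hXθ⟩ := hX
  have hBc : ∀ x ∈ B, ∀ y ∈ B, x * y = y * x := fun x hx y hy => by
    have h := hA.1.is_comm.comm ⟨x, hB hx⟩ ⟨y, hB hy⟩
    exact congrArg Subtype.val h
  have hBe : ∀ x ∈ B, x ^ p = 1 := fun x hx => hA.2 x (hB hx)
  have hBX : B ≤ Subgroup.normalizer (X : Set G) := by
    intro b hb
    apply Lift.conj_le_mem_normalizer
    intro u hu
    exact hXinv b (hB hb) u hu
  have hBne : B ≠ ⊥ := by
    intro h
    rw [h, Subgroup.card_bot] at hB2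
    have := (Fact.out : p.Prime).one_lt
    nlinarith
  apply le_antisymm
  · refine le_trans (le_of_eq (Gen.gen_exact p B X hBc hBe hBne hXp hBX)) (iSup_le ?_)
    rintro ⟨D, hDB, hD⟩
    refine le_iSup_of_le ⟨D, hDB, hD⟩ ?_
    intro x hx
    refine ⟨hx.1, ?_⟩
    show x ∈ ⨅ a : {a : G // a ∈ D ∧ a ≠ 1}, θ (a : G)
    apply Subgroup.mem_iInf.2
    rintro ⟨a, haD, ha1⟩
    apply hXθ a (hB (hDB haD)) ha1
    exact ⟨hx.1, Subgroup.centralizer_le (Set.singleton_subset_iff.2 haD) hx.2⟩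
  · exact iSup_le (fun D => inf_le_left)

end Cfsg.Agent.S1331
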