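import Mathlib
import Cfsg.Agent.Lib.Helper2.SylowAux
import Cfsg.Statements.S1335

set_option autoImplicit false
open Cfsg
open Cfsg.Agent.Lib.Helper2.SylowAux

namespace Cfsg.Agent.S1335

/-- Let H be a subgroup of the finite group G, p a prime, k ≥ 1, P a Sylow p-subgroup of H of p-rank at least k, and suppose N_G(X) ≤ H for every subgroup X ≤ P of p-rank at least k. Then P is a Sylow p-subgroup of G. -/
theorem result {G : Type*} [Group G] [Finite G] {p : ℕ} [Fact p.Prime] (k : ℕ) (hk : 1 ≤ k) (H : Subgroup G) (P : Sylow p ↥H) (hP : ¬ Cfsg.PRankLE p (k - 1) ↥(P : Subgroup ↥H)) (hΓ : (∀ X : Subgroup G, X ≤ (P : Subgroup ↥H).map H.subtype → ¬ Cfsg.PRankLE p (k - 1) ↥X → Subgroup.normalizer (X : Set G) ≤ H)) : ∃ Q : Sylow p G, (Q : Subgroup G) = (P : Subgroup ↥H).map H.subtype := by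
  have hP0 : IsPGroup p ((P : Subgroup ↥H).map H.subtype) := P.isPGroup'.map _
  have hrank : ¬ Cfsg.PRankLE p (k - 1) ↥((P : Subgroup ↥H).map H.subtype) := by
    intro h
    apply hP
    intro A hAc hAe
    have e := (P : Subgroup ↥H).equivMapOfInjective H.subtype H.subtype_injective
    have h1 := h (A.map e.toMonoidHom) inferInstance (by
      rintro _ ⟨a, ha, rfl⟩
      have h2 := hAe a ha
      show (e a) ^ p = 1
      rw [← map_pow, h2, map_one])
    rw [Subgroup.card_map_of_injective (f := e.toMonoidHom) e.injective] at h1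
    exact h1
  have hN := hΓ _ le_rfl hrank
  obtain ⟨Q, hQ⟩ := hP0.exists_le_sylow
  refine ⟨Q, ?_⟩
  by_contra hne
  obtain ⟨x, hxQ, hxP, hxn⟩ := exists_normalizing_not_mem Q.isPGroup' hQ (fun h => hne h.symm)
  have hxN : x ∈ Subgroup.normalizer (((P : Subgroup ↥H).map H.subtype : Subgroup G) : Set G) := by
    rw [Subgroup.mem_normalizer_iff]
    exact hxn
  have hR : IsPGroup p ((Subgroup.normalizer (((P : Subgroup ↥H).map H.subtype : Subgroup G) : Set G) ⊓
      (Q : Subgroup G)).subgroupOf H) :=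
    (Q.isPGroup'.to_le inf_le_right).comap_subtype
  have hle : (P : Subgroup ↥H) ≤ (Subgroup.normalizer
      (((P : Subgroup ↥H).map H.subtype : Subgroup G) : Set G) ⊓ (Q : Subgroup G)).subgroupOf H := by
    intro y hy
    rw [Subgroup.mem_subgroupOf]
    have hy0 : (y : G) ∈ (P : Subgroup ↥H).map H.subtype := ⟨y, hy, rfl⟩
    exact Subgroup.mem_inf.2 ⟨Subgroup.le_normalizer hy0, hQ hy0⟩
  have heq := P.is_maximal' hR hle
  have hxR : (⟨x, hN hxN⟩ : ↥H) ∈ (Subgroup.normalizer
      (((P : Subgroup ↥H).map H.subtype : Subgroup G) : Set G) ⊓ (Q : Subgroup G)).subgroupOf H := by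
    rw [Subgroup.mem_subgroupOf]
    exact Subgroup.mem_inf.2 ⟨hxN, hxQ⟩
  rw [heq] at hxR
  exact hxP ⟨_, hxR, rfl⟩

end Cfsg.Agent.S1335
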