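import Mathlib
import Cfsg.Statements.S1441
import Cfsg.Agent.Lib.Helper3.Coprime

set_option autoImplicit false
open Cfsg
open scoped commutatorElement
open Cfsg.Agent.Lib.Helper3.Coprime

namespace Cfsg.Agent.S1441

theorem result {G : Type*} [Group G] [Finite G] (H A : Subgroup G) (hH : Group.IsSolvable H) (hA : (A ≤ Subgroup.normalizer (H : Set G)))
    (n : ℕ) (c : Fin (n + 1) → Subgroup G) (hc0 : c 0 = H) (hcn : c (Fin.last n) = ⊥) (hanti : Antitone c)
    (hcN : ∀ i, H ≤ Subgroup.normalizer ((c i : Subgroup G) : Set G)) (hcA : ∀ i, A ≤ Subgroup.normalizer ((c i : Subgroup G) : Set G))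
    (htriv : ∀ i : Fin n, ⁅c i.castSucc, A⁆ ≤ c i.succ) :
    ∀ p : ℕ, p.Prime → p ∣ (A ⊓ Subgroup.centralizer (H : Set G)).relIndex A → p ∣ Nat.card H := by
  intro p hp hdvd
  by_contra hpH
  have : Fact p.Prime := ⟨hp⟩
  obtain ⟨Q⟩ : Nonempty (Sylow p ↥A) := inferInstance
  have hQle : (Q : Subgroup ↥A) ≤ (A ⊓ Subgroup.centralizer (H : Set G)).subgroupOf A := by
    intro a ha
    rw [Subgroup.mem_subgroupOf]
    refine Subgroup.mem_inf.mpr ⟨a.2, ?_⟩
    rw [Subgroup.mem_centralizer_iff]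
    obtain ⟨k, hk⟩ := (IsPGroup.iff_orderOf.mp Q.isPGroup') ⟨a, ha⟩
    have hk' : orderOf (a : G) = p ^ k := by
      rw [Subgroup.orderOf_coe]
      have h1 : orderOf (⟨a, ha⟩ : ↥(Q : Subgroup ↥A)) = orderOf a := Subgroup.orderOf_mk _ _
      rw [← h1, hk]
    have hcop : ∀ d ∈ c 0, (orderOf (a : G)).Coprime (orderOf d) := by
      intro d hd
      rw [hc0] at hd
      have h1 : orderOf d ∣ Nat.card H := by
        have h2 := orderOf_dvd_natCard (⟨d, hd⟩ : ↥H)
        rwa [Subgroup.orderOf_mk] at h2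
      rw [hk']
      exact Nat.Coprime.pow_left k
        (Nat.Coprime.coprime_dvd_right h1 ((Nat.Prime.coprime_iff_not_dvd hp).mpr hpH))
    have hcent := centralizes_of_chain (a : G) n c hcn hanti hcop
      (fun i h hh => htriv i (Subgroup.commutator_mem_commutator hh a.2))
    intro h hh
    exact hcent h (hc0 ▸ hh)
  have h1 : ((A ⊓ Subgroup.centralizer (H : Set G)).subgroupOf A).index ∣ (Q : Subgroup ↥A).index :=
    Subgroup.index_dvd_of_le hQle
  exact Q.not_dvd_index (hdvd.trans h1)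

end Cfsg.Agent.S1441
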