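import Mathlib
import Cfsg.Statements.S1442
import Cfsg.Agent.Lib.Helper3.Coprime
import Cfsg.Agent.Lib.Helper3.PGroup

set_option autoImplicit false
open Cfsg
open scoped commutatorElement
open Cfsg.Agent.Lib.Helper3.Coprime Cfsg.Agent.Lib.Helper3.PGroup

namespace Cfsg.Agent.S1442

theorem result {G : Type*} [Group G] [Finite G] (H A : Subgroup G) (hH : Group.IsNilpotent H) (hA : (A ≤ Subgroup.normalizer (H : Set G))) (hcop : (Nat.card A).Coprime (Nat.card H))
    (hC : H ⊓ Subgroup.centralizer (((H ⊓ Subgroup.centralizer (A : Set G)) : Subgroup G) : Set G) ≤ (H ⊓ Subgroup.centralizer (A : Set G))) :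
    A ≤ Subgroup.centralizer (H : Set G) := by
  by_cases hHC : H ≤ H ⊓ Subgroup.centralizer (A : Set G)
  · exact Subgroup.le_centralizer_iff.mp (hHC.trans inf_le_right)
  exfalso
  have hCA : H ⊓ Subgroup.centralizer (A : Set G) ≤ Subgroup.centralizer (A : Set G) := inf_le_right
  have hHH : ⁅H, H⁆ ≤ H := by
    rw [Subgroup.commutator_le]
    intro g₁ h₁ g₂ h₂
    rw [commutatorElement_def]
    exact H.mul_mem (H.mul_mem (H.mul_mem h₁ h₂) (H.inv_mem h₁)) (H.inv_mem h₂)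
  obtain ⟨x, hxH, hxC, hxh⟩ := exists_comm_mem_of_nilpotent H
    (H ⊓ Subgroup.centralizer (A : Set G)) H H le_rfl le_rfl hHH hHC
  have hxN : x ∈ Subgroup.normalizer ((H ⊓ Subgroup.centralizer (A : Set G) : Subgroup G) : Set G) := by
    apply Subgroup.mem_normalizer_fintype
    intro n hn
    have h1 : x * n * x⁻¹ = ⁅x, n⁆ * n := by
      simp only [commutatorElement_def]; group
    rw [h1]
    exact Subgroup.mul_mem _ (hxh n hn.1) hn
  have h1 : ⁅⁅A, H ⊓ Subgroup.centralizer (A : Set G)⁆,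
      H ⊓ Subgroup.normalizer ((H ⊓ Subgroup.centralizer (A : Set G) : Subgroup G) : Set G)⁆ = ⊥ := by
    have h2 : ⁅A, H ⊓ Subgroup.centralizer (A : Set G)⁆ = ⊥ :=
      Subgroup.commutator_eq_bot_iff_le_centralizer.mpr (Subgroup.le_centralizer_iff.mp hCA)
    rw [h2, Subgroup.commutator_bot_left]
  have h2 : ⁅⁅H ⊓ Subgroup.centralizer (A : Set G),
      H ⊓ Subgroup.normalizer ((H ⊓ Subgroup.centralizer (A : Set G) : Subgroup G) : Set G)⁆, A⁆ = ⊥ := by
    rw [eq_bot_iff]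
    have h3 : ⁅H ⊓ Subgroup.centralizer (A : Set G),
        H ⊓ Subgroup.normalizer ((H ⊓ Subgroup.centralizer (A : Set G) : Subgroup G) : Set G)⁆ ≤
        H ⊓ Subgroup.centralizer (A : Set G) := by
      rw [Subgroup.commutator_le]
      intro c hc d hd
      exact comm_mem_of_mem_normalizer _ d hd.2 c hc
    have h4 : ⁅H ⊓ Subgroup.centralizer (A : Set G), A⁆ = ⊥ :=
      Subgroup.commutator_eq_bot_iff_le_centralizer.mpr hCA
    rw [← h4]
    exact Subgroup.commutator_mono h3 le_rfl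
  have h3 := Subgroup.commutator_commutator_eq_bot_of_rotate h1 h2
  rw [Subgroup.commutator_eq_bot_iff_le_centralizer] at h3
  apply hxC
  refine Subgroup.mem_inf.mpr ⟨hxH, ?_⟩
  rw [Subgroup.mem_centralizer_iff]
  intro a ha
  have hxa : ⁅x, a⁆ ∈ H ⊓ Subgroup.centralizer (A : Set G) := by
    apply hC
    refine Subgroup.mem_inf.mpr ⟨comm_mem_of_mem_normalizer H a (hA ha) x hxH, ?_⟩
    exact h3 (Subgroup.commutator_mem_commutator (Subgroup.mem_inf.mpr ⟨hxH, hxN⟩) ha)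
  have hd : a * ⁅x, a⁆ = ⁅x, a⁆ * a := Subgroup.mem_centralizer_iff.mp hxa.2 a ha
  have ho1 : orderOf a ∣ Nat.card A := by
    have h5 := orderOf_dvd_natCard (⟨a, ha⟩ : ↥A)
    rwa [Subgroup.orderOf_mk] at h5
  have ho2 : orderOf ⁅x, a⁆ ∣ Nat.card H := by
    have h5 := orderOf_dvd_natCard (⟨⁅x, a⁆, hxa.1⟩ : ↥H)
    rwa [Subgroup.orderOf_mk] at h5
  exact (commute_of_coprime_comm x a hd (Nat.Coprime.coprime_dvd_left ho1
    (Nat.Coprime.coprime_dvd_right ho2 hcop))).symm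

end Cfsg.Agent.S1442
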