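import Mathlib
import Cfsg.Statements.S1460
import Cfsg.Agent.S0001
import Cfsg.Agent.S0003

set_option autoImplicit false
open Pointwise
open Cfsg
open scoped commutatorElement

namespace Cfsg.Agent.S1460

/-- Schur–Zassenhaus conjugacy with the conjugating element in the normal subgroup. -/
theorem szN {G : Type*} [Group G] [Finite G] [Group.IsSolvable G] (N : Subgroup G) [N.Normal]
    (H H' : Subgroup G) (hcard : Nat.card H' = Nat.card H)
    (hcop : (Nat.card H).Coprime (Nat.card N)) (hle : H' ≤ H ⊔ N) :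
    ∃ x ∈ N, ∀ h ∈ H, x * h * x⁻¹ ∈ H' := by
  set L := H ⊔ N with hL
  have hHL : H ≤ L := le_sup_left
  have hNL : N ≤ L := le_sup_right
  have hHN : H ⊓ N = ⊥ := (Subgroup.disjoint_of_coprime_natCard hcop).eq_bot
  have cL : Nat.card L = Nat.card H * Nat.card N := by
    have := S0003.card_sup_mul_card_inf H N
    rw [hHN, Subgroup.card_bot, mul_one] at this
    exact this
  have cN' : Nat.card (N.subgroupOf L) = Nat.card N := by
    rw [S0003.card_subgroupOf_eq', inf_of_le_left hNL]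
  have cH1 : Nat.card (H.subgroupOf L) = Nat.card H := by
    rw [S0003.card_subgroupOf_eq', inf_of_le_left hHL]
  have cH2 : Nat.card (H'.subgroupOf L) = Nat.card H := by
    rw [S0003.card_subgroupOf_eq', inf_of_le_left hle, hcard]
  have hc1 : Subgroup.IsComplement' (N.subgroupOf L) (H.subgroupOf L) := by
    apply Subgroup.isComplement'_of_coprime
    · rw [cN', cH1, cL, mul_comm]
    · rw [cN', cH1]; exact hcop.symm
  have hc2 : Subgroup.IsComplement' (N.subgroupOf L) (H'.subgroupOf L) := by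
    apply Subgroup.isComplement'_of_coprime
    · rw [cN', cH2, cL, mul_comm]
    · rw [cN', cH2]; exact hcop.symm
  have hsolv : Group.IsSolvable (N.subgroupOf L) := inferInstance
  obtain ⟨x, hx⟩ := S0001.result (N.subgroupOf L)
    (by rw [cN', hc1.symm.index_eq_card, cH1]; exact hcop.symm) (Or.inl hsolv) _ _ hc1 hc2
  have hxtop : x ∈ ((N.subgroupOf L ⊔ H.subgroupOf L : Subgroup L) : Set L) := by
    rw [hc1.sup_eq_top]; exact Subgroup.mem_top x
  rw [Subgroup.normal_mul] at hxtop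
  obtain ⟨n, hn, h0, hh0, rfl⟩ := hxtop
  refine ⟨(n : G), hn, fun h hh => ?_⟩
  have h1 : (h0⁻¹ * ⟨h, hHL hh⟩ * h0 : L) ∈ H.subgroupOf L := by
    apply Subgroup.mul_mem _ (Subgroup.mul_mem _ (Subgroup.inv_mem _ hh0) _) hh0
    rw [Subgroup.mem_subgroupOf]; exact hh
  have h2 : (n * h0) * (h0⁻¹ * ⟨h, hHL hh⟩ * h0) * (n * h0)⁻¹ ∈
      MulAut.conj (n * h0) • (H.subgroupOf L) := by
    rw [Subgroup.pointwise_smul_def]
    exact ⟨_, h1, rfl⟩
  rw [hx, Subgroup.mem_subgroupOf] at h2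
  have e : ((n * h0) * (h0⁻¹ * ⟨h, hHL hh⟩ * h0) * (n * h0)⁻¹ : L) = n * ⟨h, hHL hh⟩ * n⁻¹ := by
    group
  rw [e] at h2
  exact h2

theorem partC {G : Type*} [Group G] [Finite G] [Group.IsSolvable G] (K U H : Subgroup G)
    [K.Normal] (hKU : K ⊔ U = ⊤) (hH : H ≤ U) (hcop : (Nat.card H).Coprime (Nat.card K))
    (g : G) (hg : ∀ h ∈ H, g * h * g⁻¹ ∈ U) :
    ∃ u ∈ U, ∃ c ∈ K ⊓ Subgroup.centralizer (H : Set G), g = u * c := by
  have hHK : H ⊓ K = ⊥ := (Subgroup.disjoint_of_coprime_natCard hcop).eq_bot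
  have hgtop : g ∈ ((U ⊔ K : Subgroup G) : Set G) := by
    rw [sup_comm, hKU]; exact Subgroup.mem_top g
  rw [Subgroup.mul_normal] at hgtop
  obtain ⟨u, hu, k, hk, rfl⟩ := hgtop
  have hkU : ∀ h ∈ H, k * h * k⁻¹ ∈ U := by
    intro h hh
    have h1 := hg h hh
    have e : k * h * k⁻¹ = u⁻¹ * (u * k * h * (u * k)⁻¹) * u := by group
    rw [e]
    exact U.mul_mem (U.mul_mem (U.inv_mem hu) h1) hu
  -- H' = k H k⁻¹ as a subgroup
  set H' : Subgroup G := H.map (MulAut.conj k).toMonoidHom with hH'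
  have hH'U : H' ≤ U := by
    rintro _ ⟨h, hh, rfl⟩
    exact hkU h hh
  have cH' : Nat.card H' = Nat.card H :=
    Subgroup.card_map_of_injective (MulEquiv.injective (MulAut.conj k))
  -- work in U
  have c1 : Nat.card (H.subgroupOf U) = Nat.card H := by
    rw [S0003.card_subgroupOf_eq', inf_of_le_left hH]
  have c2 : Nat.card (H'.subgroupOf U) = Nat.card H := by
    rw [S0003.card_subgroupOf_eq', inf_of_le_left hH'U, cH']
  have c3 : Nat.card (K.subgroupOf U) ∣ Nat.card K := by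
    rw [S0003.card_subgroupOf_eq']
    exact Subgroup.card_dvd_of_le inf_le_left
  have hle : H'.subgroupOf U ≤ H.subgroupOf U ⊔ K.subgroupOf U := by
    intro y hy
    rw [Subgroup.mem_subgroupOf] at hy
    obtain ⟨h, hh, hy'⟩ := hy
    have hy2 : (y : G) = k * h * k⁻¹ := hy'.symm
    have hcomm : k * h * k⁻¹ * h⁻¹ ∈ K := by
      have : k * h * k⁻¹ * h⁻¹ = k * (h * k⁻¹ * h⁻¹) := by group
      rw [this]
      exact K.mul_mem hk (‹K.Normal›.conj_mem _ (K.inv_mem hk) h)
    have hcommU : k * h * k⁻¹ * h⁻¹ ∈ U := U.mul_mem (hkU h hh) (U.inv_mem (hH hh))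
    have e : y = (⟨h, hH hh⟩ : U) * (⟨h, hH hh⟩⁻¹ * y) := by group
    rw [e]
    apply Subgroup.mul_mem_sup
    · rw [Subgroup.mem_subgroupOf]; exact hh
    · rw [Subgroup.mem_subgroupOf]
      have e2 : (((⟨h, hH hh⟩ : U)⁻¹ * y : U) : G) = h⁻¹ * (k * h * k⁻¹ * h⁻¹) * h := by
        simp only [Subgroup.coe_mul, Subgroup.coe_inv, hy2]
        group
      rw [e2]
      exact ‹K.Normal›.conj_mem' _ hcomm h
  obtain ⟨x, hxK, hx⟩ := szN (K.subgroupOf U) (H.subgroupOf U) (H'.subgroupOf U)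
    (by rw [c1, c2]) (by rw [c1]; exact Nat.Coprime.coprime_dvd_right c3 hcop) hle
  rw [Subgroup.mem_subgroupOf] at hxK
  -- d = x ∈ K ∩ U, d H d⁻¹ ≤ k H k⁻¹
  have hd : ∀ h ∈ H, (x : G) * h * (x : G)⁻¹ ∈ H' := by
    intro h hh
    have := hx ⟨h, hH hh⟩ (by rw [Subgroup.mem_subgroupOf]; exact hh)
    rw [Subgroup.mem_subgroupOf] at this
    simpa using this
  have hc : ∀ h ∈ H, (k⁻¹ * (x : G)) * h * (k⁻¹ * (x : G))⁻¹ ∈ H := by
    intro h hh
    obtain ⟨h2, hh2, e⟩ := hd h hh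
    have e' : k * h2 * k⁻¹ = (x : G) * h * (x : G)⁻¹ := e
    have : (k⁻¹ * (x : G)) * h * (k⁻¹ * (x : G))⁻¹ = h2 := by
      have : (k⁻¹ * (x : G)) * h * (k⁻¹ * (x : G))⁻¹ = k⁻¹ * ((x : G) * h * (x : G)⁻¹) * k := by
        group
      rw [this, ← e']; group
    rw [this]; exact hh2
  have hcK : k⁻¹ * (x : G) ∈ K := K.mul_mem (K.inv_mem hk) hxK
  have hcent : ∀ h ∈ H, h * (k⁻¹ * (x : G)) = (k⁻¹ * (x : G)) * h := by
    intro h hh
    have h1 : (k⁻¹ * (x : G)) * h * (k⁻¹ * (x : G))⁻¹ * h⁻¹ ∈ H ⊓ K := by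
      refine ⟨H.mul_mem (hc h hh) (H.inv_mem hh), ?_⟩
      have : (k⁻¹ * (x : G)) * h * (k⁻¹ * (x : G))⁻¹ * h⁻¹ =
          (k⁻¹ * (x : G)) * (h * (k⁻¹ * (x : G))⁻¹ * h⁻¹) := by group
      rw [this]
      exact K.mul_mem hcK (‹K.Normal›.conj_mem _ (K.inv_mem hcK) h)
    rw [hHK, Subgroup.mem_bot] at h1
    have : (k⁻¹ * (x : G)) * h = h * (k⁻¹ * (x : G)) := by
      have h2 := congrArg (fun t => t * h * (k⁻¹ * (x : G))) h1
      simp only [one_mul] at h2
      rw [← h2]; group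
    exact this.symm
  refine ⟨u * (x : G), U.mul_mem hu x.2, (k⁻¹ * (x : G))⁻¹, ?_, by group⟩
  refine ⟨K.inv_mem hcK, ?_⟩
  apply Subgroup.inv_mem
  rw [Subgroup.mem_centralizer_iff]
  intro h hh
  exact hcent h hh

theorem result {G : Type*} [Group G] [Finite G] [Group.IsSolvable G] (K U H : Subgroup G) [K.Normal] (hKU : K ⊔ U = ⊤) (hH : H ≤ U) (hcop : (Nat.card H).Coprime (Nat.card K)) :
    H ⊓ commutator G = H ⊓ ⁅U, U⁆ ∧
      Subgroup.normalizer (H : Set G) = (K ⊓ Subgroup.centralizer (H : Set G)) ⊔ (U ⊓ Subgroup.normalizer (H : Set G)) ∧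
      ∀ g : G, H.map (MulAut.conj g).toMonoidHom ≤ U → ∃ u ∈ U, ∃ c ∈ K ⊓ Subgroup.centralizer (H : Set G), g = u * c := by
  have hC : ∀ g : G, H.map (MulAut.conj g).toMonoidHom ≤ U →
      ∃ u ∈ U, ∃ c ∈ K ⊓ Subgroup.centralizer (H : Set G), g = u * c := by
    intro g hg
    apply partC K U H hKU hH hcop g
    intro h hh
    exact hg (Subgroup.mem_map_of_mem (MulAut.conj g).toMonoidHom hh)
  have hcn : Subgroup.centralizer (H : Set G) ≤ Subgroup.normalizer (H : Set G) := by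
    intro c hc
    rw [Subgroup.mem_centralizer_iff] at hc
    rw [Subgroup.mem_normalizer_iff]
    intro h
    constructor
    · intro hh
      have : c * h * c⁻¹ = h := by rw [← hc h hh]; group
      rw [this]; exact hh
    · intro hh
      have e := hc _ hh
      have : c * h * c⁻¹ = h := by
        have h2 : c * h * c⁻¹ * c = c * (c * h * c⁻¹) := e
        have h3 : c * h = c * (c * h * c⁻¹) := by rw [← h2]; group
        exact (mul_left_cancel h3).symm
      rw [← this]; exact hh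
  refine ⟨?_, ?_, hC⟩
  · apply le_antisymm
    · -- H ⊓ G' ≤ H ⊓ U'
      rintro h ⟨hh, hhG⟩
      refine ⟨hh, ?_⟩
      have hGW : commutator G ≤ ⁅U, U⁆ ⊔ K := by
        rw [commutator_def, Subgroup.commutator_le]
        intro a _ b _
        have ha : a ∈ ((U ⊔ K : Subgroup G) : Set G) := by
          rw [sup_comm, hKU]; exact Subgroup.mem_top a
        have hb : b ∈ ((U ⊔ K : Subgroup G) : Set G) := by
          rw [sup_comm, hKU]; exact Subgroup.mem_top b
        rw [Subgroup.mul_normal] at ha hb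
        obtain ⟨u1, hu1, k1, hk1, rfl⟩ := ha
        obtain ⟨u2, hu2, k2, hk2, rfl⟩ := hb
        have h1 : ⁅u1, u2⁆ ∈ ⁅U, U⁆ := Subgroup.commutator_mem_commutator hu1 hu2
        have h2 : ⁅u1, u2⁆⁻¹ * ⁅u1 * k1, u2 * k2⁆ ∈ K := by
          rw [← QuotientGroup.eq (s := K)]
          have e1 : ((u1 * k1 : G) : G ⧸ K) = (u1 : G ⧸ K) := by
            rw [QuotientGroup.mk_mul, (QuotientGroup.eq_one_iff k1).2 hk1, mul_one]
          have e2 : ((u2 * k2 : G) : G ⧸ K) = (u2 : G ⧸ K) := by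
            rw [QuotientGroup.mk_mul, (QuotientGroup.eq_one_iff k2).2 hk2, mul_one]
          simp only [commutatorElement_def, QuotientGroup.mk_mul, QuotientGroup.mk_inv, e1, e2]
        have e : ⁅u1 * k1, u2 * k2⁆ = ⁅u1, u2⁆ * (⁅u1, u2⁆⁻¹ * ⁅u1 * k1, u2 * k2⁆) := by group
        rw [e]
        exact Subgroup.mul_mem_sup h1 h2
      have h1 : h ∈ ((⁅U, U⁆ ⊔ K : Subgroup G) : Set G) := hGW hhG
      rw [Subgroup.mul_normal] at h1
      obtain ⟨w, hw, k', hk', hwk⟩ := h1
      have hUU : ⁅U, U⁆ ≤ U := (Subgroup.commutator_le).2 (fun a ha b hb => by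
        rw [commutatorElement_def]
        exact U.mul_mem (U.mul_mem (U.mul_mem ha hb) (U.inv_mem ha)) (U.inv_mem hb))
      have hwU : w ∈ U := hUU hw
      have hk'U : k' ∈ U := by
        have : k' = w⁻¹ * h := by rw [← hwk]; group
        rw [this]; exact U.mul_mem (U.inv_mem hwU) (hH hh)
      -- abelianization of U
      have hw' : (⟨w, hwU⟩ : U) ∈ commutator U := by
        have := Subgroup.map_subtype_commutator U
        rw [← this] at hw
        obtain ⟨w', hw'1, hw'2⟩ := hw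
        have : w' = ⟨w, hwU⟩ := Subtype.ext hw'2
        rw [← this]; exact hw'1
      have e1 : (Abelianization.of (⟨h, hH hh⟩ : U)) = Abelianization.of (⟨k', hk'U⟩ : U) := by
        have : (⟨h, hH hh⟩ : U) = ⟨w, hwU⟩ * ⟨k', hk'U⟩ := Subtype.ext hwk.symm
        rw [this, map_mul]
        have : Abelianization.of (⟨w, hwU⟩ : U) = 1 := by
          rw [← MonoidHom.mem_ker, Abelianization.ker_of]; exact hw'
        rw [this, one_mul]
      have d1 : orderOf (Abelianization.of (⟨h, hH hh⟩ : U)) ∣ Nat.card H := by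
        refine (orderOf_map_dvd _ _).trans ?_
        rw [← Subgroup.orderOf_coe]
        exact Subgroup.orderOf_dvd_natCard H hh
      have d2 : orderOf (Abelianization.of (⟨h, hH hh⟩ : U)) ∣ Nat.card K := by
        rw [e1]
        refine (orderOf_map_dvd _ _).trans ?_
        rw [← Subgroup.orderOf_coe]
        exact Subgroup.orderOf_dvd_natCard K hk'
      have h3 : orderOf (Abelianization.of (⟨h, hH hh⟩ : U)) = 1 :=
        Nat.eq_one_of_dvd_coprimes hcop d1 d2
      rw [orderOf_eq_one_iff, ← MonoidHom.mem_ker, Abelianization.ker_of] at h3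
      rw [← Subgroup.map_subtype_commutator U]
      exact ⟨⟨h, hH hh⟩, h3, rfl⟩
    · apply inf_le_inf_left
      rw [commutator_def]
      exact Subgroup.commutator_mono le_top le_top
  · apply le_antisymm
    · intro g hg
      have hg' : H.map (MulAut.conj g).toMonoidHom ≤ U := by
        rintro _ ⟨h, hh, rfl⟩
        rw [Subgroup.mem_normalizer_iff] at hg
        exact hH ((hg h).1 hh)
      obtain ⟨u, hu, c, hc, rfl⟩ := hC g hg'
      have hcN : c ∈ Subgroup.normalizer (H : Set G) := hcn hc.2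
      have huN : u ∈ Subgroup.normalizer (H : Set G) := by
        have : u = (u * c) * c⁻¹ := by group
        rw [this]
        exact Subgroup.mul_mem _ hg (Subgroup.inv_mem _ hcN)
      exact Subgroup.mul_mem _ (Subgroup.mem_sup_right ⟨hu, huN⟩) (Subgroup.mem_sup_left hc)
    · apply sup_le
      · exact inf_le_right.trans hcn
      · exact inf_le_right

end Cfsg.Agent.S1460
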