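import Mathlib
import Cfsg.Statements.S1467

set_option autoImplicit false
open Cfsg

namespace Cfsg.Agent.S1467

theorem step_anti {G : Type*} [Group G] {X Y : Subgroup G} (h : X ≤ Y) :
    Cfsg.puigStep Y ≤ Cfsg.puigStep X :=
  sSup_le_sSup (fun _ hA => ⟨hA.1, h.trans hA.2⟩)

theorem seq_succ (G : Type*) [Group G] (n : ℕ) :
    Cfsg.puigSeq G (n + 1) = Cfsg.puigStep (Cfsg.puigSeq G n) := rfl

theorem seq_zero (G : Type*) [Group G] : Cfsg.puigSeq G 0 = ⊥ := rfl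

theorem seq_one (G : Type*) [Group G] : Cfsg.puigSeq G 1 = ⊤ := by
  rw [seq_succ, eq_top_iff]
  intro g _
  have h1 : Subgroup.zpowers g ≤ Cfsg.puigStep (Cfsg.puigSeq G 0) := by
    refine le_sSup ⟨inferInstance, ?_⟩
    rw [seq_zero]
    exact bot_le
  exact h1 (Subgroup.mem_zpowers g)

theorem chain (G : Type*) [Group G] (n : ℕ) :
    Cfsg.puigSeq G (2 * n) ≤ Cfsg.puigSeq G (2 * n + 2) ∧
      Cfsg.puigSeq G (2 * n + 3) ≤ Cfsg.puigSeq G (2 * n + 1) := by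
  induction n with
  | zero =>
    refine ⟨?_, ?_⟩
    · rw [seq_zero]; exact bot_le
    · change Cfsg.puigSeq G 3 ≤ Cfsg.puigSeq G 1
      rw [seq_one]; exact le_top
  | succ n ih =>
    have h1 : Cfsg.puigSeq G (2 * (n + 1)) ≤ Cfsg.puigSeq G (2 * (n + 1) + 2) := by
      change Cfsg.puigStep (Cfsg.puigSeq G (2 * n + 1)) ≤ Cfsg.puigStep (Cfsg.puigSeq G (2 * n + 3))
      exact step_anti ih.2
    refine ⟨h1, ?_⟩
    change Cfsg.puigStep (Cfsg.puigSeq G (2 * (n + 1) + 2)) ≤ Cfsg.puigStep (Cfsg.puigSeq G (2 * (n + 1)))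
    exact step_anti h1

theorem even_mono (G : Type*) [Group G] : Monotone (fun n => Cfsg.puigSeq G (2 * n)) :=
  monotone_nat_of_le_succ (fun n => (chain G n).1)

theorem odd_anti (G : Type*) [Group G] : Antitone (fun n => Cfsg.puigSeq G (2 * n + 1)) :=
  antitone_nat_of_succ_le (fun n => (chain G n).2)

theorem even_le_odd_self (G : Type*) [Group G] (k : ℕ) :
    Cfsg.puigSeq G (2 * k) ≤ Cfsg.puigSeq G (2 * k + 1) := by
  induction k with
  | zero => rw [seq_zero]; exact bot_le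
  | succ k ih =>
    have h1 : Cfsg.puigSeq G (2 * k + 2) ≤ Cfsg.puigSeq G (2 * k + 1) := step_anti ih
    have h2 : Cfsg.puigSeq G (2 * k + 2) ≤ Cfsg.puigSeq G (2 * k + 3) := step_anti h1
    exact h2

theorem even_le_odd (G : Type*) [Group G] (n m : ℕ) :
    Cfsg.puigSeq G (2 * n) ≤ Cfsg.puigSeq G (2 * m + 1) := by
  have h1 := even_mono G (le_max_left n m)
  have h2 := odd_anti G (le_max_right n m)
  exact h1.trans ((even_le_odd_self G (max n m)).trans h2)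

theorem result {G : Type*} [Group G] [Finite G] :
    Cfsg.puigSeq G 0 = ⊥ ∧ Cfsg.puigSeq G 1 = ⊤ ∧
      (∀ n m : ℕ, Cfsg.puigSeq G (2 * n) ≤ Cfsg.puigSeq G (2 * n + 2) ∧ Cfsg.puigSeq G (2 * n) ≤ Cfsg.puigSeq G (2 * m + 1) ∧
        Cfsg.puigSeq G (2 * m + 3) ≤ Cfsg.puigSeq G (2 * m + 1)) ∧
      (∃ k : ℕ, ∀ n : ℕ, k ≤ n → Cfsg.puigSeq G (2 * n) = Cfsg.puigLower G ∧ Cfsg.puigSeq G (2 * n + 1) = Cfsg.puigSubgroup G) ∧
      Cfsg.puigLower G ≤ Cfsg.puigSubgroup G ∧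
      Cfsg.puigStep (Cfsg.puigLower G) = Cfsg.puigSubgroup G ∧ Cfsg.puigStep (Cfsg.puigSubgroup G) = Cfsg.puigLower G := by
  have hstab : ∃ k : ℕ, ∀ n : ℕ, k ≤ n → Cfsg.puigSeq G (2 * n) = Cfsg.puigLower G ∧
      Cfsg.puigSeq G (2 * n + 1) = Cfsg.puigSubgroup G := by
    obtain ⟨n₁, h₁⟩ := WellFoundedGT.monotone_chain_condition
      (⟨fun n => Cfsg.puigSeq G (2 * n), even_mono G⟩ : ℕ →o Subgroup G)
    obtain ⟨n₂, h₂⟩ := WellFoundedLT.antitone_chain_condition (odd_anti G)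
    have h₁' : ∀ m, n₁ ≤ m → Cfsg.puigSeq G (2 * n₁) = Cfsg.puigSeq G (2 * m) := h₁
    have hL : Cfsg.puigLower G = Cfsg.puigSeq G (2 * n₁) := by
      apply le_antisymm
      · apply iSup_le
        intro k
        rcases le_total k n₁ with hk | hk
        · exact even_mono G hk
        · exact le_of_eq (h₁' k hk).symm
      · exact le_iSup (fun n => Cfsg.puigSeq G (2 * n)) n₁
    have hU : Cfsg.puigSubgroup G = Cfsg.puigSeq G (2 * n₂ + 1) := by
      apply le_antisymm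
      · exact iInf_le (fun n => Cfsg.puigSeq G (2 * n + 1)) n₂
      · apply le_iInf
        intro k
        rcases le_total k n₂ with hk | hk
        · exact odd_anti G hk
        · exact le_of_eq (h₂ k hk)
    refine ⟨max n₁ n₂, fun m hm => ⟨?_, ?_⟩⟩
    · rw [hL]; exact (h₁' m (le_trans (le_max_left _ _) hm)).symm
    · rw [hU]; exact (h₂ m (le_trans (le_max_right _ _) hm)).symm
  obtain ⟨k, hk⟩ := hstab
  refine ⟨seq_zero G, seq_one G, fun n m => ⟨(chain G n).1, even_le_odd G n m, (chain G m).2⟩,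
    ⟨k, hk⟩, ?_, ?_, ?_⟩
  · exact iSup_le (fun n => le_iInf (fun m => even_le_odd G n m))
  · rw [← (hk k le_rfl).1, ← (hk k le_rfl).2]
    rfl
  · rw [← (hk k le_rfl).2, ← (hk (k + 1) (Nat.le_succ k)).1]
    rfl

end Cfsg.Agent.S1467
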