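import Cfsg.Statements.S1475
import Mathlib
import Cfsg.Agent.Lib.Helper6.ThreePrimes

set_option autoImplicit false
open Cfsg

namespace Cfsg.Agent.S1475

/-- Let G be a finite solvable group such that the order of every element is a prime power (1 included). Then at most two distinct primes divide the order of G. -/
theorem result {G : Type*} [Group G] [Finite G] [Group.IsSolvable G] (h : ∀ g : G, IsPrimePow (orderOf g) ∨ g = 1) :
    (Nat.card G).primeFactors.card ≤ 2 := by
  by_contra hcon
  push_neg at hcon
  obtain ⟨p, q, r, hp, hq, hr, hpq, hpr, hqr⟩ := Finset.two_lt_card_iff.1 hcon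
  have hp' := Nat.prime_of_mem_primeFactors hp
  have hq' := Nat.prime_of_mem_primeFactors hq
  have hr' := Nat.prime_of_mem_primeFactors hr
  have hpd := Nat.dvd_of_mem_primeFactors hp
  have hqd := Nat.dvd_of_mem_primeFactors hq
  have hrd := Nat.dvd_of_mem_primeFactors hr
  have key : ∀ a b : ℕ, a.Prime → b.Prime → a ≠ b → ∀ g : G, orderOf g ≠ a * b := by
    intro a b ha hb hab g hg
    rcases h g with h1 | h1
    · rw [hg, isPrimePow_iff_unique_prime_dvd] at h1
      obtain ⟨c, -, hc⟩ := h1
      have e1 := hc a ⟨ha, Dvd.intro _ rfl⟩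
      have e2 := hc b ⟨hb, Dvd.intro_left _ rfl⟩
      exact hab (e1.trans e2.symm)
    · rw [h1, orderOf_one] at hg
      have h2 := ha.two_le
      have h3 := hb.two_le
      nlinarith
  exact Cfsg.Agent.Lib.Helper6.ThreePrimes.three_primes (Nat.card G) G rfl inferInstance
    hp' hq' hr' hpq hpr hqr hpd hqd hrd (key p q hp' hq' hpq) (key p r hp' hr' hpr)
    (key q r hq' hr' hqr)

end Cfsg.Agent.S1475
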