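import Mathlib
import Cfsg.Statements.S1486
import Cfsg.Agent.Lib.Helper3.CharInd

set_option autoImplicit false
open Cfsg
open scoped ComplexConjugate
open Cfsg.Agent.Lib.Helper3.Char Cfsg.Agent.Lib.Helper3.CharInd

namespace Cfsg.Agent.S1486

theorem result {G : Type*} [Group G] [Fintype G] (H : Subgroup G) [hN : H.Normal] (θ φ : H → ℂ) (hθ : Cfsg.IsIrrCharacter H θ) (hφ : Cfsg.IsIrrCharacter H φ) : ((∃ g : G, φ = fun h : H => θ ⟨g * h * g⁻¹, hN.conj_mem h h.2 g⟩) → Cfsg.indFun H φ = Cfsg.indFun H θ) ∧ ((¬ ∃ g : G, φ = fun h : H => θ ⟨g * h * g⁻¹, hN.conj_mem h h.2 g⟩) → Cfsg.classInner (Cfsg.indFun H φ) (Cfsg.indFun H θ) = 0) := by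
  classical
  refine ⟨?_, ?_⟩
  · rintro ⟨g, rfl⟩
    funext y
    by_cases hy : y ∈ H
    · have e1 := indFun_normal_mem H (fun h : H => θ ⟨g * h * g⁻¹, hN.conj_mem h h.2 g⟩) ⟨y, hy⟩
      have e2 := indFun_normal_mem H θ ⟨y, hy⟩
      rw [e1, e2]
      congr 1
      rw [← Equiv.sum_comp (Equiv.mulLeft g) (fun x => θ ⟨x * y * x⁻¹, hN.conj_mem y hy x⟩)]
      refine Finset.sum_congr rfl (fun x _ => ?_)
      exact congrArg θ (Subtype.ext (by simp [mul_assoc]))
    · rw [indFun_normal_not_mem H _ hy, indFun_normal_not_mem H _ hy]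
  · intro hne
    have _i : Fintype H := Fintype.ofFinite H
    have hcard : (Nat.card H : ℂ) ≠ 0 := by exact_mod_cast Nat.card_pos.ne'
    have key : ∀ x y : G, ∑ h : H, φ ⟨x * h * x⁻¹, hN.conj_mem h h.2 x⟩ *
        conj (θ ⟨y * h * y⁻¹, hN.conj_mem h h.2 y⟩) = 0 := by
      intro x y
      have hne' : (fun h : H => φ ⟨x * h * x⁻¹, hN.conj_mem h h.2 x⟩) ≠
          (fun h : H => θ ⟨y * h * y⁻¹, hN.conj_mem h h.2 y⟩) := by
        intro heq
        apply hne
        refine ⟨y * x⁻¹, ?_⟩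
        funext h
        have hmem : x⁻¹ * (h : G) * x ∈ H := by
          have h1 := hN.conj_mem h h.2 x⁻¹
          rwa [inv_inv] at h1
        have h2 := congrFun heq ⟨x⁻¹ * (h : G) * x, hmem⟩
        have h3 : φ h = φ ⟨x * (x⁻¹ * (h : G) * x) * x⁻¹, hN.conj_mem _ hmem x⟩ :=
          congrArg φ (Subtype.ext (by simp [mul_assoc]))
        rw [h3]
        refine h2.trans ?_
        exact congrArg θ (Subtype.ext (by simp [mul_assoc]))
      have h1 := irr_inner_ne (conj_isIrr H hφ x) (conj_isIrr H hθ y) hne'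
      unfold Cfsg.classInner at h1
      rcases mul_eq_zero.mp h1 with h2 | h2
      · exact absurd (inv_eq_zero.mp h2) hcard
      · exact h2
    unfold Cfsg.classInner
    have hsum : ∑ g : G, Cfsg.indFun H φ g * conj (Cfsg.indFun H θ g) =
        ∑ h : H, Cfsg.indFun H φ h * conj (Cfsg.indFun H θ h) := by
      apply sum_subgroup
      intro g hg
      rw [indFun_normal_not_mem H φ hg, zero_mul]
    rw [hsum]
    have hterm : ∀ h : H, Cfsg.indFun H φ h * conj (Cfsg.indFun H θ h) =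
        (Nat.card H : ℂ)⁻¹ * conj ((Nat.card H : ℂ)⁻¹) *
          ∑ x : G, ∑ y : G, φ ⟨x * h * x⁻¹, hN.conj_mem h h.2 x⟩ *
            conj (θ ⟨y * h * y⁻¹, hN.conj_mem h h.2 y⟩) := by
      intro h
      rw [indFun_normal_mem H φ h, indFun_normal_mem H θ h, map_mul, map_sum, mul_mul_mul_comm,
        Finset.sum_mul_sum]
    rw [Finset.sum_congr rfl (fun h _ => hterm h), ← Finset.mul_sum, Finset.sum_comm]
    have h5 : ∀ x : G, ∑ h : H, ∑ y : G, φ ⟨x * h * x⁻¹, hN.conj_mem h h.2 x⟩ *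
        conj (θ ⟨y * h * y⁻¹, hN.conj_mem h h.2 y⟩) = 0 := by
      intro x
      rw [Finset.sum_comm]
      exact Finset.sum_eq_zero (fun y _ => key x y)
    rw [Finset.sum_eq_zero (fun x _ => h5 x), mul_zero, mul_zero]

end Cfsg.Agent.S1486
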