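import Mathlib
import Cfsg.Statements.S1487
import Cfsg.Agent.Lib.Helper3.CharInd

set_option autoImplicit false
open Cfsg
open scoped ComplexConjugate
open Cfsg.Agent.Lib.Helper3.Char Cfsg.Agent.Lib.Helper3.CharInd

namespace Cfsg.Agent.S1487

theorem eq_of_re_eq {z : ℂ} {n : ℝ} (h1 : ‖z‖ ≤ n) (h2 : z.re = n) : z = (n : ℂ) := by
  have h3 : z.re ^ 2 + z.im ^ 2 ≤ n ^ 2 := by
    have h4 : ‖z‖ ^ 2 = z.re ^ 2 + z.im ^ 2 := by
      rw [Complex.sq_norm, Complex.normSq_apply]; ring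
    have h5 : 0 ≤ ‖z‖ := norm_nonneg z
    nlinarith
  have h6 : z.im = 0 := by
    rw [h2] at h3
    nlinarith [sq_nonneg z.im]
  apply Complex.ext
  · simpa using h2
  · simpa using h6

theorem result {G : Type*} [Group G] [Fintype G] (A H : Subgroup G) [A.Normal] [H.Normal] (hAH : A ≤ H) (θ : H → ℂ) (hθ : Cfsg.IsIrrCharacter H θ) : (∀ a : H, (a : G) ∈ A → θ a = θ 1) ↔ (∀ a : G, a ∈ A → Cfsg.indFun H θ a = Cfsg.indFun H θ 1) := by
  classical
  obtain ⟨n, hn1, hnb⟩ := char_one (isCharacter_of_irr hθ)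
  have hnb' : ∀ g : H, ‖θ g‖ ≤ (n : ℝ) := fun g => hnb g
  have hcard : (Nat.card H : ℂ) ≠ 0 := by exact_mod_cast Nat.card_pos.ne'
  constructor
  · intro h a ha
    have e1 := indFun_normal_mem H θ ⟨a, hAH ha⟩
    have e2 := indFun_normal_mem H θ 1
    rw [e1]
    have e3 : Cfsg.indFun H θ 1 = Cfsg.indFun H θ ((1 : H) : G) := rfl
    rw [e3, e2]
    congr 1
    refine Finset.sum_congr rfl (fun x _ => ?_)
    have h1 : θ ⟨x * a * x⁻¹, ‹H.Normal›.conj_mem a (hAH ha) x⟩ = θ 1 :=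
      h ⟨x * a * x⁻¹, _⟩ (‹A.Normal›.conj_mem a ha x)
    have h2 : θ ⟨x * ((1 : H) : G) * x⁻¹, ‹H.Normal›.conj_mem _ (1 : H).2 x⟩ = θ 1 :=
      congrArg θ (Subtype.ext (by simp))
    exact h1.trans h2.symm
  · intro h a ha
    have h0 := h a ha
    have e1 := indFun_normal_mem H θ a
    have e2 := indFun_normal_mem H θ 1
    have e3 : Cfsg.indFun H θ 1 = Cfsg.indFun H θ ((1 : H) : G) := rfl
    rw [e3, e2, e1] at h0
    have h1 := mul_left_cancel₀ (inv_ne_zero hcard) h0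
    have h2 : ∀ x : G, θ ⟨x * ((1 : H) : G) * x⁻¹, ‹H.Normal›.conj_mem _ (1 : H).2 x⟩ = (n : ℂ) := by
      intro x
      rw [← hn1]
      exact congrArg θ (Subtype.ext (by simp))
    rw [Finset.sum_congr rfl (fun x _ => h2 x)] at h1
    have h3 := congrArg Complex.re h1
    rw [Complex.re_sum, Complex.re_sum] at h3
    have h4 : ∀ x ∈ (Finset.univ : Finset G),
        (θ ⟨x * (a : G) * x⁻¹, ‹H.Normal›.conj_mem a a.2 x⟩).re ≤ ((n : ℂ)).re := by
      intro x _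
      have h5 := hnb' ⟨x * (a : G) * x⁻¹, ‹H.Normal›.conj_mem a a.2 x⟩
      have h6 := Complex.re_le_norm (θ ⟨x * (a : G) * x⁻¹, ‹H.Normal›.conj_mem a a.2 x⟩)
      simp only [Complex.natCast_re]
      linarith
    have h7 := (Finset.sum_eq_sum_iff_of_le h4).mp h3 1 (Finset.mem_univ _)
    have h8 : θ ⟨1 * (a : G) * 1⁻¹, ‹H.Normal›.conj_mem a a.2 1⟩ = ((n : ℝ) : ℂ) := by
      apply eq_of_re_eq (hnb' _)
      simpa using h7
    rw [hn1]
    have h9 : θ a = θ ⟨1 * (a : G) * 1⁻¹, ‹H.Normal›.conj_mem a a.2 1⟩ :=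
      congrArg θ (Subtype.ext (by simp))
    rw [h9, h8]
    simp

end Cfsg.Agent.S1487
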