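import Mathlib
import Cfsg.Statements.S1488
import Cfsg.Agent.Lib.Helper3.Char
import Cfsg.Agent.Lib.Helper3.CharInd
import Cfsg.Agent.S0868

set_option autoImplicit false
open Cfsg
open Cfsg.Agent.Lib.Helper3.Char Cfsg.Agent.Lib.Helper3.CharInd
open scoped ComplexConjugate

namespace Cfsg.Agent.S1488

theorem result {G : Type*} [Group G] [Fintype G] (A H : Subgroup G) [A.Normal] (hAH : A ≤ H) [Fintype (G ⧸ A)] [Fintype ↥(H.map (QuotientGroup.mk' A))] (θ : H → ℂ) (θ₁ : ↥(H.map (QuotientGroup.mk' A)) → ℂ) (hθ : ∀ x : H, θ₁ ⟨QuotientGroup.mk' A x, Subgroup.mem_map_of_mem _ x.2⟩ = θ x) (g : G) : Cfsg.indFun (H.map (QuotientGroup.mk' A)) θ₁ (QuotientGroup.mk' A g) = Cfsg.indFun H θ g := by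
  classical
  have _a : Fintype A := Fintype.ofFinite _
  have key : ∀ y : G, Cfsg.extendByZero H θ y =
      Cfsg.extendByZero (H.map (QuotientGroup.mk' A)) θ₁ (QuotientGroup.mk' A y) := by
    intro y
    by_cases hy : y ∈ H
    · rw [extendByZero_mem H θ hy,
        extendByZero_mem (H.map (QuotientGroup.mk' A)) θ₁ (Subgroup.mem_map_of_mem _ hy)]
      exact (hθ ⟨y, hy⟩).symm
    · have hy' : QuotientGroup.mk' A y ∉ H.map (QuotientGroup.mk' A) := by
        rintro ⟨h, hh, hhy⟩
        apply hy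
        have h1 : h⁻¹ * y ∈ A := by
          have h2 : (QuotientGroup.mk h : G ⧸ A) = QuotientGroup.mk y := hhy
          exact QuotientGroup.eq.mp h2
        have h3 : y = h * (h⁻¹ * y) := by group
        rw [h3]
        exact H.mul_mem hh (hAH h1)
      rw [extendByZero_not_mem H θ hy, extendByZero_not_mem _ θ₁ hy']
  have hcard : (Nat.card H : ℂ) =
      (Nat.card A : ℂ) * (Nat.card ↥(H.map (QuotientGroup.mk' A)) : ℂ) := by
    have h1 := (MonoidHom.ker ((QuotientGroup.mk' A).comp H.subtype)).card_mul_index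
    rw [Subgroup.index_ker] at h1
    have h2 : ((QuotientGroup.mk' A).comp H.subtype).range = H.map (QuotientGroup.mk' A) := by
      rw [MonoidHom.range_comp, Subgroup.range_subtype]
    have h3 : MonoidHom.ker ((QuotientGroup.mk' A).comp H.subtype) = A.subgroupOf H := by
      ext x
      rw [MonoidHom.mem_ker, Subgroup.mem_subgroupOf]
      exact QuotientGroup.eq_one_iff (x : G)
    have h4 : Nat.card ↥(A.subgroupOf H) = Nat.card A :=
      Nat.card_congr (Subgroup.subgroupOfEquivOfLe hAH).toEquiv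
    rw [h2, h3, h4] at h1
    rw [← h1]
    push_cast
    rfl
  unfold Cfsg.indFun
  have hs := Cfsg.Agent.S0868.sum_quot A (fun q : G ⧸ A =>
    Cfsg.extendByZero (H.map (QuotientGroup.mk' A)) θ₁ (q⁻¹ * (QuotientGroup.mk' A) g * q))
  have h5 : ∑ x : G, Cfsg.extendByZero H θ (x⁻¹ * g * x) =
      ∑ x : G, Cfsg.extendByZero (H.map (QuotientGroup.mk' A)) θ₁
        ((QuotientGroup.mk x : G ⧸ A)⁻¹ * (QuotientGroup.mk' A) g * QuotientGroup.mk x) := by
    apply Finset.sum_congr rfl
    intro x _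
    rw [key]
    rfl
  rw [h5, hs, hcard]
  have hA : (Nat.card A : ℂ) ≠ 0 := by exact_mod_cast Nat.card_pos.ne'
  have hB : (Nat.card ↥(H.map (QuotientGroup.mk' A)) : ℂ) ≠ 0 := by
    exact_mod_cast Nat.card_pos.ne'
  field_simp

end Cfsg.Agent.S1488
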