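import Mathlib
import Cfsg.Statements.S1489
import Cfsg.Agent.Lib.Helper3.Char
import Cfsg.Agent.Lib.Helper3.CharCore
import Cfsg.Agent.Lib.Helper3.CharArith
import Cfsg.Agent.Lib.Helper3.CharInd
import Cfsg.Agent.Lib.Helper3.CharStab
import Cfsg.Agent.Lib.Helper3.CharCliff
import Cfsg.Agent.S0148

set_option autoImplicit false
open Cfsg
open Cfsg.Agent.Lib.Helper3.Char Cfsg.Agent.Lib.Helper3.CharCore Cfsg.Agent.Lib.Helper3.CharArith Cfsg.Agent.Lib.Helper3.CharInd Cfsg.Agent.Lib.Helper3.CharStab Cfsg.Agent.Lib.Helper3.CharCliff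
open scoped ComplexConjugate

namespace Cfsg.Agent.S1489

theorem con_of_ind {G : Type*} [Group G] (H T : Subgroup G) [Fintype T] [Fintype H]
    (hHT : H ≤ T) (θ : H → ℂ) (ψ : T → ℂ) (hψ : Cfsg.IsCharacter T ψ)
    (hc : Cfsg.classInner (Cfsg.indFun (H.subgroupOf T)
      (fun x => θ ⟨(x : T), Subgroup.mem_subgroupOf.mp x.2⟩)) ψ ≠ 0) :
    Cfsg.classInner (fun n : H => ψ ⟨n, hHT n.2⟩) θ ≠ 0 := by
  classical
  have _k : Fintype ↥(H.subgroupOf T) := Fintype.ofFinite _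
  rw [frobenius (H.subgroupOf T) _ ψ (char_classFun hψ)] at hc
  have h1 := classInner_equiv (Subgroup.subgroupOfEquivOfLe hHT) θ (fun n : H => ψ ⟨n, hHT n.2⟩)
  have h2 : Cfsg.classInner θ (fun n : H => ψ ⟨n, hHT n.2⟩) ≠ 0 := by
    rw [← h1]
    exact hc
  rw [classInner_conj_symm]
  intro h
  apply h2
  simpa using h

theorem result {G : Type*} [Group G] [Fintype G] (H T : Subgroup G) [hN : H.Normal] [Fintype T] (θ : H → ℂ) (hθ : Cfsg.IsIrrCharacter H θ) (hT : ∀ g : G, g ∈ T ↔ ∀ h : H, θ ⟨g * h * g⁻¹, hN.conj_mem h h.2 g⟩ = θ h) (hHT : H ≤ T) (ψ ψ' : T → ℂ) (hψ : Cfsg.IsIrrCharacter T ψ) (hψ' : Cfsg.IsIrrCharacter T ψ') (hc : Cfsg.classInner (Cfsg.indFun (H.subgroupOf T) (fun x => θ ⟨(x : T), Subgroup.mem_subgroupOf.mp x.2⟩)) ψ ≠ 0) (hc' : Cfsg.classInner (Cfsg.indFun (H.subgroupOf T) (fun x => θ ⟨(x : T), Subgroup.mem_subgroupOf.mp x.2⟩)) ψ' ≠ 0) : Cfsg.IsIrrCharacter G (Cfsg.indFun T ψ) ∧ (Cfsg.indFun T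 ψ = Cfsg.indFun T ψ' → ψ = ψ') := by
  classical
  have _k : Fintype H := Fintype.ofFinite H
  have hψc := isCharacter_of_irr hψ
  have hψc' := isCharacter_of_irr hψ'
  have hθc := isCharacter_of_irr hθ
  have hcon := con_of_ind H T hHT θ ψ hψc hc
  have hcon' := con_of_ind H T hHT θ ψ' hψc' hc'
  have hirr : ∀ φ : T → ℂ, Cfsg.IsIrrCharacter T φ →
      Cfsg.classInner (fun n : H => φ ⟨n, hHT n.2⟩) θ ≠ 0 →
      Cfsg.IsIrrCharacter G (Cfsg.indFun T φ) := by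
    intro φ hφ hφcon
    have hindc : Cfsg.IsCharacter G (Cfsg.indFun T φ) :=
      Cfsg.Agent.S0148.result T φ (isCharacter_of_irr hφ)
    obtain ⟨l, hl, hsum⟩ := isCharacter_decomp hindc
    match l, hl, hsum with
    | [], _, hsum =>
      exfalso
      have h1 := congrFun hsum 1
      rw [indFun_one T φ] at h1
      have h2 : (T.index : ℂ) ≠ 0 := by
        exact_mod_cast Subgroup.index_ne_zero_of_finite
      exact mul_ne_zero h2 (irr_one_ne_zero hφ) h1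
    | χ :: l', hl, hsum =>
      have hχ := hl χ List.mem_cons_self
      obtain ⟨m, hm, hmpos⟩ := inner_list_sum hχ (χ :: l') hl
      have hχφ : Cfsg.classInner (Cfsg.indFun T φ) χ ≠ 0 := by
        rw [hsum, classInner_conj_symm, hm]
        have h3 := (hmpos List.mem_cons_self).ne'
        simpa using h3
      obtain ⟨h1, -⟩ := cliff_core H hN θ hθ T hT hHT φ hφ hφcon χ hχ hχφ
      rw [h1]
      exact hχ
  refine ⟨hirr ψ hψ hcon, ?_⟩
  intro heq
  by_contra hne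
  have hχ := hirr ψ hψ hcon
  have hχc := isCharacter_of_irr hχ
  have hself := irr_inner_self hχ
  have hχψ : Cfsg.classInner (Cfsg.indFun T ψ) (Cfsg.indFun T ψ) ≠ 0 := by
    rw [hself]
    exact one_ne_zero
  obtain ⟨-, h2⟩ := cliff_core H hN θ hθ T hT hHT ψ hψ hcon _ hχ hχψ
  have hresT : Cfsg.IsCharacter T (fun t : T => Cfsg.indFun T ψ t) :=
    comp_isCharacter T.subtype hχc
  have hinnerT : Cfsg.classInner (fun t : T => Cfsg.indFun T ψ t) ψ ≠ 0 := by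
    rw [classInner_conj_symm, ← frobenius T ψ _ (char_classFun hχc), hself]
    simp
  have hinnerT' : Cfsg.classInner (fun t : T => Cfsg.indFun T ψ t) ψ' ≠ 0 := by
    rw [classInner_conj_symm, ← frobenius T ψ' _ (char_classFun hχc), ← heq, hself]
    simp
  have hΔ1 := sub_isCharacter hresT hψ hinnerT
  have hinner2 : Cfsg.classInner ((fun t : T => Cfsg.indFun T ψ t) - ψ) ψ' ≠ 0 := by
    rw [classInner_sub_left, irr_inner_ne hψ hψ' hne, sub_zero]
    exact hinnerT'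
  have hΔ2 := sub_isCharacter hΔ1 hψ' hinner2
  have hΔH : Cfsg.IsCharacter H ((((fun t : T => Cfsg.indFun T ψ t) - ψ) - ψ') ∘
      (Subgroup.inclusion hHT)) := comp_isCharacter (Subgroup.inclusion hHT) hΔ2
  obtain ⟨k, hk⟩ := inner_char_nat hΔH hθc
  obtain ⟨e', he'⟩ := inner_char_nat (comp_isCharacter (Subgroup.inclusion hHT) hψc') hθc
  have he'' : Cfsg.classInner (fun n : H => ψ' ⟨n, hHT n.2⟩) θ = (e' : ℂ) := he'
  have hfe : Cfsg.classInner (fun n : H => Cfsg.indFun T ψ n) θ =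
      Cfsg.classInner (fun n : H => ψ ⟨n, hHT n.2⟩) θ +
      Cfsg.classInner (fun n : H => ψ' ⟨n, hHT n.2⟩) θ + (k : ℂ) := by
    rw [← hk, ← classInner_add_left, ← classInner_add_left]
    congr 1
    funext n
    change Cfsg.indFun T ψ n = ψ ⟨n, hHT n.2⟩ + ψ' ⟨n, hHT n.2⟩ +
      (Cfsg.indFun T ψ n - ψ ⟨n, hHT n.2⟩ - ψ' ⟨n, hHT n.2⟩)
    ring
  rw [h2, he''] at hfe
  have h5 : (e' : ℂ) + (k : ℂ) = 0 := by linear_combination -hfe
  have h6 : e' + k = 0 := by exact_mod_cast h5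
  apply hcon'
  rw [he'']
  have h7 : e' = 0 := by omega
  rw [h7]
  simp

end Cfsg.Agent.S1489
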