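import Mathlib
import Cfsg.Statements.S1490
import Cfsg.Agent.Lib.Helper3.Char
import Cfsg.Agent.Lib.Helper3.CharCore
import Cfsg.Agent.Lib.Helper3.CharTable
import Cfsg.Agent.Lib.Helper3.CharInd
import Cfsg.Agent.Lib.Helper3.CharArith
import Cfsg.Agent.Lib.Helper3.CharNormal
import Cfsg.Agent.Lib.Helper3.CharStab
import Cfsg.Agent.Lib.Helper3.CharCliff
import Cfsg.Agent.Lib.Helper3.CharAb

set_option autoImplicit false
open Cfsg
open Cfsg.Agent.Lib.Helper3.Char Cfsg.Agent.Lib.Helper3.CharCore Cfsg.Agent.Lib.Helper3.CharTable Cfsg.Agent.Lib.Helper3.CharInd Cfsg.Agent.Lib.Helper3.CharArith Cfsg.Agent.Lib.Helper3.CharNormal Cfsg.Agent.Lib.Helper3.CharStab Cfsg.Agent.Lib.Helper3.CharCliff Cfsg.Agent.Lib.Helper3.CharAb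
open scoped ComplexConjugate

namespace Cfsg.Agent.S1490

theorem list_additive {A : Type*} [AddMonoid A] (f : A → ℂ) (h0 : f 0 = 0)
    (hadd : ∀ a b, f (a + b) = f a + f b) (l : List A) (hl : ∀ a ∈ l, f a = 0) :
    f l.sum = 0 := by
  induction l with
  | nil => simpa using h0
  | cons a l ih =>
    rw [List.sum_cons, hadd, hl a (by simp), ih (fun b hb => hl b (by simp [hb])), add_zero]

theorem ind_structure {G : Type*} [Group G] [Fintype G] (H T : Subgroup G) (hN : H.Normal)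
    (θ : H → ℂ) (hθ : Cfsg.IsIrrCharacter H θ)
    (hT : ∀ g : G, g ∈ T ↔ ∀ h : H, θ ⟨g * h * g⁻¹, hN.conj_mem h h.2 g⟩ = θ h)
    (hab : ∀ x ∈ T, ∀ y ∈ T, x * y * x⁻¹ * y⁻¹ ∈ H) :
    ∃ (e : ℕ) (C : Finset (G → ℂ)), 0 < e ∧ (∀ χ ∈ C, Cfsg.IsIrrCharacter G χ) ∧
      e ^ 2 * C.card * Nat.card H = Nat.card T ∧ Cfsg.indFun H θ = (e : ℂ) • ∑ χ ∈ C, χ ∧
      (∀ χ ∈ C, χ 1 = (T.index : ℂ) * e * θ 1) ∧
      (Nat.Coprime (Nat.card H) (H.relIndex T) → e = 1) := by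
  classical
  have _h : Fintype H := Fintype.ofFinite _
  have _t : Fintype T := Fintype.ofFinite _
  have _k : Fintype ↥(H.subgroupOf T) := Fintype.ofFinite _
  have _j : Fintype (Cfsg.IrrCharacter G) := Fintype.ofFinite _
  have _hNi : H.Normal := hN
  have hθc := isCharacter_of_irr hθ
  have hHT : H ≤ T := by
    intro g hg
    rw [hT]
    intro h
    exact char_classFun hθc h ⟨g, hg⟩
  have hN' : (H.subgroupOf T).Normal := inferInstance
  let eq : ↥(H.subgroupOf T) ≃* H := Subgroup.subgroupOfEquivOfLe hHT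
  have hθ' : Cfsg.IsIrrCharacter ↥(H.subgroupOf T) (θ ∘ eq) :=
    comp_isIrr eq.toMonoidHom eq.surjective hθ
  have hinv' : ∀ (t : T) (h : ↥(H.subgroupOf T)),
      (θ ∘ eq) ⟨t * h * t⁻¹, hN'.conj_mem (h : T) h.2 t⟩ = (θ ∘ eq) h := by
    intro t h
    exact (hT t).mp t.2 (eq h)
  have hab' : ∀ x y : T, x * y * x⁻¹ * y⁻¹ ∈ H.subgroupOf T := by
    intro x y
    rw [Subgroup.mem_subgroupOf]
    exact hab x x.2 y y.2
  obtain ⟨e, hepos, hall, hcop1⟩ := tlevel (H.subgroupOf T) hN' (θ ∘ eq) hθ' hinv' hab'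
  have hinner : ∀ ψ : T → ℂ, Cfsg.classInner (fun x : ↥(H.subgroupOf T) => ψ x) (θ ∘ eq) =
      Cfsg.classInner (fun n : H => ψ ⟨n, hHT n.2⟩) θ := by
    intro ψ
    exact classInner_equiv eq (fun n : H => ψ ⟨n, hHT n.2⟩) θ
  have hkey : ∀ χ : G → ℂ, Cfsg.IsIrrCharacter G χ →
      Cfsg.classInner (fun n : H => χ n) θ ≠ 0 →
        Cfsg.classInner (fun n : H => χ n) θ = (e : ℂ) := by
    intro χ hχ hne
    have hχc := isCharacter_of_irr hχ
    have hresT : Cfsg.IsCharacter T (fun t : T => χ t) := comp_isCharacter T.subtype hχc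
    obtain ⟨l, hl, hsum⟩ := isCharacter_decomp hresT
    have hex : ∃ ψ ∈ l, Cfsg.classInner (fun n : H => ψ ⟨n, hHT n.2⟩) θ ≠ 0 := by
      by_contra hcon
      push Not at hcon
      apply hne
      have h1 : (fun n : H => χ n) = fun n : H => l.sum ⟨n, hHT n.2⟩ := by
        funext n
        rw [← hsum]
      rw [h1]
      apply list_additive (fun ψ : T → ℂ => Cfsg.classInner (fun n : H => ψ ⟨n, hHT n.2⟩) θ)
      · exact classInner_zero_left θ
      · intro a b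
        exact classInner_add_left (fun n : H => a ⟨n, hHT n.2⟩) (fun n : H => b ⟨n, hHT n.2⟩) θ
      · exact hcon
    obtain ⟨ψ, hψl, hψne⟩ := hex
    have hψ := hl ψ hψl
    have hχψ : Cfsg.classInner (Cfsg.indFun T ψ) χ ≠ 0 := by
      rw [frobenius T ψ χ (char_classFun hχc), hsum]
      obtain ⟨m, hm, hmpos⟩ := inner_list_sum hψ l hl
      rw [hm]
      exact_mod_cast (hmpos hψl).ne'
    have hcl := cliff_core H hN θ hθ T hT hHT ψ hψ hψne χ hχ hχψ
    rw [hcl.2, ← hinner ψ]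
    apply hall ψ hψ
    rw [hinner ψ]
    exact hψne
  let S : Finset (Cfsg.IrrCharacter G) := Finset.univ.filter
    (fun χ => Cfsg.classInner (fun n : H => (χ : G → ℂ) n) θ ≠ 0)
  let C : Finset (G → ℂ) := S.map (Function.Embedding.subtype _)
  have hC : ∀ χ ∈ C, Cfsg.IsIrrCharacter G χ ∧ Cfsg.classInner (fun n : H => χ n) θ ≠ 0 := by
    intro χ hχ
    obtain ⟨χ', hχ', rfl⟩ := Finset.mem_map.mp hχ
    exact ⟨χ'.2, (Finset.mem_filter.mp hχ').2⟩
  have hind : Cfsg.indFun H θ = (e : ℂ) • ∑ χ ∈ C, χ := by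
    have hexp := class_fun_expand (Cfsg.indFun H θ) (indFun_classFun H θ)
    rw [Finset.sum_map, Finset.smul_sum, Finset.sum_filter]
    conv_lhs => rw [hexp]
    apply Finset.sum_congr rfl
    intro χ _
    rw [ind_coef H θ e χ χ.2 (hkey χ χ.2)]
    split_ifs
    · rfl
    · rw [zero_smul]
  have hdeg : ∀ χ ∈ C, χ 1 = (T.index : ℂ) * e * θ 1 := by
    intro χ hχ
    obtain ⟨hχi, hχne⟩ := hC χ hχ
    rw [degree_over H hN θ hθ T hT χ hχi hχne, hkey χ hχi hχne]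
    ring
  have hθ1 := irr_one_ne_zero hθ
  have hcount : e ^ 2 * C.card * Nat.card H = Nat.card T := by
    have h1 := congrFun hind 1
    rw [indFun_one, Pi.smul_apply, Finset.sum_apply, Finset.sum_congr rfl hdeg, Finset.sum_const,
      smul_eq_mul, nsmul_eq_mul] at h1
    have h2 : ((H.index : ℕ) : ℂ) = ((e ^ 2 * C.card * T.index : ℕ) : ℂ) := by
      push_cast
      have h3 : (H.index : ℂ) * θ 1 = ((e : ℂ) ^ 2 * (C.card : ℂ) * (T.index : ℂ)) * θ 1 := by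
        rw [h1]
        ring
      exact mul_right_cancel₀ hθ1 h3
    have h4 : H.index = e ^ 2 * C.card * T.index := by exact_mod_cast h2
    have h5 := H.card_mul_index
    have h6 := T.card_mul_index
    have h7 : 0 < T.index := Nat.pos_of_ne_zero T.index_ne_zero_of_finite
    have h8 : (e ^ 2 * C.card * Nat.card H) * T.index = Nat.card T * T.index := by
      rw [h6, ← h5, h4]
      ring
    exact Nat.eq_of_mul_eq_mul_right h7 h8
  refine ⟨e, C, hepos, fun χ hχ => (hC χ hχ).1, hcount, hind, hdeg, ?_⟩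
  intro hcop
  have hcard : Nat.card ↥(H.subgroupOf T) = Nat.card H := Nat.card_congr eq.toEquiv
  have h9 := (H.subgroupOf T).card_mul_index
  rw [hcard, ← hcount] at h9
  have h10 : (H.subgroupOf T).index = e ^ 2 * C.card := by
    have h11 : Nat.card H * (H.subgroupOf T).index = Nat.card H * (e ^ 2 * C.card) := by
      rw [h9]
      ring
    exact Nat.eq_of_mul_eq_mul_left Nat.card_pos h11
  apply hcop1
  · rw [hcard]
    exact hcop
  · rw [h10]
    exact ⟨e * C.card, by ring⟩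

theorem result {G : Type*} [Group G] [Fintype G] (H T : Subgroup G) [hN : H.Normal] (θ : H → ℂ) (hθ : Cfsg.IsIrrCharacter H θ) (hT : ∀ g : G, g ∈ T ↔ ∀ h : H, θ ⟨g * h * g⁻¹, hN.conj_mem h h.2 g⟩ = θ h) (hab : ∀ x ∈ T, ∀ y ∈ T, x * y * x⁻¹ * y⁻¹ ∈ H) : ∃ (e : ℕ) (C : Finset (G → ℂ)), 0 < e ∧ (∀ χ ∈ C, Cfsg.IsIrrCharacter G χ) ∧ e ^ 2 * C.card * Nat.card H = Nat.card T ∧ Cfsg.indFun H θ = (e : ℂ) • ∑ χ ∈ C, χ ∧ ∀ χ ∈ C, χ 1 = (T.index : ℂ) * e * θ 1 := by
  obtain ⟨e, C, h1, h2, h3, h4, h5, -⟩ := ind_structure H T hN θ hθ hT hab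
  exact ⟨e, C, h1, h2, h3, h4, h5⟩

end Cfsg.Agent.S1490
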