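import Mathlib
import Cfsg.Statements.S1491
import Cfsg.Agent.Lib.Helper3.Char
import Cfsg.Agent.S1490

set_option autoImplicit false
open Cfsg
open Cfsg.Agent.Lib.Helper3.Char
open scoped ComplexConjugate

namespace Cfsg.Agent.S1491

theorem result {G : Type*} [Group G] [Fintype G] (H T : Subgroup G) [hN : H.Normal] (θ : H → ℂ) (hθ : Cfsg.IsIrrCharacter H θ) (hT : ∀ g : G, g ∈ T ↔ ∀ h : H, θ ⟨g * h * g⁻¹, hN.conj_mem h h.2 g⟩ = θ h) (hab : ∀ x ∈ T, ∀ y ∈ T, x * y * x⁻¹ * y⁻¹ ∈ H) (hcop : Nat.Coprime (Nat.card H) (H.relIndex T)) : ∃ C : Finset (G → ℂ), (∀ χ ∈ C, Cfsg.IsIrrCharacter G χ) ∧ C.card = H.relIndex T ∧ Cfsg.indFun H θ = ∑ χ ∈ C, χ ∧ ∀ χ ∈ C, χ 1 = (T.index : ℂ) * θ 1 := by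
  obtain ⟨e, C, h1, h2, h3, h4, h5, h6⟩ := Cfsg.Agent.S1490.ind_structure H T hN θ hθ hT hab
  have he := h6 hcop
  subst he
  have hHT : H ≤ T := by
    intro g hg
    rw [hT]
    intro h
    exact char_classFun (isCharacter_of_irr hθ) h ⟨g, hg⟩
  refine ⟨C, h2, ?_, ?_, ?_⟩
  · have h7 := Subgroup.relIndex_mul_index hHT
    have h8 := H.card_mul_index
    have h9 := T.card_mul_index
    have h10 : 0 < T.index := Nat.pos_of_ne_zero T.index_ne_zero_of_finite
    have h11 : (C.card * Nat.card H) * T.index = (H.relIndex T * Nat.card H) * T.index := by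
      have h12 : C.card * Nat.card H = Nat.card T := by
        rw [← h3]
        ring
      rw [h12, h9, ← h8, ← h7]
      ring
    have h13 := Nat.eq_of_mul_eq_mul_right h10 h11
    exact Nat.eq_of_mul_eq_mul_right Nat.card_pos h13
  · rw [h4]
    simp
  · intro χ hχ
    rw [h5 χ hχ]
    simp

end Cfsg.Agent.S1491
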