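import Mathlib
import Cfsg.Statements.S1492
import Cfsg.Agent.Lib.Helper3.Char
import Cfsg.Agent.Lib.Helper3.CharCore
import Cfsg.Agent.Lib.Helper3.CharArith
import Cfsg.Agent.Lib.Helper3.CharInd
import Cfsg.Agent.Lib.Helper3.CharProj
import Cfsg.Agent.S0139

set_option autoImplicit false
open Cfsg
open Cfsg.Agent.Lib.Helper3.Char Cfsg.Agent.Lib.Helper3.CharCore Cfsg.Agent.Lib.Helper3.CharArith Cfsg.Agent.Lib.Helper3.CharInd Cfsg.Agent.Lib.Helper3.CharProj
open scoped ComplexConjugate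

namespace Cfsg.Agent.S1492

universe u

theorem irr_norm {H : Type u} [Group H] [Finite H] {θ : H → ℂ} (hθ : Cfsg.IsIrrCharacter H θ) :
    ∃ n : ℕ, 0 < n ∧ θ 1 = (n : ℂ) ∧ ∀ g : H, ‖θ g‖ ≤ (n : ℝ) := by
  obtain ⟨n, hn, h1⟩ := irr_one_pos hθ
  obtain ⟨k, ρ, hirr, rfl⟩ := hθ
  refine ⟨n, hn, h1, ?_⟩
  intro g
  have h2 := rep_char_norm_le ρ g
  have h3 : (Module.finrank ℂ (Fin k → ℂ) : ℂ) = (n : ℂ) := by
    rw [← h1]
    exact (Representation.char_one ρ).symm
  have h4 : Module.finrank ℂ (Fin k → ℂ) = n := by exact_mod_cast h3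
  rw [h4] at h2
  exact h2

theorem scalar_norm {H : Type u} [Group H] [Finite H] {θ : H → ℂ}
    (hθ : Cfsg.IsIrrCharacter H θ) (d : H) (hd : ∀ c : H, θ (d * c * d⁻¹ * c⁻¹) = θ 1) :
    ‖θ d‖ = ‖θ 1‖ := by
  obtain ⟨k, ρ, hirr, rfl⟩ := hθ
  have _hi : ρ.IsIrreducible := hirr
  have hcomm : ∀ c : H, ρ d ∘ₗ ρ c = ρ c ∘ₗ ρ d := by
    intro c
    have h1 := hd c
    rw [Representation.char_one] at h1
    have h2 := (Cfsg.Agent.S0139.result ρ (d * c * d⁻¹ * c⁻¹)).mp h1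
    have h3 : ρ (d * c) = ρ (d * c * d⁻¹ * c⁻¹) * ρ (c * d) := by
      rw [← map_mul]
      congr 1
      group
    rw [h2, map_mul, map_mul] at h3
    exact h3
  obtain ⟨a, ha⟩ := commute_scalar ρ (ρ d) hcomm
  have hk : ρ d ^ orderOf d = 1 := by rw [← map_pow, pow_orderOf_eq_one, map_one]
  have htr1 : LinearMap.trace ℂ (Fin k → ℂ) (1 : (Fin k → ℂ) →ₗ[ℂ] (Fin k → ℂ)) =
      (Module.finrank ℂ (Fin k → ℂ) : ℂ) := LinearMap.trace_one ℂ (Fin k → ℂ)
  have hfr : (Module.finrank ℂ (Fin k → ℂ) : ℂ) ≠ 0 := by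
    have h1 := irr_one_ne_zero (⟨k, ρ, hirr, rfl⟩ : Cfsg.IsIrrCharacter H ρ.character)
    rw [Representation.char_one] at h1
    exact h1
  have hone : (LinearMap.id : (Fin k → ℂ) →ₗ[ℂ] (Fin k → ℂ)) = 1 := rfl
  have hapow : a ^ orderOf d = 1 := by
    rw [ha, hone, smul_pow, one_pow] at hk
    have h1 := congrArg (LinearMap.trace ℂ (Fin k → ℂ)) hk
    rw [map_smul, htr1, smul_eq_mul] at h1
    exact mul_right_cancel₀ hfr (h1.trans (one_mul _).symm)
  have hnorm : ‖a‖ = 1 := Complex.norm_eq_one_of_pow_eq_one hapow (orderOf_pos d).ne'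
  have hd1 : ρ.character d = a * (Module.finrank ℂ (Fin k → ℂ) : ℂ) := by
    show LinearMap.trace ℂ (Fin k → ℂ) (ρ d) = _
    rw [ha, hone, map_smul, htr1, smul_eq_mul]
  rw [hd1, Representation.char_one, norm_mul, hnorm, one_mul]

theorem eq_of_sum {ι : Type*} (s : Finset ι) (n : ι → ℕ) (z : ι → ℂ)
    (hz : ∀ i ∈ s, ‖z i‖ ≤ (n i : ℝ)) (h : ∑ i ∈ s, z i = ∑ i ∈ s, (n i : ℂ)) :
    ∀ i ∈ s, z i = (n i : ℂ) := by
  have hre : ∀ i ∈ s, 0 ≤ (n i : ℝ) - (z i).re := by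
    intro i hi
    have h1 := Complex.re_le_norm (z i)
    have h2 := hz i hi
    linarith
  have hsum : ∑ i ∈ s, ((n i : ℝ) - (z i).re) = 0 := by
    rw [Finset.sum_sub_distrib]
    have h1 := congrArg Complex.re h
    rw [Complex.re_sum, Complex.re_sum] at h1
    simp only [Complex.natCast_re] at h1
    rw [h1]
    exact sub_self _
  have h0 := (Finset.sum_eq_zero_iff_of_nonneg hre).mp hsum
  intro i hi
  have h1 : (z i).re = (n i : ℝ) := by
    have h9 := h0 i hi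
    linarith
  have h2 := hz i hi
  have h3 : (z i).im = 0 := by
    have h4 : ‖z i‖ ^ 2 = (z i).re ^ 2 + (z i).im ^ 2 := by
      rw [Complex.sq_norm, Complex.normSq_apply]
      ring
    have h5 : ‖z i‖ ^ 2 ≤ (n i : ℝ) ^ 2 := pow_le_pow_left₀ (norm_nonneg _) h2 2
    rw [h4, h1] at h5
    nlinarith [sq_nonneg (z i).im]
  apply Complex.ext
  · rw [h1]
    simp
  · rw [h3]
    simp

theorem sum_norm_sq {H : Type u} [Group H] [Fintype H] {θ : H → ℂ}
    (hθ : Cfsg.IsIrrCharacter H θ) : ∑ h : H, ‖θ h‖ ^ 2 = (Nat.card H : ℝ) := by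
  have h1 := irr_inner_self hθ
  unfold Cfsg.classInner at h1
  have hH0 : (Nat.card H : ℂ) ≠ 0 := by exact_mod_cast Nat.card_pos.ne'
  have h2 := (inv_mul_eq_one₀ hH0).mp h1
  have h4 : ((∑ h : H, ‖θ h‖ ^ 2 : ℝ) : ℂ) = ((Nat.card H : ℝ) : ℂ) := by
    push_cast
    rw [h2]
    apply Finset.sum_congr rfl
    intro h _
    rw [Complex.mul_conj, Complex.normSq_eq_norm_sq]
    push_cast
    rfl
  exact_mod_cast h4

theorem result {G : Type*} [Group G] [Finite G] (ψ : G → ℂ) (hψ : Cfsg.IsIrrCharacter G ψ) (B C D : Subgroup G) (hBD : B ≤ D) (hDC : D ≤ C) (hBn : ∀ c ∈ C, ∀ b ∈ B, c * b * c⁻¹ ∈ B) (hcent : ∀ d ∈ D, ∀ c ∈ C, d * c * d⁻¹ * c⁻¹ ∈ B) (hker : ∀ b ∈ B, ψ b = ψ 1) : ‖ψ 1‖ ^ 2 * (Nat.card C : ℝ) * (Nat.card D : ℝ) ≤ (Nat.card G : ℝ) ^ 2 := by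
  classical
  have _fg : Fintype G := Fintype.ofFinite G
  have _fc : Fintype C := Fintype.ofFinite C
  have hψc := isCharacter_of_irr hψ
  have hres : Cfsg.IsCharacter C (fun c : C => ψ c) := comp_isCharacter C.subtype hψc
  obtain ⟨l, hl, hsum⟩ := isCharacter_decomp hres
  have hsum' : (fun c : C => ψ c) = ∑ i : Fin l.length, l.get i := by
    rw [hsum, ← List.sum_ofFn, List.ofFn_get]
  have hirr : ∀ i : Fin l.length, Cfsg.IsIrrCharacter C (l.get i) :=
    fun i => hl _ (List.get_mem l i)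
  choose n hnpos hn1 hnle using (fun i : Fin l.length => irr_norm (hirr i))
  have hval : ∀ c : C, ψ c = ∑ i : Fin l.length, l.get i c := by
    intro c
    have h1 := congrFun hsum' c
    rw [Finset.sum_apply] at h1
    exact h1
  have hB : ∀ (i : Fin l.length) (b : C), (b : G) ∈ B → l.get i b = (n i : ℂ) := by
    intro i b hb
    have key : ∑ j : Fin l.length, l.get j b = ∑ j : Fin l.length, (n j : ℂ) := by
      rw [← hval b, hker b hb]
      have h2 := hval 1
      rw [Finset.sum_congr rfl (fun j _ => hn1 j)] at h2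
      exact h2
    exact eq_of_sum Finset.univ n (fun j => l.get j b) (fun j _ => hnle j b) key i
      (Finset.mem_univ i)
  have hD : ∀ (i : Fin l.length) (d : C), (d : G) ∈ D → ‖l.get i d‖ = (n i : ℝ) := by
    intro i d hd
    have h1 := scalar_norm (hirr i) d (by
      intro c
      rw [hn1 i]
      apply hB i
      exact hcent d hd c c.2)
    rw [h1, hn1 i]
    simp
  have hcard : (Finset.univ.filter (fun c : C => (c : G) ∈ D)).card = Nat.card D := by
    rw [← Fintype.card_subtype, Fintype.card_eq_nat_card]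
    exact Nat.card_congr ⟨fun x => ⟨x.1.1, x.2⟩, fun d => ⟨⟨d.1, hDC d.2⟩, d.2⟩,
      fun x => rfl, fun d => rfl⟩
  have hdeg : ∀ i : Fin l.length, (n i : ℝ) ^ 2 * (Nat.card D : ℝ) ≤ (Nat.card C : ℝ) := by
    intro i
    have h3 := sum_norm_sq (hirr i)
    have h5 : ∑ c ∈ Finset.univ.filter (fun c : C => (c : G) ∈ D), ‖l.get i c‖ ^ 2 ≤
        ∑ c : C, ‖l.get i c‖ ^ 2 :=
      Finset.sum_le_sum_of_subset_of_nonneg (Finset.filter_subset _ _)
        (fun c _ _ => sq_nonneg _)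
    have h6 : ∑ c ∈ Finset.univ.filter (fun c : C => (c : G) ∈ D), ‖l.get i c‖ ^ 2 =
        (Nat.card D : ℝ) * (n i : ℝ) ^ 2 := by
      rw [Finset.sum_congr rfl (fun c hc => by rw [hD i c (Finset.mem_filter.mp hc).2]),
        Finset.sum_const, nsmul_eq_mul, hcard]
    linarith
  have hm : (l.length : ℝ) * (Nat.card C : ℝ) ≤ (Nat.card G : ℝ) := by
    have h3 := sum_norm_sq hψ
    have h4 : ∑ c : C, ‖ψ c‖ ^ 2 ≤ ∑ g : G, ‖ψ g‖ ^ 2 := by
      rw [← Finset.sum_subtype (Finset.univ.filter (fun x => x ∈ C)) (fun x => by simp)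
        (fun g => ‖ψ g‖ ^ 2)]
      exact Finset.sum_le_sum_of_subset_of_nonneg (Finset.filter_subset _ _)
        (fun c _ _ => sq_nonneg _)
    have hC0 : (Nat.card C : ℂ) ≠ 0 := by exact_mod_cast Nat.card_pos.ne'
    have h5 : (Nat.card C : ℂ) * Cfsg.classInner (fun c : C => ψ c) (fun c : C => ψ c) =
        ∑ c : C, ψ c * conj (ψ c) := by
      unfold Cfsg.classInner
      rw [← mul_assoc, mul_inv_cancel₀ hC0, one_mul]
    have h6 : Cfsg.classInner (fun c : C => ψ c) (fun c : C => ψ c) =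
        ((∑ i : Fin l.length, ∑ j : Fin l.length,
          (if l.get i = l.get j then 1 else 0) : ℕ) : ℂ) := by
      rw [hsum', classInner_sum_left]
      push_cast
      apply Finset.sum_congr rfl
      intro i _
      rw [classInner_sum_right]
      apply Finset.sum_congr rfl
      intro j _
      rw [irr_orthonormal (hirr i) (hirr j)]
    have h7 : l.length ≤ ∑ i : Fin l.length, ∑ j : Fin l.length,
        (if l.get i = l.get j then 1 else 0) := by
      have h8 : ∀ i : Fin l.length, 1 ≤ ∑ j : Fin l.length,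
          (if l.get i = l.get j then 1 else 0) := by
        intro i
        have h9 := Finset.single_le_sum
          (f := fun j : Fin l.length => if l.get i = l.get j then 1 else 0)
          (fun j _ => Nat.zero_le _) (Finset.mem_univ i)
        rw [if_pos rfl] at h9
        exact h9
      have h10 := Finset.sum_le_sum (fun (i : Fin l.length) (_ : i ∈ Finset.univ) => h8 i)
      rw [Finset.sum_const, Finset.card_univ, Fintype.card_fin, smul_eq_mul, mul_one] at h10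
      exact h10
    have h11 : ((∑ c : C, ‖ψ c‖ ^ 2 : ℝ) : ℂ) = ∑ c : C, ψ c * conj (ψ c) := by
      push_cast
      apply Finset.sum_congr rfl
      intro c _
      rw [Complex.mul_conj, Complex.normSq_eq_norm_sq]
      push_cast
      rfl
    rw [← h5, h6] at h11
    have h12 : (∑ c : C, ‖ψ c‖ ^ 2 : ℝ) = (Nat.card C : ℝ) *
        ((∑ i : Fin l.length, ∑ j : Fin l.length,
          (if l.get i = l.get j then 1 else 0) : ℕ) : ℝ) := by
      apply Complex.ofReal_injective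
      rw [h11, Complex.ofReal_mul, Complex.ofReal_natCast, Complex.ofReal_natCast]
    have h13 : (l.length : ℝ) ≤ ((∑ i : Fin l.length, ∑ j : Fin l.length,
          (if l.get i = l.get j then 1 else 0) : ℕ) : ℝ) := by exact_mod_cast h7
    have hCpos : (0 : ℝ) ≤ (Nat.card C : ℝ) := Nat.cast_nonneg _
    nlinarith
  have hψ1 : ‖ψ 1‖ = ∑ i : Fin l.length, (n i : ℝ) := by
    have h2 := hval 1
    rw [Finset.sum_congr rfl (fun j _ => hn1 j)] at h2
    have h3 : ψ 1 = ((∑ i : Fin l.length, (n i : ℝ) : ℝ) : ℂ) := by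
      push_cast
      exact h2
    rw [h3, Complex.norm_real, Real.norm_of_nonneg]
    exact Finset.sum_nonneg (fun i _ => Nat.cast_nonneg _)
  have hcs : (∑ i : Fin l.length, (n i : ℝ)) ^ 2 ≤
      (l.length : ℝ) * ∑ i : Fin l.length, (n i : ℝ) ^ 2 := by
    have h1 := sq_sum_le_card_mul_sum_sq (s := (Finset.univ : Finset (Fin l.length)))
      (f := fun i => (n i : ℝ))
    rw [Finset.card_univ, Fintype.card_fin] at h1
    exact h1
  have hsumdeg : (∑ i : Fin l.length, (n i : ℝ) ^ 2) * (Nat.card D : ℝ) ≤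
      (l.length : ℝ) * (Nat.card C : ℝ) := by
    rw [Finset.sum_mul]
    have h1 := Finset.sum_le_sum (fun (i : Fin l.length) (_ : i ∈ Finset.univ) => hdeg i)
    rw [Finset.sum_const, Finset.card_univ, Fintype.card_fin, nsmul_eq_mul] at h1
    exact h1
  rw [hψ1]
  have hC0 : (0 : ℝ) ≤ (Nat.card C : ℝ) := Nat.cast_nonneg _
  have hD0 : (0 : ℝ) ≤ (Nat.card D : ℝ) := Nat.cast_nonneg _
  have hl0 : (0 : ℝ) ≤ (l.length : ℝ) := Nat.cast_nonneg _
  have hG0 : (0 : ℝ) ≤ (Nat.card G : ℝ) := Nat.cast_nonneg _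
  have hS0 : (0 : ℝ) ≤ ∑ i : Fin l.length, (n i : ℝ) ^ 2 :=
    Finset.sum_nonneg (fun i _ => sq_nonneg _)
  calc (∑ i : Fin l.length, (n i : ℝ)) ^ 2 * (Nat.card C : ℝ) * (Nat.card D : ℝ)
      ≤ ((l.length : ℝ) * ∑ i : Fin l.length, (n i : ℝ) ^ 2) * (Nat.card C : ℝ) *
          (Nat.card D : ℝ) := by
        apply mul_le_mul_of_nonneg_right _ hD0
        exact mul_le_mul_of_nonneg_right hcs hC0
    _ = (l.length : ℝ) * (Nat.card C : ℝ) *
          ((∑ i : Fin l.length, (n i : ℝ) ^ 2) * (Nat.card D : ℝ)) := by ring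
    _ ≤ (l.length : ℝ) * (Nat.card C : ℝ) * ((l.length : ℝ) * (Nat.card C : ℝ)) :=
        mul_le_mul_of_nonneg_left hsumdeg (mul_nonneg hl0 hC0)
    _ ≤ (Nat.card G : ℝ) * (Nat.card G : ℝ) :=
        mul_le_mul hm hm (mul_nonneg hl0 hC0) hG0
    _ = (Nat.card G : ℝ) ^ 2 := by ring

end Cfsg.Agent.S1492
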