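import Mathlib
import Cfsg.Statements.S1493
import Cfsg.Agent.Lib.Helper3.Char
import Cfsg.Agent.Lib.Helper3.CharCore
import Cfsg.Agent.Lib.Helper3.CharGalConj

set_option autoImplicit false
open Cfsg
open Cfsg.Agent.Lib.Helper3.Char Cfsg.Agent.Lib.Helper3.CharCore Cfsg.Agent.Lib.Helper3.CharGalConj
open scoped ComplexConjugate

namespace Cfsg.Agent.S1493

theorem result {G : Type*} [Group G] [Finite G] (a b k : ℕ) (hab : Nat.card G = a * b) (hcop : Nat.Coprime a b) (hk : Nat.Coprime k a) (χ : G → ℂ) (hχ : Cfsg.IsCharacter G χ) : ∃ χ' : G → ℂ, Cfsg.IsCharacter G χ' ∧ (Cfsg.IsIrrCharacter G χ → Cfsg.IsIrrCharacter G χ') ∧ (∀ g : G, orderOf g ∣ a → χ' g = χ (g ^ k)) ∧ (∀ g : G, Nat.Coprime (orderOf g) a → χ' g = χ g) := by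
  obtain ⟨m, hm1, hm2⟩ := Nat.chineseRemainder hcop k 1
  have hma : m.Coprime a := by
    have h1 := hm1.gcd_eq
    rw [Nat.Coprime, h1]
    exact hk
  have hmb : m.Coprime b := by
    have h1 := hm2.gcd_eq
    rw [Nat.Coprime, h1]
    exact Nat.gcd_one_left b
  have hm : m.Coprime (Nat.card G) := by
    rw [hab]
    exact Nat.Coprime.mul_right hma hmb
  refine ⟨fun g => χ (g ^ m), pow_isCharacter m hm hχ, fun h => pow_isIrr m hm h, ?_, ?_⟩
  · intro g hg
    have h1 : m ≡ k [MOD orderOf g] := hm1.of_dvd hg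
    change χ (g ^ m) = χ (g ^ k)
    rw [pow_eq_pow_iff_modEq.mpr h1]
  · intro g hg
    have h1 : orderOf g ∣ b := by
      have h2 : orderOf g ∣ a * b := hab ▸ orderOf_dvd_natCard g
      exact hg.dvd_of_dvd_mul_left h2
    have h3 : m ≡ 1 [MOD orderOf g] := hm2.of_dvd h1
    change χ (g ^ m) = χ g
    rw [pow_eq_pow_iff_modEq.mpr h3, pow_one]

end Cfsg.Agent.S1493
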