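import Mathlib
import Cfsg.Statements.S1494
import Cfsg.Agent.Lib.Helper3.Char
import Cfsg.Agent.Lib.Helper3.CharCore
import Cfsg.Agent.Lib.Helper3.CharInd
import Cfsg.Agent.Lib.Helper3.CharLinear
import Cfsg.Agent.S0187

set_option autoImplicit false
open Cfsg
open Cfsg.Agent.Lib.Helper3.Char Cfsg.Agent.Lib.Helper3.CharCore Cfsg.Agent.Lib.Helper3.CharInd Cfsg.Agent.Lib.Helper3.CharLinear
open scoped ComplexConjugate

namespace Cfsg.Agent.S1494

theorem linear_sub {A : Type*} [Group A] [Finite A] (p : ℕ) (hp : p.Prime) (lam : A →* ℂˣ)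
    (x y : A) (hx : x ^ p = 1) :
    ∃ ω : ℂ, IsIntegral ℤ ω ∧ (lam (x * y) : ℂ) - (lam y : ℂ) =
      (1 - Complex.exp (2 * Real.pi * Complex.I / p)) * ω := by
  have hε := Complex.isPrimitiveRoot_exp p hp.ne_zero
  generalize Complex.exp (2 * Real.pi * Complex.I / p) = ε at hε ⊢
  have : NeZero p := ⟨hp.ne_zero⟩
  have h1 : ((lam x : ℂˣ) : ℂ) ^ p = 1 := by
    rw [← Units.val_pow_eq_pow_val, ← map_pow, hx, map_one]
    rfl
  obtain ⟨k, -, hk⟩ := hε.eq_pow_of_pow_eq_one h1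
  have hεint : IsIntegral ℤ ε :=
    IsIntegral.of_pow hp.pos (by rw [hε.pow_eq_one]; exact isIntegral_one)
  have hyint : IsIntegral ℤ ((lam y : ℂˣ) : ℂ) := by
    apply IsIntegral.of_pow (Nat.card_pos (α := A))
    rw [← Units.val_pow_eq_pow_val, ← map_pow, pow_card_eq_one', map_one]
    exact isIntegral_one
  refine ⟨-((lam y : ℂ) * ∑ j ∈ Finset.range k, ε ^ j), ?_, ?_⟩
  · exact (hyint.mul (IsIntegral.sum _ (fun j _ => hεint.pow j))).neg
  · rw [map_mul, Units.val_mul, ← hk]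
    have h2 := geom_sum_mul ε k
    linear_combination (-(lam y : ℂ)) * h2

theorem list_sub {A : Type*} [Group A] [Finite A] (hcomm : ∀ a b : A, a * b = b * a) (p : ℕ)
    (hp : p.Prime) (x y : A) (hx : x ^ p = 1) (l : List (A → ℂ))
    (hl : ∀ θ ∈ l, Cfsg.IsIrrCharacter A θ) :
    ∃ ω : ℂ, IsIntegral ℤ ω ∧ l.sum (x * y) - l.sum y =
      (1 - Complex.exp (2 * Real.pi * Complex.I / p)) * ω := by
  induction l with
  | nil => exact ⟨0, isIntegral_zero, by simp⟩
  | cons θ l ih =>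
    obtain ⟨ω₁, h1, h2⟩ := ih (fun ψ hψ => hl ψ (List.mem_cons_of_mem _ hψ))
    have hθ := hl θ List.mem_cons_self
    have hdeg : θ 1 = 1 := (Cfsg.Agent.S0187.result.mp hcomm) ⟨θ, hθ⟩
    obtain ⟨lam, rfl⟩ := hom_of_deg_one (isCharacter_of_irr hθ) hdeg
    obtain ⟨ω₂, h3, h4⟩ := linear_sub p hp lam x y hx
    refine ⟨ω₂ + ω₁, h3.add h1, ?_⟩
    rw [List.sum_cons, Pi.add_apply, Pi.add_apply]
    linear_combination h4 + h2

theorem char_sub {G : Type*} [Group G] [Finite G] (χ : G → ℂ) (hχ : Cfsg.IsCharacter G χ)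
    (p : ℕ) (hp : p.Prime) (x y : G) (hx : x ^ p = 1) (hxy : x * y = y * x) :
    ∃ ω : ℂ, IsIntegral ℤ ω ∧ χ (x * y) - χ y =
      (1 - Complex.exp (2 * Real.pi * Complex.I / p)) * ω := by
  have hxA : x ∈ Subgroup.closure ({x, y} : Set G) := Subgroup.subset_closure (by simp)
  have hyA : y ∈ Subgroup.closure ({x, y} : Set G) := Subgroup.subset_closure (by simp)
  have hcommS : ∀ s ∈ ({x, y} : Set G), ∀ t ∈ ({x, y} : Set G), s * t = t * s := by
    intro s hs t ht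
    rcases hs with rfl | hs <;> rcases ht with rfl | ht
    · rfl
    · rw [Set.mem_singleton_iff] at ht
      subst ht
      exact hxy
    · rw [Set.mem_singleton_iff] at hs
      subst hs
      exact hxy.symm
    · rw [Set.mem_singleton_iff] at hs ht
      rw [hs, ht]
  have h1 : Subgroup.closure ({x, y} : Set G) ≤ Subgroup.centralizer ({x, y} : Set G) :=
    (Subgroup.closure_le _).mpr
      (fun s hs => Subgroup.mem_centralizer_iff.mpr (fun t ht => hcommS t ht s hs))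
  have h2 : Subgroup.closure ({x, y} : Set G) ≤
      Subgroup.centralizer (Subgroup.closure ({x, y} : Set G) : Set G) :=
    (Subgroup.closure_le _).mpr (fun s hs => Subgroup.mem_centralizer_iff.mpr
      (fun t ht => (Subgroup.mem_centralizer_iff.mp (h1 ht) s hs).symm))
  have hcomm : ∀ a b : Subgroup.closure ({x, y} : Set G), a * b = b * a := by
    intro a b
    apply Subtype.ext
    exact (Subgroup.mem_centralizer_iff.mp (h2 b.2) a a.2)
  have hres : Cfsg.IsCharacter (Subgroup.closure ({x, y} : Set G))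
      (χ ∘ (Subgroup.closure ({x, y} : Set G)).subtype) :=
    comp_isCharacter (Subgroup.closure ({x, y} : Set G)).subtype hχ
  obtain ⟨l, hl, hsum⟩ := isCharacter_decomp hres
  obtain ⟨ω, h3, h4⟩ := list_sub hcomm p hp ⟨x, hxA⟩ ⟨y, hyA⟩ (Subtype.ext hx) l hl
  refine ⟨ω, h3, ?_⟩
  rw [← hsum] at h4
  exact h4

theorem result {G : Type*} [Group G] [Finite G] (χ : G → ℂ) (hχ : Cfsg.IsGeneralizedCharacter G χ) (p : ℕ) (hp : p.Prime) (x y : G) (hx : orderOf x = p) (hxy : x * y = y * x) : ∃ ω : ℂ, IsIntegral ℤ ω ∧ χ (x * y) - χ y = (1 - Complex.exp (2 * Real.pi * Complex.I / p)) * ω := by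
  obtain ⟨χ₁, χ₂, h1, h2, rfl⟩ := hχ
  have hxp : x ^ p = 1 := by rw [← hx, pow_orderOf_eq_one]
  obtain ⟨ω₁, h3, h4⟩ := char_sub χ₁ h1 p hp x y hxp hxy
  obtain ⟨ω₂, h5, h6⟩ := char_sub χ₂ h2 p hp x y hxp hxy
  refine ⟨ω₁ - ω₂, h3.sub h5, ?_⟩
  rw [Pi.sub_apply, Pi.sub_apply]
  linear_combination h4 - h6

end Cfsg.Agent.S1494
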