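import Mathlib
import Cfsg.Statements.S1495

set_option autoImplicit false
open Cfsg

namespace Cfsg.Agent.S1495

theorem not_isIntegral_inv_prime (p : ℕ) (hp : p.Prime) : ¬ IsIntegral ℤ ((p : ℂ)⁻¹) := by
  intro h
  have h1 : ((p : ℂ)⁻¹) = algebraMap ℚ ℂ ((p : ℚ)⁻¹) := by simp
  rw [h1, isIntegral_algebraMap_iff (algebraMap ℚ ℂ).injective] at h
  obtain ⟨z, hz⟩ := IsIntegrallyClosed.isIntegral_iff.mp h
  have hp0 : (p : ℚ) ≠ 0 := by exact_mod_cast hp.ne_zero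
  have h2 : (z : ℚ) * p = 1 := by
    have h5 : (algebraMap ℤ ℚ z) = (z : ℚ) := rfl
    rw [h5] at hz
    rw [hz]; field_simp
  have h3 : z * (p : ℤ) = 1 := by exact_mod_cast h2
  have h4 : IsUnit (p : ℤ) := IsUnit.of_mul_eq_one z (by rw [mul_comm]; exact h3)
  rw [Int.isUnit_iff] at h4
  rcases h4 with h4 | h4
  · have h6 : p = 1 := by exact_mod_cast h4
    exact hp.one_lt.ne' h6
  · have h6 : (0:ℤ) ≤ p := Int.natCast_nonneg p
    omega

theorem result (p : ℕ) (hp : p.Prime) (n : ℤ) (ω : ℂ) (hω : IsIntegral ℤ ω) (h : (n : ℂ) = (1 - Complex.exp (2 * Real.pi * Complex.I / p)) * ω) : (p : ℤ) ∣ n := by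
  classical
  have : Fact p.Prime := ⟨hp⟩
  have hεp : (Complex.exp (2 * Real.pi * Complex.I / p)) ^ p = 1 := by
    rw [← Complex.exp_nat_mul]
    have hp0 : (p : ℂ) ≠ 0 := by exact_mod_cast hp.ne_zero
    have h1 : (p : ℂ) * (2 * Real.pi * Complex.I / p) = 2 * Real.pi * Complex.I := by field_simp
    rw [h1, Complex.exp_two_pi_mul_I]
  generalize Complex.exp (2 * Real.pi * Complex.I / p) = ε at h hεp
  have hεint : IsIntegral ℤ ε := by
    refine IsIntegral.of_pow hp.pos ?_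
    rw [hεp]; exact isIntegral_one
  have hn' : ((n : ℤ) : integralClosure ℤ ℂ) = (1 - ⟨ε, hεint⟩) * ⟨ω, hω⟩ := by
    apply Subtype.ext
    simpa using h
  have hpnu : ¬ IsUnit ((p : ℕ) : integralClosure ℤ ℂ) := by
    intro hu
    obtain ⟨v, hv⟩ := hu.exists_right_inv
    have h1 : (p : ℂ) * (v : ℂ) = 1 := by
      have h2 := congrArg Subtype.val hv
      simpa using h2
    have hp0 : (p : ℂ) ≠ 0 := by exact_mod_cast hp.ne_zero
    have h2 : (v : ℂ) = (p : ℂ)⁻¹ := eq_inv_of_mul_eq_one_right h1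
    exact not_isIntegral_inv_prime p hp (h2 ▸ v.2)
  have hne : Ideal.span {((p : ℕ) : integralClosure ℤ ℂ)} ≠ ⊤ := by
    rw [Ne, Ideal.span_singleton_eq_top]; exact hpnu
  obtain ⟨M, hM, hle⟩ := Ideal.exists_le_maximal _ hne
  have hpM : ((p : ℕ) : integralClosure ℤ ℂ) ∈ M := hle (Ideal.mem_span_singleton_self _)
  let _i := Ideal.Quotient.field M
  have hp0 : ((p : ℕ) : integralClosure ℤ ℂ ⧸ M) = 0 := by
    have h1 : Ideal.Quotient.mk M ((p : ℕ) : integralClosure ℤ ℂ) = 0 :=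
      Ideal.Quotient.eq_zero_iff_mem.mpr hpM
    simpa using h1
  have hchar : CharP (integralClosure ℤ ℂ ⧸ M) p := (CharP.charP_iff_prime_eq_zero hp).mpr hp0
  have hε1 : Ideal.Quotient.mk M ⟨ε, hεint⟩ = 1 := by
    have h1 : (Ideal.Quotient.mk M ⟨ε, hεint⟩ - 1) ^ p = 0 := by
      rw [sub_pow_char, one_pow, ← map_pow]
      have h2 : (⟨ε, hεint⟩ : integralClosure ℤ ℂ) ^ p = 1 := Subtype.ext (by simpa using hεp)
      rw [h2, map_one, sub_self]
    exact sub_eq_zero.mp ((pow_eq_zero_iff hp.ne_zero).mp h1)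
  have hn0 : ((n : ℤ) : integralClosure ℤ ℂ ⧸ M) = 0 := by
    have h1 : Ideal.Quotient.mk M ((n : ℤ) : integralClosure ℤ ℂ) = 0 := by
      rw [hn', map_mul, map_sub, map_one, hε1, sub_self, zero_mul]
    simpa using h1
  exact (CharP.intCast_eq_zero_iff (integralClosure ℤ ℂ ⧸ M) p n).mp hn0

end Cfsg.Agent.S1495
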