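import Mathlib
import Cfsg.Statements.S1497

set_option autoImplicit false
open Cfsg

namespace Cfsg.Agent.S1497

theorem result {G : Type*} [Group G] [Finite G] (A : Set G) (hA : A.Nonempty) (h1 : (1 : G) ∉ A) (L : Subgroup G) : (Cfsg.IsTISubset A ∧ Subgroup.normalizer A = L) ↔ Cfsg.DadeHypothesis A L (fun _ => ⊥) := by
  constructor
  · rintro ⟨hTI, hN⟩
    have hmemL : ∀ g : G, ∀ x ∈ A, g * x * g⁻¹ ∈ A → g ∈ L := by
      intro g x hx hgx
      rw [← hN]
      by_contra hg
      exact h1 (hTI g hg x hx hgx ▸ hx)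
    have hcentL : ∀ a ∈ A, Subgroup.centralizer ({a} : Set G) ≤ L := by
      intro a ha c hc
      apply hmemL c a ha
      have h2 : c * a * c⁻¹ = a := by
        have := Subgroup.mem_centralizer_iff.mp hc a rfl
        rw [← this]; simp
      rw [h2]; exact ha
    refine ⟨h1, ?_, ?_, ?_, ?_, ?_, ?_, ?_, ?_⟩
    · intro a ha
      apply hmemL a a ha
      simpa using ha
    · intro x hx a ha
      rw [← hN] at hx
      exact (Subgroup.mem_set_normalizer_iff.mp hx a).mp ha
    · intro a ha g hg
      exact ⟨g, hmemL g a ha hg, rfl⟩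
    · intro a ha
      exact bot_le
    · intro a ha c hc u hu
      rw [Subgroup.mem_bot] at hu ⊢
      rw [hu]; simp
    · intro a ha
      exact bot_inf_eq _
    · intro a ha
      rw [bot_sup_eq]
      exact inf_eq_right.mpr (hcentL a ha)
    · intro a ha b hb
      simp
  · intro hD
    have hcentL : ∀ a ∈ A, Subgroup.centralizer ({a} : Set G) ≤ L := by
      intro a ha
      have h2 := hD.sup_eq a ha
      rw [bot_sup_eq] at h2
      exact inf_eq_right.mp h2
    have hLN : L ≤ Subgroup.normalizer A := by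
      intro x hx
      rw [Subgroup.mem_set_normalizer_iff]
      intro h
      constructor
      · intro hh
        exact hD.conj_mem x hx h hh
      · intro hh
        have h3 := hD.conj_mem x⁻¹ (L.inv_mem hx) _ hh
        have h4 : x⁻¹ * (x * h * x⁻¹) * x⁻¹⁻¹ = h := by simp [mul_assoc]
        rwa [h4] at h3
    have hmemL : ∀ g : G, ∀ x ∈ A, g * x * g⁻¹ ∈ A → g ∈ L := by
      intro g x hx hgx
      obtain ⟨y, hy, hyx⟩ := hD.fusion x hx g hgx
      have h5 : y⁻¹ * g ∈ Subgroup.centralizer ({x} : Set G) := by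
        rw [Subgroup.mem_centralizer_iff]
        intro z hz
        rw [Set.mem_singleton_iff] at hz
        subst hz
        have h6 : z = y⁻¹ * (g * z * g⁻¹) * y := by rw [← hyx]; simp [mul_assoc]
        calc z * (y⁻¹ * g) = y⁻¹ * (g * z * g⁻¹) * y * (y⁻¹ * g) := by rw [← h6]
          _ = y⁻¹ * g * z := by simp [mul_assoc]
      have h7 := L.mul_mem hy (hcentL x hx h5)
      simpa using h7
    constructor
    · intro g hg x hx hgx
      exact absurd (hLN (hmemL g x hx hgx)) hg
    · apply le_antisymm
      · intro g hg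
        obtain ⟨a, ha⟩ := hA
        exact hmemL g a ha ((Subgroup.mem_set_normalizer_iff.mp hg a).mp ha)
      · exact hLN

end Cfsg.Agent.S1497
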