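import Mathlib
import Cfsg.Statements.S1498
import Cfsg.Agent.Lib.Helper3.Conj

set_option autoImplicit false
open Cfsg

namespace Cfsg.Agent.S1498

theorem pow_decomp {G : Type*} [Group G] (N : Subgroup G) (n m : G) (hn : n ∈ N)
    (hm : ∀ u ∈ N, m * u * m⁻¹ ∈ N) (j : ℕ) : ∃ n' ∈ N, (n * m) ^ j = n' * m ^ j := by
  have hmj : ∀ i : ℕ, ∀ u ∈ N, m ^ i * u * (m ^ i)⁻¹ ∈ N := by
    intro i
    induction i with
    | zero => intro u hu; simpa using hu
    | succ i ih =>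
      intro u hu
      have h1 := hm _ (ih u hu)
      have h2 : m ^ (i + 1) * u * (m ^ (i + 1))⁻¹ = m * (m ^ i * u * (m ^ i)⁻¹) * m⁻¹ := by
        rw [pow_succ']; simp [mul_assoc]
      rw [h2]; exact h1
  induction j with
  | zero => exact ⟨1, N.one_mem, by simp⟩
  | succ j ih =>
    obtain ⟨n', hn', h⟩ := ih
    refine ⟨n' * (m ^ j * n * (m ^ j)⁻¹), N.mul_mem hn' (hmj j n hn), ?_⟩
    rw [pow_succ, h, pow_succ]
    simp [mul_assoc]

theorem conj_back {G : Type*} [Group G] [Finite G] (A : Set G) (L : Subgroup G) (H : G → Subgroup G)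
    (hD : Cfsg.DadeHypothesis A L H) (a : G) (ha : a ∈ A) (x : G) (hx : x ∈ L) (u : G)
    (hu : u ∈ H (x * a * x⁻¹)) : x⁻¹ * u * x ∈ H a := by
  have ha' : x * a * x⁻¹ ∈ A := hD.conj_mem x hx a ha
  have huc := hD.le_centralizer _ ha' hu
  have hkc : x⁻¹ * u * x ∈ Subgroup.centralizer ({a} : Set G) := by
    rw [Subgroup.mem_centralizer_iff] at huc ⊢
    intro z hz
    rw [Set.mem_singleton_iff] at hz
    subst hz
    have h1 := huc (x * z * x⁻¹) rfl
    calc z * (x⁻¹ * u * x) = x⁻¹ * (x * z * x⁻¹ * u) * x := by simp [mul_assoc]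
      _ = x⁻¹ * (u * (x * z * x⁻¹)) * x := by rw [h1]
      _ = x⁻¹ * u * x * z := by simp [mul_assoc]
  have hnorm : (L ⊓ Subgroup.centralizer ({a} : Set G)) ≤ Subgroup.normalizer ((H a : Subgroup G) : Set G) := by
    intro m hm
    rw [Subgroup.mem_normalizer_iff]
    intro h
    constructor
    · intro hh
      exact hD.conj_mem_H a ha m hm.2 h hh
    · intro hh
      have h3 := hD.conj_mem_H a ha m⁻¹ (Subgroup.inv_mem _ hm.2) _ hh
      have h4 : m⁻¹ * (m * h * m⁻¹) * m⁻¹⁻¹ = h := by simp [mul_assoc]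
      rwa [h4] at h3
  have hsup := hD.sup_eq a ha
  have hk : x⁻¹ * u * x ∈ ((H a ⊔ (L ⊓ Subgroup.centralizer ({a} : Set G)) : Subgroup G) : Set G) := by
    rw [hsup]; exact hkc
  rw [Subgroup.coe_mul_of_right_le_normalizer_left _ _ hnorm] at hk
  obtain ⟨n, hn, m, hm, hnm⟩ := hk
  have hn : n ∈ H a := hn
  have hm : m ∈ L ⊓ Subgroup.centralizer ({a} : Set G) := hm
  have hnm : n * m = x⁻¹ * u * x := hnm
  obtain ⟨n', hn', hpow⟩ := pow_decomp (H a) n m hn (fun v hv => hD.conj_mem_H a ha m hm.2 v hv)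
    (orderOf u)
  have hku : (x⁻¹ * u * x) ^ orderOf u = 1 := by
    have h5 : x⁻¹ * u * x = MulAut.conj x⁻¹ u := by simp
    rw [h5, ← map_pow, pow_orderOf_eq_one, map_one]
  rw [hnm, hku] at hpow
  have hmpow : m ^ orderOf u = n'⁻¹ := by
    exact eq_inv_of_mul_eq_one_right hpow.symm
  have hmbot : m ^ orderOf u ∈ H a ⊓ (L ⊓ Subgroup.centralizer ({a} : Set G)) :=
    ⟨by rw [hmpow]; exact (H a).inv_mem hn', Subgroup.pow_mem _ hm _⟩
  rw [hD.inf_eq_bot a ha, Subgroup.mem_bot] at hmbot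
  have hd1 : orderOf m ∣ orderOf u := orderOf_dvd_of_pow_eq_one hmbot
  have hd2 : orderOf u ∣ Nat.card (H (x * a * x⁻¹)) := by
    have := Subgroup.orderOf_dvd_natCard (H (x * a * x⁻¹)) hu
    exact this
  have hd3 : orderOf m ∣ Nat.card ↥(L ⊓ Subgroup.centralizer ({a} : Set G)) :=
    Subgroup.orderOf_dvd_natCard _ hm
  have hcop := hD.coprime _ ha' a ha
  have hm1 : orderOf m = 1 :=
    Nat.eq_one_of_dvd_coprimes hcop (hd1.trans hd2) hd3
  rw [orderOf_eq_one_iff] at hm1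
  rw [← hnm, hm1, mul_one]
  exact hn

theorem result {G : Type*} [Group G] [Finite G] (A : Set G) (L : Subgroup G) (H : G → Subgroup G) (hD : Cfsg.DadeHypothesis A L H) (a : G) (ha : a ∈ A) (x : G) (hx : x ∈ L) : H (x * a * x⁻¹) = (H a).map (MulAut.conj x).toMonoidHom := by
  ext u
  rw [Cfsg.Agent.Lib.Helper3.Conj.mem_map_conj]
  constructor
  · intro hu
    exact conj_back A L H hD a ha x hx u hu
  · intro hu
    have ha' : x * a * x⁻¹ ∈ A := hD.conj_mem x hx a ha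
    have h1 : a = x⁻¹ * (x * a * x⁻¹) * x⁻¹⁻¹ := by simp [mul_assoc]
    rw [h1] at hu
    have h2 := conj_back A L H hD (x * a * x⁻¹) ha' x⁻¹ (L.inv_mem hx) _ hu
    have h3 : x⁻¹⁻¹ * (x⁻¹ * u * x) * x⁻¹ = u := by simp [mul_assoc]
    rwa [h3] at h2

end Cfsg.Agent.S1498
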