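import Cfsg.Statements.S1499
import Mathlib

set_option autoImplicit false
open Cfsg

namespace Cfsg.Agent.S1499

theorem pow_trick {G : Type*} [Group G] (a u : G) (hau : a * u = u * a) (m E N : ℕ)
    (hum : u ^ m = 1) (hmE : m ∣ E) (haN : a ^ N = 1) (hE : E % N = 1) : (a * u) ^ E = a := by
  have h1 : (a * u) ^ E = a ^ E * u ^ E := (show Commute a u from hau).mul_pow E
  obtain ⟨k, rfl⟩ := hmE
  rw [h1, pow_mul u, hum, one_pow, mul_one]
  have h2 : m * k = N * (m * k / N) + 1 := by
    have h3 := Nat.div_add_mod (m * k) N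
    rw [hE] at h3; exact h3.symm
  rw [h2, pow_succ, pow_mul, haN, one_pow, one_mul]

theorem result {G : Type*} [Group G] [Finite G] (A : Set G) (L : Subgroup G) (H : G → Subgroup G) (hD : Cfsg.DadeHypothesis A L H) (a b : G) (ha : a ∈ A) (hb : b ∈ A) : ((∃ u ∈ H a, ∃ v ∈ H b, ∃ g : G, g * (a * u) * g⁻¹ = b * v) → ∃ x ∈ L, x * a * x⁻¹ = b) ∧ Subgroup.normalizer ((fun u : G => a * u) '' (H a : Set G)) = Subgroup.centralizer ({a} : Set G) := by
  have hcomm : ∀ c ∈ A, ∀ u ∈ H c, c * u = u * c := by
    intro c hc u hu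
    have h1 := hD.le_centralizer c hc hu
    rw [Subgroup.mem_centralizer_iff] at h1
    exact h1 c rfl
  have hord : ∀ c ∈ A, ∀ d ∈ A, (Nat.card (H c)).Coprime (orderOf d) := by
    intro c hc d hd
    have h1 := hD.coprime c hc d hd
    have h0 : d ∈ Subgroup.centralizer ({d} : Set G) := by
      rw [Subgroup.mem_centralizer_iff]
      intro h hh
      rw [Set.mem_singleton_iff] at hh
      rw [hh]
    have h2 : d ∈ L ⊓ Subgroup.centralizer ({d} : Set G) := ⟨hD.subset hd, h0⟩
    exact Nat.Coprime.coprime_dvd_right (Subgroup.orderOf_dvd_natCard _ h2) h1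
  have hpowH : ∀ c : G, ∀ u ∈ H c, u ^ Nat.card (H c) = 1 := by
    intro c u hu
    have h1 : (⟨u, hu⟩ : ↥(H c)) ^ Nat.card ↥(H c) = 1 := pow_card_eq_one'
    have h2 := congrArg Subtype.val h1
    rw [Subgroup.coe_pow] at h2
    exact h2
  refine ⟨?_, ?_⟩
  · rintro ⟨u, hu, v, hv, g, hg⟩
    have ha1 : a ≠ 1 := fun h => hD.one_not_mem (h ▸ ha)
    have hoa : 1 < orderOf a := by
      have h1 : orderOf a ≠ 1 := fun h => ha1 (orderOf_eq_one_iff.1 h)
      have h2 : 0 < orderOf a := orderOf_pos a
      omega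
    have hob : 0 < orderOf b := orderOf_pos b
    have hN1 : 1 < orderOf a * orderOf b := by nlinarith
    have hcopN : (Nat.card (H a) * Nat.card (H b)).Coprime (orderOf a * orderOf b) :=
      Nat.Coprime.mul_left
        (Nat.Coprime.mul_right (hord a ha a ha) (hord a ha b hb))
        (Nat.Coprime.mul_right (hord b hb a ha) (hord b hb b hb))
    obtain ⟨K, -, hK⟩ := Nat.exists_mul_mod_eq_one_of_coprime hcopN hN1
    have e1 : (a * u) ^ (Nat.card (H a) * Nat.card (H b) * K) = a :=
      pow_trick a u (hcomm a ha u hu) (Nat.card (H a)) _ (orderOf a * orderOf b)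
        (hpowH a u hu) ⟨Nat.card (H b) * K, by ring⟩
        (by rw [pow_mul, pow_orderOf_eq_one, one_pow]) hK
    have e2 : (b * v) ^ (Nat.card (H a) * Nat.card (H b) * K) = b :=
      pow_trick b v (hcomm b hb v hv) (Nat.card (H b)) _ (orderOf a * orderOf b)
        (hpowH b v hv) ⟨Nat.card (H a) * K, by ring⟩
        (by rw [mul_comm, pow_mul, pow_orderOf_eq_one, one_pow]) hK
    have e3 : g * a * g⁻¹ = b := by
      rw [← e1, ← conj_pow, hg, e2]
    obtain ⟨x, hx, hxa⟩ := hD.fusion a ha g (by rw [e3]; exact hb)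
    exact ⟨x, hx, hxa.trans e3⟩
  · apply le_antisymm
    · intro g hg
      rw [Subgroup.mem_set_normalizer_iff] at hg
      have h1 : a ∈ (fun u : G => a * u) '' (H a : Set G) := ⟨1, (H a).one_mem, mul_one a⟩
      obtain ⟨u, hu, hua⟩ := (hg a).1 h1
      have hu' : u ∈ H a := hu
      have hua' : a * u = g * a * g⁻¹ := hua
      have e1 : (a * u) ^ orderOf a = 1 := by
        rw [hua', conj_pow, pow_orderOf_eq_one]; group
      have e2 : (a * u) ^ orderOf a = a ^ orderOf a * u ^ orderOf a :=
        (show Commute a u from hcomm a ha u hu').mul_pow _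
      rw [pow_orderOf_eq_one, one_mul] at e2
      have e3 : u ^ orderOf a = 1 := by rw [← e2]; exact e1
      have e4 : u ^ Nat.card (H a) = 1 := hpowH a u hu'
      have hu1 : u = 1 := by
        have d1 := orderOf_dvd_of_pow_eq_one e3
        have d2 := orderOf_dvd_of_pow_eq_one e4
        have d3 : orderOf u ∣ Nat.gcd (Nat.card (H a)) (orderOf a) := Nat.dvd_gcd d2 d1
        rw [hord a ha a ha, Nat.dvd_one] at d3
        exact orderOf_eq_one_iff.mp d3
      rw [Subgroup.mem_centralizer_iff]
      intro h hh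
      rw [Set.mem_singleton_iff] at hh
      subst hh
      have e5 : g * h * g⁻¹ = h := by rw [← hua', hu1, mul_one]
      calc h * g = (g * h * g⁻¹) * g := by rw [e5]
        _ = g * h := by group
    · intro c hc
      rw [Subgroup.mem_set_normalizer_iff]
      intro n
      have hcinv : c⁻¹ ∈ Subgroup.centralizer ({a} : Set G) := Subgroup.inv_mem _ hc
      have hca : c * a = a * c := by
        have hc' := hc
        rw [Subgroup.mem_centralizer_iff] at hc'
        exact (hc' a rfl).symm
      have hca' : c⁻¹ * a = a * c⁻¹ := by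
        calc c⁻¹ * a = c⁻¹ * (a * c) * c⁻¹ := by group
          _ = c⁻¹ * (c * a) * c⁻¹ := by rw [hca]
          _ = a * c⁻¹ := by group
      constructor
      · rintro ⟨u, hu, rfl⟩
        refine ⟨c * u * c⁻¹, hD.conj_mem_H a ha c hc u hu, ?_⟩
        show a * (c * u * c⁻¹) = c * (a * u) * c⁻¹
        calc a * (c * u * c⁻¹) = (a * c) * u * c⁻¹ := by group
          _ = (c * a) * u * c⁻¹ := by rw [hca]
          _ = c * (a * u) * c⁻¹ := by group
      · rintro ⟨u, hu, hun⟩
        have hun' : a * u = c * n * c⁻¹ := hun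
        refine ⟨c⁻¹ * u * c, ?_, ?_⟩
        · have h2 := hD.conj_mem_H a ha c⁻¹ hcinv u hu
          rw [inv_inv] at h2
          exact h2
        · show a * (c⁻¹ * u * c) = n
          have h3 : n = c⁻¹ * (a * u) * c := by rw [hun']; group
          rw [h3]
          calc a * (c⁻¹ * u * c) = (a * c⁻¹) * u * c := by group
            _ = (c⁻¹ * a) * u * c := by rw [hca']
            _ = c⁻¹ * (a * u) * c := by group

end Cfsg.Agent.S1499
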