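import Cfsg.Statements.S1503
import Mathlib
import Cfsg.Agent.Lib.Helper3.Char
import Cfsg.Agent.Lib.Helper3.CharInd

set_option autoImplicit false
open Cfsg

namespace Cfsg.Agent.S1503

open Cfsg.Agent.Lib.Helper3.Char Cfsg.Agent.Lib.Helper3.CharInd
open scoped ComplexConjugate

theorem sep {W : Type*} [Group W] [Finite W] (hcomm : ∀ a b : W, a * b = b * a)
    (U : Subgroup W) (x : W) (hx : x ∉ U) :
    ∃ φ : W →* ℂˣ, (∀ u ∈ U, φ u = 1) ∧ φ x ≠ 1 := by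
  letI : CommGroup W := { ‹Group W› with mul_comm := hcomm }
  haveI : NeZero ((Monoid.exponent (W ⧸ U) : ℕ) : ℂ) :=
    ⟨by exact_mod_cast Monoid.exponent_ne_zero_of_finite⟩
  have hne : (QuotientGroup.mk x : W ⧸ U) ≠ 1 := by
    intro h
    exact hx ((QuotientGroup.eq_one_iff x).mp h)
  obtain ⟨φ', hφ'⟩ := CommGroup.exists_apply_ne_one_of_hasEnoughRootsOfUnity (W ⧸ U) ℂ hne
  refine ⟨φ'.comp (QuotientGroup.mk' U), ?_, ?_⟩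
  · intro u hu
    show φ' (QuotientGroup.mk u) = 1
    rw [(QuotientGroup.eq_one_iff u).mpr hu, map_one]
  · exact hφ'

theorem sum_triv {W : Type*} [Group W] [Finite W] (hcomm : ∀ a b : W, a * b = b * a)
    (U : Subgroup W) (x : W) (hx : x ∉ U) (A : Finset (W →* ℂˣ))
    (hA : ∀ φ, φ ∈ A ↔ ∀ u ∈ U, φ u = 1) : ∑ φ ∈ A, (φ x : ℂ) = 0 := by
  obtain ⟨φ₀, h0, h1⟩ := sep hcomm U x hx
  have key : ∑ φ ∈ A, ((φ₀ * φ) x : ℂ) = ∑ φ ∈ A, (φ x : ℂ) := by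
    apply Finset.sum_bij (fun φ _ => φ₀ * φ)
    · intro φ hφ
      rw [hA] at hφ ⊢
      intro u hu
      rw [MonoidHom.mul_apply, h0 u hu, hφ u hu, one_mul]
    · intro φ _ φ' _ h
      exact mul_left_cancel h
    · intro φ hφ
      refine ⟨φ₀⁻¹ * φ, ?_, MonoidHom.ext fun u => by
        simp [MonoidHom.mul_apply, MonoidHom.inv_apply]⟩
      rw [hA] at hφ ⊢
      intro u hu
      rw [MonoidHom.mul_apply, MonoidHom.inv_apply, h0 u hu, hφ u hu, inv_one, one_mul]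
    · intro φ _
      rfl
  have h2 : ∑ φ ∈ A, ((φ₀ * φ) x : ℂ) = (φ₀ x : ℂ) * ∑ φ ∈ A, (φ x : ℂ) := by
    rw [Finset.mul_sum]
    refine Finset.sum_congr rfl (fun φ _ => ?_)
    rw [MonoidHom.mul_apply, Units.val_mul]
  rw [h2] at key
  have h3 : ((φ₀ x : ℂ) - 1) * ∑ φ ∈ A, (φ x : ℂ) = 0 := by
    rw [sub_mul, key, one_mul, sub_self]
  rcases mul_eq_zero.mp h3 with h | h
  · exfalso
    apply h1
    apply Units.ext
    rw [Units.val_one]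
    linear_combination h
  · exact h

theorem sum_one {W : Type*} [Group W] (U : Subgroup W) (x : W) (hx : x ∈ U)
    (A : Finset (W →* ℂˣ)) (hA : ∀ φ, φ ∈ A ↔ ∀ u ∈ U, φ u = 1) :
    ∑ φ ∈ A, (φ x : ℂ) = A.card := by
  rw [Finset.sum_congr rfl (fun φ hφ => by rw [(hA φ).mp hφ x hx, Units.val_one]),
    Finset.sum_const, nsmul_eq_mul, mul_one]

open Classical in
theorem partial_sum {W : Type*} [Group W] [Finite W] (hcomm : ∀ a b : W, a * b = b * a)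
    (U : Subgroup W) (v w : W) (hv : v ∉ U) (A : Finset (W →* ℂˣ))
    (hA : ∀ φ, φ ∈ A ↔ ∀ u ∈ U, φ u = 1) :
    ∑ φ ∈ A, (((φ v)⁻¹ : ℂˣ) : ℂ) * (1 - (φ w : ℂ)) =
      if v⁻¹ * w ∈ U then -(A.card : ℂ) else 0 := by
  have h1 : ∀ φ ∈ A, (((φ v)⁻¹ : ℂˣ) : ℂ) * (1 - (φ w : ℂ)) =
      (φ v⁻¹ : ℂ) - (φ (v⁻¹ * w) : ℂ) := by
    intro φ _
    rw [map_mul, map_inv, Units.val_mul]
    ring
  rw [Finset.sum_congr rfl h1, Finset.sum_sub_distrib,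
    sum_triv hcomm U v⁻¹ (fun h => hv (by simpa using U.inv_mem h)) A hA]
  split_ifs with h
  · rw [sum_one U _ h A hA]
    ring
  · rw [sum_triv hcomm U _ h A hA]
    ring

theorem star {W : Type*} [Group W] [Fintype W] (hcomm : ∀ a b : W, a * b = b * a)
    (U₁ U₂ : Subgroup W) (hU : U₁ ⊓ U₂ = ⊥) (v : W) (hv₁ : v ∉ U₁) (hv₂ : v ∉ U₂) (f : W → ℂ)
    (hf : ∀ φ ψ : W →* ℂˣ, φ ≠ 1 → ψ ≠ 1 → (∀ u ∈ U₂, φ u = 1) → (∀ u ∈ U₁, ψ u = 1) →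
      ∑ w : W, (1 - (φ w : ℂ) - (ψ w : ℂ) + (φ w : ℂ) * (ψ w : ℂ)) * conj (f w) = 0) :
    f v = 0 := by
  classical
  haveI : Fintype (W →* ℂˣ) := Fintype.ofFinite _
  obtain ⟨A, hA⟩ : ∃ A : Finset (W →* ℂˣ), ∀ φ, φ ∈ A ↔ ∀ u ∈ U₂, φ u = 1 :=
    ⟨Finset.univ.filter (fun φ => ∀ u ∈ U₂, φ u = 1), fun φ => by simp⟩
  obtain ⟨B, hB⟩ : ∃ B : Finset (W →* ℂˣ), ∀ ψ, ψ ∈ B ↔ ∀ u ∈ U₁, ψ u = 1 :=
    ⟨Finset.univ.filter (fun ψ => ∀ u ∈ U₁, ψ u = 1), fun ψ => by simp⟩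
  have hf' : ∀ φ ∈ A, ∀ ψ ∈ B,
      ∑ w : W, (1 - (φ w : ℂ) - (ψ w : ℂ) + (φ w : ℂ) * (ψ w : ℂ)) * conj (f w) = 0 := by
    intro φ hφ ψ hψ
    by_cases h1 : φ = 1
    · subst h1
      simp
    by_cases h2 : ψ = 1
    · subst h2
      simp
    exact hf φ ψ h1 h2 ((hA φ).mp hφ) ((hB ψ).mp hψ)
  have htot : ∑ w : W, (∑ φ ∈ A, ∑ ψ ∈ B, (((φ v)⁻¹ : ℂˣ) : ℂ) * (((ψ v)⁻¹ : ℂˣ) : ℂ) *
      (1 - (φ w : ℂ) - (ψ w : ℂ) + (φ w : ℂ) * (ψ w : ℂ))) * conj (f w) = 0 := by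
    simp_rw [Finset.sum_mul]
    rw [Finset.sum_comm]
    apply Finset.sum_eq_zero
    intro φ hφ
    rw [Finset.sum_comm]
    apply Finset.sum_eq_zero
    intro ψ hψ
    have h := hf' φ hφ ψ hψ
    simp_rw [mul_assoc]
    rw [← Finset.mul_sum, ← Finset.mul_sum, h, mul_zero, mul_zero]
  have hval : ∀ w : W, (∑ φ ∈ A, ∑ ψ ∈ B, (((φ v)⁻¹ : ℂˣ) : ℂ) * (((ψ v)⁻¹ : ℂˣ) : ℂ) *
      (1 - (φ w : ℂ) - (ψ w : ℂ) + (φ w : ℂ) * (ψ w : ℂ))) =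
      if w = v then (A.card : ℂ) * B.card else 0 := by
    intro w
    have h1 : (∑ φ ∈ A, ∑ ψ ∈ B, (((φ v)⁻¹ : ℂˣ) : ℂ) * (((ψ v)⁻¹ : ℂˣ) : ℂ) *
        (1 - (φ w : ℂ) - (ψ w : ℂ) + (φ w : ℂ) * (ψ w : ℂ))) =
        (∑ φ ∈ A, (((φ v)⁻¹ : ℂˣ) : ℂ) * (1 - (φ w : ℂ))) *
          (∑ ψ ∈ B, (((ψ v)⁻¹ : ℂˣ) : ℂ) * (1 - (ψ w : ℂ))) := by
      rw [Finset.sum_mul_sum]
      refine Finset.sum_congr rfl (fun φ _ => Finset.sum_congr rfl (fun ψ _ => ?_))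
      ring
    rw [h1, partial_sum hcomm U₂ v w hv₂ A hA, partial_sum hcomm U₁ v w hv₁ B hB]
    by_cases hwv : w = v
    · have e1 : v⁻¹ * v ∈ U₂ := by
        rw [inv_mul_cancel]
        exact U₂.one_mem
      have e2 : v⁻¹ * v ∈ U₁ := by
        rw [inv_mul_cancel]
        exact U₁.one_mem
      rw [hwv, if_pos e1, if_pos e2, if_pos rfl]
      ring
    · rw [if_neg hwv]
      by_cases h2 : v⁻¹ * w ∈ U₂
      · by_cases h1' : v⁻¹ * w ∈ U₁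
        · exfalso
          have h3 : v⁻¹ * w ∈ U₁ ⊓ U₂ := ⟨h1', h2⟩
          rw [hU, Subgroup.mem_bot, inv_mul_eq_one] at h3
          exact hwv h3.symm
        · rw [if_neg h1', mul_zero]
      · rw [if_neg h2, zero_mul]
  rw [Finset.sum_congr rfl (fun w _ => by rw [hval w])] at htot
  rw [Finset.sum_eq_single v (fun w _ hw => by rw [if_neg hw, zero_mul])
    (fun h => absurd (Finset.mem_univ _) h), if_pos rfl] at htot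
  have hA0 : (A.card : ℂ) ≠ 0 := by
    have h1 : (1 : W →* ℂˣ) ∈ A := (hA 1).mpr (fun u _ => rfl)
    exact_mod_cast (Finset.card_pos.mpr ⟨1, h1⟩).ne'
  have hB0 : (B.card : ℂ) ≠ 0 := by
    have h1 : (1 : W →* ℂˣ) ∈ B := (hB 1).mpr (fun u _ => rfl)
    exact_mod_cast (Finset.card_pos.mpr ⟨1, h1⟩).ne'
  have h3 : conj (f v) = 0 := by
    rcases mul_eq_zero.mp htot with h | h
    · exfalso
      exact mul_ne_zero hA0 hB0 h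
    · exact h
  simpa using h3

theorem main {G : Type*} [Group G] [Fintype G] (W₁ W₂ : Subgroup G) (hW : Cfsg.IsSelfNormalizingCyclic W₁ W₂) (χ : (↥(W₁ ⊔ W₂) →* ℂˣ) → (G → ℂ)) (hχ : Cfsg.IsCyclicTIFamily W₁ W₂ χ) (θ : G → ℂ) (hθ : Cfsg.IsIrrCharacter G θ) (horth : ∀ ω, Cfsg.classInner θ (χ ω) = 0) (w : ↥(W₁ ⊔ W₂)) (hw₁ : (w : G) ∉ W₁) (hw₂ : (w : G) ∉ W₂) : θ w = 0 := by
  classical
  obtain ⟨-, -, hdisj, -, hcyc, -⟩ := hW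
  haveI : Fintype ↥(W₁ ⊔ W₂) := Fintype.ofFinite _
  have hcomm : ∀ a b : ↥(W₁ ⊔ W₂), a * b = b * a := by
    haveI := hcyc
    intro a b
    exact (IsCyclic.commGroup (α := ↥(W₁ ⊔ W₂))).mul_comm a b
  have hcf : Cfsg.IsClassFunction G θ := char_classFun (isCharacter_of_irr hθ)
  have hU : W₁.subgroupOf (W₁ ⊔ W₂) ⊓ W₂.subgroupOf (W₁ ⊔ W₂) = ⊥ := by
    rw [eq_bot_iff]
    intro u hu
    have h1 : (u : G) ∈ W₁ ⊓ W₂ :=
      ⟨Subgroup.mem_subgroupOf.mp hu.1, Subgroup.mem_subgroupOf.mp hu.2⟩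
    rw [hdisj, Subgroup.mem_bot] at h1
    exact Subgroup.mem_bot.mpr (Subtype.ext h1)
  have hv1 : w ∉ W₁.subgroupOf (W₁ ⊔ W₂) := fun h => hw₁ (Subgroup.mem_subgroupOf.mp h)
  have hv2 : w ∉ W₂.subgroupOf (W₁ ⊔ W₂) := fun h => hw₂ (Subgroup.mem_subgroupOf.mp h)
  have hf : ∀ φ ψ : ↥(W₁ ⊔ W₂) →* ℂˣ, φ ≠ 1 → ψ ≠ 1 →
      (∀ u ∈ W₂.subgroupOf (W₁ ⊔ W₂), φ u = 1) → (∀ u ∈ W₁.subgroupOf (W₁ ⊔ W₂), ψ u = 1) →
      ∑ u : ↥(W₁ ⊔ W₂), (1 - (φ u : ℂ) - (ψ u : ℂ) + (φ u : ℂ) * (ψ u : ℂ)) *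
        conj ((fun u : ↥(W₁ ⊔ W₂) => θ (u : G)) u) = 0 := by
    intro φ ψ hφ hψ h₂ h₁
    have hind := hχ.induced_eq φ ψ hφ hψ
      (fun u hu => h₂ u (Subgroup.mem_subgroupOf.mpr hu))
      (fun u hu => h₁ u (Subgroup.mem_subgroupOf.mpr hu))
    have hfrob := frobenius (W₁ ⊔ W₂)
      (fun u => 1 - (φ u : ℂ) - (ψ u : ℂ) + (φ u : ℂ) * (ψ u : ℂ)) θ hcf
    rw [hind] at hfrob
    have h0 : Cfsg.classInner (fun g => 1 - χ φ g - χ ψ g + χ (φ * ψ) g) θ = 0 := by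
      have e : (fun g => 1 - χ φ g - χ ψ g + χ (φ * ψ) g) = χ 1 - χ φ - χ ψ + χ (φ * ψ) := by
        funext g
        simp [hχ.map_one]
      rw [e, classInner_add_left, classInner_sub_left, classInner_sub_left,
        classInner_conj_symm θ (χ 1), classInner_conj_symm θ (χ φ),
        classInner_conj_symm θ (χ ψ), classInner_conj_symm θ (χ (φ * ψ)),
        horth, horth, horth, horth]
      simp
    rw [h0] at hfrob
    unfold Cfsg.classInner at hfrob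
    have hc : (Nat.card ↥(W₁ ⊔ W₂) : ℂ)⁻¹ ≠ 0 :=
      inv_ne_zero (by exact_mod_cast Nat.card_pos.ne')
    rcases mul_eq_zero.mp hfrob.symm with h | h
    · exact absurd h hc
    · exact h
  exact star hcomm _ _ hU w hv1 hv2 (fun u : ↥(W₁ ⊔ W₂) => θ (u : G)) hf

/-- Let W₁, W₂ ≤ G with W = W₁ ⊔ W₂ and let χ an orthonormal family of irreducible characters of G up to sign, indexed by the linear characters ω of W, with χ_1 = 1, χ_ω = ω on W outside W₁ ∪ W₂, and the induction identity for (1 − φ)(1 − ψ). If θ is an irreducible character of G orthogonal to χ ω for every linear character ω of W, then θ vanishes at every element of W lying outside W₁ ∪ W₂. -/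
theorem result {G : Type*} [Group G] [Fintype G] (W₁ W₂ : Subgroup G) (hW : Cfsg.IsSelfNormalizingCyclic W₁ W₂) (χ : (↥(W₁ ⊔ W₂) →* ℂˣ) → (G → ℂ)) (hχ : Cfsg.IsCyclicTIFamily W₁ W₂ χ) (θ : G → ℂ) (hθ : Cfsg.IsIrrCharacter G θ) (horth : ∀ ω, Cfsg.classInner θ (χ ω) = 0) (w : ↥(W₁ ⊔ W₂)) (hw₁ : (w : G) ∉ W₁) (hw₂ : (w : G) ∉ W₂) : θ w = 0 := by
  exact main W₁ W₂ hW χ hχ θ hθ horth w hw₁ hw₂

end Cfsg.Agent.S1503
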