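import Cfsg.Statements.S1504
import Mathlib

set_option autoImplicit false
open Cfsg

namespace Cfsg.Agent.S1504

open Finset

theorem hom_ext_sup {G : Type*} [Group G] (W₁ W₂ : Subgroup G) (a b : ↥(W₁ ⊔ W₂) →* ℂˣ)
    (h1 : ∀ w : ↥(W₁ ⊔ W₂), (w : G) ∈ W₁ → a w = b w)
    (h2 : ∀ w : ↥(W₁ ⊔ W₂), (w : G) ∈ W₂ → a w = b w) : a = b := by
  let K : Subgroup ↥(W₁ ⊔ W₂) :=
    { carrier := {w | a w = b w}
      mul_mem' := fun {x y} hx hy => by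
        simp only [Set.mem_setOf_eq] at hx hy ⊢
        rw [map_mul, map_mul, hx, hy]
      one_mem' := by simp
      inv_mem' := fun {x} hx => by
        simp only [Set.mem_setOf_eq] at hx ⊢
        rw [map_inv, map_inv, hx] }
  have hK : W₁ ⊔ W₂ ≤ K.map (W₁ ⊔ W₂).subtype := by
    apply sup_le
    · intro x hx
      exact ⟨⟨x, le_sup_left (b := W₂) hx⟩, h1 _ hx, rfl⟩
    · intro x hx
      exact ⟨⟨x, le_sup_right (a := W₁) hx⟩, h2 _ hx, rfl⟩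
  apply MonoidHom.ext
  intro w
  obtain ⟨w', hw', hww⟩ := hK w.2
  have : w' = w := Subtype.ext hww
  rw [← this]
  exact hw'

theorem sum_char {W : Type*} [Group W] [Fintype W] (χ : W →* ℂˣ) :
    ∑ w : W, (χ w : ℂ) = if χ = 1 then (Fintype.card W : ℂ) else 0 := by
  by_cases h : χ = 1
  · subst h
    simp
  · rw [if_neg h]
    have := sum_hom_units_eq_zero ((Units.coeHom ℂ).comp χ) (by
      intro h'
      apply h
      apply MonoidHom.ext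
      intro w
      have := DFunLike.congr_fun h' w
      apply Units.ext
      simpa using this)
    simpa using this

theorem main {G : Type*} [Group G] [Finite G] (W₁ W₂ : Subgroup G) :
    (∀ φ ψ : ↥(W₁ ⊔ W₂) →* ℂˣ, (∀ w : ↥(W₁ ⊔ W₂), (w : G) ∈ W₂ → φ w = 1) →
      (∀ w : ↥(W₁ ⊔ W₂), (w : G) ∈ W₁ → ψ w = 1) →
      ∀ w : ↥(W₁ ⊔ W₂), ((w : G) ∈ W₁ ∨ (w : G) ∈ W₂) →
        (1 - (φ w : ℂ) - (ψ w : ℂ) + (φ w : ℂ) * (ψ w : ℂ)) = 0) ∧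
    LinearIndependent ℂ (fun p : {p : (↥(W₁ ⊔ W₂) →* ℂˣ) × (↥(W₁ ⊔ W₂) →* ℂˣ) //
        p.1 ≠ 1 ∧ p.2 ≠ 1 ∧ (∀ w : ↥(W₁ ⊔ W₂), (w : G) ∈ W₂ → p.1 w = 1) ∧
        (∀ w : ↥(W₁ ⊔ W₂), (w : G) ∈ W₁ → p.2 w = 1)} =>
      fun w : ↥(W₁ ⊔ W₂) => 1 - (p.1.1 w : ℂ) - (p.1.2 w : ℂ) + (p.1.1 w : ℂ) * (p.1.2 w : ℂ)) := by
  constructor
  · intro φ ψ hφ hψ w hw
    rcases hw with hw | hw
    · rw [hψ w hw]; simp
    · rw [hφ w hw]; simp
  · haveI : Fintype ↥(W₁ ⊔ W₂) := Fintype.ofFinite _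
    rw [linearIndependent_iff']
    intro s g hsum q hq
    -- the four characters attached to `p` and `q`
    have key : ∀ p : {p : (↥(W₁ ⊔ W₂) →* ℂˣ) × (↥(W₁ ⊔ W₂) →* ℂˣ) //
        p.1 ≠ 1 ∧ p.2 ≠ 1 ∧ (∀ w : ↥(W₁ ⊔ W₂), (w : G) ∈ W₂ → p.1 w = 1) ∧
        (∀ w : ↥(W₁ ⊔ W₂), (w : G) ∈ W₁ → p.2 w = 1)},
        ∑ w : ↥(W₁ ⊔ W₂), (1 - (p.1.1 w : ℂ) - (p.1.2 w : ℂ) + (p.1.1 w : ℂ) * (p.1.2 w : ℂ)) *
          (((q.1.1 * q.1.2)⁻¹ w : ℂˣ) : ℂ)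
          = if p = q then (Fintype.card ↥(W₁ ⊔ W₂) : ℂ) else 0 := by
      intro p
      obtain ⟨⟨p1, p2⟩, hp1, hp2, hp3, hp4⟩ := p
      obtain ⟨⟨q1, q2⟩, hq1, hq2, hq3, hq4⟩ := q
      simp only at hp1 hp2 hp3 hp4 hq1 hq2 hq3 hq4 ⊢
      have e : ∀ w : ↥(W₁ ⊔ W₂), (1 - (p1 w : ℂ) - (p2 w : ℂ) + (p1 w : ℂ) * (p2 w : ℂ)) *
          (((q1 * q2)⁻¹ w : ℂˣ) : ℂ)
          = (((q1 * q2)⁻¹ w : ℂˣ) : ℂ) - ((p1 * (q1 * q2)⁻¹) w : ℂˣ)
            - ((p2 * (q1 * q2)⁻¹) w : ℂˣ) + ((p1 * p2 * (q1 * q2)⁻¹) w : ℂˣ) := by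
        intro w
        simp only [MonoidHom.mul_apply, MonoidHom.inv_apply, Units.val_mul]
        ring
      rw [Finset.sum_congr rfl (fun w _ => e w), Finset.sum_add_distrib, Finset.sum_sub_distrib,
        Finset.sum_sub_distrib, sum_char, sum_char, sum_char, sum_char]
      have pw : ∀ (χ : ↥(W₁ ⊔ W₂) →* ℂˣ), χ = 1 → ∀ w, χ w = 1 := by
        intro χ h w; rw [h]; rfl
      have hA : (q1 * q2)⁻¹ ≠ 1 := by
        intro h
        apply hq2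
        apply hom_ext_sup W₁ W₂
        · intro w hw; rw [hq4 w hw]; rfl
        · intro w hw
          have := pw _ h w
          simp only [MonoidHom.mul_apply, MonoidHom.inv_apply, hq3 w hw, one_mul] at this
          rw [inv_eq_one.mp this]; rfl
      have hB : p1 * (q1 * q2)⁻¹ ≠ 1 := by
        intro h
        apply hq2
        apply hom_ext_sup W₁ W₂
        · intro w hw; rw [hq4 w hw]; rfl
        · intro w hw
          have := pw _ h w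
          simp only [MonoidHom.mul_apply, MonoidHom.inv_apply, hq3 w hw, hp3 w hw, one_mul] at this
          rw [inv_eq_one.mp this]; rfl
      have hC : p2 * (q1 * q2)⁻¹ ≠ 1 := by
        intro h
        apply hq1
        apply hom_ext_sup W₁ W₂
        · intro w hw
          have := pw _ h w
          simp only [MonoidHom.mul_apply, MonoidHom.inv_apply, hq4 w hw, hp4 w hw, one_mul,
            mul_one] at this
          rw [inv_eq_one.mp this]; rfl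
        · intro w hw; rw [hq3 w hw]; rfl
      have hD : p1 * p2 * (q1 * q2)⁻¹ = 1 ↔
          (⟨(p1, p2), hp1, hp2, hp3, hp4⟩ : {p : (↥(W₁ ⊔ W₂) →* ℂˣ) × (↥(W₁ ⊔ W₂) →* ℂˣ) //
            p.1 ≠ 1 ∧ p.2 ≠ 1 ∧ (∀ w : ↥(W₁ ⊔ W₂), (w : G) ∈ W₂ → p.1 w = 1) ∧
            (∀ w : ↥(W₁ ⊔ W₂), (w : G) ∈ W₁ → p.2 w = 1)}) = ⟨(q1, q2), hq1, hq2, hq3, hq4⟩ := by
        constructor
        · intro h
          have e1 : p1 = q1 := by
            apply hom_ext_sup W₁ W₂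
            · intro w hw
              have := pw _ h w
              simp only [MonoidHom.mul_apply, MonoidHom.inv_apply, hq4 w hw, hp4 w hw,
                mul_one] at this
              exact mul_inv_eq_one.mp this
            · intro w hw; rw [hp3 w hw, hq3 w hw]
          have e2 : p2 = q2 := by
            apply hom_ext_sup W₁ W₂
            · intro w hw; rw [hp4 w hw, hq4 w hw]
            · intro w hw
              have := pw _ h w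
              simp only [MonoidHom.mul_apply, MonoidHom.inv_apply, hq3 w hw, hp3 w hw,
                one_mul] at this
              exact mul_inv_eq_one.mp this
          subst e1 e2
          rfl
        · intro h
          have h1 := congrArg (fun x => x.1.1) h
          have h2 := congrArg (fun x => x.1.2) h
          simp only at h1 h2
          rw [h1, h2]
          apply MonoidHom.ext
          intro w
          simp only [MonoidHom.mul_apply, MonoidHom.inv_apply, MonoidHom.one_apply]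
          exact mul_inv_cancel _
      rw [if_neg hA, if_neg hB, if_neg hC]
      by_cases hpq : (⟨(p1, p2), hp1, hp2, hp3, hp4⟩ :
          {p : (↥(W₁ ⊔ W₂) →* ℂˣ) × (↥(W₁ ⊔ W₂) →* ℂˣ) //
            p.1 ≠ 1 ∧ p.2 ≠ 1 ∧ (∀ w : ↥(W₁ ⊔ W₂), (w : G) ∈ W₂ → p.1 w = 1) ∧
            (∀ w : ↥(W₁ ⊔ W₂), (w : G) ∈ W₁ → p.2 w = 1)}) = ⟨(q1, q2), hq1, hq2, hq3, hq4⟩
      · rw [if_pos (hD.mpr hpq), if_pos hpq]; ring
      · rw [if_neg (fun h => hpq (hD.mp h)), if_neg hpq]; ring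
    -- apply the functional `F ↦ ∑ w, F w * χ_q(w)⁻¹`
    have h0 : ∑ w : ↥(W₁ ⊔ W₂), (∑ i ∈ s, g i • (fun w : ↥(W₁ ⊔ W₂) =>
        1 - (i.1.1 w : ℂ) - (i.1.2 w : ℂ) + (i.1.1 w : ℂ) * (i.1.2 w : ℂ))) w *
          (((q.1.1 * q.1.2)⁻¹ w : ℂˣ) : ℂ) = 0 := by
      rw [hsum]; simp
    have h1 : ∑ w : ↥(W₁ ⊔ W₂), (∑ i ∈ s, g i • (fun w : ↥(W₁ ⊔ W₂) =>
        1 - (i.1.1 w : ℂ) - (i.1.2 w : ℂ) + (i.1.1 w : ℂ) * (i.1.2 w : ℂ))) w *
          (((q.1.1 * q.1.2)⁻¹ w : ℂˣ) : ℂ)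
        = ∑ i ∈ s, g i * (if i = q then (Fintype.card ↥(W₁ ⊔ W₂) : ℂ) else 0) := by
      simp only [Finset.sum_apply, Pi.smul_apply, smul_eq_mul, Finset.sum_mul]
      rw [Finset.sum_comm]
      apply Finset.sum_congr rfl
      intro i _
      rw [← key i, Finset.mul_sum]
      apply Finset.sum_congr rfl
      intro w _
      ring
    rw [h1, Finset.sum_eq_single q] at h0
    · rw [if_pos rfl] at h0
      have hne : (Fintype.card ↥(W₁ ⊔ W₂) : ℂ) ≠ 0 := by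
        exact_mod_cast Fintype.card_ne_zero
      exact (mul_eq_zero.mp h0).resolve_right hne
    · intro i _ hi
      rw [if_neg hi, mul_zero]
    · intro hq'
      exact absurd hq hq'

/-- Let W₁, W₂ be subgroups of a finite group with W₁ ⊓ W₂ = ⊥ whose elements commute, and W = W₁ ⊔ W₂. For linear characters φ, ψ of W with φ trivial on W₂ and ψ trivial on W₁, the function (1 − φ)(1 − ψ) vanishes on W₁ ∪ W₂; and the family of these functions, indexed by pairs (φ, ψ) with φ ≠ 1 ≠ ψ, is linearly independent over ℂ. -/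
theorem result {G : Type*} [Group G] [Finite G] (W₁ W₂ : Subgroup G) (hdisj : W₁ ⊓ W₂ = ⊥) (hcomm : ∀ a ∈ W₁, ∀ b ∈ W₂, a * b = b * a) : (∀ φ ψ : ↥(W₁ ⊔ W₂) →* ℂˣ, (∀ w : ↥(W₁ ⊔ W₂), (w : G) ∈ W₂ → φ w = 1) → (∀ w : ↥(W₁ ⊔ W₂), (w : G) ∈ W₁ → ψ w = 1) → ∀ w : ↥(W₁ ⊔ W₂), ((w : G) ∈ W₁ ∨ (w : G) ∈ W₂) → (1 - (φ w : ℂ) - (ψ w : ℂ) + (φ w : ℂ) * (ψ w : ℂ)) = 0) ∧ LinearIndependent ℂ (fun p : {p : (↥(W₁ ⊔ W₂) →* ℂˣ) × (↥(W₁ ⊔ W₂) →* ℂˣ) // p.1 ≠ 1 ∧ p.2 ≠ 1 ∧ (∀ w : ↥(W₁ ⊔ W₂), (w : G) ∈ W₂ → p.1 w = 1) ∧ (∀ w : ↥(W₁ ⊔ W₂), (w : G) ∈ W₁ → p.2 w = 1)} => fun w : ↥(W₁ ⊔ W₂) => 1 - (p.1.1 w : ℂ) - (p.1.2 w : ℂ) + (p.1.1 w : ℂ) * (p.1.2 w : ℂ)) := by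
  exact main W₁ W₂

end Cfsg.Agent.S1504
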