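import Cfsg.Statements.S1505
import Mathlib
import Cfsg.Agent.Lib.Helper3.Char
import Cfsg.Agent.Lib.Helper3.CharInd
import Cfsg.Agent.S1504

set_option autoImplicit false
open Cfsg

namespace Cfsg.Agent.S1505

open Cfsg.Agent.Lib.Helper3.Char Cfsg.Agent.Lib.Helper3.CharInd
open scoped ComplexConjugate

theorem conj_char {W : Type*} [Group W] [Finite W] (ω : W →* ℂˣ) (w : W) :
    conj (ω w : ℂ) = ((ω⁻¹ w : ℂˣ) : ℂ) := by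
  have h1 : (ω w : ℂ) ^ Nat.card W = 1 := by
    rw [← Units.val_pow_eq_pow_val, ← map_pow, pow_card_eq_one', map_one, Units.val_one]
  have h2 : ‖(ω w : ℂ)‖ = 1 := Complex.norm_eq_one_of_pow_eq_one h1 Nat.card_pos.ne'
  rw [← Complex.inv_eq_conj h2, MonoidHom.inv_apply, Units.val_inv_eq_inv_val]

open Classical in
theorem lin_orth {W : Type*} [Group W] [Fintype W] (ω ω' : W →* ℂˣ) :
    Cfsg.classInner (fun w => (ω w : ℂ)) (fun w => (ω' w : ℂ)) = if ω = ω' then 1 else 0 := by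
  unfold Cfsg.classInner
  have h1 : ∀ w : W, (ω w : ℂ) * conj (ω' w : ℂ) = (((ω * ω'⁻¹) w : ℂˣ) : ℂ) := by
    intro w
    rw [conj_char, MonoidHom.mul_apply, Units.val_mul]
  rw [Finset.sum_congr rfl (fun w _ => h1 w), Cfsg.Agent.S1504.sum_char]
  have hc : (Nat.card W : ℂ) ≠ 0 := by exact_mod_cast Nat.card_pos.ne'
  by_cases h : ω = ω'
  · have e : ω * ω'⁻¹ = 1 := by
      rw [h]
      exact mul_inv_cancel ω'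
    rw [if_pos h, if_pos e, ← Nat.card_eq_fintype_card, inv_mul_cancel₀ hc]
  · rw [if_neg h, if_neg (fun h' => h (mul_inv_eq_one.mp h')), mul_zero]

theorem decomp {G : Type*} [Group G] (W₁ W₂ : Subgroup G) (a a' b b' : ↥(W₁ ⊔ W₂) →* ℂˣ)
    (ha : ∀ w : ↥(W₁ ⊔ W₂), (w : G) ∈ W₂ → a w = 1)
    (ha' : ∀ w : ↥(W₁ ⊔ W₂), (w : G) ∈ W₂ → a' w = 1)
    (hb : ∀ w : ↥(W₁ ⊔ W₂), (w : G) ∈ W₁ → b w = 1)
    (hb' : ∀ w : ↥(W₁ ⊔ W₂), (w : G) ∈ W₁ → b' w = 1)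
    (h : a * b = a' * b') : a = a' ∧ b = b' := by
  have hw : ∀ w, a w * b w = a' w * b' w := fun w => by
    have h1 := DFunLike.congr_fun h w
    simpa [MonoidHom.mul_apply] using h1
  constructor
  · apply Cfsg.Agent.S1504.hom_ext_sup
    · intro w hw1
      have h1 := hw w
      rw [hb w hw1, hb' w hw1, mul_one, mul_one] at h1
      exact h1
    · intro w hw2
      rw [ha w hw2, ha' w hw2]
  · apply Cfsg.Agent.S1504.hom_ext_sup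
    · intro w hw1
      rw [hb w hw1, hb' w hw1]
    · intro w hw2
      have h1 := hw w
      rw [ha w hw2, ha' w hw2, one_mul, one_mul] at h1
      exact h1

theorem alpha_eq {W : Type*} [Group W] (φ ψ : W →* ℂˣ) :
    (fun w : W => 1 - (φ w : ℂ) - (ψ w : ℂ) + (φ w : ℂ) * (ψ w : ℂ)) =
      (fun w => ((1 : W →* ℂˣ) w : ℂ)) - (fun w => (φ w : ℂ)) - (fun w => (ψ w : ℂ)) +
        (fun w => ((φ * ψ) w : ℂ)) := by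
  funext w
  simp [MonoidHom.mul_apply]

open Classical in
theorem alpha_inner {G : Type*} [Group G] (W₁ W₂ : Subgroup G) [Fintype ↥(W₁ ⊔ W₂)]
    (φ φ' ψ ψ' : ↥(W₁ ⊔ W₂) →* ℂˣ) (hφ : φ ≠ 1) (hφ' : φ' ≠ 1) (hψ : ψ ≠ 1) (hψ' : ψ' ≠ 1)
    (hφ₂ : ∀ w : ↥(W₁ ⊔ W₂), (w : G) ∈ W₂ → φ w = 1 ∧ φ' w = 1)
    (hψ₁ : ∀ w : ↥(W₁ ⊔ W₂), (w : G) ∈ W₁ → ψ w = 1 ∧ ψ' w = 1) :
    Cfsg.classInner (fun w : ↥(W₁ ⊔ W₂) => 1 - (φ w : ℂ) - (ψ w : ℂ) + (φ w : ℂ) * (ψ w : ℂ))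
      (fun w => 1 - (φ' w : ℂ) - (ψ' w : ℂ) + (φ' w : ℂ) * (ψ' w : ℂ)) =
      1 + (if φ = φ' then 1 else 0) + (if ψ = ψ' then 1 else 0) +
        (if φ = φ' then 1 else 0) * (if ψ = ψ' then 1 else 0) ∧
    Cfsg.classInner (fun w : ↥(W₁ ⊔ W₂) => 1 - (φ w : ℂ) - (ψ w : ℂ) + (φ w : ℂ) * (ψ w : ℂ))
      (fun _ => 1) = 1 := by
  have t1 : ∀ w : ↥(W₁ ⊔ W₂), (w : G) ∈ W₂ → (1 : ↥(W₁ ⊔ W₂) →* ℂˣ) w = 1 := fun _ _ => rfl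
  have t2 : ∀ w : ↥(W₁ ⊔ W₂), (w : G) ∈ W₁ → (1 : ↥(W₁ ⊔ W₂) →* ℂˣ) w = 1 := fun _ _ => rfl
  have a2 : ∀ w : ↥(W₁ ⊔ W₂), (w : G) ∈ W₂ → φ w = 1 := fun w h => (hφ₂ w h).1
  have a2' : ∀ w : ↥(W₁ ⊔ W₂), (w : G) ∈ W₂ → φ' w = 1 := fun w h => (hφ₂ w h).2
  have b1 : ∀ w : ↥(W₁ ⊔ W₂), (w : G) ∈ W₁ → ψ w = 1 := fun w h => (hψ₁ w h).1
  have b1' : ∀ w : ↥(W₁ ⊔ W₂), (w : G) ∈ W₁ → ψ' w = 1 := fun w h => (hψ₁ w h).2
  have e1 : (1 : ↥(W₁ ⊔ W₂) →* ℂˣ) ≠ φ' := fun h => hφ' h.symm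
  have e2 : (1 : ↥(W₁ ⊔ W₂) →* ℂˣ) ≠ ψ' := fun h => hψ' h.symm
  have e3 : (1 : ↥(W₁ ⊔ W₂) →* ℂˣ) ≠ φ' * ψ' := fun h =>
    hφ' (decomp W₁ W₂ 1 φ' 1 ψ' t1 a2' t2 b1' ((one_mul 1).trans h)).1.symm
  have e4 : φ ≠ 1 := hφ
  have e5 : φ ≠ ψ' := fun h =>
    hφ (decomp W₁ W₂ φ 1 1 ψ' a2 t1 t2 b1' ((mul_one φ).trans (h.trans (one_mul ψ').symm))).1
  have e6 : φ ≠ φ' * ψ' := fun h =>
    hψ' (decomp W₁ W₂ φ φ' 1 ψ' a2 a2' t2 b1' ((mul_one φ).trans h)).2.symm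
  have e7 : ψ ≠ 1 := hψ
  have e8 : ψ ≠ φ' := fun h =>
    hφ' (decomp W₁ W₂ 1 φ' ψ 1 t1 a2' b1 t2 ((one_mul ψ).trans (h.trans (mul_one φ').symm))).1.symm
  have e9 : ψ ≠ φ' * ψ' := fun h =>
    hφ' (decomp W₁ W₂ 1 φ' ψ ψ' t1 a2' b1 b1' ((one_mul ψ).trans h)).1.symm
  have e10 : φ * ψ ≠ 1 := fun h =>
    hφ (decomp W₁ W₂ φ 1 ψ 1 a2 t1 b1 t2
      (h.trans (one_mul (1 : ↥(W₁ ⊔ W₂) →* ℂˣ)).symm)).1
  have e11 : φ * ψ ≠ φ' := fun h =>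
    hψ (decomp W₁ W₂ φ φ' ψ 1 a2 a2' b1 t2 (h.trans (mul_one φ').symm)).2
  have e12 : φ * ψ ≠ ψ' := fun h =>
    hφ (decomp W₁ W₂ φ 1 ψ ψ' a2 t1 b1 b1' (h.trans (one_mul ψ').symm)).1
  have hone : (fun _ : ↥(W₁ ⊔ W₂) => (1 : ℂ)) = fun w => ((1 : ↥(W₁ ⊔ W₂) →* ℂˣ) w : ℂ) := by
    funext w
    simp
  constructor
  · rw [alpha_eq φ ψ, alpha_eq φ' ψ']
    simp only [classInner_add_left, classInner_sub_left, classInner_add_right,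
      classInner_sub_right]
    rw [lin_orth 1 1, lin_orth 1 φ', lin_orth 1 ψ', lin_orth 1 (φ' * ψ'), lin_orth φ 1,
      lin_orth φ φ', lin_orth φ ψ', lin_orth φ (φ' * ψ'), lin_orth ψ 1, lin_orth ψ φ',
      lin_orth ψ ψ', lin_orth ψ (φ' * ψ'), lin_orth (φ * ψ) 1, lin_orth (φ * ψ) φ',
      lin_orth (φ * ψ) ψ', lin_orth (φ * ψ) (φ' * ψ')]
    rw [if_pos rfl, if_neg e1, if_neg e2, if_neg e3, if_neg e4, if_neg e5, if_neg e6, if_neg e7,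
      if_neg e8, if_neg e9, if_neg e10, if_neg e11, if_neg e12]
    by_cases h1 : φ = φ'
    · by_cases h2 : ψ = ψ'
      · rw [if_pos h1, if_pos h2, if_pos (by rw [h1, h2])]
        ring
      · rw [if_pos h1, if_neg h2,
          if_neg (fun h => h2 (decomp W₁ W₂ φ φ' ψ ψ' a2 a2' b1 b1' h).2)]
        ring
    · rw [if_neg h1, if_neg (fun h => h1 (decomp W₁ W₂ φ φ' ψ ψ' a2 a2' b1 b1' h).1)]
      ring
  · rw [alpha_eq φ ψ, hone]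
    simp only [classInner_add_left, classInner_sub_left]
    rw [lin_orth 1 1, lin_orth φ 1, lin_orth ψ 1, lin_orth (φ * ψ) 1, if_pos rfl, if_neg e4,
      if_neg e7, if_neg e10]
    ring

theorem cyc_mem {W : Type*} [Group W] [Fintype W] [IsCyclic W] (U : Subgroup W) (y : W)
    (hy : y ^ Nat.card U = 1) : y ∈ U := by
  classical
  have hm : 0 < Nat.card U := Nat.card_pos
  have h1 : (Finset.univ.filter (fun a : W => a ^ Nat.card U = 1)).card ≤ Nat.card U :=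
    IsCyclic.card_pow_eq_one_le hm
  have h2 : (Finset.univ.filter (fun a : W => a ∈ U)) ⊆
      Finset.univ.filter (fun a : W => a ^ Nat.card U = 1) := by
    intro a ha
    rw [Finset.mem_filter] at ha ⊢
    refine ⟨Finset.mem_univ _, ?_⟩
    have h3 : (⟨a, ha.2⟩ : ↥U) ^ Nat.card U = 1 := pow_card_eq_one'
    have h4 := congrArg Subtype.val h3
    rw [Subgroup.coe_pow, Subgroup.coe_one] at h4
    exact h4
  have h3 : (Finset.univ.filter (fun a : W => a ∈ U)).card = Nat.card U := by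
    rw [Nat.card_eq_fintype_card, Fintype.card_subtype]
  have h4 := Finset.eq_of_subset_of_card_le h2 (by rw [h3]; exact h1)
  have h5 : y ∈ Finset.univ.filter (fun a : W => a ^ Nat.card U = 1) :=
    Finset.mem_filter.mpr ⟨Finset.mem_univ _, hy⟩
  rw [← h4] at h5
  exact (Finset.mem_filter.mp h5).2

theorem singleton_norm {G : Type*} [Group G] (s c : G) :
    c ∈ Subgroup.normalizer ({s} : Set G) ↔ c * s * c⁻¹ = s := by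
  rw [Subgroup.mem_set_normalizer_iff]
  constructor
  · intro h
    exact (h s).mp rfl
  · intro h x
    simp only [Set.mem_singleton_iff]
    constructor
    · rintro rfl
      exact h
    · intro hx
      have h1 : c * x * c⁻¹ = c * s * c⁻¹ := hx.trans h.symm
      simpa using h1

theorem ti_aux {G : Type*} [Group G] [Finite G] (W₁ W₂ : Subgroup G)
    (hcyc : IsCyclic ↥(W₁ ⊔ W₂))
    (hnorm : ∀ X : Set G, X ⊆ (↑(W₁ ⊔ W₂) : Set G) \ (↑W₁ ∪ ↑W₂) → X.Nonempty →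
      Subgroup.normalizer X = W₁ ⊔ W₂)
    (g t : G) (ht : t ∈ (↑(W₁ ⊔ W₂) : Set G) \ (↑W₁ ∪ ↑W₂))
    (ht' : g * t * g⁻¹ ∈ (↑(W₁ ⊔ W₂) : Set G) \ (↑W₁ ∪ ↑W₂)) : g ∈ W₁ ⊔ W₂ := by
  classical
  haveI : Fintype ↥(W₁ ⊔ W₂) := Fintype.ofFinite _
  haveI := hcyc
  have hc : ∀ y, y ∈ W₁ ⊔ W₂ ↔ y * t * y⁻¹ = t := fun y => by
    rw [← singleton_norm, hnorm {t} (Set.singleton_subset_iff.mpr ht) (Set.singleton_nonempty t)]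
  have hc' : ∀ y, y ∈ W₁ ⊔ W₂ ↔ y * (g * t * g⁻¹) * y⁻¹ = g * t * g⁻¹ := fun y => by
    rw [← singleton_norm, hnorm {g * t * g⁻¹} (Set.singleton_subset_iff.mpr ht')
      (Set.singleton_nonempty _)]
  have F1 : ∀ y, y ∈ W₁ ⊔ W₂ ↔ g * y * g⁻¹ ∈ W₁ ⊔ W₂ := by
    intro y
    rw [hc y, hc' (g * y * g⁻¹)]
    have e : g * y * g⁻¹ * (g * t * g⁻¹) * (g * y * g⁻¹)⁻¹ = g * (y * t * y⁻¹) * g⁻¹ := by group
    rw [e]
    constructor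
    · intro h
      rw [h]
    · intro h
      simpa using h
  have F1inv : ∀ y, y ∈ W₁ ⊔ W₂ → g⁻¹ * y * g ∈ W₁ ⊔ W₂ := by
    intro y hy
    rw [F1 (g⁻¹ * y * g)]
    have e : g * (g⁻¹ * y * g) * g⁻¹ = y := by group
    rw [e]
    exact hy
  have key : ∀ (U : Subgroup G), U ≤ W₁ ⊔ W₂ → ∀ (k : G),
      (∀ y ∈ W₁ ⊔ W₂, k * y * k⁻¹ ∈ W₁ ⊔ W₂) → ∀ y ∈ U, k * y * k⁻¹ ∈ U := by
    intro U hU k hk y hy
    have hyW := hU hy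
    have h2 : (⟨⟨y, hyW⟩, Subgroup.mem_subgroupOf.mpr hy⟩ : ↥(U.subgroupOf (W₁ ⊔ W₂))) ^
        Nat.card ↥(U.subgroupOf (W₁ ⊔ W₂)) = 1 := pow_card_eq_one'
    have h3 : y ^ Nat.card ↥(U.subgroupOf (W₁ ⊔ W₂)) = 1 := by
      have h4 := congrArg (fun z : ↥(U.subgroupOf (W₁ ⊔ W₂)) => ((z : ↥(W₁ ⊔ W₂)) : G)) h2
      simp only [Subgroup.coe_pow, Subgroup.coe_one] at h4
      exact h4
    have h1 := cyc_mem (U.subgroupOf (W₁ ⊔ W₂)) ⟨k * y * k⁻¹, hk y hyW⟩ (by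
      apply Subtype.ext
      rw [Subgroup.coe_pow]
      show (k * y * k⁻¹) ^ Nat.card ↥(U.subgroupOf (W₁ ⊔ W₂)) = 1
      rw [conj_pow, h3]
      group)
    exact Subgroup.mem_subgroupOf.mp h1
  have hgV : g ∈ Subgroup.normalizer ((↑(W₁ ⊔ W₂) : Set G) \ (↑W₁ ∪ ↑W₂)) := by
    rw [Subgroup.mem_set_normalizer_iff]
    intro h
    have kg : ∀ y ∈ W₁ ⊔ W₂, g * y * g⁻¹ ∈ W₁ ⊔ W₂ := fun y hy => (F1 y).mp hy
    have kg' : ∀ y ∈ W₁ ⊔ W₂, g⁻¹ * y * g⁻¹⁻¹ ∈ W₁ ⊔ W₂ := fun y hy => by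
      rw [inv_inv]
      exact F1inv y hy
    have back : ∀ z : G, g⁻¹ * (g * z * g⁻¹) * g⁻¹⁻¹ = z := fun z => by group
    simp only [Set.mem_sdiff, Set.mem_union, SetLike.mem_coe, not_or]
    constructor
    · rintro ⟨hW, h1, h2⟩
      refine ⟨kg h hW, fun h1' => h1 ?_, fun h2' => h2 ?_⟩
      · have h3 := key W₁ le_sup_left g⁻¹ kg' _ h1'
        rwa [back] at h3
      · have h3 := key W₂ le_sup_right g⁻¹ kg' _ h2'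
        rwa [back] at h3
    · rintro ⟨hW, h1, h2⟩
      exact ⟨(F1 h).mpr hW, fun h1' => h1 (key W₁ le_sup_left g kg _ h1'),
        fun h2' => h2 (key W₂ le_sup_right g kg _ h2')⟩
  rw [hnorm _ (subset_refl _) ⟨t, ht⟩] at hgV
  exact hgV

theorem indFun_ti' {G : Type*} [Group G] [Fintype G] (T : Set G) (H : Subgroup G)
    (hH : Subgroup.normalizer T = H)
    (hTI : ∀ g : G, g ∉ H → ∀ t ∈ T, g * t * g⁻¹ ∈ T → t = 1)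
    (ψ : H → ℂ) (hψ : Cfsg.IsClassFunction H ψ) (hψT : ∀ x : H, (x : G) ∉ T → ψ x = 0)
    (t : H) (htT : (t : G) ∈ T) (ht1 : t ≠ 1) : Cfsg.indFun H ψ t = ψ t := by
  subst hH
  exact indFun_ti T hTI ψ hψ hψT t htT ht1

theorem ti_ind {G : Type*} [Group G] [Fintype G] (W₁ W₂ : Subgroup G)
    (hW : Cfsg.IsSelfNormalizingCyclic W₁ W₂) (β : ↥(W₁ ⊔ W₂) → ℂ)
    (hβ : ∀ x : ↥(W₁ ⊔ W₂), ((x : G) ∈ W₁ ∨ (x : G) ∈ W₂) → β x = 0) (w : ↥(W₁ ⊔ W₂))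
    (hw₁ : (w : G) ∉ W₁) (hw₂ : (w : G) ∉ W₂) : Cfsg.indFun (W₁ ⊔ W₂) β (w : G) = β w := by
  obtain ⟨-, -, -, -, hcyc, hnorm⟩ := hW
  have hwV : (w : G) ∈ (↑(W₁ ⊔ W₂) : Set G) \ (↑W₁ ∪ ↑W₂) :=
    ⟨w.2, fun h => h.elim hw₁ hw₂⟩
  have hcomm : ∀ a b : ↥(W₁ ⊔ W₂), a * b = b * a := by
    haveI := hcyc
    intro a b
    exact (IsCyclic.commGroup (α := ↥(W₁ ⊔ W₂))).mul_comm a b
  apply indFun_ti' ((↑(W₁ ⊔ W₂) : Set G) \ (↑W₁ ∪ ↑W₂)) (W₁ ⊔ W₂)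
    (hnorm _ (subset_refl _) ⟨w, hwV⟩)
  · intro g hg t ht ht'
    exact absurd (ti_aux W₁ W₂ hcyc hnorm g t ht ht') hg
  · intro x h
    have e : h * x * h⁻¹ = x := by rw [hcomm h x, mul_inv_cancel_right]
    rw [e]
  · intro x hx
    apply hβ
    by_contra hcon
    push_neg at hcon
    exact hx ⟨x.2, fun h => h.elim hcon.1 hcon.2⟩
  · exact hwV
  · intro h1
    apply hw₁
    rw [h1]
    exact W₁.one_mem

open Classical in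
theorem main {G : Type*} [Group G] [Fintype G] (W₁ W₂ : Subgroup G) (hW : Cfsg.IsSelfNormalizingCyclic W₁ W₂) (φ φ' ψ ψ' : ↥(W₁ ⊔ W₂) →* ℂˣ) (hφ : φ ≠ 1) (hφ' : φ' ≠ 1) (hψ : ψ ≠ 1) (hψ' : ψ' ≠ 1) (hφ₂ : ∀ w : ↥(W₁ ⊔ W₂), (w : G) ∈ W₂ → φ w = 1 ∧ φ' w = 1) (hψ₁ : ∀ w : ↥(W₁ ⊔ W₂), (w : G) ∈ W₁ → ψ w = 1 ∧ ψ' w = 1) : Cfsg.classInner (Cfsg.indFun (W₁ ⊔ W₂) (fun w => 1 - (φ w : ℂ) - (ψ w : ℂ) + (φ w : ℂ) * (ψ w : ℂ))) (fun _ => 1) = 1 ∧ Cfsg.classInner (Cfsg.indFun (W₁ ⊔ W₂) (fun w => 1 - (φ w : ℂ) - (ψ w : ℂ) + (φ w : ℂ) * (ψ w : ℂ))) (Cfsg.indFun (W₁ ⊔ W₂) (fun w => 1 - (φ' w : ℂ) - (ψ' w : ℂ) + (φ' w : ℂ) * (ψ' w : ℂ))) = 1 + (if φ = φ' then 1 else 0) + (if ψ = ψ' then 1 else 0) + (if φ = φ' then 1 else 0) * (if ψ = ψ' then 1 else 0) := by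
  have hin := alpha_inner W₁ W₂ φ φ' ψ ψ' hφ hφ' hψ hψ' hφ₂ hψ₁
  constructor
  · rw [frobenius (W₁ ⊔ W₂) _ (fun _ => 1) (fun g h => rfl)]
    exact hin.2
  · rw [frobenius (W₁ ⊔ W₂) _ _ (indFun_classFun (W₁ ⊔ W₂) _)]
    have hres : Cfsg.classInner
        (fun w : ↥(W₁ ⊔ W₂) => 1 - (φ w : ℂ) - (ψ w : ℂ) + (φ w : ℂ) * (ψ w : ℂ))
        (fun h : ↥(W₁ ⊔ W₂) => Cfsg.indFun (W₁ ⊔ W₂)
          (fun w => 1 - (φ' w : ℂ) - (ψ' w : ℂ) + (φ' w : ℂ) * (ψ' w : ℂ)) h) =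
        Cfsg.classInner
          (fun w : ↥(W₁ ⊔ W₂) => 1 - (φ w : ℂ) - (ψ w : ℂ) + (φ w : ℂ) * (ψ w : ℂ))
          (fun w => 1 - (φ' w : ℂ) - (ψ' w : ℂ) + (φ' w : ℂ) * (ψ' w : ℂ)) := by
      unfold Cfsg.classInner
      congr 1
      refine Finset.sum_congr rfl (fun w _ => ?_)
      by_cases hw : (w : G) ∈ W₁ ∨ (w : G) ∈ W₂
      · have h0 := (Cfsg.Agent.S1504.main W₁ W₂).1 φ ψ (fun w h => (hφ₂ w h).1)
          (fun w h => (hψ₁ w h).1) w hw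
        simp only [h0, zero_mul]
      · push_neg at hw
        have h1 := ti_ind W₁ W₂ hW
          (fun w => 1 - (φ' w : ℂ) - (ψ' w : ℂ) + (φ' w : ℂ) * (ψ' w : ℂ))
          (fun x hx => (Cfsg.Agent.S1504.main W₁ W₂).1 φ' ψ' (fun w h => (hφ₂ w h).2)
            (fun w h => (hψ₁ w h).2) x hx) w hw.1 hw.2
        simp only [h1]
    rw [hres]
    exact hin.1

open Classical in
/-- Let W₁, W₂ ≤ G form a self-normalising cyclic subgroup W = W₁ ⊔ W₂. For nontrivial linear characters φ, φ' of W trivial on W₂ and ψ, ψ' trivial on W₁, put α = (1 − φ)(1 − ψ) and α' = (1 − φ')(1 − ψ'). Then the function induced from α to G has inner product 1 with the principal character, and the inner product of the functions induced from α and α' is 1 + a + b + ab where a = 1 if φ = φ' (else 0) and b = 1 if ψ = ψ' (else 0). -/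
theorem result {G : Type*} [Group G] [Fintype G] (W₁ W₂ : Subgroup G) (hW : Cfsg.IsSelfNormalizingCyclic W₁ W₂) (φ φ' ψ ψ' : ↥(W₁ ⊔ W₂) →* ℂˣ) (hφ : φ ≠ 1) (hφ' : φ' ≠ 1) (hψ : ψ ≠ 1) (hψ' : ψ' ≠ 1) (hφ₂ : ∀ w : ↥(W₁ ⊔ W₂), (w : G) ∈ W₂ → φ w = 1 ∧ φ' w = 1) (hψ₁ : ∀ w : ↥(W₁ ⊔ W₂), (w : G) ∈ W₁ → ψ w = 1 ∧ ψ' w = 1) : Cfsg.classInner (Cfsg.indFun (W₁ ⊔ W₂) (fun w => 1 - (φ w : ℂ) - (ψ w : ℂ) + (φ w : ℂ) * (ψ w : ℂ))) (fun _ => 1) = 1 ∧ Cfsg.classInner (Cfsg.indFun (W₁ ⊔ W₂) (fun w => 1 - (φ w : ℂ) - (ψ w : ℂ) + (φ w : ℂ) * (ψ w : ℂ))) (Cfsg.indFun (W₁ ⊔ W₂) (fun w => 1 - (φ' w : ℂ) - (ψ' w : ℂ) + (φ' w : ℂ) * (ψ' w : ℂ))) = 1 + (if φ = φ' then 1 else 0) + (if ψ = ψ' then 1 else 0) + (if φ = φ' then 1 else 0) * (if ψ = ψ' then 1 else 0) := by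
  exact main W₁ W₂ hW φ φ' ψ ψ' hφ hφ' hψ hψ' hφ₂ hψ₁

end Cfsg.Agent.S1505
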