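import Cfsg.Statements.S1507
import Mathlib
import Cfsg.Agent.Lib.Helper3.Char
import Cfsg.Agent.Lib.Helper3.CharInd
import Cfsg.Agent.S1503
import Cfsg.Agent.S1504
import Cfsg.Agent.S1505

set_option autoImplicit false
open Cfsg

namespace Cfsg.Agent.S1507

open Cfsg.Agent.Lib.Helper3.Char Cfsg.Agent.Lib.Helper3.CharInd
open scoped ComplexConjugate

theorem card_triv {W : Type*} [Group W] [Fintype W] (hcomm : ∀ a b : W, a * b = b * a)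
    (U : Subgroup W) (A : Finset (W →* ℂˣ)) (hA : ∀ φ, φ ∈ A ↔ ∀ u ∈ U, φ u = 1) :
    A.card * Nat.card U = Nat.card W := by
  classical
  haveI : Fintype U := Fintype.ofFinite _
  have h1 : ∑ x : W, ∑ φ ∈ A, (φ x : ℂ) = (Nat.card U : ℂ) * A.card := by
    rw [sum_subgroup U (fun x => ∑ φ ∈ A, (φ x : ℂ))
      (fun g hg => Cfsg.Agent.S1503.sum_triv hcomm U g hg A hA)]
    rw [Finset.sum_congr rfl (fun (h : ↥U) _ => Cfsg.Agent.S1503.sum_one U (h : W) h.2 A hA),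
      Finset.sum_const, Finset.card_univ, nsmul_eq_mul, Nat.card_eq_fintype_card]
  have h2 : ∑ x : W, ∑ φ ∈ A, (φ x : ℂ) = (Nat.card W : ℂ) := by
    rw [Finset.sum_comm]
    have h1A : (1 : W →* ℂˣ) ∈ A := (hA 1).mpr (fun u _ => rfl)
    rw [Finset.sum_eq_single (1 : W →* ℂˣ)]
    · rw [Cfsg.Agent.S1504.sum_char, if_pos rfl, Nat.card_eq_fintype_card]
    · intro φ _ hφ
      rw [Cfsg.Agent.S1504.sum_char, if_neg hφ]
    · intro h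
      exact absurd h1A h
  have h3 : ((A.card * Nat.card U : ℕ) : ℂ) = ((Nat.card W : ℕ) : ℂ) := by
    rw [← h2, h1]
    push_cast
    ring
  exact_mod_cast h3

theorem card_prod_le {G : Type*} [Group G] [Finite G] (W₁ W₂ : Subgroup G)
    (hdisj : W₁ ⊓ W₂ = ⊥) : Nat.card W₁ * Nat.card W₂ ≤ Nat.card ↥(W₁ ⊔ W₂) := by
  rw [← Nat.card_prod]
  apply Nat.card_le_card_of_injective
    (fun p : W₁ × W₂ => (⟨(p.1 : G) * (p.2 : G),
      (W₁ ⊔ W₂).mul_mem (le_sup_left (b := W₂) p.1.2) (le_sup_right (a := W₁) p.2.2)⟩ :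
        ↥(W₁ ⊔ W₂)))
  rintro ⟨a, b⟩ ⟨a', b'⟩ h
  have h1 : (a : G) * (b : G) = (a' : G) * (b' : G) := congrArg Subtype.val h
  have h2 : (a' : G)⁻¹ * (a : G) = (b' : G) * (b : G)⁻¹ := by
    rw [inv_mul_eq_iff_eq_mul, ← mul_assoc, ← h1, mul_inv_cancel_right]
  have h3 : (a' : G)⁻¹ * (a : G) ∈ W₁ ⊓ W₂ :=
    ⟨W₁.mul_mem (W₁.inv_mem a'.2) a.2, by rw [h2]; exact W₂.mul_mem b'.2 (W₂.inv_mem b.2)⟩
  have h4 : (b' : G) * (b : G)⁻¹ ∈ W₁ ⊓ W₂ := by rw [← h2]; exact h3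
  rw [hdisj, Subgroup.mem_bot, inv_mul_eq_one] at h3
  rw [hdisj, Subgroup.mem_bot, mul_inv_eq_one] at h4
  exact Prod.ext (Subtype.ext h3.symm) (Subtype.ext h4.symm)

theorem comb {Φ : Type*} [DecidableEq Φ] (A B : Finset Φ) (b c : Φ → ℂ) (e : Φ) (he : e ∈ A)
    (hbe : b e = 0) (n : ℕ) (hA : n ≤ A.card) (hB : n + 2 ≤ B.card)
    (S : Finset (Φ × Φ)) (hS : ∀ p, p ∈ S ↔ (p.1 ∈ A ∧ p.2 ∈ B) ∧ b p.1 + c p.2 ≠ 0)
    (hcount : S.card < 2 * n) :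
    (∀ φ ∈ A, ∀ ψ ∈ B, b φ + c ψ = 0) ∨
    (∃ ψ₀ ∈ B, ∃ a₀ : ℂ, ∀ φ ∈ A, ∀ ψ ∈ B, b φ + c ψ = if ψ = ψ₀ then a₀ else 0) ∨
    (∃ φ₀ ∈ A, ∃ a₀ : ℂ, ∀ φ ∈ A, ∀ ψ ∈ B, b φ + c ψ = if φ = φ₀ then a₀ else 0) := by
  by_cases hb : ∀ φ ∈ A, b φ = 0
  · by_cases hc : ∀ ψ ∈ B, c ψ = 0
    · left
      intro φ hφ ψ hψ
      rw [hb φ hφ, hc ψ hψ, add_zero]
    · push_neg at hc
      obtain ⟨ψ₀, hψ₀, hcψ₀⟩ := hc
      right; left
      refine ⟨ψ₀, hψ₀, c ψ₀, ?_⟩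
      intro φ hφ ψ hψ
      by_cases hψe : ψ = ψ₀
      · rw [if_pos hψe, hb φ hφ, hψe, zero_add]
      · rw [if_neg hψe, hb φ hφ, zero_add]
        by_contra hne
        have hsub : A ×ˢ ({ψ₀, ψ} : Finset Φ) ⊆ S := by
          intro p hp
          rw [Finset.mem_product] at hp
          rw [hS]
          have hp2 : p.2 = ψ₀ ∨ p.2 = ψ := by simpa using hp.2
          refine ⟨⟨hp.1, ?_⟩, ?_⟩
          · rcases hp2 with h | h
            · rw [h]; exact hψ₀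
            · rw [h]; exact hψ
          · rw [hb p.1 hp.1, zero_add]
            rcases hp2 with h | h
            · rw [h]; exact hcψ₀
            · rw [h]; exact hne
        have hcard := Finset.card_le_card hsub
        rw [Finset.card_product, Finset.card_pair (Ne.symm hψe)] at hcard
        omega
  · push_neg at hb
    obtain ⟨φ₁, hφ₁, hbφ₁⟩ := hb
    by_cases hc : ∀ ψ ∈ B, ∀ ψ' ∈ B, c ψ = c ψ'
    · have hBne : B.Nonempty := Finset.card_pos.mp (by omega)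
      obtain ⟨ψ₁, hψ₁⟩ := hBne
      by_cases hd : ∀ φ ∈ A, b φ + c ψ₁ = 0
      · left
        intro φ hφ ψ hψ
        rw [hc ψ hψ ψ₁ hψ₁]
        exact hd φ hφ
      · push_neg at hd
        obtain ⟨φ₀, hφ₀, hdφ₀⟩ := hd
        right; right
        refine ⟨φ₀, hφ₀, b φ₀ + c ψ₁, ?_⟩
        intro φ hφ ψ hψ
        rw [hc ψ hψ ψ₁ hψ₁]
        by_cases hφe : φ = φ₀
        · rw [if_pos hφe, hφe]
        · rw [if_neg hφe]
          by_contra hne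
          have hsub : ({φ₀, φ} : Finset Φ) ×ˢ B ⊆ S := by
            intro p hp
            rw [Finset.mem_product] at hp
            rw [hS]
            have hp1 : p.1 = φ₀ ∨ p.1 = φ := by simpa using hp.1
            refine ⟨⟨?_, hp.2⟩, ?_⟩
            · rcases hp1 with h | h
              · rw [h]; exact hφ₀
              · rw [h]; exact hφ
            · rw [hc p.2 hp.2 ψ₁ hψ₁]
              rcases hp1 with h | h
              · rw [h]; exact hdφ₀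
              · rw [h]; exact hne
          have hcard := Finset.card_le_card hsub
          rw [Finset.card_product, Finset.card_pair (Ne.symm hφe)] at hcard
          omega
    · exfalso
      push_neg at hc
      obtain ⟨ψ₁, hψ₁, ψ₂, hψ₂, hcne⟩ := hc
      have hsplit := Finset.card_filter_add_card_filter_not (s := S)
        (fun p : Φ × Φ => p.1 = e ∨ p.1 = φ₁)
      have h1 : B.card ≤ (S.filter (fun p : Φ × Φ => p.1 = e ∨ p.1 = φ₁)).card := by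
        apply Finset.card_le_card_of_surjOn Prod.snd
        intro ψ hψ
        have hψ' : ψ ∈ B := Finset.mem_coe.mp hψ
        by_cases h : c ψ = 0
        · refine ⟨(φ₁, ψ), ?_, rfl⟩
          rw [Finset.mem_coe, Finset.mem_filter, hS]
          refine ⟨⟨⟨hφ₁, hψ'⟩, ?_⟩, Or.inr rfl⟩
          show b φ₁ + c ψ ≠ 0
          rw [h, add_zero]; exact hbφ₁
        · refine ⟨(e, ψ), ?_, rfl⟩
          rw [Finset.mem_coe, Finset.mem_filter, hS]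
          refine ⟨⟨⟨he, hψ'⟩, ?_⟩, Or.inl rfl⟩
          show b e + c ψ ≠ 0
          rw [hbe, zero_add]; exact h
      have h2 : (A \ {e, φ₁}).card ≤
          (S.filter (fun p : Φ × Φ => ¬ (p.1 = e ∨ p.1 = φ₁))).card := by
        apply Finset.card_le_card_of_surjOn Prod.fst
        intro φ hφ
        have hφ' := Finset.mem_coe.mp hφ
        rw [Finset.mem_sdiff] at hφ'
        have hne : ¬ (φ = e ∨ φ = φ₁) := by
          intro h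
          apply hφ'.2
          simpa using h
        by_cases h : b φ + c ψ₁ = 0
        · refine ⟨(φ, ψ₂), ?_, rfl⟩
          rw [Finset.mem_coe, Finset.mem_filter, hS]
          refine ⟨⟨⟨hφ'.1, hψ₂⟩, ?_⟩, hne⟩
          show b φ + c ψ₂ ≠ 0
          intro h'
          apply hcne
          linear_combination h - h'
        · refine ⟨(φ, ψ₁), ?_, rfl⟩
          rw [Finset.mem_coe, Finset.mem_filter, hS]
          exact ⟨⟨⟨hφ'.1, hψ₁⟩, h⟩, hne⟩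
      have h3 := Finset.le_card_sdiff ({e, φ₁} : Finset Φ) A
      have h4 : ({e, φ₁} : Finset Φ).card ≤ 2 := Finset.card_le_two
      omega

open Classical in
theorem main {G : Type*} [Group G] [Fintype G] (W₁ W₂ : Subgroup G) (hW : Cfsg.IsSelfNormalizingCyclic W₁ W₂) (hodd : Odd (Nat.card ↥(W₁ ⊔ W₂))) (χ : (↥(W₁ ⊔ W₂) →* ℂˣ) → (G → ℂ)) (hχ : Cfsg.IsCyclicTIFamily W₁ W₂ χ) (hlt : Nat.card W₁ < Nat.card W₂) (θ : G → ℂ) (hθ : Cfsg.IsClassFunction G θ) (hθV : ∀ w : ↥(W₁ ⊔ W₂), (w : G) ∉ W₁ → (w : G) ∉ W₂ → θ w = 0) (hfew : Nat.card {ω : ↥(W₁ ⊔ W₂) →* ℂˣ // Cfsg.classInner θ (χ ω) ≠ 0} < 2 * Nat.card W₁) : (∀ ω, Cfsg.classInner θ (χ ω) = 0) ∨ (∃ (ψ₀ : ↥(W₁ ⊔ W₂) →* ℂˣ) (a : ℂ), ∀ ω, Cfsg.classInner θ (χ ω) = if (∀ w : ↥(W₁ ⊔ W₂), (w : G) ∈ W₂ → (ω * ψ₀⁻¹) w = 1) then a else 0) ∨ (∃ (φ₀ : ↥(W₁ ⊔ W₂) →* ℂˣ) (a : ℂ), ∀ ω, Cfsg.classInner θ (χ ω) = if (∀ w : ↥(W₁ ⊔ W₂),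 (w : G) ∈ W₁ → (ω * φ₀⁻¹) w = 1) then a else 0) := by
  obtain ⟨-, -, hdisj, -, hcyc, -⟩ := hW
  haveI : Fintype ↥(W₁ ⊔ W₂) := Fintype.ofFinite _
  haveI : Fintype (↥(W₁ ⊔ W₂) →* ℂˣ) := Fintype.ofFinite _
  have hcomm : ∀ a b : ↥(W₁ ⊔ W₂), a * b = b * a := by
    haveI := hcyc
    intro a b
    exact (IsCyclic.commGroup (α := ↥(W₁ ⊔ W₂))).mul_comm a b
  obtain ⟨A, hA⟩ : ∃ A : Finset (↥(W₁ ⊔ W₂) →* ℂˣ),
      ∀ φ, φ ∈ A ↔ ∀ w : ↥(W₁ ⊔ W₂), (w : G) ∈ W₂ → φ w = 1 :=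
    ⟨Finset.univ.filter (fun φ => ∀ w : ↥(W₁ ⊔ W₂), (w : G) ∈ W₂ → φ w = 1), fun φ => by simp⟩
  obtain ⟨B, hB⟩ : ∃ B : Finset (↥(W₁ ⊔ W₂) →* ℂˣ),
      ∀ ψ, ψ ∈ B ↔ ∀ w : ↥(W₁ ⊔ W₂), (w : G) ∈ W₁ → ψ w = 1 :=
    ⟨Finset.univ.filter (fun ψ => ∀ w : ↥(W₁ ⊔ W₂), (w : G) ∈ W₁ → ψ w = 1), fun ψ => by simp⟩
  have hA' : ∀ φ, φ ∈ A ↔ ∀ u ∈ W₂.subgroupOf (W₁ ⊔ W₂), φ u = 1 := fun φ => by
    rw [hA]
    exact ⟨fun h u hu => h u (Subgroup.mem_subgroupOf.mp hu),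
      fun h w hw => h w (Subgroup.mem_subgroupOf.mpr hw)⟩
  have hB' : ∀ ψ, ψ ∈ B ↔ ∀ u ∈ W₁.subgroupOf (W₁ ⊔ W₂), ψ u = 1 := fun ψ => by
    rw [hB]
    exact ⟨fun h u hu => h u (Subgroup.mem_subgroupOf.mp hu),
      fun h w hw => h w (Subgroup.mem_subgroupOf.mpr hw)⟩
  have cA := card_triv hcomm _ A hA'
  have cB := card_triv hcomm _ B hB'
  rw [Nat.card_congr (Subgroup.subgroupOfEquivOfLe (le_sup_right : W₂ ≤ W₁ ⊔ W₂)).toEquiv] at cA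
  rw [Nat.card_congr (Subgroup.subgroupOfEquivOfLe (le_sup_left : W₁ ≤ W₁ ⊔ W₂)).toEquiv] at cB
  have cU : (Finset.univ : Finset (↥(W₁ ⊔ W₂) →* ℂˣ)).card *
      Nat.card (⊥ : Subgroup ↥(W₁ ⊔ W₂)) = Nat.card ↥(W₁ ⊔ W₂) :=
    card_triv hcomm ⊥ Finset.univ (fun φ => by
      simp only [Finset.mem_univ, true_iff]
      intro u hu
      rw [Subgroup.mem_bot.mp hu, map_one])
  rw [Subgroup.card_bot, mul_one] at cU
  have cP := card_prod_le W₁ W₂ hdisj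
  have p1 : 0 < Nat.card W₁ := Nat.card_pos
  have p2 : 0 < Nat.card W₂ := Nat.card_pos
  have pN : 0 < Nat.card ↥(W₁ ⊔ W₂) := Nat.card_pos
  have hAn : Nat.card W₁ ≤ A.card := by
    have : Nat.card W₁ * Nat.card W₂ ≤ A.card * Nat.card W₂ := by rw [cA]; exact cP
    exact Nat.le_of_mul_le_mul_right this p2
  have hBn' : Nat.card W₂ ≤ B.card := by
    have : Nat.card W₂ * Nat.card W₁ ≤ B.card * Nat.card W₁ := by
      rw [cB, mul_comm]; exact cP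
    exact Nat.le_of_mul_le_mul_right this p1
  have o1 : Odd (Nat.card W₁) :=
    Odd.of_dvd_nat hodd (Subgroup.card_dvd_of_le (le_sup_left : W₁ ≤ W₁ ⊔ W₂))
  have o2 : Odd (Nat.card W₂) :=
    Odd.of_dvd_nat hodd (Subgroup.card_dvd_of_le (le_sup_right : W₂ ≤ W₁ ⊔ W₂))
  have hBn : Nat.card W₁ + 2 ≤ B.card := by
    obtain ⟨k1, hk1⟩ := o1
    obtain ⟨k2, hk2⟩ := o2
    omega
  have hinj : ∀ φ ∈ A, ∀ ψ ∈ B, ∀ φ' ∈ A, ∀ ψ' ∈ B, φ * ψ = φ' * ψ' → φ = φ' ∧ ψ = ψ' := by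
    intro φ hφ ψ hψ φ' hφ' ψ' hψ' h
    exact Cfsg.Agent.S1505.decomp W₁ W₂ φ φ' ψ ψ' ((hA φ).mp hφ) ((hA φ').mp hφ')
      ((hB ψ).mp hψ) ((hB ψ').mp hψ') h
  have hNle : Nat.card ↥(W₁ ⊔ W₂) ≤ A.card * B.card := by
    have e : A.card * B.card * (Nat.card W₁ * Nat.card W₂) =
        Nat.card ↥(W₁ ⊔ W₂) * Nat.card ↥(W₁ ⊔ W₂) := by
      calc A.card * B.card * (Nat.card W₁ * Nat.card W₂)
          = (A.card * Nat.card W₂) * (B.card * Nat.card W₁) := by ring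
        _ = _ := by rw [cA, cB]
    have e2 : Nat.card ↥(W₁ ⊔ W₂) * Nat.card ↥(W₁ ⊔ W₂) ≤
        A.card * B.card * Nat.card ↥(W₁ ⊔ W₂) := by
      rw [← e]
      exact Nat.mul_le_mul_left _ cP
    exact Nat.le_of_mul_le_mul_right e2 pN
  have hsurj : ∀ ω : ↥(W₁ ⊔ W₂) →* ℂˣ, ∃ φ ∈ A, ∃ ψ ∈ B, ω = φ * ψ := by
    have hc1 : ((A ×ˢ B).image (fun p : (↥(W₁ ⊔ W₂) →* ℂˣ) × (↥(W₁ ⊔ W₂) →* ℂˣ) =>
        p.1 * p.2)).card = A.card * B.card := by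
      rw [Finset.card_image_of_injOn, Finset.card_product]
      intro p hp q hq h
      rw [Finset.mem_coe, Finset.mem_product] at hp hq
      obtain ⟨h1, h2⟩ := hinj p.1 hp.1 p.2 hp.2 q.1 hq.1 q.2 hq.2 h
      exact Prod.ext h1 h2
    have himg : (A ×ˢ B).image (fun p : (↥(W₁ ⊔ W₂) →* ℂˣ) × (↥(W₁ ⊔ W₂) →* ℂˣ) =>
        p.1 * p.2) = Finset.univ := by
      apply Finset.eq_univ_of_card
      apply le_antisymm (Finset.card_le_univ _)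
      rw [hc1, ← Finset.card_univ, cU]
      exact hNle
    intro ω
    have hω : ω ∈ (A ×ˢ B).image (fun p : (↥(W₁ ⊔ W₂) →* ℂˣ) × (↥(W₁ ⊔ W₂) →* ℂˣ) =>
        p.1 * p.2) := by
      rw [himg]; exact Finset.mem_univ _
    rw [Finset.mem_image] at hω
    obtain ⟨p, hp, rfl⟩ := hω
    rw [Finset.mem_product] at hp
    exact ⟨p.1, hp.1, p.2, hp.2, rfl⟩
  have hrel : ∀ φ ∈ A, ∀ ψ ∈ B, Cfsg.classInner θ (χ (φ * ψ)) =
      Cfsg.classInner θ (χ φ) + Cfsg.classInner θ (χ ψ) - Cfsg.classInner θ (χ 1) := by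
    intro φ hφ ψ hψ
    by_cases h1 : φ = 1
    · rw [h1, show (1 : ↥(W₁ ⊔ W₂) →* ℂˣ) * ψ = ψ from one_mul ψ]; ring
    by_cases h2 : ψ = 1
    · rw [h2, show φ * (1 : ↥(W₁ ⊔ W₂) →* ℂˣ) = φ from mul_one φ]; ring
    have hind := hχ.induced_eq φ ψ h1 h2 ((hA φ).mp hφ) ((hB ψ).mp hψ)
    have hfrob := frobenius' (W₁ ⊔ W₂)
      (fun u => 1 - (φ u : ℂ) - (ψ u : ℂ) + (φ u : ℂ) * (ψ u : ℂ)) θ hθ
    rw [hind] at hfrob
    have hz : Cfsg.classInner (fun h : ↥(W₁ ⊔ W₂) => θ h)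
        (fun u => 1 - (φ u : ℂ) - (ψ u : ℂ) + (φ u : ℂ) * (ψ u : ℂ)) = 0 := by
      unfold Cfsg.classInner
      rw [Finset.sum_eq_zero, mul_zero]
      intro w _
      show θ (w : G) * conj (1 - (φ w : ℂ) - (ψ w : ℂ) + (φ w : ℂ) * (ψ w : ℂ)) = 0
      by_cases hw : (w : G) ∈ W₁ ∨ (w : G) ∈ W₂
      · rw [(Cfsg.Agent.S1504.main W₁ W₂).1 φ ψ ((hA φ).mp hφ) ((hB ψ).mp hψ) w hw, map_zero,
          mul_zero]
      · push_neg at hw
        rw [hθV w hw.1 hw.2, zero_mul]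
    rw [hz] at hfrob
    have e : (fun g => 1 - χ φ g - χ ψ g + χ (φ * ψ) g) = χ 1 - χ φ - χ ψ + χ (φ * ψ) := by
      funext g
      rw [hχ.map_one]
      rfl
    rw [e] at hfrob
    simp only [classInner_add_right, classInner_sub_right] at hfrob
    linear_combination hfrob
  obtain ⟨S, hSdef⟩ : ∃ S : Finset ((↥(W₁ ⊔ W₂) →* ℂˣ) × (↥(W₁ ⊔ W₂) →* ℂˣ)),
      ∀ p, p ∈ S ↔ (p.1 ∈ A ∧ p.2 ∈ B) ∧
        (Cfsg.classInner θ (χ p.1) - Cfsg.classInner θ (χ 1)) + Cfsg.classInner θ (χ p.2) ≠ 0 :=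
    ⟨(A ×ˢ B).filter (fun p => (Cfsg.classInner θ (χ p.1) - Cfsg.classInner θ (χ 1)) +
      Cfsg.classInner θ (χ p.2) ≠ 0), fun p => by rw [Finset.mem_filter, Finset.mem_product]⟩
  have hcount : S.card < 2 * Nat.card W₁ := by
    refine lt_of_le_of_lt ?_ hfew
    rw [Nat.card_eq_fintype_card, Fintype.card_subtype]
    apply Finset.card_le_card_of_injOn (fun p => p.1 * p.2)
    · intro p hp
      rw [Finset.mem_coe, hSdef] at hp
      rw [Finset.mem_coe, Finset.mem_filter]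
      refine ⟨Finset.mem_univ _, ?_⟩
      rw [hrel p.1 hp.1.1 p.2 hp.1.2]
      intro h
      apply hp.2
      linear_combination h
    · intro p hp q hq h
      rw [Finset.mem_coe, hSdef] at hp hq
      obtain ⟨h1, h2⟩ := hinj p.1 hp.1.1 p.2 hp.1.2 q.1 hq.1.1 q.2 hq.1.2 h
      exact Prod.ext h1 h2
  have h1A : (1 : ↥(W₁ ⊔ W₂) →* ℂˣ) ∈ A := (hA 1).mpr (fun _ _ => rfl)
  rcases comb A B (fun φ => Cfsg.classInner θ (χ φ) - Cfsg.classInner θ (χ 1))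
    (fun ψ => Cfsg.classInner θ (χ ψ)) 1 h1A (sub_self _) (Nat.card W₁) hAn hBn S hSdef hcount
    with h | ⟨ψ₀, hψ₀, a₀, h⟩ | ⟨φ₀, hφ₀, a₀, h⟩
  · left
    intro ω
    obtain ⟨φ, hφ, ψ, hψ, rfl⟩ := hsurj ω
    have h' : Cfsg.classInner θ (χ φ) - Cfsg.classInner θ (χ 1) + Cfsg.classInner θ (χ ψ) = _ :=
      h φ hφ ψ hψ
    rw [hrel φ hφ ψ hψ]
    linear_combination h'
  · right; left
    refine ⟨ψ₀, a₀, ?_⟩
    intro ω
    obtain ⟨φ, hφ, ψ, hψ, rfl⟩ := hsurj ω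
    have h' : Cfsg.classInner θ (χ φ) - Cfsg.classInner θ (χ 1) + Cfsg.classInner θ (χ ψ) = _ :=
      h φ hφ ψ hψ
    rw [hrel φ hφ ψ hψ]
    by_cases hψe : ψ = ψ₀
    · rw [if_pos hψe] at h'
      rw [if_pos]
      · linear_combination h'
      · intro w hw
        rw [hψe, MonoidHom.mul_apply, MonoidHom.mul_apply, MonoidHom.inv_apply,
          (hA φ).mp hφ w hw, one_mul, mul_inv_cancel]
    · rw [if_neg hψe] at h'
      rw [if_neg]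
      · linear_combination h'
      · intro hcon
        apply hψe
        apply Cfsg.Agent.S1504.hom_ext_sup
        · intro w hw
          rw [(hB ψ).mp hψ w hw, (hB ψ₀).mp hψ₀ w hw]
        · intro w hw
          have h3 := hcon w hw
          rw [MonoidHom.mul_apply, MonoidHom.mul_apply, MonoidHom.inv_apply,
            (hA φ).mp hφ w hw, one_mul, mul_inv_eq_one] at h3
          exact h3
  · right; right
    refine ⟨φ₀, a₀, ?_⟩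
    intro ω
    obtain ⟨φ, hφ, ψ, hψ, rfl⟩ := hsurj ω
    have h' : Cfsg.classInner θ (χ φ) - Cfsg.classInner θ (χ 1) + Cfsg.classInner θ (χ ψ) = _ :=
      h φ hφ ψ hψ
    rw [hrel φ hφ ψ hψ]
    by_cases hφe : φ = φ₀
    · rw [if_pos hφe] at h'
      rw [if_pos]
      · linear_combination h'
      · intro w hw
        rw [hφe, MonoidHom.mul_apply, MonoidHom.mul_apply, MonoidHom.inv_apply,
          (hB ψ).mp hψ w hw, mul_one, mul_inv_cancel]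
    · rw [if_neg hφe] at h'
      rw [if_neg]
      · linear_combination h'
      · intro hcon
        apply hφe
        apply Cfsg.Agent.S1504.hom_ext_sup
        · intro w hw
          have h3 := hcon w hw
          rw [MonoidHom.mul_apply, MonoidHom.mul_apply, MonoidHom.inv_apply,
            (hB ψ).mp hψ w hw, mul_one, mul_inv_eq_one] at h3
          exact h3
        · intro w hw
          rw [(hA φ).mp hφ w hw, (hA φ₀).mp hφ₀ w hw]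

open Classical in
/-- Let W₁, W₂ ≤ G form a self-normalising cyclic subgroup W = W₁ ⊔ W₂ of odd order with Nat.card W₁ < Nat.card W₂, and χ an orthonormal family of irreducible characters of G up to sign, indexed by the linear characters ω of W, with χ_1 = 1, χ_ω = ω on W outside W₁ ∪ W₂, and the induction identity for (1 − φ)(1 − ψ). Let θ be a class function of G vanishing on W outside W₁ ∪ W₂, and suppose fewer than 2 · Nat.card W₁ linear characters ω of W have ⟨θ, χ ω⟩ ≠ 0. Then one of: all ⟨θ, χ ω⟩ vanish; or there are ψ₀ and a with ⟨θ, χ ω⟩ = a when ω ψ₀⁻¹ is trivial on W₂ and 0 otherwise; or there are φ₀ and a with ⟨θ, χ ω⟩ = a when ω φ₀⁻¹ is trivial on W₁ and 0 otherwise. -/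
theorem result {G : Type*} [Group G] [Fintype G] (W₁ W₂ : Subgroup G) (hW : Cfsg.IsSelfNormalizingCyclic W₁ W₂) (hodd : Odd (Nat.card ↥(W₁ ⊔ W₂))) (χ : (↥(W₁ ⊔ W₂) →* ℂˣ) → (G → ℂ)) (hχ : Cfsg.IsCyclicTIFamily W₁ W₂ χ) (hlt : Nat.card W₁ < Nat.card W₂) (θ : G → ℂ) (hθ : Cfsg.IsClassFunction G θ) (hθV : ∀ w : ↥(W₁ ⊔ W₂), (w : G) ∉ W₁ → (w : G) ∉ W₂ → θ w = 0) (hfew : Nat.card {ω : ↥(W₁ ⊔ W₂) →* ℂˣ // Cfsg.classInner θ (χ ω) ≠ 0} < 2 * Nat.card W₁) : (∀ ω, Cfsg.classInner θ (χ ω) = 0) ∨ (∃ (ψ₀ : ↥(W₁ ⊔ W₂) →* ℂˣ) (a : ℂ), ∀ ω, Cfsg.classInner θ (χ ω) = if (∀ w : ↥(W₁ ⊔ W₂), (w : G) ∈ W₂ → (ω * ψ₀⁻¹) w = 1) then a else 0) ∨ (∃ (φ₀ : ↥(W₁ ⊔ W₂) →* ℂˣ) (a : ℂ), ∀ ω, Cfsg.classInner θ (χ ω) = if (∀ w : ↥(W₁ ⊔ W₂), (w : G) ∈ W₁ → (ω * φ₀⁻¹) w = 1) then a else 0) := by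
  exact main W₁ W₂ hW hodd χ hχ hlt θ hθ hθV hfew

end Cfsg.Agent.S1507
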