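import Mathlib
import Cfsg.Statements.S1509
import Cfsg.Agent.Lib.Helper3.Char

set_option autoImplicit false
open Cfsg
open scoped ComplexConjugate
open Cfsg.Agent.Lib.Helper3.Char

namespace Cfsg.Agent.S1509

theorem result {X : Type*} [Group X] [Fintype X] (α β γ δ : X → ℂ) (hα : Cfsg.IsIrrCharacter X α ∨ Cfsg.IsIrrCharacter X (-α)) (hβ : Cfsg.IsIrrCharacter X β ∨ Cfsg.IsIrrCharacter X (-β)) (hγ : Cfsg.IsIrrCharacter X γ ∨ Cfsg.IsIrrCharacter X (-γ)) (hδ : Cfsg.IsIrrCharacter X δ ∨ Cfsg.IsIrrCharacter X (-δ)) (u v : ℝ) (hu : u ≠ 0) (hv : v ≠ 0) (hab : Cfsg.classInner α β = 0) (hcd : Cfsg.classInner γ δ = 0) (hmix : Cfsg.classInner (α - β) ((u : ℂ) • γ - (v : ℂ) • δ) = 0) (h1 : α 1 = β 1) (h2 : (u : ℂ) * γ 1 = (v : ℂ) * δ 1) : Cfsg.classInner α γ = 0 ∧ Cfsg.classInner α δ = 0 ∧ Cfsg.classInner β γ = 0 ∧ Cfsg.classInner β δ = 0 := by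
  have hγ1 : γ 1 ≠ 0 := by
    obtain ⟨s, γ₀, hs, hγ₀, rfl⟩ := signed_irr hγ
    have h0 := irr_one_ne_zero hγ₀
    rcases hs with rfl | rfl <;> simpa using h0
  have hu' : (u : ℂ) ≠ 0 := by exact_mod_cast hu
  have hv' : (v : ℂ) ≠ 0 := by exact_mod_cast hv
  have hba : Cfsg.classInner β α = 0 := by rw [classInner_conj_symm, hab, map_zero]
  have hdc : Cfsg.classInner δ γ = 0 := by rw [classInner_conj_symm, hcd, map_zero]
  have hmix' : (u : ℂ) * Cfsg.classInner α γ - (v : ℂ) * Cfsg.classInner α δ -
      ((u : ℂ) * Cfsg.classInner β γ - (v : ℂ) * Cfsg.classInner β δ) = 0 := by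
    rw [classInner_sub_left, classInner_sub_right, classInner_sub_right, classInner_smul_right,
      classInner_smul_right, classInner_smul_right, classInner_smul_right, Complex.conj_ofReal,
      Complex.conj_ofReal] at hmix
    exact hmix
  have two_ne : (2 : ℂ) ≠ 0 := two_ne_zero
  have ha : Cfsg.classInner α γ = 0 := by
    rcases signed_irr_inner hα hγ with h | ⟨s, hs, hαγ, ha⟩
    · exact h
    · exfalso
      have hb : Cfsg.classInner α δ = 0 := by
        rw [hαγ, classInner_smul_left, hcd, mul_zero]
      have hc : Cfsg.classInner β γ = 0 := by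
        have h3 : γ = s⁻¹ • α := by
          rw [hαγ, smul_smul, inv_mul_cancel₀ (by rcases hs with rfl | rfl <;> norm_num), one_smul]
        rw [h3, classInner_smul_right, hba, mul_zero]
      rw [ha, hb, hc] at hmix'
      rcases signed_irr_inner hβ hδ with h | ⟨t, ht, hβδ, hd⟩
      · rw [h] at hmix'
        have h4 : (u : ℂ) * s = 0 := by linear_combination hmix'
        rcases mul_eq_zero.mp h4 with h5 | h5
        · exact hu' h5
        · rcases hs with rfl | rfl <;> norm_num at h5
      · rw [hd] at hmix'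
        have e1 : s * γ 1 = t * δ 1 := by
          have h5 := h1
          rw [hαγ, hβδ] at h5
          simpa using h5
        have hss : s * s = 1 := by rcases hs with rfl | rfl <;> norm_num
        have htt : t * t = 1 := by rcases ht with rfl | rfl <;> norm_num
        have h6 : (2 : ℂ) * (u * γ 1) = 0 := by
          linear_combination h2 + (s * γ 1) * hmix' - ((u : ℂ) * γ 1) * hss - ((v : ℂ) * t) * e1 -
            ((v : ℂ) * δ 1) * htt
        rcases mul_eq_zero.mp h6 with h7 | h7
        · exact two_ne h7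
        · rcases mul_eq_zero.mp h7 with h8 | h8
          · exact hu' h8
          · exact hγ1 h8
  have hb : Cfsg.classInner α δ = 0 := by
    rcases signed_irr_inner hα hδ with h | ⟨s, hs, hαδ, hb⟩
    · exact h
    · exfalso
      have hd : Cfsg.classInner β δ = 0 := by
        have h3 : δ = s⁻¹ • α := by
          rw [hαδ, smul_smul, inv_mul_cancel₀ (by rcases hs with rfl | rfl <;> norm_num), one_smul]
        rw [h3, classInner_smul_right, hba, mul_zero]
      rw [ha, hb, hd] at hmix'
      rcases signed_irr_inner hβ hγ with h | ⟨t, ht, hβγ, hc⟩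
      · rw [h] at hmix'
        have h4 : (v : ℂ) * s = 0 := by linear_combination -hmix'
        rcases mul_eq_zero.mp h4 with h5 | h5
        · exact hv' h5
        · rcases hs with rfl | rfl <;> norm_num at h5
      · rw [hc] at hmix'
        have e1 : s * δ 1 = t * γ 1 := by
          have h5 := h1
          rw [hαδ, hβγ] at h5
          simpa using h5
        have hss : s * s = 1 := by rcases hs with rfl | rfl <;> norm_num
        have htt : t * t = 1 := by rcases ht with rfl | rfl <;> norm_num
        have h6 : (2 : ℂ) * (u * γ 1) = 0 := by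
          linear_combination h2 - ((u : ℂ) * γ 1) * htt - (t * γ 1) * hmix' + ((v : ℂ) * s) * e1 -
            ((v : ℂ) * δ 1) * hss
        rcases mul_eq_zero.mp h6 with h7 | h7
        · exact two_ne h7
        · rcases mul_eq_zero.mp h7 with h8 | h8
          · exact hu' h8
          · exact hγ1 h8
  rw [ha, hb] at hmix'
  have hc : Cfsg.classInner β γ = 0 := by
    rcases signed_irr_inner hβ hγ with h | ⟨t, ht, hβγ, hc⟩
    · exact h
    · exfalso
      have hd : Cfsg.classInner β δ = 0 := by
        rw [hβγ, classInner_smul_left, hcd, mul_zero]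
      rw [hc, hd] at hmix'
      have h4 : (u : ℂ) * t = 0 := by linear_combination -hmix'
      rcases mul_eq_zero.mp h4 with h5 | h5
      · exact hu' h5
      · rcases ht with rfl | rfl <;> norm_num at h5
  rw [hc] at hmix'
  have hd : Cfsg.classInner β δ = 0 := by
    have h4 : (v : ℂ) * Cfsg.classInner β δ = 0 := by linear_combination hmix'
    rcases mul_eq_zero.mp h4 with h5 | h5
    · exact absurd h5 hv'
    · exact h5
  exact ⟨ha, hb, hc, hd⟩

end Cfsg.Agent.S1509
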