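import Mathlib
import Cfsg.Statements.S1510

set_option autoImplicit false
open Cfsg

namespace Cfsg.Agent.S1510

theorem pow_bezout {L : Type*} [Group L] [Finite L] (W : Subgroup L) (k m : ℕ)
    (hkm : k * m % Nat.card W = 1) (a : L) (ha : a ∈ W) : (a ^ k) ^ m = a := by
  have h1 : (⟨a, ha⟩ : ↥W) ^ (k * m) = ⟨a, ha⟩ := by
    rw [← pow_mod_natCard, hkm, pow_one]
  have h2 := congrArg Subtype.val h1
  rw [← pow_mul]
  exact h2

theorem pow_card_mem {L : Type*} [Group L] [Finite L] (W : Subgroup L) (a : L) (ha : a ∈ W) :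
    a ^ Nat.card W = 1 := by
  have h1 : (⟨a, ha⟩ : ↥W) ^ Nat.card W = 1 := pow_card_eq_one'
  exact congrArg Subtype.val h1

theorem result {L : Type*} [Group L] [Fintype L] (K W₁ W₂ : Subgroup L) [hK : K.Normal] (hKW₁ : K ⊓ W₁ = ⊥) (hKW₁' : K ⊔ W₁ = ⊤) (hW₁ : W₁ ≠ ⊥) (hW₁c : IsCyclic W₁) (hHall : Nat.Coprime (Nat.card W₁) W₁.index) (hW₂ : W₂ ≠ ⊥) (hW₂c : IsCyclic W₂) (hW₂K : W₂ ≤ K) (hC : ∀ x ∈ W₁, x ≠ 1 → K ⊓ Subgroup.centralizer ({x} : Set L) = W₂) (hodd : Odd (Nat.card ↥(W₁ ⊔ W₂))) : Cfsg.IsSelfNormalizingCyclic W₁ W₂ := by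
  classical
  have hdisj : W₁ ⊓ W₂ = ⊥ := by
    rw [eq_bot_iff, ← hKW₁]
    intro x hx
    exact Subgroup.mem_inf.mpr ⟨hW₂K hx.2, hx.1⟩
  have hcomm : ∀ a ∈ W₁, ∀ b ∈ W₂, a * b = b * a := by
    intro a ha b hb
    by_cases ha1 : a = 1
    · subst ha1; simp
    · have h1 : b ∈ K ⊓ Subgroup.centralizer ({a} : Set L) := by rw [hC a ha ha1]; exact hb
      exact (Subgroup.mem_centralizer_iff.mp h1.2) a rfl
  have hcompl : Subgroup.IsComplement' K W₁ := by
    apply Subgroup.isComplement'_of_disjoint_and_mul_eq_univ (disjoint_iff.mpr hKW₁)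
    rw [← Subgroup.normal_mul, hKW₁']
    rfl
  have hidx : W₁.index = Nat.card K := hcompl.index_eq_card
  have hcop : Nat.Coprime (Nat.card W₁) (Nat.card W₂) := by
    rw [hidx] at hHall
    exact Nat.Coprime.coprime_dvd_right (Subgroup.card_dvd_of_le hW₂K) hHall
  have hn1 : 1 < Nat.card W₁ := by
    rw [Subgroup.one_lt_card_iff_ne_bot]; exact hW₁
  have hn2 : 1 < Nat.card W₂ := by
    rw [Subgroup.one_lt_card_iff_ne_bot]; exact hW₂
  obtain ⟨m₁, -, hm₁⟩ := Nat.exists_mul_mod_eq_one_of_coprime hcop.symm hn1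
  obtain ⟨m₂, -, hm₂⟩ := Nat.exists_mul_mod_eq_one_of_coprime hcop hn2
  obtain ⟨x, hx⟩ := hW₁c.exists_generator
  obtain ⟨y, hy⟩ := hW₂c.exists_generator
  have hxy : Commute (x : L) (y : L) := hcomm x x.2 y y.2
  have hxu : (x : L) ∈ Subgroup.zpowers ((x : L) * (y : L)) := by
    have h1 : (((x : L) * (y : L)) ^ Nat.card W₂) ^ m₁ = x := by
      rw [hxy.mul_pow, pow_card_mem W₂ y y.2, mul_one]
      exact pow_bezout W₁ _ _ hm₁ x x.2
    have h2 : (((x : L) * (y : L)) ^ Nat.card W₂) ^ m₁ ∈ Subgroup.zpowers ((x : L) * (y : L)) :=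
      Subgroup.pow_mem _ (Subgroup.pow_mem _ (Subgroup.mem_zpowers _) _) _
    rw [h1] at h2
    exact h2
  have hyu : (y : L) ∈ Subgroup.zpowers ((x : L) * (y : L)) := by
    have h1 : (((x : L) * (y : L)) ^ Nat.card W₁) ^ m₂ = y := by
      rw [hxy.mul_pow, pow_card_mem W₁ x x.2, one_mul]
      exact pow_bezout W₂ _ _ hm₂ y y.2
    have h2 : (((x : L) * (y : L)) ^ Nat.card W₁) ^ m₂ ∈ Subgroup.zpowers ((x : L) * (y : L)) :=
      Subgroup.pow_mem _ (Subgroup.pow_mem _ (Subgroup.mem_zpowers _) _) _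
    rw [h1] at h2
    exact h2
  have hW₁x : ∀ a ∈ W₁, ∃ j : ℤ, (x : L) ^ j = a := by
    intro a ha
    obtain ⟨j, hj⟩ := Subgroup.mem_zpowers_iff.mp (hx ⟨a, ha⟩)
    refine ⟨j, ?_⟩
    have := congrArg Subtype.val hj
    simpa using this
  have hW₂y : ∀ b ∈ W₂, ∃ j : ℤ, (y : L) ^ j = b := by
    intro b hb
    obtain ⟨j, hj⟩ := Subgroup.mem_zpowers_iff.mp (hy ⟨b, hb⟩)
    refine ⟨j, ?_⟩
    have := congrArg Subtype.val hj
    simpa using this
  have hW : W₁ ⊔ W₂ = Subgroup.zpowers ((x : L) * (y : L)) := by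
    apply le_antisymm
    · apply sup_le
      · intro a ha
        obtain ⟨j, rfl⟩ := hW₁x a ha
        exact Subgroup.zpow_mem _ hxu j
      · intro b hb
        obtain ⟨j, rfl⟩ := hW₂y b hb
        exact Subgroup.zpow_mem _ hyu j
    · rw [Subgroup.zpowers_le]
      exact Subgroup.mul_mem _ (Subgroup.mem_sup_left x.2) (Subgroup.mem_sup_right y.2)
  have hdecomp : ∀ z ∈ W₁ ⊔ W₂, ∃ a ∈ W₁, ∃ b ∈ W₂, z = a * b := by
    intro z hz
    rw [hW] at hz
    obtain ⟨j, rfl⟩ := Subgroup.mem_zpowers_iff.mp hz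
    exact ⟨(x : L) ^ j, Subgroup.zpow_mem _ x.2 j, (y : L) ^ j, Subgroup.zpow_mem _ y.2 j, hxy.mul_zpow j⟩
  have hWcomm : ∀ g ∈ W₁ ⊔ W₂, ∀ h ∈ W₁ ⊔ W₂, g * h * g⁻¹ = h := by
    intro g hg h hh
    rw [hW] at hg hh
    obtain ⟨i, rfl⟩ := Subgroup.mem_zpowers_iff.mp hg
    obtain ⟨j, rfl⟩ := Subgroup.mem_zpowers_iff.mp hh
    rw [(Commute.zpow_zpow_self ((x : L) * (y : L)) i j).eq, mul_inv_cancel_right]
  have hW₁comm : ∀ a ∈ W₁, ∀ b ∈ W₁, a * b = b * a := by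
    intro a ha b hb
    obtain ⟨i, rfl⟩ := hW₁x a ha
    obtain ⟨j, rfl⟩ := hW₁x b hb
    exact (Commute.zpow_zpow_self (x : L) i j).eq
  refine ⟨hW₁, hW₂, hdisj, hcomm, ?_, ?_⟩
  · rw [hW]
    infer_instance
  · intro X hX hXne
    ext g
    constructor
    · intro hg
      obtain ⟨z, hz⟩ := hXne
      have hzW := (hX hz).1
      have hzn := (hX hz).2
      obtain ⟨a, ha, b, hb, rfl⟩ := hdecomp z hzW
      have ha1 : a ≠ 1 := by
        rintro rfl
        apply hzn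
        right
        rw [one_mul]; exact hb
      have hz' : g * (a * b) * g⁻¹ ∈ X := (Subgroup.mem_set_normalizer_iff.mp hg (a * b)).mp hz
      obtain ⟨a', ha', b', hb', hz'eq⟩ := hdecomp _ (hX hz').1
      have hc1 : a ^ Nat.card W₂ ≠ 1 := by
        intro h1
        apply ha1
        rw [← pow_bezout W₁ _ _ hm₁ a ha, h1, one_pow]
      have hc : a ^ Nat.card W₂ ∈ W₁ := Subgroup.pow_mem _ ha _
      have hgc : g * a ^ Nat.card W₂ * g⁻¹ ∈ W₁ := by
        have h1 : g * a ^ Nat.card W₂ * g⁻¹ = (g * (a * b) * g⁻¹) ^ Nat.card W₂ := by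
          rw [conj_pow, (show Commute a b from hcomm a ha b hb).mul_pow, pow_card_mem W₂ b hb, mul_one]
        rw [h1, hz'eq, (show Commute a' b' from hcomm a' ha' b' hb').mul_pow, pow_card_mem W₂ b' hb', mul_one]
        exact Subgroup.pow_mem _ ha' _
      have hgtop : g ∈ K ⊔ W₁ := by rw [hKW₁']; trivial
      obtain ⟨k, hk, w, hw, rfl⟩ := Subgroup.mem_sup_of_normal_left.mp hgtop
      have hkc : k * a ^ Nat.card W₂ * k⁻¹ ∈ W₁ := by
        have h1 : k * w * a ^ Nat.card W₂ * (k * w)⁻¹ = k * (w * a ^ Nat.card W₂) * w⁻¹ * k⁻¹ := by group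
        rw [h1, hW₁comm w hw _ hc] at hgc
        have h2 : k * (a ^ Nat.card W₂ * w) * w⁻¹ * k⁻¹ = k * a ^ Nat.card W₂ * k⁻¹ := by group
        rw [h2] at hgc
        exact hgc
      have hkcomm : k * a ^ Nat.card W₂ * k⁻¹ * (a ^ Nat.card W₂)⁻¹ = 1 := by
        have h1 : k * a ^ Nat.card W₂ * k⁻¹ * (a ^ Nat.card W₂)⁻¹ ∈ K ⊓ W₁ := by
          refine Subgroup.mem_inf.mpr ⟨?_, Subgroup.mul_mem _ hkc (Subgroup.inv_mem _ hc)⟩
          have h2 : k * a ^ Nat.card W₂ * k⁻¹ * (a ^ Nat.card W₂)⁻¹ =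
              k * (a ^ Nat.card W₂ * k⁻¹ * (a ^ Nat.card W₂)⁻¹) := by group
          rw [h2]
          exact Subgroup.mul_mem _ hk (hK.conj_mem k⁻¹ (Subgroup.inv_mem _ hk) _)
        rw [hKW₁] at h1
        exact Subgroup.mem_bot.mp h1
      have hkW₂ : k ∈ W₂ := by
        rw [← hC _ hc hc1]
        refine Subgroup.mem_inf.mpr ⟨hk, ?_⟩
        rw [Subgroup.mem_centralizer_iff]
        intro h hh
        rw [Set.mem_singleton_iff] at hh
        subst hh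
        have h3 : k * a ^ Nat.card W₂ * k⁻¹ = a ^ Nat.card W₂ := mul_inv_eq_one.mp hkcomm
        calc a ^ Nat.card W₂ * k = k * a ^ Nat.card W₂ * k⁻¹ * k := by rw [h3]
          _ = k * a ^ Nat.card W₂ := by group
      exact Subgroup.mul_mem _ (Subgroup.mem_sup_right hkW₂) (Subgroup.mem_sup_left hw)
    · intro hg
      rw [Subgroup.mem_set_normalizer_iff]
      intro h
      constructor
      · intro hh
        rw [hWcomm g hg h (hX hh).1]
        exact hh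
      · intro hh
        have h1 : h ∈ W₁ ⊔ W₂ := by
          have h2 : h = g⁻¹ * (g * h * g⁻¹) * g := by group
          rw [h2]
          exact Subgroup.mul_mem _ (Subgroup.mul_mem _ (Subgroup.inv_mem _ hg) (hX hh).1) hg
        rw [hWcomm g hg h h1] at hh
        exact hh

end Cfsg.Agent.S1510
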