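import Cfsg.Statements.S1514
import Mathlib
import Cfsg.Agent.Lib.Helper3.Char
import Cfsg.Agent.Lib.Helper3.CharCore
import Cfsg.Agent.Lib.Helper3.CharArith
import Cfsg.Agent.Lib.Helper3.CharNormal

set_option autoImplicit false
open Cfsg

namespace Cfsg.Agent.S1514

open Cfsg.Agent.Lib.Helper3.Char Cfsg.Agent.Lib.Helper3.CharCore Cfsg.Agent.Lib.Helper3.CharArith
open Cfsg.Agent.Lib.Helper3.CharNormal
open scoped ComplexConjugate

universe u

theorem gen_cf {G : Type u} [Group G] {f : G → ℂ} (hf : Cfsg.IsGeneralizedCharacter G f) :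
    Cfsg.IsClassFunction G f := by
  obtain ⟨a, b, ha, hb, rfl⟩ := hf
  intro g h
  show a (h * g * h⁻¹) - b (h * g * h⁻¹) = a g - b g
  rw [char_classFun ha g h, char_classFun hb g h]

theorem gen_inner_int {G : Type u} [Group G] [Fintype G] {f ψ : G → ℂ}
    (hf : Cfsg.IsGeneralizedCharacter G f) (hψ : Cfsg.IsIrrCharacter G ψ) :
    ∃ n : ℤ, Cfsg.classInner f ψ = (n : ℂ) := by
  obtain ⟨a, b, ha, hb, rfl⟩ := hf
  obtain ⟨n1, h1⟩ := inner_char_nat ha (isCharacter_of_irr hψ)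
  obtain ⟨n2, h2⟩ := inner_char_nat hb (isCharacter_of_irr hψ)
  refine ⟨(n1 : ℤ) - (n2 : ℤ), ?_⟩
  rw [classInner_sub_left, h1, h2]
  push_cast
  ring

theorem norm_two {G : Type u} [Group G] [Fintype G] {ψ : G → ℂ}
    (hψ : Cfsg.IsGeneralizedCharacter G ψ) (hn : Cfsg.classInner ψ ψ = 2) (h1 : ψ 1 = 0) :
    ∃ a b : G → ℂ, Cfsg.IsIrrCharacter G a ∧ Cfsg.IsIrrCharacter G b ∧ a ≠ b ∧ ψ = a - b := by
  classical
  have _fi : Fintype (Cfsg.IrrCharacter G) := Fintype.ofFinite _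
  have hcf := gen_cf hψ
  choose c hc using fun χ : Cfsg.IrrCharacter G => gen_inner_int hψ χ.2
  have hp := parseval ψ ψ hcf
  have hc' : ∀ χ : Cfsg.IrrCharacter G, Cfsg.classInner (χ : G → ℂ) ψ = (c χ : ℂ) := by
    intro χ
    rw [classInner_conj_symm, hc χ, map_intCast]
  have hsum : ∑ χ : Cfsg.IrrCharacter G, (c χ) ^ 2 = 2 := by
    have h2 : ((∑ χ : Cfsg.IrrCharacter G, (c χ) ^ 2 : ℤ) : ℂ) = 2 := by
      rw [← hn, hp, Int.cast_sum]
      refine Finset.sum_congr rfl (fun χ _ => ?_)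
      rw [hc χ, hc' χ, Int.cast_pow, pow_two]
    exact_mod_cast h2
  have hex : ∃ χ0 : Cfsg.IrrCharacter G, c χ0 ≠ 0 := by
    by_contra hcon
    simp only [not_exists, not_not] at hcon
    have h2 : ∑ χ : Cfsg.IrrCharacter G, (c χ) ^ 2 = 0 :=
      Finset.sum_eq_zero (fun χ _ => by rw [hcon χ]; ring)
    rw [hsum] at h2
    norm_num at h2
  obtain ⟨χ0, hχ0⟩ := hex
  have hsq_le : ∀ χ : Cfsg.IrrCharacter G, (c χ) ^ 2 ≤ 2 := by
    intro χ
    rw [← hsum]
    exact Finset.single_le_sum (f := fun i : Cfsg.IrrCharacter G => (c i) ^ 2)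
      (fun i _ => sq_nonneg (c i)) (Finset.mem_univ χ)
  have hpm : ∀ χ : Cfsg.IrrCharacter G, c χ ≠ 0 → c χ = 1 ∨ c χ = -1 := by
    intro χ hne
    have h := hsq_le χ
    have h3 : c χ ≤ 1 := by nlinarith
    have h4 : -1 ≤ c χ := by nlinarith
    omega
  have hsq1 : ∀ χ : Cfsg.IrrCharacter G, c χ ≠ 0 → (c χ) ^ 2 = 1 := by
    intro χ hne
    rcases hpm χ hne with h | h <;> rw [h] <;> norm_num
  have hrest : ∑ χ ∈ Finset.univ.erase χ0, (c χ) ^ 2 = 1 := by
    have := Finset.add_sum_erase Finset.univ (fun χ : Cfsg.IrrCharacter G => (c χ) ^ 2)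
      (Finset.mem_univ χ0)
    rw [hsum, hsq1 χ0 hχ0] at this
    linarith
  have hex1 : ∃ χ1 ∈ Finset.univ.erase χ0, c χ1 ≠ 0 := by
    by_contra hcon
    push_neg at hcon
    have h2 : ∑ χ ∈ Finset.univ.erase χ0, (c χ) ^ 2 = 0 :=
      Finset.sum_eq_zero (fun χ hχ => by rw [hcon χ hχ]; ring)
    rw [hrest] at h2
    norm_num at h2
  obtain ⟨χ1, hχ1m, hχ1⟩ := hex1
  have hne10 : χ1 ≠ χ0 := Finset.ne_of_mem_erase hχ1m
  have hothers : ∀ χ : Cfsg.IrrCharacter G, χ ≠ χ0 → χ ≠ χ1 → c χ = 0 := by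
    intro χ h0 h1'
    by_contra hne
    have h5 : (c χ1) ^ 2 + (c χ) ^ 2 ≤ ∑ χ ∈ Finset.univ.erase χ0, (c χ) ^ 2 := by
      have h6 := Finset.sum_le_sum_of_subset_of_nonneg (s := {χ1, χ}) (t := Finset.univ.erase χ0)
        (f := fun i : Cfsg.IrrCharacter G => (c i) ^ 2) (by
          intro x hx
          simp only [Finset.mem_insert, Finset.mem_singleton] at hx
          rcases hx with rfl | rfl
          · exact hχ1m
          · exact Finset.mem_erase.mpr ⟨h0, Finset.mem_univ _⟩)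
        (fun i _ _ => sq_nonneg (c i))
      rwa [Finset.sum_pair (Ne.symm h1')] at h6
    rw [hrest, hsq1 χ1 hχ1, hsq1 χ hne] at h5
    norm_num at h5
  have hexp : ψ = (c χ0 : ℂ) • (χ0 : G → ℂ) + (c χ1 : ℂ) • (χ1 : G → ℂ) := by
    have e := class_fun_expand ψ hcf
    rw [← Finset.add_sum_erase Finset.univ _ (Finset.mem_univ χ0),
      Finset.sum_eq_single χ1 (fun χ hχ hne => by
        rw [hc χ, hothers χ (Finset.ne_of_mem_erase hχ) hne]; simp)
      (fun h => absurd hχ1m h), hc χ0, hc χ1] at e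
    exact e
  obtain ⟨n0, hn0, hn0'⟩ := irr_one_pos χ0.2
  obtain ⟨n1, hn1, hn1'⟩ := irr_one_pos χ1.2
  have hval : (c χ0 : ℂ) * (n0 : ℂ) + (c χ1 : ℂ) * (n1 : ℂ) = 0 := by
    rw [← h1]
    conv_rhs => rw [hexp]
    simp only [Pi.add_apply, Pi.smul_apply, smul_eq_mul, hn0', hn1']
  have hval' : c χ0 * (n0 : ℤ) + c χ1 * (n1 : ℤ) = 0 := by exact_mod_cast hval
  have hfne : (χ0 : G → ℂ) ≠ (χ1 : G → ℂ) := fun h => hne10 (Subtype.ext h.symm)
  rcases hpm χ0 hχ0 with h0 | h0 <;> rcases hpm χ1 hχ1 with h1s | h1s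
  · rw [h0, h1s] at hval'
    omega
  · refine ⟨χ0, χ1, χ0.2, χ1.2, hfne, ?_⟩
    rw [hexp, h0, h1s]
    funext g
    simp [sub_eq_add_neg]
  · refine ⟨χ1, χ0, χ1.2, χ0.2, hfne.symm, ?_⟩
    rw [hexp, h0, h1s]
    funext g
    simp [sub_eq_add_neg, add_comm]
  · rw [h0, h1s] at hval'
    omega

theorem conjFun_conjFun {X : Type*} (χ : X → ℂ) : Cfsg.conjFun (Cfsg.conjFun χ) = χ := by
  funext x
  simp [Cfsg.conjFun]

theorem main {L : Type*} [Group L] [Fintype L] {G : Type*} [Group G] [Fintype G] (S : Set (L → ℂ)) (hS : S.Nonempty) (hirr : ∀ χ ∈ S, Cfsg.IsIrrCharacter L χ) (hconj : ∀ χ ∈ S, Cfsg.conjFun χ ∈ S ∧ Cfsg.conjFun χ ≠ χ) (τ : (L → ℂ) → (G → ℂ)) (hτ : Cfsg.IsLinearIsometryOn (Cfsg.zspanOn S {1}ᶜ) τ) (hτ1 : ∀ α ∈ Cfsg.zspanOn S {1}ᶜ, τ α 1 = 0) : ∃ R : (L → ℂ) → Finset (G → ℂ), Cfsg.IsCoherenceSystem S τ R := by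
  classical
  have hτ0 := hτ
  obtain ⟨hadd, hsmul, hinner, hgen⟩ := hτ
  have hmem : ∀ χ ∈ S, χ - Cfsg.conjFun χ ∈ Cfsg.zspanOn S {1}ᶜ := by
    intro χ hχ
    refine ⟨?_, ?_⟩
    · exact Submodule.sub_mem _ (Submodule.subset_span hχ) (Submodule.subset_span (hconj χ hχ).1)
    · intro x hx
      have hx1 : x = 1 := by simpa using hx
      subst hx1
      obtain ⟨n, hn, hn'⟩ := irr_one_pos (hirr χ hχ)
      simp [Cfsg.conjFun, hn']
  have key : ∀ χ ∈ S, ∃ a b : G → ℂ, Cfsg.IsIrrCharacter G a ∧ Cfsg.IsIrrCharacter G b ∧ a ≠ b ∧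
      τ (χ - Cfsg.conjFun χ) = a - b := by
    intro χ hχ
    apply norm_two (hgen _ (hmem χ hχ)) _ (hτ1 _ (hmem χ hχ))
    rw [hinner _ (hmem χ hχ) _ (hmem χ hχ), classInner_sub_left, classInner_sub_right,
      classInner_sub_right, irr_inner_self (hirr χ hχ), irr_inner_self (hirr _ (hconj χ hχ).1),
      irr_inner_ne (hirr χ hχ) (hirr _ (hconj χ hχ).1) (Ne.symm (hconj χ hχ).2),
      irr_inner_ne (hirr _ (hconj χ hχ).1) (hirr χ hχ) (hconj χ hχ).2]
    norm_num
  choose! a b ha hb hab hτab using key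
  have hanb : ∀ χ ∈ S, a χ ≠ -b χ := by
    intro χ hχ h
    have h3 : Cfsg.classInner (a χ) (b χ) = 0 := irr_inner_ne (ha χ hχ) (hb χ hχ) (hab χ hχ)
    have h4 := irr_inner_self (hb χ hχ)
    rw [h, classInner_neg_left, h4] at h3
    norm_num at h3
  refine ⟨fun χ => {a χ, -b χ}, ?_⟩
  refine
    { nonempty := hS
      isCharacter := fun χ hχ => isCharacter_of_irr (hirr χ hχ)
      conj_mem := fun χ hχ => (hconj χ hχ).1
      conj_ne := fun χ hχ => (hconj χ hχ).2
      isometry := hτ0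
      map_one := hτ1
      orthogonal := fun χ hχ φ hφ hne => irr_inner_ne (hirr χ hχ) (hirr φ hφ) hne
      orthonormal := ?_
      virtual := ?_
      sum_eq := ?_
      disjoint := ?_ }
  · intro χ hχ α hα β hβ
    simp only [Finset.mem_insert, Finset.mem_singleton] at hα hβ
    rcases hα with rfl | rfl <;> rcases hβ with rfl | rfl
    · rw [if_pos rfl, irr_inner_self (ha χ hχ)]
    · rw [if_neg (hanb χ hχ), classInner_neg_right,
        irr_inner_ne (ha χ hχ) (hb χ hχ) (hab χ hχ), neg_zero]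
    · rw [if_neg (Ne.symm (hanb χ hχ)), classInner_neg_left,
        irr_inner_ne (hb χ hχ) (ha χ hχ) (Ne.symm (hab χ hχ)), neg_zero]
    · rw [if_pos rfl, classInner_neg_left, classInner_neg_right, irr_inner_self (hb χ hχ), neg_neg]
  · intro χ hχ α hα
    simp only [Finset.mem_insert, Finset.mem_singleton] at hα
    rcases hα with rfl | rfl
    · exact ⟨a χ, 0, isCharacter_of_irr (ha χ hχ), isCharacter_zero G, (sub_zero _).symm⟩
    · exact ⟨0, b χ, isCharacter_zero G, isCharacter_of_irr (hb χ hχ), (zero_sub _).symm⟩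
  · intro χ hχ
    rw [Finset.sum_pair (hanb χ hχ), hτab χ hχ, sub_eq_add_neg]
  · intro χ hχ φ hφ h1 h2
    have hne1 : φ ≠ χ := by
      rintro rfl
      rw [irr_inner_self (hirr φ hφ)] at h1
      exact one_ne_zero h1
    have hne2 : φ ≠ Cfsg.conjFun χ := by
      intro h
      rw [h, irr_inner_self (hirr _ (hconj χ hχ).1)] at h2
      exact one_ne_zero h2
    have hne3 : Cfsg.conjFun φ ≠ χ := fun h => hne2 (by rw [← h, conjFun_conjFun])
    have hne4 : Cfsg.conjFun φ ≠ Cfsg.conjFun χ := by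
      intro h
      have h' := congrArg Cfsg.conjFun h
      rw [conjFun_conjFun, conjFun_conjFun] at h'
      exact hne1 h'
    have hz : Cfsg.classInner (τ (φ - Cfsg.conjFun φ)) (τ (χ - Cfsg.conjFun χ)) = 0 := by
      rw [hinner _ (hmem φ hφ) _ (hmem χ hχ), classInner_sub_left, classInner_sub_right,
        classInner_sub_right, irr_inner_ne (hirr φ hφ) (hirr χ hχ) hne1,
        irr_inner_ne (hirr φ hφ) (hirr _ (hconj χ hχ).1) hne2,
        irr_inner_ne (hirr _ (hconj φ hφ).1) (hirr χ hχ) hne3,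
        irr_inner_ne (hirr _ (hconj φ hφ).1) (hirr _ (hconj χ hχ).1) hne4]
      ring
    rw [hτab φ hφ, hτab χ hχ, classInner_sub_left, classInner_sub_right, classInner_sub_right,
      irr_orthonormal (ha φ hφ) (ha χ hχ), irr_orthonormal (ha φ hφ) (hb χ hχ),
      irr_orthonormal (hb φ hφ) (ha χ hχ), irr_orthonormal (hb φ hφ) (hb χ hχ)] at hz
    have e1 : a φ ≠ a χ := by
      intro e1
      have e2 : a φ ≠ b χ := fun e2 => hab χ hχ (e1.symm.trans e2)
      have e3 : b φ ≠ a χ := fun e3 => hab φ hφ (e1.trans e3.symm)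
      rw [if_pos e1, if_neg e2, if_neg e3] at hz
      by_cases e4 : b φ = b χ
      · rw [if_pos e4] at hz
        norm_num at hz
      · rw [if_neg e4] at hz
        norm_num at hz
    have e4 : b φ ≠ b χ := by
      intro e4
      have e2 : a φ ≠ b χ := fun e2 => hab φ hφ (e2.trans e4.symm)
      have e3 : b φ ≠ a χ := fun e3 => hab χ hχ (e3.symm.trans e4)
      rw [if_neg e1, if_neg e2, if_neg e3, if_pos e4] at hz
      norm_num at hz
    rw [if_neg e1, if_neg e4] at hz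
    have e2 : a φ ≠ b χ := by
      intro e2
      rw [if_pos e2] at hz
      by_cases e3 : b φ = a χ
      · rw [if_pos e3] at hz
        norm_num at hz
      · rw [if_neg e3] at hz
        norm_num at hz
    rw [if_neg e2] at hz
    have e3 : b φ ≠ a χ := by
      intro e3
      rw [if_pos e3] at hz
      norm_num at hz
    intro α hα β hβ
    simp only [Finset.mem_insert, Finset.mem_singleton] at hα hβ
    rcases hα with rfl | rfl <;> rcases hβ with rfl | rfl
    · exact irr_inner_ne (ha φ hφ) (ha χ hχ) e1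
    · rw [classInner_neg_right, irr_inner_ne (ha φ hφ) (hb χ hχ) e2, neg_zero]
    · rw [classInner_neg_left, irr_inner_ne (hb φ hφ) (ha χ hχ) e3, neg_zero]
    · rw [classInner_neg_left, classInner_neg_right, irr_inner_ne (hb φ hφ) (hb χ hχ) e4]
      simp

/-- Let S be a nonempty set of irreducible characters of the finite group L, closed under complex conjugation and containing no real-valued member, and τ a linear isometry on the integer combinations of S vanishing at 1, with values virtual characters of G vanishing at 1. Then there is a choice R making (S, τ, R) a coherence system. -/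
theorem result {L : Type*} [Group L] [Fintype L] {G : Type*} [Group G] [Fintype G] (S : Set (L → ℂ)) (hS : S.Nonempty) (hirr : ∀ χ ∈ S, Cfsg.IsIrrCharacter L χ) (hconj : ∀ χ ∈ S, Cfsg.conjFun χ ∈ S ∧ Cfsg.conjFun χ ≠ χ) (τ : (L → ℂ) → (G → ℂ)) (hτ : Cfsg.IsLinearIsometryOn (Cfsg.zspanOn S {1}ᶜ) τ) (hτ1 : ∀ α ∈ Cfsg.zspanOn S {1}ᶜ, τ α 1 = 0) : ∃ R : (L → ℂ) → Finset (G → ℂ), Cfsg.IsCoherenceSystem S τ R := by
  exact main S hS hirr hconj τ hτ hτ1

end Cfsg.Agent.S1514
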