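import Cfsg.Statements.S1515
import Mathlib
import Cfsg.Agent.Lib.Helper3.Char
import Cfsg.Agent.Lib.Helper3.CharCore
import Cfsg.Agent.Lib.Helper3.CharArith
import Cfsg.Agent.Lib.Helper3.CharNormal

set_option autoImplicit false
open Cfsg

namespace Cfsg.Agent.S1515

open Cfsg.Agent.Lib.Helper3.Char Cfsg.Agent.Lib.Helper3.CharCore Cfsg.Agent.Lib.Helper3.CharArith
open Cfsg.Agent.Lib.Helper3.CharNormal
open scoped ComplexConjugate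

universe u

theorem gen_gen_int {G : Type u} [Group G] [Fintype G] {f g : G → ℂ}
    (hf : Cfsg.IsGeneralizedCharacter G f) (hg : Cfsg.IsGeneralizedCharacter G g) :
    ∃ n : ℤ, Cfsg.classInner f g = (n : ℂ) := by
  obtain ⟨a, b, ha, hb, rfl⟩ := hf
  obtain ⟨c, d, hc, hd, rfl⟩ := hg
  obtain ⟨n1, h1⟩ := inner_char_nat ha hc
  obtain ⟨n2, h2⟩ := inner_char_nat ha hd
  obtain ⟨n3, h3⟩ := inner_char_nat hb hc
  obtain ⟨n4, h4⟩ := inner_char_nat hb hd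
  refine ⟨(n1 : ℤ) - n2 - (n3 - n4), ?_⟩
  rw [classInner_sub_left, classInner_sub_right, classInner_sub_right, h1, h2, h3, h4]
  push_cast
  ring

theorem main {L : Type*} [Group L] [Fintype L] {G : Type*} [Group G] [Fintype G] (S : Set (L → ℂ)) (τ : (L → ℂ) → (G → ℂ)) (R : (L → ℂ) → Finset (G → ℂ)) (hS : Cfsg.IsCoherenceSystem S τ R) (χ : L → ℂ) (hχ : χ ∈ S) (ψ : L → ℂ) (hψ : ψ ∈ Cfsg.zspan S) (h1 : Cfsg.classInner χ ψ = 0) (h2 : Cfsg.classInner (Cfsg.conjFun χ) ψ = 0) (τ₁ : (L → ℂ) → (G → ℂ)) (hτ₁ : Cfsg.IsLinearIsometryOn (Cfsg.zspan {χ - ψ, χ - Cfsg.conjFun χ}) τ₁) (hagree : ∀ n : ℤ, τ₁ (n • (χ - Cfsg.conjFun χ)) = τ (n • (χ - Cfsg.conjFun χ))) : (Cfsg.classInner χ χ).re ≤ ∑ α ∈ R χ, ‖Cfsg.classInner (τ₁ (χ - ψ)) α‖ ^ 2 ∧ ((Cfsg.classInner ψ ψ).re ≤ (Cfsg.classInner (τ₁ (χ - ψ)) (τ₁ (χ - ψ))).re - ∑ α ∈ R χ, ‖Cfsg.classInner (τ₁ (χ - ψ)) α‖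 ^ 2 → (∑ α ∈ R χ, ‖Cfsg.classInner (τ₁ (χ - ψ)) α‖ ^ 2 = (Cfsg.classInner χ χ).re ∧ ∀ α ∈ R χ, Cfsg.classInner (τ₁ (χ - ψ)) α = 0 ∨ Cfsg.classInner (τ₁ (χ - ψ)) α = 1)) := by
  classical
  obtain ⟨hadd, hsmul, hinner, hgen⟩ := hτ₁
  have hm1 : χ - ψ ∈ Cfsg.zspan {χ - ψ, χ - Cfsg.conjFun χ} :=
    Submodule.subset_span (by simp)
  have hm2 : χ - Cfsg.conjFun χ ∈ Cfsg.zspan {χ - ψ, χ - Cfsg.conjFun χ} :=
    Submodule.subset_span (by simp)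
  have hag : τ₁ (χ - Cfsg.conjFun χ) = τ (χ - Cfsg.conjFun χ) := by
    have := hagree 1
    simpa using this
  have h1' : Cfsg.classInner ψ χ = 0 := by rw [classInner_conj_symm, h1, map_zero]
  have h2' : Cfsg.classInner ψ (Cfsg.conjFun χ) = 0 := by rw [classInner_conj_symm, h2, map_zero]
  have h3 : Cfsg.classInner χ (Cfsg.conjFun χ) = 0 :=
    hS.orthogonal χ hχ _ (hS.conj_mem χ hχ) (Ne.symm (hS.conj_ne χ hχ))
  have hXX : Cfsg.classInner (τ₁ (χ - ψ)) (τ₁ (χ - ψ)) =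
      Cfsg.classInner χ χ + Cfsg.classInner ψ ψ := by
    rw [hinner _ hm1 _ hm1, classInner_sub_left, classInner_sub_right, classInner_sub_right, h1,
      h1']
    ring
  have hXg : Cfsg.IsGeneralizedCharacter G (τ₁ (χ - ψ)) := hgen _ hm1
  have hXc : Cfsg.classInner (τ₁ (χ - ψ)) (τ₁ (χ - Cfsg.conjFun χ)) = Cfsg.classInner χ χ := by
    rw [hinner _ hm1 _ hm2, classInner_sub_left, classInner_sub_right, classInner_sub_right, h3,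
      h1', h2']
    ring
  generalize τ₁ (χ - ψ) = X at hXX hXg hXc ⊢
  have key : ∀ α ∈ R χ, ∃ n : ℤ, Cfsg.classInner X α = (n : ℂ) :=
    fun α hα => gen_gen_int hXg (hS.virtual χ hχ α hα)
  choose! a ha using key
  have hsumA : ((∑ α ∈ R χ, a α : ℤ) : ℂ) = Cfsg.classInner χ χ := by
    rw [Int.cast_sum]
    calc ∑ α ∈ R χ, (a α : ℂ) = ∑ α ∈ R χ, Cfsg.classInner X α :=
          Finset.sum_congr rfl (fun α hα => (ha α hα).symm)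
      _ = Cfsg.classInner X (∑ α ∈ R χ, α) := (classInner_sum_right _ _ _).symm
      _ = Cfsg.classInner X (τ₁ (χ - Cfsg.conjFun χ)) := by rw [hag, hS.sum_eq χ hχ]
      _ = Cfsg.classInner χ χ := hXc
  have hnorm : ∀ α ∈ R χ, ‖Cfsg.classInner X α‖ ^ 2 = ((a α : ℤ) : ℝ) ^ 2 := by
    intro α hα
    rw [ha α hα, Complex.norm_intCast, sq_abs]
  have hre : (Cfsg.classInner χ χ).re = ((∑ α ∈ R χ, a α : ℤ) : ℝ) := by
    rw [← hsumA, Complex.intCast_re]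
  have hsumsq : ∑ α ∈ R χ, ‖Cfsg.classInner X α‖ ^ 2 = ((∑ α ∈ R χ, (a α) ^ 2 : ℤ) : ℝ) := by
    rw [Int.cast_sum]
    refine Finset.sum_congr rfl (fun α hα => ?_)
    rw [hnorm α hα, Int.cast_pow]
  have hle : ∀ α, a α ≤ (a α) ^ 2 := by
    intro α
    rcases le_or_gt (a α) 0 with h | h <;> nlinarith
  have hA : ∑ α ∈ R χ, a α ≤ ∑ α ∈ R χ, (a α) ^ 2 := Finset.sum_le_sum (fun α _ => hle α)
  refine ⟨?_, ?_⟩
  · rw [hre, hsumsq]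
    exact_mod_cast hA
  · intro hb
    rw [hXX, Complex.add_re, hre, hsumsq] at hb
    have hB : ((∑ α ∈ R χ, (a α) ^ 2 : ℤ) : ℝ) ≤ ((∑ α ∈ R χ, a α : ℤ) : ℝ) := by linarith
    have hB' : ∑ α ∈ R χ, (a α) ^ 2 ≤ ∑ α ∈ R χ, a α := by exact_mod_cast hB
    have hEq : ∑ α ∈ R χ, (a α) ^ 2 = ∑ α ∈ R χ, a α := le_antisymm hB' hA
    refine ⟨?_, ?_⟩
    · rw [hre, hsumsq, hEq]
    · intro α hα
      have h5 : ∑ α ∈ R χ, ((a α) ^ 2 - a α) = 0 := by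
        rw [Finset.sum_sub_distrib, hEq, sub_self]
      have h6 := (Finset.sum_eq_zero_iff_of_nonneg (fun α _ => by
        have := hle α
        linarith)).mp h5 α hα
      have h7 : a α * (a α - 1) = 0 := by nlinarith
      rcases mul_eq_zero.mp h7 with h | h
      · left
        rw [ha α hα, h]
        simp
      · right
        have h8 : a α = 1 := by linarith
        rw [ha α hα, h8]
        simp

/-- Let (S, τ, R) be a coherence system from L to G, χ ∈ S, and ψ an integer combination of S with ⟨χ, ψ⟩ = ⟨conj χ, ψ⟩ = 0. Let τ₁ be a linear isometry on the integer combinations of χ − ψ and χ − conj χ, with virtual-character values, agreeing with τ on integer multiples of χ − conj χ. Then the sum over α ∈ R χ of the squared absolute values of ⟨τ₁(χ − ψ), α⟩ is at least ⟨χ, χ⟩; and if ⟨τ₁(χ − ψ), τ₁(χ − ψ)⟩ minus that sum is at least ⟨ψ, ψ⟩,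 then the sum equals ⟨χ, χ⟩ and every ⟨τ₁(χ − ψ), α⟩ with α ∈ R χ is 0 or 1. -/
theorem result {L : Type*} [Group L] [Fintype L] {G : Type*} [Group G] [Fintype G] (S : Set (L → ℂ)) (τ : (L → ℂ) → (G → ℂ)) (R : (L → ℂ) → Finset (G → ℂ)) (hS : Cfsg.IsCoherenceSystem S τ R) (χ : L → ℂ) (hχ : χ ∈ S) (ψ : L → ℂ) (hψ : ψ ∈ Cfsg.zspan S) (h1 : Cfsg.classInner χ ψ = 0) (h2 : Cfsg.classInner (Cfsg.conjFun χ) ψ = 0) (τ₁ : (L → ℂ) → (G → ℂ)) (hτ₁ : Cfsg.IsLinearIsometryOn (Cfsg.zspan {χ - ψ, χ - Cfsg.conjFun χ}) τ₁) (hagree : ∀ n : ℤ, τ₁ (n • (χ - Cfsg.conjFun χ)) = τ (n • (χ - Cfsg.conjFun χ))) : (Cfsg.classInner χ χ).re ≤ ∑ α ∈ R χ, ‖Cfsg.classInner (τ₁ (χ - ψ)) α‖ ^ 2 ∧ ((Cfsg.classInner ψ ψ).re ≤ (Cfsg.classInner (τ₁ (χ - ψ)) (τ₁ (χ - ψ))).re - ∑ α ∈ R χ, ‖Cfsg.classInner (τ₁ (χ - ψ)) α‖ ^ 2 → (∑ α ∈ R χ, ‖Cfsg.classInner (τ₁ (χ - ψ)) α‖ ^ 2 = (Cfsg.classInner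 χ χ).re ∧ ∀ α ∈ R χ, Cfsg.classInner (τ₁ (χ - ψ)) α = 0 ∨ Cfsg.classInner (τ₁ (χ - ψ)) α = 1)) := by
  exact main S τ R hS χ hχ ψ hψ h1 h2 τ₁ hτ₁ hagree

end Cfsg.Agent.S1515
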