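import Mathlib
import Cfsg.Statements.S1527

set_option autoImplicit false
open Pointwise
open Cfsg
open scoped commutatorElement

namespace Cfsg.Agent.S1527

theorem card_ne_one' (T : Type*) [Group T] [Finite T] :
    Nat.card {t : T // t ≠ 1} = Nat.card T - 1 := by
  classical
  haveI := Fintype.ofFinite T
  rw [Nat.card_eq_fintype_card, Nat.card_eq_fintype_card]
  have h := Fintype.card_subtype_compl (fun t : T => t = 1)
  rw [Fintype.card_subtype_eq] at h
  exact h

theorem result {G : Type*} [Group G] [Finite G] {ι : Type*} [Fintype ι] (H : ι → Subgroup G) (hcop : ∀ i j, i ≠ j → Nat.Coprime (Nat.card (H i)) (Nat.card (H j))) (hTI : ∀ i, Cfsg.IsTISubset (H i : Set G)) (hcover : ∀ g : G, g ≠ 1 → ∃ i, ∃ x : G, x * g * x⁻¹ ∈ H i) : Nat.card G - 1 = ∑ i, (Subgroup.normalizer (H i : Set G)).index * (Nat.card (H i) - 1) := by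
  classical
  let F : (Σ i, (G ⧸ Subgroup.normalizer (H i : Set G)) × {h : H i // h ≠ 1}) →
      {g : G // g ≠ 1} := fun s =>
    ⟨Quotient.out s.2.1 * (s.2.2.1 : G) * (Quotient.out s.2.1)⁻¹, by
      intro h
      have h1 : (s.2.2.1 : G) = 1 := by
        have h2 : (s.2.2.1 : G) = (Quotient.out s.2.1)⁻¹ *
            (Quotient.out s.2.1 * (s.2.2.1 : G) * (Quotient.out s.2.1)⁻¹) * Quotient.out s.2.1 := by
          group
        rw [h2, h]; group
      exact s.2.2.2 (Subtype.ext h1)⟩
  have hFval : ∀ s, ((F s : {g : G // g ≠ 1}) : G) =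
      Quotient.out s.2.1 * (s.2.2.1 : G) * (Quotient.out s.2.1)⁻¹ := fun s => rfl
  have hord : ∀ s, orderOf ((F s : {g : G // g ≠ 1}) : G) ∣ Nat.card (H s.1) := by
    intro s
    rw [hFval]
    have h1 : orderOf (Quotient.out s.2.1 * (s.2.2.1 : G) * (Quotient.out s.2.1)⁻¹) =
        orderOf (s.2.2.1 : G) := by
      have := (SemiconjBy.conj_mk (Quotient.out s.2.1) (s.2.2.1 : G)).orderOf_eq
      exact this.symm
    rw [h1, Subgroup.orderOf_coe]
    exact orderOf_dvd_natCard _
  have hinj : Function.Injective F := by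
    rintro ⟨i, q, h⟩ ⟨j, q', h'⟩ hEq
    have hv : Quotient.out q * (h.1 : G) * (Quotient.out q)⁻¹ =
        Quotient.out q' * (h'.1 : G) * (Quotient.out q')⁻¹ := congrArg Subtype.val hEq
    have hij : i = j := by
      by_contra hne
      have h1 := hord ⟨i, q, h⟩
      have h2 := hord ⟨j, q', h'⟩
      rw [← hEq] at h2
      have h3 := Nat.dvd_gcd h1 h2
      have h4 : Nat.gcd (Nat.card (H i)) (Nat.card (H j)) = 1 := hcop i j hne
      simp only at h3
      rw [h4] at h3
      have h5 := orderOf_eq_one_iff.1 (Nat.dvd_one.1 h3)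
      exact (F ⟨i, q, h⟩).2 h5
    subst hij
    have hmem : (Quotient.out q')⁻¹ * Quotient.out q ∈ Subgroup.normalizer (H i : Set G) := by
      by_contra hnot
      have h1 := hTI i _ hnot (h.1 : G) h.1.2 (by
        have h2 : (Quotient.out q')⁻¹ * Quotient.out q * (h.1 : G) *
            ((Quotient.out q')⁻¹ * Quotient.out q)⁻¹ = (h'.1 : G) := by
          have h3 : (Quotient.out q')⁻¹ * Quotient.out q * (h.1 : G) *
              ((Quotient.out q')⁻¹ * Quotient.out q)⁻¹ = (Quotient.out q')⁻¹ *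
              (Quotient.out q * (h.1 : G) * (Quotient.out q)⁻¹) * Quotient.out q' := by group
          rw [h3, hv]; group
        rw [h2]; exact h'.1.2)
      exact h.2 (Subtype.ext h1)
    have hq : q = q' := by
      have h1 : (QuotientGroup.mk (Quotient.out q') : G ⧸ Subgroup.normalizer (H i : Set G)) =
          QuotientGroup.mk (Quotient.out q) := QuotientGroup.eq.2 hmem
      rw [QuotientGroup.out_eq', QuotientGroup.out_eq'] at h1
      exact h1.symm
    subst hq
    have hh : (h.1 : G) = (h'.1 : G) := by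
      have h1 : (Quotient.out q)⁻¹ * (Quotient.out q * (h.1 : G) * (Quotient.out q)⁻¹) *
          Quotient.out q = (Quotient.out q)⁻¹ * (Quotient.out q * (h'.1 : G) *
          (Quotient.out q)⁻¹) * Quotient.out q := by rw [hv]
      have e1 : (Quotient.out q)⁻¹ * (Quotient.out q * (h.1 : G) * (Quotient.out q)⁻¹) *
          Quotient.out q = (h.1 : G) := by group
      have e2 : (Quotient.out q)⁻¹ * (Quotient.out q * (h'.1 : G) * (Quotient.out q)⁻¹) *
          Quotient.out q = (h'.1 : G) := by group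
      rw [e1, e2] at h1
      exact h1
    have hh' : h = h' := Subtype.ext (Subtype.ext hh)
    rw [hh']
  have hsurj : Function.Surjective F := by
    rintro ⟨g, hg⟩
    obtain ⟨i, x, hx⟩ := hcover g hg
    obtain ⟨n, hn⟩ := QuotientGroup.mk_out_eq_mul (Subgroup.normalizer (H i : Set G)) x⁻¹
    have hnN : (n : G) ∈ Subgroup.normalizer (H i : Set G) := n.2
    have hmem : (n : G)⁻¹ * (x * g * x⁻¹) * (n : G) ∈ H i := by
      have h1 := (Subgroup.mem_set_normalizer_iff''.1 hnN (x * g * x⁻¹)).1 hx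
      exact h1
    have hne : (⟨(n : G)⁻¹ * (x * g * x⁻¹) * (n : G), hmem⟩ : H i) ≠ 1 := by
      intro h
      have h1 : (n : G)⁻¹ * (x * g * x⁻¹) * (n : G) = 1 := congrArg Subtype.val h
      have h2 : g = x⁻¹ * (n : G) * ((n : G)⁻¹ * (x * g * x⁻¹) * (n : G)) * (n : G)⁻¹ * x := by
        group
      rw [h1] at h2
      apply hg
      rw [h2]; group
    refine ⟨⟨i, (QuotientGroup.mk x⁻¹ : G ⧸ Subgroup.normalizer (H i : Set G)),
      ⟨⟨_, hmem⟩, hne⟩⟩, ?_⟩
    apply Subtype.ext
    rw [hFval]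
    show Quotient.out (QuotientGroup.mk x⁻¹ : G ⧸ Subgroup.normalizer (H i : Set G)) *
      ((n : G)⁻¹ * (x * g * x⁻¹) * (n : G)) *
      (Quotient.out (QuotientGroup.mk x⁻¹ : G ⧸ Subgroup.normalizer (H i : Set G)))⁻¹ = g
    have hn' : Quotient.out (QuotientGroup.mk x⁻¹ : G ⧸ Subgroup.normalizer (H i : Set G)) =
        x⁻¹ * (n : G) := hn
    rw [hn']
    group
  have hcard := Nat.card_congr (Equiv.ofBijective F ⟨hinj, hsurj⟩)
  rw [card_ne_one', Nat.card_sigma] at hcard
  rw [← hcard]
  apply Finset.sum_congr rfl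
  intro i _
  rw [Nat.card_prod, card_ne_one']
  rfl

end Cfsg.Agent.S1527
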