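import Mathlib
import Cfsg.Statements.S1528
import Cfsg.Agent.Lib.Helper3.Char
import Cfsg.Agent.Lib.Helper3.CharCore
import Cfsg.Agent.Lib.Helper3.CharArith
import Cfsg.Agent.Lib.Helper3.CharInd
import Cfsg.Agent.Lib.Helper3.CharStab

set_option autoImplicit false
open Cfsg
open Cfsg.Agent.Lib.Helper3.Char Cfsg.Agent.Lib.Helper3.CharCore Cfsg.Agent.Lib.Helper3.CharArith Cfsg.Agent.Lib.Helper3.CharInd Cfsg.Agent.Lib.Helper3.CharStab
open scoped ComplexConjugate

namespace Cfsg.Agent.S1528

theorem result {G : Type*} [Group G] [Fintype G] (N : Subgroup G) [N.Normal] (hC : ∀ n ∈ N, n ≠ 1 → Subgroup.centralizer ({n} : Set G) ≤ N) (χ : G → ℂ) (hχ : Cfsg.IsIrrCharacter G χ) (hker : ∃ n ∈ N, χ n ≠ χ 1) : ∃ φ : N → ℂ, Cfsg.IsIrrCharacter N φ ∧ χ = Cfsg.indFun N φ := by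
  classical
  have hN : N.Normal := inferInstance
  have _k : Fintype N := Fintype.ofFinite N
  obtain ⟨θ, hθ, hθ1, hinner⟩ := exists_nontrivial_constituent N χ (isCharacter_of_irr hχ) hker
  have hirr : Cfsg.IsIrrCharacter G (Cfsg.indFun N θ) := by
    apply ind_irr_of_stab N θ hθ
    intro g hg
    by_contra hgN
    apply hθ1
    apply eq_one_of_fixed (MulAut.conjNormal g : N ≃* N) _ θ hθ
    · funext k
      change θ ((MulAut.conjNormal g : N ≃* N) k) = θ k
      rw [← hg k]
      congr 1
    · intro x u hu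
      by_contra hx1
      have hu' : (u : G) * (g * (x : G) * g⁻¹) * (u : G)⁻¹ = x := congrArg Subtype.val hu
      have hcent : (u : G) * g ∈ Subgroup.centralizer ({(x : G)} : Set G) := by
        rw [Subgroup.mem_centralizer_iff]
        intro y hy
        rw [Set.mem_singleton_iff] at hy
        subst hy
        calc (x : G) * (u * g) = (u * (g * x * g⁻¹) * (u : G)⁻¹) * (u * g) := by rw [hu']
          _ = u * g * x := by group
      have h1 := hC x x.2 (fun h => hx1 (Subtype.ext h)) hcent
      have h2 := N.mul_mem (N.inv_mem u.2) h1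
      rw [inv_mul_cancel_left] at h2
      exact hgN h2
  refine ⟨θ, hθ, ?_⟩
  by_contra hne
  have h0 := irr_inner_ne hirr hχ (fun h => hne h.symm)
  rw [frobenius N θ χ (char_classFun (isCharacter_of_irr hχ))] at h0
  exact hinner h0

end Cfsg.Agent.S1528
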