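import Cfsg.Statements.S1529
import Mathlib
import Cfsg.Agent.Lib.Helper3.Char
import Cfsg.Agent.Lib.Helper3.CharCore
import Cfsg.Agent.Lib.Helper3.CharArith
import Cfsg.Agent.Lib.Helper3.CharNormal

set_option autoImplicit false
open Cfsg

namespace Cfsg.Agent.S1529

open Cfsg.Agent.Lib.Helper3.Char Cfsg.Agent.Lib.Helper3.CharCore Cfsg.Agent.Lib.Helper3.CharArith
open Cfsg.Agent.Lib.Helper3.CharNormal
open scoped ComplexConjugate

universe u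

theorem gen_cf {G : Type u} [Group G] {f : G → ℂ} (hf : Cfsg.IsGeneralizedCharacter G f) :
    Cfsg.IsClassFunction G f := by
  obtain ⟨a, b, ha, hb, rfl⟩ := hf
  intro g h
  show a (h * g * h⁻¹) - b (h * g * h⁻¹) = a g - b g
  rw [char_classFun ha g h, char_classFun hb g h]

theorem gen_inner_int {G : Type u} [Group G] [Fintype G] {f ψ : G → ℂ}
    (hf : Cfsg.IsGeneralizedCharacter G f) (hψ : Cfsg.IsIrrCharacter G ψ) :
    ∃ n : ℤ, Cfsg.classInner f ψ = (n : ℂ) := by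
  obtain ⟨a, b, ha, hb, rfl⟩ := hf
  obtain ⟨n1, h1⟩ := inner_char_nat ha (isCharacter_of_irr hψ)
  obtain ⟨n2, h2⟩ := inner_char_nat hb (isCharacter_of_irr hψ)
  refine ⟨(n1 : ℤ) - (n2 : ℤ), ?_⟩
  rw [classInner_sub_left, h1, h2]
  push_cast
  ring

theorem norm_one {G : Type u} [Group G] [Fintype G] {ψ : G → ℂ}
    (hψ : Cfsg.IsGeneralizedCharacter G ψ) (hn : Cfsg.classInner ψ ψ = 1) :
    ∃ (s : ℤ) (θ : G → ℂ), (s = 1 ∨ s = -1) ∧ Cfsg.IsIrrCharacter G θ ∧ ψ = (s : ℂ) • θ := by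
  classical
  have _fi : Fintype (Cfsg.IrrCharacter G) := Fintype.ofFinite _
  have hcf := gen_cf hψ
  choose c hc using fun χ : Cfsg.IrrCharacter G => gen_inner_int hψ χ.2
  have hp := parseval ψ ψ hcf
  have hc' : ∀ χ : Cfsg.IrrCharacter G, Cfsg.classInner (χ : G → ℂ) ψ = (c χ : ℂ) := by
    intro χ
    rw [classInner_conj_symm, hc χ, map_intCast]
  have hsum : ∑ χ : Cfsg.IrrCharacter G, (c χ) ^ 2 = 1 := by
    have h2 : ((∑ χ : Cfsg.IrrCharacter G, (c χ) ^ 2 : ℤ) : ℂ) = 1 := by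
      rw [← hn, hp, Int.cast_sum]
      refine Finset.sum_congr rfl (fun χ _ => ?_)
      rw [hc χ, hc' χ, Int.cast_pow, pow_two]
    exact_mod_cast h2
  have hex : ∃ χ0 : Cfsg.IrrCharacter G, c χ0 ≠ 0 := by
    by_contra hcon
    simp only [not_exists, not_not] at hcon
    have h2 : ∑ χ : Cfsg.IrrCharacter G, (c χ) ^ 2 = 0 :=
      Finset.sum_eq_zero (fun χ _ => by rw [hcon χ]; ring)
    rw [hsum] at h2
    exact one_ne_zero h2
  obtain ⟨χ0, hχ0⟩ := hex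
  have h7 : 1 ≤ (c χ0) ^ 2 := by
    have h8 : 0 < (c χ0) ^ 2 := by positivity
    linarith
  have hothers : ∀ χ : Cfsg.IrrCharacter G, χ ≠ χ0 → c χ = 0 := by
    intro χ hne
    have h5 : (c χ0) ^ 2 + (c χ) ^ 2 ≤ ∑ χ : Cfsg.IrrCharacter G, (c χ) ^ 2 := by
      have h6 := Finset.sum_le_sum_of_subset_of_nonneg (Finset.subset_univ {χ0, χ})
        (f := fun i : Cfsg.IrrCharacter G => (c i) ^ 2) (fun i _ _ => sq_nonneg (c i))
      rwa [Finset.sum_pair hne.symm] at h6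
    rw [hsum] at h5
    have h8 : (c χ) ^ 2 ≤ 0 := by linarith
    exact pow_eq_zero_iff (two_ne_zero) |>.mp (le_antisymm h8 (sq_nonneg _))
  have hc0sq : (c χ0) ^ 2 = 1 := by
    rw [← hsum, Finset.sum_eq_single χ0 (fun χ _ hne => by rw [hothers χ hne]; ring)
      (fun h => absurd (Finset.mem_univ _) h)]
  have hexp : ψ = (c χ0 : ℂ) • (χ0 : G → ℂ) := by
    have e := class_fun_expand ψ hcf
    rw [Finset.sum_eq_single χ0 (fun χ _ hne => by rw [hc χ, hothers χ hne]; simp)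
      (fun h => absurd (Finset.mem_univ _) h), hc χ0] at e
    exact e
  have hpm : c χ0 = 1 ∨ c χ0 = -1 := by
    have h3 : c χ0 ≤ 1 := by nlinarith
    have h4 : -1 ≤ c χ0 := by nlinarith
    omega
  exact ⟨c χ0, χ0, hpm, χ0.2, hexp⟩

theorem main {G : Type*} [Group G] [Fintype G] (N : Subgroup G) [Fintype N] (S : Set (N → ℂ)) (hirr : ∀ χ ∈ S, Cfsg.IsIrrCharacter N χ) (htwo : ∃ χ ∈ S, ∃ ψ ∈ S, χ ≠ ψ) (τ₁ : (N → ℂ) → (G → ℂ)) (hτ₁ : Cfsg.IsLinearIsometryOn (Cfsg.zspan S) τ₁) (h0 : ∀ α ∈ Cfsg.zspan S, α 1 = 0 → τ₁ α 1 = 0) : ∃ ε : ℂ, (ε = 1 ∨ ε = -1) ∧ (∀ χ ∈ S, Cfsg.IsIrrCharacter G (ε • τ₁ χ)) ∧ (∀ χ ∈ S, ∀ ψ ∈ S, τ₁ χ = τ₁ ψ → χ = ψ) := by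
  classical
  obtain ⟨hadd, hsmul, hinner, hgen⟩ := hτ₁
  have hmemS : ∀ χ ∈ S, χ ∈ Cfsg.zspan S := fun χ hχ => Submodule.subset_span hχ
  have key : ∀ χ ∈ S, ∃ (s : ℤ) (θ : G → ℂ), (s = 1 ∨ s = -1) ∧ Cfsg.IsIrrCharacter G θ ∧
      τ₁ χ = (s : ℂ) • θ := by
    intro χ hχ
    apply norm_one (hgen χ (hmemS χ hχ))
    rw [hinner χ (hmemS χ hχ) χ (hmemS χ hχ), irr_inner_self (hirr χ hχ)]
  choose! s θ hs hθ hτ using key
  have hsign : ∀ χ ∈ S, ∀ ψ ∈ S, s χ = s ψ := by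
    intro χ hχ ψ hψ
    obtain ⟨n, hn, hn'⟩ := irr_one_pos (hirr χ hχ)
    obtain ⟨m, hm, hm'⟩ := irr_one_pos (hirr ψ hψ)
    obtain ⟨k, hk, hk'⟩ := irr_one_pos (hθ χ hχ)
    obtain ⟨l, hl, hl'⟩ := irr_one_pos (hθ ψ hψ)
    have hα1 : ((m : ℤ) • χ) ∈ Cfsg.zspan S := Submodule.smul_mem _ _ (hmemS χ hχ)
    have hα2 : ((-(n : ℤ)) • ψ) ∈ Cfsg.zspan S := Submodule.smul_mem _ _ (hmemS ψ hψ)
    have hα : ((m : ℤ) • χ + (-(n : ℤ)) • ψ) ∈ Cfsg.zspan S := Submodule.add_mem _ hα1 hα2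
    have hα0 : ((m : ℤ) • χ + (-(n : ℤ)) • ψ) 1 = 0 := by
      simp only [Pi.add_apply, Pi.smul_apply]
      simp only [hn', hm', zsmul_eq_mul]
      push_cast
      ring
    have h3 := h0 _ hα hα0
    rw [hadd _ hα1 _ hα2, hsmul χ (hmemS χ hχ), hsmul ψ (hmemS ψ hψ), hτ χ hχ, hτ ψ hψ] at h3
    simp only [Pi.add_apply, Pi.smul_apply] at h3
    simp only [hk', hl', zsmul_eq_mul, smul_eq_mul] at h3
    have h4 : (m : ℤ) * (s χ * k) + (-(n : ℤ)) * (s ψ * l) = 0 := by exact_mod_cast h3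
    have p1 : (0 : ℤ) < (m : ℤ) * k := mul_pos (by exact_mod_cast hm) (by exact_mod_cast hk)
    have p2 : (0 : ℤ) < (n : ℤ) * l := mul_pos (by exact_mod_cast hn) (by exact_mod_cast hl)
    rcases hs χ hχ with h5 | h5 <;> rcases hs ψ hψ with h6 | h6
    · rw [h5, h6]
    · exfalso
      rw [h5, h6] at h4
      nlinarith
    · exfalso
      rw [h5, h6] at h4
      nlinarith
    · rw [h5, h6]
  obtain ⟨χ₀, hχ₀, -⟩ := htwo
  refine ⟨(s χ₀ : ℂ), ?_, ?_, ?_⟩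
  · rcases hs χ₀ hχ₀ with h | h <;> simp [h]
  · intro χ hχ
    rw [hτ χ hχ, hsign χ₀ hχ₀ χ hχ, smul_smul]
    have h1 : ((s χ : ℂ) * (s χ : ℂ)) = 1 := by
      rcases hs χ hχ with h | h <;> simp [h]
    rw [h1, one_smul]
    exact hθ χ hχ
  · intro χ hχ ψ hψ h
    by_contra hne
    have h1 := hinner χ (hmemS χ hχ) ψ (hmemS ψ hψ)
    rw [h, hinner ψ (hmemS ψ hψ) ψ (hmemS ψ hψ), irr_inner_self (hirr ψ hψ),
      irr_inner_ne (hirr χ hχ) (hirr ψ hψ) hne] at h1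
    exact one_ne_zero h1

/-- Let N be a subgroup of the finite group G, S a set of irreducible characters of N with at least two members, and τ₁ a linear isometry on the integer combinations of S with virtual-character values such that τ₁ α vanishes at 1 whenever α ∈ ℤ[S] does. Then there is ε ∈ {1, −1} such that ε • τ₁ χ is an irreducible character of G for every χ ∈ S, and distinct members of S give distinct characters. -/
theorem result {G : Type*} [Group G] [Fintype G] (N : Subgroup G) [Fintype N] (S : Set (N → ℂ)) (hirr : ∀ χ ∈ S, Cfsg.IsIrrCharacter N χ) (htwo : ∃ χ ∈ S, ∃ ψ ∈ S, χ ≠ ψ) (τ₁ : (N → ℂ) → (G → ℂ)) (hτ₁ : Cfsg.IsLinearIsometryOn (Cfsg.zspan S) τ₁) (h0 : ∀ α ∈ Cfsg.zspan S, α 1 = 0 → τ₁ α 1 = 0) : ∃ ε : ℂ, (ε = 1 ∨ ε = -1) ∧ (∀ χ ∈ S, Cfsg.IsIrrCharacter G (ε • τ₁ χ)) ∧ (∀ χ ∈ S, ∀ ψ ∈ S, τ₁ χ = τ₁ ψ → χ = ψ) := by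
  exact main N S hirr htwo τ₁ hτ₁ h0

end Cfsg.Agent.S1529
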