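import Cfsg.Statements.S1531
import Mathlib
import Cfsg.Agent.Lib.Helper3.Char
import Cfsg.Agent.Lib.Helper3.CharCore
import Cfsg.Agent.Lib.Helper3.CharArith
import Cfsg.Agent.Lib.Helper3.CharNormal
import Cfsg.Agent.S1529

set_option autoImplicit false
open Cfsg

namespace Cfsg.Agent.S1531

open Cfsg.Agent.Lib.Helper3.Char Cfsg.Agent.Lib.Helper3.CharCore Cfsg.Agent.Lib.Helper3.CharArith
open Cfsg.Agent.Lib.Helper3.CharNormal
open scoped ComplexConjugate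

universe u

section gen
variable {G : Type u} [Group G]

theorem char_nsmul {χ : G → ℂ} (h : Cfsg.IsCharacter G χ) (n : ℕ) :
    Cfsg.IsCharacter G (n • χ) := by
  induction n with
  | zero =>
    rw [zero_smul]
    exact isCharacter_zero G
  | succ k ih =>
    rw [succ_nsmul]
    exact isCharacter_add ih h

theorem gen_zero' : Cfsg.IsGeneralizedCharacter G 0 :=
  ⟨0, 0, isCharacter_zero G, isCharacter_zero G, (sub_zero 0).symm⟩

theorem gen_add' {f g : G → ℂ} (hf : Cfsg.IsGeneralizedCharacter G f)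
    (hg : Cfsg.IsGeneralizedCharacter G g) : Cfsg.IsGeneralizedCharacter G (f + g) := by
  obtain ⟨a, b, ha, hb, rfl⟩ := hf
  obtain ⟨c, d, hc, hd, rfl⟩ := hg
  exact ⟨a + c, b + d, isCharacter_add ha hc, isCharacter_add hb hd, by abel⟩

theorem gen_zsmul' {f : G → ℂ} (hf : Cfsg.IsGeneralizedCharacter G f) (n : ℤ) :
    Cfsg.IsGeneralizedCharacter G ((n : ℂ) • f) := by
  obtain ⟨a, b, ha, hb, rfl⟩ := hf
  rcases Int.eq_nat_or_neg n with ⟨k, rfl | rfl⟩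
  · refine ⟨k • a, k • b, char_nsmul ha k, char_nsmul hb k, ?_⟩
    funext g
    simp only [Pi.smul_apply, Pi.sub_apply]
    simp only [smul_eq_mul, nsmul_eq_mul, Int.cast_natCast]
    ring
  · refine ⟨k • b, k • a, char_nsmul hb k, char_nsmul ha k, ?_⟩
    funext g
    simp only [Pi.smul_apply, Pi.sub_apply]
    simp only [smul_eq_mul, nsmul_eq_mul, Int.cast_natCast, Int.cast_neg]
    ring

theorem gen_sum {ι : Type*} (s : Finset ι) (f : ι → G → ℂ)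
    (h : ∀ i ∈ s, Cfsg.IsGeneralizedCharacter G (f i)) :
    Cfsg.IsGeneralizedCharacter G (∑ i ∈ s, f i) :=
  Finset.sum_induction f _ (fun _ _ => gen_add') gen_zero' h

end gen

section span
variable {L : Type u} [Group L] [Fintype L]

theorem zsmul_inner_left (n : ℤ) (f g : L → ℂ) :
    Cfsg.classInner (n • f) g = (n : ℂ) * Cfsg.classInner f g := by
  rw [← Int.cast_smul_eq_zsmul ℂ n f, classInner_smul_left]

theorem zsmul_inner_right (n : ℤ) (f g : L → ℂ) :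
    Cfsg.classInner f (n • g) = (n : ℂ) * Cfsg.classInner f g := by
  rw [← Int.cast_smul_eq_zsmul ℂ n g, classInner_smul_right]
  simp

theorem inner_comb (u₁ u₂ w₁ w₂ : L → ℂ) (n₁ n₂ k₁ k₂ : ℤ) :
    Cfsg.classInner (n₁ • u₁ + n₂ • u₂) (k₁ • w₁ + k₂ • w₂) =
      (n₁ : ℂ) * k₁ * Cfsg.classInner u₁ w₁ + (n₁ : ℂ) * k₂ * Cfsg.classInner u₁ w₂ +
      (n₂ : ℂ) * k₁ * Cfsg.classInner u₂ w₁ + (n₂ : ℂ) * k₂ * Cfsg.classInner u₂ w₂ := by
  simp only [classInner_add_left, classInner_add_right, zsmul_inner_left, zsmul_inner_right]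
  ring

theorem span_int (S' : Set (L → ℂ)) (hirr : ∀ ξ ∈ S', Cfsg.IsIrrCharacter L ξ) {f : L → ℂ}
    (hf : f ∈ Submodule.span ℤ S') {ξ : L → ℂ} (hξ : Cfsg.IsIrrCharacter L ξ) :
    ∃ n : ℤ, Cfsg.classInner f ξ = (n : ℂ) := by
  induction hf using Submodule.span_induction with
  | mem x h =>
    rw [irr_orthonormal (hirr x h) hξ]
    split_ifs
    · exact ⟨1, by simp⟩
    · exact ⟨0, by simp⟩
  | zero => exact ⟨0, by rw [classInner_zero_left]; simp⟩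
  | add x y hx hy ihx ihy =>
    obtain ⟨n, hn⟩ := ihx
    obtain ⟨m, hm⟩ := ihy
    exact ⟨n + m, by rw [classInner_add_left, hn, hm]; push_cast; ring⟩
  | smul a x hx ih =>
    obtain ⟨n, hn⟩ := ih
    exact ⟨a * n, by rw [zsmul_inner_left, hn]; push_cast; ring⟩

theorem span_zero_of_not_mem (S' : Set (L → ℂ)) (hirr : ∀ ξ ∈ S', Cfsg.IsIrrCharacter L ξ)
    {f : L → ℂ} (hf : f ∈ Submodule.span ℤ S') {ξ : L → ℂ} (hξ : Cfsg.IsIrrCharacter L ξ)
    (hn : ξ ∉ S') : Cfsg.classInner f ξ = 0 := by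
  induction hf using Submodule.span_induction with
  | mem x h => exact irr_inner_ne (hirr x h) hξ (fun e => hn (e ▸ h))
  | zero => exact classInner_zero_left _
  | add x y hx hy ihx ihy => rw [classInner_add_left, ihx, ihy, add_zero]
  | smul a x hx ih => rw [zsmul_inner_left, ih, mul_zero]

theorem span_cf (S' : Set (L → ℂ)) (hirr : ∀ ξ ∈ S', Cfsg.IsIrrCharacter L ξ) {f : L → ℂ}
    (hf : f ∈ Submodule.span ℤ S') : Cfsg.IsClassFunction L f := by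
  induction hf using Submodule.span_induction with
  | mem x h => exact char_classFun (isCharacter_of_irr (hirr x h))
  | zero =>
    intro g h
    rfl
  | add x y hx hy ihx ihy =>
    intro g h
    show x _ + y _ = x g + y g
    rw [ihx g h, ihy g h]
  | smul a x hx ih =>
    intro g h
    show a • x _ = a • x g
    rw [ih g h]

theorem span_deg (S' : Set (L → ℂ)) (hirr : ∀ ξ ∈ S', Cfsg.IsIrrCharacter L ξ) {f : L → ℂ}
    (hf : f ∈ Submodule.span ℤ S') : ∃ t : ℤ, f 1 = (t : ℂ) := by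
  induction hf using Submodule.span_induction with
  | mem x h =>
    obtain ⟨n, -, hn⟩ := irr_one_pos (hirr x h)
    exact ⟨n, by rw [hn]; simp⟩
  | zero => exact ⟨0, by simp⟩
  | add x y hx hy ihx ihy =>
    obtain ⟨n, hn⟩ := ihx
    obtain ⟨m, hm⟩ := ihy
    exact ⟨n + m, by rw [Pi.add_apply, hn, hm]; push_cast; ring⟩
  | smul a x hx ih =>
    obtain ⟨n, hn⟩ := ih
    exact ⟨a * n, by rw [Pi.smul_apply, hn, zsmul_eq_mul]; push_cast; ring⟩

theorem mem_on (S' : Set (L → ℂ)) {θ : L → ℂ} (h : θ ∈ Cfsg.zspan S') (h1 : θ 1 = 0) :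
    θ ∈ Cfsg.zspanOn S' {1}ᶜ :=
  ⟨h, fun x hx => by
    have hx1 : x = 1 := by simpa using hx
    rw [hx1]
    exact h1⟩

theorem on_one (S' : Set (L → ℂ)) {θ : L → ℂ} (h : θ ∈ Cfsg.zspanOn S' {1}ᶜ) : θ 1 = 0 :=
  h.2 1 (by simp)

end span

theorem main {G : Type*} [Group G] [Fintype G] (N : Subgroup G) [Fintype N] (S X Y : Set (N → ℂ)) (hirr : ∀ ξ ∈ S, Cfsg.IsIrrCharacter N ξ) (hXS : X ⊆ S) (hYS : Y ⊆ S) (hXY : Disjoint X Y) (hX2 : ∃ a ∈ X, ∃ b ∈ X, a ≠ b) (hY2 : ∃ a ∈ Y, ∃ b ∈ Y, a ≠ b) (α : (N → ℂ) → (G → ℂ)) (hα : Cfsg.IsLinearIsometryOn (Cfsg.zspanOn S {1}ᶜ) α) (hα1 : ∀ θ ∈ Cfsg.zspanOn S {1}ᶜ, α θ 1 = 0) (σ τ : (N → ℂ) → (G → ℂ)) (hσ : Cfsg.IsLinearIsometryOn (Cfsg.zspan X) σ) (hσα : ∀ θ ∈ Cfsg.zspanOn X {1}ᶜ, σ θ = α θ) (hτ : Cfsg.IsLinearIsometryOn (Cfsg.zspan Y) τ) (hτα : ∀ θ ∈ Cfsg.zspanOn Y {1}ᶜ, τ θ = α θ) : (∀ χ ∈ X, ∀ η ∈ Y, Cfsg.classInner (σ χ) (τ η) = 0) ∧ ((∃ χ₀ ∈ X, ∃ η₀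 ∈ Y, α (χ₀ 1 • η₀ - η₀ 1 • χ₀) = χ₀ 1 • τ η₀ - η₀ 1 • σ χ₀) → Cfsg.IsCoherent (X ∪ Y) {1}ᶜ α) := by
  classical
  have hirrX : ∀ ξ ∈ X, Cfsg.IsIrrCharacter N ξ := fun ξ h => hirr ξ (hXS h)
  have hirrY : ∀ ξ ∈ Y, Cfsg.IsIrrCharacter N ξ := fun ξ h => hirr ξ (hYS h)
  have hdis : ∀ ξ ∈ X, ξ ∉ Y := fun ξ h h' => Set.disjoint_left.mp hXY h h'
  have hneXY : ∀ ξ ∈ X, ∀ ζ ∈ Y, ξ ≠ ζ := fun ξ h ζ h' e => hdis ξ h (e ▸ h')
  have hXsub : ∀ θ, θ ∈ Cfsg.zspan X → θ ∈ Cfsg.zspan S := fun θ h => Submodule.span_mono hXS h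
  have hYsub : ∀ θ, θ ∈ Cfsg.zspan Y → θ ∈ Cfsg.zspan S := fun θ h => Submodule.span_mono hYS h
  have hXYsub : ∀ θ, θ ∈ Submodule.span ℤ (X ∪ Y) → θ ∈ Cfsg.zspan S :=
    fun θ h => Submodule.span_mono (Set.union_subset hXS hYS) h
  have hXon : ∀ θ ∈ Cfsg.zspanOn X {1}ᶜ, θ ∈ Cfsg.zspanOn S {1}ᶜ := fun θ h => ⟨hXsub θ h.1, h.2⟩
  have hYon : ∀ θ ∈ Cfsg.zspanOn Y {1}ᶜ, θ ∈ Cfsg.zspanOn S {1}ᶜ := fun θ h => ⟨hYsub θ h.1, h.2⟩
  have h0X : ∀ θ ∈ Cfsg.zspan X, θ 1 = 0 → σ θ 1 = 0 := by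
    intro θ hθ h1
    rw [hσα θ (mem_on X hθ h1)]
    exact hα1 θ (hXon θ (mem_on X hθ h1))
  have h0Y : ∀ θ ∈ Cfsg.zspan Y, θ 1 = 0 → τ θ 1 = 0 := by
    intro θ hθ h1
    rw [hτα θ (mem_on Y hθ h1)]
    exact hα1 θ (hYon θ (mem_on Y hθ h1))
  obtain ⟨ε, hε, hεirr, hσinj⟩ := Cfsg.Agent.S1529.main N X hirrX hX2 σ hσ h0X
  obtain ⟨ε', hε', hε'irr, hτinj⟩ := Cfsg.Agent.S1529.main N Y hirrY hY2 τ hτ h0Y
  obtain ⟨σadd, σsmul, σinner, σgen⟩ := hσ
  obtain ⟨τadd, τsmul, τinner, τgen⟩ := hτ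
  obtain ⟨αadd, αsmul, αinner, αgen⟩ := hα
  have hεε : ε * ε = 1 := by rcases hε with h | h <;> rw [h] <;> norm_num
  have hε'ε' : ε' * ε' = 1 := by rcases hε' with h | h <;> rw [h] <;> norm_num
  have hε0 : ε ≠ 0 := by rcases hε with h | h <;> rw [h] <;> norm_num
  have hε'0 : ε' ≠ 0 := by rcases hε' with h | h <;> rw [h] <;> norm_num
  have hcε' : conj ε' = ε' := by rcases hε' with h | h <;> rw [h] <;> simp
  have hσeq : ∀ ξ ∈ X, σ ξ = ε • (ε • σ ξ) := fun ξ _ => by rw [smul_smul, hεε, one_smul]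
  have hτeq : ∀ ξ ∈ Y, τ ξ = ε' • (ε' • τ ξ) := fun ξ _ => by rw [smul_smul, hε'ε', one_smul]
  have hI : ∀ ξ ∈ X, ∀ ζ ∈ Y, Cfsg.classInner (σ ξ) (τ ζ) =
      ε * ε' * (if ε • σ ξ = ε' • τ ζ then 1 else 0) := by
    intro ξ hξ ζ hζ
    conv_lhs => rw [hσeq ξ hξ, hτeq ζ hζ]
    rw [classInner_smul_left, classInner_smul_right, hcε',
      irr_orthonormal (hεirr ξ hξ) (hε'irr ζ hζ)]
    ring
  have part1 : ∀ χ ∈ X, ∀ η ∈ Y, Cfsg.classInner (σ χ) (τ η) = 0 := by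
    intro χ hχ η hη
    rw [hI χ hχ η hη]
    by_cases h13 : ε • σ χ = ε' • τ η
    swap
    · rw [if_neg h13, mul_zero]
    exfalso
    obtain ⟨χ', hχ', hne⟩ : ∃ χ' ∈ X, χ' ≠ χ := by
      obtain ⟨a, ha, b, hb, hab⟩ := hX2
      by_cases h : a = χ
      · exact ⟨b, hb, fun h' => hab (h.trans h'.symm)⟩
      · exact ⟨a, ha, h⟩
    obtain ⟨η', hη', hne'⟩ : ∃ η' ∈ Y, η' ≠ η := by
      obtain ⟨a, ha, b, hb, hab⟩ := hY2
      by_cases h : a = η
      · exact ⟨b, hb, fun h' => hab (h.trans h'.symm)⟩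
      · exact ⟨a, ha, h⟩
    obtain ⟨m, hm, hm1⟩ := irr_one_pos (hirrX χ hχ)
    obtain ⟨m', hm', hm1'⟩ := irr_one_pos (hirrX χ' hχ')
    obtain ⟨k, hk, hk1⟩ := irr_one_pos (hirrY η hη)
    obtain ⟨k', hk', hk1'⟩ := irr_one_pos (hirrY η' hη')
    have hχm : χ ∈ Cfsg.zspan X := Submodule.subset_span hχ
    have hχm' : χ' ∈ Cfsg.zspan X := Submodule.subset_span hχ'
    have hηm : η ∈ Cfsg.zspan Y := Submodule.subset_span hη
    have hηm' : η' ∈ Cfsg.zspan Y := Submodule.subset_span hη'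
    obtain ⟨a, ha⟩ : ∃ a : N → ℂ, a = (m' : ℤ) • χ + (-(m : ℤ)) • χ' := ⟨_, rfl⟩
    obtain ⟨b, hb⟩ : ∃ b : N → ℂ, b = (k' : ℤ) • η + (-(k : ℤ)) • η' := ⟨_, rfl⟩
    have haX : a ∈ Cfsg.zspan X := by
      rw [ha]
      exact Submodule.add_mem _ (Submodule.smul_mem _ _ hχm) (Submodule.smul_mem _ _ hχm')
    have hbY : b ∈ Cfsg.zspan Y := by
      rw [hb]
      exact Submodule.add_mem _ (Submodule.smul_mem _ _ hηm) (Submodule.smul_mem _ _ hηm')
    have ha1 : a 1 = 0 := by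
      rw [ha]
      simp only [Pi.add_apply, Pi.smul_apply]
      simp only [hm1, hm1', zsmul_eq_mul]
      push_cast
      ring
    have hb1 : b 1 = 0 := by
      rw [hb]
      simp only [Pi.add_apply, Pi.smul_apply]
      simp only [hk1, hk1', zsmul_eq_mul]
      push_cast
      ring
    have haon := mem_on X haX ha1
    have hbon := mem_on Y hbY hb1
    have hσa : σ a = (m' : ℤ) • σ χ + (-(m : ℤ)) • σ χ' := by
      rw [ha, σadd _ (Submodule.smul_mem _ _ hχm) _ (Submodule.smul_mem _ _ hχm'),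
        σsmul _ hχm, σsmul _ hχm']
    have hτb : τ b = (k' : ℤ) • τ η + (-(k : ℤ)) • τ η' := by
      rw [hb, τadd _ (Submodule.smul_mem _ _ hηm) _ (Submodule.smul_mem _ _ hηm'),
        τsmul _ hηm, τsmul _ hηm']
    have hE : Cfsg.classInner (σ a) (τ b) = 0 := by
      rw [hσα a haon, hτα b hbon, αinner a (hXon a haon) b (hYon b hbon), ha, hb, inner_comb,
        irr_inner_ne (hirrX χ hχ) (hirrY η hη) (hneXY χ hχ η hη),
        irr_inner_ne (hirrX χ hχ) (hirrY η' hη') (hneXY χ hχ η' hη'),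
        irr_inner_ne (hirrX χ' hχ') (hirrY η hη) (hneXY χ' hχ' η hη),
        irr_inner_ne (hirrX χ' hχ') (hirrY η' hη') (hneXY χ' hχ' η' hη')]
      ring
    rw [hσa, hτb, inner_comb, hI χ hχ η hη, hI χ hχ η' hη', hI χ' hχ' η hη, hI χ' hχ' η' hη',
      if_pos h13] at hE
    have h14 : ¬ (ε • σ χ = ε' • τ η') := by
      intro h
      have h2 : ε' • τ η = ε' • τ η' := h13.symm.trans h
      have h' := smul_right_injective (G → ℂ) hε'0 h2
      exact hne' (hτinj η hη η' hη' h').symm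
    have h23 : ¬ (ε • σ χ' = ε' • τ η) := by
      intro h
      have h2 : ε • σ χ' = ε • σ χ := h.trans h13.symm
      have h' := smul_right_injective (G → ℂ) hε0 h2
      exact hne (hσinj χ' hχ' χ hχ h')
    rw [if_neg h14, if_neg h23] at hE
    have hεε' : ε * ε' ≠ 0 := mul_ne_zero hε0 hε'0
    by_cases h24 : ε • σ χ' = ε' • τ η'
    · rw [if_pos h24] at hE
      have h5 : (ε * ε') * (((m' * k' + m * k : ℕ)) : ℂ) = 0 := by
        push_cast at hE ⊢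
        linear_combination hE
      rcases mul_eq_zero.mp h5 with h | h
      · exact hεε' h
      · have h6 : m' * k' + m * k = 0 := by exact_mod_cast h
        have h7 : 0 < m' * k' := Nat.mul_pos hm' hk'
        omega
    · rw [if_neg h24] at hE
      have h5 : (ε * ε') * (((m' * k' : ℕ)) : ℂ) = 0 := by
        push_cast at hE ⊢
        linear_combination hE
      rcases mul_eq_zero.mp h5 with h | h
      · exact hεε' h
      · have h6 : m' * k' = 0 := by exact_mod_cast h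
        have h7 : 0 < m' * k' := Nat.mul_pos hm' hk'
        omega
  refine ⟨part1, ?_⟩
  rintro ⟨χ₀, hχ₀, η₀, hη₀, hα0⟩
  have _fi : Fintype (Cfsg.IrrCharacter N) := Fintype.ofFinite _
  obtain ⟨v, hvdef⟩ : ∃ v : Cfsg.IrrCharacter N → (G → ℂ), v = fun ξ : Cfsg.IrrCharacter N =>
      if ξ.1 ∈ X then σ ξ.1 else if ξ.1 ∈ Y then τ ξ.1 else 0 := ⟨_, rfl⟩
  obtain ⟨T, hTdef⟩ : ∃ T : (N → ℂ) → (G → ℂ), T = fun f =>
      ∑ ξ : Cfsg.IrrCharacter N, Cfsg.classInner f ξ • v ξ := ⟨_, rfl⟩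
  have hvX : ∀ ξ : Cfsg.IrrCharacter N, (ξ : N → ℂ) ∈ X → v ξ = σ ξ := fun ξ h => by
    rw [hvdef]
    exact if_pos h
  have hvY : ∀ ξ : Cfsg.IrrCharacter N, (ξ : N → ℂ) ∈ Y → v ξ = τ ξ := fun ξ h => by
    rw [hvdef]
    show (if (ξ : N → ℂ) ∈ X then σ ξ else if (ξ : N → ℂ) ∈ Y then τ ξ else 0) = τ ξ
    rw [if_neg (fun h' => hdis _ h' h), if_pos h]
  have hv0 : ∀ ξ : Cfsg.IrrCharacter N, (ξ : N → ℂ) ∉ X → (ξ : N → ℂ) ∉ Y → v ξ = 0 :=
    fun ξ h h' => by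
      rw [hvdef]
      show (if (ξ : N → ℂ) ∈ X then σ ξ else if (ξ : N → ℂ) ∈ Y then τ ξ else 0) = 0
      rw [if_neg h, if_neg h']
  have hT : ∀ f, T f = ∑ ξ : Cfsg.IrrCharacter N, Cfsg.classInner f ξ • v ξ := fun f => by
    rw [hTdef]
  have Tadd : ∀ f g, T (f + g) = T f + T g := by
    intro f g
    rw [hT, hT, hT, ← Finset.sum_add_distrib]
    refine Finset.sum_congr rfl (fun ξ _ => ?_)
    rw [classInner_add_left, add_smul]
  have Tsmul : ∀ (n : ℤ) f, T (n • f) = n • T f := by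
    intro n f
    rw [hT, hT, Finset.smul_sum]
    refine Finset.sum_congr rfl (fun ξ _ => ?_)
    rw [zsmul_inner_left, mul_smul, Int.cast_smul_eq_zsmul]
  have Tirr : ∀ ξ : Cfsg.IrrCharacter N, T ξ = v ξ := by
    intro ξ
    rw [hT, Finset.sum_eq_single ξ]
    · rw [irr_inner_self ξ.2, one_smul]
    · intro b _ hb
      rw [irr_inner_ne ξ.2 b.2 (fun h => hb (Subtype.ext h.symm)), zero_smul]
    · intro h
      exact absurd (Finset.mem_univ _) h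
  have T0 : T 0 = 0 := by
    have h := Tsmul 0 0
    simpa using h
  have TX : ∀ a ∈ Submodule.span ℤ X, T a = σ a := by
    intro a ha
    induction ha using Submodule.span_induction with
    | mem x h =>
      have h1 := Tirr ⟨x, hirrX x h⟩
      rw [hvX ⟨x, hirrX x h⟩ h] at h1
      exact h1
    | zero =>
      have h1 : σ 0 = 0 := by
        have h := σsmul 0 (Submodule.zero_mem _) 0
        simpa using h
      rw [h1, T0]
    | add x y hx hy ihx ihy => rw [Tadd, ihx, ihy, σadd x hx y hy]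
    | smul n x hx ih => rw [Tsmul, ih, σsmul x hx n]
  have TY : ∀ a ∈ Submodule.span ℤ Y, T a = τ a := by
    intro a ha
    induction ha using Submodule.span_induction with
    | mem x h =>
      have h1 := Tirr ⟨x, hirrY x h⟩
      rw [hvY ⟨x, hirrY x h⟩ h] at h1
      exact h1
    | zero =>
      have h1 : τ 0 = 0 := by
        have h := τsmul 0 (Submodule.zero_mem _) 0
        simpa using h
      rw [h1, T0]
    | add x y hx hy ihx ihy => rw [Tadd, ihx, ihy, τadd x hx y hy]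
    | smul n x hx ih => rw [Tsmul, ih, τsmul x hx n]
  have hirrXY : ∀ ξ ∈ X ∪ Y, Cfsg.IsIrrCharacter N ξ := by
    rintro ξ (h | h)
    · exact hirrX ξ h
    · exact hirrY ξ h
  have hvv : ∀ ξ ξ' : Cfsg.IrrCharacter N, Cfsg.classInner (v ξ) (v ξ') =
      if ξ = ξ' ∧ (ξ : N → ℂ) ∈ X ∪ Y then 1 else 0 := by
    intro ξ ξ'
    by_cases hX1 : (ξ : N → ℂ) ∈ X
    · by_cases hX2' : (ξ' : N → ℂ) ∈ X
      · rw [hvX ξ hX1, hvX ξ' hX2', σinner _ (Submodule.subset_span hX1) _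
          (Submodule.subset_span hX2'), irr_orthonormal ξ.2 ξ'.2]
        by_cases e : ξ = ξ'
        · rw [if_pos (by rw [e]), if_pos ⟨e, Or.inl hX1⟩]
        · rw [if_neg (fun h => e (Subtype.ext h)), if_neg (fun h => e h.1)]
      · by_cases hY2' : (ξ' : N → ℂ) ∈ Y
        · rw [hvX ξ hX1, hvY ξ' hY2', part1 _ hX1 _ hY2', if_neg]
          rintro ⟨rfl, -⟩
          exact hX2' hX1
        · rw [hv0 ξ' hX2' hY2', classInner_zero_right, if_neg]
          rintro ⟨rfl, -⟩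
          exact hX2' hX1
    · by_cases hY1 : (ξ : N → ℂ) ∈ Y
      · by_cases hX2' : (ξ' : N → ℂ) ∈ X
        · rw [hvY ξ hY1, hvX ξ' hX2', classInner_conj_symm, part1 _ hX2' _ hY1, map_zero, if_neg]
          rintro ⟨rfl, -⟩
          exact hX1 hX2'
        · by_cases hY2' : (ξ' : N → ℂ) ∈ Y
          · rw [hvY ξ hY1, hvY ξ' hY2', τinner _ (Submodule.subset_span hY1) _
              (Submodule.subset_span hY2'), irr_orthonormal ξ.2 ξ'.2]
            by_cases e : ξ = ξ'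
            · rw [if_pos (by rw [e]), if_pos ⟨e, Or.inr hY1⟩]
            · rw [if_neg (fun h => e (Subtype.ext h)), if_neg (fun h => e h.1)]
          · rw [hv0 ξ' hX2' hY2', classInner_zero_right, if_neg]
            rintro ⟨rfl, -⟩
            exact hY2' hY1
      · rw [hv0 ξ hX1 hY1, classInner_zero_left, if_neg]
        rintro ⟨-, h | h⟩
        · exact hX1 h
        · exact hY1 h
  have Tinner : ∀ f ∈ Cfsg.zspan (X ∪ Y), ∀ g ∈ Cfsg.zspan (X ∪ Y),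
      Cfsg.classInner (T f) (T g) = Cfsg.classInner f g := by
    intro f hf g hg
    have hcf := span_cf (X ∪ Y) hirrXY hf
    rw [parseval f g hcf, hT, hT, classInner_sum_left]
    refine Finset.sum_congr rfl (fun ξ _ => ?_)
    rw [classInner_smul_left, classInner_sum_right, Finset.sum_eq_single ξ]
    · rw [classInner_smul_right, hvv ξ ξ]
      by_cases hm : (ξ : N → ℂ) ∈ X ∪ Y
      · rw [if_pos ⟨rfl, hm⟩, mul_one, classInner_conj_symm g ξ]
      · rw [span_zero_of_not_mem (X ∪ Y) hirrXY hf ξ.2 hm, zero_mul, zero_mul]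
    · intro b _ hb
      rw [classInner_smul_right, hvv ξ b, if_neg (fun h => hb h.1.symm), mul_zero]
    · intro h
      exact absurd (Finset.mem_univ _) h
  have Tgen : ∀ f ∈ Cfsg.zspan (X ∪ Y), Cfsg.IsGeneralizedCharacter G (T f) := by
    intro f hf
    rw [hT]
    apply gen_sum
    intro ξ _
    obtain ⟨n, hn⟩ := span_int (X ∪ Y) hirrXY hf ξ.2
    rw [hn]
    apply gen_zsmul'
    by_cases hX1 : (ξ : N → ℂ) ∈ X
    · rw [hvX ξ hX1]
      exact σgen _ (Submodule.subset_span hX1)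
    · by_cases hY1 : (ξ : N → ℂ) ∈ Y
      · rw [hvY ξ hY1]
        exact τgen _ (Submodule.subset_span hY1)
      · rw [hv0 ξ hX1 hY1]
        exact gen_zero'
  have Tagree : ∀ f ∈ Cfsg.zspanOn (X ∪ Y) {1}ᶜ, T f = α f := by
    rintro f ⟨hf, hf0⟩
    have hf1 : f 1 = 0 := hf0 1 (by simp)
    have hf' : f ∈ Submodule.span ℤ X ⊔ Submodule.span ℤ Y := by
      rw [← Submodule.span_union]
      exact hf
    obtain ⟨fX, hfX, fY, hfY, rfl⟩ := Submodule.mem_sup.mp hf'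
    obtain ⟨t, ht⟩ := span_deg X hirrX hfX
    obtain ⟨t', ht'⟩ := span_deg Y hirrY hfY
    have htt : t' = -t := by
      have h1 : (t : ℂ) + (t' : ℂ) = 0 := by
        rw [← ht, ← ht']
        exact hf1
      have h2 : t + t' = 0 := by exact_mod_cast h1
      linarith
    subst htt
    obtain ⟨c, hc, hc1⟩ := irr_one_pos (hirrX χ₀ hχ₀)
    obtain ⟨e, he, he1⟩ := irr_one_pos (hirrY η₀ hη₀)
    have hχ₀m : χ₀ ∈ Submodule.span ℤ X := Submodule.subset_span hχ₀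
    have hη₀m : η₀ ∈ Submodule.span ℤ Y := Submodule.subset_span hη₀
    obtain ⟨a, ha⟩ : ∃ a : N → ℂ, a = (c : ℤ) • fX + (-t) • χ₀ := ⟨_, rfl⟩
    obtain ⟨b, hb⟩ : ∃ b : N → ℂ, b = (e : ℤ) • fY + t • η₀ := ⟨_, rfl⟩
    obtain ⟨g, hg⟩ : ∃ g : N → ℂ, g = (c : ℤ) • η₀ + (-(e : ℤ)) • χ₀ := ⟨_, rfl⟩
    have haX : a ∈ Cfsg.zspan X := by
      rw [ha]
      exact Submodule.add_mem _ (Submodule.smul_mem _ _ hfX) (Submodule.smul_mem _ _ hχ₀m)
    have hbY : b ∈ Cfsg.zspan Y := by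
      rw [hb]
      exact Submodule.add_mem _ (Submodule.smul_mem _ _ hfY) (Submodule.smul_mem _ _ hη₀m)
    have ha1 : a 1 = 0 := by
      rw [ha]
      simp only [Pi.add_apply, Pi.smul_apply]
      simp only [ht, hc1, zsmul_eq_mul]
      push_cast
      ring
    have hb1 : b 1 = 0 := by
      rw [hb]
      simp only [Pi.add_apply, Pi.smul_apply]
      simp only [ht', he1, zsmul_eq_mul]
      push_cast
      ring
    have hg1 : g 1 = 0 := by
      rw [hg]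
      simp only [Pi.add_apply, Pi.smul_apply]
      simp only [hc1, he1, zsmul_eq_mul]
      push_cast
      ring
    have hgS : g ∈ Cfsg.zspan S := by
      rw [hg]
      exact Submodule.add_mem _ (Submodule.smul_mem _ _ (Submodule.subset_span (hYS hη₀)))
        (Submodule.smul_mem _ _ (Submodule.subset_span (hXS hχ₀)))
    have haon : a ∈ Cfsg.zspanOn S {1}ᶜ := hXon a (mem_on X haX ha1)
    have hbon : b ∈ Cfsg.zspanOn S {1}ᶜ := hYon b (mem_on Y hbY hb1)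
    have hgon : g ∈ Cfsg.zspanOn S {1}ᶜ := mem_on S hgS hg1
    have hfon : fX + fY ∈ Cfsg.zspanOn S {1}ᶜ := mem_on S (hXYsub _ hf) hf1
    have hsm : ∀ (n : ℤ) (θ : N → ℂ), θ ∈ Cfsg.zspanOn S {1}ᶜ → n • θ ∈ Cfsg.zspanOn S {1}ᶜ :=
      fun n θ h => mem_on S (Submodule.smul_mem _ _ h.1)
        (by rw [Pi.smul_apply, on_one S h, smul_zero])
    have hadd' : ∀ θ θ' : N → ℂ, θ ∈ Cfsg.zspanOn S {1}ᶜ → θ' ∈ Cfsg.zspanOn S {1}ᶜ →
        θ + θ' ∈ Cfsg.zspanOn S {1}ᶜ :=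
      fun θ θ' h h' => mem_on S (Submodule.add_mem _ h.1 h'.1)
        (by rw [Pi.add_apply, on_one S h, on_one S h', add_zero])
    have hαg : α g = T g := by
      have e1 : g = χ₀ 1 • η₀ - η₀ 1 • χ₀ := by
        rw [hg]
        funext x
        simp only [Pi.add_apply, Pi.smul_apply, Pi.sub_apply]
        simp only [hc1, he1, zsmul_eq_mul, smul_eq_mul]
        push_cast
        ring
      have e2 : T g = (c : ℤ) • T η₀ + (-(e : ℤ)) • T χ₀ := by rw [hg, Tadd, Tsmul, Tsmul]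
      rw [e2, TY η₀ hη₀m, TX χ₀ hχ₀m, e1, hα0, hc1, he1]
      funext x
      simp only [Pi.add_apply, Pi.smul_apply, Pi.sub_apply]
      simp only [zsmul_eq_mul, smul_eq_mul]
      push_cast
      ring
    have hident : ((c : ℤ) * (e : ℤ)) • (fX + fY) =
        (e : ℤ) • a + ((c : ℤ) • b + (-t) • g) := by
      rw [ha, hb, hg]
      funext x
      simp only [Pi.add_apply, Pi.smul_apply]
      simp only [zsmul_eq_mul]
      push_cast
      ring
    have h1 : α (((c : ℤ) * (e : ℤ)) • (fX + fY)) = ((c : ℤ) * (e : ℤ)) • α (fX + fY) :=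
      αsmul _ hfon _
    have h2 : α ((e : ℤ) • a + ((c : ℤ) • b + (-t) • g)) =
        (e : ℤ) • α a + ((c : ℤ) • α b + (-t) • α g) := by
      rw [αadd _ (hsm _ _ haon) _ (hadd' _ _ (hsm _ _ hbon) (hsm _ _ hgon)),
        αadd _ (hsm _ _ hbon) _ (hsm _ _ hgon), αsmul _ haon, αsmul _ hbon, αsmul _ hgon]
    have h3 : T (((c : ℤ) * (e : ℤ)) • (fX + fY)) = ((c : ℤ) * (e : ℤ)) • T (fX + fY) :=
      Tsmul _ _
    have h4 : T ((e : ℤ) • a + ((c : ℤ) • b + (-t) • g)) =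
        (e : ℤ) • T a + ((c : ℤ) • T b + (-t) • T g) := by
      rw [Tadd, Tadd, Tsmul, Tsmul, Tsmul]
    have h5 : α a = T a := by rw [TX a haX, hσα a (mem_on X haX ha1)]
    have h6 : α b = T b := by rw [TY b hbY, hτα b (mem_on Y hbY hb1)]
    have h7 : ((c : ℤ) * (e : ℤ)) • T (fX + fY) = ((c : ℤ) * (e : ℤ)) • α (fX + fY) := by
      rw [← h3, ← h1, hident, h2, h4, h5, h6, hαg]
    have hce : ((c : ℤ) * (e : ℤ)) ≠ 0 :=
      mul_ne_zero (by exact_mod_cast hc.ne') (by exact_mod_cast he.ne')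
    exact smul_right_injective (G → ℂ) hce h7
  refine ⟨?_, T, ⟨fun f _ g _ => Tadd f g, fun f _ n => Tsmul n f, Tinner, Tgen⟩, Tagree⟩
  obtain ⟨χ, hχ, χ', hχ', hne⟩ := hX2
  obtain ⟨m, hm, hm1⟩ := irr_one_pos (hirrX χ hχ)
  obtain ⟨m', hm', hm1'⟩ := irr_one_pos (hirrX χ' hχ')
  refine ⟨(m' : ℤ) • χ + (-(m : ℤ)) • χ', mem_on _ ?_ ?_, ?_⟩
  · exact Submodule.add_mem _ (Submodule.smul_mem _ _ (Submodule.subset_span (Or.inl hχ)))
      (Submodule.smul_mem _ _ (Submodule.subset_span (Or.inl hχ')))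
  · simp only [Pi.add_apply, Pi.smul_apply]
    simp only [hm1, hm1', zsmul_eq_mul]
    push_cast
    ring
  · intro h0
    have h1 : Cfsg.classInner ((m' : ℤ) • χ + (-(m : ℤ)) • χ') χ = (m' : ℂ) := by
      rw [classInner_add_left, zsmul_inner_left, zsmul_inner_left, irr_inner_self (hirrX χ hχ),
        irr_inner_ne (hirrX χ' hχ') (hirrX χ hχ) (Ne.symm hne)]
      push_cast
      ring
    rw [h0, classInner_zero_left] at h1
    have h2 : (m' : ℂ) ≠ 0 := by exact_mod_cast hm'.ne'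
    exact h2 h1.symm

/-- Let N be a subgroup of the finite group G, S a set of irreducible characters of N, and α a linear isometry on the integer combinations of S vanishing at 1 with values virtual characters of G vanishing at 1. Let X, Y ⊆ S be disjoint, each with at least two members, and σ, τ linear isometries on ℤ[X], ℤ[Y] into virtual characters agreeing with α on the members vanishing at 1. Then ⟨σ χ, τ η⟩ = 0 for χ ∈ X, η ∈ Y; and if for some χ₀ ∈ X, η₀ ∈ Y with degrees c = χ₀ 1, e = η₀ 1 one has α (c • η₀ − e • χ₀) = c • τ η₀ − e • σ χ₀, then (X ∪ Y, N minus 1, α) is coherent. -/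
theorem result {G : Type*} [Group G] [Fintype G] (N : Subgroup G) [Fintype N] (S X Y : Set (N → ℂ)) (hirr : ∀ ξ ∈ S, Cfsg.IsIrrCharacter N ξ) (hXS : X ⊆ S) (hYS : Y ⊆ S) (hXY : Disjoint X Y) (hX2 : ∃ a ∈ X, ∃ b ∈ X, a ≠ b) (hY2 : ∃ a ∈ Y, ∃ b ∈ Y, a ≠ b) (α : (N → ℂ) → (G → ℂ)) (hα : Cfsg.IsLinearIsometryOn (Cfsg.zspanOn S {1}ᶜ) α) (hα1 : ∀ θ ∈ Cfsg.zspanOn S {1}ᶜ, α θ 1 = 0) (σ τ : (N → ℂ) → (G → ℂ)) (hσ : Cfsg.IsLinearIsometryOn (Cfsg.zspan X) σ) (hσα : ∀ θ ∈ Cfsg.zspanOn X {1}ᶜ, σ θ = α θ) (hτ : Cfsg.IsLinearIsometryOn (Cfsg.zspan Y) τ) (hτα : ∀ θ ∈ Cfsg.zspanOn Y {1}ᶜ, τ θ = α θ) : (∀ χ ∈ X, ∀ η ∈ Y, Cfsg.classInner (σ χ) (τ η) = 0) ∧ ((∃ χ₀ ∈ X, ∃ η₀ ∈ Y, α (χ₀ 1 • η₀ - η₀ 1 • χ₀) = χ₀ 1 • τ η₀ - η₀ 1 • σ χ₀) → Cfsg.IsCoherent (X ∪ Y) {1}ᶜ α) := by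
  exact main N S X Y hirr hXS hYS hXY hX2 hY2 α hα hα1 σ τ hσ hσα hτ hτα

end Cfsg.Agent.S1531
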