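import Cfsg.Statements.S1530
import Mathlib
import Cfsg.Agent.Lib.Helper3.Char
import Cfsg.Agent.Lib.Helper3.CharCore
import Cfsg.Agent.Lib.Helper3.CharArith
import Cfsg.Agent.Lib.Helper3.CharNormal
import Cfsg.Agent.S1515
import Cfsg.Agent.S1529
import Cfsg.Agent.S1531

set_option autoImplicit false
open Cfsg

namespace Cfsg.Agent.S1530

open Cfsg.Agent.Lib.Helper3.Char Cfsg.Agent.Lib.Helper3.CharCore Cfsg.Agent.Lib.Helper3.CharArith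
open Cfsg.Agent.Lib.Helper3.CharNormal
open Cfsg.Agent.S1531
open scoped ComplexConjugate

universe u

theorem inner_self_ofReal {L : Type u} [Group L] [Fintype L] (f : L → ℂ) :
    Cfsg.classInner f f =
      (((Nat.card L : ℝ)⁻¹ * ∑ g : L, Complex.normSq (f g) : ℝ) : ℂ) := by
  unfold Cfsg.classInner
  push_cast
  congr 1
  refine Finset.sum_congr rfl (fun g _ => ?_)
  rw [Complex.mul_conj]

theorem inner_self_eq_zero {L : Type u} [Group L] [Fintype L] (f : L → ℂ)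
    (h : Cfsg.classInner f f = 0) : f = 0 := by
  rw [inner_self_ofReal] at h
  have h1 : (Nat.card L : ℝ)⁻¹ * ∑ g : L, Complex.normSq (f g) = 0 := by exact_mod_cast h
  have hc : (Nat.card L : ℝ)⁻¹ ≠ 0 := inv_ne_zero (by exact_mod_cast Nat.card_pos.ne')
  have h2 : ∑ g : L, Complex.normSq (f g) = 0 := by
    rcases mul_eq_zero.mp h1 with h | h
    · exact absurd h hc
    · exact h
  funext g
  have h3 := (Finset.sum_eq_zero_iff_of_nonneg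
    (fun g _ => Complex.normSq_nonneg (f g))).mp h2 g (Finset.mem_univ g)
  exact Complex.normSq_eq_zero.mp h3

theorem inner_self_nonneg {L : Type u} [Group L] [Fintype L] (f : L → ℂ) :
    0 ≤ (Cfsg.classInner f f).re := by
  rw [inner_self_ofReal, Complex.ofReal_re]
  exact mul_nonneg (inv_nonneg.mpr (Nat.cast_nonneg _))
    (Finset.sum_nonneg (fun g _ => Complex.normSq_nonneg _))

theorem main {G : Type*} [Group G] [Fintype G] (N : Subgroup G) [Fintype N] (S₀ : Finset (N → ℂ)) (χ : N → ℂ) (hirr : ∀ ξ ∈ S₀, Cfsg.IsIrrCharacter N ξ) (hχ : Cfsg.IsIrrCharacter N χ) (hχS : χ ∉ S₀) (d : (N → ℂ) → ℕ) (hd : ∀ ξ ∈ insert χ S₀, ξ 1 = (d ξ : ℂ)) (τ : (N → ℂ) → (G → ℂ)) (hτ : Cfsg.IsLinearIsometryOn (Cfsg.zspanOn (↑(insert χ S₀) : Set (N → ℂ)) {1}ᶜ) τ) (hτ1 : ∀ α ∈ Cfsg.zspanOn (↑(insert χ S₀) : Set (N → ℂ)) {1}ᶜ, τ α 1 = 0) (hcoh : Cfsg.IsCoherent (↑S₀ : Set (N → ℂ))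 {1}ᶜ τ) (ψ : N → ℂ) (hψ : ψ ∈ S₀) (hdvd : d ψ ∣ d χ) (hlt : 2 * d ψ * d χ < ∑ ξ ∈ S₀, d ξ ^ 2) : Cfsg.IsCoherent (↑(insert χ S₀) : Set (N → ℂ)) {1}ᶜ τ := by
  classical
  obtain ⟨⟨f₁, hf₁, hf₁0⟩, τ₁, hτ₁, hagree⟩ := hcoh
  obtain ⟨τadd, τsmul, τinner, τgen⟩ := hτ
  obtain ⟨τ₁add, τ₁smul, τ₁inner, τ₁gen⟩ := hτ₁
  have hSsub : (↑S₀ : Set (N → ℂ)) ⊆ ↑(insert χ S₀) := by
    intro x hx
    exact Finset.mem_coe.mpr (Finset.mem_insert_of_mem (Finset.mem_coe.mp hx))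
  have hirrI : ∀ ξ ∈ (↑(insert χ S₀) : Set (N → ℂ)), Cfsg.IsIrrCharacter N ξ := by
    intro ξ hξ
    rcases Finset.mem_insert.mp (Finset.mem_coe.mp hξ) with rfl | h
    · exact hχ
    · exact hirr ξ h
  have hirr' : ∀ ξ ∈ (↑S₀ : Set (N → ℂ)), Cfsg.IsIrrCharacter N ξ :=
    fun ξ h => hirr ξ (Finset.mem_coe.mp h)
  have hmS : ∀ ξ ∈ S₀, ξ ∈ Cfsg.zspan (↑S₀ : Set (N → ℂ)) :=
    fun ξ h => Submodule.subset_span (Finset.mem_coe.mpr h)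
  have hsubI : ∀ θ, θ ∈ Cfsg.zspan (↑S₀ : Set (N → ℂ)) →
      θ ∈ Cfsg.zspan (↑(insert χ S₀) : Set (N → ℂ)) := fun θ h => Submodule.span_mono hSsub h
  have hχI : χ ∈ Cfsg.zspan (↑(insert χ S₀) : Set (N → ℂ)) :=
    Submodule.subset_span (Finset.mem_coe.mpr (Finset.mem_insert_self _ _))
  have hdχ : χ 1 = (d χ : ℂ) := hd χ (Finset.mem_insert_self _ _)
  have hdS : ∀ ξ ∈ S₀, ξ 1 = (d ξ : ℂ) := fun ξ h => hd ξ (Finset.mem_insert_of_mem h)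
  have hdpos : ∀ ξ ∈ S₀, 0 < d ξ := by
    intro ξ h
    obtain ⟨n, hn, hn'⟩ := irr_one_pos (hirr ξ h)
    have h1 : (d ξ : ℂ) = (n : ℂ) := by rw [← hdS ξ h, hn']
    have h2 : d ξ = n := by exact_mod_cast h1
    omega
  have hdχpos : 0 < d χ := by
    obtain ⟨n, hn, hn'⟩ := irr_one_pos hχ
    have h1 : (d χ : ℂ) = (n : ℂ) := by rw [← hdχ, hn']
    have h2 : d χ = n := by exact_mod_cast h1
    omega
  obtain ⟨a, ha⟩ := hdvd
  have hapos : 0 < a := by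
    rcases Nat.eq_zero_or_pos a with h | h
    · rw [h, mul_zero] at ha
      omega
    · exact h
  have hψpos := hdpos ψ hψ
  have hχψ : χ ≠ ψ := fun h => hχS (h ▸ hψ)
  have hχne : ∀ ξ ∈ S₀, χ ≠ ξ := fun ξ h e => hχS (e ▸ h)
  have hψZ : (0 : ℤ) < (d ψ : ℤ) := by exact_mod_cast hψpos
  have haZ : (1 : ℤ) ≤ (a : ℤ) := by exact_mod_cast hapos
  -- β = χ - a ψ
  obtain ⟨β, hβ⟩ : ∃ β : N → ℂ, β = (1 : ℤ) • χ + (-(a : ℤ)) • ψ := ⟨_, rfl⟩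
  have hβI : β ∈ Cfsg.zspan (↑(insert χ S₀) : Set (N → ℂ)) := by
    rw [hβ]
    exact Submodule.add_mem _ (Submodule.smul_mem _ _ hχI)
      (Submodule.smul_mem _ _ (hsubI _ (hmS ψ hψ)))
  have hβ1 : β 1 = 0 := by
    rw [hβ]
    simp only [Pi.add_apply, Pi.smul_apply]
    simp only [hdχ, hdS ψ hψ, zsmul_eq_mul, ha]
    push_cast
    ring
  have hβon := mem_on _ hβI hβ1
  obtain ⟨D, hD⟩ : ∃ D : G → ℂ, D = τ β := ⟨_, rfl⟩
  have hDgen : Cfsg.IsGeneralizedCharacter G D := by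
    rw [hD]
    exact τgen β hβon
  have hD1 : D 1 = 0 := by
    rw [hD]
    exact hτ1 β hβon
  have hDD : Cfsg.classInner D D = 1 + (a : ℂ) ^ 2 := by
    rw [hD, τinner β hβon β hβon, hβ, inner_comb, irr_inner_self hχ,
      irr_inner_self (hirr ψ hψ), irr_inner_ne hχ (hirr ψ hψ) hχψ,
      irr_inner_ne (hirr ψ hψ) hχ (Ne.symm hχψ)]
    push_cast
    ring
  have key : ∀ ξ ∈ S₀, ∃ n : ℤ, Cfsg.classInner D (τ₁ ξ) = (n : ℂ) :=
    fun ξ h => Cfsg.Agent.S1515.gen_gen_int hDgen (τ₁gen ξ (hmS ξ h))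
  choose! x hx using key
  -- the elements γ ξ = d ξ • ψ - d ψ • ξ
  obtain ⟨γ, hγ⟩ : ∃ γ : (N → ℂ) → (N → ℂ),
      γ = fun ξ => (d ξ : ℤ) • ψ + (-(d ψ : ℤ)) • ξ := ⟨_, rfl⟩
  have hγeq : ∀ ξ, γ ξ = (d ξ : ℤ) • ψ + (-(d ψ : ℤ)) • ξ := fun ξ => by rw [hγ]
  have hγS : ∀ ξ ∈ S₀, γ ξ ∈ Cfsg.zspan (↑S₀ : Set (N → ℂ)) := by
    intro ξ hξ
    rw [hγeq]
    exact Submodule.add_mem _ (Submodule.smul_mem _ _ (hmS ψ hψ))
      (Submodule.smul_mem _ _ (hmS ξ hξ))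
  have hγ1 : ∀ ξ ∈ S₀, γ ξ 1 = 0 := by
    intro ξ hξ
    rw [hγeq]
    simp only [Pi.add_apply, Pi.smul_apply]
    simp only [hdS ψ hψ, hdS ξ hξ, zsmul_eq_mul]
    push_cast
    ring
  have hγon : ∀ ξ ∈ S₀, γ ξ ∈ Cfsg.zspanOn (↑S₀ : Set (N → ℂ)) {1}ᶜ :=
    fun ξ hξ => mem_on _ (hγS ξ hξ) (hγ1 ξ hξ)
  have hγonI : ∀ ξ ∈ S₀, γ ξ ∈ Cfsg.zspanOn (↑(insert χ S₀) : Set (N → ℂ)) {1}ᶜ :=
    fun ξ hξ => mem_on _ (hsubI _ (hγS ξ hξ)) (hγ1 ξ hξ)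
  have hτ₁γ : ∀ ξ ∈ S₀, τ₁ (γ ξ) = (d ξ : ℤ) • τ₁ ψ + (-(d ψ : ℤ)) • τ₁ ξ := by
    intro ξ hξ
    rw [hγeq, τ₁add _ (Submodule.smul_mem _ _ (hmS ψ hψ)) _ (Submodule.smul_mem _ _ (hmS ξ hξ)),
      τ₁smul _ (hmS ψ hψ), τ₁smul _ (hmS ξ hξ)]
  have hR : ∀ ξ ∈ S₀, (d ψ : ℤ) * x ξ =
      (d ξ : ℤ) * (x ψ + a) - (if ξ = ψ then (a : ℤ) * d ψ else 0) := by
    intro ξ hξ
    have h1 : Cfsg.classInner D (τ₁ (γ ξ)) = Cfsg.classInner β (γ ξ) := by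
      rw [hagree (γ ξ) (hγon ξ hξ), hD, τinner β hβon (γ ξ) (hγonI ξ hξ)]
    rw [hτ₁γ ξ hξ, classInner_add_right, zsmul_inner_right, zsmul_inner_right, hx ψ hψ, hx ξ hξ,
      hβ, hγeq, inner_comb, irr_inner_ne hχ (hirr ψ hψ) hχψ,
      irr_inner_ne hχ (hirr ξ hξ) (hχne ξ hξ), irr_inner_self (hirr ψ hψ),
      irr_orthonormal (hirr ψ hψ) (hirr ξ hξ)] at h1
    by_cases e : ξ = ψ
    · rw [if_pos e, e]
      ring
    · rw [if_neg e, sub_zero]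
      rw [if_neg (Ne.symm e)] at h1
      have h3 : ((d ξ : ℤ) * x ψ + (-(d ψ : ℤ)) * x ξ : ℤ) = -(a : ℤ) * d ξ := by
        have h4 : (((d ξ : ℤ) * x ψ + (-(d ψ : ℤ)) * x ξ : ℤ) : ℂ) =
            ((-(a : ℤ) * d ξ : ℤ) : ℂ) := by
          push_cast
          push_cast at h1
          linear_combination h1
        exact_mod_cast h4
      linarith
  -- D'
  obtain ⟨D', hD'⟩ : ∃ D' : G → ℂ, D' = D - ∑ ξ ∈ S₀, (x ξ : ℂ) • τ₁ ξ := ⟨_, rfl⟩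
  have horth : ∀ ξ ∈ S₀, ∀ ξ' ∈ S₀,
      Cfsg.classInner (τ₁ ξ) (τ₁ ξ') = if ξ = ξ' then 1 else 0 := by
    intro ξ hξ ξ' hξ'
    rw [τ₁inner ξ (hmS ξ hξ) ξ' (hmS ξ' hξ'), irr_orthonormal (hirr ξ hξ) (hirr ξ' hξ')]
  have hD'orth : ∀ ξ ∈ S₀, Cfsg.classInner D' (τ₁ ξ) = 0 := by
    intro ξ hξ
    rw [hD', classInner_sub_left, classInner_sum_left, hx ξ hξ, Finset.sum_eq_single ξ]
    · rw [classInner_smul_left, horth ξ hξ ξ hξ, if_pos rfl, mul_one, sub_self]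
    · intro b hb hne
      rw [classInner_smul_left, horth b hb ξ hξ, if_neg hne, mul_zero]
    · intro h
      exact absurd hξ h
  have hD'D' : Cfsg.classInner D' D' = 1 + (a : ℂ) ^ 2 - ∑ ξ ∈ S₀, ((x ξ : ℂ)) ^ 2 := by
    have h1 : Cfsg.classInner D' (D - ∑ ξ ∈ S₀, (x ξ : ℂ) • τ₁ ξ) = Cfsg.classInner D' D := by
      rw [classInner_sub_right, classInner_sum_right, Finset.sum_eq_zero, sub_zero]
      intro ξ hξ
      rw [classInner_smul_right, hD'orth ξ hξ, mul_zero]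
    have h2 : Cfsg.classInner D' D = 1 + (a : ℂ) ^ 2 - ∑ ξ ∈ S₀, ((x ξ : ℂ)) ^ 2 := by
      rw [hD', classInner_sub_left, hDD, classInner_sum_left]
      congr 1
      refine Finset.sum_congr rfl (fun ξ hξ => ?_)
      rw [classInner_smul_left, classInner_conj_symm D (τ₁ ξ), hx ξ hξ, map_intCast]
      ring
    rw [← h2, ← h1, ← hD']
  obtain ⟨P, hP⟩ : ∃ P : ℤ, P = ∑ ξ ∈ S₀, (x ξ) ^ 2 := ⟨_, rfl⟩
  have hD'D'' : Cfsg.classInner D' D' = ((1 + (a : ℤ) ^ 2 - P : ℤ) : ℂ) := by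
    rw [hD'D', hP]
    push_cast
    ring
  have hPle : P ≤ 1 + (a : ℤ) ^ 2 := by
    have h := inner_self_nonneg D'
    rw [hD'D'', Complex.intCast_re] at h
    have h2 : (0 : ℤ) ≤ 1 + (a : ℤ) ^ 2 - P := by exact_mod_cast h
    linarith
  obtain ⟨y, hy⟩ : ∃ y : ℤ, y = x ψ + a := ⟨_, rfl⟩
  obtain ⟨sd, hsd⟩ : ∃ sd : ℤ, sd = ∑ ξ ∈ S₀, (d ξ : ℤ) ^ 2 := ⟨_, rfl⟩
  have hK : (d ψ : ℤ) ^ 2 * P =
      y ^ 2 * sd - 2 * a * y * (d ψ : ℤ) ^ 2 + (a : ℤ) ^ 2 * (d ψ : ℤ) ^ 2 := by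
    rw [hP, hsd, Finset.mul_sum, Finset.mul_sum]
    have h1 : ∀ ξ ∈ S₀, (d ψ : ℤ) ^ 2 * (x ξ) ^ 2 = y ^ 2 * (d ξ : ℤ) ^ 2 +
        (if ξ = ψ then (-2 * a * y * (d ψ : ℤ) ^ 2 + (a : ℤ) ^ 2 * (d ψ : ℤ) ^ 2) else 0) := by
      intro ξ hξ
      have hr := hR ξ hξ
      rw [← hy] at hr
      by_cases e : ξ = ψ
      · rw [if_pos e] at hr ⊢
        rw [e] at hr ⊢
        have h2 : (d ψ : ℤ) ^ 2 * (x ψ) ^ 2 = ((d ψ : ℤ) * x ψ) ^ 2 := by ring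
        rw [h2, hr]
        ring
      · rw [if_neg e] at hr ⊢
        have h2 : (d ψ : ℤ) ^ 2 * (x ξ) ^ 2 = ((d ψ : ℤ) * x ξ) ^ 2 := by ring
        rw [h2, hr]
        ring
    rw [Finset.sum_congr rfl h1, Finset.sum_add_distrib, Finset.sum_ite_eq', if_pos hψ]
    ring
  have hsd_lt : 2 * (a : ℤ) * (d ψ : ℤ) ^ 2 < sd := by
    have h : (2 * (d ψ : ℤ) * (d χ : ℤ)) < ∑ ξ ∈ S₀, (d ξ : ℤ) ^ 2 := by exact_mod_cast hlt
    have hc : (d χ : ℤ) = (d ψ : ℤ) * a := by exact_mod_cast ha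
    rw [hc] at h
    rw [hsd]
    linarith
  have hstar : y ^ 2 * sd ≤ (d ψ : ℤ) ^ 2 * (1 + 2 * a * y) := by
    have h := mul_le_mul_of_nonneg_left hPle (sq_nonneg (d ψ : ℤ))
    rw [hK] at h
    linarith
  have hτ₁ψ1 : τ₁ ψ 1 ≠ 0 := by
    obtain ⟨s, θ, hs, hθ, he⟩ := Cfsg.Agent.S1529.norm_one (τ₁gen ψ (hmS ψ hψ))
      (by rw [τ₁inner ψ (hmS ψ hψ) ψ (hmS ψ hψ), irr_inner_self (hirr ψ hψ)])
    obtain ⟨n, hn, hn'⟩ := irr_one_pos hθ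
    rw [he, Pi.smul_apply, hn', smul_eq_mul]
    have h1 : (s : ℂ) ≠ 0 := by
      rcases hs with h | h <;> rw [h] <;> norm_num
    have h2 : (n : ℂ) ≠ 0 := by exact_mod_cast hn.ne'
    exact mul_ne_zero h1 h2
  have hdψsq : (0 : ℤ) < (d ψ : ℤ) ^ 2 := by positivity
  have hy0 : y = 0 := by
    by_contra hyne
    have hy1 : y = 1 := by
      have h2 : y ^ 2 * (2 * (a : ℤ) * (d ψ : ℤ) ^ 2 + 1) ≤ y ^ 2 * sd :=
        mul_le_mul_of_nonneg_left (by linarith) (sq_nonneg y)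
      have h3 : 2 * (a : ℤ) * (d ψ : ℤ) ^ 2 * (y ^ 2 - y) + y ^ 2 ≤ (d ψ : ℤ) ^ 2 := by
        linarith
      by_contra hne1
      have h4 : 2 ≤ y ^ 2 - y := by
        rcases lt_or_gt_of_ne hyne with h | h
        · nlinarith
        · have h5 : 2 ≤ y := by omega
          nlinarith
      have h6 : (d ψ : ℤ) ^ 2 * 2 ≤ (d ψ : ℤ) ^ 2 * (y ^ 2 - y) :=
        mul_le_mul_of_nonneg_left h4 hdψsq.le
      have h7 : (d ψ : ℤ) ^ 2 * (y ^ 2 - y) ≤ (a : ℤ) * ((d ψ : ℤ) ^ 2 * (y ^ 2 - y)) :=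
        le_mul_of_one_le_left (by nlinarith) haZ
      nlinarith [sq_nonneg y]
    have hN0 : 1 + (a : ℤ) ^ 2 - P = 0 := by
      have h1 : (d ψ : ℤ) ^ 2 * (1 + (a : ℤ) ^ 2 - P) < (d ψ : ℤ) ^ 2 * 1 := by
        rw [mul_sub, hK, hy1]
        linarith
      have h2 : 1 + (a : ℤ) ^ 2 - P < 1 := lt_of_mul_lt_mul_left h1 hdψsq.le
      linarith
    have hD'0 : D' = 0 := by
      apply inner_self_eq_zero
      rw [hD'D'', hN0]
      simp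
    have hDsum : D = ∑ ξ ∈ S₀, (x ξ : ℂ) • τ₁ ξ := by
      have h := hD'
      rw [hD'0] at h
      exact sub_eq_zero.mp h.symm
    have hdeg : ∀ ξ ∈ S₀, (d ψ : ℂ) * τ₁ ξ 1 = (d ξ : ℂ) * τ₁ ψ 1 := by
      intro ξ hξ
      have h1 : τ₁ (γ ξ) 1 = 0 := by
        rw [hagree (γ ξ) (hγon ξ hξ)]
        exact hτ1 (γ ξ) (hγonI ξ hξ)
      rw [hτ₁γ ξ hξ] at h1
      simp only [Pi.add_apply, Pi.smul_apply] at h1
      simp only [zsmul_eq_mul] at h1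
      push_cast at h1
      linear_combination (-1 : ℂ) * h1
    have hsum1 : (τ₁ ψ 1) * ∑ ξ ∈ S₀, ((x ξ : ℂ) * (d ξ : ℂ)) = 0 := by
      have h1 : (d ψ : ℂ) * D 1 = 0 := by rw [hD1, mul_zero]
      have h2 : (τ₁ ψ 1) * ∑ ξ ∈ S₀, ((x ξ : ℂ) * (d ξ : ℂ)) = (d ψ : ℂ) * D 1 := by
        rw [hDsum, Finset.sum_apply, Finset.mul_sum, Finset.mul_sum]
        refine Finset.sum_congr rfl (fun ξ hξ => ?_)
        simp only [Pi.smul_apply, smul_eq_mul]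
        linear_combination (-(x ξ : ℂ)) * hdeg ξ hξ
      rw [h2, h1]
    have hpos : 0 < (d ψ : ℤ) * ∑ ξ ∈ S₀, x ξ * (d ξ : ℤ) := by
      rw [Finset.mul_sum]
      have h1 : ∀ ξ ∈ S₀, (d ψ : ℤ) * (x ξ * (d ξ : ℤ)) = y * (d ξ : ℤ) ^ 2 -
          (if ξ = ψ then (a : ℤ) * (d ψ : ℤ) ^ 2 else 0) := by
        intro ξ hξ
        have hr := hR ξ hξ
        rw [← hy] at hr
        by_cases e : ξ = ψ
        · rw [if_pos e] at hr ⊢
          rw [e] at hr ⊢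
          have h2 : (d ψ : ℤ) * (x ψ * (d ψ : ℤ)) = ((d ψ : ℤ) * x ψ) * d ψ := by ring
          rw [h2, hr]
          ring
        · rw [if_neg e] at hr ⊢
          have h2 : (d ψ : ℤ) * (x ξ * (d ξ : ℤ)) = ((d ψ : ℤ) * x ξ) * d ξ := by ring
          rw [h2, hr]
          ring
      rw [Finset.sum_congr rfl h1, Finset.sum_sub_distrib, Finset.sum_ite_eq', if_pos hψ,
        ← Finset.mul_sum, ← hsd, hy1]
      have h8 : (0 : ℤ) ≤ (a : ℤ) * (d ψ : ℤ) ^ 2 := by positivity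
      linarith
    have hne0 : (∑ ξ ∈ S₀, x ξ * (d ξ : ℤ)) ≠ 0 := by
      intro h
      rw [h, mul_zero] at hpos
      exact lt_irrefl _ hpos
    have hne0' : ∑ ξ ∈ S₀, ((x ξ : ℂ) * (d ξ : ℂ)) ≠ 0 := by
      intro h
      apply hne0
      have h' : ((∑ ξ ∈ S₀, x ξ * (d ξ : ℤ) : ℤ) : ℂ) = 0 := by
        push_cast
        exact h
      exact_mod_cast h'
    rcases mul_eq_zero.mp hsum1 with h | h
    · exact hτ₁ψ1 h
    · exact hne0' h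
  -- the good case
  have hxψ : x ψ = -(a : ℤ) := by
    rw [hy0] at hy
    linarith
  have hxξ : ∀ ξ ∈ S₀, ξ ≠ ψ → x ξ = 0 := by
    intro ξ hξ hne
    have hr := hR ξ hξ
    rw [if_neg hne, ← hy, hy0] at hr
    have h1 : (d ψ : ℤ) * x ξ = 0 := by
      rw [hr]
      ring
    rcases mul_eq_zero.mp h1 with h | h
    · exact absurd h hψZ.ne'
    · exact h
  have hsumx : ∑ ξ ∈ S₀, (x ξ : ℂ) • τ₁ ξ = (-(a : ℂ)) • τ₁ ψ := by
    rw [Finset.sum_eq_single ψ]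
    · rw [hxψ]
      push_cast
      rfl
    · intro b hb hne
      rw [hxξ b hb hne]
      simp
    · intro h
      exact absurd hψ h
  have hDeq : D = D' + (-(a : ℂ)) • τ₁ ψ := by
    rw [hD', hsumx]
    abel
  have hP' : P = (a : ℤ) ^ 2 := by
    rw [hP, Finset.sum_eq_single ψ]
    · rw [hxψ]
      ring
    · intro b hb hne
      rw [hxξ b hb hne]
      ring
    · intro h
      exact absurd hψ h
  have hD'1 : Cfsg.classInner D' D' = 1 := by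
    rw [hD'D'', hP']
    simp
  have hD'gen : Cfsg.IsGeneralizedCharacter G D' := by
    have h1 : D' = D + ((a : ℤ) : ℂ) • τ₁ ψ := by
      rw [hDeq]
      funext g
      simp only [Pi.add_apply, Pi.smul_apply, smul_eq_mul]
      push_cast
      ring
    rw [h1]
    exact gen_add' hDgen (gen_zsmul' (τ₁gen ψ (hmS ψ hψ)) a)
  -- the extension
  have _fi : Fintype (Cfsg.IrrCharacter N) := Fintype.ofFinite _
  obtain ⟨w, hwdef⟩ : ∃ w : Cfsg.IrrCharacter N → (G → ℂ), w = fun ξ : Cfsg.IrrCharacter N =>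
      if ξ.1 = χ then D' else if ξ.1 ∈ S₀ then τ₁ ξ.1 else 0 := ⟨_, rfl⟩
  obtain ⟨T, hTdef⟩ : ∃ T : (N → ℂ) → (G → ℂ), T = fun f =>
      ∑ ξ : Cfsg.IrrCharacter N, Cfsg.classInner f ξ • w ξ := ⟨_, rfl⟩
  have hwχ : ∀ ξ : Cfsg.IrrCharacter N, ξ.1 = χ → w ξ = D' := fun ξ h => by
    rw [hwdef]
    exact if_pos h
  have hwS : ∀ ξ : Cfsg.IrrCharacter N, ξ.1 ∈ S₀ → w ξ = τ₁ ξ.1 := fun ξ h => by
    rw [hwdef]
    show (if ξ.1 = χ then D' else if ξ.1 ∈ S₀ then τ₁ ξ.1 else 0) = τ₁ ξ.1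
    rw [if_neg (fun e : ξ.1 = χ => hχS (e ▸ h)), if_pos h]
  have hw0 : ∀ ξ : Cfsg.IrrCharacter N, ξ.1 ≠ χ → ξ.1 ∉ S₀ → w ξ = 0 := fun ξ h h' => by
    rw [hwdef]
    show (if ξ.1 = χ then D' else if ξ.1 ∈ S₀ then τ₁ ξ.1 else 0) = 0
    rw [if_neg h, if_neg h']
  have hT : ∀ f, T f = ∑ ξ : Cfsg.IrrCharacter N, Cfsg.classInner f ξ • w ξ := fun f => by
    rw [hTdef]
  have Tadd : ∀ f g, T (f + g) = T f + T g := by
    intro f g
    rw [hT, hT, hT, ← Finset.sum_add_distrib]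
    refine Finset.sum_congr rfl (fun ξ _ => ?_)
    rw [classInner_add_left, add_smul]
  have Tsmul : ∀ (n : ℤ) f, T (n • f) = n • T f := by
    intro n f
    rw [hT, hT, Finset.smul_sum]
    refine Finset.sum_congr rfl (fun ξ _ => ?_)
    rw [zsmul_inner_left, mul_smul, Int.cast_smul_eq_zsmul]
  have Tirr : ∀ ξ : Cfsg.IrrCharacter N, T ξ = w ξ := by
    intro ξ
    rw [hT, Finset.sum_eq_single ξ]
    · rw [irr_inner_self ξ.2, one_smul]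
    · intro b _ hb
      rw [irr_inner_ne ξ.2 b.2 (fun h => hb (Subtype.ext h.symm)), zero_smul]
    · intro h
      exact absurd (Finset.mem_univ _) h
  have T0 : T 0 = 0 := by
    have h := Tsmul 0 0
    simpa using h
  have TS : ∀ f ∈ Submodule.span ℤ (↑S₀ : Set (N → ℂ)), T f = τ₁ f := by
    intro f hf
    induction hf using Submodule.span_induction with
    | mem z h =>
      have h1 := Tirr ⟨z, hirr' z h⟩
      rw [hwS ⟨z, hirr' z h⟩ (Finset.mem_coe.mp h)] at h1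
      exact h1
    | zero =>
      have h1 : τ₁ 0 = 0 := by
        have h := τ₁smul 0 (Submodule.zero_mem _) 0
        simpa using h
      rw [h1, T0]
    | add u v hu hv ihu ihv => rw [Tadd, ihu, ihv, τ₁add u hu v hv]
    | smul n u hu ih => rw [Tsmul, ih, τ₁smul u hu n]
  have Tχ : T χ = D' := by
    have h1 := Tirr ⟨χ, hχ⟩
    rw [hwχ ⟨χ, hχ⟩ rfl] at h1
    exact h1
  have hww : ∀ ξ ξ' : Cfsg.IrrCharacter N, Cfsg.classInner (w ξ) (w ξ') =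
      if ξ = ξ' ∧ ξ.1 ∈ (↑(insert χ S₀) : Set (N → ℂ)) then 1 else 0 := by
    intro ξ ξ'
    by_cases h1 : ξ.1 = χ
    · by_cases h1' : ξ'.1 = χ
      · rw [hwχ ξ h1, hwχ ξ' h1', hD'1, if_pos]
        exact ⟨Subtype.ext (h1.trans h1'.symm), by
          rw [h1]
          exact Finset.mem_coe.mpr (Finset.mem_insert_self _ _)⟩
      · by_cases h2' : ξ'.1 ∈ S₀
        · rw [hwχ ξ h1, hwS ξ' h2', hD'orth _ h2', if_neg]
          rintro ⟨rfl, -⟩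
          exact h1' h1
        · rw [hw0 ξ' h1' h2', classInner_zero_right, if_neg]
          rintro ⟨rfl, -⟩
          exact h1' h1
    · by_cases h2 : ξ.1 ∈ S₀
      · by_cases h1' : ξ'.1 = χ
        · rw [hwS ξ h2, hwχ ξ' h1', classInner_conj_symm, hD'orth _ h2, map_zero, if_neg]
          rintro ⟨rfl, -⟩
          exact h1 h1'
        · by_cases h2' : ξ'.1 ∈ S₀
          · rw [hwS ξ h2, hwS ξ' h2', horth _ h2 _ h2']
            by_cases e : ξ = ξ'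
            · rw [if_pos (by rw [e]),
                if_pos ⟨e, Finset.mem_coe.mpr (Finset.mem_insert_of_mem h2)⟩]
            · rw [if_neg (fun h => e (Subtype.ext h)), if_neg (fun h => e h.1)]
          · rw [hw0 ξ' h1' h2', classInner_zero_right, if_neg]
            rintro ⟨rfl, -⟩
            exact h2' h2
      · rw [hw0 ξ h1 h2, classInner_zero_left, if_neg]
        rintro ⟨-, h⟩
        rcases Finset.mem_insert.mp (Finset.mem_coe.mp h) with h | h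
        · exact h1 h
        · exact h2 h
  have Tinner : ∀ f ∈ Cfsg.zspan (↑(insert χ S₀) : Set (N → ℂ)),
      ∀ g ∈ Cfsg.zspan (↑(insert χ S₀) : Set (N → ℂ)),
      Cfsg.classInner (T f) (T g) = Cfsg.classInner f g := by
    intro f hf g hg
    have hcf := span_cf _ hirrI hf
    rw [parseval f g hcf, hT, hT, classInner_sum_left]
    refine Finset.sum_congr rfl (fun ξ _ => ?_)
    rw [classInner_smul_left, classInner_sum_right, Finset.sum_eq_single ξ]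
    · rw [classInner_smul_right, hww ξ ξ]
      by_cases hm : ξ.1 ∈ (↑(insert χ S₀) : Set (N → ℂ))
      · rw [if_pos ⟨rfl, hm⟩, mul_one, classInner_conj_symm g ξ]
      · rw [span_zero_of_not_mem _ hirrI hf ξ.2 hm, zero_mul, zero_mul]
    · intro b _ hb
      rw [classInner_smul_right, hww ξ b, if_neg (fun h => hb h.1.symm), mul_zero]
    · intro h
      exact absurd (Finset.mem_univ _) h
  have Tgen : ∀ f ∈ Cfsg.zspan (↑(insert χ S₀) : Set (N → ℂ)),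
      Cfsg.IsGeneralizedCharacter G (T f) := by
    intro f hf
    rw [hT]
    apply gen_sum
    intro ξ _
    obtain ⟨n, hn⟩ := span_int _ hirrI hf ξ.2
    rw [hn]
    apply gen_zsmul'
    by_cases h1 : ξ.1 = χ
    · rw [hwχ ξ h1]
      exact hD'gen
    · by_cases h2 : ξ.1 ∈ S₀
      · rw [hwS ξ h2]
        exact τ₁gen _ (hmS _ h2)
      · rw [hw0 ξ h1 h2]
        exact gen_zero'
  have Tagree : ∀ f ∈ Cfsg.zspanOn (↑(insert χ S₀) : Set (N → ℂ)) {1}ᶜ, T f = τ f := by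
    rintro f ⟨hf, hf0⟩
    have hf1 : f 1 = 0 := hf0 1 (by simp)
    have hf' : f ∈ Submodule.span ℤ {χ} ⊔ Submodule.span ℤ (↑S₀ : Set (N → ℂ)) := by
      rw [← Submodule.span_insert, ← Finset.coe_insert]
      exact hf
    obtain ⟨f₁', hf₁', f₀, hf₀, rfl⟩ := Submodule.mem_sup.mp hf'
    obtain ⟨n, rfl⟩ := Submodule.mem_span_singleton.mp hf₁'
    obtain ⟨t, ht⟩ := span_deg _ hirr' hf₀
    have hnt : ((n : ℤ) : ℂ) * (d χ : ℂ) + (t : ℂ) = 0 := by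
      rw [← ht, ← hdχ]
      have h := hf1
      simp only [Pi.add_apply, Pi.smul_apply] at h
      simp only [zsmul_eq_mul] at h
      exact h
    obtain ⟨f₂, hf₂⟩ : ∃ f₂ : N → ℂ, f₂ = f₀ + (n * (a : ℤ)) • ψ := ⟨_, rfl⟩
    have hf₂S : f₂ ∈ Cfsg.zspan (↑S₀ : Set (N → ℂ)) := by
      rw [hf₂]
      exact Submodule.add_mem _ hf₀ (Submodule.smul_mem _ _ (hmS ψ hψ))
    have hf₂1 : f₂ 1 = 0 := by
      rw [hf₂]
      simp only [Pi.add_apply, Pi.smul_apply]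
      simp only [ht, hdS ψ hψ, zsmul_eq_mul]
      have h2 := hnt
      rw [ha] at h2
      push_cast at h2 ⊢
      linear_combination h2
    have hf₂on := mem_on _ hf₂S hf₂1
    have hf₂onI : f₂ ∈ Cfsg.zspanOn (↑(insert χ S₀) : Set (N → ℂ)) {1}ᶜ :=
      mem_on _ (hsubI _ hf₂S) hf₂1
    have hsplit : n • χ + f₀ = n • β + f₂ := by
      rw [hβ, hf₂]
      funext g
      simp only [Pi.add_apply, Pi.smul_apply]
      simp only [zsmul_eq_mul]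
      push_cast
      ring
    have hnβon : n • β ∈ Cfsg.zspanOn (↑(insert χ S₀) : Set (N → ℂ)) {1}ᶜ :=
      mem_on _ (Submodule.smul_mem _ _ hβI) (by rw [Pi.smul_apply, hβ1, smul_zero])
    have hTβ : T β = D := by
      rw [hβ, Tadd, Tsmul, Tsmul, Tχ, TS ψ (hmS ψ hψ), hDeq]
      funext g
      simp only [Pi.add_apply, Pi.smul_apply]
      simp only [zsmul_eq_mul, smul_eq_mul]
      push_cast
      ring
    rw [hsplit, Tadd, Tsmul, hTβ, TS f₂ hf₂S, hagree f₂ hf₂on, τadd _ hnβon _ hf₂onI,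
      τsmul β hβon n, ← hD]
  refine ⟨?_, T, ⟨fun f _ g _ => Tadd f g, fun f _ n => Tsmul n f, Tinner, Tgen⟩, Tagree⟩
  exact ⟨f₁, ⟨hsubI _ hf₁.1, hf₁.2⟩, hf₁0⟩

/-- Let N be a subgroup of the finite group G and S₀ a finite set of irreducible characters of N, χ an irreducible character of N not in S₀, with degrees ξ 1 = d ξ. Let τ be a linear isometry on the integer combinations of S₀ ∪ {χ} vanishing at 1, with values virtual characters of G vanishing at 1, such that (S₀, N minus 1, τ) is coherent. If some ψ ∈ S₀ has d ψ dividing d χ and 2 · d ψ · d χ < Σ_{ξ ∈ S₀} (d ξ)², then (S₀ ∪ {χ}, N minus 1, τ) is coherent. -/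
theorem result {G : Type*} [Group G] [Fintype G] (N : Subgroup G) [Fintype N] (S₀ : Finset (N → ℂ)) (χ : N → ℂ) (hirr : ∀ ξ ∈ S₀, Cfsg.IsIrrCharacter N ξ) (hχ : Cfsg.IsIrrCharacter N χ) (hχS : χ ∉ S₀) (d : (N → ℂ) → ℕ) (hd : ∀ ξ ∈ insert χ S₀, ξ 1 = (d ξ : ℂ)) (τ : (N → ℂ) → (G → ℂ)) (hτ : Cfsg.IsLinearIsometryOn (Cfsg.zspanOn (↑(insert χ S₀) : Set (N → ℂ)) {1}ᶜ) τ) (hτ1 : ∀ α ∈ Cfsg.zspanOn (↑(insert χ S₀) : Set (N → ℂ)) {1}ᶜ, τ α 1 = 0) (hcoh : Cfsg.IsCoherent (↑S₀ : Set (N → ℂ)) {1}ᶜ τ) (ψ : N → ℂ) (hψ : ψ ∈ S₀) (hdvd : d ψ ∣ d χ) (hlt : 2 * d ψ * d χ < ∑ ξ ∈ S₀, d ξ ^ 2) : Cfsg.IsCoherent (↑(insert χ S₀) : Set (N → ℂ)) {1}ᶜ τ := by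
  exact main N S₀ χ hirr hχ hχS d hd τ hτ hτ1 hcoh ψ hψ hdvd hlt

end Cfsg.Agent.S1530
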