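import Cfsg.Statements.S1536
import Mathlib
import Cfsg.Agent.Lib.Helper3.CharStab
import Cfsg.Agent.S0173

set_option autoImplicit false
open Cfsg

namespace Cfsg.Agent.S1536

open Cfsg.Agent.Lib.Helper3.CharStab

theorem main {M : Type*} [Group M] [Finite M] (H : Subgroup M) [hN : H.Normal] (x : M) :
    (∃ θ : H → ℂ, Cfsg.IsIrrCharacter H θ ∧ θ ≠ (fun _ => 1) ∧
      (fun h : H => θ ⟨x * h * x⁻¹, hN.conj_mem h h.2 x⟩) = θ) ↔
    ∃ h ∈ H, h ≠ 1 ∧ x * h = h * x := by
  have hα : ∀ h : H, (MulAut.conjNormal x : H ≃* H) h = ⟨x * h * x⁻¹, hN.conj_mem h h.2 x⟩ :=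
    fun h => Subtype.ext (MulAut.conjNormal_apply x h)
  constructor
  · rintro ⟨θ, hθ, hne, hfix⟩
    by_contra hcon
    push_neg at hcon
    apply hne
    apply eq_one_of_fixed (MulAut.conjNormal x : H ≃* H) ?_ θ hθ ?_
    · intro k u hku
      by_contra hk1
      -- the map g ↦ g x g⁻¹ x⁻¹ on H is injective, hence surjective
      have hmem : ∀ g : H, (g : M) * x * (g : M)⁻¹ * x⁻¹ ∈ H := by
        intro g
        have h1 : x * (g : M)⁻¹ * x⁻¹ ∈ H := hN.conj_mem _ (H.inv_mem g.2) x
        have h2 : (g : M) * x * (g : M)⁻¹ * x⁻¹ = (g : M) * (x * (g : M)⁻¹ * x⁻¹) := by group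
        rw [h2]
        exact H.mul_mem g.2 h1
      have hinj : Function.Injective (fun g : H => (⟨(g : M) * x * (g : M)⁻¹ * x⁻¹, hmem g⟩ : H)) := by
        intro g g' hgg
        have h1 : (g : M) * x * (g : M)⁻¹ * x⁻¹ = (g' : M) * x * (g' : M)⁻¹ * x⁻¹ :=
          congrArg Subtype.val hgg
        have h2 : (g : M) * x * (g : M)⁻¹ = (g' : M) * x * (g' : M)⁻¹ := mul_right_cancel h1
        have h3 : x * ((g' : M)⁻¹ * (g : M)) = ((g' : M)⁻¹ * (g : M)) * x := by
          calc x * ((g' : M)⁻¹ * (g : M))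
              = (g' : M)⁻¹ * ((g' : M) * x * (g' : M)⁻¹) * (g : M) := by group
            _ = (g' : M)⁻¹ * ((g : M) * x * (g : M)⁻¹) * (g : M) := by rw [h2]
            _ = ((g' : M)⁻¹ * (g : M)) * x := by group
        have h4 : (g' : M)⁻¹ * (g : M) = 1 := by
          by_contra h5
          exact hcon _ (H.mul_mem (H.inv_mem g'.2) g.2) h5 h3
        apply Subtype.ext
        rw [inv_mul_eq_one] at h4
        exact h4.symm
      have hsurj := Finite.surjective_of_injective hinj
      obtain ⟨g, hg⟩ := hsurj u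
      have e1 : (g : M) * x * (g : M)⁻¹ * x⁻¹ = (u : M) := congrArg Subtype.val hg
      have e2 : (u : M) * (x * (k : M) * x⁻¹) * (u : M)⁻¹ = (k : M) := by
        have h1 := congrArg Subtype.val hku
        rw [hα] at h1
        exact h1
      rw [← e1] at e2
      have e3 : x * ((g : M)⁻¹ * (k : M) * (g : M)) * x⁻¹ = (g : M)⁻¹ * (k : M) * (g : M) := by
        calc x * ((g : M)⁻¹ * (k : M) * (g : M)) * x⁻¹
            = (g : M)⁻¹ * (((g : M) * x * (g : M)⁻¹ * x⁻¹) * (x * (k : M) * x⁻¹) *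
                ((g : M) * x * (g : M)⁻¹ * x⁻¹)⁻¹) * (g : M) := by group
          _ = (g : M)⁻¹ * (k : M) * (g : M) := by rw [e2]
      have e4 : x * ((g : M)⁻¹ * (k : M) * (g : M)) = ((g : M)⁻¹ * (k : M) * (g : M)) * x := by
        calc x * ((g : M)⁻¹ * (k : M) * (g : M))
            = (x * ((g : M)⁻¹ * (k : M) * (g : M)) * x⁻¹) * x := by group
          _ = ((g : M)⁻¹ * (k : M) * (g : M)) * x := by rw [e3]
      have e5 : (g : M)⁻¹ * (k : M) * (g : M) ≠ 1 := by
        intro h
        apply hk1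
        apply Subtype.ext
        have h1 : (k : M) = (g : M) * ((g : M)⁻¹ * (k : M) * (g : M)) * (g : M)⁻¹ := by group
        rw [h1, h, mul_one, mul_inv_cancel]
        rfl
      exact hcon _ (H.mul_mem (H.mul_mem (H.inv_mem g.2) k.2) g.2) e5 e4
    · funext h
      show θ ((MulAut.conjNormal x : H ≃* H) h) = θ h
      rw [hα]
      exact congrFun hfix h
  · rintro ⟨h, hH, hne, hcomm⟩
    by_contra hcon
    push_neg at hcon
    have hcard := Cfsg.Agent.S0173.result (MulAut.conjNormal x : H ≃* H)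
    have hsub : Subsingleton {χ : Cfsg.IrrCharacter H //
        (χ : H → ℂ) ∘ (MulAut.conjNormal x : H ≃* H) = (χ : H → ℂ)} := by
      have key : ∀ a : {χ : Cfsg.IrrCharacter H //
          (χ : H → ℂ) ∘ (MulAut.conjNormal x : H ≃* H) = (χ : H → ℂ)},
          (a.1 : H → ℂ) = fun _ => 1 := by
        intro a
        by_contra hne'
        apply hcon a.1.1 a.1.2 hne'
        funext k
        have h1 := congrFun a.2 k
        show a.1.1 ⟨x * k * x⁻¹, hN.conj_mem k k.2 x⟩ = a.1.1 k
        rw [← hα k]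
        exact h1
      refine ⟨fun a b => Subtype.ext (Subtype.ext ?_)⟩
      rw [key a, key b]
    have hle : Nat.card {C : ConjClasses H //
        ConjClasses.map (MulAut.conjNormal x : H ≃* H).toMonoidHom C = C} ≤ 1 := by
      rw [hcard]
      exact Finite.card_le_one_iff_subsingleton.mpr hsub
    have hsub2 := Finite.card_le_one_iff_subsingleton.mp hle
    have f1 : ConjClasses.map (MulAut.conjNormal x : H ≃* H).toMonoidHom (ConjClasses.mk 1) =
        ConjClasses.mk 1 := by
      show ConjClasses.mk ((MulAut.conjNormal x : H ≃* H) 1) = ConjClasses.mk 1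
      rw [map_one]
    have f2 : ConjClasses.map (MulAut.conjNormal x : H ≃* H).toMonoidHom
        (ConjClasses.mk (⟨h, hH⟩ : H)) = ConjClasses.mk (⟨h, hH⟩ : H) := by
      show ConjClasses.mk ((MulAut.conjNormal x : H ≃* H) ⟨h, hH⟩) = ConjClasses.mk (⟨h, hH⟩ : H)
      congr 1
      rw [hα]
      apply Subtype.ext
      show x * h * x⁻¹ = h
      rw [hcomm, mul_inv_cancel_right]
    have h6 := hsub2.elim ⟨ConjClasses.mk 1, f1⟩ ⟨ConjClasses.mk (⟨h, hH⟩ : H), f2⟩
    have h7 : ConjClasses.mk (1 : H) = ConjClasses.mk (⟨h, hH⟩ : H) := congrArg Subtype.val h6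
    rw [ConjClasses.mk_eq_mk_iff_isConj, isConj_iff] at h7
    obtain ⟨c, hc⟩ := h7
    apply hne
    have h8 : (⟨h, hH⟩ : H) = 1 := by
      rw [← hc, mul_one, mul_inv_cancel]
    exact congrArg Subtype.val h8

/-- Let H be a normal subgroup of the finite group M whose order is coprime to its index. For x ∈ M: some non-principal irreducible character of H is unchanged under h ↦ θ(x h x⁻¹) if and only if some non-identity element of H commutes with x. -/
theorem result {M : Type*} [Group M] [Finite M] (H : Subgroup M) [hN : H.Normal] (hHall : Nat.Coprime (Nat.card H) H.index) (x : M) : (∃ θ : H → ℂ, Cfsg.IsIrrCharacter H θ ∧ θ ≠ (fun _ => 1) ∧ (fun h : H => θ ⟨x * h * x⁻¹, hN.conj_mem h h.2 x⟩) = θ) ↔ ∃ h ∈ H, h ≠ 1 ∧ x * h = h * x := by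
  exact main H x

end Cfsg.Agent.S1536
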