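import Mathlib
import Cfsg.Statements.S1546

set_option autoImplicit false
open Cfsg

namespace Cfsg.Agent.S1546

theorem geom_mod (p q m : ℕ) (hm : 2 ≤ m) (hpm : p % m = 1) :
    (∑ i ∈ Finset.range q, p ^ i) % m = q % m := by
  rw [Finset.sum_nat_mod]
  have h1 : ∀ i ∈ Finset.range q, p ^ i % m = 1 := by
    intro i _
    rw [Nat.pow_mod, hpm, one_pow]
    exact Nat.mod_eq_of_lt (by omega)
  rw [Finset.sum_congr rfl h1]
  simp

theorem mod_one_of_dvd_pred (q r : ℕ) (hq : 2 ≤ q) (hr : 1 ≤ r) (h : q ∣ r - 1) : r % q = 1 := by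
  obtain ⟨c, hc⟩ := h
  have h1 : r = q * c + 1 := by omega
  rw [h1, Nat.mul_add_mod]
  exact Nat.mod_eq_of_lt (by omega)

theorem result (p q : ℕ) (hp : p.Prime) (hq : q.Prime) (hp2 : p ≠ 2) (hq2 : q ≠ 2) : Odd ((p ^ q - 1) / (p - 1)) ∧ (p % q = 1 → q ∣ (p ^ q - 1) / (p - 1)) ∧ (p % q ≠ 1 → Nat.Coprime ((p ^ q - 1) / (p - 1)) (p - 1) ∧ ∀ x : ℕ, x ∣ (p ^ q - 1) / (p - 1) → x % q = 1) := by
  have hp3 : 3 ≤ p := by
    have := hp.two_le
    omega
  have hq2' : 2 ≤ q := hq.two_le
  rw [← Nat.geomSum_eq hp.two_le q]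
  have hpodd : p % 2 = 1 := by
    rcases hp.eq_two_or_odd with h | h
    · exact absurd h hp2
    · exact h
  have hqodd : q % 2 = 1 := by
    rcases hq.eq_two_or_odd with h | h
    · exact absurd h hq2
    · exact h
  have hodd : Odd (∑ i ∈ Finset.range q, p ^ i) := by
    rw [Nat.odd_iff, geom_mod p q 2 le_rfl hpodd, hqodd]
  refine ⟨hodd, ?_, ?_⟩
  · intro hpq
    apply Nat.dvd_of_mod_eq_zero
    rw [geom_mod p q q hq2' hpq, Nat.mod_self]
  · intro hpq
    have hcop : Nat.Coprime (∑ i ∈ Finset.range q, p ^ i) (p - 1) := by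
      have h1 : (∑ i ∈ Finset.range q, p ^ i) ≡ q [MOD (p - 1)] := by
        apply geom_mod p q (p - 1) (by omega)
        obtain ⟨c, hc⟩ : ∃ c, p = c + 1 := ⟨p - 1, by omega⟩
        subst hc
        rw [Nat.add_sub_cancel, Nat.add_mod, Nat.mod_self, zero_add, Nat.mod_mod]
        exact Nat.mod_eq_of_lt (by omega)
      unfold Nat.Coprime
      rw [h1.gcd_eq]
      apply (Nat.Prime.coprime_iff_not_dvd hq).mpr
      intro hdvd
      exact hpq (mod_one_of_dvd_pred q p hq2' (by omega) hdvd)
    refine ⟨hcop, ?_⟩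
    have hprime : ∀ r : ℕ, r.Prime → r ∣ (∑ i ∈ Finset.range q, p ^ i) → r % q = 1 := by
      intro r hr hrN
      have : Fact r.Prime := ⟨hr⟩
      have : Fact q.Prime := ⟨hq⟩
      have hN0 : ((∑ i ∈ Finset.range q, p ^ i : ℕ) : ZMod r) = 0 :=
        (ZMod.natCast_eq_zero_iff _ _).mpr hrN
      have hpq1 : (p : ZMod r) ^ q = 1 := by
        have h1 : ((p : ZMod r) - 1) * ∑ i ∈ Finset.range q, (p : ZMod r) ^ i = (p : ZMod r) ^ q - 1 :=
          mul_geom_sum _ _
        have h2 : (∑ i ∈ Finset.range q, (p : ZMod r) ^ i) = 0 := by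
          rw [← hN0]; push_cast; rfl
        rw [h2, mul_zero] at h1
        exact (sub_eq_zero.mp h1.symm)
      have hp1 : (p : ZMod r) ≠ 1 := by
        intro h1
        have h2 : ((p - 1 : ℕ) : ZMod r) = 0 := by
          rw [Nat.cast_sub (by omega), h1]; simp
        have h3 : r ∣ p - 1 := (ZMod.natCast_eq_zero_iff _ _).mp h2
        have h4 : r ∣ 1 := by
          have := Nat.dvd_gcd hrN h3
          rwa [hcop] at this
        exact hr.one_lt.ne' (Nat.dvd_one.mp h4)
      have hp0 : (p : ZMod r) ≠ 0 := by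
        intro h0
        rw [h0, zero_pow hq.ne_zero] at hpq1
        exact zero_ne_one hpq1
      have hord : orderOf (p : ZMod r) = q := orderOf_eq_prime hpq1 hp1
      have hdvd : q ∣ r - 1 := by
        rw [← hord]; exact ZMod.orderOf_dvd_card_sub_one hp0
      exact mod_one_of_dvd_pred q r hq2' hr.one_lt.le hdvd
    intro x
    induction x using Nat.strong_induction_on with
    | _ x ih =>
      intro hx
      by_cases hx1 : x = 1
      · subst hx1
        exact Nat.mod_eq_of_lt (by omega)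
      · have hx0 : x ≠ 0 := by
          rintro rfl
          have h0 := Nat.eq_zero_of_zero_dvd hx
          rw [h0] at hodd
          exact (Nat.not_odd_iff_even.mpr ⟨0, rfl⟩) hodd
        have hr := Nat.minFac_prime hx1
        have hrx := Nat.minFac_dvd x
        obtain ⟨y, hy⟩ := hrx
        have hyx : y ∣ x := ⟨x.minFac, by rw [mul_comm]; exact hy⟩
        have hylt : y < x := by
          have h2 := hr.two_le
          have hy0 : y ≠ 0 := by
            rintro rfl
            exact hx0 (by rw [hy, mul_zero])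
          have hy1 : 1 ≤ y := Nat.one_le_iff_ne_zero.mpr hy0
          calc y = 1 * y := (one_mul y).symm
            _ < x.minFac * y := Nat.mul_lt_mul_of_pos_right (by omega) (by omega)
            _ = x := hy.symm
        have h1 := ih y hylt (hyx.trans hx)
        have h2 := hprime x.minFac hr ((Nat.minFac_dvd x).trans hx)
        rw [hy, Nat.mul_mod, h1, h2]
        exact Nat.mod_eq_of_lt (by omega)

end Cfsg.Agent.S1546
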