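import Cfsg.Statements.S1560
import Cfsg.Agent.Lib.Helper9.GolayCount

set_option autoImplicit false
open scoped Pointwise
open Cfsg

namespace Cfsg.Agent.S1560

open Cfsg.Agent.Lib.Helper9.Leech

theorem swap_set (d : Finset GolayPt) (k : ℕ) :
    {d' : Finset GolayPt | d' ∈ dodecads ∧ (d ∩ d').card = k} =
      {o | o ∈ dodecads ∧ (o ∩ d).card = k} := by
  ext o
  simp only [Set.mem_ofPred_eq]
  rw [Finset.inter_comm]

theorem result (d : Finset Cfsg.GolayPt) (hd : d ∈ Cfsg.dodecads) : (∀ d' ∈ Cfsg.dodecads, d' ≠ d → (d ∩ d').card = 0 ∨ (d ∩ d').card = 4 ∨ (d ∩ d').card = 6 ∨ (d ∩ d').card = 8) ∧ {d' : Finset Cfsg.GolayPt | d' ∈ Cfsg.dodecads ∧ (d ∩ d').card = 4}.ncard = 495 ∧ {d' : Finset Cfsg.GolayPt | d' ∈ Cfsg.dodecads ∧ (d ∩ d').card = 6}.ncard = 1584 ∧ {d' : Finset Cfsg.GolayPt | d' ∈ Cfsg.dodecads ∧ (d ∩ d').card = 8}.ncard = 495 := by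
  refine ⟨fun d' hd' hne => dod_inter_cases d d' hd hd' hne, ?_, ?_, ?_⟩
  · rw [swap_set, dod_meet_dod d hd 4, dod_dod_4]
  · rw [swap_set, dod_meet_dod d hd 6, dod_dod_6]
  · rw [swap_set, dod_meet_dod d hd 8, dod_dod_8]

end Cfsg.Agent.S1560
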