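import Cfsg.Statements.S1567
import Cfsg.Agent.Lib.Helper9.Leech

set_option autoImplicit false
open Cfsg

namespace Cfsg.Agent.S1567

open Cfsg.Agent.Lib.Helper9.Leech

def minV : Set (GolayPt → ℤ) := {x | x ∈ leechLattice ∧ sqNorm x = 32}

def eV (i : GolayPt) : GolayPt → ℤ := fun j => if j = i then 1 else 0

theorem eV_self (i : GolayPt) : eV i i = 1 := by
  unfold eV
  rw [if_pos rfl]

theorem eV_ne (i j : GolayPt) (h : j ≠ i) : eV i j = 0 := by
  unfold eV
  rw [if_neg h]

theorem card_pt : (Finset.univ : Finset GolayPt).card = 24 := by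
  decide

theorem sum_eV (i : GolayPt) : ∑ j, eV i j = 1 := by
  unfold eV
  rw [Finset.sum_ite_eq']
  simp

theorem sum_mul_eV (y : GolayPt → ℤ) (k : GolayPt) : ∑ i, y i * eV i k = y k := by
  unfold eV
  simp

def pr (i j : GolayPt) (s : ℤ) : GolayPt → ℤ := fun k => 4 * (eV i k + s * eV j k)

theorem pr_isL (i j : GolayPt) (s : ℤ) (hs : s = 1 ∨ s = -1) : IsL (pr i j s) := by
  refine ⟨0, fun k => 2 * (eV i k + s * eV j k), ?_, ?_, ?_⟩
  · have h0 : red (fun k => 2 * (eV i k + s * eV j k)) = 0 := by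
      funext k
      exact (red_zero_iff _ k).2 (Int.mul_emod_right 2 _)
    rw [h0]
    exact Submodule.zero_mem _
  · intro k
    show 4 * (eV i k + s * eV j k) = 0 + 2 * (2 * (eV i k + s * eV j k))
    ring
  · have h1 : ∑ k, pr i j s k = 4 * (1 + s) := by
      unfold pr
      rw [← Finset.mul_sum, Finset.sum_add_distrib, ← Finset.mul_sum, sum_eV, sum_eV]
      ring
    rw [h1]
    rcases hs with rfl | rfl <;> norm_num

theorem pr_sq (i j : GolayPt) (s : ℤ) (hs : s = 1 ∨ s = -1) (hij : i ≠ j) :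
    sqNorm (pr i j s) = 32 := by
  have hp : ∀ k, pr i j s k ^ 2 = 16 * eV i k + 16 * eV j k := by
    intro k
    show (4 * (eV i k + s * eV j k)) ^ 2 = 16 * eV i k + 16 * eV j k
    by_cases h1 : k = i
    · subst h1
      rw [eV_self, eV_ne j k hij]
      ring
    · rw [eV_ne i k h1]
      by_cases h2 : k = j
      · subst h2
        rw [eV_self]
        rcases hs with rfl | rfl <;> norm_num
      · rw [eV_ne j k h2]
        ring
  unfold sqNorm
  rw [Finset.sum_congr rfl (fun k _ => hp k), Finset.sum_add_distrib, ← Finset.mul_sum,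
    ← Finset.mul_sum, sum_eV, sum_eV]
  norm_num

theorem pr_mem (i j : GolayPt) (s : ℤ) (hs : s = 1 ∨ s = -1) (hij : i ≠ j) :
    pr i j s ∈ AddSubgroup.closure minV :=
  AddSubgroup.subset_closure ⟨(mem_leechLattice_iff _).2 (pr_isL i j s hs), pr_sq i j s hs hij⟩

theorem four_mem (y : GolayPt → ℤ) (hy : (∑ j, y j) % 2 = 0) :
    (fun k => 4 * y k) ∈ AddSubgroup.closure minV := by
  obtain ⟨h2, hS⟩ : ∃ h2, ∑ j, y j = 2 * h2 := ⟨(∑ j, y j) / 2, by omega⟩
  have hdec : (fun k => 4 * y k) = ∑ i, y i • pr i none (-1)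
      + h2 • (pr none (some 0) 1 + pr none (some 0) (-1)) := by
    funext k
    rw [Pi.add_apply, Finset.sum_apply]
    have h1 : ∀ i, (y i • pr i none (-1)) k = 4 * (y i * eV i k) - 4 * eV none k * y i := by
      intro i
      show y i * (4 * (eV i k + (-1) * eV none k)) = _
      ring
    rw [Finset.sum_congr rfl (fun i _ => h1 i), Finset.sum_sub_distrib, ← Finset.mul_sum,
      ← Finset.mul_sum, sum_mul_eV, hS]
    show 4 * y k = 4 * y k - 4 * eV none k * (2 * h2) + h2 * (4 * (eV none k + 1 * eV (some 0) k)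
      + 4 * (eV none k + (-1) * eV (some 0) k))
    ring
  rw [hdec]
  refine AddSubgroup.add_mem _ (AddSubgroup.sum_mem _ (fun i _ => AddSubgroup.zsmul_mem _ ?_ _))
    (AddSubgroup.zsmul_mem _ (AddSubgroup.add_mem _ ?_ ?_) _)
  · by_cases hi : i = none
    · have h0 : pr i none (-1) = 0 := by
        funext k
        show 4 * (eV i k + (-1) * eV none k) = 0
        rw [hi]
        ring
      rw [h0]
      exact AddSubgroup.zero_mem _
    · exact pr_mem i none (-1) (Or.inr rfl) hi
  · exact pr_mem none (some 0) 1 (Or.inl rfl) (by decide)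
  · exact pr_mem none (some 0) (-1) (Or.inr rfl) (by decide)

def sg (w : GolayPt → ZMod 2) : ℤ := if w none = 0 then -1 else 1

theorem sg_cases (w : GolayPt → ZMod 2) :
    (w none = 0 ∧ lift w none = 0 ∧ sg w = -1) ∨ (w none = 1 ∧ lift w none = 1 ∧ sg w = 1) := by
  rcases lift_cases w none with ⟨h, hl⟩ | ⟨h, hl⟩
  · exact Or.inl ⟨h, hl, by unfold sg; rw [if_pos h]⟩
  · exact Or.inr ⟨h, hl, by unfold sg; rw [if_neg (by rw [h]; exact one_ne_zero)]⟩

theorem sg_zero : sg 0 = -1 := by
  unfold sg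
  exact if_pos rfl

def vV (w : GolayPt → ZMod 2) : GolayPt → ℤ :=
  fun j => 1 - 2 * lift w j + 4 * (sg w * eV none j)

theorem vV_isL (w : GolayPt → ZMod 2) (hw : w ∈ golayCode) : IsL (vV w) := by
  refine ⟨1, fun j => - lift w j + 2 * (sg w * eV none j), ?_, ?_, ?_⟩
  · have h0 : red (fun j => - lift w j + 2 * (sg w * eV none j)) = w := by
      funext j
      rcases lift_cases w j with ⟨h, hl⟩ | ⟨h, hl⟩
      · rw [h]
        refine (red_zero_iff _ j).2 ?_
        show (- lift w j + 2 * (sg w * eV none j)) % 2 = 0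
        rw [hl]
        omega
      · rw [h]
        refine (red_one_iff _ j).2 ?_
        show (- lift w j + 2 * (sg w * eV none j)) % 2 = 1
        rw [hl]
        omega
    rw [h0]
    exact hw
  · intro j
    show 1 - 2 * lift w j + 4 * (sg w * eV none j)
      = 1 + 2 * (- lift w j + 2 * (sg w * eV none j))
    ring
  · have h1 : ∑ j, vV w j = 24 - 2 * wt w + 4 * sg w := by
      unfold vV wt
      rw [Finset.sum_add_distrib, Finset.sum_sub_distrib, ← Finset.mul_sum, ← Finset.mul_sum,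
        ← Finset.mul_sum, sum_eV, Finset.sum_const, card_pt]
      simp
    rw [h1]
    have h4 := four_dvd_wt w hw
    rcases sg_cases w with ⟨_, _, hs⟩ | ⟨_, _, hs⟩ <;> rw [hs] <;> omega

theorem vV_sq (w : GolayPt → ZMod 2) : sqNorm (vV w) = 32 := by
  have hp : ∀ j, vV w j ^ 2 = 1 + 8 * eV none j := by
    intro j
    show (1 - 2 * lift w j + 4 * (sg w * eV none j)) ^ 2 = 1 + 8 * eV none j
    by_cases hj : j = none
    · subst hj
      rw [eV_self]
      rcases sg_cases w with ⟨_, hl, hs⟩ | ⟨_, hl, hs⟩ <;> rw [hl, hs] <;> norm_num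
    · rw [eV_ne none j hj]
      rcases lift_cases w j with ⟨_, hl⟩ | ⟨_, hl⟩ <;> rw [hl] <;> norm_num
  unfold sqNorm
  rw [Finset.sum_congr rfl (fun j _ => hp j), Finset.sum_add_distrib, ← Finset.mul_sum, sum_eV,
    Finset.sum_const, card_pt]
  norm_num

theorem vV_mem (w : GolayPt → ZMod 2) (hw : w ∈ golayCode) : vV w ∈ AddSubgroup.closure minV :=
  AddSubgroup.subset_closure ⟨(mem_leechLattice_iff _).2 (vV_isL w hw), vV_sq w⟩

theorem two_lift_mem (w : GolayPt → ZMod 2) (hw : w ∈ golayCode) :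
    (fun j => 2 * lift w j) ∈ AddSubgroup.closure minV := by
  have hdec : (fun j => 2 * lift w j)
      = vV 0 - vV w + (fun k => 4 * ((1 + sg w) * eV none k)) := by
    funext j
    show 2 * lift w j = (1 - 2 * lift 0 j + 4 * (sg 0 * eV none j))
      - (1 - 2 * lift w j + 4 * (sg w * eV none j)) + 4 * ((1 + sg w) * eV none j)
    rw [lift_of_zero 0 j rfl, sg_zero]
    ring
  rw [hdec]
  refine AddSubgroup.add_mem _ (AddSubgroup.sub_mem _ (vV_mem 0 (Submodule.zero_mem _))
    (vV_mem w hw)) (four_mem _ ?_)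
  rw [← Finset.mul_sum, sum_eV]
  rcases sg_cases w with ⟨_, _, hs⟩ | ⟨_, _, hs⟩ <;> rw [hs] <;> norm_num

theorem main (x : GolayPt → ℤ) (hx : x ∈ leechLattice) : x ∈ AddSubgroup.closure minV := by
  obtain ⟨m, c, hc, hxc, hs⟩ := (mem_leechLattice_iff x).1 hx
  have hd : ∀ j, c j = lift (red c) j + 2 * ((c j - lift (red c) j) / 2) := by
    intro j
    rcases lift_cases (red c) j with ⟨h, hl⟩ | ⟨h, hl⟩
    · have h1 := (red_zero_iff c j).1 h
      rw [hl]
      omega
    · have h1 := (red_one_iff c j).1 h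
      rw [hl]
      omega
  have hdec : x = m • vV 0 + (fun j => 2 * lift (red c) j)
      + (fun j => 4 * ((c j - lift (red c) j) / 2 + m * eV none j)) := by
    funext j
    show x j = m * (1 - 2 * lift 0 j + 4 * (sg 0 * eV none j)) + 2 * lift (red c) j
      + 4 * ((c j - lift (red c) j) / 2 + m * eV none j)
    rw [hxc j, lift_of_zero 0 j rfl, sg_zero]
    linear_combination 2 * hd j
  have h4 := four_dvd_wt (red c) hc
  have hsum : ∑ j, x j = 24 * m + 2 * wt (red c) + 4 * ∑ j, (c j - lift (red c) j) / 2 := by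
    have h1 : ∀ j, x j = m + (2 * lift (red c) j + 4 * ((c j - lift (red c) j) / 2)) := by
      intro j
      rw [hxc j]
      have h2 := hd j
      omega
    unfold wt
    rw [Finset.sum_congr rfl (fun j _ => h1 j), Finset.sum_add_distrib, Finset.sum_add_distrib,
      ← Finset.mul_sum, ← Finset.mul_sum, Finset.sum_const, card_pt, nsmul_eq_mul]
    push_cast
    ring
  rw [hsum] at hs
  rw [hdec]
  refine AddSubgroup.add_mem _ (AddSubgroup.add_mem _ (AddSubgroup.zsmul_mem _
    (vV_mem 0 (Submodule.zero_mem _)) m) (two_lift_mem _ hc)) (four_mem _ ?_)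
  rw [Finset.sum_add_distrib, ← Finset.mul_sum, sum_eV]
  omega

/-- The rank-24 lattice is the additive subgroup generated by its 196560 minimal vectors. -/
theorem result : AddSubgroup.closure {x : Cfsg.GolayPt → ℤ | x ∈ Cfsg.leechLattice ∧ Cfsg.sqNorm x = 32} = Cfsg.leechLattice := by
  exact le_antisymm ((AddSubgroup.closure_le _).2 (fun x hx => hx.1)) (fun x hx => main x hx)

end Cfsg.Agent.S1567
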