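import Cfsg.Statements.S1587

set_option autoImplicit false
open Matrix
open Cfsg

namespace Cfsg.Agent.S1587

/-- First step of the characterisation of the rank-24 lattice: in an even lattice without roots, norm-8 vectors congruent modulo 2 are equal, opposite or orthogonal. -/
theorem result (B : Matrix (Fin 24) (Fin 24) ℤ) (hsymm : B.IsSymm) (hpos : ∀ x : Fin 24 → ℤ, x ≠ 0 → 0 < x ⬝ᵥ (B *ᵥ x)) (heven : ∀ x : Fin 24 → ℤ, (2 : ℤ) ∣ x ⬝ᵥ (B *ᵥ x)) (h2 : ∀ x : Fin 24 → ℤ, x ⬝ᵥ (B *ᵥ x) ≠ 2) (x y : Fin 24 → ℤ) (hx : x ⬝ᵥ (B *ᵥ x) = 8) (hy : y ⬝ᵥ (B *ᵥ y) = 8) (hc : ∀ i, (2 : ℤ) ∣ (x - y) i) : y = x ∨ y = -x ∨ x ⬝ᵥ (B *ᵥ y) = 0 := by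
  have hb : ∀ v w : Fin 24 → ℤ, v ⬝ᵥ (B *ᵥ w) = w ⬝ᵥ (B *ᵥ v) := by
    intro v w
    rw [Matrix.dotProduct_mulVec, ← Matrix.mulVec_transpose, hsymm.eq, dotProduct_comm]
  have hq4 : ∀ v : Fin 24 → ℤ, ((2 : ℤ) • v) ⬝ᵥ (B *ᵥ ((2 : ℤ) • v)) = 4 * (v ⬝ᵥ (B *ᵥ v)) := by
    intro v
    rw [Matrix.mulVec_smul, dotProduct_smul, smul_dotProduct, smul_eq_mul, smul_eq_mul]
    ring
  have hsub : (x - y) ⬝ᵥ (B *ᵥ (x - y)) = 16 - 2 * (x ⬝ᵥ (B *ᵥ y)) := by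
    rw [Matrix.mulVec_sub, dotProduct_sub, sub_dotProduct, sub_dotProduct, hx, hy, hb y x]
    ring
  have hadd : (x + y) ⬝ᵥ (B *ᵥ (x + y)) = 16 + 2 * (x ⬝ᵥ (B *ᵥ y)) := by
    rw [Matrix.mulVec_add, dotProduct_add, add_dotProduct, add_dotProduct, hx, hy, hb y x]
    ring
  have hge : ∀ v : Fin 24 → ℤ, v ≠ 0 → 4 ≤ v ⬝ᵥ (B *ᵥ v) := by
    intro v hv
    have h1 := hpos v hv
    obtain ⟨k, hk⟩ := heven v
    have h3 := h2 v
    omega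
  obtain ⟨z, hz⟩ : ∃ z : Fin 24 → ℤ, x - y = (2 : ℤ) • z := by
    refine ⟨fun i => (x - y) i / 2, ?_⟩
    funext i
    simp only [Pi.smul_apply, smul_eq_mul]
    exact (Int.mul_ediv_cancel' (hc i)).symm
  have hz' : x + y = (2 : ℤ) • (z + y) := by
    rw [smul_add, ← hz]
    funext i
    simp only [Pi.add_apply, Pi.sub_apply, Pi.smul_apply, smul_eq_mul]
    ring
  by_cases h0 : z = 0
  · left
    rw [h0, smul_zero] at hz
    exact (sub_eq_zero.mp hz).symm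
  by_cases h1 : z + y = 0
  · right; left
    rw [h1, smul_zero] at hz'
    exact (eq_neg_of_add_eq_zero_right hz')
  right; right
  have e1 := hge z h0
  have e2 := hge (z + y) h1
  have e3 := hq4 z
  have e4 := hq4 (z + y)
  rw [← hz, hsub] at e3
  rw [← hz', hadd] at e4
  omega

end Cfsg.Agent.S1587
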