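import Mathlib
import Cfsg.Agent.Lib.Helper1.TGolay
import Cfsg.Statements.S1590

set_option autoImplicit false
open Cfsg

namespace Cfsg.Agent.S1590

/-- The length-12 ternary code has 729 words with weight distribution 0^1 6^264 9^440 12^24. -/
theorem result : Nat.card ↥Cfsg.ternaryGolayCode = 729 ∧ (∀ x ∈ Cfsg.ternaryGolayCode, x ≠ 0 → (Cfsg.ternarySupport x).card = 6 ∨ (Cfsg.ternarySupport x).card = 9 ∨ (Cfsg.ternarySupport x).card = 12) ∧ {x : Cfsg.ArrayPt → ZMod 3 | x ∈ Cfsg.ternaryGolayCode ∧ (Cfsg.ternarySupport x).card = 6}.ncard = 264 ∧ {x : Cfsg.ArrayPt → ZMod 3 | x ∈ Cfsg.ternaryGolayCode ∧ (Cfsg.ternarySupport x).card = 9}.ncard = 440 ∧ {x : Cfsg.ArrayPt → ZMod 3 | x ∈ Cfsg.ternaryGolayCode ∧ (Cfsg.ternarySupport x).card = 12}.ncard = 24 := by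
  obtain ⟨c6, c9, c12⟩ := Cfsg.Agent.Lib.Helper1.TG.W_counts
  refine ⟨Cfsg.Agent.Lib.Helper1.TG.card_code, ?_, ?_, ?_, ?_⟩
  · intro x hx h0
    obtain ⟨v, rfl⟩ := (Cfsg.Agent.Lib.Helper1.TG.mem_iff x).mp hx
    rcases Cfsg.Agent.Lib.Helper1.TG.W_vals v with h | h
    · exfalso
      apply h0
      rw [h]
      exact Cfsg.Agent.Lib.Helper1.TG.P_zero
    · exact h
  · exact (Cfsg.Agent.Lib.Helper1.TG.wt_ncard 6).trans c6
  · exact (Cfsg.Agent.Lib.Helper1.TG.wt_ncard 9).trans c9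
  · exact (Cfsg.Agent.Lib.Helper1.TG.wt_ncard 12).trans c12

end Cfsg.Agent.S1590
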