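import Mathlib
import Cfsg.Statements.S1591

set_option autoImplicit false
open Cfsg

namespace Cfsg.Agent.S1591

theorem word_eqs (x : Cfsg.ArrayPt → ZMod 3) (hx : x ∈ Cfsg.ternaryGolayCode) :
    ∃ s : ZMod 3,
      x (3, 0) = s - x (0, 0) - x (1, 0) - x (2, 0) ∧
      x (3, 1) = s - x (0, 0) - x (1, 1) - x (2, 1) ∧
      x (0, 1) = 4 * s - 2 * x (0, 0) - 2 * x (1, 0) - x (1, 1) - x (2, 0) - 2 * x (2, 1) ∧
      (∀ i : Fin 4, x (i, 2) = -s - x (i, 0) - x (i, 1)) := by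
  obtain ⟨s, hs, hs'⟩ := hx
  have hcol : ∀ i : Fin 4, x (i, 0) + x (i, 1) + x (i, 2) = -s := by
    intro i
    rw [← hs i]
    exact (Fin.sum_univ_three (fun r : ZMod 3 => x (i, r))).symm
  have h0 : x (0, 0) + x (1, 0) + x (2, 0) + x (3, 0) = s := by
    have h1 := hs' 0 (Submodule.zero_mem _)
    rw [Fin.sum_univ_four] at h1
    exact h1
  have ha : x (0, 0) + x (1, 1) + x (2, 1) + x (3, 1) = s := by
    have h1 := hs' ![0, 1, 1, 1] (Submodule.subset_span (by simp))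
    rw [Fin.sum_univ_four] at h1
    exact h1
  have hc : x (0, 1) + x (1, 0) + x (2, 1) + x (3, 2) = s := by
    have h1 := hs' ![1, 0, 1, 2] (Submodule.subset_span (by simp))
    rw [Fin.sum_univ_four] at h1
    exact h1
  refine ⟨s, ?_, ?_, ?_, ?_⟩
  · linear_combination h0
  · linear_combination ha
  · linear_combination hc - hcol 3 + h0 + ha
  · intro i
    linear_combination hcol i

theorem result (x y : Cfsg.ArrayPt → ZMod 3) (hx : x ∈ Cfsg.ternaryGolayCode) (hy : y ∈ Cfsg.ternaryGolayCode) : ∑ p, x p * y p = 0 := by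
  obtain ⟨s, e30, e31, e01, e2⟩ := word_eqs x hx
  obtain ⟨s', f30, f31, f01, f2⟩ := word_eqs y hy
  have h3 : (3 : ZMod 3) = 0 := by decide
  rw [Fintype.sum_prod_type, Fin.sum_univ_four]
  have h : ∀ i : Fin 4, ∑ r : ZMod 3, x (i, r) * y (i, r) =
      x (i, 0) * y (i, 0) + x (i, 1) * y (i, 1) + x (i, 2) * y (i, 2) :=
    fun i => Fin.sum_univ_three (fun r : ZMod 3 => x (i, r) * y (i, r))
  rw [h, h, h, h, e2 0, e2 1, e2 2, e2 3, f2 0, f2 1, f2 2, f2 3, e30, e31, e01, f30, f31, f01]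
  linear_combination ((18) * s * s' + (-7) * s * y (0, 0) + (-7) * s * y (1, 0) + (-4) * s * y (1, 1) + (-4) * s * y (2, 0) + (-7) * s * y (2, 1) + (-7) * s' * x (0, 0) + (-7) * s' * x (1, 0) + (-4) * s' * x (1, 1) + (-4) * s' * x (2, 0) + (-7) * s' * x (2, 1) + (4) * x (0, 0) * y (0, 0) + (3) * x (0, 0) * y (1, 0) + (2) * x (0, 0) * y (1, 1) + (2) * x (0, 0) * y (2, 0) + (3) * x (0, 0) * y (2, 1) + (3) * x (1, 0) * y (0, 0) + (4) * x (1, 0) * y (1, 0) + (2) * x (1, 0) * y (1, 1) + (2) * x (1, 0) * y (2, 0) + (3) * x (1, 0) * y (2, 1) + (2) * x (1, 1) * y (0, 0) + (2) * x (1, 1) * y (1, 0) + (2) * x (1, 1) * y (1, 1) + (1) * x (1, 1) * y (2, 0) + (2) * x (1, 1) * y (2, 1) + (2) * x (2, 0) * y (0, 0) + (2) * x (2, 0) * y (1, 0) + (1) * x (2, 0) * y (1, 1) + (2) * x (2, 0) * y (2, 0) + (2) * x (2, 0) * y (2, 1) + (3) * x (2, 1) * y (0, 0) + (3) * x (2, 1) * y (1, 0) + (2) * x (2, 1) * y (1, 1) +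 (2) * x (2, 1) * y (2, 0) + (4) * x (2, 1) * y (2, 1)) * h3

end Cfsg.Agent.S1591
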