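import Mathlib
import Cfsg.Agent.Lib.Helper1.Steiner12
import Cfsg.Statements.S1595

set_option autoImplicit false
open Cfsg

namespace Cfsg.Agent.S1595

/-- Leech triangle of S(5, 6, 12): blocks meet in 0, 2, 3 or 4 points, and a block is met exactly in a given 2-, 3- or 4-subset by 3, 2, 3 blocks respectively. -/
theorem result {α : Type*} [Fintype α] [DecidableEq α] (hα : Fintype.card α = 12) {B : Set (Finset α)} (hB : Cfsg.IsSteinerSystem 5 6 B) (b : Finset α) (hb : b ∈ B) : (∀ c ∈ B, c ≠ b → (b ∩ c).card = 0 ∨ (b ∩ c).card = 2 ∨ (b ∩ c).card = 3 ∨ (b ∩ c).card = 4) ∧ ∀ s ⊆ b, (s.card = 2 → {c : Finset α | c ∈ B ∧ b ∩ c = s}.ncard = 3) ∧ (s.card = 3 → {c : Finset α | c ∈ B ∧ b ∩ c = s}.ncard = 2) ∧ (s.card = 4 → {c : Finset α | c ∈ B ∧ b ∩ c = s}.ncard = 3) := by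
  classical
  have h1 := Cfsg.Agent.Lib.Helper1.St12.m1 hα hB b hb
  have h2 := Cfsg.Agent.Lib.Helper1.St12.m2 hα hB b hb
  have h3 := Cfsg.Agent.Lib.Helper1.St12.m3 hα hB b hb
  have h4 := Cfsg.Agent.Lib.Helper1.St12.m4 hα hB b hb
  refine ⟨?_, ?_⟩
  · intro c hc hcb
    have hlt := Cfsg.Agent.Lib.Helper1.steiner_inter_lt hB hb hc (Ne.symm hcb)
    have hne : (b ∩ c).card ≠ 1 := by
      intro h
      have h0 := h1 (b ∩ c) Finset.inter_subset_left h
      have hmem : c ∈ {c' ∈ Cfsg.Agent.Lib.Helper1.blocks B | b ∩ c' = b ∩ c} := by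
        rw [Finset.mem_filter, Cfsg.Agent.Lib.Helper1.mem_blocks]
        exact ⟨hc, rfl⟩
      have hpos := Finset.card_pos.mpr ⟨c, hmem⟩
      unfold Cfsg.Agent.Lib.Helper1.St12.mm at h0
      rw [h0] at hpos
      exact absurd hpos (by decide)
    omega
  · intro s hs
    refine ⟨fun hc => ?_, fun hc => ?_, fun hc => ?_⟩
    · rw [Cfsg.Agent.Lib.Helper1.St12.ncard_mm, h2 s hs hc]; rfl
    · rw [Cfsg.Agent.Lib.Helper1.St12.ncard_mm, h3 s hs hc]; rfl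
    · rw [Cfsg.Agent.Lib.Helper1.St12.ncard_mm, h4 s hs hc]; rfl

end Cfsg.Agent.S1595
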