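import Mathlib
import Cfsg.Agent.Lib.Helper1.HamCount
import Cfsg.Agent.Lib.Helper1.Golay23
import Cfsg.Statements.S1637

set_option autoImplicit false
open Cfsg

namespace Cfsg.Agent.S1637

theorem key' (c c' v : ZMod 23 → ZMod 2) (hc : c ∈ Cfsg.Agent.Lib.Helper1.G23.PS)
    (hc' : c' ∈ Cfsg.Agent.Lib.Helper1.G23.PS) (h1 : hammingDist v c ≤ 3)
    (h2 : hammingDist v c' ≤ 3) : c = c' := by
  by_contra hne
  have h3 := hammingDist_triangle c v c'
  rw [hammingDist_comm c v] at h3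
  have h4 : c' - c ≠ 0 := fun h => hne (sub_eq_zero.mp h).symm
  have h5 := Cfsg.Agent.Lib.Helper1.G23.PS_min (c' - c)
    (Cfsg.Agent.Lib.Helper1.G23.sub_mem_PS c' c hc' hc) h4
  rw [hammingDist_eq_hammingNorm] at h3
  have h6 : -c + c' = c' - c := by abel
  rw [h6] at h3
  omega

theorem c2048 : ∑ j ∈ Finset.range (3 + 1), (23).choose j = 2048 := by decide

theorem cpow : 4096 * 2048 = 2 ^ 23 := by norm_num

/-- The punctured length-23 code is a perfect 3-error-correcting code: each word of length 23 is within distance 3 of exactly one codeword. -/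
theorem result (u : ZMod 23 → ZMod 2) : ∃! c : ZMod 23 → ZMod 2, c ∈ {u : ZMod 23 → ZMod 2 | ∃ w ∈ Cfsg.golayCode, ∀ x : ZMod 23, u x = w (some x)} ∧ hammingDist u c ≤ 3 := by
  have key : ∀ c c' : ZMod 23 → ZMod 2, c ∈ Cfsg.Agent.Lib.Helper1.G23.PS →
      c' ∈ Cfsg.Agent.Lib.Helper1.G23.PS → hammingDist u c ≤ 3 → hammingDist u c' ≤ 3 → c = c' := by
    intro c c' hc hc' h1 h2
    by_contra hne
    have h3 := hammingDist_triangle c u c'
    rw [hammingDist_comm c u] at h3
    have h4 : c' - c ≠ 0 := fun h => hne (sub_eq_zero.mp h).symm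
    have h5 := Cfsg.Agent.Lib.Helper1.G23.PS_min (c' - c)
      (Cfsg.Agent.Lib.Helper1.G23.sub_mem_PS c' c hc' hc) h4
    rw [hammingDist_eq_hammingNorm] at h3
    have h6 : -c + c' = c' - c := by abel
    rw [h6] at h3
    omega
  obtain ⟨PF, hPF⟩ : ∃ PF : Finset (ZMod 23 → ZMod 2),
    PF = (Finset.range 4096).image Cfsg.Agent.Lib.Helper1.G23.pu := ⟨_, rfl⟩
  have hPFcard : PF.card = 4096 := by
    rw [hPF, Finset.card_image_of_injOn Cfsg.Agent.Lib.Helper1.G23.pu_injOn, Finset.card_range]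
  have hPFmem : ∀ c, c ∈ PF ↔ c ∈ Cfsg.Agent.Lib.Helper1.G23.PS := by
    intro c
    rw [Cfsg.Agent.Lib.Helper1.G23.PS_eq, Finset.mem_coe, hPF]
  set ball : (ZMod 23 → ZMod 2) → Finset (ZMod 23 → ZMod 2) :=
    fun c => Finset.univ.filter (fun v => hammingDist v c ≤ 3) with hball
  have hballcard : ∀ c, (ball c).card = 2048 := by
    intro c
    rw [hball]
    show (Finset.univ.filter (fun v : ZMod 23 → ZMod 2 => hammingDist v c ≤ 3)).card = 2048
    rw [Cfsg.Agent.Lib.Helper1.HamC.card_ball c 3, ZMod.card]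
    exact c2048
  have hdisj : (↑PF : Set (ZMod 23 → ZMod 2)).PairwiseDisjoint ball := by
    intro c hc c' hc' hne
    rw [Function.onFun, Finset.disjoint_left]
    intro v hv hv'
    rw [hball, Finset.mem_filter] at hv hv'
    exact hne (key' c c' v ((hPFmem c).mp (Finset.mem_coe.mp hc))
      ((hPFmem c').mp (Finset.mem_coe.mp hc')) hv.2 hv'.2)
  have hcard : (PF.biUnion ball).card = Fintype.card (ZMod 23 → ZMod 2) := by
    rw [Finset.card_biUnion hdisj, Finset.sum_congr rfl (fun c _ => hballcard c),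
      Finset.sum_const, hPFcard, Fintype.card_pi]
    simp only [ZMod.card, Finset.prod_const, Finset.card_univ, smul_eq_mul]
    exact cpow
  have huniv : PF.biUnion ball = Finset.univ := Finset.eq_univ_of_card _ hcard
  have hu : u ∈ PF.biUnion ball := (Finset.eq_univ_iff_forall.mp huniv) u
  rw [Finset.mem_biUnion] at hu
  obtain ⟨c, hc, huc⟩ := hu
  rw [hball, Finset.mem_filter] at huc
  refine ⟨c, ⟨(hPFmem c).mp hc, huc.2⟩, ?_⟩
  rintro c' ⟨hc', hd'⟩
  exact key c' c hc' ((hPFmem c).mp hc) hd' huc.2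

end Cfsg.Agent.S1637
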