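import Mathlib
import Cfsg.Statements.S1691

set_option autoImplicit false
open Cfsg

namespace Cfsg.Agent.S1691

open Cfsg.Spor in
theorem rel_eq_one (x y : Fi24.Gen) :
    ((PresentedGroup.of x : Fi24) * PresentedGroup.of y) ^ coxLabel Fi24.edges x y = 1 := by
  have h1 : (FreeGroup.of x * FreeGroup.of y) ^ coxLabel Fi24.edges x y ∈
      coxRelators Fi24.edges ∪ {r | r ∈ Fi24.extra} := by
    left
    exact ⟨x, by cases x <;> decide, y, by cases y <;> decide, rfl⟩
  have h2 := PresentedGroup.one_of_mem h1
  rw [map_pow, map_mul] at h2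
  exact h2

theorem ab_eq_of_edge {A : Type*} [CommGroup A] (X Y : A) (hX : X * X = 1) (hY : Y * Y = 1)
    (h : (X * Y) ^ 3 = 1) : X = Y := by
  have h1 : (X * Y) ^ 3 = (X * X) * (Y * Y) * (X * Y) := by
    rw [pow_succ, pow_two]
    simp only [mul_left_comm, mul_comm]
  rw [h1, hX, hY, one_mul, one_mul] at h
  have h2 : X = X * (Y * Y) := by rw [hY, mul_one]
  rw [h2, ← mul_assoc, h, one_mul]

open Cfsg.Spor in
theorem index_dvd_two : (commutator Fi24).index ∣ 2 := by
  have hrel : ∀ x y : Fi24.Gen, ((Abelianization.of (PresentedGroup.of x : Fi24)) *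
      Abelianization.of (PresentedGroup.of y : Fi24)) ^ coxLabel Fi24.edges x y = 1 := by
    intro x y
    rw [← map_mul, ← map_pow, rel_eq_one, map_one]
  have hsq : ∀ x : Fi24.Gen, (Abelianization.of (PresentedGroup.of x : Fi24)) *
      Abelianization.of (PresentedGroup.of x : Fi24) = 1 := by
    intro x
    have h1 := hrel x x
    have h2 : coxLabel Fi24.edges x x = 1 := by simp [coxLabel]
    rw [h2, pow_one] at h1
    exact h1
  have hedge : ∀ x y : Fi24.Gen, coxLabel Fi24.edges x y = 3 →
      Abelianization.of (PresentedGroup.of x : Fi24) = Abelianization.of (PresentedGroup.of y : Fi24) := by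
    intro x y hxy
    have h1 := hrel x y
    rw [hxy] at h1
    exact ab_eq_of_edge _ _ (hsq x) (hsq y) h1
  have hc : Abelianization.of (PresentedGroup.of Fi24.Gen.c : Fi24) =
      Abelianization.of (PresentedGroup.of Fi24.Gen.d : Fi24) := hedge _ _ (by decide)
  have hb : Abelianization.of (PresentedGroup.of Fi24.Gen.b : Fi24) =
      Abelianization.of (PresentedGroup.of Fi24.Gen.d : Fi24) := (hedge _ _ (by decide)).trans hc
  have ha : Abelianization.of (PresentedGroup.of Fi24.Gen.a : Fi24) =
      Abelianization.of (PresentedGroup.of Fi24.Gen.d : Fi24) := (hedge _ _ (by decide)).trans hb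
  have hk : Abelianization.of (PresentedGroup.of Fi24.Gen.k : Fi24) =
      Abelianization.of (PresentedGroup.of Fi24.Gen.d : Fi24) := (hedge _ _ (by decide)).trans ha
  have hl : Abelianization.of (PresentedGroup.of Fi24.Gen.l : Fi24) =
      Abelianization.of (PresentedGroup.of Fi24.Gen.d : Fi24) := (hedge _ _ (by decide)).trans hk
  have he : Abelianization.of (PresentedGroup.of Fi24.Gen.e : Fi24) =
      Abelianization.of (PresentedGroup.of Fi24.Gen.d : Fi24) := (hedge _ _ (by decide)).symm
  have hf : Abelianization.of (PresentedGroup.of Fi24.Gen.f : Fi24) =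
      Abelianization.of (PresentedGroup.of Fi24.Gen.d : Fi24) := (hedge _ _ (by decide)).symm.trans he
  have hg : Abelianization.of (PresentedGroup.of Fi24.Gen.g : Fi24) =
      Abelianization.of (PresentedGroup.of Fi24.Gen.d : Fi24) := (hedge _ _ (by decide)).symm.trans hf
  have hj : Abelianization.of (PresentedGroup.of Fi24.Gen.j : Fi24) =
      Abelianization.of (PresentedGroup.of Fi24.Gen.d : Fi24) := (hedge _ _ (by decide)).symm.trans hg
  have hh : Abelianization.of (PresentedGroup.of Fi24.Gen.h : Fi24) =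
      Abelianization.of (PresentedGroup.of Fi24.Gen.d : Fi24) := (hedge _ _ (by decide)).symm
  have hi : Abelianization.of (PresentedGroup.of Fi24.Gen.i : Fi24) =
      Abelianization.of (PresentedGroup.of Fi24.Gen.d : Fi24) := (hedge _ _ (by decide)).symm.trans hh
  have hall : ∀ x : Fi24.Gen, Abelianization.of (PresentedGroup.of x : Fi24) =
      Abelianization.of (PresentedGroup.of Fi24.Gen.d : Fi24) := by
    intro x
    cases x
    · exact hl
    · exact hk
    · exact ha
    · exact hb
    · exact hc
    · rfl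
    · exact he
    · exact hf
    · exact hg
    · exact hj
    · exact hh
    · exact hi
  have htop : (Subgroup.zpowers (Abelianization.of (PresentedGroup.of Fi24.Gen.d : Fi24))).comap
      Abelianization.of = ⊤ := by
    rw [eq_top_iff, ← PresentedGroup.closure_range_of, Subgroup.closure_le]
    rintro _ ⟨x, rfl⟩
    have h5 : Abelianization.of (PresentedGroup.of x : Fi24) ∈
        Subgroup.zpowers (Abelianization.of (PresentedGroup.of Fi24.Gen.d : Fi24)) := by
      rw [hall x]
      exact Subgroup.mem_zpowers _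
    exact h5
  have hzp : Subgroup.zpowers (Abelianization.of (PresentedGroup.of Fi24.Gen.d : Fi24)) = ⊤ := by
    rw [eq_top_iff]
    intro a _
    obtain ⟨g, rfl⟩ := QuotientGroup.mk_surjective a
    have h1 : g ∈ (Subgroup.zpowers (Abelianization.of (PresentedGroup.of Fi24.Gen.d : Fi24))).comap
      Abelianization.of := by rw [htop]; trivial
    exact h1
  have hcard : (commutator Fi24).index =
      orderOf (Abelianization.of (PresentedGroup.of Fi24.Gen.d : Fi24)) := by
    rw [← Nat.card_zpowers, hzp, Subgroup.card_top]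
    rfl
  rw [hcard]
  apply orderOf_dvd_of_pow_eq_one
  rw [pow_two]
  exact hsq _

open Cfsg.Spor in
theorem lift_rel (r : FreeGroup Fi24.Gen) (hr : r ∈ coxRelators Fi24.edges ∪ {r | r ∈ Fi24.extra}) :
    FreeGroup.lift (fun _ : Fi24.Gen => Multiplicative.ofAdd (1 : ZMod 2)) r = 1 := by
  have hu : Multiplicative.ofAdd (1 : ZMod 2) * Multiplicative.ofAdd (1 : ZMod 2) = 1 := by decide
  rcases hr with hr | hr
  · obtain ⟨x, _, y, _, rfl⟩ := hr
    rw [map_pow, map_mul, FreeGroup.lift_apply_of, FreeGroup.lift_apply_of, hu, one_pow]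
  · have h1 : r = Fi24.l * (((Fi24.a * Fi24.b * Fi24.c * Fi24.d * Fi24.e * Fi24.f * Fi24.h) ^ 9)⁻¹) ∨
        r = (Fi24.d * Fi24.c * Fi24.b * Fi24.a * Fi24.k * Fi24.l * Fi24.d * Fi24.e * Fi24.f * Fi24.g *
          Fi24.j * Fi24.d * Fi24.h * Fi24.i) ^ 17 := by
      simpa [Fi24.extra] using hr
    rcases h1 with rfl | rfl
    · simp only [map_mul, map_pow, map_inv, FreeGroup.lift_apply_of]
      decide
    · simp only [map_mul, map_pow, FreeGroup.lift_apply_of]
      decide

theorem result : (commutator Cfsg.Spor.Fi24).index = 2 := by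
  have h1 := index_dvd_two
  have h2 : (commutator Cfsg.Spor.Fi24).index ≠ 1 := by
    intro h
    rw [Subgroup.index_eq_one] at h
    have h3 : (PresentedGroup.of Cfsg.Spor.Fi24.Gen.d : Cfsg.Spor.Fi24) ∈ commutator Cfsg.Spor.Fi24 := by
      rw [h]; trivial
    have h4 := Abelianization.commutator_subset_ker (PresentedGroup.toGroup lift_rel) h3
    rw [MonoidHom.mem_ker, PresentedGroup.toGroup.of] at h4
    revert h4
    decide
  have h3 : (commutator Cfsg.Spor.Fi24).index ≤ 2 := Nat.le_of_dvd (by norm_num) h1
  have h4 : (commutator Cfsg.Spor.Fi24).index ≠ 0 := by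
    intro h
    rw [h] at h1
    simp at h1
  omega

end Cfsg.Agent.S1691
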