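import Cfsg.Statements.S1717
import Mathlib

set_option autoImplicit false
open Cfsg

set_option maxHeartbeats 1000000
namespace Cfsg.Agent.S1717

open Matrix

theorem mem_sylow {C : Type*} [Group C] [Finite C] (u : C) (hu : u * u = 1)
    (hc : ∀ g : C, u * (g * u * g⁻¹) = (g * u * g⁻¹) * u) (T : Sylow 2 C) :
    u ∈ (T : Subgroup C) := by
  haveI : Fact (Nat.Prime 2) := ⟨Nat.prime_two⟩
  set S : Set C := Group.conjugatesOfSet ({u} : Set C) with hS
  have hSmem : ∀ y ∈ S, ∃ g : C, g * u * g⁻¹ = y := by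
    intro y hy
    rw [hS, Group.mem_conjugatesOfSet_iff] at hy
    obtain ⟨a, ha, hay⟩ := hy
    rw [Set.mem_singleton_iff] at ha
    subst ha
    exact isConj_iff.mp hay
  have hpair : ∀ x ∈ S, ∀ y ∈ S, x * y = y * x := by
    intro x hx y hy
    obtain ⟨g, rfl⟩ := hSmem x hx
    obtain ⟨h, rfl⟩ := hSmem y hy
    have := hc (g⁻¹ * h)
    have e1 : g * u * g⁻¹ * (h * u * h⁻¹)
        = g * (u * ((g⁻¹ * h) * u * (g⁻¹ * h)⁻¹)) * g⁻¹ := by group
    have e2 : h * u * h⁻¹ * (g * u * g⁻¹)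
        = g * (((g⁻¹ * h) * u * (g⁻¹ * h)⁻¹) * u) * g⁻¹ := by group
    rw [e1, e2, this]
  have hsq : ∀ x ∈ S, x * x = 1 := by
    intro x hx
    obtain ⟨g, rfl⟩ := hSmem x hx
    have : g * u * g⁻¹ * (g * u * g⁻¹) = g * (u * u) * g⁻¹ := by group
    rw [this, hu]; group
  have h1 : Subgroup.closure S ≤ Subgroup.centralizer S := by
    rw [Subgroup.closure_le]
    intro x hx
    exact Subgroup.mem_centralizer_iff.mpr (fun y hy => hpair y hy x hx)
  have h2 : ∀ x ∈ Subgroup.closure S, ∀ y ∈ Subgroup.closure S, x * y = y * x := by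
    intro x hx y hy
    have : Subgroup.closure S ≤ Subgroup.centralizer (Subgroup.closure S : Set C) := by
      rw [Subgroup.closure_le]
      intro a ha
      exact Subgroup.mem_centralizer_iff.mpr
        (fun b hb => (Subgroup.mem_centralizer_iff.mp (h1 hb) a ha).symm)
    exact (Subgroup.mem_centralizer_iff.mp (this hy) x hx)
  have h3 : ∀ x ∈ Subgroup.closure S, x * x = 1 := by
    intro x hx
    induction hx using Subgroup.closure_induction with
    | mem x hx => exact hsq x hx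
    | one => simp
    | mul a b ha hb iha ihb =>
      have := h2 a ha b hb
      calc a * b * (a * b) = a * (b * a) * b := by group
        _ = a * (a * b) * b := by rw [this]
        _ = (a * a) * (b * b) := by group
        _ = 1 := by rw [iha, ihb, one_mul]
    | inv a ha iha =>
      have : a⁻¹ * a⁻¹ = (a * a)⁻¹ := by group
      rw [this, iha, inv_one]
  have hN : IsPGroup 2 (Subgroup.normalClosure ({u} : Set C)) := by
    intro g
    refine ⟨1, ?_⟩
    have := h3 g.1 g.2
    apply Subtype.ext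
    simp [pow_two, this]
  exact hN.le_sylow_of_normal T (Subgroup.subset_normalClosure (Set.mem_singleton u))

theorem abs {G : Type*} [Group G] [Finite G] (z : G) (hz1 : z ≠ 1) (C : Subgroup G)
    (hCmem : ∀ g : G, g ∈ C ↔ z * g = g * z)
    (T : Sylow 2 C)
    (hzT : z ∈ (T : Subgroup C).map C.subtype)
    (hZ : ∀ w ∈ (T : Subgroup C).map C.subtype,
      (∀ t ∈ (T : Subgroup C).map C.subtype, t * w = w * t) → w = 1 ∨ w = z) :
    ¬ 2 ∣ ((T : Subgroup C).map C.subtype).index := by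
  haveI : Fact (Nat.Prime 2) := ⟨Nat.prime_two⟩
  set T' := (T : Subgroup C).map C.subtype with hT'
  have hT'C : T' ≤ C := Subgroup.map_subtype_le _
  have hT'p : IsPGroup 2 T' := T.isPGroup'.map C.subtype
  obtain ⟨P, hP⟩ := hT'p.exists_le_sylow
  by_cases hEq : T' = (P : Subgroup G)
  · rw [hEq]; exact P.not_dvd_index
  exfalso
  have hlt : T'.subgroupOf P < ⊤ := by
    rw [lt_top_iff_ne_top, Ne, Subgroup.subgroupOf_eq_top]
    intro h; exact hEq (le_antisymm hP h)
  haveI : Group.IsNilpotent P := P.isPGroup'.isNilpotent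
  have hnc := normalizerCondition_of_isNilpotent (G := P) _ hlt
  obtain ⟨x, hxN, hxT⟩ := SetLike.exists_of_lt hnc
  rw [Subgroup.mem_normalizer_iff] at hxN
  have hxT' : (x : G) ∉ T' := fun h => hxT (Subgroup.mem_subgroupOf.mpr h)
  have norm1 : ∀ t : G, t ∈ T' → (x : G) * t * (x : G)⁻¹ ∈ T' := by
    intro t ht
    have := (hxN ⟨t, hP ht⟩).mp (Subgroup.mem_subgroupOf.mpr ht)
    exact Subgroup.mem_subgroupOf.mp this
  have norm2 : ∀ t : G, t ∈ T' → (x : G)⁻¹ * t * (x : G) ∈ T' := by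
    intro t ht
    have := (hxN (x⁻¹ * ⟨t, hP ht⟩ * x)).mpr (by
      rw [Subgroup.mem_subgroupOf]
      have e : (((x * (x⁻¹ * ⟨t, hP ht⟩ * x) * x⁻¹ : P)) : G) = t := by
        push_cast; group
      rw [e]; exact ht)
    exact Subgroup.mem_subgroupOf.mp this
  have hw := hZ ((x : G) * z * (x : G)⁻¹) (norm1 z hzT) (by
    intro t ht
    have h0 : (x : G)⁻¹ * t * (x : G) ∈ C := hT'C (norm2 t ht)
    have h1 : z * ((x : G)⁻¹ * t * (x : G)) = ((x : G)⁻¹ * t * (x : G)) * z :=
      (hCmem _).mp h0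
    calc t * ((x : G) * z * (x : G)⁻¹)
        = (x : G) * (((x : G)⁻¹ * t * (x : G)) * z) * (x : G)⁻¹ := by group
      _ = (x : G) * (z * ((x : G)⁻¹ * t * (x : G))) * (x : G)⁻¹ := by rw [h1]
      _ = ((x : G) * z * (x : G)⁻¹) * t := by group)
  have hxz : (x : G) * z * (x : G)⁻¹ = z := by
    rcases hw with h | h
    · exfalso; apply hz1
      have : z = (x : G)⁻¹ * ((x : G) * z * (x : G)⁻¹) * (x : G) := by group
      rw [this, h]; group
    · exact h
  have hxC : (x : G) ∈ C := by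
    rw [hCmem]
    calc z * (x : G) = ((x : G) * z * (x : G)⁻¹) * (x : G) := by rw [hxz]
      _ = (x : G) * z := by group
  have hsup : T' ⊔ Subgroup.zpowers (x : G) ≤ (P : Subgroup G) :=
    sup_le hP (Subgroup.zpowers_le.mpr x.2)
  have hQ : IsPGroup 2 ((T' ⊔ Subgroup.zpowers (x : G)).subgroupOf C) :=
    (P.isPGroup'.to_le hsup).comap_subtype
  have hTQ : (T : Subgroup C) ≤ (T' ⊔ Subgroup.zpowers (x : G)).subgroupOf C := by
    intro c hc
    rw [Subgroup.mem_subgroupOf]
    exact le_sup_left (a := T') (Subgroup.mem_map_of_mem C.subtype hc)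
  have hmax := T.is_maximal' hQ hTQ
  have hxQ : (⟨(x : G), hxC⟩ : C) ∈ (T' ⊔ Subgroup.zpowers (x : G)).subgroupOf C := by
    rw [Subgroup.mem_subgroupOf]
    exact le_sup_right (a := T') (Subgroup.mem_zpowers (x : G))
  rw [hmax] at hxQ
  exact hxT' (Subgroup.mem_map_of_mem C.subtype hxQ)

abbrev M5 := Matrix (Fin 5) (Fin 5) (ZMod 2)
abbrev SL5 := Matrix.SpecialLinearGroup (Fin 5) (ZMod 2)

theorem comm_tv {c : M5} {a b : Fin 5}
    (h : c * (1 + Matrix.single a b 1) = (1 + Matrix.single a b 1) * c) :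
    (∀ i, i ≠ a → c i a = 0) ∧ (∀ j, j ≠ b → c b j = 0) ∧ c a a = c b b := by
  have h' : c * Matrix.single a b (1 : ZMod 2) = Matrix.single a b 1 * c := by
    rw [mul_add, add_mul, mul_one, one_mul] at h
    exact add_left_cancel h
  refine ⟨fun i hi => ?_, fun j hj => ?_, ?_⟩
  · have := congrFun (congrFun h' i) b
    rw [Matrix.mul_single_apply_same, Matrix.single_mul_apply_of_ne _ _ _ _ _ hi] at this
    simpa using this
  · have := congrFun (congrFun h' a) j
    rw [Matrix.mul_single_apply_of_ne _ _ _ _ _ hj, Matrix.single_mul_apply_same] at this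
    simpa using this.symm
  · have := congrFun (congrFun h' a) b
    rw [Matrix.mul_single_apply_same, Matrix.single_mul_apply_same] at this
    simpa using this

theorem cent_struct (s : SL5) (hs : (s : M5) = Matrix.transvection 0 1 1) (g : SL5)
    (hg : g ∈ Subgroup.centralizer ({s} : Set SL5)) :
    (∀ i, i ≠ 0 → (g : M5) i 0 = 0) ∧ (∀ j, j ≠ 1 → (g : M5) 1 j = 0) := by
  have h := Subgroup.mem_centralizer_iff.mp hg s (Set.mem_singleton s)
  have h' : (g : M5) * (1 + Matrix.single 0 1 1) = (1 + Matrix.single 0 1 1) * (g : M5) := by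
    have := congrArg (fun m : SL5 => (m : M5)) h
    simp only [Matrix.SpecialLinearGroup.coe_mul, hs, Matrix.transvection] at this
    exact this.symm
  obtain ⟨h1, h2, -⟩ := comm_tv h'
  exact ⟨h1, h2⟩

def tv (a b : Fin 5) (h : a ≠ b) : SL5 :=
  ⟨Matrix.transvection a b 1, Matrix.det_transvection_of_ne a b h 1⟩

theorem tv_coe (a b : Fin 5) (h : a ≠ b) : ((tv a b h : SL5) : M5) = 1 + Matrix.single a b 1 := rfl

theorem tv_mem (s : SL5) (hs : (s : M5) = Matrix.transvection 0 1 1) (a b : Fin 5) (h : a ≠ b)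
    (ha : a ≠ 1) (hb : b ≠ 0) : tv a b h ∈ Subgroup.centralizer ({s} : Set SL5) := by
  rw [Subgroup.mem_centralizer_iff]
  intro t ht
  rw [Set.mem_singleton_iff] at ht
  rw [ht]
  apply Subtype.ext
  rw [Matrix.SpecialLinearGroup.coe_mul, Matrix.SpecialLinearGroup.coe_mul, hs, tv_coe,
    Matrix.transvection]
  have e1 : Matrix.single (0 : Fin 5) (1 : Fin 5) (1 : ZMod 2) * Matrix.single a b (1 : ZMod 2) = 0 :=
    Matrix.single_mul_single_of_ne _ _ _ _ (Ne.symm ha) _
  have e2 : Matrix.single a b (1 : ZMod 2) * Matrix.single (0 : Fin 5) (1 : Fin 5) (1 : ZMod 2) = 0 :=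
    Matrix.single_mul_single_of_ne _ _ _ _ hb _
  simp only [mul_add, add_mul, mul_one, one_mul, e1, e2]
  abel

theorem tv_sq (a b : Fin 5) (h : a ≠ b) : tv a b h * tv a b h = 1 := by
  apply Subtype.ext
  rw [Matrix.SpecialLinearGroup.coe_mul, tv_coe, Matrix.SpecialLinearGroup.coe_one]
  have e1 : Matrix.single a b (1 : ZMod 2) * Matrix.single a b (1 : ZMod 2) = 0 :=
    Matrix.single_mul_single_of_ne _ _ _ _ (Ne.symm h) _
  have e2 : Matrix.single a b (1 : ZMod 2) + Matrix.single a b (1 : ZMod 2) = 0 := by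
    rw [← Matrix.single_add]
    have : (1 : ZMod 2) + 1 = 0 := by decide
    rw [this]; simp
  simp only [mul_add, add_mul, mul_one, one_mul, e1, add_zero]
  rw [add_assoc, e2, add_zero]

/-- conjugates of suitable transvections commute with them -/
theorem tv_conj (s : SL5) (hs : (s : M5) = Matrix.transvection 0 1 1) (a b : Fin 5) (h : a ≠ b)
    (hab : (a = 0 ∧ b ≠ 0) ∨ (b = 1 ∧ a ≠ 1)) (g : SL5)
    (hg : g ∈ Subgroup.centralizer ({s} : Set SL5)) :
    tv a b h * (g * tv a b h * g⁻¹) = (g * tv a b h * g⁻¹) * tv a b h := by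
  have hg' : g⁻¹ ∈ Subgroup.centralizer ({s} : Set SL5) := inv_mem hg
  obtain ⟨g1, g2⟩ := cent_struct s hs g hg
  obtain ⟨g1', g2'⟩ := cent_struct s hs g⁻¹ hg'
  have hba : (g : M5) b a = 0 := by
    rcases hab with ⟨rfl, hb⟩ | ⟨rfl, ha⟩
    · exact g1 b hb
    · exact g2 a ha
  have hba' : ((g⁻¹ : SL5) : M5) b a = 0 := by
    rcases hab with ⟨rfl, hb⟩ | ⟨rfl, ha⟩
    · exact g1' b hb
    · exact g2' a ha
  apply Subtype.ext
  simp only [Matrix.SpecialLinearGroup.coe_mul, tv_coe]
  set E : M5 := Matrix.single a b 1 with hE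
  set A : M5 := (g : M5) with hA
  set B : M5 := ((g⁻¹ : SL5) : M5) with hB
  have hAB : A * B = 1 := by
    rw [hA, hB, ← Matrix.SpecialLinearGroup.coe_mul, mul_inv_cancel, Matrix.SpecialLinearGroup.coe_one]
  have e1 : E * A * E = 0 := by
    rw [hE, Matrix.single_mul_mul_single, hba]; simp
  have e2 : E * B * E = 0 := by
    rw [hE, Matrix.single_mul_mul_single, hba']; simp
  have e3 : E * (A * E * B) = 0 := by
    rw [← mul_assoc, ← mul_assoc, e1, zero_mul]
  have e4 : (A * E * B) * E = 0 := by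
    rw [mul_assoc, mul_assoc, ← mul_assoc E B E, e2, mul_zero]
  have e5 : A * (1 + E) * B = 1 + A * E * B := by
    rw [mul_add, add_mul, mul_one, hAB]
  rw [e5]
  simp only [mul_add, add_mul, mul_one, one_mul, e3, e4]
  abel

theorem zmod2 (x : ZMod 2) : x = 0 ∨ x = 1 := by
  revert x; decide

theorem center_sylow (s : SL5) (hs : (s : M5) = Matrix.transvection 0 1 1)
    (T : Sylow 2 (Subgroup.centralizer ({s} : Set SL5)))
    (c : Subgroup.centralizer ({s} : Set SL5)) (hcc : ∀ t ∈ (T : Subgroup _), t * c = c * t) :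
    (c : SL5) = 1 ∨ (c : SL5) = s := by
  -- the transvections in T
  have hu : ∀ (a b : Fin 5) (h : a ≠ b), ((a = 0 ∧ b ≠ 0 ∧ b ≠ 1) ∨ (b = 1 ∧ a ≠ 1 ∧ a ≠ 0)) →
      (c : SL5) * tv a b h = tv a b h * (c : SL5) := by
    intro a b h hab
    have ha1 : a ≠ 1 := by
      rcases hab with ⟨rfl, -, -⟩ | ⟨-, h1, -⟩
      · decide
      · exact h1
    have hb0 : b ≠ 0 := by
      rcases hab with ⟨-, h1, -⟩ | ⟨rfl, -, -⟩
      · exact h1
      · decide
    have hab' : (a = 0 ∧ b ≠ 0) ∨ (b = 1 ∧ a ≠ 1) := by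
      rcases hab with ⟨h1, h2, -⟩ | ⟨h1, h2, -⟩
      · exact Or.inl ⟨h1, h2⟩
      · exact Or.inr ⟨h1, h2⟩
    have hmem := tv_mem s hs a b h ha1 hb0
    have hT : (⟨tv a b h, hmem⟩ : Subgroup.centralizer ({s} : Set SL5)) ∈ (T : Subgroup _) := by
      apply mem_sylow
      · apply Subtype.ext; exact tv_sq a b h
      · intro g
        apply Subtype.ext
        exact tv_conj s hs a b h hab' g.1 g.2
    have := hcc _ hT
    have := congrArg Subtype.val this
    exact this.symm
  have hu' : ∀ (a b : Fin 5) (h : a ≠ b), ((a = 0 ∧ b ≠ 0 ∧ b ≠ 1) ∨ (b = 1 ∧ a ≠ 1 ∧ a ≠ 0)) →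
      (∀ i, i ≠ a → ((c : SL5) : M5) i a = 0) ∧ (∀ j, j ≠ b → ((c : SL5) : M5) b j = 0) ∧
        ((c : SL5) : M5) a a = ((c : SL5) : M5) b b := by
    intro a b h hab
    have := congrArg (fun m : SL5 => (m : M5)) (hu a b h hab)
    simp only [Matrix.SpecialLinearGroup.coe_mul, tv_coe] at this
    exact comm_tv this
  set K : M5 := ((c : SL5) : M5) with hK
  have hA : ∀ j : Fin 5, j ≠ 0 → j ≠ 1 →
      (∀ i, i ≠ 0 → K i 0 = 0) ∧ (∀ k, k ≠ j → K j k = 0) ∧ K 0 0 = K j j := fun j h0 h1 =>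
    hu' 0 j (Ne.symm h0) (Or.inl ⟨rfl, h0, h1⟩)
  have hB : ∀ i : Fin 5, i ≠ 0 → i ≠ 1 →
      (∀ k, k ≠ i → K k i = 0) ∧ (∀ j, j ≠ 1 → K 1 j = 0) ∧ K i i = K 1 1 := fun i h0 h1 =>
    hu' i 1 h1 (Or.inr ⟨rfl, h1, h0⟩)
  have h20 : (2 : Fin 5) ≠ 0 := by decide
  have h21 : (2 : Fin 5) ≠ 1 := by decide
  have col0 : ∀ i, i ≠ 0 → K i 0 = 0 := (hA 2 h20 h21).1
  have row1 : ∀ j, j ≠ 1 → K 1 j = 0 := (hB 2 h20 h21).2.1
  have hd0 : K 0 0 ≠ 0 := by
    intro h0
    have hdet : K.det = 0 := Matrix.det_eq_zero_of_column_eq_zero 0 (fun i => by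
      by_cases hi : i = 0
      · rw [hi]; exact h0
      · exact col0 i hi)
    have h1 : K.det = 1 := (c : SL5).2
    rw [h1] at hdet
    exact one_ne_zero hdet
  have hd : K 0 0 = 1 := (zmod2 _).resolve_left hd0
  have diag : ∀ i, K i i = 1 := by
    intro i
    by_cases h0 : i = 0
    · rw [h0]; exact hd
    by_cases h1 : i = 1
    · rw [h1, ← (hB 2 h20 h21).2.2, ← (hA 2 h20 h21).2.2]; exact hd
    · rw [← (hA i h0 h1).2.2]; exact hd
  have off : ∀ i j, i ≠ j → ¬ (i = 0 ∧ j = 1) → K i j = 0 := by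
    intro i j hij h01
    by_cases hi1 : i = 1
    · rw [hi1]; exact row1 j (fun h => hij (by rw [hi1, h]))
    by_cases hi0 : i = 0
    · have hj0 : j ≠ 0 := fun h => hij (by rw [hi0, h])
      have hj1 : j ≠ 1 := fun h => h01 ⟨hi0, h⟩
      exact (hB j hj0 hj1).1 i hij
    · exact (hA i hi0 hi1).2.1 j (Ne.symm hij)
  rcases zmod2 (K 0 1) with h | h
  · left
    apply Subtype.ext
    rw [Matrix.SpecialLinearGroup.coe_one]
    ext i j
    change K i j = _
    rw [Matrix.one_apply]
    by_cases hij : i = j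
    · rw [if_pos hij, hij]; exact diag j
    · rw [if_neg hij]
      by_cases h01 : i = 0 ∧ j = 1
      · rw [h01.1, h01.2]; exact h
      · exact off i j hij h01
  · right
    apply Subtype.ext
    rw [hs]
    ext i j
    change K i j = _
    rw [Matrix.transvection, Matrix.add_apply, Matrix.one_apply, Matrix.single_apply]
    by_cases hij : i = j
    · have h01 : ¬ ((0 : Fin 5) = i ∧ (1 : Fin 5) = j) := by
        rintro ⟨h1, h2⟩
        rw [← h1, ← h2] at hij
        exact absurd hij (by decide)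
      rw [if_pos hij, if_neg h01, add_zero, hij]; exact diag j
    · rw [if_neg hij]
      by_cases h01 : i = 0 ∧ j = 1
      · rw [if_pos ⟨h01.1.symm, h01.2.symm⟩, zero_add, h01.1, h01.2]; exact h
      · rw [if_neg (fun hh => h01 ⟨hh.1.symm, hh.2.symm⟩), add_zero]
        exact off i j hij h01

theorem main' {G : Type*} [Group G] [Finite G] (s : SL5) (hs : (s : M5) = Matrix.transvection 0 1 1)
    (z : G) (hz : orderOf z = 2) (C : Subgroup G) (hCmem : ∀ g : G, g ∈ C ↔ z * g = g * z)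
    (e : C ≃* Subgroup.centralizer ({s} : Set SL5)) (T : Sylow 2 C) :
    ¬ 2 ∣ ((T : Subgroup C).map C.subtype).index := by
  haveI : Fact (Nat.Prime 2) := ⟨Nat.prime_two⟩
  have hz1 : z ≠ 1 := by
    intro h; rw [h, orderOf_one] at hz; exact absurd hz (by decide)
  have hzz : z * z = 1 := by
    have := pow_orderOf_eq_one z
    rw [hz, pow_two] at this; exact this
  have hzC : z ∈ C := (hCmem z).mpr rfl
  have hcomm : ∀ g : C, z * (g : G) = (g : G) * z := fun g => (hCmem _).mp g.2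
  have hzT : (⟨z, hzC⟩ : C) ∈ (T : Subgroup C) := by
    apply mem_sylow
    · apply Subtype.ext; exact hzz
    · intro g
      apply Subtype.ext
      push_cast
      have := hcomm g
      calc z * ((g : G) * z * (g : G)⁻¹) = z * ((z * (g : G)) * (g : G)⁻¹) := by rw [this]
        _ = (z * (g : G)) * (g : G)⁻¹ * z := by group
        _ = (g : G) * z * (g : G)⁻¹ * z := by rw [this]
  -- the Sylow subgroup on the matrix side
  let T2 : Sylow 2 (Subgroup.centralizer ({s} : Set SL5)) :=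
    T.comapOfInjective e.symm.toMonoidHom e.symm.injective (by
      intro x _
      exact ⟨e x, by simp⟩)
  have hT2 : ∀ y : Subgroup.centralizer ({s} : Set SL5),
      y ∈ (T2 : Subgroup _) ↔ e.symm y ∈ (T : Subgroup C) := by
    intro y; rfl
  have key : ∀ c : C, (∀ t ∈ (T : Subgroup C), t * c = c * t) →
      ((e c : SL5) = 1 ∨ (e c : SL5) = s) := by
    intro c hc
    apply center_sylow s hs T2 (e c)
    intro t ht
    rw [hT2] at ht
    have := hc _ ht
    have := congrArg e this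
    simpa using this
  have hez : ((e ⟨z, hzC⟩ : Subgroup.centralizer ({s} : Set SL5)) : SL5) = s := by
    rcases key ⟨z, hzC⟩ (fun t _ => Subtype.ext (hcomm t).symm) with h | h
    · exfalso
      have h1 : e ⟨z, hzC⟩ = 1 := Subtype.ext h
      have h2 : (⟨z, hzC⟩ : C) = 1 := by
        have := congrArg e.symm h1
        simpa using this
      exact hz1 (congrArg Subtype.val h2)
    · exact h
  apply abs z hz1 C hCmem T
  · exact ⟨⟨z, hzC⟩, hzT, rfl⟩
  · rintro w ⟨c, hcT, rfl⟩ hw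
    have hc : ∀ t ∈ (T : Subgroup C), t * c = c * t := by
      intro t ht
      apply Subtype.ext
      exact hw _ ⟨t, ht, rfl⟩
    rcases key c hc with h | h
    · left
      have h1 : e c = 1 := Subtype.ext h
      have h2 : c = 1 := by
        have := congrArg e.symm h1
        simpa using this
      rw [h2]; rfl
    · right
      have h1 : e c = e ⟨z, hzC⟩ := Subtype.ext (h.trans hez.symm)
      have h2 : c = ⟨z, hzC⟩ := e.injective h1
      rw [h2]; rfl

theorem main {G : Type*} [Group G] [Finite G] (s : Matrix.SpecialLinearGroup (Fin 5) (ZMod 2)) (hs : (s : Matrix (Fin 5) (Fin 5) (ZMod 2)) = Matrix.transvection 0 1 1) (z : G) (hz : orderOf z = 2) (e : (Subgroup.centralizer ({z} : Set G)) ≃* Subgroup.centralizer ({s} : Set (Matrix.SpecialLinearGroup (Fin 5) (ZMod 2)))) (T : Sylow 2 (Subgroup.centralizer ({z} : Set G))) : ¬ 2 ∣ ((T : Subgroup (Subgroup.centralizer ({z} : Set G))).map (Subgroup.subtype (Subgroup.centralizer ({z} : Set G)))).index :=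
  main' s hs z hz (Subgroup.centralizer ({z} : Set G)) (fun g => by
    rw [Subgroup.mem_centralizer_iff]
    constructor
    · intro h; exact h z (Set.mem_singleton z)
    · intro h y hy; rw [Set.mem_singleton_iff] at hy; rw [hy]; exact h) e T

theorem result {G : Type*} [Group G] [Finite G] (s : Matrix.SpecialLinearGroup (Fin 5) (ZMod 2)) (hs : (s : Matrix (Fin 5) (Fin 5) (ZMod 2)) = Matrix.transvection 0 1 1) (z : G) (hz : orderOf z = 2) (e : (Subgroup.centralizer ({z} : Set G)) ≃* Subgroup.centralizer ({s} : Set (Matrix.SpecialLinearGroup (Fin 5) (ZMod 2)))) (T : Sylow 2 (Subgroup.centralizer ({z} : Set G))) : ¬ 2 ∣ ((T : Subgroup (Subgroup.centralizer ({z} : Set G))).map (Subgroup.subtype (Subgroup.centralizer ({z} : Set G)))).index := by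
  exact main s hs z hz e T

end Cfsg.Agent.S1717
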