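import Cfsg.Statements.S1754
import Cfsg.Agent.Lib.Helper3.Quasi
import Cfsg.Agent.Lib.Helper3.Conj

set_option autoImplicit false
open Cfsg
open Cfsg.Agent.Lib.Helper3.Quasi Cfsg.Agent.Lib.Helper3.Conj

namespace Cfsg.Agent.S1754

/-- Let A be a standard subgroup of the finite group G (A quasisimple, C_G(A) tightly embedded of even order, A commuting elementwise with no other conjugate of itself, and N_G(A) = N_G(C_G(A))), and let t be an involution of G centralizing A. Then the centralizer of t lies in the normalizer of A; in particular A, viewed inside C_G(t), is a component of C_G(t). -/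
theorem result {G : Type*} [Group G] [Finite G]
    (A : Subgroup G) (hA : Cfsg.IsStandardSubgroup A) (t : G) (ht : orderOf t = 2) (htA : t ∈ Subgroup.centralizer (A : Set G)) :
    Subgroup.centralizer ({t} : Set G) ≤ Subgroup.normalizer (A : Set G) ∧
      Cfsg.IsComponent (A.subgroupOf (Subgroup.centralizer ({t} : Set G))) := by
  obtain ⟨hq, hte, _, hnorm⟩ := hA
  have hle : Subgroup.centralizer ({t} : Set G) ≤ Subgroup.normalizer (A : Set G) := by
    intro g hg
    rw [hnorm]
    by_contra hcon
    have hodd := hte.2 g hcon
    have htg : g * t * g⁻¹ = t := by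
      have h1 := (Subgroup.mem_centralizer_iff.mp hg) t (Set.mem_singleton t)
      calc g * t * g⁻¹ = t * g * g⁻¹ := by rw [h1]
        _ = t := by group
    have hmem : t ∈ Subgroup.centralizer (A : Set G) ⊓
        (Subgroup.centralizer (A : Set G)).map (MulAut.conj g).toMonoidHom := by
      refine Subgroup.mem_inf.mpr ⟨htA, ?_⟩
      rw [mem_map_conj']
      exact ⟨t, htA, htg⟩
    have h2 : orderOf (⟨t, hmem⟩ : ↥(Subgroup.centralizer (A : Set G) ⊓
        (Subgroup.centralizer (A : Set G)).map (MulAut.conj g).toMonoidHom)) = 2 := by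
      rw [Subgroup.orderOf_mk]; exact ht
    have h3 := orderOf_dvd_natCard (⟨t, hmem⟩ : ↥(Subgroup.centralizer (A : Set G) ⊓
        (Subgroup.centralizer (A : Set G)).map (MulAut.conj g).toMonoidHom))
    rw [h2] at h3
    exact (Nat.not_even_iff_odd.mpr hodd) (even_iff_two_dvd.mpr h3)
  refine ⟨hle, ?_, ?_⟩
  · have hAC : A ≤ Subgroup.centralizer ({t} : Set G) := by
      intro a ha
      rw [Subgroup.mem_centralizer_iff]
      intro y hy
      rw [Set.mem_singleton_iff] at hy
      subst hy
      exact ((Subgroup.mem_centralizer_iff.mp htA) a ha).symm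
    have hn : (A.subgroupOf (Subgroup.centralizer ({t} : Set G))).Normal :=
      (Subgroup.normal_subgroupOf_iff_le_normalizer hAC).mpr hle
    exact hn.isSubnormal
  · have hAC : A ≤ Subgroup.centralizer ({t} : Set G) := by
      intro a ha
      rw [Subgroup.mem_centralizer_iff]
      intro y hy
      rw [Set.mem_singleton_iff] at hy
      subst hy
      exact ((Subgroup.mem_centralizer_iff.mp htA) a ha).symm
    exact quasisimple_of_equiv (Subgroup.subgroupOfEquivOfLe hAC).symm hq

end Cfsg.Agent.S1754
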