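import Mathlib
import Cfsg.Statements.S1755
import Cfsg.Agent.S1785
import Cfsg.Agent.Lib.Helper2.Comp
import Cfsg.Agent.Lib.Helper1.Inv

set_option autoImplicit false
open Pointwise
open Cfsg
open scoped commutatorElement

namespace Cfsg.Agent.S1755

theorem inv_pow {H : Type*} [Group H] (hH : IsPGroup 2 H) (y : H) (hy : y ≠ 1) :
    orderOf (y ^ (orderOf y / 2)) = 2 := by
  obtain ⟨k, hk⟩ := hH y
  have hdvd : orderOf y ∣ 2 ^ k := orderOf_dvd_of_pow_eq_one hk
  obtain ⟨j, _, hj⟩ := (Nat.dvd_prime_pow Nat.prime_two).1 hdvd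
  have hj0 : j ≠ 0 := by
    rintro rfl
    rw [pow_zero] at hj
    exact hy (orderOf_eq_one_iff.1 hj)
  obtain ⟨i, rfl⟩ := Nat.exists_eq_succ_of_ne_zero hj0
  have hpos : 0 < 2 ^ i := by positivity
  have h2 : orderOf y / 2 = 2 ^ i := by
    rw [hj, pow_succ]; exact Nat.mul_div_cancel _ (by norm_num)
  rw [h2, orderOf_pow_of_dvd hpos.ne' (by rw [hj]; exact pow_dvd_pow 2 (Nat.le_succ i)), hj,
    pow_succ]
  exact Nat.mul_div_cancel_left 2 hpos

theorem core {G : Type*} [Group G] [Finite G] (z : G) (hz : orderOf z = 2) (C : Subgroup G)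
    (hC : C = Subgroup.centralizer ({z} : Set G)) (Q : Subgroup ↥C) (hQn : Q.Normal)
    (hcQ : Subgroup.centralizer (Q : Set ↥C) ≤ Q) (hQ : Cfsg.IsOfSymplecticType ↥Q)
    (B : Subgroup ↥Q) (hBc : B.Characteristic) (hBa : IsMulCommutative ↥B) (g : G) :
    ((B.map Q.subtype).map C.subtype).map (MulAut.conj g).toMonoidHom =
        (B.map Q.subtype).map C.subtype ∨
      ((B.map Q.subtype).map C.subtype).map (MulAut.conj g).toMonoidHom ⊓
        (B.map Q.subtype).map C.subtype = ⊥ := by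
  classical
  by_cases hint : ((B.map Q.subtype).map C.subtype).map (MulAut.conj g).toMonoidHom ⊓
        (B.map Q.subtype).map C.subtype = ⊥
  · exact Or.inr hint
  left
  have hzC : z ∈ C := by
    rw [hC, Subgroup.mem_centralizer_iff]
    intro h hh
    rw [Set.mem_singleton_iff] at hh
    rw [hh]
  have hzcen : ∀ c : ↥C, c * (⟨z, hzC⟩ : ↥C) = ⟨z, hzC⟩ * c := by
    intro c
    apply Subtype.ext
    have hc : (c : G) ∈ Subgroup.centralizer ({z} : Set G) := (le_of_eq hC) c.2
    rw [Subgroup.mem_centralizer_iff] at hc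
    exact (hc z (Set.mem_singleton z)).symm
  have hzQ : (⟨z, hzC⟩ : ↥C) ∈ Q := hcQ (by
    rw [Subgroup.mem_centralizer_iff]
    intro q _
    exact hzcen q)
  have hzQcen : (⟨⟨z, hzC⟩, hzQ⟩ : ↥Q) ∈ Subgroup.center ↥Q := by
    rw [Subgroup.mem_center_iff]
    intro q
    apply Subtype.ext
    exact hzcen q.1
  have hzQord : orderOf (⟨⟨z, hzC⟩, hzQ⟩ : ↥Q) = 2 := by
    rw [Subgroup.orderOf_mk, Subgroup.orderOf_mk]; exact hz
  haveI hBcyc : IsCyclic ↥B := hQ.2 B hBc hBa
  haveI hZcyc : IsCyclic ↥(Subgroup.center ↥Q) := hQ.2 _ inferInstance inferInstance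
  haveI hBn : B.Normal := Subgroup.normal_of_characteristic B
  have hB1 : B ≠ ⊥ := by
    intro h
    apply hint
    rw [h]; simp
  obtain ⟨a, haB, ha1, hac⟩ := Cfsg.Agent.S1785.exists_central hQ.1 B hB1
  have hacen : a ∈ Subgroup.center ↥Q := by
    rw [Subgroup.mem_center_iff]; exact hac
  have haord := inv_pow hQ.1 a ha1
  have hazQ : a ^ (orderOf a / 2) = ⟨⟨z, hzC⟩, hzQ⟩ := by
    have h := Cfsg.Agent.Lib.Helper1.cyclic_unique_involution (H := ↥(Subgroup.center ↥Q))
      ⟨a ^ (orderOf a / 2), Subgroup.pow_mem _ hacen _⟩ ⟨_, hzQcen⟩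
      (by rw [Subgroup.orderOf_mk]; exact haord) (by rw [Subgroup.orderOf_mk]; exact hzQord)
    exact congrArg Subtype.val h
  have hzB : (⟨⟨z, hzC⟩, hzQ⟩ : ↥Q) ∈ B := by rw [← hazQ]; exact Subgroup.pow_mem _ haB _
  have L2 : ∀ b ∈ B, b ≠ 1 → b ^ (orderOf b / 2) = (⟨⟨z, hzC⟩, hzQ⟩ : ↥Q) := by
    intro b hb hb1
    have hbord := inv_pow hQ.1 b hb1
    have h := Cfsg.Agent.Lib.Helper1.cyclic_unique_involution (H := ↥B)
      ⟨b ^ (orderOf b / 2), Subgroup.pow_mem _ hb _⟩ ⟨_, hzB⟩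
      (by rw [Subgroup.orderOf_mk]; exact hbord) (by rw [Subgroup.orderOf_mk]; exact hzQord)
    exact congrArg Subtype.val h
  have L3 : ∀ x ∈ (B.map Q.subtype).map C.subtype, x ≠ 1 → x ^ (orderOf x / 2) = z := by
    rintro _ ⟨_, ⟨b, hb, rfl⟩, rfl⟩ hx1
    have hb1 : b ≠ 1 := by
      rintro rfl
      exact hx1 rfl
    have h := L2 b hb hb1
    have hord : orderOf (C.subtype (Q.subtype b)) = orderOf b := by
      show orderOf ((b : ↥C) : G) = orderOf b
      rw [Subgroup.orderOf_coe, Subgroup.orderOf_coe]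
    rw [hord]
    have h2 := congrArg (fun q : ↥Q => ((q : ↥C) : G)) h
    simpa using h2
  obtain ⟨⟨x, hx⟩, hx1⟩ := (Subgroup.ne_bot_iff_exists_ne_one).1 hint
  have hx1' : x ≠ 1 := fun h => hx1 (Subtype.ext h)
  obtain ⟨⟨y, hy, hyx⟩, hxB⟩ := Subgroup.mem_inf.1 hx
  have hyx' : g * y * g⁻¹ = x := hyx
  have hy1 : y ≠ 1 := by
    rintro rfl
    apply hx1'
    rw [← hyx']; group
  have hordxy : orderOf x = orderOf y := by
    rw [← hyx']
    exact (MulAut.conj g).orderOf_eq y
  have e1 := L3 x hxB hx1'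
  have e2 := L3 y hy hy1
  rw [← hordxy] at e2
  have hgz : g * z * g⁻¹ = z := by
    calc g * z * g⁻¹ = g * y ^ (orderOf x / 2) * g⁻¹ := by rw [e2]
      _ = (g * y * g⁻¹) ^ (orderOf x / 2) := (conj_pow).symm
      _ = x ^ (orderOf x / 2) := by rw [hyx']
      _ = z := e1
  have hgC : g ∈ C := by
    rw [hC, Subgroup.mem_centralizer_iff]
    intro h hh
    rw [Set.mem_singleton_iff] at hh
    rw [hh]
    calc z * g = (g * z * g⁻¹) * g := by rw [hgz]
      _ = g * z := by group
  have hinv : ∀ k : G, k ∈ C →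
      ((B.map Q.subtype).map C.subtype).map (MulAut.conj k).toMonoidHom ≤
        (B.map Q.subtype).map C.subtype := by
    intro k hk
    rintro _ ⟨_, ⟨_, ⟨b, hb, rfl⟩, rfl⟩, rfl⟩
    have hφ := Subgroup.characteristic_iff_map_eq.1 hBc (MulAut.conjNormal (⟨k, hk⟩ : ↥C))
    have hmem : (MulAut.conjNormal (⟨k, hk⟩ : ↥C)) b ∈ B := by
      rw [← hφ]
      exact ⟨b, hb, rfl⟩
    refine ⟨_, ⟨_, hmem, rfl⟩, ?_⟩
    rfl
  apply Subgroup.eq_of_le_of_card_ge (hinv g hgC)
  rw [Subgroup.card_map_of_injective (f := (MulAut.conj g).toMonoidHom) (MulAut.conj g).injective]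

/-- Let G be a finite group and let z be an involution of G such that Q, the generalized Fitting subgroup of the centralizer C of z, is a 2-group of symplectic type (every characteristic abelian subgroup of Q is cyclic). Let B be a characteristic abelian subgroup of Q, viewed as a subgroup of G. Then for every g in G, the conjugate of B by g either equals B or meets B trivially. -/
theorem result {G : Type*} [Group G] [Finite G] (z : G) (hz : orderOf z = 2) (hQ : Cfsg.IsOfSymplecticType ↥(Cfsg.generalizedFittingSubgroup ↥(Subgroup.centralizer ({z} : Set G))))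
    (B : Subgroup ↥(Cfsg.generalizedFittingSubgroup ↥(Subgroup.centralizer ({z} : Set G)))) (hBc : B.Characteristic) (hBa : IsMulCommutative ↥B) (g : G) :
    ((B.map (Cfsg.generalizedFittingSubgroup ↥(Subgroup.centralizer ({z} : Set G))).subtype).map (Subgroup.centralizer ({z} : Set G)).subtype).map (MulAut.conj g).toMonoidHom =
        (B.map (Cfsg.generalizedFittingSubgroup ↥(Subgroup.centralizer ({z} : Set G))).subtype).map (Subgroup.centralizer ({z} : Set G)).subtype ∨
      ((B.map (Cfsg.generalizedFittingSubgroup ↥(Subgroup.centralizer ({z} : Set G))).subtype).map (Subgroup.centralizer ({z} : Set G)).subtype).map (MulAut.conj g).toMonoidHom ⊓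
        (B.map (Cfsg.generalizedFittingSubgroup ↥(Subgroup.centralizer ({z} : Set G))).subtype).map (Subgroup.centralizer ({z} : Set G)).subtype = ⊥ := by
  exact core z hz _ rfl _ Cfsg.Agent.Lib.Helper2.Comp.genFitting_normal
    Cfsg.Agent.Lib.Helper2.Comp.centralizer_genFitting_le hQ B hBc hBa g

end Cfsg.Agent.S1755
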