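import Cfsg.Statements.S1756

import Mathlib
import Cfsg.Agent.Lib.Helper7.Wr
import Cfsg.Agent.Lib.Helper1.Nil
import Cfsg.Agent.S0112

set_option autoImplicit false
open Cfsg
open scoped Pointwise

namespace Cfsg.Agent.S1756

open Cfsg.Agent.Lib.Helper7 Cfsg.Agent.Lib.Helper1
open scoped commutatorElement

theorem cent_index {P : Type*} [Group P] [Finite P] (hP : Cfsg.IsExtraspecial 2 P) (M : Subgroup P)
    (hZ : Subgroup.center P ≤ M) :
    (Subgroup.centralizer (M : Set P)).index * 2 ≤ Nat.card M := by
  haveI : Fact (Nat.Prime 2) := ⟨Nat.prime_two⟩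
  obtain ⟨⟨hpg, hfr, hcomm⟩, hcard⟩ := hP
  have step : ∀ k : ℕ, ∀ H : Subgroup P, Subgroup.center P ≤ H → H ≤ M →
      Nat.card M - Nat.card H = k →
      (Subgroup.centralizer (H : Set P)).index * 2 ≤ Nat.card H →
      (Subgroup.centralizer (M : Set P)).index * 2 ≤ Nat.card M := by
    intro k
    induction k using Nat.strong_induction_on with
    | _ k ih =>
      intro H hZH hHM hk hinv
      by_cases hEq : H = M
      · rw [← hEq]; exact hinv
      · obtain ⟨h, hhM, hhH⟩ := SetLike.not_le_iff_exists.1
          (fun hle => hEq (le_antisymm hHM hle))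
        haveI hHn : H.Normal := Wr.normal_of_commutator_le H (by rw [hcomm]; exact hZH)
        have hsq : h * h ∈ H := by
          apply hZH
          rw [← hfr]
          have h1 : Subgroup.zpowers (h * h) ≤ frattini P := by
            unfold frattini Order.radical
            apply le_iInf₂
            intro M' hM'
            obtain ⟨hMn, hMi⟩ := coatom_normal_index_of_isPGroup 2 hpg M' hM'
            rw [Subgroup.zpowers_le, Subgroup.mul_mem_iff_of_index_two hMi]
          exact h1 (Subgroup.mem_zpowers _)
        have hK := Wr.card_sup_gen H h hhH hsq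
        have hKM : H ⊔ Subgroup.zpowers h ≤ M :=
          sup_le hHM (by rw [Subgroup.zpowers_le]; exact hhM)
        have hcardle : Nat.card (H ⊔ Subgroup.zpowers h : Subgroup P) ≤ Nat.card M :=
          Subgroup.card_le_of_le hKM
        have hHpos : 0 < Nat.card H := Nat.card_pos
        apply ih (Nat.card M - Nat.card (H ⊔ Subgroup.zpowers h : Subgroup P)) (by omega)
          (H ⊔ Subgroup.zpowers h) (le_trans hZH le_sup_left) hKM rfl
        have hle : Subgroup.centralizer (H : Set P) ⊓ Subgroup.centralizer ({h} : Set P) ≤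
            Subgroup.centralizer ((H ⊔ Subgroup.zpowers h : Subgroup P) : Set P) := by
          intro g hg
          rw [Subgroup.mem_inf] at hg
          have h1 : H ⊔ Subgroup.zpowers h ≤ Subgroup.centralizer ({g} : Set P) := by
            apply sup_le
            · intro a ha
              rw [Subgroup.mem_centralizer_singleton_iff]
              exact (Subgroup.mem_centralizer_iff.1 hg.1 a ha)
            · rw [Subgroup.zpowers_le, Subgroup.mem_centralizer_singleton_iff]
              exact (Subgroup.mem_centralizer_singleton_iff.1 hg.2).symm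
          rw [Subgroup.mem_centralizer_iff]
          intro a ha
          exact Subgroup.mem_centralizer_singleton_iff.1 (h1 ha)
        have hidx1 : (Subgroup.centralizer ((H ⊔ Subgroup.zpowers h : Subgroup P) : Set P)).index ≤
            (Subgroup.centralizer (H : Set P) ⊓ Subgroup.centralizer ({h} : Set P)).index :=
          Nat.le_of_dvd (Nat.pos_of_ne_zero Subgroup.index_ne_zero_of_finite)
            (Subgroup.index_dvd_of_le hle)
        have hidx2 := Subgroup.index_inf_le (H := Subgroup.centralizer (H : Set P))
          (K := Subgroup.centralizer ({h} : Set P))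
        have hidx3 : (Subgroup.centralizer ({h} : Set P)).index ≤ 2 := by
          have h1 := Cfsg.Agent.S0112.card_le_of_comm_mem (⊤ : Subgroup P) (Subgroup.center P) h
            (fun g _ => by
              rw [← hcomm, commutator_def]
              exact Subgroup.commutator_mem_commutator (Subgroup.mem_top _) (Subgroup.mem_top _))
          rw [Subgroup.card_top, top_inf_eq, hcard] at h1
          have h2 := Subgroup.card_mul_index (Subgroup.centralizer ({h} : Set P))
          have h3 : 0 < Nat.card (Subgroup.centralizer ({h} : Set P)) := Nat.card_pos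
          by_contra hcon
          push Not at hcon
          have h4 : Nat.card (Subgroup.centralizer ({h} : Set P)) * 3 ≤
              Nat.card (Subgroup.centralizer ({h} : Set P)) *
                (Subgroup.centralizer ({h} : Set P)).index := Nat.mul_le_mul_left _ hcon
          omega
        have hidx4 : (Subgroup.centralizer (H : Set P)).index *
            (Subgroup.centralizer ({h} : Set P)).index ≤
            (Subgroup.centralizer (H : Set P)).index * 2 := Nat.mul_le_mul_left _ hidx3
        rw [hK]
        omega
  exact step _ (Subgroup.center P) le_rfl hZ rfl (by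
    have h1 : Subgroup.centralizer ((Subgroup.center P : Subgroup P) : Set P) = ⊤ := by
      rw [eq_top_iff]
      intro g _
      rw [Subgroup.mem_centralizer_iff]
      intro a ha
      exact (Subgroup.mem_center_iff.1 ha g).symm
    rw [h1, Subgroup.index_top, hcard])

theorem inner_of_fix {P : Type*} [Group P] [Finite P] (hP : Cfsg.IsExtraspecial 2 P) (σ : P →* P)
    (hσ : ∀ a, σ (σ a) = a) (M : Subgroup P) (hM : ∀ a, a ∈ M ↔ σ a = a) (hidx : M.index ≤ 2) :
    ∃ w : P, ∀ a, σ a = w * a * w⁻¹ := by
  have hP' := hP
  obtain ⟨⟨hpg, hfr, hcomm⟩, hcard⟩ := hP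
  obtain ⟨z0, hz0, hz0u⟩ := (Nat.card_eq_two_iff' (1 : Subgroup.center P)).1 hcard
  obtain ⟨z, hzc⟩ := z0
  have hz1 : z ≠ 1 := fun h => hz0 (Subtype.ext h)
  have hzu : ∀ c ∈ Subgroup.center P, c = 1 ∨ c = z := by
    intro c hc
    by_cases h1 : c = 1
    · left; exact h1
    · right
      have h2 := hz0u ⟨c, hc⟩ (fun h => h1 (congrArg Subtype.val h))
      exact congrArg Subtype.val h2
  have hzcomm : ∀ g : P, g * z = z * g := Subgroup.mem_center_iff.1 hzc
  have hzz : z * z = 1 := by
    rcases hzu (z * z) (Subgroup.mul_mem _ hzc hzc) with h | h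
    · exact h
    · exfalso; apply hz1
      have h2 : z * z = z * 1 := by rw [h, mul_one]
      exact mul_left_cancel h2
  have hcm : ∀ a b : P, ⁅a, b⁆ = 1 ∨ ⁅a, b⁆ = z := by
    intro a b
    apply hzu
    rw [← hcomm, commutator_def]
    exact Subgroup.commutator_mem_commutator (Subgroup.mem_top _) (Subgroup.mem_top _)
  have hσz : σ z = z := by
    have h1 : σ z ∈ Subgroup.center P := by
      rw [Subgroup.mem_center_iff]
      intro a
      have h2 : σ (σ a * z) = σ (z * σ a) := by rw [hzcomm]
      rw [map_mul, map_mul, hσ] at h2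
      exact h2
    rcases hzu _ h1 with h | h
    · exfalso; apply hz1
      have h3 := hσ z
      rw [h, map_one] at h3
      exact h3.symm
    · exact h
  have hzM : z ∈ M := (hM z).2 hσz
  by_cases hMtop : M = ⊤
  · refine ⟨1, fun a => ?_⟩
    have h1 : a ∈ M := by rw [hMtop]; exact Subgroup.mem_top _
    rw [(hM a).1 h1]; group
  have hi2 : M.index = 2 := by
    have h1 : M.index ≠ 1 := fun h => hMtop (Subgroup.index_eq_one.1 h)
    have h0 : M.index ≠ 0 := Subgroup.index_ne_zero_of_finite
    omega
  haveI hMn : M.Normal := Subgroup.normal_of_index_eq_two hi2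
  obtain ⟨q, _, hqM⟩ := SetLike.not_le_iff_exists.1
    (fun hle : (⊤ : Subgroup P) ≤ M => hMtop (top_le_iff.1 hle))
  have hsplit : ∀ g : P, g ∉ M → g * q ∈ M := by
    intro g hg
    rw [Subgroup.mul_mem_iff_of_index_two hi2]
    exact iff_of_false hg hqM
  obtain ⟨c, hc⟩ : ∃ c : P, c = σ q * q⁻¹ := ⟨_, rfl⟩
  have hσq : σ q = c * q := by rw [hc]; group
  have hcM : ∀ m ∈ M, c * m = m * c := by
    intro m hm
    have hm' : q⁻¹ * m * q ∈ M := by
      have h0 := hMn.conj_mem m hm q⁻¹
      rwa [inv_inv] at h0
    have h1 : σ (q * (q⁻¹ * m * q) * q⁻¹) = σ q * (q⁻¹ * m * q) * (σ q)⁻¹ := by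
      rw [map_mul, map_mul, map_inv, (hM _).1 hm']
    have h2 : q * (q⁻¹ * m * q) * q⁻¹ = m := by group
    rw [h2, (hM m).1 hm, hσq] at h1
    have h3 : c * q * (q⁻¹ * m * q) * (c * q)⁻¹ = c * m * c⁻¹ := by group
    rw [h3] at h1
    have h4 : m * c = c * m * c⁻¹ * c := by rw [← h1]
    rw [inv_mul_cancel_right] at h4
    exact h4.symm
  have hcinM : c ∈ M := by
    by_contra hcn
    have hcc : c ∈ Subgroup.center P := by
      rw [Subgroup.mem_center_iff]
      intro g
      by_cases hg : g ∈ M
      · exact (hcM g hg).symm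
      · have h1 : g * c ∈ M := by
          rw [Subgroup.mul_mem_iff_of_index_two hi2]
          exact iff_of_false hg hcn
        have h2 := hcM _ h1
        have h3 : c * g * c = g * c * c := by rw [mul_assoc]; exact h2
        exact (mul_right_cancel h3).symm
    rcases hzu c hcc with h | h
    · exact hcn (h ▸ M.one_mem)
    · exact hcn (h ▸ hzM)
  have hcc1 : c * c = 1 := by
    have h1 := hσ q
    rw [hσq, map_mul, (hM c).1 hcinM, hσq] at h1
    have h2 : c * c * q = 1 * q := by rw [one_mul, mul_assoc]; exact h1
    exact mul_right_cancel h2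
  have hc1 : c ≠ 1 := by
    intro h
    apply hqM
    rw [hM, hσq, h, one_mul]
  by_cases hcq : c * q = q * c
  · have hccen : c ∈ Subgroup.center P := by
      rw [Subgroup.mem_center_iff]
      intro g
      by_cases hg : g ∈ M
      · exact (hcM g hg).symm
      · have h1 := hsplit g hg
        have h2 := hcM _ h1
        have h3 : c * g * q = g * c * q := by
          rw [mul_assoc, h2, mul_assoc, ← hcq, ← mul_assoc]
        exact (mul_right_cancel h3).symm
    have hcz : c = z := by
      rcases hzu c hccen with h | h
      · exact absurd h hc1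
      · exact h
    have hZM : Subgroup.center P ≤ M := by
      intro a ha
      rcases hzu a ha with h | h
      · rw [h]; exact M.one_mem
      · rw [h]; exact hzM
    have hci := cent_index hP' M hZM
    have hMc : Nat.card M * 2 = Nat.card P := by rw [← hi2]; exact Subgroup.card_mul_index M
    have hCc := Subgroup.card_mul_index (Subgroup.centralizer (M : Set P))
    have hnot : ¬ Subgroup.centralizer (M : Set P) ≤ Subgroup.center P := by
      intro hle
      have h1 := Subgroup.card_le_of_le hle
      rw [hcard] at h1
      have h2 : Nat.card (Subgroup.centralizer (M : Set P)) *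
          (Subgroup.centralizer (M : Set P)).index ≤
          2 * (Subgroup.centralizer (M : Set P)).index := Nat.mul_le_mul_right _ h1
      have h3 : 0 < Nat.card M := Nat.card_pos
      omega
    obtain ⟨w, hwC, hwZ⟩ := SetLike.not_le_iff_exists.1 hnot
    have hwM : ∀ m ∈ M, w * m = m * w := by
      intro m hm
      exact (Subgroup.mem_centralizer_iff.1 hwC m hm).symm
    have hwq : ⁅w, q⁆ = z := by
      rcases hcm w q with h | h
      · exfalso
        apply hwZ
        rw [Subgroup.mem_center_iff]
        have hwq' : w * q = q * w := by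
          rw [commutatorElement_def] at h
          calc w * q = (w * q * w⁻¹ * q⁻¹) * (q * w) := by group
            _ = q * w := by rw [h, one_mul]
        intro g
        by_cases hg : g ∈ M
        · exact (hwM g hg).symm
        · have h1 := hsplit g hg
          have h2 := hwM _ h1
          have h3 : w * g * q = g * w * q := by
            rw [mul_assoc, h2, mul_assoc, ← hwq', ← mul_assoc]
          exact (mul_right_cancel h3).symm
      · exact h
    have hwq2 : w * q * w⁻¹ = σ q := by
      rw [hσq, hcz, ← hwq, commutatorElement_def]; group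
    refine ⟨w, fun a => ?_⟩
    by_cases ha : a ∈ M
    · rw [(hM a).1 ha, hwM a ha, mul_inv_cancel_right]
    · have h1 := hsplit a ha
      have h2 := (hM _).1 h1
      rw [map_mul] at h2
      have h3 : w * (a * q) * w⁻¹ = a * q := by rw [hwM _ h1, mul_inv_cancel_right]
      have h4 : σ a * σ q = (w * a * w⁻¹) * σ q := by
        rw [h2, ← hwq2, ← h3]; group
      exact mul_right_cancel h4
  · exfalso
    have hcq' : ⁅c, q⁆ = z := by
      rcases hcm c q with h | h
      · exfalso; apply hcq
        rw [commutatorElement_def] at h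
        calc c * q = (c * q * c⁻¹ * q⁻¹) * (q * c) := by group
          _ = q * c := by rw [h, one_mul]
      · exact h
    have h1 : c * q = z * q * c := by
      rw [← hcq', commutatorElement_def]; group
    have hqq : q * q ∈ M := by
      rw [Subgroup.mul_mem_iff_of_index_two hi2]
    have h2 := (hM _).1 hqq
    rw [map_mul, hσq] at h2
    have h3 : q * c = z * c * q := by
      have h0 : z * (c * q) = z * z * q * c := by rw [h1]; group
      rw [hzz, one_mul] at h0
      rw [← h0, mul_assoc]
    have h4 : c * q * (c * q) = z * (q * q) := by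
      calc c * q * (c * q) = c * (q * c) * q := by group
        _ = c * (z * c * q) * q := by rw [h3]
        _ = (c * z) * c * q * q := by group
        _ = (z * c) * c * q * q := by rw [hzcomm c]
        _ = z * (c * c) * (q * q) := by group
        _ = z * (q * q) := by rw [hcc1, mul_one]
    rw [h4] at h2
    apply hz1
    have h5 : z * (q * q) = 1 * (q * q) := by rw [one_mul]; exact h2
    exact mul_right_cancel h5

theorem result {G : Type*} [Group G] [Finite G] (Q : Subgroup G)
    (hQ : Cfsg.IsExtraspecial 2 ↥Q) (t : G) (ht : orderOf t = 2) (htN : t ∈ Subgroup.normalizer (Q : Set G))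
    (hi : (Subgroup.centralizer ({t} : Set G) ⊓ Q).relIndex Q ≤ 2) :
    t ∈ Q ⊔ Subgroup.centralizer (Q : Set G) := by
  classical
  have ht2 : t * t = 1 := by
    have h0 := pow_orderOf_eq_one t
    rw [ht, pow_two] at h0; exact h0
  have htinv : t⁻¹ = t := inv_eq_of_mul_eq_one_left ht2
  have hconj : ∀ q ∈ Q, t * q * t⁻¹ ∈ Q := by
    intro q hq
    exact (Subgroup.mem_normalizer_iff.1 htN q).1 hq
  let σ : ↥Q →* ↥Q := MonoidHom.mk' (fun q => ⟨t * (q : G) * t⁻¹, hconj q q.2⟩) (by
    intro a b
    apply Subtype.ext
    show t * ((a : G) * b) * t⁻¹ = t * a * t⁻¹ * (t * b * t⁻¹)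
    group)
  have hσv : ∀ a : ↥Q, ((σ a : ↥Q) : G) = t * a * t⁻¹ := fun a => rfl
  have hσ : ∀ a, σ (σ a) = a := by
    intro a
    apply Subtype.ext
    rw [hσv, hσv, htinv]
    calc t * (t * (a : G) * t) * t = (t * t) * a * (t * t) := by group
      _ = a := by rw [ht2, one_mul, mul_one]
  obtain ⟨w, hw⟩ := inner_of_fix hQ σ hσ
    ((Subgroup.centralizer ({t} : Set G) ⊓ Q).subgroupOf Q) (by
      intro a
      rw [Subgroup.mem_subgroupOf, Subgroup.mem_inf, Subgroup.mem_centralizer_singleton_iff]
      constructor
      · rintro ⟨h1, _⟩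
        apply Subtype.ext
        rw [hσv, ← h1, mul_inv_cancel_right]
      · intro h1
        have h2 := congrArg Subtype.val h1
        rw [hσv] at h2
        refine ⟨?_, a.2⟩
        have h3 : t * (a : G) * t⁻¹ * t = (a : G) * t := by rw [h2]
        rw [inv_mul_cancel_right] at h3
        exact h3.symm) hi
  have hcen : (w : G)⁻¹ * t ∈ Subgroup.centralizer (Q : Set G) := by
    rw [Subgroup.mem_centralizer_iff]
    intro a ha
    have h1 := congrArg Subtype.val (hw ⟨a, ha⟩)
    rw [hσv] at h1
    have h2 : t * a * t⁻¹ = (w : G) * a * (w : G)⁻¹ := by simpa using h1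
    have h3 : (w : G)⁻¹ * (t * a * t⁻¹) * t = (w : G)⁻¹ * ((w : G) * a * (w : G)⁻¹) * t := by
      rw [h2]
    have h4 : (w : G)⁻¹ * (t * a * t⁻¹) * t = (w : G)⁻¹ * t * a := by group
    have h5 : (w : G)⁻¹ * ((w : G) * a * (w : G)⁻¹) * t = a * ((w : G)⁻¹ * t) := by group
    rw [h4, h5] at h3
    exact h3.symm
  have h6 : t = (w : G) * ((w : G)⁻¹ * t) := by group
  rw [h6]
  exact Subgroup.mul_mem _ (Subgroup.mem_sup_left w.2) (Subgroup.mem_sup_right hcen)

end Cfsg.Agent.S1756
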