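import Cfsg.Statements.S1757

set_option autoImplicit false
open Cfsg
open scoped commutatorElement

namespace Cfsg.Agent.S1757

/-- Let p be a prime and A, B p-subgroups of the finite group G, each of which meets every conjugate of itself other than itself trivially. Suppose the order of A is at most that of B, A and B intersect trivially, and B normalizes A. Then A and B commute elementwise. -/
theorem result {G : Type*} [Group G] [Finite G] (p : ℕ) [Fact p.Prime] (A B : Subgroup G)
    (hA : IsPGroup p ↥A) (hB : IsPGroup p ↥B)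
    (hAti : ∀ g : G, A.map (MulAut.conj g).toMonoidHom = A ∨ A.map (MulAut.conj g).toMonoidHom ⊓ A = ⊥)
    (hBti : ∀ g : G, B.map (MulAut.conj g).toMonoidHom = B ∨ B.map (MulAut.conj g).toMonoidHom ⊓ B = ⊥)
    (hle : Nat.card ↥A ≤ Nat.card ↥B) (hAB : A ⊓ B = ⊥) (hN : B ≤ Subgroup.normalizer (A : Set G)) : ⁅A, B⁆ = ⊥ := by
  have hNA : ∀ b ∈ B, ∀ a ∈ A, b * a * b⁻¹ ∈ A := Subgroup.le_normalizer_iff.mp hN
  have hmem : ∀ (x y : G), y ∈ B.map (MulAut.conj x).toMonoidHom ↔ ∃ b ∈ B, x * b * x⁻¹ = y := by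
    intro x y
    rw [Subgroup.mem_map]
    rfl
  have hmapB : ∀ x ∈ A, B.map (MulAut.conj x).toMonoidHom = B := by
    intro x hx
    rcases hBti x with h | h
    · exact h
    · by_cases hx1 : x = 1
      · subst hx1
        ext y
        rw [hmem]
        simp
      exfalso
      let φ : ↥B → ↥A := fun b => ⟨(b : G) * x * (b : G)⁻¹, hNA b b.2 x hx⟩
      have hφ : Function.Injective φ := by
        intro b b' hbb
        have h1 : (b : G) * x * (b : G)⁻¹ = (b' : G) * x * (b' : G)⁻¹ := congrArg Subtype.val hbb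
        have h2 : x * ((b' : G)⁻¹ * b) * x⁻¹ = (b' : G)⁻¹ * b := by
          calc x * ((b' : G)⁻¹ * b) * x⁻¹ = (b' : G)⁻¹ * ((b' : G) * x * (b' : G)⁻¹) * b * x⁻¹ := by group
            _ = (b' : G)⁻¹ * ((b : G) * x * (b : G)⁻¹) * b * x⁻¹ := by rw [h1]
            _ = (b' : G)⁻¹ * b := by group
        have h3 : (b' : G)⁻¹ * b ∈ B.map (MulAut.conj x).toMonoidHom ⊓ B := by
          refine Subgroup.mem_inf.mpr ⟨?_, B.mul_mem (B.inv_mem b'.2) b.2⟩
          exact (hmem x _).mpr ⟨(b' : G)⁻¹ * b, B.mul_mem (B.inv_mem b'.2) b.2, h2⟩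
        rw [h, Subgroup.mem_bot] at h3
        apply Subtype.ext
        have h4 : (b : G) = (b' : G) * ((b' : G)⁻¹ * b) := by group
        rw [h4, h3, mul_one]
      have hns : ¬ Function.Surjective φ := by
        intro hs
        obtain ⟨b, hb⟩ := hs 1
        have h1 : (b : G) * x * (b : G)⁻¹ = 1 := congrArg Subtype.val hb
        apply hx1
        have h2 : x = (b : G)⁻¹ * ((b : G) * x * (b : G)⁻¹) * b := by group
        rw [h2, h1]; group
      have hlt : Nat.card ↥B < Nat.card ↥A := by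
        have _i1 : Fintype ↥A := Fintype.ofFinite _
        have _i2 : Fintype ↥B := Fintype.ofFinite _
        rw [Nat.card_eq_fintype_card, Nat.card_eq_fintype_card]
        exact Fintype.card_lt_of_injective_not_surjective φ hφ hns
      omega
  have hNB : ∀ x ∈ A, ∀ b ∈ B, x * b * x⁻¹ ∈ B := by
    intro x hx b hb
    rw [← hmapB x hx]
    exact (hmem x _).mpr ⟨b, hb, rfl⟩
  rw [eq_bot_iff, ← hAB, Subgroup.commutator_le]
  intro a ha b hb
  rw [commutatorElement_def]
  refine Subgroup.mem_inf.mpr ⟨?_, ?_⟩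
  · have h1 : a * b * a⁻¹ * b⁻¹ = a * (b * a⁻¹ * b⁻¹) := by group
    rw [h1]
    exact A.mul_mem ha (hNA b hb a⁻¹ (A.inv_mem ha))
  · exact B.mul_mem (hNB a ha b hb) (B.inv_mem hb)

end Cfsg.Agent.S1757
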