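import Mathlib
import Cfsg.Statements.S1780

set_option autoImplicit false
open Cfsg

namespace Cfsg.Agent.S1780

theorem fixed_of_two_group {A : Type*} [CommGroup A] [Finite A]
    (hA : IsPGroup 2 A) (t : MulAut A) (ht : ∃ k : ℕ, orderOf t = 2 ^ k)
    (hC : ∀ a : A, t (t a) = a → t a = a) :
    ∀ a : A, t a = a := by
  classical
  obtain ⟨k, hk⟩ := ht
  have : Fact (Nat.Prime 2) := ⟨Nat.prime_two⟩
  let δ : A →* A := t.toMonoidHom / MonoidHom.id A
  have hδ : ∀ a, δ a = t a * a⁻¹ := fun a => by simp [δ, div_eq_mul_inv]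
  have key : ∀ a : A, t (δ a) = δ a → δ a = 1 := by
    intro a hfix
    by_contra hne
    obtain ⟨m, hm⟩ := (IsPGroup.iff_orderOf.mp hA) (δ a)
    have hm1 : m ≠ 0 := by
      rintro rfl
      rw [pow_zero, orderOf_eq_one_iff] at hm
      exact hne hm
    obtain ⟨m', rfl⟩ := Nat.exists_eq_succ_of_ne_zero hm1
    have hy2 : ((δ a) ^ (2 ^ m')) ^ 2 = 1 := by
      rw [← pow_mul, ← pow_succ, ← hm, pow_orderOf_eq_one]
    have hy1 : (δ a) ^ (2 ^ m') ≠ 1 := by
      intro h
      have h3 := orderOf_dvd_of_pow_eq_one h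
      rw [hm] at h3
      have h4 := Nat.le_of_dvd (by positivity) h3
      have h5 : 2 ^ m' < 2 ^ (m' + 1) := Nat.pow_lt_pow_right (by norm_num) (Nat.lt_succ_self _)
      omega
    have hty : t ((δ a) ^ (2 ^ m')) = (δ a) ^ (2 ^ m') := by rw [map_pow, hfix]
    have hta' : t (a ^ (2 ^ m')) = a ^ (2 ^ m') * (δ a) ^ (2 ^ m') := by
      have h6 : δ (a ^ (2 ^ m')) = (δ a) ^ (2 ^ m') := by rw [map_pow]
      rw [hδ (a ^ (2 ^ m'))] at h6
      rw [← h6]; simp
    have h7 : t (t (a ^ (2 ^ m'))) = a ^ (2 ^ m') := by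
      rw [hta', map_mul, hta', hty, mul_assoc, ← sq, hy2, mul_one]
    have h2 := hC _ h7
    rw [hta'] at h2
    exact hy1 (by simpa using h2)
  have hG' : IsPGroup 2 (Subgroup.zpowers t) :=
    IsPGroup.of_card (n := k) (by rw [Nat.card_zpowers, hk])
  let I : SubMulAction (Subgroup.zpowers t) A :=
    { carrier := Set.range δ
      smul_mem' := by
        rintro ⟨g, hg⟩ x ⟨a, rfl⟩
        refine ⟨g a, ?_⟩
        obtain ⟨n, rfl⟩ := Subgroup.mem_zpowers_iff.mp hg
        have hc : t * t ^ n = t ^ n * t := (mul_self_zpow t n).trans (mul_zpow_self t n).symm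
        have hc' : t ((t ^ n) a) = (t ^ n) (t a) := by
          have := congrArg (fun f : MulAut A => f a) hc
          simpa [MulAut.mul_apply] using this
        change δ ((t ^ n) a) = (t ^ n) (δ a)
        rw [hδ, hδ, map_mul, map_inv, hc'] }
  have hcong := IsPGroup.card_modEq_card_fixedPoints hG' (↥I)
  have hfix : MulAction.fixedPoints (Subgroup.zpowers t) (↥I) = {⟨1, ⟨1, map_one δ⟩⟩} := by
    ext ⟨x, hx⟩
    simp only [MulAction.mem_fixedPoints, Set.mem_singleton_iff]
    constructor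
    · intro h
      obtain ⟨a, rfl⟩ := hx
      have h1 := h ⟨t, Subgroup.mem_zpowers t⟩
      have h2 : t (δ a) = δ a := congrArg Subtype.val h1
      exact Subtype.ext (key a h2)
    · intro h g
      obtain ⟨g, hg⟩ := g
      have hx1 : x = 1 := congrArg Subtype.val h
      subst hx1
      apply Subtype.ext
      change g 1 = 1
      exact map_one g
  have hfc : Nat.card (MulAction.fixedPoints (Subgroup.zpowers t) (↥I)) = 1 := by
    rw [hfix]
    exact Nat.card_eq_one_iff_unique.mpr ⟨inferInstance, inferInstance⟩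
  rw [hfc] at hcong
  have hI : Nat.card (↥I) = Nat.card (δ.range) := rfl
  obtain ⟨m, hm⟩ := (IsPGroup.iff_card.mp (IsPGroup.to_subgroup hA δ.range))
  rw [hI, hm] at hcong
  have hm0 : m = 0 := by
    by_contra hm0
    obtain ⟨m', rfl⟩ := Nat.exists_eq_succ_of_ne_zero hm0
    have : (2 ^ (m' + 1)) % 2 = 1 % 2 := hcong
    rw [pow_succ, Nat.mul_mod_left] at this
    omega
  rw [hm0, pow_zero] at hm
  have hbot : δ.range = ⊥ := Subgroup.card_eq_one.mp hm
  intro a
  have h1 : δ a ∈ δ.range := ⟨a, rfl⟩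
  rw [hbot, Subgroup.mem_bot, hδ] at h1
  exact mul_inv_eq_one.mp h1

theorem result {A : Type*} [CommGroup A] [Finite A]
    (hA : IsPGroup 2 A) (t : MulAut A) (ht : ∃ k : ℕ, orderOf t = 2 ^ k) (hC : ∀ a : A, t (t a) = a → t a = a) :
    ∀ a : A, t a = a := fixed_of_two_group hA t ht hC

end Cfsg.Agent.S1780
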