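import Mathlib
import Cfsg.Statements.S1781
import Cfsg.Agent.S1780
import Cfsg.Agent.S1757
import Cfsg.Agent.Lib.Helper3.Conj

set_option autoImplicit false
open Cfsg
open scoped commutatorElement
open Cfsg.Agent.Lib.Helper3.Conj

namespace Cfsg.Agent.S1781

theorem ti_map {G : Type*} [Group G] (A : Subgroup G)
    (hti : ∀ h : G, A.map (MulAut.conj h).toMonoidHom = A ∨ A.map (MulAut.conj h).toMonoidHom ⊓ A = ⊥)
    (g : G) (h : G) :
    (A.map (MulAut.conj g).toMonoidHom).map (MulAut.conj h).toMonoidHom = A.map (MulAut.conj g).toMonoidHom ∨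
      (A.map (MulAut.conj g).toMonoidHom).map (MulAut.conj h).toMonoidHom ⊓ A.map (MulAut.conj g).toMonoidHom = ⊥ := by
  rcases hti (g⁻¹ * h * g) with h1 | h1
  · left
    rw [map_conj_map]
    have h2 : h * g = g * (g⁻¹ * h * g) := by group
    rw [h2, ← map_conj_map, h1]
  · right
    rw [eq_bot_iff]
    intro y hy
    rw [Subgroup.mem_inf, map_conj_map, mem_map_conj, mem_map_conj] at hy
    have h3 : g⁻¹ * y * g ∈ A.map (MulAut.conj (g⁻¹ * h * g)).toMonoidHom ⊓ A := by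
      refine Subgroup.mem_inf.mpr ⟨?_, hy.2⟩
      rw [mem_map_conj]
      have h4 : (g⁻¹ * h * g)⁻¹ * (g⁻¹ * y * g) * (g⁻¹ * h * g) = (h * g)⁻¹ * y * (h * g) := by group
      rw [h4]
      exact hy.1
    rw [h1, Subgroup.mem_bot] at h3
    rw [Subgroup.mem_bot]
    have h5 : y = g * (g⁻¹ * y * g) * g⁻¹ := by group
    rw [h5, h3]
    group

theorem result {G : Type*} [Group G] [Finite G] (A : Subgroup G)
    (hA2 : IsPGroup 2 ↥A) (hAa : IsMulCommutative ↥A)
    (hti : ∀ h : G, A.map (MulAut.conj h).toMonoidHom = A ∨ A.map (MulAut.conj h).toMonoidHom ⊓ A = ⊥)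
    (g : G) (hg : A.map (MulAut.conj g).toMonoidHom ≠ A) :
    Cfsg.IsElementaryAbelian 2 (A ⊓ Subgroup.normalizer ((A.map (MulAut.conj g).toMonoidHom : Subgroup G) : Set G)) ∨
      ⁅A, A.map (MulAut.conj g).toMonoidHom⁆ = ⊥ := by
  classical
  have : Fact (Nat.Prime 2) := ⟨Nat.prime_two⟩
  have hBA : A.map (MulAut.conj g).toMonoidHom ⊓ A = ⊥ := (hti g).resolve_left hg
  generalize hB : A.map (MulAut.conj g).toMonoidHom = B at hBA ⊢
  have hBti : ∀ h : G, B.map (MulAut.conj h).toMonoidHom = B ∨ B.map (MulAut.conj h).toMonoidHom ⊓ B = ⊥ := by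
    intro h
    rw [← hB]
    exact ti_map A hti g h
  have hB2 : IsPGroup 2 ↥B := by rw [← hB]; exact hA2.map _
  have hBa : IsMulCommutative ↥B := by rw [← hB]; infer_instance
  have hcard : Nat.card ↥A = Nat.card ↥B := by rw [← hB, card_map_conj]
  have hAcomm : ∀ x ∈ A, ∀ y ∈ A, x * y = y * x := by
    intro x hx y hy
    have := hAa.is_comm.comm ⟨x, hx⟩ ⟨y, hy⟩
    exact congrArg Subtype.val this
  by_cases hcomm : ⁅A, B⁆ = ⊥
  · exact Or.inr hcomm
  left
  refine ⟨⟨⟨fun a b => Subtype.ext (hAcomm a a.2.1 b b.2.1)⟩⟩, ?_⟩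
  intro t ht
  by_contra ht2
  exfalso
  apply hcomm
  obtain ⟨htA, htN⟩ := Subgroup.mem_inf.mp ht
  have htB : ∀ b ∈ B, t * b * t⁻¹ ∈ B := fun b hb => (Subgroup.mem_normalizer_iff.mp htN b).mp hb
  have htB' : ∀ b ∈ B, t⁻¹ * b * t ∈ B := by
    intro b hb
    have h1 := (Subgroup.mem_normalizer_iff.mp htN (t⁻¹ * b * t)).mpr
    apply h1
    have h2 : t * (t⁻¹ * b * t) * t⁻¹ = b := by group
    rw [h2]; exact hb
  have ht1 : t ≠ 1 := by
    rintro rfl
    exact ht2 (one_pow 2)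
  have hnorm : ∀ (s : G), s ∈ A → s ≠ 1 → ∀ b : G, b * s * b⁻¹ = s → b ∈ Subgroup.normalizer (A : Set G) := by
    intro s hs hs1 b hbs
    rw [mem_normalizer_iff_map_conj]
    rcases hti b with h1 | h1
    · exact h1
    · exfalso
      have h2 : s ∈ A.map (MulAut.conj b).toMonoidHom ⊓ A := by
        refine Subgroup.mem_inf.mpr ⟨?_, hs⟩
        rw [← hbs]
        exact conj_mem_map A b s hs
      rw [h1, Subgroup.mem_bot] at h2
      exact hs1 h2
  have step1 : ∀ b ∈ B, b * (t ^ 2) * b⁻¹ = t ^ 2 → t * b * t⁻¹ = b := by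
    intro b hb hbt
    have hbN := hnorm (t ^ 2) (A.pow_mem htA 2) ht2 b hbt
    have h1 : b * t⁻¹ * b⁻¹ ∈ A := (Subgroup.mem_normalizer_iff.mp hbN t⁻¹).mp (A.inv_mem htA)
    have h2 : t * b * t⁻¹ * b⁻¹ ∈ B ⊓ A := by
      refine Subgroup.mem_inf.mpr ⟨B.mul_mem (htB b hb) (B.inv_mem hb), ?_⟩
      have h3 : t * b * t⁻¹ * b⁻¹ = t * (b * t⁻¹ * b⁻¹) := by group
      rw [h3]
      exact A.mul_mem htA h1
    rw [hBA, Subgroup.mem_bot] at h2
    exact mul_inv_eq_one.mp h2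
  let t' : MulAut ↥B :=
    { toFun := fun b => ⟨t * b * t⁻¹, htB b b.2⟩
      invFun := fun b => ⟨t⁻¹ * b * t, htB' b b.2⟩
      left_inv := fun b => Subtype.ext (by simp [mul_assoc])
      right_inv := fun b => Subtype.ext (by simp [mul_assoc])
      map_mul' := fun a b => Subtype.ext (by simp [mul_assoc]) }
  have ht'apply : ∀ b : ↥B, ((t' b : ↥B) : G) = t * b * t⁻¹ := fun b => rfl
  have ht'pow : ∀ (n : ℕ) (b : ↥B), (((t' ^ n) b : ↥B) : G) = t ^ n * b * (t ^ n)⁻¹ := by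
    intro n
    induction n with
    | zero => intro b; simp
    | succ n ih =>
      intro b
      rw [pow_succ', MulAut.mul_apply, ht'apply, ih, pow_succ']
      group
  have hord : ∃ k : ℕ, orderOf t' = 2 ^ k := by
    obtain ⟨j, hj⟩ := (IsPGroup.iff_orderOf.mp hA2) ⟨t, htA⟩
    have h1 : t ^ (2 ^ j) = 1 := by
      have h2 : (⟨t, htA⟩ : ↥A) ^ (2 ^ j) = 1 := by rw [← hj]; exact pow_orderOf_eq_one _
      exact congrArg Subtype.val h2
    have h3 : t' ^ (2 ^ j) = 1 := by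
      ext b
      rw [ht'pow, h1]
      simp
    have h4 := orderOf_dvd_of_pow_eq_one h3
    obtain ⟨k, _, hk⟩ := (Nat.dvd_prime_pow Nat.prime_two).mp h4
    exact ⟨k, hk⟩
  have hC : ∀ b : ↥B, t' (t' b) = b → t' b = b := by
    intro b hb
    apply Subtype.ext
    rw [ht'apply]
    apply step1 b b.2
    have h1 : t * (t * (b : G) * t⁻¹) * t⁻¹ = b := by
      have := congrArg Subtype.val hb
      rw [ht'apply, ht'apply] at this
      exact this
    have h2 : t ^ 2 * (b : G) = b * t ^ 2 := by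
      calc t ^ 2 * (b : G) = t * (t * (b : G) * t⁻¹) * t⁻¹ * t ^ 2 := by
            simp [pow_two, mul_assoc]
        _ = b * t ^ 2 := by rw [h1]
    calc (b : G) * t ^ 2 * (b : G)⁻¹ = t ^ 2 * (b : G) * (b : G)⁻¹ := by rw [h2]
      _ = t ^ 2 := by simp [mul_assoc]
  have hfix : ∀ b : ↥B, t' b = b := by
    let _i : CommGroup ↥B := { (inferInstance : Group ↥B) with mul_comm := hBa.is_comm.comm }
    exact Cfsg.Agent.S1780.fixed_of_two_group hB2 t' hord hC
  have hBN : B ≤ Subgroup.normalizer (A : Set G) := by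
    intro b hb
    apply hnorm t htA ht1 b
    have h1 : t * b * t⁻¹ = b := by
      have := congrArg Subtype.val (hfix ⟨b, hb⟩)
      rw [ht'apply] at this
      exact this
    calc b * t * b⁻¹ = (t * b * t⁻¹) * t * b⁻¹ := by rw [h1]
      _ = t := by group
  exact Cfsg.Agent.S1757.result 2 A B hA2 hB2 hti hBti hcard.le (by rw [inf_comm]; exact hBA) hBN

end Cfsg.Agent.S1781
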