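import Mathlib
import Cfsg.Statements.S1958
import Cfsg.Agent.S0028
import Cfsg.Agent.S0044
import Cfsg.Agent.S3800
import Cfsg.Agent.Lib.Helper2.Fit
import Cfsg.Agent.Lib.Helper2.PComp
import Cfsg.Agent.Lib.Helper8.Centric

set_option autoImplicit false
open Pointwise
open Cfsg
open scoped commutatorElement

namespace Cfsg.Agent.S1958

theorem cent_pcore {H : Type*} [Group H] [Finite H] [Group.IsSolvable H] (p : ℕ) [Fact p.Prime]
    (hO : Cfsg.pPrimeCore p H = ⊥) :
    Subgroup.centralizer (Cfsg.pCore p H : Set H) ≤ Cfsg.pCore p H := by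
  have hpp : p.Prime := Fact.out
  have h1 := S0044.result (G := H)
  have h2 : Cfsg.fittingSubgroup H = Cfsg.pCore p H := by
    rw [Lib.Helper2.Fit.fitting_eq_iSup_pCore]
    apply le_antisymm
    · apply iSup_le
      intro q
      by_cases hq : (q : ℕ) = p
      · rw [hq]
      · have h3 : Cfsg.pCore (q : ℕ) H ≤ Cfsg.pPrimeCore p H := by
          apply le_sSup
          refine ⟨Lib.Helper2.Fit.pCore_normal _, ?_⟩
          haveI : Fact (q : ℕ).Prime := ⟨q.2⟩
          obtain ⟨k, hk⟩ := IsPGroup.iff_card.1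
            (Lib.Helper2.Fit.pCore_isPGroup (G := H) (q : ℕ))
          rw [hk]
          exact Nat.Coprime.pow_left k ((Nat.coprime_primes q.2 hpp).2 hq)
        rw [hO] at h3
        exact h3.trans bot_le
    · exact le_iSup (fun q : Nat.Primes => Cfsg.pCore (q : ℕ) H) ⟨p, hpp⟩
  rw [h2] at h1
  exact h1

theorem keyK {H : Type*} [Group H] [Finite H] [Group.IsSolvable H] (p : ℕ) [Fact p.Prime]
    (x : H) (hx : x ^ p = 1) (D : Subgroup H) (hD : (Nat.card D).Coprime p)
    (hDx : ∀ d ∈ D, d * x = x * d)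
    (hnorm : ∀ c : H, c * x = x * c → ∀ d ∈ D, c * d * c⁻¹ ∈ D) :
    D ≤ Cfsg.pPrimeCore p H := by
  have hpp : p.Prime := Fact.out
  haveI hNn : (Cfsg.pPrimeCore p H).Normal := Lib.Helper2.PComp.pPrimeCore_normal p
  have hNcop : (Nat.card ↥(Cfsg.pPrimeCore p H)).Coprime p :=
    Lib.Helper8.Centric.pPrimeCore_coprime p
  obtain ⟨π, hπ⟩ : ∃ π : H →* H ⧸ Cfsg.pPrimeCore p H,
      π = QuotientGroup.mk' (Cfsg.pPrimeCore p H) := ⟨_, rfl⟩
  have hπker : ∀ g : H, π g = 1 ↔ g ∈ Cfsg.pPrimeCore p H := by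
    intro g; rw [hπ]; exact QuotientGroup.eq_one_iff g
  obtain ⟨Pb, hPb⟩ : ∃ Pb : Subgroup (H ⧸ Cfsg.pPrimeCore p H),
      Pb = Cfsg.pCore p (H ⧸ Cfsg.pPrimeCore p H) := ⟨_, rfl⟩
  haveI hPbn : Pb.Normal := hPb ▸ Lib.Helper2.Fit.pCore_normal p
  have hPbp : IsPGroup p Pb := hPb ▸ Lib.Helper2.Fit.pCore_isPGroup p
  have hcent : Subgroup.centralizer (Pb : Set (H ⧸ Cfsg.pPrimeCore p H)) ≤ Pb := by
    rw [hPb]
    exact cent_pcore p (Lib.Helper2.PComp.pPrimeCore_quotient_eq_bot p)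
  obtain ⟨Db, hDb⟩ : ∃ Db : Subgroup (H ⧸ Cfsg.pPrimeCore p H), Db = D.map π := ⟨_, rfl⟩
  have hDbcop : (Nat.card Db).Coprime p := by
    rw [hDb]; exact Nat.Coprime.coprime_dvd_left (Subgroup.card_map_dvd D π) hD
  obtain ⟨kP, hkP⟩ := IsPGroup.iff_card.1 hPbp
  have hDbPb : Db ⊓ Pb = ⊥ :=
    (Subgroup.disjoint_of_coprime_natCard
      (by rw [hkP]; exact Nat.Coprime.pow_right kP hDbcop)).eq_bot
  have hZp : IsPGroup p (Subgroup.zpowers x) := by
    intro z
    refine ⟨1, ?_⟩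
    obtain ⟨k, hk⟩ := Subgroup.mem_zpowers_iff.1 z.2
    apply Subtype.ext
    rw [pow_one]
    show (z : H) ^ p = 1
    rw [← hk, ← zpow_natCast, ← zpow_mul, mul_comm, zpow_mul, zpow_natCast, hx, one_zpow]
  have hlift := (S3800.result (Cfsg.pPrimeCore p H) hNcop (Subgroup.zpowers x) hZp).2
  rw [← hπ] at hlift
  have hDcent : ∀ u ∈ Pb, u * π x = π x * u → ∀ d ∈ Db, d * u = u * d := by
    intro u hu hux d hd
    have h1 : u ∈ Subgroup.centralizer
        (((Subgroup.zpowers x).map π : Subgroup (H ⧸ Cfsg.pPrimeCore p H)) :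
          Set (H ⧸ Cfsg.pPrimeCore p H)) := by
      rw [Subgroup.mem_centralizer_iff]
      intro z hz
      obtain ⟨w, hw, rfl⟩ := Subgroup.mem_map.1 hz
      obtain ⟨k, rfl⟩ := Subgroup.mem_zpowers_iff.1 hw
      rw [map_zpow]
      have hc : Commute (π x) u := hux.symm
      exact (hc.zpow_left k).eq
    rw [hlift] at h1
    obtain ⟨c, hc, rfl⟩ := Subgroup.mem_map.1 h1
    have hcx : c * x = x * c :=
      (Subgroup.mem_centralizer_iff.1 hc x (Subgroup.mem_zpowers x)).symm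
    rw [hDb] at hd
    obtain ⟨d₀, hd₀, rfl⟩ := Subgroup.mem_map.1 hd
    have h2 : ⁅π d₀, π c⁆ ∈ Db ⊓ Pb := by
      refine Subgroup.mem_inf.2 ⟨?_, ?_⟩
      · rw [hDb, ← map_commutatorElement]
        apply Subgroup.mem_map_of_mem
        have h3 : c * d₀⁻¹ * c⁻¹ ∈ D := hnorm c hcx d₀⁻¹ (D.inv_mem hd₀)
        have e1 : ⁅d₀, c⁆ = d₀ * (c * d₀⁻¹ * c⁻¹) := by
          simp only [commutatorElement_def]; group
        rw [e1]; exact D.mul_mem hd₀ h3
      · have e1 : ⁅π d₀, π c⁆ = (π d₀ * π c * (π d₀)⁻¹) * (π c)⁻¹ := by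
          simp only [commutatorElement_def]
        rw [e1]; exact Pb.mul_mem (hPbn.conj_mem _ hu _) (Pb.inv_mem hu)
    rw [hDbPb, Subgroup.mem_bot, commutatorElement_eq_one_iff_commute] at h2
    exact h2.eq
  have hnormal : ∀ K : Subgroup (H ⧸ Cfsg.pPrimeCore p H),
      K ≤ Subgroup.normalizer (Pb : Set (H ⧸ Cfsg.pPrimeCore p H)) := by
    intro K e _
    rw [Subgroup.mem_set_normalizer_iff]
    intro h
    constructor
    · intro hh; exact hPbn.conj_mem h hh e
    · intro hh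
      have h1 := hPbn.conj_mem _ hh e⁻¹
      have e2 : e⁻¹ * (e * h * e⁻¹) * e⁻¹⁻¹ = h := by group
      rw [e2] at h1
      exact h1
  have hDP := S0028.result p ((Subgroup.zpowers x).map π) Db Pb (hZp.map π) hDbcop hPbp
    (by
      intro z hz
      obtain ⟨w, hw, rfl⟩ := Subgroup.mem_map.1 hz
      obtain ⟨k, rfl⟩ := Subgroup.mem_zpowers_iff.1 hw
      rw [Subgroup.mem_centralizer_iff]
      intro d hd
      rw [hDb] at hd
      obtain ⟨d₀, hd₀, rfl⟩ := Subgroup.mem_map.1 hd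
      rw [← map_mul, ← map_mul]
      have hc : Commute d₀ x := hDx d₀ hd₀
      rw [(hc.zpow_right k).eq])
    (hnormal _) (hnormal _)
    (by
      intro a ha
      obtain ⟨ha1, ha2⟩ := Subgroup.mem_inf.1 ha
      rw [Subgroup.mem_centralizer_iff]
      have h1 : π x * a = a * π x :=
        Subgroup.mem_centralizer_iff.1 ha2 (π x)
          (Subgroup.mem_map_of_mem π (Subgroup.mem_zpowers x))
      exact hDcent a ha1 h1.symm)
  have hDbot : Db = ⊥ := by
    rw [eq_bot_iff, ← hDbPb]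
    exact le_inf le_rfl (hDP.trans hcent)
  intro d hd
  have h1 : π d ∈ Db := by rw [hDb]; exact Subgroup.mem_map_of_mem π hd
  rw [hDbot, Subgroup.mem_bot] at h1
  exact (hπker d).1 h1

theorem half {G : Type*} [Group G] [Finite G] (p : ℕ) [Fact p.Prime] (x y : G)
    (hx : orderOf x = p) (hxy : x * y = y * x)
    (hCy : Group.IsSolvable ↥(Subgroup.centralizer ({y} : Set G))) :
    Cfsg.centralizerPPrimeCore p x ⊓ Subgroup.centralizer {y} ≤
      Cfsg.centralizerPPrimeCore p y := by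
  have hpp : p.Prime := Fact.out
  have hxCy : x ∈ Subgroup.centralizer ({y} : Set G) := by
    rw [Subgroup.mem_centralizer_iff]
    intro h hh
    rw [Set.mem_singleton_iff.1 hh]; exact hxy.symm
  have hOxC : ∀ d ∈ Cfsg.centralizerPPrimeCore p x, x * d = d * x := by
    intro d hd
    obtain ⟨d', -, rfl⟩ := Subgroup.mem_map.1 hd
    exact Subgroup.mem_centralizer_iff.1 d'.2 x (Set.mem_singleton x)
  have hOxn : ∀ c : G, c * x = x * c → ∀ d ∈ Cfsg.centralizerPPrimeCore p x,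
      c * d * c⁻¹ ∈ Cfsg.centralizerPPrimeCore p x := by
    intro c hc d hd
    obtain ⟨d', hd', rfl⟩ := Subgroup.mem_map.1 hd
    have hcC : c ∈ Subgroup.centralizer ({x} : Set G) := by
      rw [Subgroup.mem_centralizer_iff]
      intro h hh
      rw [Set.mem_singleton_iff.1 hh]; exact hc.symm
    haveI : (Cfsg.pPrimeCore p ↥(Subgroup.centralizer ({x} : Set G))).Normal :=
      Lib.Helper2.PComp.pPrimeCore_normal p
    have h1 := (inferInstance : (Cfsg.pPrimeCore p
      ↥(Subgroup.centralizer ({x} : Set G))).Normal).conj_mem d' hd' ⟨c, hcC⟩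
    exact Subgroup.mem_map.2 ⟨_, h1, rfl⟩
  have hOxcop : (Nat.card ↥(Cfsg.centralizerPPrimeCore p x)).Coprime p := by
    have h1 : Nat.card ↥(Cfsg.centralizerPPrimeCore p x) =
        Nat.card ↥(Cfsg.pPrimeCore p ↥(Subgroup.centralizer ({x} : Set G))) :=
      Subgroup.card_map_of_injective (Subgroup.subtype_injective _)
    rw [h1]
    exact Lib.Helper8.Centric.pPrimeCore_coprime p
  have hxp : (⟨x, hxCy⟩ : ↥(Subgroup.centralizer ({y} : Set G))) ^ p = 1 := by
    apply Subtype.ext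
    show x ^ p = 1
    rw [← hx]; exact pow_orderOf_eq_one x
  have hK := keyK p (⟨x, hxCy⟩ : ↥(Subgroup.centralizer ({y} : Set G))) hxp
    ((Cfsg.centralizerPPrimeCore p x ⊓ Subgroup.centralizer {y}).subgroupOf
      (Subgroup.centralizer ({y} : Set G)))
    (by
      have h1 : Nat.card ↥((Cfsg.centralizerPPrimeCore p x ⊓ Subgroup.centralizer {y}).subgroupOf
          (Subgroup.centralizer ({y} : Set G))) =
          Nat.card ↥(Cfsg.centralizerPPrimeCore p x ⊓ Subgroup.centralizer {y}) :=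
        Nat.card_congr (Subgroup.subgroupOfEquivOfLe inf_le_right).toEquiv
      rw [h1]
      exact Nat.Coprime.coprime_dvd_left (Subgroup.card_dvd_of_le inf_le_left) hOxcop)
    (by
      intro d hd
      have h1 : (d : G) ∈ Cfsg.centralizerPPrimeCore p x :=
        (Subgroup.mem_inf.1 (Subgroup.mem_subgroupOf.1 hd)).1
      apply Subtype.ext
      show (d : G) * x = x * (d : G)
      exact (hOxC _ h1).symm)
    (by
      intro c hc d hd
      have h1 : (d : G) ∈ Cfsg.centralizerPPrimeCore p x :=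
        (Subgroup.mem_inf.1 (Subgroup.mem_subgroupOf.1 hd)).1
      have hc' : (c : G) * x = x * (c : G) := congrArg Subtype.val hc
      rw [Subgroup.mem_subgroupOf]
      refine Subgroup.mem_inf.2 ⟨hOxn (c : G) hc' (d : G) h1, ?_⟩
      exact (c * d * c⁻¹).2)
  intro g hg
  have hg2 : g ∈ Subgroup.centralizer ({y} : Set G) := (Subgroup.mem_inf.1 hg).2
  have h1 : (⟨g, hg2⟩ : ↥(Subgroup.centralizer ({y} : Set G))) ∈
      (Cfsg.centralizerPPrimeCore p x ⊓ Subgroup.centralizer {y}).subgroupOf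
        (Subgroup.centralizer ({y} : Set G)) := Subgroup.mem_subgroupOf.2 hg
  exact Subgroup.mem_map.2 ⟨_, hK h1, rfl⟩

theorem result {G : Type*} [Group G] [Finite G]
    (p : ℕ) [Fact p.Prime] (x y : G) (hx : orderOf x = p) (hy : orderOf y = p) (hxy : x * y = y * x)
    (hCx : Group.IsSolvable ↥(Subgroup.centralizer ({x} : Set G))) (hCy : Group.IsSolvable ↥(Subgroup.centralizer ({y} : Set G))) :
    Cfsg.centralizerPPrimeCore p x ⊓ Subgroup.centralizer {y} = Cfsg.centralizerPPrimeCore p y ⊓ Subgroup.centralizer {x} := by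
  have hle : ∀ a : G, Cfsg.centralizerPPrimeCore p a ≤ Subgroup.centralizer ({a} : Set G) := by
    intro a d hd
    obtain ⟨d', -, rfl⟩ := Subgroup.mem_map.1 hd
    exact d'.2
  apply le_antisymm
  · exact le_inf (half p x y hx hxy hCy) (inf_le_left.trans (hle x))
  · exact le_inf (half p y x hy hxy.symm hCx) (inf_le_left.trans (hle y))

end Cfsg.Agent.S1958
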