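import Cfsg.Statements.S1966
import Cfsg.Agent.Lib.Helper3.Core

set_option autoImplicit false
open Cfsg
open Cfsg.Agent.Lib.Helper3.Core

namespace Cfsg.Agent.S1966

/-- Let p be a prime, G a finite group with Sylow p-subgroup S and 𝓕 a conjugation family for S in G. Then the members of 𝓕 containing O_p(G) still form a conjugation family for S in G. -/
theorem result {G : Type*} [Group G] [Finite G] {p : ℕ} [Fact p.Prime] (S : Sylow p G) (𝓕 : Set (Subgroup G)) (h : Cfsg.IsConjugationFamily 𝓕 (S : Subgroup G)) : Cfsg.IsConjugationFamily {T : Subgroup G | T ∈ 𝓕 ∧ Cfsg.pCore p G ≤ T} (S : Subgroup G) := by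
  obtain ⟨h1, h2⟩ := h
  refine ⟨fun T hT => h1 T hT.1, ?_⟩
  intro A g hne hAS hAg
  have hRn : (Cfsg.pCore p G).Normal := pCore_normal p
  have hRS : Cfsg.pCore p G ≤ (S : Subgroup G) := pCore_le_sylow S
  obtain ⟨n, T, x, hprod, hT, hx, h0, hstep⟩ := h2 (A ∪ (Cfsg.pCore p G : Set G)) g
    (hne.mono Set.subset_union_left) (Set.union_subset hAS hRS) (by
      rintro _ ⟨a, ha | ha, rfl⟩
      · exact hAg ⟨a, ha, rfl⟩
      · apply hRS
        have := hRn.conj_mem a ha g⁻¹
        simpa using this)
  refine ⟨n, T, x, hprod, ?_, hx, fun hn => (Set.subset_union_left.trans (h0 hn)), ?_⟩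
  · intro i
    refine ⟨hT i, ?_⟩
    obtain ⟨j, hj⟩ := i
    cases j with
    | zero =>
      intro r hr
      exact h0 hj (Or.inr hr)
    | succ j =>
      intro r hr
      have hj' : j < n := by omega
      have h3 := hstep ⟨j, hj'⟩ hj
      have hr' : ((List.ofFn x).take (j + 1)).prod * r * (((List.ofFn x).take (j + 1)).prod)⁻¹
          ∈ Cfsg.pCore p G := hRn.conj_mem r hr _
      have h4 := h3 ⟨_, Or.inr hr', rfl⟩
      have h5 : (((List.ofFn x).take (j + 1)).prod)⁻¹ *
          (((List.ofFn x).take (j + 1)).prod * r * (((List.ofFn x).take (j + 1)).prod)⁻¹) *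
          ((List.ofFn x).take (j + 1)).prod = r := by group
      simp only at h4
      rw [h5] at h4
      exact h4
  · intro i hi
    exact (Set.image_mono Set.subset_union_left).trans (hstep i hi)

end Cfsg.Agent.S1966
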