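import Cfsg.Statements.S1967
import Cfsg.Agent.Lib.Helper3.Conj

set_option autoImplicit false
open Cfsg
open Cfsg.Agent.Lib.Helper3.Conj

namespace Cfsg.Agent.S1967

/-- Let p be a prime, G a finite group with Sylow p-subgroup S and W a conjugacy functor for p on G. Then W controls strong fusion in G if and only if, whenever T ≤ S and g ∈ G satisfy gTg⁻¹ ≤ S, one can write g = n c with n ∈ N_G(W(S)) and c ∈ C_G(T). -/
theorem result {G : Type*} [Group G] [Finite G] {p : ℕ} [Fact p.Prime] (S : Sylow p G) (W : Subgroup G → Subgroup G) (hW : Cfsg.IsConjugacyFunctor p W) : Cfsg.ControlsStrongFusionIn p W ⊤ ↔ ∀ (T : Subgroup G) (g : G), T ≤ (S : Subgroup G) → T.map (MulAut.conj g).toMonoidHom ≤ (S : Subgroup G) → ∃ n ∈ Subgroup.normalizer ((W (S : Subgroup G) : Subgroup G) : Set G), ∃ c ∈ Subgroup.centralizer (T : Set G), g = n * c := by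
  constructor
  · rintro ⟨T₀, _, hT₀p, hT₀i, hT₀⟩ T g hTS hTg
    obtain ⟨Q, hQ⟩ := exists_sylow_eq_of_relIndex_top T₀ hT₀p hT₀i
    obtain ⟨k, hk⟩ := exists_conj_of_sylow Q S
    rw [hQ] at hk
    have hSmem : ∀ x : G, x ∈ (S : Subgroup G) → k⁻¹ * x * k ∈ T₀ := by
      intro x hx
      rw [hk, mem_map_conj] at hx
      exact hx
    have hWS : W (S : Subgroup G) = (W T₀).map (MulAut.conj k).toMonoidHom := by
      rw [hk]
      exact (hW T₀ hT₀p).2.2 k
    obtain ⟨x, hx, hxa⟩ := hT₀ ((fun t => k⁻¹ * t * k) '' (T : Set G)) (k⁻¹ * g * k) (Subgroup.mem_top _)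
      (by
        rintro _ ⟨t, ht, rfl⟩
        exact hSmem t (hTS ht))
      (by
        rintro _ ⟨_, ⟨t, ht, rfl⟩, rfl⟩
        have h1 : g * t * g⁻¹ ∈ (S : Subgroup G) := hTg (conj_mem_map T g t ht)
        have h2 := hSmem _ h1
        have h3 : k⁻¹ * g * k * (k⁻¹ * t * k) * (k⁻¹ * g * k)⁻¹ = k⁻¹ * (g * t * g⁻¹) * k := by group
        change k⁻¹ * g * k * (k⁻¹ * t * k) * (k⁻¹ * g * k)⁻¹ ∈ T₀
        rw [h3]
        exact h2)
    have hxN : x ∈ Subgroup.normalizer ((W T₀ : Subgroup G) : Set G) := (Subgroup.mem_inf.mp hx).2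
    refine ⟨k * x * k⁻¹, ?_, (k * x * k⁻¹)⁻¹ * g, ?_, by group⟩
    · rw [hWS]
      exact conj_mem_normalizer_map (W T₀) k x hxN
    · rw [Subgroup.mem_centralizer_iff]
      intro t ht
      have h1 := hxa (k⁻¹ * t * k) ⟨t, ht, rfl⟩
      have h2 : k * x * k⁻¹ * t * (k * x * k⁻¹)⁻¹ = g * t * g⁻¹ := by
        calc k * x * k⁻¹ * t * (k * x * k⁻¹)⁻¹ = k * (x * (k⁻¹ * t * k) * x⁻¹) * k⁻¹ := by group
          _ = k * (k⁻¹ * g * k * (k⁻¹ * t * k) * (k⁻¹ * g * k)⁻¹) * k⁻¹ := by rw [h1]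
          _ = g * t * g⁻¹ := by group
      calc t * ((k * x * k⁻¹)⁻¹ * g) = (k * x * k⁻¹)⁻¹ * (k * x * k⁻¹ * t * (k * x * k⁻¹)⁻¹) * g := by group
        _ = (k * x * k⁻¹)⁻¹ * (g * t * g⁻¹) * g := by rw [h2]
        _ = (k * x * k⁻¹)⁻¹ * g * t := by group
  · intro hyp
    refine ⟨(S : Subgroup G), le_top, S.2, ?_, ?_⟩
    · rw [Subgroup.relIndex_top_right]
      exact S.not_dvd_index
    · intro A h _ hA hAh
      have h1 : Subgroup.closure A ≤ (S : Subgroup G) := (Subgroup.closure_le _).mpr hA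
      have h2 : (Subgroup.closure A).map (MulAut.conj h).toMonoidHom ≤ (S : Subgroup G) := by
        rw [MonoidHom.map_closure, Subgroup.closure_le]
        rintro _ ⟨a, ha, rfl⟩
        exact hAh ⟨a, ha, rfl⟩
      obtain ⟨n, hn, c, hc, rfl⟩ := hyp (Subgroup.closure A) h h1 h2
      refine ⟨n, Subgroup.mem_inf.mpr ⟨Subgroup.mem_top _, hn⟩, ?_⟩
      intro a ha
      have h3 := (Subgroup.mem_centralizer_iff.mp hc) a (Subgroup.subset_closure ha)
      calc n * a * n⁻¹ = n * (a * c) * c⁻¹ * n⁻¹ := by group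
        _ = n * (c * a) * c⁻¹ * n⁻¹ := by rw [h3]
        _ = n * c * a * (n * c)⁻¹ := by group

end Cfsg.Agent.S1967
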