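import Cfsg.Statements.S1975

set_option autoImplicit false
open Cfsg

namespace Cfsg.Agent.S1975

theorem upper_anti {P : Type*} [Group P] {Q Q' : Subgroup P} (h : Q ≤ Q') :
    Cfsg.kUpperStarFamily Q' ⊆ Cfsg.kUpperStarFamily Q := by
  rintro B ⟨hB1, hB2⟩
  exact ⟨hB1, le_trans (Subgroup.commutator_mono le_rfl h) hB2⟩

theorem lower_anti {P : Type*} [Group P] {Q Q' : Subgroup P} (h : Q ≤ Q') :
    Cfsg.kLowerStarFamily Q' ⊆ Cfsg.kLowerStarFamily Q := by
  rintro B ⟨hB1, hB2, hB3⟩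
  exact ⟨hB1, le_trans h hB2, fun A hA hAQ => hB3 A hA (le_trans hAQ h)⟩

theorem odd_succ (P : Type*) [Group P] (n : ℕ) :
    Cfsg.kSeqOdd P (n + 1) = sSup (Cfsg.kUpperStarFamily (sSup (Cfsg.kLowerStarFamily (Cfsg.kSeqOdd P n)))) := rfl

theorem odd_anti (P : Type*) [Group P] (n : ℕ) : Cfsg.kSeqOdd P (n + 1) ≤ Cfsg.kSeqOdd P n := by
  induction n with
  | zero => exact le_top
  | succ n ih =>
    rw [odd_succ P (n + 1), odd_succ P n]
    exact sSup_le_sSup (upper_anti (sSup_le_sSup (lower_anti ih)))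

theorem even_mono (P : Type*) [Group P] (n : ℕ) : Cfsg.kSeqEven P n ≤ Cfsg.kSeqEven P (n + 1) :=
  sSup_le_sSup (lower_anti (odd_anti P n))

/-- Let P be a finite p-group. In the K-sequence of P the odd-indexed terms decrease and the even-indexed terms increase: with the numbering used here, kSeqOdd P (n+1) ≤ kSeqOdd P n and kSeqEven P n ≤ kSeqEven P (n+1) for every n. -/
theorem result {P : Type*} [Group P] [Finite P] {p : ℕ} [Fact p.Prime] (hP : IsPGroup p P) (n : ℕ) : Cfsg.kSeqOdd P (n + 1) ≤ Cfsg.kSeqOdd P n ∧ Cfsg.kSeqEven P n ≤ Cfsg.kSeqEven P (n + 1) := by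
  exact ⟨odd_anti P n, even_mono P n⟩

end Cfsg.Agent.S1975
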