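import Mathlib
import Cfsg.Statements.S1977
import Cfsg.Agent.Lib.Helper3.PGroup

set_option autoImplicit false
open Cfsg
open scoped commutatorElement
open Cfsg.Agent.Lib.Helper3.PGroup

namespace Cfsg.Agent.S1977

theorem comm_of_mem {P : Type*} [Group P] (B : Subgroup P) (x : P)
    (hx : x ∈ Subgroup.centralizer (B : Set P)) (y : P) (hy : y ∈ B ⊔ Subgroup.zpowers x)
    (c : P) (hcB : c ∈ B) (hcC : c ∈ Subgroup.centralizer (B : Set P)) : y * c = c * y := by
  obtain ⟨b, hb, k, rfl⟩ := mem_sup_zpowers B x hx y hy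
  have h1 : b * c = c * b := Subgroup.mem_centralizer_iff.mp hcC b hb
  have h2 : Commute x c := (Subgroup.mem_centralizer_iff.mp hx c hcB).symm
  have h3 : x ^ k * c = c * x ^ k := (h2.zpow_left k).eq
  calc b * x ^ k * c = b * (x ^ k * c) := by rw [mul_assoc]
    _ = b * c * x ^ k := by rw [h3, mul_assoc]
    _ = c * (b * x ^ k) := by rw [h1, mul_assoc]

theorem center_le {P : Type*} [Group P] (B : Subgroup P) (x : P)
    (hx : x ∈ Subgroup.centralizer (B : Set P)) :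
    B ⊓ Subgroup.centralizer (B : Set P) ≤
      (B ⊔ Subgroup.zpowers x) ⊓ Subgroup.centralizer ((B ⊔ Subgroup.zpowers x : Subgroup P) : Set P) := by
  intro z hz
  refine Subgroup.mem_inf.mpr ⟨le_sup_left (a := B) hz.1, ?_⟩
  rw [Subgroup.mem_centralizer_iff]
  intro y hy
  exact comm_of_mem B x hx y hy z hz.1 hz.2

theorem classTwo_adj {P : Type*} [Group P] (B : Subgroup P) (x : P)
    (hx : x ∈ Subgroup.centralizer (B : Set P)) (hB : B ∈ Cfsg.classTwoSubgroups P) :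
    B ⊔ Subgroup.zpowers x ∈ Cfsg.classTwoSubgroups P := by
  have hB' : ⁅B, B⁆ ≤ Subgroup.centralizer (B : Set P) := hB
  change ⁅B ⊔ Subgroup.zpowers x, B ⊔ Subgroup.zpowers x⁆ ≤
    Subgroup.centralizer ((B ⊔ Subgroup.zpowers x : Subgroup P) : Set P)
  rw [Subgroup.commutator_le]
  intro g₁ hg₁ g₂ hg₂
  obtain ⟨b, hb, k, rfl⟩ := mem_sup_zpowers B x hx g₁ hg₁
  obtain ⟨b', hb', l, rfl⟩ := mem_sup_zpowers B x hx g₂ hg₂
  have hxc : ∀ c ∈ B, ∀ m : ℤ, x ^ m * c = c * x ^ m := by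
    intro c hc m
    have h2 : Commute x c := (Subgroup.mem_centralizer_iff.mp hx c hc).symm
    exact (h2.zpow_left m).eq
  have h1 : ⁅b * x ^ k, b' * x ^ l⁆ = ⁅b, b'⁆ := by
    have e1 : (b * x ^ k) * (b' * x ^ l) = (b * b') * (x ^ k * x ^ l) := by
      rw [mul_assoc, ← mul_assoc (x ^ k), hxc b' hb' k]; simp only [mul_assoc]
    have e2 : (b' * x ^ l) * (b * x ^ k) = (b' * b) * (x ^ k * x ^ l) := by
      rw [mul_assoc, ← mul_assoc (x ^ l), hxc b hb l, (Commute.zpow_zpow_self x k l).eq]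
      simp only [mul_assoc]
    have e3 : ∀ u v : P, ⁅u, v⁆ = u * v * (v * u)⁻¹ := by
      intro u v; simp only [commutatorElement_def]; group
    rw [e3, e3, e1, e2]
    group
  rw [h1]
  have hc1 : ⁅b, b'⁆ ∈ Subgroup.centralizer (B : Set P) := hB' (Subgroup.commutator_mem_commutator hb hb')
  have hc2 : ⁅b, b'⁆ ∈ B := by
    rw [commutatorElement_def]
    exact B.mul_mem (B.mul_mem (B.mul_mem hb hb') (B.inv_mem hb)) (B.inv_mem hb')
  rw [Subgroup.mem_centralizer_iff]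
  intro y hy
  exact comm_of_mem B x hx y hy _ hc2 hc1

theorem gens_normalizer {P : Type*} [Group P] (B : Subgroup P) (x : P)
    (hx : x ∈ Subgroup.centralizer (B : Set P)) :
    ∀ s ∈ (B : Set P) ∪ {x},
      s ∈ Subgroup.normalizer ((B ⊓ Subgroup.centralizer (B : Set P) : Subgroup P) : Set P) := by
  intro s hs
  apply centralizer_le_normalizer'
  rw [Subgroup.mem_centralizer_iff]
  intro z hz
  rcases hs with hs | hs
  · exact (Subgroup.mem_centralizer_iff.mp hz.2 s hs).symm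
  · rw [Set.mem_singleton_iff] at hs
    subst hs
    exact Subgroup.mem_centralizer_iff.mp hx z hz.1

theorem upper_adj {P : Type*} [Group P] (B Q : Subgroup P) (x : P)
    (hx : x ∈ Subgroup.centralizer (B : Set P))
    (hxq : ∀ q ∈ Q, ⁅x, q⁆ ∈ B ⊓ Subgroup.centralizer (B : Set P))
    (hB : B ∈ Cfsg.kUpperStarFamily Q) : B ⊔ Subgroup.zpowers x ∈ Cfsg.kUpperStarFamily Q := by
  obtain ⟨hB1, hB2⟩ := hB
  refine ⟨classTwo_adj B x hx hB1, ?_⟩
  refine le_trans ?_ (center_le B x hx)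
  rw [Subgroup.commutator_le]
  intro y hy q hq
  rw [sup_zpowers_eq_closure] at hy
  refine comm_mem_closure _ Q _ ?_ y hy q hq
  intro s hs
  refine ⟨gens_normalizer B x hx s hs, ?_⟩
  rcases hs with hs | hs
  · intro q hq
    exact hB2 (Subgroup.commutator_mem_commutator hs hq)
  · rw [Set.mem_singleton_iff] at hs
    subst hs
    exact hxq

theorem lower_adj {P : Type*} [Group P] (B Q : Subgroup P) (x : P)
    (hx : x ∈ Subgroup.centralizer (B : Set P))
    (hxq : ∀ q ∈ Q, ⁅x, q⁆ ∈ B ⊓ Subgroup.centralizer (B : Set P))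
    (hB : B ∈ Cfsg.kLowerStarFamily Q) : B ⊔ Subgroup.zpowers x ∈ Cfsg.kLowerStarFamily Q := by
  obtain ⟨hB1, hB2, hB3⟩ := hB
  have hcomm : ∀ y ∈ B ⊔ Subgroup.zpowers x, ∀ q ∈ Q, ⁅y, q⁆ ∈ B := by
    intro y hy q hq
    rw [sup_zpowers_eq_closure] at hy
    refine comm_mem_closure B Q _ ?_ y hy q hq
    intro s hs
    rcases hs with hs | hs
    · exact ⟨Subgroup.le_normalizer hs, fun q hq => comm_mem_of_mem_normalizer B q (hB2 hq) s hs⟩
    · rw [Set.mem_singleton_iff] at hs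
      subst hs
      exact ⟨centralizer_le_normalizer' B hx, fun q hq => (hxq q hq).1⟩
  refine ⟨classTwo_adj B x hx hB1, ?_, ?_⟩
  · intro q hq
    apply mem_normalizer_of_comm_mem
    · intro y hy
      exact le_sup_left (a := B) (hcomm y hy q hq)
    · intro y hy
      exact le_sup_left (a := B) (hcomm y hy q⁻¹ (Q.inv_mem hq))
  · intro A hA hAQ hN h1 h2
    have hBA : ⁅B, A⁆ ≤ B ⊓ Subgroup.centralizer (B : Set P) := by
      apply hB3 A hA hAQ (le_trans le_sup_left hN)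
      · rw [eq_bot_iff, ← h1]
        exact Subgroup.commutator_mono le_sup_left le_rfl
      · rw [eq_bot_iff, ← h2]
        exact Subgroup.commutator_mono (Subgroup.commutator_mono (center_le B x hx) le_rfl) le_rfl
    refine le_trans ?_ (center_le B x hx)
    rw [Subgroup.commutator_le]
    intro y hy a ha
    rw [sup_zpowers_eq_closure] at hy
    refine comm_mem_closure _ A _ ?_ y hy a ha
    intro s hs
    refine ⟨gens_normalizer B x hx s hs, ?_⟩
    rcases hs with hs | hs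
    · intro a ha
      exact hBA (Subgroup.commutator_mem_commutator hs ha)
    · rw [Set.mem_singleton_iff] at hs
      subst hs
      intro a ha
      exact hxq a (hAQ ha)

theorem upper_le_normalizer {P : Type*} [Group P] (B Q : Subgroup P)
    (hB : B ∈ Cfsg.kUpperStarFamily Q) : Q ≤ Subgroup.normalizer (B : Set P) := by
  obtain ⟨_, hB2⟩ := hB
  intro q hq
  apply mem_normalizer_of_comm_mem
  · intro y hy
    exact (hB2 (Subgroup.commutator_mem_commutator hy hq)).1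
  · intro y hy
    exact (hB2 (Subgroup.commutator_mem_commutator hy (Q.inv_mem hq))).1

theorem centralizer_le_of_max {P : Type*} [Group P] [Finite P] {p : ℕ} [Fact p.Prime]
    (hP : IsPGroup p P) (B : Subgroup P) (𝒦 : Set (Subgroup P))
    (h𝒦 : 𝒦 = Cfsg.classTwoSubgroups P ∨ (∃ Q, 𝒦 = Cfsg.kLowerStarFamily Q) ∨
      ∃ Q, 𝒦 = Cfsg.kUpperStarFamily Q)
    (hB : B ∈ 𝒦) (hmax : ∀ C ∈ 𝒦, B ≤ C → C = B) : Subgroup.centralizer (B : Set P) ≤ B := by
  have hnil : Group.IsNilpotent P := hP.isNilpotent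
  by_contra hC
  have hfin : ∀ x : P, B ⊔ Subgroup.zpowers x ∈ 𝒦 → x ∈ B := by
    intro x hx
    have h1 := hmax _ hx le_sup_left
    rw [← h1]
    exact le_sup_right (a := B) (Subgroup.mem_zpowers x)
  rcases h𝒦 with rfl | ⟨Q, rfl⟩ | ⟨Q, rfl⟩
  · obtain ⟨x, hx, hxB⟩ := SetLike.not_le_iff_exists.mp hC
    exact hxB (hfin x (classTwo_adj B x hx hB))
  · obtain ⟨x, hx, hxB, hxq⟩ := exists_centralizer_elt B Q hB.2.1 hC
    exact hxB (hfin x (lower_adj B Q x hx hxq hB))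
  · obtain ⟨x, hx, hxB, hxq⟩ := exists_centralizer_elt B Q (upper_le_normalizer B Q hB) hC
    exact hxB (hfin x (upper_adj B Q x hx hxq hB))

theorem result {P : Type*} [Group P] [Finite P] {p : ℕ} [Fact p.Prime] (hP : IsPGroup p P) (B : Subgroup P) (𝒦 : Set (Subgroup P)) (h𝒦 : 𝒦 = Cfsg.classTwoSubgroups P ∨ (∃ n, 𝒦 = Cfsg.kLowerStarFamily (Cfsg.kSeqOdd P n)) ∨ ∃ n, 𝒦 = Cfsg.kUpperStarFamily (Cfsg.kSeqEven P n)) (hB : B ∈ 𝒦) (hmax : ∀ C ∈ 𝒦, B ≤ C → C = B) : Subgroup.centralizer (B : Set P) ≤ B := by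
  refine centralizer_le_of_max hP B 𝒦 ?_ hB hmax
  rcases h𝒦 with h | ⟨n, h⟩ | ⟨n, h⟩
  · exact Or.inl h
  · exact Or.inr (Or.inl ⟨_, h⟩)
  · exact Or.inr (Or.inr ⟨_, h⟩)

end Cfsg.Agent.S1977
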