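import Mathlib
import Cfsg.Statements.S1978
import Cfsg.Agent.S1976
import Cfsg.Agent.S1977

set_option autoImplicit false
open Cfsg
open scoped commutatorElement

namespace Cfsg.Agent.S1978

theorem bot_mem_classTwo (P : Type*) [Group P] : (⊥ : Subgroup P) ∈ Cfsg.classTwoSubgroups P := by
  change ⁅(⊥ : Subgroup P), (⊥ : Subgroup P)⁆ ≤ _
  rw [Subgroup.commutator_bot_left]
  exact bot_le

theorem bot_mem_lower {P : Type*} [Group P] (Q : Subgroup P) :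
    (⊥ : Subgroup P) ∈ Cfsg.kLowerStarFamily Q := by
  refine ⟨bot_mem_classTwo P, ?_, ?_⟩
  · intro q _
    rw [Subgroup.mem_normalizer_iff]
    intro h
    simp [Subgroup.mem_bot]
  · intro A _ _ _ _ _
    rw [Subgroup.commutator_bot_left]
    exact bot_le

theorem bot_mem_upper {P : Type*} [Group P] (Q : Subgroup P) :
    (⊥ : Subgroup P) ∈ Cfsg.kUpperStarFamily Q := by
  refine ⟨bot_mem_classTwo P, ?_⟩
  rw [Subgroup.commutator_bot_left]
  exact bot_le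

theorem centralizer_sSup_le {P : Type*} [Group P] [Finite P] {p : ℕ} [Fact p.Prime]
    (hP : IsPGroup p P) (𝒦 : Set (Subgroup P))
    (h𝒦 : (∃ Q, 𝒦 = Cfsg.kLowerStarFamily Q) ∨ ∃ Q, 𝒦 = Cfsg.kUpperStarFamily Q) :
    Subgroup.centralizer ((sSup 𝒦 : Subgroup P) : Set P) ≤ sSup 𝒦 := by
  have hbot : (⊥ : Subgroup P) ∈ 𝒦 := by
    rcases h𝒦 with ⟨Q, rfl⟩ | ⟨Q, rfl⟩
    · exact bot_mem_lower Q
    · exact bot_mem_upper Q
  obtain ⟨B, _, hBmax⟩ := Set.Finite.exists_le_maximal (Set.toFinite 𝒦) hbot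
  have hB : B ∈ 𝒦 := hBmax.1
  have hmax : ∀ C ∈ 𝒦, B ≤ C → C = B := fun C hC hle => le_antisymm (hBmax.2 hC hle) hle
  have h1 := Cfsg.Agent.S1977.centralizer_le_of_max hP B 𝒦 (Or.inr h𝒦) hB hmax
  have h2 : B ≤ sSup 𝒦 := le_sSup hB
  exact (Subgroup.centralizer_le h2).trans (h1.trans h2)

theorem result {P : Type*} [Group P] [Finite P] {p : ℕ} [Fact p.Prime] (hP : IsPGroup p P) : Subgroup.centralizer (Cfsg.kInfLower P : Set P) ≤ Cfsg.kInfLower P ∧ Subgroup.center P ≤ Subgroup.centralizer (Cfsg.kInfLower P : Set P) ∧ Subgroup.centralizer (Cfsg.kInfUpper P : Set P) ≤ Cfsg.kInfUpper P ∧ Subgroup.center P ≤ Subgroup.centralizer (Cfsg.kInfUpper P : Set P) := by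
  obtain ⟨n, hn⟩ := Cfsg.Agent.S1976.result hP
  have h1 : Cfsg.kInfLower P = sSup (Cfsg.kLowerStarFamily (Cfsg.kSeqOdd P n)) :=
    (hn n le_rfl).1.symm
  have h2 : Cfsg.kInfUpper P = sSup (Cfsg.kUpperStarFamily (sSup (Cfsg.kLowerStarFamily (Cfsg.kSeqOdd P n)))) :=
    (hn (n + 1) (Nat.le_succ n)).2.symm
  refine ⟨?_, Subgroup.center_le_centralizer _, ?_, Subgroup.center_le_centralizer _⟩
  · rw [h1]
    exact centralizer_sSup_le hP _ (Or.inl ⟨_, rfl⟩)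
  · rw [h2]
    exact centralizer_sSup_le hP _ (Or.inr ⟨_, rfl⟩)

end Cfsg.Agent.S1978
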