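import Cfsg.Statements.S1980

set_option autoImplicit false
open Cfsg

namespace Cfsg.Agent.S1980

/-- Let P be a finite p-group and A an abelian normal subgroup of P. Then A belongs to every family used to build the K-sequence of P: the class-two family, every lower-star family relative to an odd-indexed term, and every upper-star family relative to an even-indexed term. In particular A lies in every term of the K-sequence. -/
theorem result {P : Type*} [Group P] [Finite P] {p : ℕ} [Fact p.Prime] (hP : IsPGroup p P) (A : Subgroup P) [A.Normal] (hA : IsMulCommutative ↥A) : A ∈ Cfsg.classTwoSubgroups P ∧ ∀ n : ℕ, A ∈ Cfsg.kLowerStarFamily (Cfsg.kSeqOdd P n) ∧ A ∈ Cfsg.kUpperStarFamily (Cfsg.kSeqEven P n) := by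
  have hAc : A ≤ Subgroup.centralizer (A : Set P) :=
    (Subgroup.le_centralizer_iff_isMulCommutative).mpr hA
  have hAA : ⁅A, A⁆ = ⊥ := Subgroup.commutator_eq_bot_iff_le_centralizer.mpr hAc
  have h2 : A ∈ Cfsg.classTwoSubgroups P := by
    change ⁅A, A⁆ ≤ Subgroup.centralizer (A : Set P)
    rw [hAA]; exact bot_le
  have h3 : ∀ Q : Subgroup P, ⁅A, Q⁆ ≤ A ⊓ Subgroup.centralizer (A : Set P) := fun Q =>
    le_inf (Subgroup.commutator_le_left A Q) (le_trans (Subgroup.commutator_le_left A Q) hAc)
  refine ⟨h2, fun n => ⟨⟨h2, ?_, fun A' _ _ _ _ _ => h3 A'⟩, ⟨h2, h3 _⟩⟩⟩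
  rw [Subgroup.normalizer_eq_top]
  exact le_top

end Cfsg.Agent.S1980
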