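import Cfsg.Statements.S2009

set_option autoImplicit false
open Cfsg

namespace Cfsg.Agent.S2009

theorem exists_pair {H : Type*} [Group H] (E : Subgroup H) (hE : IsKleinFour ↥E) :
    ∃ a b : H, a ∈ E ∧ b ∈ E ∧ a ≠ 1 ∧ b ≠ 1 ∧ a ≠ b ∧ a * a = 1 ∧ b * b = 1 := by
  classical
  have := hE
  have : Finite ↥E := IsKleinFour.instFinite
  have hcard : Nat.card ↥E = 4 := hE.card_four
  have : Nontrivial ↥E := by
    rw [← Finite.one_lt_card_iff_nontrivial]; omega
  obtain ⟨a, ha⟩ := exists_ne (1 : ↥E)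
  have hb : ∃ b : ↥E, b ≠ 1 ∧ b ≠ a := by
    by_contra hcon
    push Not at hcon
    let := Fintype.ofFinite ↥E
    have hsub : (Finset.univ : Finset ↥E) ⊆ {1, a} := by
      intro b _
      by_cases hb1 : b = 1
      · simp [hb1]
      · simp [hcon b hb1]
    have h1 := Finset.card_le_card hsub
    have h2 : ({1, a} : Finset ↥E).card ≤ 2 := Finset.card_le_two
    rw [Finset.card_univ, ← Nat.card_eq_fintype_card, hcard] at h1
    omega
  obtain ⟨b, hb1, hba⟩ := hb
  refine ⟨a, b, a.2, b.2, ?_, ?_, ?_, ?_, ?_⟩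
  · intro h; exact ha (Subtype.ext h)
  · intro h; exact hb1 (Subtype.ext h)
  · intro h; exact hba (Subtype.ext h.symm)
  · exact congrArg Subtype.val (IsKleinFour.mul_self a)
  · exact congrArg Subtype.val (IsKleinFour.mul_self b)

theorem core {H : Type*} [Group H] [Finite H] (z : H)
    (hN : ∀ N : Subgroup H, N.Normal → N ≠ ⊤ → N ⊓ Subgroup.centralizer ({z} : Set H) = ⊥)
    (E : Subgroup H) (hE : IsKleinFour ↥E) (hc : ∀ e ∈ E, e ≠ 1 → IsConj z e)
    (N : Subgroup H) (hNn : N.Normal) (hNt : N ≠ ⊤) : N = ⊥ := by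
  have h1 : ∀ e ∈ E, e ≠ 1 → ∀ n ∈ N, e * n = n * e → n = 1 := by
    intro e he he1 n hn hcomm
    obtain ⟨g, hg⟩ := isConj_iff.mp (hc e he he1)
    have h2 : g⁻¹ * n * g ∈ N ⊓ Subgroup.centralizer ({z} : Set H) := by
      refine Subgroup.mem_inf.mpr ⟨?_, ?_⟩
      · have := hNn.conj_mem n hn g⁻¹
        simpa using this
      · rw [Subgroup.mem_centralizer_iff]
        intro y hy
        rw [Set.mem_singleton_iff] at hy
        subst hy
        have hz : y = g⁻¹ * e * g := by rw [← hg]; group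
        rw [hz]
        calc g⁻¹ * e * g * (g⁻¹ * n * g) = g⁻¹ * (e * n) * g := by group
          _ = g⁻¹ * (n * e) * g := by rw [hcomm]
          _ = g⁻¹ * n * g * (g⁻¹ * e * g) := by group
    rw [hN N hNn hNt, Subgroup.mem_bot] at h2
    have h3 : n = g * (g⁻¹ * n * g) * g⁻¹ := by group
    rw [h3, h2]; group
  have h2 : ∀ e ∈ E, e ≠ 1 → e * e = 1 → ∀ n ∈ N, e * n * e⁻¹ = n⁻¹ := by
    intro e he he1 hee n hn
    let f : N → N := fun m =>
      ⟨(m : H)⁻¹ * (e * m * e⁻¹), N.mul_mem (N.inv_mem m.2) (hNn.conj_mem m m.2 e)⟩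
    have hf : Function.Injective f := by
      intro m m' hmm
      have h3 : (m : H)⁻¹ * (e * m * e⁻¹) = (m' : H)⁻¹ * (e * m' * e⁻¹) := congrArg Subtype.val hmm
      have h4 : e * ((m' : H) * (m : H)⁻¹) = ((m' : H) * (m : H)⁻¹) * e := by
        have h5 : (m' : H) * ((m : H)⁻¹ * (e * m * e⁻¹)) = e * m' * e⁻¹ := by rw [h3]; group
        have h6 : (m' : H) * (m : H)⁻¹ = e * ((m' : H) * (m : H)⁻¹) * e⁻¹ := by
          calc (m' : H) * (m : H)⁻¹
              = (m' : H) * ((m : H)⁻¹ * (e * m * e⁻¹)) * (e * m * e⁻¹)⁻¹ := by group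
            _ = e * m' * e⁻¹ * (e * m * e⁻¹)⁻¹ := by rw [h5]
            _ = e * ((m' : H) * (m : H)⁻¹) * e⁻¹ := by group
        calc e * ((m' : H) * (m : H)⁻¹) = e * ((m' : H) * (m : H)⁻¹) * e⁻¹ * e := by group
          _ = ((m' : H) * (m : H)⁻¹) * e := by rw [← h6]
      have h7 := h1 e he he1 _ (N.mul_mem m'.2 (N.inv_mem m.2)) h4
      apply Subtype.ext
      rw [mul_inv_eq_one] at h7
      exact h7.symm
    have hs : Function.Surjective f := Finite.surjective_of_injective hf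
    obtain ⟨m, hm⟩ := hs ⟨n, hn⟩
    have hm' : (m : H)⁻¹ * (e * m * e⁻¹) = n := congrArg Subtype.val hm
    rw [← hm']
    have he' : e⁻¹ = e := inv_eq_of_mul_eq_one_left hee
    rw [he']
    calc e * ((m : H)⁻¹ * (e * m * e)) * e = e * (m : H)⁻¹ * e * m * (e * e) := by group
      _ = e * (m : H)⁻¹ * e * m := by rw [hee, mul_one]
      _ = ((m : H)⁻¹ * (e * m * e))⁻¹ := by
          rw [mul_inv_rev, mul_inv_rev, mul_inv_rev, he', inv_inv]; group
  obtain ⟨a, b, ha, hb, ha1, hb1, hab, haa, hbb⟩ := exists_pair E hE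
  have hab1 : a * b ≠ 1 := by
    intro h
    have h' : a * b = a * a := by rw [h, haa]
    exact hab (mul_left_cancel h').symm
  have habE : a * b ∈ E := E.mul_mem ha hb
  have habab : a * b * (a * b) = 1 := by
    have := hE
    exact congrArg Subtype.val (IsKleinFour.mul_self (⟨a * b, habE⟩ : ↥E))
  rw [eq_bot_iff]
  intro n hn
  rw [Subgroup.mem_bot]
  have e1 := h2 a ha ha1 haa
  have e2 := h2 b hb hb1 hbb
  have e4 : a * b * n * (a * b)⁻¹ = n := by
    calc a * b * n * (a * b)⁻¹ = a * (b * n * b⁻¹) * a⁻¹ := by group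
      _ = a * n⁻¹ * a⁻¹ := by rw [e2 n hn]
      _ = (n⁻¹)⁻¹ := e1 n⁻¹ (N.inv_mem hn)
      _ = n := inv_inv n
  apply h1 (a * b) habE hab1 n hn
  calc a * b * n = a * b * n * (a * b)⁻¹ * (a * b) := by group
    _ = n * (a * b) := by rw [e4]

/-- Let H be a finite group and z an involution such that every proper normal subgroup of H meets the centralizer of z trivially, and suppose z lies in a Klein four-subgroup E of H all three of whose involutions are conjugate to z in H. Then H is simple. -/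
theorem result {H : Type*} [Group H] [Finite H] (z : H) (hz : orderOf z = 2) (hN : ∀ N : Subgroup H, N.Normal → N ≠ ⊤ → N ⊓ Subgroup.centralizer ({z} : Set H) = ⊥) (E : Subgroup H) (hE : IsKleinFour ↥E) (hzE : z ∈ E) (hc : ∀ e ∈ E, e ≠ 1 → IsConj z e) : IsSimpleGroup H := by
  have hz1 : z ≠ 1 := by
    intro h
    rw [h, orderOf_one] at hz
    omega
  have : Nontrivial H := ⟨⟨z, 1, hz1⟩⟩
  refine ⟨fun N hNn => ?_⟩
  by_cases hNt : N = ⊤
  · exact Or.inr hNt
  · exact Or.inl (core z hN E hE hc N hNn hNt)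

end Cfsg.Agent.S2009
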