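import Cfsg.Statements.S2119
import Mathlib

set_option autoImplicit false
open Cfsg

namespace Cfsg.Agent.S2119

theorem num3_aux (i : ℕ) : 2 * 3 ^ (i + 3) * (i + 3).factorial < (3 * i + 6).factorial * 3 := by
  induction i with
  | zero => decide
  | succ i ih =>
    have e1 : (i + 1 + 3).factorial = (i + 4) * (i + 3).factorial := Nat.factorial_succ (i + 3)
    have e2 : (3 * (i + 1) + 6).factorial =
        (3 * i + 9) * ((3 * i + 8) * ((3 * i + 7) * (3 * i + 6).factorial)) := by
      rw [show 3 * (i + 1) + 6 = (3 * i + 6) + 1 + 1 + 1 by ring, Nat.factorial_succ,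
        Nat.factorial_succ, Nat.factorial_succ]
    have e3 : (3 : ℕ) ^ (i + 1 + 3) = 3 ^ (i + 3) * 3 := by
      rw [show i + 1 + 3 = (i + 3) + 1 by ring, pow_succ]
    rw [e1, e2, e3]
    have h3 : 3 * (i + 4) ≤ (3 * i + 9) * ((3 * i + 8) * (3 * i + 7)) := by
      have a : 2 * 1 ≤ (3 * i + 8) * (3 * i + 7) := Nat.mul_le_mul (by omega) (by omega)
      calc 3 * (i + 4) ≤ (3 * i + 9) * (2 * 1) := by omega
        _ ≤ (3 * i + 9) * ((3 * i + 8) * (3 * i + 7)) := Nat.mul_le_mul_left _ a
    calc 2 * (3 ^ (i + 3) * 3) * ((i + 4) * (i + 3).factorial)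
        = (3 * (i + 4)) * (2 * 3 ^ (i + 3) * (i + 3).factorial) := by ring
      _ < (3 * (i + 4)) * ((3 * i + 6).factorial * 3) :=
          mul_lt_mul_of_pos_left ih (by positivity)
      _ ≤ ((3 * i + 9) * ((3 * i + 8) * (3 * i + 7))) * ((3 * i + 6).factorial * 3) :=
          Nat.mul_le_mul_right _ h3
      _ = (3 * i + 9) * ((3 * i + 8) * ((3 * i + 7) * (3 * i + 6).factorial)) * 3 := by ring

theorem num3_main (n k : ℕ) (hn6 : n ≠ 6) (hk : 3 * (k + 1) ≤ n)
    (h : (n - 3).factorial * 3 ≤
      2 * ((n - 3 * (k + 1)).factorial * 3 ^ (k + 1) * (k + 1).factorial)) : k = 0 := by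
  by_contra hk0
  obtain ⟨r, rfl⟩ : ∃ r, n = 3 * (k + 1) + r := ⟨n - 3 * (k + 1), by omega⟩
  have e1 : 3 * (k + 1) + r - 3 = 3 * k + r := by omega
  have e2 : 3 * (k + 1) + r - 3 * (k + 1) = r := by omega
  rw [e1, e2] at h
  have hf := Nat.factorial_pos r
  rcases Nat.lt_or_ge k 2 with hk2 | hk2
  · interval_cases k
    · exact hk0 rfl
    · have e : (3 * 1 + r).factorial = ((r + 3) * (r + 2) * (r + 1)) * r.factorial := by
        rw [show 3 * 1 + r = r + 1 + 1 + 1 by ring]
        simp only [Nat.factorial_succ]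
        ring
      rw [e] at h
      have h' : ((r + 3) * (r + 2) * (r + 1)) * r.factorial * 3 ≤ r.factorial * 36 := by
        refine h.trans (le_of_eq ?_)
        norm_num [Nat.factorial]
        ring
      rcases r with _ | r
      · exact hn6 (by norm_num)
      · have hP : 4 * 3 * 2 ≤ (r + 1 + 3) * (r + 1 + 2) * (r + 1 + 1) :=
          Nat.mul_le_mul (Nat.mul_le_mul (by omega) (by omega)) (by omega)
        have hP' := Nat.mul_le_mul_right (r + 1).factorial hP
        nlinarith [Nat.factorial_pos (r + 1)]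
  · obtain ⟨i, rfl⟩ : ∃ i, k = i + 2 := ⟨k - 2, by omega⟩
    have hd := Nat.le_of_dvd (Nat.factorial_pos _)
      (Nat.factorial_mul_factorial_dvd_factorial_add (3 * i + 6) r)
    have ha := num3_aux i
    rw [show 3 * (i + 2) + r = 3 * i + 6 + r by ring, show i + 2 + 1 = i + 3 by ring] at h
    have hb := mul_lt_mul_of_pos_left ha hf
    nlinarith

/-- Automorphisms of `A_n` (`n ≠ 6`) map 3-cycles to 3-cycles. -/
theorem three_cycle_image (n : ℕ) (h6 : n ≠ 6)
    (α : MulAut ↥(alternatingGroup (Fin n))) (c : ↥(alternatingGroup (Fin n)))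
    (hc : (c : Equiv.Perm (Fin n)).IsThreeCycle) :
    ((α c : ↥(alternatingGroup (Fin n))) : Equiv.Perm (Fin n)).IsThreeCycle := by
  have ho : orderOf ((α c : ↥(alternatingGroup (Fin n))) : Equiv.Perm (Fin n)) = 3 := by
    have h3 : orderOf (α c) = orderOf c := orderOf_injective α.toMonoidHom α.injective c
    rw [Subgroup.orderOf_coe, h3, ← Subgroup.orderOf_coe, hc.orderOf]
  obtain ⟨k, hk⟩ := Equiv.Perm.cycleType_prime_order
    (σ := ((α c : ↥(alternatingGroup (Fin n))) : Equiv.Perm (Fin n)))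
    (by rw [ho]; exact Nat.prime_three)
  rw [ho] at hk
  have hsum : 3 * (k + 1) ≤ n := by
    have h3 := Equiv.Perm.sum_cycleType
      ((α c : ↥(alternatingGroup (Fin n))) : Equiv.Perm (Fin n))
    rw [hk, Multiset.sum_replicate, smul_eq_mul] at h3
    have h4 := Finset.card_le_univ
      ((α c : ↥(alternatingGroup (Fin n))) : Equiv.Perm (Fin n)).support
    rw [Fintype.card_fin] at h4
    omega
  suffices hk0 : k = 0 by
    subst hk0
    exact hk
  rcases Nat.lt_or_ge n 6 with h5 | h7
  · omega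
  have h7' : 7 ≤ n := by omega
  -- class counting
  have h1 := Equiv.Perm.card_isConj_mul_eq (c : Equiv.Perm (Fin n))
  have h2 := Equiv.Perm.card_isConj_mul_eq
    ((α c : ↥(alternatingGroup (Fin n))) : Equiv.Perm (Fin n))
  have hct : (c : Equiv.Perm (Fin n)).cycleType = {3} := hc
  rw [hct] at h1
  rw [hk] at h2
  have htf : (Multiset.replicate (k + 1) 3).toFinset = ({3} : Finset ℕ) := by
    rw [Multiset.toFinset_replicate, if_neg (Nat.succ_ne_zero k)]
  simp only [Multiset.sum_singleton, Multiset.prod_singleton, Multiset.toFinset_singleton,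
    Finset.prod_singleton, Multiset.count_singleton_self, Nat.factorial_one, mul_one,
    Fintype.card_fin] at h1
  simp only [Multiset.sum_replicate, Multiset.prod_replicate, htf, Finset.prod_singleton,
    Multiset.count_replicate_self, smul_eq_mul, Fintype.card_fin] at h2
  -- N_Y ≤ 2 * N_c ≤ 2 * N₃
  have hNc : Nat.card {h : ↥(alternatingGroup (Fin n)) | IsConj c h} ≤
      Nat.card {h : Equiv.Perm (Fin n) | IsConj (c : Equiv.Perm (Fin n)) h} := by
    apply Nat.card_le_card_of_injective
      (fun h : {h : ↥(alternatingGroup (Fin n)) | IsConj c h} =>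
        (⟨(h.1 : Equiv.Perm (Fin n)),
          (alternatingGroup (Fin n)).subtype.map_isConj h.2⟩ :
          {h : Equiv.Perm (Fin n) | IsConj (c : Equiv.Perm (Fin n)) h}))
    intro a b hab
    have h3 := congrArg Subtype.val hab
    exact Subtype.ext (Subtype.ext h3)
  let τ : Equiv.Perm (Fin n) := Equiv.swap (⟨0, by omega⟩ : Fin n) ⟨1, by omega⟩
  have hτ : Equiv.Perm.sign τ = -1 := Equiv.Perm.sign_swap (by
    intro h
    have := congrArg Fin.val h
    simp at this)
  have hNY : Nat.card {y : Equiv.Perm (Fin n) |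
      IsConj ((α c : ↥(alternatingGroup (Fin n))) : Equiv.Perm (Fin n)) y} ≤
      Nat.card ({h : ↥(alternatingGroup (Fin n)) | IsConj c h} × Bool) := by
    have key : ∀ g : Equiv.Perm (Fin n), Equiv.Perm.sign g = 1 →
        ∃ h : ↥(alternatingGroup (Fin n)), IsConj c h ∧
          ((α h : ↥(alternatingGroup (Fin n))) : Equiv.Perm (Fin n)) =
            g * ((α c : ↥(alternatingGroup (Fin n))) : Equiv.Perm (Fin n)) * g⁻¹ := by
      intro g hg
      have hgA : g ∈ alternatingGroup (Fin n) := Equiv.Perm.mem_alternatingGroup.mpr hg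
      refine ⟨α.symm ⟨g, hgA⟩ * c * (α.symm ⟨g, hgA⟩)⁻¹, isConj_iff.mpr ⟨_, rfl⟩, ?_⟩
      rw [map_mul, map_mul, map_inv, MulEquiv.apply_symm_apply]
      rfl
    apply Nat.card_le_card_of_surjective
      (fun p : {h : ↥(alternatingGroup (Fin n)) | IsConj c h} × Bool =>
        (⟨if p.2 then τ * ((α p.1.1 : ↥(alternatingGroup (Fin n))) : Equiv.Perm (Fin n)) * τ⁻¹
            else ((α p.1.1 : ↥(alternatingGroup (Fin n))) : Equiv.Perm (Fin n)), by
          have h3 : IsConj ((α c : ↥(alternatingGroup (Fin n))) : Equiv.Perm (Fin n))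
              ((α p.1.1 : ↥(alternatingGroup (Fin n))) : Equiv.Perm (Fin n)) :=
            (alternatingGroup (Fin n)).subtype.map_isConj (α.toMonoidHom.map_isConj p.1.2)
          show IsConj _ _
          split_ifs
          · exact h3.trans (isConj_iff.mpr ⟨τ, rfl⟩)
          · exact h3⟩ :
          {y : Equiv.Perm (Fin n) |
            IsConj ((α c : ↥(alternatingGroup (Fin n))) : Equiv.Perm (Fin n)) y}))
    rintro ⟨y, hy⟩
    obtain ⟨g, hg⟩ := isConj_iff.mp hy
    rcases Int.units_eq_one_or (Equiv.Perm.sign g) with hs | hs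
    · obtain ⟨h, hh, he⟩ := key g hs
      refine ⟨(⟨h, hh⟩, false), Subtype.ext ?_⟩
      simp only [Bool.false_eq_true, if_false]
      rw [he, hg]
    · have hs' : Equiv.Perm.sign (τ⁻¹ * g) = 1 := by
        rw [map_mul, map_inv, hτ, hs]
        decide
      obtain ⟨h, hh, he⟩ := key (τ⁻¹ * g) hs'
      refine ⟨(⟨h, hh⟩, true), Subtype.ext ?_⟩
      simp only [if_true]
      rw [he, ← hg]
      group
  rw [Nat.card_prod, Nat.card_eq_fintype_card (α := Bool), Fintype.card_bool] at hNY
  have hN3pos : 0 < Nat.card {h : Equiv.Perm (Fin n) | IsConj (c : Equiv.Perm (Fin n)) h} := by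
    rcases Nat.eq_zero_or_pos
      (Nat.card {h : Equiv.Perm (Fin n) | IsConj (c : Equiv.Perm (Fin n)) h}) with h0 | h0
    · rw [h0, zero_mul] at h1
      exact absurd h1.symm (Nat.factorial_ne_zero _)
    · exact h0
  apply num3_main n k h6 hsum
  have hNY2 : Nat.card {y : Equiv.Perm (Fin n) |
      IsConj ((α c : ↥(alternatingGroup (Fin n))) : Equiv.Perm (Fin n)) y} ≤
      2 * Nat.card {h : Equiv.Perm (Fin n) | IsConj (c : Equiv.Perm (Fin n)) h} := by
    calc _ ≤ Nat.card {h : ↥(alternatingGroup (Fin n)) | IsConj c h} * 2 := hNY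
      _ ≤ Nat.card {h : Equiv.Perm (Fin n) | IsConj (c : Equiv.Perm (Fin n)) h} * 2 :=
          Nat.mul_le_mul_right 2 hNc
      _ = _ := by ring
  have h5 : Nat.card {h : Equiv.Perm (Fin n) | IsConj (c : Equiv.Perm (Fin n)) h} *
      ((n - 3).factorial * 3) ≤
      Nat.card {h : Equiv.Perm (Fin n) | IsConj (c : Equiv.Perm (Fin n)) h} *
      (2 * ((n - 3 * (k + 1)).factorial * 3 ^ (k + 1) * (k + 1).factorial)) := by
    rw [h1, ← h2, mul_comm (k + 1) 3]
    calc _ ≤ (2 * Nat.card {h : Equiv.Perm (Fin n) | IsConj (c : Equiv.Perm (Fin n)) h}) *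
          ((n - 3 * (k + 1)).factorial * 3 ^ (k + 1) * (k + 1).factorial) :=
          Nat.mul_le_mul_right _ hNY2
      _ = _ := by ring
  exact Nat.le_of_mul_le_mul_left h5 hN3pos

theorem mem_closure_three_cycles_fixing {n : ℕ} (δ : Fin n) (g : Equiv.Perm (Fin n))
    (hs : Equiv.Perm.sign g = 1) (hg : g δ = δ) :
    g ∈ Subgroup.closure {c : Equiv.Perm (Fin n) | c.IsThreeCycle ∧ c δ = δ} := by
  have hp1 : ∀ x, (g x ≠ δ) ↔ (x ≠ δ) := by
    intro x
    rw [not_iff_not]
    constructor
    · intro h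
      exact g.injective (h.trans hg.symm)
    · intro h
      rw [h, hg]
  have hp2 : ∀ x, g x ≠ x → x ≠ δ := by
    intro x hx h
    apply hx
    rw [h, hg]
  have e := Equiv.Perm.ofSubtype_subtypePerm (p := fun y => y ≠ δ) hp1 hp2
  have hs' : Equiv.Perm.sign (g.subtypePerm (p := fun y => y ≠ δ) hp1) = 1 := by
    rw [← Equiv.Perm.sign_ofSubtype, e, hs]
  have hmem : g.subtypePerm (p := fun y => y ≠ δ) hp1 ∈
      Subgroup.closure {σ : Equiv.Perm {y : Fin n // y ≠ δ} | σ.IsThreeCycle} := by
    rw [Equiv.Perm.closure_three_cycles_eq_alternating]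
    exact Equiv.Perm.mem_alternatingGroup.mpr hs'
  have hmap : Equiv.Perm.ofSubtype (g.subtypePerm (p := fun y => y ≠ δ) hp1) ∈
      (Subgroup.closure {σ : Equiv.Perm {y : Fin n // y ≠ δ} | σ.IsThreeCycle}).map
        Equiv.Perm.ofSubtype :=
    Subgroup.mem_map_of_mem _ hmem
  rw [e, MonoidHom.map_closure] at hmap
  refine Subgroup.closure_mono ?_ hmap
  rintro _ ⟨σ, hσ, rfl⟩
  refine ⟨?_, Equiv.Perm.ofSubtype_apply_of_not_mem σ (by simp)⟩
  show (Equiv.Perm.ofSubtype σ).cycleType = {3}
  rw [Equiv.Perm.cycleType_ofSubtype]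
  exact hσ

theorem fact_bound (k m : ℕ) (hk : 3 ≤ k) (hm : 3 ≤ m) :
    k.factorial * m.factorial ≤ 6 * (k + m - 3).factorial := by
  induction k, hk using Nat.le_induction with
  | base =>
    rw [show 3 + m - 3 = m by omega]
    norm_num [Nat.factorial]
  | succ k hk ih =>
    rw [Nat.factorial_succ, show k + 1 + m - 3 = (k + m - 3) + 1 by omega, Nat.factorial_succ]
    calc (k + 1) * k.factorial * m.factorial = (k + 1) * (k.factorial * m.factorial) := by ring
      _ ≤ (k + 1) * (6 * (k + m - 3).factorial) := Nat.mul_le_mul_left _ ih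
      _ ≤ (k + m - 3 + 1) * (6 * (k + m - 3).factorial) :=
          Nat.mul_le_mul_right _ (by omega)
      _ = 6 * ((k + m - 3 + 1) * (k + m - 3).factorial) := by ring

open scoped Pointwise in
/-- A subgroup generated by 3-cycles, not containing the alternating group and large enough,
fixes a point. -/
theorem fixed_point_of_three_cycles {n : ℕ} (S : Set (Equiv.Perm (Fin n)))
    (hS : ∀ c ∈ S, c.IsThreeCycle) (hA : ¬ alternatingGroup (Fin n) ≤ Subgroup.closure S)
    (hcard : 6 ≤ n → 6 * (n - 3).factorial < Nat.card (Subgroup.closure S)) (x₀ : Fin n) :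
    ∃ x : Fin n, ∀ g ∈ Subgroup.closure S, g x = x := by
  classical
  by_contra hno
  push Not at hno
  -- every point is moved by a generator
  have hgen : ∀ x : Fin n, ∃ c ∈ S, c x ≠ x := by
    intro x
    by_contra h
    push Not at h
    obtain ⟨g, hg, hgx⟩ := hno x
    apply hgx
    have hle : Subgroup.closure S ≤ MulAction.stabilizer (Equiv.Perm (Fin n)) x := by
      rw [Subgroup.closure_le]
      intro c hc
      exact MulAction.mem_stabilizer_iff.mpr (h c hc)
    exact MulAction.mem_stabilizer_iff.mp (hle hg)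
  -- three distinct points in the orbit of any point
  have hthree : ∀ x : Fin n, ∃ c ∈ S, c x ≠ x ∧ c (c x) ≠ c x ∧ c (c x) ≠ x := by
    intro x
    obtain ⟨c, hc, hcx⟩ := hgen x
    refine ⟨c, hc, hcx, fun h => hcx (c.injective h), fun h => ?_⟩
    have h3 : c ^ 3 = 1 := by
      rw [← (hS c hc).orderOf]
      exact pow_orderOf_eq_one c
    have h5 : c (c (c x)) = x := by
      have h6 := congrArg (fun f : Equiv.Perm (Fin n) => f x) h3
      simpa [pow_succ, Equiv.Perm.mul_apply] using h6
    rw [h] at h5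
    exact hcx h5
  by_cases hO : ∀ y : Fin n, ∃ k ∈ Subgroup.closure S, k x₀ = y
  · apply hA
    obtain ⟨c₀, hc₀, -⟩ := hgen x₀
    have hpt : MulAction.IsPretransitive ↥(Subgroup.closure S) (Fin n) := by
      refine ⟨fun x y => ?_⟩
      obtain ⟨k₁, hk₁, h₁⟩ := hO x
      obtain ⟨k₂, hk₂, h₂⟩ := hO y
      refine ⟨⟨k₂ * k₁⁻¹,
        (Subgroup.closure S).mul_mem hk₂ ((Subgroup.closure S).inv_mem hk₁)⟩, ?_⟩
      show (k₂ * k₁⁻¹) x = y
      rw [Equiv.Perm.mul_apply, ← h₁]
      simp [h₂]
    have hprim : MulAction.IsPreprimitive ↥(Subgroup.closure S) (Fin n) := by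
      refine { toIsPretransitive := hpt, isTrivialBlock_of_isBlock := ?_ }
      intro B hB
      by_cases hsub : B.Subsingleton
      · exact Or.inl hsub
      right
      rw [Set.not_subsingleton_iff] at hsub
      obtain ⟨b₁, hb₁, b₂, hb₂, hb12⟩ := hsub
      have hstab : ∀ c ∈ S, c • B = B := by
        intro c hc
        rcases hB.smul_eq_or_disjoint
          (⟨c, Subgroup.subset_closure hc⟩ : ↥(Subgroup.closure S)) with h | h
        · exact h
        · exfalso
          have hdis : ∀ b ∈ B, c b ∉ B := by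
            intro b hb hcb
            exact Set.disjoint_left.mp h
              (Set.smul_mem_smul_set
                (a := (⟨c, Subgroup.subset_closure hc⟩ : ↥(Subgroup.closure S))) hb) hcb
          have hm1 : c b₁ ≠ b₁ := fun h' => hdis b₁ hb₁ (by rw [h']; exact hb₁)
          have hm2 : c b₂ ≠ b₂ := fun h' => hdis b₂ hb₂ (by rw [h']; exact hb₂)
          obtain ⟨i, hi⟩ := (hS c hc).isCycle.exists_pow_eq hm1 hm2
          have h3 : c ^ 3 = 1 := by
            rw [← (hS c hc).orderOf]
            exact pow_orderOf_eq_one c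
          have hi' : (c ^ (i % 3)) b₁ = b₂ := by
            rw [← hi]
            congr 1
            conv_rhs => rw [← Nat.mod_add_div i 3]
            rw [pow_add, pow_mul, h3, one_pow, mul_one]
          have hlt : i % 3 < 3 := Nat.mod_lt _ (by norm_num)
          interval_cases (i % 3)
          · exact hb12 (by simpa using hi')
          · apply hdis b₁ hb₁
            have h7 : c b₁ = b₂ := by simpa using hi'
            rw [h7]
            exact hb₂
          · apply hdis b₂ hb₂
            have h5 : c (c b₁) = b₂ := by simpa [pow_succ, Equiv.Perm.mul_apply] using hi'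
            have h6 : c (c (c b₁)) = b₁ := by
              have h8 := congrArg (fun f : Equiv.Perm (Fin n) => f b₁) h3
              simpa [pow_succ, Equiv.Perm.mul_apply] using h8
            rw [← h5, h6]
            exact hb₁
      have hle : Subgroup.closure S ≤ MulAction.stabilizer (Equiv.Perm (Fin n)) B := by
        rw [Subgroup.closure_le]
        intro c hc
        exact MulAction.mem_stabilizer_iff.mpr (hstab c hc)
      rw [Set.eq_univ_iff_forall]
      intro y
      obtain ⟨k, hk, hky⟩ := hO y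
      obtain ⟨k', hk', hkb⟩ := hO b₁
      have hmem := (Subgroup.closure S).mul_mem hk ((Subgroup.closure S).inv_mem hk')
      have hst : (k * k'⁻¹) • B = B := MulAction.mem_stabilizer_iff.mp (hle hmem)
      rw [← hst]
      refine ⟨b₁, hb₁, ?_⟩
      show (k * k'⁻¹) b₁ = y
      rw [Equiv.Perm.mul_apply, ← hkb]
      simp [hky]
    exact Equiv.Perm.alternatingGroup_le_of_isPreprimitive_of_isThreeCycle_mem hprim
      (hS c₀ hc₀) (Subgroup.subset_closure hc₀)
  · push Not at hO
    obtain ⟨y₀, hy₀⟩ := hO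
    have hfwd : ∀ g ∈ Subgroup.closure S, ∀ y ∈ {y : Fin n | ∃ k ∈ Subgroup.closure S, k x₀ = y},
        g y ∈ {y : Fin n | ∃ k ∈ Subgroup.closure S, k x₀ = y} := by
      rintro g hg y ⟨k, hk, rfl⟩
      exact ⟨g * k, (Subgroup.closure S).mul_mem hg hk, rfl⟩
    have hiff : ∀ g ∈ Subgroup.closure S, ∀ y : Fin n,
        g y ∈ {y : Fin n | ∃ k ∈ Subgroup.closure S, k x₀ = y} ↔
          y ∈ {y : Fin n | ∃ k ∈ Subgroup.closure S, k x₀ = y} := by
      intro g hg y
      constructor
      · intro h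
        have h1 := hfwd g⁻¹ ((Subgroup.closure S).inv_mem hg) _ h
        simpa using h1
      · exact hfwd g hg y
    have hx₀ : x₀ ∈ {y : Fin n | ∃ k ∈ Subgroup.closure S, k x₀ = y} :=
      ⟨1, (Subgroup.closure S).one_mem, rfl⟩
    have ha : 2 < Fintype.card {y : Fin n // y ∈ {y : Fin n | ∃ k ∈ Subgroup.closure S, k x₀ = y}} := by
      obtain ⟨c, hc, h1, h2, h3⟩ := hthree x₀
      have hcK := Subgroup.subset_closure hc
      rw [Fintype.two_lt_card_iff]
      refine ⟨⟨x₀, hx₀⟩, ⟨c x₀, hfwd c hcK _ hx₀⟩,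
        ⟨c (c x₀), hfwd c hcK _ (hfwd c hcK _ hx₀)⟩, ?_, ?_, ?_⟩
      · intro h
        exact h1 (congrArg Subtype.val h).symm
      · intro h
        exact h3 (congrArg Subtype.val h).symm
      · intro h
        exact h2 (congrArg Subtype.val h).symm
    have hy₀' : y₀ ∉ {y : Fin n | ∃ k ∈ Subgroup.closure S, k x₀ = y} :=
      fun ⟨k, hk, h⟩ => hy₀ k hk h
    have hnot : ∀ g ∈ Subgroup.closure S, ∀ y : Fin n,
        y ∉ {y : Fin n | ∃ k ∈ Subgroup.closure S, k x₀ = y} →
        g y ∉ {y : Fin n | ∃ k ∈ Subgroup.closure S, k x₀ = y} :=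
      fun g hg y hy h => hy ((hiff g hg y).mp h)
    have hb : 2 < Fintype.card {y : Fin n // y ∉ {y : Fin n | ∃ k ∈ Subgroup.closure S, k x₀ = y}} := by
      obtain ⟨c, hc, h1, h2, h3⟩ := hthree y₀
      have hcK := Subgroup.subset_closure hc
      rw [Fintype.two_lt_card_iff]
      refine ⟨⟨y₀, hy₀'⟩, ⟨c y₀, hnot c hcK _ hy₀'⟩,
        ⟨c (c y₀), hnot c hcK _ (hnot c hcK _ hy₀')⟩, ?_, ?_, ?_⟩
      · intro h
        exact h1 (congrArg Subtype.val h).symm
      · intro h
        exact h3 (congrArg Subtype.val h).symm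
      · intro h
        exact h2 (congrArg Subtype.val h).symm
    have hab : Fintype.card {y : Fin n // y ∈ {y : Fin n | ∃ k ∈ Subgroup.closure S, k x₀ = y}} +
        Fintype.card {y : Fin n // y ∉ {y : Fin n | ∃ k ∈ Subgroup.closure S, k x₀ = y}} = n := by
      have h1 := Fintype.card_subtype_compl
        (fun y : Fin n => y ∈ {y : Fin n | ∃ k ∈ Subgroup.closure S, k x₀ = y})
      rw [Fintype.card_fin] at h1
      have h2 := Fintype.card_subtype_le
        (fun y : Fin n => y ∈ {y : Fin n | ∃ k ∈ Subgroup.closure S, k x₀ = y})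
      rw [Fintype.card_fin] at h2
      omega
    have hinj : Nat.card (Subgroup.closure S) ≤
        Nat.card (Equiv.Perm {y : Fin n // y ∈ {y : Fin n | ∃ k ∈ Subgroup.closure S, k x₀ = y}} ×
          Equiv.Perm {y : Fin n // y ∉ {y : Fin n | ∃ k ∈ Subgroup.closure S, k x₀ = y}}) := by
      apply Nat.card_le_card_of_injective
        (fun g : ↥(Subgroup.closure S) =>
          ((g : Equiv.Perm (Fin n)).subtypePerm
              (p := fun y => y ∈ {y : Fin n | ∃ k ∈ Subgroup.closure S, k x₀ = y})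
              (fun y => hiff g.1 g.2 y),
            (g : Equiv.Perm (Fin n)).subtypePerm
              (p := fun y => y ∉ {y : Fin n | ∃ k ∈ Subgroup.closure S, k x₀ = y})
              (fun y => not_congr (hiff g.1 g.2 y))))
      intro g g' h
      apply Subtype.ext
      refine Equiv.Perm.ext fun y => ?_
      by_cases hy : y ∈ {y : Fin n | ∃ k ∈ Subgroup.closure S, k x₀ = y}
      · have h1 := congrArg (fun p => ((p.1 ⟨y, hy⟩ :
          {y : Fin n // y ∈ {y : Fin n | ∃ k ∈ Subgroup.closure S, k x₀ = y}}) : Fin n)) h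
        simpa using h1
      · have h1 := congrArg (fun p => ((p.2 ⟨y, hy⟩ :
          {y : Fin n // y ∉ {y : Fin n | ∃ k ∈ Subgroup.closure S, k x₀ = y}}) : Fin n)) h
        simpa using h1
    have e1 : Nat.card (Equiv.Perm {y : Fin n // y ∈ {y : Fin n | ∃ k ∈ Subgroup.closure S, k x₀ = y}} ×
          Equiv.Perm {y : Fin n // y ∉ {y : Fin n | ∃ k ∈ Subgroup.closure S, k x₀ = y}}) =
        (Fintype.card {y : Fin n // y ∈ {y : Fin n | ∃ k ∈ Subgroup.closure S, k x₀ = y}}).factorial *
        (Fintype.card {y : Fin n // y ∉ {y : Fin n | ∃ k ∈ Subgroup.closure S, k x₀ = y}}).factorial := by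
      rw [Nat.card_prod, Nat.card_perm, Nat.card_perm, Nat.card_eq_fintype_card,
        Nat.card_eq_fintype_card]
    rw [e1] at hinj
    have hfb := fact_bound _ _
      (by omega : 3 ≤ Fintype.card
        {y : Fin n // y ∈ {y : Fin n | ∃ k ∈ Subgroup.closure S, k x₀ = y}})
      (by omega : 3 ≤ Fintype.card
        {y : Fin n // y ∉ {y : Fin n | ∃ k ∈ Subgroup.closure S, k x₀ = y}})
    rw [hab] at hfb
    exact absurd (lt_of_lt_of_le (hcard (by omega)) (hinj.trans hfb)) (lt_irrefl _)

theorem alt_pretransitive (n : ℕ) (hn : 3 ≤ n) :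
    MulAction.IsPretransitive ↥(alternatingGroup (Fin n)) (Fin n) := by
  classical
  refine ⟨fun x y => ?_⟩
  by_cases hxy : x = y
  · exact ⟨1, by rw [hxy]; exact one_smul _ _⟩
  obtain ⟨z, hz⟩ : ∃ z : Fin n, z ∉ ({x, y} : Finset (Fin n)) := by
    by_contra h
    push Not at h
    have h1 : (Finset.univ : Finset (Fin n)) ⊆ {x, y} := fun z _ => h z
    have h2 := Finset.card_le_card h1
    rw [Finset.card_univ, Fintype.card_fin] at h2
    have h3 := Finset.card_le_two (a := x) (b := y)
    omega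
  rw [Finset.mem_insert, Finset.mem_singleton, not_or] at hz
  refine ⟨⟨Equiv.swap x y * Equiv.swap y z, ?_⟩, ?_⟩
  · rw [Equiv.Perm.mem_alternatingGroup, map_mul, Equiv.Perm.sign_swap hxy,
      Equiv.Perm.sign_swap (fun h => hz.2 h.symm)]
    decide
  · show (Equiv.swap x y * Equiv.swap y z) x = y
    rw [Equiv.Perm.mul_apply, Equiv.swap_apply_of_ne_of_ne hxy (fun h => hz.1 h.symm),
      Equiv.swap_apply_left]

theorem alt_sep (n : ℕ) (hn : 4 ≤ n) (x y : Fin n) (hxy : x ≠ y) :
    ∃ c : ↥(alternatingGroup (Fin n)), (c : Equiv.Perm (Fin n)) x = x ∧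
      (c : Equiv.Perm (Fin n)) y ≠ y := by
  classical
  have hcard : 1 < ((Finset.univ : Finset (Fin n)) \ {x, y}).card := by
    rw [Finset.card_univ_sdiff, Fintype.card_fin, Finset.card_pair hxy]
    omega
  obtain ⟨u, hu, v, hv, huv⟩ := Finset.one_lt_card.mp hcard
  rw [Finset.mem_sdiff, Finset.mem_insert, Finset.mem_singleton, not_or] at hu hv
  refine ⟨⟨Equiv.swap y u * Equiv.swap u v, ?_⟩, ?_, ?_⟩
  · rw [Equiv.Perm.mem_alternatingGroup, map_mul, Equiv.Perm.sign_swap (Ne.symm hu.2.2),
      Equiv.Perm.sign_swap huv]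
    decide
  · show (Equiv.swap y u * Equiv.swap u v) x = x
    rw [Equiv.Perm.mul_apply, Equiv.swap_apply_of_ne_of_ne (Ne.symm hu.2.1) (Ne.symm hv.2.1),
      Equiv.swap_apply_of_ne_of_ne hxy (Ne.symm hu.2.1)]
  · show (Equiv.swap y u * Equiv.swap u v) y ≠ y
    rw [Equiv.Perm.mul_apply, Equiv.swap_apply_of_ne_of_ne (Ne.symm hu.2.2) (Ne.symm hv.2.2),
      Equiv.swap_apply_left]
    exact hu.2.2

theorem point_stab_image (n : ℕ) (hn : 4 ≤ n) (h6 : n ≠ 6)
    (α : MulAut ↥(alternatingGroup (Fin n))) (δ : Fin n) :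
    ∃ x : Fin n, ∀ g : ↥(alternatingGroup (Fin n)), (g : Equiv.Perm (Fin n)) δ = δ →
      ((α g : ↥(alternatingGroup (Fin n))) : Equiv.Perm (Fin n)) x = x := by
  classical
  let ψ : ↥(alternatingGroup (Fin n)) →* Equiv.Perm (Fin n) :=
    (alternatingGroup (Fin n)).subtype.comp α.toMonoidHom
  have hψinj : Function.Injective ψ := fun a b h => α.injective (Subtype.ext h)
  let T' : Set ↥(alternatingGroup (Fin n)) :=
    {c | (c : Equiv.Perm (Fin n)).IsThreeCycle ∧ (c : Equiv.Perm (Fin n)) δ = δ}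
  have hS : ∀ c ∈ ψ '' T', c.IsThreeCycle := by
    rintro _ ⟨c, hc, rfl⟩
    exact three_cycle_image n h6 α c hc.1
  have hstab : ∀ g : ↥(alternatingGroup (Fin n)), (g : Equiv.Perm (Fin n)) δ = δ →
      g ∈ Subgroup.closure T' := by
    intro g hg
    have h1 := mem_closure_three_cycles_fixing δ (g : Equiv.Perm (Fin n))
      (Equiv.Perm.mem_alternatingGroup.mp g.2) hg
    have h2 : Subgroup.closure {c : Equiv.Perm (Fin n) | c.IsThreeCycle ∧ c δ = δ} ≤
        (Subgroup.closure T').map (alternatingGroup (Fin n)).subtype := by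
      rw [Subgroup.closure_le]
      rintro c ⟨hc1, hc2⟩
      exact ⟨⟨c, hc1.mem_alternatingGroup⟩, Subgroup.subset_closure ⟨hc1, hc2⟩, rfl⟩
    obtain ⟨g', hg', hgg⟩ := h2 h1
    have h3 : g' = g := Subtype.ext hgg
    rwa [h3] at hg'
  have hle : Subgroup.closure T' ≤ MulAction.stabilizer ↥(alternatingGroup (Fin n)) δ := by
    rw [Subgroup.closure_le]
    intro c hc
    exact MulAction.mem_stabilizer_iff.mpr hc.2
  have heq : Subgroup.closure T' = MulAction.stabilizer ↥(alternatingGroup (Fin n)) δ :=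
    le_antisymm hle (fun g hg => hstab g (MulAction.mem_stabilizer_iff.mp hg))
  have hpt : MulAction.IsPretransitive ↥(alternatingGroup (Fin n)) (Fin n) :=
    alt_pretransitive n (by omega)
  have hidx : (MulAction.stabilizer ↥(alternatingGroup (Fin n)) δ).index = n := by
    rw [MulAction.index_stabilizer_of_transitive, Nat.card_eq_fintype_card, Fintype.card_fin]
  have hcardA : 2 * Nat.card ↥(alternatingGroup (Fin n)) = n.factorial := by
    have : Nontrivial (Fin n) := Fin.nontrivial_iff_two_le.mpr (by omega)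
    rw [two_mul_nat_card_alternatingGroup, Nat.card_perm, Nat.card_eq_fintype_card,
      Fintype.card_fin]
  have hK : Nat.card ((Subgroup.closure T').map ψ) * n =
      Nat.card ↥(alternatingGroup (Fin n)) := by
    rw [Subgroup.card_map_of_injective hψinj, heq]
    have h := Subgroup.card_mul_index (MulAction.stabilizer ↥(alternatingGroup (Fin n)) δ)
    rw [hidx] at h
    exact h
  have hKe : (Subgroup.closure T').map ψ = Subgroup.closure (ψ '' T') :=
    MonoidHom.map_closure ψ T'
  rw [hKe] at hK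
  have hpos : 0 < Nat.card (Subgroup.closure (ψ '' T')) := Nat.card_pos
  obtain ⟨x, hx⟩ := fixed_point_of_three_cycles (ψ '' T') hS (by
    intro hAK
    have h1 := Subgroup.card_le_of_le hAK
    have h2 := Nat.mul_le_mul_left (Nat.card (Subgroup.closure (ψ '' T'))) hn
    linarith) (by
    intro h6'
    have h7 : 7 ≤ n := by omega
    obtain ⟨m, rfl⟩ : ∃ m, n = m + 3 := ⟨n - 3, by omega⟩
    have e : (m + 3).factorial = (m + 3) * ((m + 2) * (m + 1) * m.factorial) := by
      simp only [Nat.factorial_succ]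
      ring
    rw [e, ← hK] at hcardA
    have h8 : 2 * Nat.card (Subgroup.closure (ψ '' T')) = (m + 2) * (m + 1) * m.factorial := by
      have h9 : (m + 3) * (2 * Nat.card (Subgroup.closure (ψ '' T'))) =
          (m + 3) * ((m + 2) * (m + 1) * m.factorial) := by
        rw [← hcardA]; ring
      exact Nat.eq_of_mul_eq_mul_left (by omega) h9
    have h10 : 12 < (m + 2) * (m + 1) := by nlinarith
    have h11 := Nat.mul_lt_mul_of_pos_right h10 (Nat.factorial_pos m)
    rw [Nat.add_sub_cancel]
    linarith) δ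
  refine ⟨x, fun g hg => ?_⟩
  apply hx
  rw [← hKe]
  exact ⟨g, hstab g hg, rfl⟩

/-- Automorphisms of the alternating groups: for n ≥ 4 with n ≠ 6, every automorphism of the alternating group of degree n is conjugation by a unique permutation, i.e. conjugation induces an isomorphism from the symmetric group of degree n onto the automorphism group of the alternating group (so the outer automorphism group has order 2). -/
theorem result (n : ℕ) (hn : 4 ≤ n) (h6 : n ≠ 6) : Function.Bijective (MulAut.conjNormal : Equiv.Perm (Fin n) →* MulAut ↥(alternatingGroup (Fin n))) := by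
  constructor
  · rw [injective_iff_map_eq_one]
    intro σ hσ
    by_contra hne
    obtain ⟨x, hx⟩ : ∃ x, σ x ≠ x := by
      by_contra h
      push Not at h
      exact hne (Equiv.Perm.ext h)
    obtain ⟨c, hc1, hc2⟩ := alt_sep n hn x (σ x) (Ne.symm hx)
    have h1 := congrArg (fun β : MulAut ↥(alternatingGroup (Fin n)) =>
      ((β c : ↥(alternatingGroup (Fin n))) : Equiv.Perm (Fin n))) hσ
    simp only [MulAut.conjNormal_apply, MulAut.one_apply] at h1
    have h2 := congrArg (fun f : Equiv.Perm (Fin n) => f (σ x)) h1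
    simp only [Equiv.Perm.mul_apply] at h2
    rw [show σ⁻¹ (σ x) = x by simp, hc1] at h2
    exact hc2 h2.symm
  · intro α
    have hPS := point_stab_image n hn h6
    choose f hf using (fun δ => hPS α δ)
    choose f' hf' using (fun ε => hPS α.symm ε)
    have hl : ∀ δ, f' (f δ) = δ := by
      intro δ
      by_contra hne
      obtain ⟨c, hc1, hc2⟩ := alt_sep n hn δ (f' (f δ)) (Ne.symm hne)
      have h1 := hf δ c hc1
      have h2 := hf' (f δ) (α c) h1
      rw [MulEquiv.symm_apply_apply] at h2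
      exact hc2 h2
    have hr : ∀ ε, f (f' ε) = ε := by
      intro ε
      by_contra hne
      obtain ⟨c, hc1, hc2⟩ := alt_sep n hn ε (f (f' ε)) (Ne.symm hne)
      have h1 := hf' ε c hc1
      have h2 := hf (f' ε) (α.symm c) h1
      rw [MulEquiv.apply_symm_apply] at h2
      exact hc2 h2
    have key : ∀ (g : ↥(alternatingGroup (Fin n))) (δ : Fin n),
        ((α g : ↥(alternatingGroup (Fin n))) : Equiv.Perm (Fin n)) (f δ) =
          f ((g : Equiv.Perm (Fin n)) δ) := by
      intro g δ
      have h0 : f' (((α g : ↥(alternatingGroup (Fin n))) : Equiv.Perm (Fin n)) (f δ)) =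
          (g : Equiv.Perm (Fin n)) δ := by
        by_contra hne
        obtain ⟨c, hc1, hc2⟩ := alt_sep n hn ((g : Equiv.Perm (Fin n)) δ)
          (f' (((α g : ↥(alternatingGroup (Fin n))) : Equiv.Perm (Fin n)) (f δ))) (Ne.symm hne)
        have h1 : ((g⁻¹ * c * g : ↥(alternatingGroup (Fin n))) : Equiv.Perm (Fin n)) δ = δ := by
          show ((g : Equiv.Perm (Fin n))⁻¹ * (c : Equiv.Perm (Fin n)) *
            (g : Equiv.Perm (Fin n))) δ = δ
          simp [Equiv.Perm.mul_apply, hc1]
        have h2 := hf δ (g⁻¹ * c * g) h1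
        rw [map_mul, map_mul, map_inv] at h2
        have h3 : ((α c : ↥(alternatingGroup (Fin n))) : Equiv.Perm (Fin n))
            (((α g : ↥(alternatingGroup (Fin n))) : Equiv.Perm (Fin n)) (f δ)) =
            ((α g : ↥(alternatingGroup (Fin n))) : Equiv.Perm (Fin n)) (f δ) := by
          have h4 : (((α g)⁻¹ * α c * α g : ↥(alternatingGroup (Fin n))) :
              Equiv.Perm (Fin n)) (f δ) =
              (((α g : ↥(alternatingGroup (Fin n))) : Equiv.Perm (Fin n)))⁻¹
                (((α c : ↥(alternatingGroup (Fin n))) : Equiv.Perm (Fin n))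
                  (((α g : ↥(alternatingGroup (Fin n))) : Equiv.Perm (Fin n)) (f δ))) := rfl
          rw [h4] at h2
          exact Equiv.Perm.inv_eq_iff_eq.mp h2
        have h5 := hf' _ (α c) h3
        rw [MulEquiv.symm_apply_apply] at h5
        exact hc2 h5
      rw [← h0, hr]
    refine ⟨⟨f, f', hl, hr⟩, ?_⟩
    apply MulEquiv.ext
    intro g
    apply Subtype.ext
    rw [MulAut.conjNormal_apply]
    refine Equiv.Perm.ext fun y => ?_
    have h1 := key g (f' y)
    rw [hr] at h1
    rw [h1]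
    rfl

end Cfsg.Agent.S2119
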