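import Cfsg.Statements.S2303
import Mathlib

set_option autoImplicit false
open Cfsg

namespace Cfsg.Agent.S2303

theorem result {F : Type*} [Field F] [Fintype F] (g : Matrix.GeneralLinearGroup (Fin 2) F) :
    ((g : Matrix (Fin 2) (Fin 2) F) 0 1 = 0 → (g : Matrix (Fin 2) (Fin 2) F) 1 0 = 0 → (g : Matrix (Fin 2) (Fin 2) F) 0 0 ≠ (g : Matrix (Fin 2) (Fin 2) F) 1 1 →
      Nat.card (Subgroup.centralizer ({g} : Set (Matrix.GeneralLinearGroup (Fin 2) F))) = (Fintype.card F - 1) ^ 2) ∧
    ((∀ (c : F) (v : Fin 2 → F), v ≠ 0 → (g : Matrix (Fin 2) (Fin 2) F).mulVec v ≠ c • v) →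
      Nat.card (Subgroup.centralizer ({g} : Set (Matrix.GeneralLinearGroup (Fin 2) F))) = Fintype.card F ^ 2 - 1) := by
  classical
  obtain ⟨A, hA⟩ : ∃ A : Matrix (Fin 2) (Fin 2) F, A = (g : Matrix (Fin 2) (Fin 2) F) := ⟨_, rfl⟩
  rw [← hA]
  have hcent : ∀ h : Matrix.GeneralLinearGroup (Fin 2) F,
      h ∈ Subgroup.centralizer ({g} : Set (Matrix.GeneralLinearGroup (Fin 2) F)) ↔
        (h : Matrix (Fin 2) (Fin 2) F) * A = A * (h : Matrix (Fin 2) (Fin 2) F) := by
    intro h
    rw [Subgroup.mem_centralizer_singleton_iff, hA]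
    constructor
    · intro e
      have := congrArg (fun x : Matrix.GeneralLinearGroup (Fin 2) F => (x : Matrix (Fin 2) (Fin 2) F)) e
      simpa using this
    · intro e
      apply Units.ext
      simpa using e
  constructor
  · intro h01 h10 hne
    -- bijection with Fˣ × Fˣ
    have hdetψ : ∀ x : Fˣ × Fˣ, (!![(x.1 : F), 0; 0, (x.2 : F)] : Matrix (Fin 2) (Fin 2) F).det ≠ 0 := by
      intro x
      rw [Matrix.det_fin_two_of]
      simp
    have hmem : ∀ x : Fˣ × Fˣ, Matrix.GeneralLinearGroup.mkOfDetNeZero _ (hdetψ x) ∈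
        Subgroup.centralizer ({g} : Set (Matrix.GeneralLinearGroup (Fin 2) F)) := by
      intro x
      rw [hcent]
      show !![(x.1 : F), 0; 0, (x.2 : F)] * A = A * !![(x.1 : F), 0; 0, (x.2 : F)]
      ext i j
      fin_cases i <;> fin_cases j <;> simp [Matrix.mul_apply, Fin.sum_univ_two, h01, h10] <;> ring
    have hbij : Function.Bijective (fun x : Fˣ × Fˣ =>
        (⟨Matrix.GeneralLinearGroup.mkOfDetNeZero _ (hdetψ x), hmem x⟩ :
          ↥(Subgroup.centralizer ({g} : Set (Matrix.GeneralLinearGroup (Fin 2) F))))) := by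
      constructor
      · intro x y hxy
        have h1 := congrArg (fun k : ↥(Subgroup.centralizer ({g} : Set (Matrix.GeneralLinearGroup (Fin 2) F))) =>
          ((k : Matrix.GeneralLinearGroup (Fin 2) F) : Matrix (Fin 2) (Fin 2) F)) hxy
        have h2 : (!![(x.1 : F), 0; 0, (x.2 : F)] : Matrix (Fin 2) (Fin 2) F) =
            !![(y.1 : F), 0; 0, (y.2 : F)] := h1
        have e0 := congrFun (congrFun h2 0) 0
        have e1 := congrFun (congrFun h2 1) 1
        simp at e0 e1
        exact Prod.ext (Units.ext e0) (Units.ext e1)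
      · rintro ⟨k, hk⟩
        rw [hcent] at hk
        have e01 := congrFun (congrFun hk 0) 1
        have e10 := congrFun (congrFun hk 1) 0
        simp [Matrix.mul_apply, Fin.sum_univ_two, h01, h10] at e01 e10
        have hk01 : (k : Matrix (Fin 2) (Fin 2) F) 0 1 = 0 := by
          have : (k : Matrix (Fin 2) (Fin 2) F) 0 1 * (A 1 1 - A 0 0) = 0 := by linear_combination e01
          rcases mul_eq_zero.mp this with h | h
          · exact h
          · exact absurd (sub_eq_zero.mp h).symm hne
        have hk10 : (k : Matrix (Fin 2) (Fin 2) F) 1 0 = 0 := by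
          have : (k : Matrix (Fin 2) (Fin 2) F) 1 0 * (A 0 0 - A 1 1) = 0 := by linear_combination e10
          rcases mul_eq_zero.mp this with h | h
          · exact h
          · exact absurd (sub_eq_zero.mp h) hne
        have hdetk : (k : Matrix (Fin 2) (Fin 2) F).det ≠ 0 := by
          have := Matrix.GeneralLinearGroup.det_ne_zero k
          exact this
        rw [Matrix.det_fin_two, hk01, zero_mul, sub_zero] at hdetk
        have hk00 : (k : Matrix (Fin 2) (Fin 2) F) 0 0 ≠ 0 := left_ne_zero_of_mul hdetk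
        have hk11 : (k : Matrix (Fin 2) (Fin 2) F) 1 1 ≠ 0 := right_ne_zero_of_mul hdetk
        refine ⟨(Units.mk0 _ hk00, Units.mk0 _ hk11), ?_⟩
        apply Subtype.ext
        apply Units.ext
        show !![(k : Matrix (Fin 2) (Fin 2) F) 0 0, 0; 0, (k : Matrix (Fin 2) (Fin 2) F) 1 1] =
          (k : Matrix (Fin 2) (Fin 2) F)
        ext i j
        fin_cases i <;> fin_cases j <;> simp [hk01, hk10]
    rw [← Nat.card_eq_of_bijective _ hbij, Nat.card_eq_fintype_card, Fintype.card_prod,
      Fintype.card_units, sq]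
  · intro hnoeig
    have hr : A 1 0 ≠ 0 := by
      intro h
      apply hnoeig (A 0 0) ![1, 0] (by
        intro h0
        have := congrFun h0 0
        simp at this)
      ext i
      fin_cases i <;> simp [Matrix.mulVec, dotProduct, Fin.sum_univ_two, h]
    have hdetφ : ∀ x : {x : F × F // x ≠ 0},
        (x.1.1 • (1 : Matrix (Fin 2) (Fin 2) F) + x.1.2 • A).det ≠ 0 := by
      rintro ⟨⟨a, b⟩, hx⟩ hdet
      obtain ⟨v, hv0, hv⟩ := Matrix.exists_mulVec_eq_zero_iff.mpr hdet
      simp only [Matrix.add_mulVec, Matrix.smul_mulVec, Matrix.one_mulVec] at hv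
      by_cases hb : b = 0
      · rw [hb, zero_smul, add_zero] at hv
        rcases smul_eq_zero.mp hv with h | h
        · exact hx (Prod.ext h hb)
        · exact hv0 h
      · apply hnoeig (-a / b) v hv0
        have : b • A.mulVec v = -(a • v) := by
          rw [eq_neg_iff_add_eq_zero, add_comm]; exact hv
        calc A.mulVec v = b⁻¹ • (b • A.mulVec v) := by rw [smul_smul, inv_mul_cancel₀ hb, one_smul]
          _ = (-a / b) • v := by rw [this, smul_neg, smul_smul, neg_div, neg_smul]; congr 2; field_simp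
    have hmem : ∀ x : {x : F × F // x ≠ 0}, Matrix.GeneralLinearGroup.mkOfDetNeZero _ (hdetφ x) ∈
        Subgroup.centralizer ({g} : Set (Matrix.GeneralLinearGroup (Fin 2) F)) := by
      intro x
      rw [hcent]
      show (x.1.1 • (1 : Matrix (Fin 2) (Fin 2) F) + x.1.2 • A) * A =
        A * (x.1.1 • (1 : Matrix (Fin 2) (Fin 2) F) + x.1.2 • A)
      simp [add_mul, mul_add]
    have hbij : Function.Bijective (fun x : {x : F × F // x ≠ 0} =>
        (⟨Matrix.GeneralLinearGroup.mkOfDetNeZero _ (hdetφ x), hmem x⟩ :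
          ↥(Subgroup.centralizer ({g} : Set (Matrix.GeneralLinearGroup (Fin 2) F))))) := by
      constructor
      · rintro ⟨⟨a, b⟩, hx⟩ ⟨⟨a', b'⟩, hy⟩ hxy
        have h1 := congrArg (fun k : ↥(Subgroup.centralizer ({g} : Set (Matrix.GeneralLinearGroup (Fin 2) F))) =>
          ((k : Matrix.GeneralLinearGroup (Fin 2) F) : Matrix (Fin 2) (Fin 2) F)) hxy
        have h2 : a • (1 : Matrix (Fin 2) (Fin 2) F) + b • A = a' • (1 : Matrix (Fin 2) (Fin 2) F) + b' • A := h1
        have e10 := congrFun (congrFun h2 1) 0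
        have e00 := congrFun (congrFun h2 0) 0
        simp at e10 e00
        have hb : b = b' := by
          rcases e10 with h | h
          · exact h
          · exact absurd h hr
        subst hb
        have ha : a = a' := by linear_combination e00
        subst ha
        rfl
      · rintro ⟨k, hk⟩
        rw [hcent] at hk
        have e00 := congrFun (congrFun hk 0) 0
        have e10 := congrFun (congrFun hk 1) 0
        simp [Matrix.mul_apply, Fin.sum_univ_two] at e00 e10
        obtain ⟨b, hb⟩ : ∃ b : F, b = (k : Matrix (Fin 2) (Fin 2) F) 1 0 / A 1 0 := ⟨_, rfl⟩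
        obtain ⟨a, ha⟩ : ∃ a : F, a = (k : Matrix (Fin 2) (Fin 2) F) 0 0 - b * A 0 0 := ⟨_, rfl⟩
        have hkeq : a • (1 : Matrix (Fin 2) (Fin 2) F) + b • A = (k : Matrix (Fin 2) (Fin 2) F) := by
          have hbr : b * A 1 0 = (k : Matrix (Fin 2) (Fin 2) F) 1 0 := by
            rw [hb]; field_simp
          ext i j
          fin_cases i <;> fin_cases j <;> simp <;> grind
        have hx : ((a, b) : F × F) ≠ 0 := by
          intro h0
          have ha0 : a = 0 := congrArg Prod.fst h0
          have hb0 : b = 0 := congrArg Prod.snd h0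
          have hdetk : (k : Matrix (Fin 2) (Fin 2) F).det ≠ 0 := Matrix.GeneralLinearGroup.det_ne_zero k
          rw [← hkeq, ha0, hb0] at hdetk
          simp at hdetk
        refine ⟨⟨(a, b), hx⟩, ?_⟩
        apply Subtype.ext
        apply Units.ext
        exact hkeq
    rw [← Nat.card_eq_of_bijective _ hbij, Nat.card_eq_fintype_card]
    have := Set.card_ne_eq (0 : F × F)
    rw [Fintype.card_prod] at this
    rw [sq]
    convert this

end Cfsg.Agent.S2303
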