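import Cfsg.Statements.S2304
import Mathlib
import Cfsg.Agent.S0148
import Cfsg.Agent.Lib.Helper3.CharInd
import Cfsg.Agent.Lib.Helper3.CharArith

set_option autoImplicit false
open Cfsg

namespace Cfsg.Agent.S2304

open scoped ComplexConjugate

/-- The induced function computed through a transversal of the subgroup. -/
theorem ind_transversal {G : Type*} [Group G] [Fintype G] (H : Subgroup G) (θ : H → ℂ)
    (hθ : Cfsg.IsClassFunction H θ) {ι : Type*} [Fintype ι] (r : ι → G)
    (hr : Function.Bijective (fun p : ι × H => r p.1 * (p.2 : G))) (g : G) :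
    Cfsg.indFun H θ g = ∑ i, Cfsg.extendByZero H θ ((r i)⁻¹ * g * r i) := by
  classical
  haveI : Fintype H := Fintype.ofFinite H
  unfold Cfsg.indFun
  have h1 : ∑ x : G, Cfsg.extendByZero H θ (x⁻¹ * g * x) =
      ∑ p : ι × H, Cfsg.extendByZero H θ ((r p.1 * (p.2 : G))⁻¹ * g * (r p.1 * (p.2 : G))) :=
    (Fintype.sum_bijective _ hr _ _ (fun p => rfl)).symm
  rw [h1, Fintype.sum_prod_type]
  have h2 : ∀ i : ι, ∑ h : H, Cfsg.extendByZero H θ ((r i * (h : G))⁻¹ * g * (r i * (h : G))) =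
      (Nat.card H : ℂ) * Cfsg.extendByZero H θ ((r i)⁻¹ * g * r i) := by
    intro i
    have h3 : ∀ h : H, Cfsg.extendByZero H θ ((r i * (h : G))⁻¹ * g * (r i * (h : G))) =
        Cfsg.extendByZero H θ ((r i)⁻¹ * g * r i) := by
      intro h
      have e : (r i * (h : G))⁻¹ * g * (r i * (h : G)) =
          (h : G)⁻¹ * ((r i)⁻¹ * g * r i) * (h : G) := by group
      rw [e]
      by_cases hy : (r i)⁻¹ * g * r i ∈ H
      · have hy' : (h : G)⁻¹ * ((r i)⁻¹ * g * r i) * (h : G) ∈ H :=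
          H.mul_mem (H.mul_mem (H.inv_mem h.2) hy) h.2
        rw [Cfsg.Agent.Lib.Helper3.CharInd.extendByZero_mem H θ hy,
          Cfsg.Agent.Lib.Helper3.CharInd.extendByZero_mem H θ hy']
        have h4 := hθ ⟨_, hy⟩ h⁻¹
        rw [← h4]
        congr 1
        apply Subtype.ext
        simp
      · have hy' : (h : G)⁻¹ * ((r i)⁻¹ * g * r i) * (h : G) ∉ H := by
          intro hc
          apply hy
          have h5 := H.mul_mem (H.mul_mem h.2 hc) (H.inv_mem h.2)
          have e2 : (h : G) * ((h : G)⁻¹ * ((r i)⁻¹ * g * r i) * (h : G)) * (h : G)⁻¹ =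
              (r i)⁻¹ * g * r i := by group
          rw [e2] at h5
          exact h5
        rw [Cfsg.Agent.Lib.Helper3.CharInd.extendByZero_not_mem H θ hy,
          Cfsg.Agent.Lib.Helper3.CharInd.extendByZero_not_mem H θ hy']
    rw [Finset.sum_congr rfl (fun h _ => h3 h), Finset.sum_const, Finset.card_univ, nsmul_eq_mul,
      Fintype.card_eq_nat_card]
  rw [Finset.sum_congr rfl (fun i _ => h2 i), ← Finset.mul_sum, ← mul_assoc, inv_mul_cancel₀,
    one_mul]
  exact_mod_cast Nat.card_pos.ne'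

section GL2

variable {F : Type*} [Field F]

theorem mem_B (g : Matrix.GeneralLinearGroup (Fin 2) F) :
    g ∈ Cfsg.upperTriangularGL 2 F ↔ (g : Matrix (Fin 2) (Fin 2) F) 1 0 = 0 := by
  show (g : Matrix (Fin 2) (Fin 2) F).BlockTriangular id ↔ _
  constructor
  · intro h
    exact h (by decide)
  · intro h i j hij
    fin_cases i <;> fin_cases j <;> simp_all

theorem det_ne (g : Matrix.GeneralLinearGroup (Fin 2) F) :
    (g : Matrix (Fin 2) (Fin 2) F) 0 0 * (g : Matrix (Fin 2) (Fin 2) F) 1 1 -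
      (g : Matrix (Fin 2) (Fin 2) F) 0 1 * (g : Matrix (Fin 2) (Fin 2) F) 1 0 ≠ 0 := by
  rw [← Matrix.det_fin_two]
  exact ((Matrix.isUnit_iff_isUnit_det _).mp (Units.isUnit g)).ne_zero

theorem gmul (g h : Matrix.GeneralLinearGroup (Fin 2) F) (i j : Fin 2) :
    ((g * h : Matrix.GeneralLinearGroup (Fin 2) F) : Matrix (Fin 2) (Fin 2) F) i j =
      (g : Matrix (Fin 2) (Fin 2) F) i 0 * (h : Matrix (Fin 2) (Fin 2) F) 0 j +
      (g : Matrix (Fin 2) (Fin 2) F) i 1 * (h : Matrix (Fin 2) (Fin 2) F) 1 j := by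
  rw [Units.val_mul, Matrix.mul_apply, Fin.sum_univ_two]

/-- The element of `GL₂` with the given entries. -/
noncomputable def mk2 (a b c d : F) (h : a * d - b * c ≠ 0) : Matrix.GeneralLinearGroup (Fin 2) F :=
  Matrix.GeneralLinearGroup.mkOfDetNeZero !![a, b; c, d] (by rw [Matrix.det_fin_two_of]; exact h)

theorem mk2_val (a b c d : F) (h : a * d - b * c ≠ 0) :
    ((mk2 a b c d h : Matrix.GeneralLinearGroup (Fin 2) F) : Matrix (Fin 2) (Fin 2) F) =
      !![a, b; c, d] := rfl

theorem gl2_ext {g h : Matrix.GeneralLinearGroup (Fin 2) F}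
    (h00 : (g : Matrix (Fin 2) (Fin 2) F) 0 0 = (h : Matrix (Fin 2) (Fin 2) F) 0 0)
    (h01 : (g : Matrix (Fin 2) (Fin 2) F) 0 1 = (h : Matrix (Fin 2) (Fin 2) F) 0 1)
    (h10 : (g : Matrix (Fin 2) (Fin 2) F) 1 0 = (h : Matrix (Fin 2) (Fin 2) F) 1 0)
    (h11 : (g : Matrix (Fin 2) (Fin 2) F) 1 1 = (h : Matrix (Fin 2) (Fin 2) F) 1 1) : g = h := by
  apply Units.ext
  ext i j
  fin_cases i <;> fin_cases j <;> assumption

/-- The coset representative `n_t`. -/
noncomputable def nn (t : F) : Matrix.GeneralLinearGroup (Fin 2) F :=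
  mk2 t 1 1 0 (by simp)

theorem nn00 (t : F) : ((nn t : Matrix.GeneralLinearGroup (Fin 2) F) : Matrix (Fin 2) (Fin 2) F) 0 0 = t := rfl
theorem nn01 (t : F) : ((nn t : Matrix.GeneralLinearGroup (Fin 2) F) : Matrix (Fin 2) (Fin 2) F) 0 1 = 1 := rfl
theorem nn10 (t : F) : ((nn t : Matrix.GeneralLinearGroup (Fin 2) F) : Matrix (Fin 2) (Fin 2) F) 1 0 = 1 := rfl
theorem nn11 (t : F) : ((nn t : Matrix.GeneralLinearGroup (Fin 2) F) : Matrix (Fin 2) (Fin 2) F) 1 1 = 0 := rfl

/-- Coset representatives of the upper triangular subgroup. -/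
noncomputable def rep (o : Option F) : Matrix.GeneralLinearGroup (Fin 2) F :=
  o.elim 1 nn

theorem B00_ne (b : Cfsg.upperTriangularGL 2 F) :
    ((b : Matrix.GeneralLinearGroup (Fin 2) F) : Matrix (Fin 2) (Fin 2) F) 0 0 ≠ 0 := by
  have h := det_ne (b : Matrix.GeneralLinearGroup (Fin 2) F)
  rw [(mem_B _).mp b.2, mul_zero, sub_zero] at h
  exact left_ne_zero_of_mul h

theorem B11_ne (b : Cfsg.upperTriangularGL 2 F) :
    ((b : Matrix.GeneralLinearGroup (Fin 2) F) : Matrix (Fin 2) (Fin 2) F) 1 1 ≠ 0 := by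
  have h := det_ne (b : Matrix.GeneralLinearGroup (Fin 2) F)
  rw [(mem_B _).mp b.2, mul_zero, sub_zero] at h
  exact right_ne_zero_of_mul h

theorem rep_bij : Function.Bijective
    (fun p : Option F × (Cfsg.upperTriangularGL 2 F) =>
      rep p.1 * (p.2 : Matrix.GeneralLinearGroup (Fin 2) F)) := by
  constructor
  · rintro ⟨o, b⟩ ⟨o', b'⟩ h
    have hb := (mem_B _).mp b.2
    have hb' := (mem_B _).mp b'.2
    have key : ∀ (t : F) (c c' : Cfsg.upperTriangularGL 2 F),
        (c : Matrix.GeneralLinearGroup (Fin 2) F) ≠ nn t * (c' : Matrix.GeneralLinearGroup (Fin 2) F) := by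
      intro t c c' hc
      have h10 := congrArg (fun x : Matrix.GeneralLinearGroup (Fin 2) F =>
        (x : Matrix (Fin 2) (Fin 2) F) 1 0) hc
      simp only [gmul, nn10, nn11] at h10
      rw [(mem_B _).mp c.2, (mem_B _).mp c'.2] at h10
      have := B00_ne c'
      apply this
      linear_combination -h10
    cases o with
    | none =>
      cases o' with
      | none =>
        simp only [rep, Option.elim, one_mul] at h
        rw [Subtype.ext h]
      | some t =>
        simp only [rep, Option.elim, one_mul] at h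
        exact absurd h (key t b b')
    | some t =>
      cases o' with
      | none =>
        simp only [rep, Option.elim, one_mul] at h
        exact absurd h.symm (key t b' b)
      | some s =>
        simp only [rep, Option.elim] at h
        have h10 := congrArg (fun x : Matrix.GeneralLinearGroup (Fin 2) F =>
          (x : Matrix (Fin 2) (Fin 2) F) 1 0) h
        have h00 := congrArg (fun x : Matrix.GeneralLinearGroup (Fin 2) F =>
          (x : Matrix (Fin 2) (Fin 2) F) 0 0) h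
        simp only [gmul, nn10, nn11, nn00, nn01] at h10 h00
        rw [hb, hb'] at h10 h00
        have hts : t = s := by
          have hne := B00_ne b
          have : (t - s) * ((b : Matrix.GeneralLinearGroup (Fin 2) F) : Matrix (Fin 2) (Fin 2) F) 0 0 = 0 := by
            linear_combination h00 - s * h10
          rcases mul_eq_zero.mp this with h1 | h1
          · exact sub_eq_zero.mp h1
          · exact absurd h1 hne
        subst hts
        have := mul_left_cancel h
        rw [Subtype.ext this]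
  · intro g
    by_cases hg : (g : Matrix (Fin 2) (Fin 2) F) 1 0 = 0
    · exact ⟨(none, ⟨g, (mem_B g).mpr hg⟩), by simp [rep]⟩
    · have hmem : (nn ((g : Matrix (Fin 2) (Fin 2) F) 0 0 / (g : Matrix (Fin 2) (Fin 2) F) 1 0))⁻¹ * g ∈
          Cfsg.upperTriangularGL 2 F := by
        rw [mem_B]
        have e : nn ((g : Matrix (Fin 2) (Fin 2) F) 0 0 / (g : Matrix (Fin 2) (Fin 2) F) 1 0) *
            ((nn ((g : Matrix (Fin 2) (Fin 2) F) 0 0 / (g : Matrix (Fin 2) (Fin 2) F) 1 0))⁻¹ * g) = g := by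
          group
        generalize (nn ((g : Matrix (Fin 2) (Fin 2) F) 0 0 / (g : Matrix (Fin 2) (Fin 2) F) 1 0))⁻¹ * g = y at e ⊢
        have h10 := congrArg (fun x : Matrix.GeneralLinearGroup (Fin 2) F =>
          (x : Matrix (Fin 2) (Fin 2) F) 1 0) e
        have h00 := congrArg (fun x : Matrix.GeneralLinearGroup (Fin 2) F =>
          (x : Matrix (Fin 2) (Fin 2) F) 0 0) e
        simp only [gmul, nn10, nn11, nn00, nn01] at h10 h00
        have e3 : (g : Matrix (Fin 2) (Fin 2) F) 0 0 / (g : Matrix (Fin 2) (Fin 2) F) 1 0 *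
            (g : Matrix (Fin 2) (Fin 2) F) 1 0 = (g : Matrix (Fin 2) (Fin 2) F) 0 0 :=
          div_mul_cancel₀ _ hg
        linear_combination h00 - ((g : Matrix (Fin 2) (Fin 2) F) 0 0 / (g : Matrix (Fin 2) (Fin 2) F) 1 0) * h10 - e3
      refine ⟨(some ((g : Matrix (Fin 2) (Fin 2) F) 0 0 / (g : Matrix (Fin 2) (Fin 2) F) 1 0), ⟨_, hmem⟩), ?_⟩
      simp [rep]

theorem conj_entries (g : Matrix.GeneralLinearGroup (Fin 2) F) (t : F) :
    (((nn t)⁻¹ * g * nn t : Matrix.GeneralLinearGroup (Fin 2) F) : Matrix (Fin 2) (Fin 2) F) 1 0 =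
      -((g : Matrix (Fin 2) (Fin 2) F) 1 0) * t ^ 2 +
        ((g : Matrix (Fin 2) (Fin 2) F) 0 0 - (g : Matrix (Fin 2) (Fin 2) F) 1 1) * t +
        (g : Matrix (Fin 2) (Fin 2) F) 0 1 ∧
    (((nn t)⁻¹ * g * nn t : Matrix.GeneralLinearGroup (Fin 2) F) : Matrix (Fin 2) (Fin 2) F) 0 0 =
      (g : Matrix (Fin 2) (Fin 2) F) 1 0 * t + (g : Matrix (Fin 2) (Fin 2) F) 1 1 ∧
    (((nn t)⁻¹ * g * nn t : Matrix.GeneralLinearGroup (Fin 2) F) : Matrix (Fin 2) (Fin 2) F) 1 1 =
      (g : Matrix (Fin 2) (Fin 2) F) 0 0 - t * (g : Matrix (Fin 2) (Fin 2) F) 1 0 := by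
  have h : nn t * ((nn t)⁻¹ * g * nn t) = g * nn t := by group
  generalize (nn t)⁻¹ * g * nn t = y at h ⊢
  have h00 := congrArg (fun x : Matrix.GeneralLinearGroup (Fin 2) F =>
    (x : Matrix (Fin 2) (Fin 2) F) 0 0) h
  have h01 := congrArg (fun x : Matrix.GeneralLinearGroup (Fin 2) F =>
    (x : Matrix (Fin 2) (Fin 2) F) 0 1) h
  have h10 := congrArg (fun x : Matrix.GeneralLinearGroup (Fin 2) F =>
    (x : Matrix (Fin 2) (Fin 2) F) 1 0) h
  have h11 := congrArg (fun x : Matrix.GeneralLinearGroup (Fin 2) F =>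
    (x : Matrix (Fin 2) (Fin 2) F) 1 1) h
  simp only [gmul, nn10, nn11, nn00, nn01] at h00 h01 h10 h11
  refine ⟨?_, ?_, ?_⟩
  · linear_combination h00 - t * h10
  · linear_combination h10
  · linear_combination h01 - t * h11

/-- The linear character `b ↦ α(b₁₁) β(b₂₂)` of the upper triangular subgroup. -/
noncomputable def th (α β : MulChar F ℂ) : Cfsg.upperTriangularGL 2 F → ℂ :=
  fun b => α (((b : Matrix.GeneralLinearGroup (Fin 2) F) : Matrix (Fin 2) (Fin 2) F) 0 0) *
    β (((b : Matrix.GeneralLinearGroup (Fin 2) F) : Matrix (Fin 2) (Fin 2) F) 1 1)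

theorem mulChar_ne_zero (α : MulChar F ℂ) {a : F} (ha : a ≠ 0) : α a ≠ 0 :=
  (IsUnit.map α (IsUnit.mk0 a ha)).ne_zero

theorem th_ne_zero (α β : MulChar F ℂ) (b : Cfsg.upperTriangularGL 2 F) : th α β b ≠ 0 :=
  mul_ne_zero (mulChar_ne_zero α (B00_ne b)) (mulChar_ne_zero β (B11_ne b))

theorem th_mul (α β : MulChar F ℂ) (b b' : Cfsg.upperTriangularGL 2 F) :
    th α β (b * b') = th α β b * th α β b' := by
  unfold th
  have e0 : (((b * b' : Cfsg.upperTriangularGL 2 F) : Matrix.GeneralLinearGroup (Fin 2) F) :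
      Matrix (Fin 2) (Fin 2) F) 0 0 =
      ((b : Matrix.GeneralLinearGroup (Fin 2) F) : Matrix (Fin 2) (Fin 2) F) 0 0 *
      ((b' : Matrix.GeneralLinearGroup (Fin 2) F) : Matrix (Fin 2) (Fin 2) F) 0 0 := by
    rw [Subgroup.coe_mul, gmul, (mem_B _).mp b'.2, mul_zero, add_zero]
  have e1 : (((b * b' : Cfsg.upperTriangularGL 2 F) : Matrix.GeneralLinearGroup (Fin 2) F) :
      Matrix (Fin 2) (Fin 2) F) 1 1 =
      ((b : Matrix.GeneralLinearGroup (Fin 2) F) : Matrix (Fin 2) (Fin 2) F) 1 1 *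
      ((b' : Matrix.GeneralLinearGroup (Fin 2) F) : Matrix (Fin 2) (Fin 2) F) 1 1 := by
    rw [Subgroup.coe_mul, gmul, (mem_B _).mp b.2, zero_mul, zero_add]
  rw [e0, e1, map_mul, map_mul]
  ring

/-- The linear character as a homomorphism. -/
noncomputable def lamB (α β : MulChar F ℂ) : Cfsg.upperTriangularGL 2 F →* ℂˣ :=
  MonoidHom.mk' (fun b => Units.mk0 (th α β b) (th_ne_zero α β b))
    (fun b b' => Units.ext (th_mul α β b b'))

variable [Fintype F] [DecidableEq F]

theorem th_irr (α β : MulChar F ℂ) :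
    Cfsg.IsIrrCharacter (Cfsg.upperTriangularGL 2 F) (th α β) := by
  haveI : Fintype (Cfsg.upperTriangularGL 2 F) := Fintype.ofFinite _
  exact Cfsg.Agent.Lib.Helper3.CharArith.isIrr_of_hom (lamB α β)

theorem th_classFun (α β : MulChar F ℂ) :
    Cfsg.IsClassFunction (Cfsg.upperTriangularGL 2 F) (th α β) :=
  Cfsg.Agent.Lib.Helper3.Char.char_classFun
    (Cfsg.Agent.Lib.Helper3.Char.isCharacter_of_irr (th_irr α β))

theorem ext_th (α β : MulChar F ℂ) (g : Matrix.GeneralLinearGroup (Fin 2) F) :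
    Cfsg.extendByZero (Cfsg.upperTriangularGL 2 F) (th α β) g =
      if (g : Matrix (Fin 2) (Fin 2) F) 1 0 = 0 then
        α ((g : Matrix (Fin 2) (Fin 2) F) 0 0) * β ((g : Matrix (Fin 2) (Fin 2) F) 1 1) else 0 := by
  split_ifs with h
  · rw [Cfsg.Agent.Lib.Helper3.CharInd.extendByZero_mem _ _ ((mem_B g).mpr h)]
    rfl
  · rw [Cfsg.Agent.Lib.Helper3.CharInd.extendByZero_not_mem _ _ (fun hc => h ((mem_B g).mp hc))]

/-- The value of the induced function at an arbitrary element. -/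
theorem ind_value (α β : MulChar F ℂ) (g : Matrix.GeneralLinearGroup (Fin 2) F) :
    Cfsg.indFun (Cfsg.upperTriangularGL 2 F) (th α β) g =
      (if (g : Matrix (Fin 2) (Fin 2) F) 1 0 = 0 then
        α ((g : Matrix (Fin 2) (Fin 2) F) 0 0) * β ((g : Matrix (Fin 2) (Fin 2) F) 1 1) else 0) +
      ∑ t : F, if -((g : Matrix (Fin 2) (Fin 2) F) 1 0) * t ^ 2 +
          ((g : Matrix (Fin 2) (Fin 2) F) 0 0 - (g : Matrix (Fin 2) (Fin 2) F) 1 1) * t +
          (g : Matrix (Fin 2) (Fin 2) F) 0 1 = 0 then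
        α ((g : Matrix (Fin 2) (Fin 2) F) 1 0 * t + (g : Matrix (Fin 2) (Fin 2) F) 1 1) *
          β ((g : Matrix (Fin 2) (Fin 2) F) 0 0 - t * (g : Matrix (Fin 2) (Fin 2) F) 1 0) else 0 := by
  rw [ind_transversal _ _ (th_classFun α β) rep rep_bij g, Fintype.sum_option]
  congr 1
  · have e : (rep (none : Option F))⁻¹ * g * rep none = g := by simp [rep]
    rw [e, ext_th]
  · refine Finset.sum_congr rfl (fun t _ => ?_)
    obtain ⟨h1, h2, h3⟩ := conj_entries g t
    show Cfsg.extendByZero _ _ ((nn t)⁻¹ * g * nn t) = _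
    rw [ext_th, h1, h2, h3]

/-- Parametrisation of the upper triangular subgroup. -/
noncomputable def toB (p : Fˣ × Fˣ × F) : Cfsg.upperTriangularGL 2 F :=
  ⟨mk2 (p.1 : F) p.2.2 0 (p.2.1 : F) (by simp), (mem_B _).mpr rfl⟩

theorem toB00 (p : Fˣ × Fˣ × F) :
    ((toB p : Matrix.GeneralLinearGroup (Fin 2) F) : Matrix (Fin 2) (Fin 2) F) 0 0 = (p.1 : F) := rfl
theorem toB01 (p : Fˣ × Fˣ × F) :
    ((toB p : Matrix.GeneralLinearGroup (Fin 2) F) : Matrix (Fin 2) (Fin 2) F) 0 1 = p.2.2 := rfl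
theorem toB10 (p : Fˣ × Fˣ × F) :
    ((toB p : Matrix.GeneralLinearGroup (Fin 2) F) : Matrix (Fin 2) (Fin 2) F) 1 0 = 0 := rfl
theorem toB11 (p : Fˣ × Fˣ × F) :
    ((toB p : Matrix.GeneralLinearGroup (Fin 2) F) : Matrix (Fin 2) (Fin 2) F) 1 1 = (p.2.1 : F) := rfl

theorem toB_bij : Function.Bijective (toB : Fˣ × Fˣ × F → Cfsg.upperTriangularGL 2 F) := by
  constructor
  · rintro ⟨a, d, b⟩ ⟨a', d', b'⟩ h
    have h00 := congrArg (fun x : Cfsg.upperTriangularGL 2 F =>
      ((x : Matrix.GeneralLinearGroup (Fin 2) F) : Matrix (Fin 2) (Fin 2) F) 0 0) h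
    have h01 := congrArg (fun x : Cfsg.upperTriangularGL 2 F =>
      ((x : Matrix.GeneralLinearGroup (Fin 2) F) : Matrix (Fin 2) (Fin 2) F) 0 1) h
    have h11 := congrArg (fun x : Cfsg.upperTriangularGL 2 F =>
      ((x : Matrix.GeneralLinearGroup (Fin 2) F) : Matrix (Fin 2) (Fin 2) F) 1 1) h
    simp only [toB00, toB01, toB11] at h00 h01 h11
    rw [Units.ext h00, Units.ext h11, h01]
  · intro b
    refine ⟨(Units.mk0 _ (B00_ne b), Units.mk0 _ (B11_ne b),
      ((b : Matrix.GeneralLinearGroup (Fin 2) F) : Matrix (Fin 2) (Fin 2) F) 0 1), ?_⟩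
    apply Subtype.ext
    apply gl2_ext
    · rfl
    · rfl
    · exact ((mem_B _).mp b.2).symm
    · rfl

theorem card_units_cast : (Nat.card Fˣ : ℂ) = (Fintype.card F : ℂ) - 1 := by
  rw [Nat.card_eq_fintype_card, Fintype.card_units, Nat.cast_sub Fintype.card_pos, Nat.cast_one]

theorem card_B : (Nat.card (Cfsg.upperTriangularGL 2 F) : ℂ) =
    ((Fintype.card F : ℂ) - 1) * (((Fintype.card F : ℂ) - 1) * (Fintype.card F : ℂ)) := by
  rw [← Nat.card_congr (Equiv.ofBijective _ (toB_bij (F := F))), Nat.card_prod, Nat.card_prod,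
    Nat.cast_mul, Nat.cast_mul, card_units_cast, Nat.card_eq_fintype_card]

theorem card_sub_one_ne : ((Fintype.card F : ℂ) - 1) ≠ 0 := by
  have h : 1 < Fintype.card F := Fintype.one_lt_card
  intro h3
  rw [sub_eq_zero] at h3
  have h4 : Fintype.card F = 1 := by exact_mod_cast h3
  omega

theorem sum_units_mulChar (χ : MulChar F ℂ) :
    ∑ a : Fˣ, χ (a : F) = if χ = 1 then ((Fintype.card F : ℂ) - 1) else 0 := by
  split_ifs with h
  · subst h
    rw [Finset.sum_congr rfl (fun a _ => MulChar.one_apply_coe a), Finset.sum_const,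
      Finset.card_univ, nsmul_eq_mul, mul_one, ← Nat.card_eq_fintype_card, card_units_cast]
  · have h2 := sum_hom_units_eq_zero ((MulChar.toMonoidHom χ).comp (Units.coeHom F)) (by
      intro hc
      apply h
      apply MulChar.ext
      intro a
      have := DFunLike.congr_fun hc a
      simpa using this)
    simpa using h2

theorem orth_units (α β : MulChar F ℂ) :
    ∑ a : Fˣ, α (a : F) * conj (β (a : F)) = if α = β then ((Fintype.card F : ℂ) - 1) else 0 := by
  have h1 : ∀ a : Fˣ, α (a : F) * conj (β (a : F)) = (α * β⁻¹) (a : F) := by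
    intro a
    rw [MulChar.mul_apply, ← MulChar.star_apply']
    rfl
  rw [Finset.sum_congr rfl (fun a _ => h1 a), sum_units_mulChar]
  have h2 : (α * β⁻¹ = 1) ↔ α = β := mul_inv_eq_one
  simp only [h2]

theorem ite_and_mul (P Q : Prop) [Decidable P] [Decidable Q] (c : ℂ) :
    (if P then c else 0) * (if Q then c else 0) = if P ∧ Q then c * c else 0 := by
  by_cases hP : P <;> by_cases hQ : Q <;> simp [hP, hQ]

theorem sum_bt (a d : F) (c : ℂ) :
    ∑ b : F, ∑ t : F, (if (a - d) * t + b = 0 then c else 0) = (Fintype.card F : ℂ) * c := by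
  rw [Finset.sum_comm]
  have h : ∀ t : F, ∑ b : F, (if (a - d) * t + b = 0 then c else 0) = c := by
    intro t
    rw [Finset.sum_eq_single (-((a - d) * t))]
    · simp
    · intro b _ hb
      rw [if_neg]
      intro h
      apply hb
      linear_combination h
    · intro h
      exact absurd (Finset.mem_univ _) h
  rw [Finset.sum_congr rfl (fun t _ => h t), Finset.sum_const, Finset.card_univ, nsmul_eq_mul]

/-- The inner product of two principal series functions. -/
theorem inner_ind (α β α' β' : MulChar F ℂ) :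
    Cfsg.classInner (Cfsg.indFun (Cfsg.upperTriangularGL 2 F) (th α β))
      (Cfsg.indFun (Cfsg.upperTriangularGL 2 F) (th α' β')) =
      (if α = α' ∧ β = β' then 1 else 0) + (if α = β' ∧ β = α' then 1 else 0) := by
  haveI : Fintype (Cfsg.upperTriangularGL 2 F) := Fintype.ofFinite _
  rw [Cfsg.Agent.Lib.Helper3.CharInd.frobenius _ (th α β) _
    (Cfsg.Agent.Lib.Helper3.CharInd.indFun_classFun _ (th α' β'))]
  unfold Cfsg.classInner
  rw [← Fintype.sum_bijective _ (toB_bij (F := F)) _ _ (fun p => rfl)]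
  have hval : ∀ p : Fˣ × Fˣ × F,
      th α β (toB p) * conj (Cfsg.indFun (Cfsg.upperTriangularGL 2 F) (th α' β')
        ((toB p : Cfsg.upperTriangularGL 2 F) : Matrix.GeneralLinearGroup (Fin 2) F)) =
      α (p.1 : F) * conj (α' (p.1 : F)) * (β (p.2.1 : F) * conj (β' (p.2.1 : F))) +
      α (p.1 : F) * conj (β' (p.1 : F)) * (β (p.2.1 : F) * conj (α' (p.2.1 : F))) *
        ∑ t : F, (if ((p.1 : F) - (p.2.1 : F)) * t + p.2.2 = 0 then (1 : ℂ) else 0) := by
    intro p
    rw [ind_value]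
    simp only [toB00, toB01, toB10, toB11, if_true, neg_zero, zero_mul, zero_add, mul_zero,
      sub_zero]
    unfold th
    simp only [toB00, toB11]
    rw [map_add, map_mul, map_sum, mul_add]
    congr 1
    · ring
    · rw [Finset.mul_sum, Finset.mul_sum]
      refine Finset.sum_congr rfl (fun t _ => ?_)
      split_ifs with h
      · rw [map_mul]
        ring
      · simp
  rw [Finset.sum_congr rfl (fun p _ => hval p), Fintype.sum_prod_type]
  have h2 : ∀ a : Fˣ, ∑ y : Fˣ × F,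
      (α (a : F) * conj (α' (a : F)) * (β (y.1 : F) * conj (β' (y.1 : F))) +
      α (a : F) * conj (β' (a : F)) * (β (y.1 : F) * conj (α' (y.1 : F))) *
        ∑ t : F, (if ((a : F) - (y.1 : F)) * t + y.2 = 0 then (1 : ℂ) else 0)) =
      (Fintype.card F : ℂ) * (α (a : F) * conj (α' (a : F)) *
          (if β = β' then ((Fintype.card F : ℂ) - 1) else 0) +
        α (a : F) * conj (β' (a : F)) * (if β = α' then ((Fintype.card F : ℂ) - 1) else 0)) := by
    intro a
    rw [Fintype.sum_prod_type]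
    have h3 : ∀ d : Fˣ, ∑ b : F,
        (α (a : F) * conj (α' (a : F)) * (β (d : F) * conj (β' (d : F))) +
        α (a : F) * conj (β' (a : F)) * (β (d : F) * conj (α' (d : F))) *
          ∑ t : F, (if ((a : F) - (d : F)) * t + b = 0 then (1 : ℂ) else 0)) =
        (Fintype.card F : ℂ) * (α (a : F) * conj (α' (a : F)) * (β (d : F) * conj (β' (d : F)))) +
        (Fintype.card F : ℂ) * (α (a : F) * conj (β' (a : F)) * (β (d : F) * conj (α' (d : F)))) := by
      intro d
      rw [Finset.sum_add_distrib, Finset.sum_const, Finset.card_univ, nsmul_eq_mul,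
        ← Finset.mul_sum, sum_bt]
      ring
    rw [Finset.sum_congr rfl (fun d _ => h3 d), Finset.sum_add_distrib, ← Finset.mul_sum,
      ← Finset.mul_sum, ← Finset.mul_sum, ← Finset.mul_sum, orth_units, orth_units]
    ring
  rw [Finset.sum_congr rfl (fun a _ => h2 a), ← Finset.mul_sum, Finset.sum_add_distrib,
    ← Finset.sum_mul, ← Finset.sum_mul, orth_units, orth_units, card_B]
  have hq : ((Fintype.card F : ℂ) - 1) ≠ 0 := card_sub_one_ne
  have hq0 : (Fintype.card F : ℂ) ≠ 0 := by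
    have : 0 < Fintype.card F := Fintype.card_pos
    exact_mod_cast this.ne'
  rw [ite_and_mul, ite_and_mul]
  split_ifs <;> first | (field_simp; ring) | field_simp | simp

end GL2

theorem result {F : Type*} [Field F] [Fintype F] [DecidableEq F] (α β : MulChar F ℂ) (hαβ : α ≠ β) :
    Cfsg.IsIrrCharacter (Matrix.GeneralLinearGroup (Fin 2) F) (Cfsg.indFun (Cfsg.upperTriangularGL 2 F) (fun b => α (((b : Matrix.GeneralLinearGroup (Fin 2) F) : Matrix (Fin 2) (Fin 2) F) 0 0) * β (((b : Matrix.GeneralLinearGroup (Fin 2) F) : Matrix (Fin 2) (Fin 2) F) 1 1))) := by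
  have h1 : Cfsg.IsCharacter (Matrix.GeneralLinearGroup (Fin 2) F)
      (Cfsg.indFun (Cfsg.upperTriangularGL 2 F) (th α β)) :=
    Cfsg.Agent.S0148.result _ _ (Cfsg.Agent.Lib.Helper3.Char.isCharacter_of_irr (th_irr α β))
  have h2 := inner_ind α β α β
  rw [if_pos ⟨rfl, rfl⟩, if_neg (fun h => hαβ h.1), add_zero] at h2
  exact Cfsg.Agent.Lib.Helper3.CharArith.isIrr_of_inner_self h1 h2

end Cfsg.Agent.S2304
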