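import Cfsg.Statements.S2305
import Mathlib
import Cfsg.Agent.S2304

set_option autoImplicit false
open Cfsg

namespace Cfsg.Agent.S2305

theorem result {F : Type*} [Field F] [Fintype F] [DecidableEq F] (α β α' β' : MulChar F ℂ) :
    Cfsg.indFun (Cfsg.upperTriangularGL 2 F) (fun b => α (((b : Matrix.GeneralLinearGroup (Fin 2) F) : Matrix (Fin 2) (Fin 2) F) 0 0) * β (((b : Matrix.GeneralLinearGroup (Fin 2) F) : Matrix (Fin 2) (Fin 2) F) 1 1)) = Cfsg.indFun (Cfsg.upperTriangularGL 2 F) (fun b => α' (((b : Matrix.GeneralLinearGroup (Fin 2) F) : Matrix (Fin 2) (Fin 2) F) 0 0) * β' (((b : Matrix.GeneralLinearGroup (Fin 2) F) : Matrix (Fin 2) (Fin 2) F) 1 1)) ↔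
      (α = α' ∧ β = β') ∨ (α = β' ∧ β = α') := by
  have hchar : ∀ a b : MulChar F ℂ, Cfsg.IsCharacter (Matrix.GeneralLinearGroup (Fin 2) F)
      (Cfsg.indFun (Cfsg.upperTriangularGL 2 F) (Cfsg.Agent.S2304.th a b)) := fun a b =>
    Cfsg.Agent.S0148.result _ _
      (Cfsg.Agent.Lib.Helper3.Char.isCharacter_of_irr (Cfsg.Agent.S2304.th_irr a b))
  have hirr : ∀ a b : MulChar F ℂ, a ≠ b → Cfsg.IsIrrCharacter (Matrix.GeneralLinearGroup (Fin 2) F)
      (Cfsg.indFun (Cfsg.upperTriangularGL 2 F) (Cfsg.Agent.S2304.th a b)) := by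
    intro a b hab
    have h2 := Cfsg.Agent.S2304.inner_ind a b a b
    rw [if_pos ⟨rfl, rfl⟩, if_neg (fun h => hab h.1), add_zero] at h2
    exact Cfsg.Agent.Lib.Helper3.CharArith.isIrr_of_inner_self (hchar a b) h2
  have hswap : ∀ a b : MulChar F ℂ,
      Cfsg.indFun (Cfsg.upperTriangularGL 2 F) (Cfsg.Agent.S2304.th a b) =
      Cfsg.indFun (Cfsg.upperTriangularGL 2 F) (Cfsg.Agent.S2304.th b a) := by
    intro a b
    by_cases hab : a = b
    · rw [hab]
    · by_contra hne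
      have h1 := Cfsg.Agent.Lib.Helper3.Char.irr_inner_ne (hirr a b hab) (hirr b a (Ne.symm hab)) hne
      rw [Cfsg.Agent.S2304.inner_ind, if_neg (fun h => hab h.1), if_pos ⟨rfl, rfl⟩, zero_add] at h1
      exact one_ne_zero h1
  show Cfsg.indFun (Cfsg.upperTriangularGL 2 F) (Cfsg.Agent.S2304.th α β) =
    Cfsg.indFun (Cfsg.upperTriangularGL 2 F) (Cfsg.Agent.S2304.th α' β') ↔ _
  constructor
  · intro h
    have h1 := Cfsg.Agent.S2304.inner_ind α β α' β'
    rw [← h, Cfsg.Agent.S2304.inner_ind, if_pos ⟨rfl, rfl⟩] at h1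
    by_contra hc
    rw [not_or] at hc
    rw [if_neg hc.1, if_neg hc.2, add_zero] at h1
    split_ifs at h1
    · norm_num at h1
    · norm_num at h1
  · rintro (⟨h1, h2⟩ | ⟨h1, h2⟩)
    · rw [h1, h2]
    · rw [h1, h2]
      exact hswap _ _

end Cfsg.Agent.S2305
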