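import Cfsg.Statements.S2309
import Mathlib
import Cfsg.Agent.S2305
import Cfsg.Agent.S2303
import Cfsg.Agent.Lib.Helper3.CharTable

set_option autoImplicit false
open Cfsg

set_option maxHeartbeats 1000000
namespace Cfsg.Agent.S2309

open scoped ComplexConjugate

section GL2

variable {F : Type*} [Field F] [Fintype F] [DecidableEq F]

theorem card_mulChar [Fintype (MulChar F ℂ)] :
    (Fintype.card (MulChar F ℂ) : ℂ) = (Fintype.card F : ℂ) - 1 := by
  rw [← Nat.card_eq_fintype_card, MulChar.card_eq_card_units_of_hasEnoughRootsOfUnity F ℂ,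
    Cfsg.Agent.S2304.card_units_cast]

theorem dual_orth [Fintype (MulChar F ℂ)] {a : F} (ha : a ≠ 1) : ∑ χ : MulChar F ℂ, χ a = 0 := by
  obtain ⟨χ, hχ⟩ := MulChar.exists_apply_ne_one_of_hasEnoughRootsOfUnity F ℂ ha
  refine eq_zero_of_mul_eq_self_left hχ ?_
  simp only [Finset.mul_sum, ← MulChar.mul_apply]
  exact Fintype.sum_bijective _ (Group.mulLeft_bijective χ) _ _ fun χ' ↦ rfl

theorem mc_conj (α : MulChar F ℂ) (d : F) : conj (α d) = α d⁻¹ := by
  have h := MulChar.star_apply' α d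
  rw [MulChar.inv_apply'] at h
  exact h

theorem mc_norm (α : MulChar F ℂ) {a : F} (ha : a ≠ 0) : α a * conj (α a) = 1 := by
  rw [mc_conj, ← map_mul, mul_inv_cancel₀ ha, map_one]

theorem dual_orth2 [Fintype (MulChar F ℂ)] {a d : F} (hd : d ≠ 0) (hne : a ≠ d) :
    ∑ α : MulChar F ℂ, α a * conj (α d) = 0 := by
  have h : a * d⁻¹ ≠ 1 := by
    intro h1
    apply hne
    field_simp at h1
    exact h1
  rw [← dual_orth h]
  refine Finset.sum_congr rfl (fun α _ => ?_)
  rw [mc_conj, ← map_mul]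

/-- The principal series function. -/
noncomputable def PS (α β : MulChar F ℂ) : Matrix.GeneralLinearGroup (Fin 2) F → ℂ :=
  Cfsg.indFun (Cfsg.upperTriangularGL 2 F) (Cfsg.Agent.S2304.th α β)

theorem PS_def (α β : MulChar F ℂ) :
    PS α β = Cfsg.indFun (Cfsg.upperTriangularGL 2 F) (Cfsg.Agent.S2304.th α β) := rfl

theorem PS_char (α β : MulChar F ℂ) :
    Cfsg.IsCharacter (Matrix.GeneralLinearGroup (Fin 2) F) (PS α β) :=
  Cfsg.Agent.S0148.result _ _
    (Cfsg.Agent.Lib.Helper3.Char.isCharacter_of_irr (Cfsg.Agent.S2304.th_irr α β))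

theorem PS_inner (α β α' β' : MulChar F ℂ) :
    Cfsg.classInner (PS α β) (PS α' β') =
      (if α = α' ∧ β = β' then 1 else 0) + (if α = β' ∧ β = α' then 1 else 0) :=
  Cfsg.Agent.S2304.inner_ind α β α' β'

theorem PS_irr (α β : MulChar F ℂ) (hαβ : α ≠ β) :
    Cfsg.IsIrrCharacter (Matrix.GeneralLinearGroup (Fin 2) F) (PS α β) := by
  have h2 := PS_inner α β α β
  rw [if_pos ⟨rfl, rfl⟩, if_neg (fun h => hαβ h.1), add_zero] at h2
  exact Cfsg.Agent.Lib.Helper3.CharArith.isIrr_of_inner_self (PS_char α β) h2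

theorem PS_value (α β : MulChar F ℂ) (g : Matrix.GeneralLinearGroup (Fin 2) F) :
    PS α β g =
      (if (g : Matrix (Fin 2) (Fin 2) F) 1 0 = 0 then
        α ((g : Matrix (Fin 2) (Fin 2) F) 0 0) * β ((g : Matrix (Fin 2) (Fin 2) F) 1 1) else 0) +
      ∑ t : F, if -((g : Matrix (Fin 2) (Fin 2) F) 1 0) * t ^ 2 +
          ((g : Matrix (Fin 2) (Fin 2) F) 0 0 - (g : Matrix (Fin 2) (Fin 2) F) 1 1) * t +
          (g : Matrix (Fin 2) (Fin 2) F) 0 1 = 0 then
        α ((g : Matrix (Fin 2) (Fin 2) F) 1 0 * t + (g : Matrix (Fin 2) (Fin 2) F) 1 1) *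
          β ((g : Matrix (Fin 2) (Fin 2) F) 0 0 - t * (g : Matrix (Fin 2) (Fin 2) F) 1 0) else 0 :=
  Cfsg.Agent.S2304.ind_value α β g

theorem PS_one (α β : MulChar F ℂ) : PS α β 1 = (Fintype.card F : ℂ) + 1 := by
  rw [PS_value]
  have e00 : ((1 : Matrix.GeneralLinearGroup (Fin 2) F) : Matrix (Fin 2) (Fin 2) F) 0 0 = 1 := by simp
  have e01 : ((1 : Matrix.GeneralLinearGroup (Fin 2) F) : Matrix (Fin 2) (Fin 2) F) 0 1 = 0 := by simp
  have e10 : ((1 : Matrix.GeneralLinearGroup (Fin 2) F) : Matrix (Fin 2) (Fin 2) F) 1 0 = 0 := by simp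
  have e11 : ((1 : Matrix.GeneralLinearGroup (Fin 2) F) : Matrix (Fin 2) (Fin 2) F) 1 1 = 1 := by simp
  rw [e00, e01, e10, e11]
  simp only [if_true, neg_zero, zero_mul, sub_self, add_zero, zero_add, mul_zero, sub_zero,
    map_one, mul_one, Finset.sum_const, Finset.card_univ, nsmul_eq_mul]
  ring

theorem PS_u (α β : MulChar F ℂ) (u : Matrix.GeneralLinearGroup (Fin 2) F)
    (hu : (u : Matrix (Fin 2) (Fin 2) F) = !![1, 1; 0, 1]) : PS α β u = 1 := by
  rw [PS_value]
  have e00 : (u : Matrix (Fin 2) (Fin 2) F) 0 0 = 1 := by rw [hu]; rfl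
  have e01 : (u : Matrix (Fin 2) (Fin 2) F) 0 1 = 1 := by rw [hu]; rfl
  have e10 : (u : Matrix (Fin 2) (Fin 2) F) 1 0 = 0 := by rw [hu]; rfl
  have e11 : (u : Matrix (Fin 2) (Fin 2) F) 1 1 = 1 := by rw [hu]; rfl
  rw [e00, e01, e10, e11]
  simp

theorem PS_split (α β : MulChar F ℂ) (g : Matrix.GeneralLinearGroup (Fin 2) F)
    (h01 : (g : Matrix (Fin 2) (Fin 2) F) 0 1 = 0) (h10 : (g : Matrix (Fin 2) (Fin 2) F) 1 0 = 0)
    (hne : (g : Matrix (Fin 2) (Fin 2) F) 0 0 ≠ (g : Matrix (Fin 2) (Fin 2) F) 1 1) :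
    PS α β g = α ((g : Matrix (Fin 2) (Fin 2) F) 0 0) * β ((g : Matrix (Fin 2) (Fin 2) F) 1 1) +
      α ((g : Matrix (Fin 2) (Fin 2) F) 1 1) * β ((g : Matrix (Fin 2) (Fin 2) F) 0 0) := by
  rw [PS_value, h01, h10]
  simp only [if_true, neg_zero, zero_mul, add_zero, zero_add, mul_zero, sub_zero]
  congr 1
  rw [Finset.sum_eq_single 0]
  · simp
  · intro t _ ht
    rw [if_neg]
    intro h
    rcases mul_eq_zero.mp h with h1 | h1
    · exact hne (sub_eq_zero.mp h1)
    · exact ht h1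
  · intro h
    exact absurd (Finset.mem_univ _) h

theorem PS_elliptic (α β : MulChar F ℂ) (g : Matrix.GeneralLinearGroup (Fin 2) F)
    (hg : ∀ (c : F) (v : Fin 2 → F), v ≠ 0 → (g : Matrix (Fin 2) (Fin 2) F).mulVec v ≠ c • v) :
    PS α β g = 0 := by
  rw [PS_value]
  have h10 : (g : Matrix (Fin 2) (Fin 2) F) 1 0 ≠ 0 := by
    intro h
    apply hg ((g : Matrix (Fin 2) (Fin 2) F) 0 0) ![1, 0]
    · intro hv
      have := congrFun hv 0
      simp at this
    · funext i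
      fin_cases i
      · simp [Matrix.mulVec, dotProduct, Fin.sum_univ_two]
      · simp [Matrix.mulVec, dotProduct, Fin.sum_univ_two, h]
  rw [if_neg h10, zero_add]
  apply Finset.sum_eq_zero
  intro t _
  rw [if_neg]
  intro h
  apply hg ((g : Matrix (Fin 2) (Fin 2) F) 1 0 * t + (g : Matrix (Fin 2) (Fin 2) F) 1 1) ![t, 1]
  · intro hv
    have := congrFun hv 1
    simp at this
  · funext i
    fin_cases i
    · simp [Matrix.mulVec, dotProduct, Fin.sum_univ_two]
      linear_combination h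
    · simp [Matrix.mulVec, dotProduct, Fin.sum_univ_two]

/-- The linear character `λ ∘ det` as a homomorphism. -/
noncomputable def ldet (lam : MulChar F ℂ) : Matrix.GeneralLinearGroup (Fin 2) F →* ℂˣ :=
  (MulChar.toUnitHom lam).comp Matrix.GeneralLinearGroup.det

/-- The linear character `λ ∘ det`. -/
noncomputable def LD (lam : MulChar F ℂ) : Matrix.GeneralLinearGroup (Fin 2) F → ℂ :=
  fun g => ((ldet lam g : ℂˣ) : ℂ)

theorem LD_apply (lam : MulChar F ℂ) (g : Matrix.GeneralLinearGroup (Fin 2) F) :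
    LD lam g = lam ((g : Matrix (Fin 2) (Fin 2) F) 0 0 * (g : Matrix (Fin 2) (Fin 2) F) 1 1 -
      (g : Matrix (Fin 2) (Fin 2) F) 0 1 * (g : Matrix (Fin 2) (Fin 2) F) 1 0) := by
  show ((ldet lam g : ℂˣ) : ℂ) = _
  unfold ldet
  rw [MonoidHom.comp_apply, MulChar.coe_toUnitHom, Matrix.GeneralLinearGroup.val_det_apply,
    Matrix.det_fin_two]

theorem LD_irr (lam : MulChar F ℂ) :
    Cfsg.IsIrrCharacter (Matrix.GeneralLinearGroup (Fin 2) F) (LD lam) :=
  Cfsg.Agent.Lib.Helper3.CharArith.isIrr_of_hom (ldet lam)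

theorem LD_one (lam : MulChar F ℂ) : LD lam 1 = 1 := by
  show ((ldet lam 1 : ℂˣ) : ℂ) = 1
  rw [map_one, Units.val_one]

theorem th_inj (α β α' β' : MulChar F ℂ)
    (h : Cfsg.Agent.S2304.th α β = Cfsg.Agent.S2304.th α' β') : α = α' ∧ β = β' := by
  constructor
  · apply MulChar.ext
    intro a
    have h1 := congrFun h (Cfsg.Agent.S2304.toB (a, 1, 0))
    unfold Cfsg.Agent.S2304.th at h1
    simp only [Cfsg.Agent.S2304.toB00, Cfsg.Agent.S2304.toB11, Units.val_one, map_one, mul_one] at h1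
    exact h1
  · apply MulChar.ext
    intro a
    have h1 := congrFun h (Cfsg.Agent.S2304.toB (1, a, 0))
    unfold Cfsg.Agent.S2304.th at h1
    simp only [Cfsg.Agent.S2304.toB00, Cfsg.Agent.S2304.toB11, Units.val_one, map_one, one_mul] at h1
    exact h1

theorem PS_LD_inner (α β lam : MulChar F ℂ) :
    Cfsg.classInner (PS α β) (LD lam) = if α = lam ∧ β = lam then 1 else 0 := by
  haveI : Fintype (Cfsg.upperTriangularGL 2 F) := Fintype.ofFinite _
  rw [PS_def, Cfsg.Agent.Lib.Helper3.CharInd.frobenius _ (Cfsg.Agent.S2304.th α β) _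
    (Cfsg.Agent.Lib.Helper3.Char.char_classFun
      (Cfsg.Agent.Lib.Helper3.Char.isCharacter_of_irr (LD_irr lam)))]
  have h1 : (fun h : Cfsg.upperTriangularGL 2 F => LD lam (h : Matrix.GeneralLinearGroup (Fin 2) F)) =
      Cfsg.Agent.S2304.th lam lam := by
    funext b
    rw [LD_apply, (Cfsg.Agent.S2304.mem_B _).mp b.2, mul_zero, sub_zero, map_mul]
    rfl
  rw [h1]
  split_ifs with hc
  · rw [hc.1, hc.2]
    exact Cfsg.Agent.Lib.Helper3.Char.irr_inner_self (Cfsg.Agent.S2304.th_irr lam lam)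
  · apply Cfsg.Agent.Lib.Helper3.Char.irr_inner_ne (Cfsg.Agent.S2304.th_irr α β)
      (Cfsg.Agent.S2304.th_irr lam lam)
    intro he
    exact hc (th_inj _ _ _ _ he)

/-- The Steinberg-type character `Ind(λ,λ) - λ ∘ det`. -/
noncomputable def St (lam : MulChar F ℂ) : Matrix.GeneralLinearGroup (Fin 2) F → ℂ :=
  PS lam lam - LD lam

theorem St_apply (lam : MulChar F ℂ) (g : Matrix.GeneralLinearGroup (Fin 2) F) :
    St lam g = PS lam lam g - LD lam g := rfl

theorem St_def (lam : MulChar F ℂ) : St lam = PS lam lam - LD lam := rfl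

theorem LD_PS_inner (α β lam : MulChar F ℂ) :
    Cfsg.classInner (LD lam) (PS α β) = if α = lam ∧ β = lam then 1 else 0 := by
  rw [Cfsg.Agent.Lib.Helper3.Char.classInner_conj_symm, PS_LD_inner]
  split_ifs <;> simp

theorem St_inner (lam : MulChar F ℂ) : Cfsg.classInner (St lam) (St lam) = 1 := by
  rw [St_def, Cfsg.Agent.Lib.Helper3.Char.classInner_sub_left,
    Cfsg.Agent.Lib.Helper3.Char.classInner_sub_right,
    Cfsg.Agent.Lib.Helper3.Char.classInner_sub_right, PS_inner, PS_LD_inner, LD_PS_inner,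
    Cfsg.Agent.Lib.Helper3.Char.irr_inner_self (LD_irr lam)]
  simp

theorem St_char (lam : MulChar F ℂ) :
    Cfsg.IsCharacter (Matrix.GeneralLinearGroup (Fin 2) F) (St lam) := by
  apply Cfsg.Agent.Lib.Helper3.CharArith.isCharacter_of_nat_inner
  · intro g h
    rw [St_apply, St_apply,
      Cfsg.Agent.Lib.Helper3.Char.char_classFun (PS_char lam lam) g h,
      Cfsg.Agent.Lib.Helper3.Char.char_classFun
        (Cfsg.Agent.Lib.Helper3.Char.isCharacter_of_irr (LD_irr lam)) g h]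
  · intro χ hχ
    rw [St_def, Cfsg.Agent.Lib.Helper3.Char.classInner_sub_left]
    by_cases hc : LD lam = χ
    · rw [← hc, PS_LD_inner, if_pos ⟨rfl, rfl⟩,
        Cfsg.Agent.Lib.Helper3.Char.irr_inner_self (LD_irr lam)]
      exact ⟨0, by simp⟩
    · rw [Cfsg.Agent.Lib.Helper3.Char.irr_inner_ne (LD_irr lam) hχ hc, sub_zero]
      exact Cfsg.Agent.Lib.Helper3.CharArith.inner_char_nat (PS_char lam lam)
        (Cfsg.Agent.Lib.Helper3.Char.isCharacter_of_irr hχ)

theorem St_irr (lam : MulChar F ℂ) :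
    Cfsg.IsIrrCharacter (Matrix.GeneralLinearGroup (Fin 2) F) (St lam) :=
  Cfsg.Agent.Lib.Helper3.CharArith.isIrr_of_inner_self (St_char lam) (St_inner lam)

theorem PS_St_inner (α β lam : MulChar F ℂ) :
    Cfsg.classInner (PS α β) (St lam) = if α = lam ∧ β = lam then 1 else 0 := by
  rw [St_def, Cfsg.Agent.Lib.Helper3.Char.classInner_sub_right, PS_inner, PS_LD_inner]
  split_ifs <;> simp

theorem St_one (lam : MulChar F ℂ) : St lam 1 = (Fintype.card F : ℂ) := by
  rw [St_apply, PS_one, LD_one]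
  ring

theorem card_ne_one : (Fintype.card F : ℂ) ≠ 1 := by
  have h : 1 < Fintype.card F := Fintype.one_lt_card
  intro h3
  have h4 : Fintype.card F = 1 := by exact_mod_cast h3
  omega

theorem LD_ne_St (lam lam' : MulChar F ℂ) : LD lam ≠ St lam' := by
  intro h
  have h1 := congrFun h 1
  rw [LD_one, St_one] at h1
  exact card_ne_one h1.symm

/-- Cuspidal: orthogonal to every principal series function. -/
def Cusp (χ : Matrix.GeneralLinearGroup (Fin 2) F → ℂ) : Prop :=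
  ∀ α β : MulChar F ℂ, Cfsg.classInner (PS α β) χ = 0

theorem PS_eq_LD_add_St (α : MulChar F ℂ) : PS α α = LD α + St α := by
  rw [St_def]
  ring

theorem noncusp_cases (χ : Matrix.GeneralLinearGroup (Fin 2) F → ℂ)
    (hχ : Cfsg.IsIrrCharacter (Matrix.GeneralLinearGroup (Fin 2) F) χ) (h : ¬ Cusp χ) :
    (∃ lam : MulChar F ℂ, χ = LD lam) ∨ (∃ lam : MulChar F ℂ, χ = St lam) ∨
      (∃ α β : MulChar F ℂ, α ≠ β ∧ χ = PS α β) := by
  unfold Cusp at h
  rw [not_forall] at h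
  obtain ⟨α, h⟩ := h
  rw [not_forall] at h
  obtain ⟨β, hne⟩ := h
  by_cases hαβ : α = β
  · subst hαβ
    rw [PS_eq_LD_add_St, Cfsg.Agent.Lib.Helper3.Char.classInner_add_left] at hne
    by_cases h1 : LD α = χ
    · exact Or.inl ⟨α, h1.symm⟩
    · rw [Cfsg.Agent.Lib.Helper3.Char.irr_inner_ne (LD_irr α) hχ h1, zero_add] at hne
      by_cases h2 : St α = χ
      · exact Or.inr (Or.inl ⟨α, h2.symm⟩)
      · exact absurd (Cfsg.Agent.Lib.Helper3.Char.irr_inner_ne (St_irr α) hχ h2) hne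
  · by_cases h1 : PS α β = χ
    · exact Or.inr (Or.inr ⟨α, β, hαβ, h1.symm⟩)
    · exact absurd (Cfsg.Agent.Lib.Helper3.Char.irr_inner_ne (PS_irr α β hαβ) hχ h1) hne

/-- The weight of an ordered pair of characters. -/
noncomputable def cw (α β : MulChar F ℂ) : ℂ := if α = β then 1 else 1 / 2

theorem cw_self (α : MulChar F ℂ) : cw α α = 1 := if_pos rfl

theorem cw_ne (α β : MulChar F ℂ) (h : α ≠ β) : cw α β = 1 / 2 := if_neg h

theorem sum_pair_ite {M : Type*} [Fintype M] [DecidableEq M] (f : M → M → ℂ) (a b : M) :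
    ∑ x, ∑ y, f x y * (if x = a ∧ y = b then 1 else 0) = f a b := by
  rw [Finset.sum_eq_single a]
  · rw [Finset.sum_eq_single b]
    · simp
    · intro y _ hy
      simp [hy]
    · intro h
      exact absurd (Finset.mem_univ _) h
  · intro x _ hx
    simp [hx]
  · intro h
    exact absurd (Finset.mem_univ _) h

theorem w_known [Fintype (MulChar F ℂ)] (χ : Matrix.GeneralLinearGroup (Fin 2) F → ℂ)
    (hχ : Cfsg.IsIrrCharacter (Matrix.GeneralLinearGroup (Fin 2) F) χ) (h : ¬ Cusp χ) :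
    ∑ α : MulChar F ℂ, ∑ β : MulChar F ℂ,
      cw α β * (Cfsg.classInner (PS α β) χ * conj (Cfsg.classInner (PS α β) χ)) = 1 := by
  rcases noncusp_cases χ hχ h with ⟨lam, rfl⟩ | ⟨lam, rfl⟩ | ⟨α₀, β₀, hne, rfl⟩
  · have h1 : ∀ α β : MulChar F ℂ, cw α β * (Cfsg.classInner (PS α β) (LD lam) *
        conj (Cfsg.classInner (PS α β) (LD lam))) =
        cw α β * (if α = lam ∧ β = lam then 1 else 0) := by
      intro α β
      rw [PS_LD_inner]
      split_ifs <;> simp
    rw [Finset.sum_congr rfl (fun α _ => Finset.sum_congr rfl (fun β _ => h1 α β)), sum_pair_ite,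
      cw_self]
  · have h1 : ∀ α β : MulChar F ℂ, cw α β * (Cfsg.classInner (PS α β) (St lam) *
        conj (Cfsg.classInner (PS α β) (St lam))) =
        cw α β * (if α = lam ∧ β = lam then 1 else 0) := by
      intro α β
      rw [PS_St_inner]
      split_ifs <;> simp
    rw [Finset.sum_congr rfl (fun α _ => Finset.sum_congr rfl (fun β _ => h1 α β)), sum_pair_ite,
      cw_self]
  · have h1 : ∀ α β : MulChar F ℂ, cw α β * (Cfsg.classInner (PS α β) (PS α₀ β₀) *
        conj (Cfsg.classInner (PS α β) (PS α₀ β₀))) =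
        cw α β * (if α = α₀ ∧ β = β₀ then 1 else 0) +
        cw α β * (if α = β₀ ∧ β = α₀ then 1 else 0) := by
      intro α β
      rw [PS_inner]
      by_cases hA : α = α₀ ∧ β = β₀
      · have hB : ¬ (α = β₀ ∧ β = α₀) := fun hB => hne (hA.1.symm.trans hB.1)
        rw [if_pos hA, if_neg hB]
        simp
      · rw [if_neg hA]
        split_ifs <;> simp
    rw [Finset.sum_congr rfl (fun α _ => Finset.sum_congr rfl (fun β _ => h1 α β))]
    simp only [Finset.sum_add_distrib]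
    rw [sum_pair_ite, sum_pair_ite, cw_ne _ _ hne, cw_ne _ _ (Ne.symm hne)]
    norm_num

theorem sum_irr_proj [Fintype (Cfsg.IrrCharacter (Matrix.GeneralLinearGroup (Fin 2) F))]
    (ψ : Matrix.GeneralLinearGroup (Fin 2) F → ℂ)
    (hψ : Cfsg.IsIrrCharacter (Matrix.GeneralLinearGroup (Fin 2) F) ψ)
    (Φ : (Matrix.GeneralLinearGroup (Fin 2) F → ℂ) → ℂ) :
    ∑ χ : Cfsg.IrrCharacter (Matrix.GeneralLinearGroup (Fin 2) F),
      (Cfsg.classInner ψ (χ : Matrix.GeneralLinearGroup (Fin 2) F → ℂ) *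
        conj (Cfsg.classInner ψ (χ : Matrix.GeneralLinearGroup (Fin 2) F → ℂ))) *
        Φ (χ : Matrix.GeneralLinearGroup (Fin 2) F → ℂ) = Φ ψ := by
  rw [Finset.sum_eq_single ⟨ψ, hψ⟩]
  · rw [Cfsg.Agent.Lib.Helper3.Char.irr_inner_self hψ]
    simp
  · intro χ _ hne
    have h1 : ψ ≠ χ.1 := fun h => hne (Subtype.ext h.symm)
    rw [Cfsg.Agent.Lib.Helper3.Char.irr_inner_ne hψ χ.2 h1]
    simp
  · intro h
    exact absurd (Finset.mem_univ _) h

/-- The sum of a function over the known (non-cuspidal) irreducible characters. -/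
noncomputable def TT [Fintype (MulChar F ℂ)]
    (Φ : (Matrix.GeneralLinearGroup (Fin 2) F → ℂ) → ℂ) : ℂ :=
  ∑ α : MulChar F ℂ, ∑ β : MulChar F ℂ,
    cw α β * (if α = β then Φ (LD α) + Φ (St α) else Φ (PS α β))

theorem TT_def [Fintype (MulChar F ℂ)]
    (Φ : (Matrix.GeneralLinearGroup (Fin 2) F → ℂ) → ℂ) :
    TT Φ = ∑ α : MulChar F ℂ, ∑ β : MulChar F ℂ,
      cw α β * (if α = β then Φ (LD α) + Φ (St α) else Φ (PS α β)) := rfl

open Classical in
theorem sum_known [Fintype (MulChar F ℂ)]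
    [Fintype (Cfsg.IrrCharacter (Matrix.GeneralLinearGroup (Fin 2) F))]
    (Φ : (Matrix.GeneralLinearGroup (Fin 2) F → ℂ) → ℂ) :
    ∑ χ : Cfsg.IrrCharacter (Matrix.GeneralLinearGroup (Fin 2) F),
      (if Cusp (χ : Matrix.GeneralLinearGroup (Fin 2) F → ℂ) then 0
        else Φ (χ : Matrix.GeneralLinearGroup (Fin 2) F → ℂ)) = TT Φ := by
  have h1 : ∀ χ : Cfsg.IrrCharacter (Matrix.GeneralLinearGroup (Fin 2) F),
      (if Cusp (χ : Matrix.GeneralLinearGroup (Fin 2) F → ℂ) then 0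
        else Φ (χ : Matrix.GeneralLinearGroup (Fin 2) F → ℂ)) =
      ∑ α : MulChar F ℂ, ∑ β : MulChar F ℂ,
        cw α β * ((Cfsg.classInner (PS α β) (χ : Matrix.GeneralLinearGroup (Fin 2) F → ℂ) *
          conj (Cfsg.classInner (PS α β) (χ : Matrix.GeneralLinearGroup (Fin 2) F → ℂ))) *
          Φ (χ : Matrix.GeneralLinearGroup (Fin 2) F → ℂ)) := by
    intro χ
    split_ifs with hc
    · symm
      apply Finset.sum_eq_zero
      intro α _
      apply Finset.sum_eq_zero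
      intro β _
      rw [hc α β]
      simp
    · have h2 := w_known χ.1 χ.2 hc
      have h3 : ∀ α β : MulChar F ℂ,
          cw α β * ((Cfsg.classInner (PS α β) (χ : Matrix.GeneralLinearGroup (Fin 2) F → ℂ) *
          conj (Cfsg.classInner (PS α β) (χ : Matrix.GeneralLinearGroup (Fin 2) F → ℂ))) *
          Φ (χ : Matrix.GeneralLinearGroup (Fin 2) F → ℂ)) =
          (cw α β * (Cfsg.classInner (PS α β) (χ : Matrix.GeneralLinearGroup (Fin 2) F → ℂ) *
          conj (Cfsg.classInner (PS α β) (χ : Matrix.GeneralLinearGroup (Fin 2) F → ℂ)))) *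
          Φ (χ : Matrix.GeneralLinearGroup (Fin 2) F → ℂ) := by
        intro α β
        ring
      rw [Finset.sum_congr rfl (fun α _ => Finset.sum_congr rfl (fun β _ => h3 α β))]
      simp only [← Finset.sum_mul]
      rw [h2, one_mul]
  rw [Finset.sum_congr rfl (fun χ _ => h1 χ), Finset.sum_comm, TT_def]
  refine Finset.sum_congr rfl (fun α _ => ?_)
  rw [Finset.sum_comm]
  refine Finset.sum_congr rfl (fun β _ => ?_)
  rw [← Finset.mul_sum]
  congr 1
  split_ifs with hαβ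
  · subst hαβ
    have h2 : ∀ χ : Cfsg.IrrCharacter (Matrix.GeneralLinearGroup (Fin 2) F),
        (Cfsg.classInner (PS α α) (χ : Matrix.GeneralLinearGroup (Fin 2) F → ℂ) *
          conj (Cfsg.classInner (PS α α) (χ : Matrix.GeneralLinearGroup (Fin 2) F → ℂ))) *
          Φ (χ : Matrix.GeneralLinearGroup (Fin 2) F → ℂ) =
        (Cfsg.classInner (LD α) (χ : Matrix.GeneralLinearGroup (Fin 2) F → ℂ) *
          conj (Cfsg.classInner (LD α) (χ : Matrix.GeneralLinearGroup (Fin 2) F → ℂ))) *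
          Φ (χ : Matrix.GeneralLinearGroup (Fin 2) F → ℂ) +
        (Cfsg.classInner (St α) (χ : Matrix.GeneralLinearGroup (Fin 2) F → ℂ) *
          conj (Cfsg.classInner (St α) (χ : Matrix.GeneralLinearGroup (Fin 2) F → ℂ))) *
          Φ (χ : Matrix.GeneralLinearGroup (Fin 2) F → ℂ) := by
      intro χ
      rw [PS_eq_LD_add_St, Cfsg.Agent.Lib.Helper3.Char.classInner_add_left]
      by_cases h3 : LD α = χ.1
      · have h4 : Cfsg.classInner (St α) χ.1 = 0 := by
          rw [← h3]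
          exact Cfsg.Agent.Lib.Helper3.Char.irr_inner_ne (St_irr α) (LD_irr α)
            (LD_ne_St α α).symm
        rw [h4]
        simp
      · rw [Cfsg.Agent.Lib.Helper3.Char.irr_inner_ne (LD_irr α) χ.2 h3]
        simp
    rw [Finset.sum_congr rfl (fun χ _ => h2 χ), Finset.sum_add_distrib,
      sum_irr_proj _ (LD_irr α), sum_irr_proj _ (St_irr α)]
  · exact sum_irr_proj (PS α β) (PS_irr α β hαβ) Φ

theorem TT_eval [Fintype (MulChar F ℂ)]
    (Φ : (Matrix.GeneralLinearGroup (Fin 2) F → ℂ) → ℂ) (A B : ℂ)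
    (hA : ∀ lam : MulChar F ℂ, Φ (LD lam) + Φ (St lam) = A)
    (hB : ∀ α β : MulChar F ℂ, α ≠ β → Φ (PS α β) = B) :
    TT Φ = ((Fintype.card F : ℂ) - 1) * A +
      ((Fintype.card F : ℂ) - 1) * ((Fintype.card F : ℂ) - 2) / 2 * B := by
  rw [TT_def]
  have h1 : ∀ α β : MulChar F ℂ,
      cw α β * (if α = β then Φ (LD α) + Φ (St α) else Φ (PS α β)) =
      B / 2 + (if α = β then A - B / 2 else 0) := by
    intro α β
    split_ifs with h
    · rw [hA, h, cw_self]
      ring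
    · rw [hB α β h, cw_ne _ _ h]
      ring
  rw [Finset.sum_congr rfl (fun α _ => Finset.sum_congr rfl (fun β _ => h1 α β))]
  simp only [Finset.sum_add_distrib, Finset.sum_const, Finset.card_univ, nsmul_eq_mul,
    Finset.sum_ite_eq, Finset.mem_univ, if_true]
  rw [card_mulChar]
  ring

theorem mk2_00 (a b c d : F) (h : a * d - b * c ≠ 0) :
    ((Cfsg.Agent.S2304.mk2 a b c d h : Matrix.GeneralLinearGroup (Fin 2) F) :
      Matrix (Fin 2) (Fin 2) F) 0 0 = a := rfl
theorem mk2_01 (a b c d : F) (h : a * d - b * c ≠ 0) :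
    ((Cfsg.Agent.S2304.mk2 a b c d h : Matrix.GeneralLinearGroup (Fin 2) F) :
      Matrix (Fin 2) (Fin 2) F) 0 1 = b := rfl
theorem mk2_10 (a b c d : F) (h : a * d - b * c ≠ 0) :
    ((Cfsg.Agent.S2304.mk2 a b c d h : Matrix.GeneralLinearGroup (Fin 2) F) :
      Matrix (Fin 2) (Fin 2) F) 1 0 = c := rfl
theorem mk2_11 (a b c d : F) (h : a * d - b * c ≠ 0) :
    ((Cfsg.Agent.S2304.mk2 a b c d h : Matrix.GeneralLinearGroup (Fin 2) F) :
      Matrix (Fin 2) (Fin 2) F) 1 1 = d := rfl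

theorem card_GL2 : (Nat.card (Matrix.GeneralLinearGroup (Fin 2) F) : ℂ) =
    ((Fintype.card F : ℂ) ^ 2 - 1) * ((Fintype.card F : ℂ) ^ 2 - (Fintype.card F : ℂ)) := by
  rw [Matrix.card_GL_field, Fin.prod_univ_two]
  simp only [Fin.val_zero, Fin.val_one, pow_zero, pow_one]
  rw [Nat.cast_mul, Nat.cast_sub (Nat.one_le_pow _ _ Fintype.card_pos),
    Nat.cast_sub (Nat.le_self_pow two_ne_zero _)]
  push_cast
  ring

theorem count_11 : (Nat.card {y : Matrix.GeneralLinearGroup (Fin 2) F // y * 1 * y⁻¹ = 1} : ℂ) =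
    ((Fintype.card F : ℂ) ^ 2 - 1) * ((Fintype.card F : ℂ) ^ 2 - (Fintype.card F : ℂ)) := by
  rw [← card_GL2]
  congr 1
  exact Nat.card_congr (Equiv.subtypeUnivEquiv (fun y => by simp))

theorem count_empty {g h : Matrix.GeneralLinearGroup (Fin 2) F} (hgh : ¬ IsConj g h) :
    (Nat.card {y : Matrix.GeneralLinearGroup (Fin 2) F // y * g * y⁻¹ = h} : ℂ) = 0 := by
  have : IsEmpty {y : Matrix.GeneralLinearGroup (Fin 2) F // y * g * y⁻¹ = h} :=
    ⟨fun ⟨y, hy⟩ => hgh (isConj_iff.mpr ⟨y, hy⟩)⟩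
  rw [Nat.card_of_isEmpty, Nat.cast_zero]

theorem u_ne_one (u : Matrix.GeneralLinearGroup (Fin 2) F)
    (hu : (u : Matrix (Fin 2) (Fin 2) F) = !![1, 1; 0, 1]) : u ≠ 1 := by
  intro h
  have h1 : (u : Matrix (Fin 2) (Fin 2) F) 0 1 = 1 := by rw [hu]; rfl
  rw [h] at h1
  simp at h1

theorem not_conj_u_one (u : Matrix.GeneralLinearGroup (Fin 2) F)
    (hu : (u : Matrix (Fin 2) (Fin 2) F) = !![1, 1; 0, 1]) : ¬ IsConj u 1 := by
  intro h
  rw [isConj_one_left] at h
  exact u_ne_one u hu h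

theorem not_conj_one_u (u : Matrix.GeneralLinearGroup (Fin 2) F)
    (hu : (u : Matrix (Fin 2) (Fin 2) F) = !![1, 1; 0, 1]) : ¬ IsConj 1 u := by
  intro h
  rw [isConj_one_right] at h
  exact u_ne_one u hu h

theorem count_uu (u : Matrix.GeneralLinearGroup (Fin 2) F)
    (hu : (u : Matrix (Fin 2) (Fin 2) F) = !![1, 1; 0, 1]) :
    (Nat.card {y : Matrix.GeneralLinearGroup (Fin 2) F // y * u * y⁻¹ = u} : ℂ) =
      (Fintype.card F : ℂ) * ((Fintype.card F : ℂ) - 1) := by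
  have e00 : (u : Matrix (Fin 2) (Fin 2) F) 0 0 = 1 := by rw [hu]; rfl
  have e01 : (u : Matrix (Fin 2) (Fin 2) F) 0 1 = 1 := by rw [hu]; rfl
  have e10 : (u : Matrix (Fin 2) (Fin 2) F) 1 0 = 0 := by rw [hu]; rfl
  have e11 : (u : Matrix (Fin 2) (Fin 2) F) 1 1 = 1 := by rw [hu]; rfl
  have hmem : ∀ p : Fˣ × F,
      Cfsg.Agent.S2304.mk2 (p.1 : F) p.2 0 (p.1 : F) (by simp) * u *
        (Cfsg.Agent.S2304.mk2 (p.1 : F) p.2 0 (p.1 : F) (by simp))⁻¹ = u := by
    intro p
    rw [mul_inv_eq_iff_eq_mul]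
    apply Cfsg.Agent.S2304.gl2_ext <;>
      simp only [Cfsg.Agent.S2304.gmul, mk2_00, mk2_01, mk2_10, mk2_11, e00, e01, e10, e11] <;> ring
  have hbij : Function.Bijective (fun p : Fˣ × F =>
      (⟨Cfsg.Agent.S2304.mk2 (p.1 : F) p.2 0 (p.1 : F) (by simp), hmem p⟩ :
        {y : Matrix.GeneralLinearGroup (Fin 2) F // y * u * y⁻¹ = u})) := by
    constructor
    · rintro ⟨a, b⟩ ⟨a', b'⟩ h
      have h1 := congrArg (fun x : {y : Matrix.GeneralLinearGroup (Fin 2) F // y * u * y⁻¹ = u} =>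
        ((x : Matrix.GeneralLinearGroup (Fin 2) F) : Matrix (Fin 2) (Fin 2) F) 0 0) h
      have h2 := congrArg (fun x : {y : Matrix.GeneralLinearGroup (Fin 2) F // y * u * y⁻¹ = u} =>
        ((x : Matrix.GeneralLinearGroup (Fin 2) F) : Matrix (Fin 2) (Fin 2) F) 0 1) h
      simp only [mk2_00, mk2_01] at h1 h2
      rw [Units.ext h1, h2]
    · rintro ⟨y, hy⟩
      rw [mul_inv_eq_iff_eq_mul] at hy
      have h00 := congrArg (fun x : Matrix.GeneralLinearGroup (Fin 2) F =>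
        (x : Matrix (Fin 2) (Fin 2) F) 0 0) hy
      have h01 := congrArg (fun x : Matrix.GeneralLinearGroup (Fin 2) F =>
        (x : Matrix (Fin 2) (Fin 2) F) 0 1) hy
      simp only [Cfsg.Agent.S2304.gmul, e00, e01, e10, e11] at h00 h01
      have y10 : (y : Matrix (Fin 2) (Fin 2) F) 1 0 = 0 := by linear_combination -h00
      have y11 : (y : Matrix (Fin 2) (Fin 2) F) 1 1 = (y : Matrix (Fin 2) (Fin 2) F) 0 0 := by
        linear_combination -h01
      have hdet := Cfsg.Agent.S2304.det_ne y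
      rw [y10, y11, mul_zero, sub_zero] at hdet
      have y00 : (y : Matrix (Fin 2) (Fin 2) F) 0 0 ≠ 0 := left_ne_zero_of_mul hdet
      refine ⟨(Units.mk0 _ y00, (y : Matrix (Fin 2) (Fin 2) F) 0 1), ?_⟩
      apply Subtype.ext
      apply Cfsg.Agent.S2304.gl2_ext
      · rfl
      · rfl
      · exact y10.symm
      · exact y11.symm
  rw [← Nat.card_congr (Equiv.ofBijective _ hbij), Nat.card_prod, Nat.cast_mul,
    Cfsg.Agent.S2304.card_units_cast, Nat.card_eq_fintype_card]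
  ring

theorem count_ss (g : Matrix.GeneralLinearGroup (Fin 2) F)
    (h01 : (g : Matrix (Fin 2) (Fin 2) F) 0 1 = 0) (h10 : (g : Matrix (Fin 2) (Fin 2) F) 1 0 = 0)
    (hne : (g : Matrix (Fin 2) (Fin 2) F) 0 0 ≠ (g : Matrix (Fin 2) (Fin 2) F) 1 1) :
    (Nat.card {y : Matrix.GeneralLinearGroup (Fin 2) F // y * g * y⁻¹ = g} : ℂ) =
      ((Fintype.card F : ℂ) - 1) ^ 2 := by
  have h1 : Nat.card {y : Matrix.GeneralLinearGroup (Fin 2) F // y * g * y⁻¹ = g} =
      Nat.card (Subgroup.centralizer ({g} : Set (Matrix.GeneralLinearGroup (Fin 2) F))) := by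
    apply Nat.card_congr
    apply Equiv.subtypeEquivRight
    intro y
    rw [Subgroup.mem_centralizer_singleton_iff, mul_inv_eq_iff_eq_mul]
  rw [h1, (Cfsg.Agent.S2303.result g).1 h01 h10 hne, Nat.cast_pow,
    Nat.cast_sub Fintype.card_pos, Nat.cast_one]

/-- Scalar matrices. -/
noncomputable def scal (a : Fˣ) : Matrix.GeneralLinearGroup (Fin 2) F :=
  Cfsg.Agent.S2304.mk2 (a : F) 0 0 (a : F) (by simp)

/-- Companion matrices. -/
noncomputable def cmp (t : F) (d : Fˣ) : Matrix.GeneralLinearGroup (Fin 2) F :=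
  Cfsg.Agent.S2304.mk2 0 (-(d : F)) 1 t (by simp)

theorem scal_entries (a : Fˣ) :
    ((scal a : Matrix.GeneralLinearGroup (Fin 2) F) : Matrix (Fin 2) (Fin 2) F) 0 0 = (a : F) ∧
    ((scal a : Matrix.GeneralLinearGroup (Fin 2) F) : Matrix (Fin 2) (Fin 2) F) 0 1 = 0 ∧
    ((scal a : Matrix.GeneralLinearGroup (Fin 2) F) : Matrix (Fin 2) (Fin 2) F) 1 0 = 0 ∧
    ((scal a : Matrix.GeneralLinearGroup (Fin 2) F) : Matrix (Fin 2) (Fin 2) F) 1 1 = (a : F) :=
  ⟨rfl, rfl, rfl, rfl⟩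

theorem cmp_entries (t : F) (d : Fˣ) :
    ((cmp t d : Matrix.GeneralLinearGroup (Fin 2) F) : Matrix (Fin 2) (Fin 2) F) 0 0 = 0 ∧
    ((cmp t d : Matrix.GeneralLinearGroup (Fin 2) F) : Matrix (Fin 2) (Fin 2) F) 0 1 = -(d : F) ∧
    ((cmp t d : Matrix.GeneralLinearGroup (Fin 2) F) : Matrix (Fin 2) (Fin 2) F) 1 0 = 1 ∧
    ((cmp t d : Matrix.GeneralLinearGroup (Fin 2) F) : Matrix (Fin 2) (Fin 2) F) 1 1 = t :=
  ⟨rfl, rfl, rfl, rfl⟩

theorem scal_central (a : Fˣ) (c : Matrix.GeneralLinearGroup (Fin 2) F) :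
    c * scal a * c⁻¹ = scal a := by
  rw [mul_inv_eq_iff_eq_mul]
  obtain ⟨e00, e01, e10, e11⟩ := scal_entries a
  apply Cfsg.Agent.S2304.gl2_ext <;>
    simp only [Cfsg.Agent.S2304.gmul, e00, e01, e10, e11] <;> ring

theorem conj_invariants {g h : Matrix.GeneralLinearGroup (Fin 2) F} (hc : IsConj g h) :
    (g : Matrix (Fin 2) (Fin 2) F) 0 0 + (g : Matrix (Fin 2) (Fin 2) F) 1 1 =
      (h : Matrix (Fin 2) (Fin 2) F) 0 0 + (h : Matrix (Fin 2) (Fin 2) F) 1 1 ∧
    (g : Matrix (Fin 2) (Fin 2) F) 0 0 * (g : Matrix (Fin 2) (Fin 2) F) 1 1 -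
      (g : Matrix (Fin 2) (Fin 2) F) 0 1 * (g : Matrix (Fin 2) (Fin 2) F) 1 0 =
      (h : Matrix (Fin 2) (Fin 2) F) 0 0 * (h : Matrix (Fin 2) (Fin 2) F) 1 1 -
      (h : Matrix (Fin 2) (Fin 2) F) 0 1 * (h : Matrix (Fin 2) (Fin 2) F) 1 0 := by
  obtain ⟨c, rfl⟩ := isConj_iff.mp hc
  constructor
  · have h1 := Matrix.trace_units_conj c (g : Matrix (Fin 2) (Fin 2) F)
    rw [Matrix.trace_fin_two, Matrix.trace_fin_two] at h1
    exact h1.symm
  · have h1 := Matrix.det_units_conj c (g : Matrix (Fin 2) (Fin 2) F)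
    rw [Matrix.det_fin_two, Matrix.det_fin_two] at h1
    exact h1.symm

/-- Representatives of the conjugacy classes. -/
noncomputable def crep : Fˣ ⊕ (F × Fˣ) → ConjClasses (Matrix.GeneralLinearGroup (Fin 2) F)
  | Sum.inl a => ConjClasses.mk (scal a)
  | Sum.inr p => ConjClasses.mk (cmp p.1 p.2)

theorem conj_cmp (g : Matrix.GeneralLinearGroup (Fin 2) F)
    (hns : ¬ ((g : Matrix (Fin 2) (Fin 2) F) 0 1 = 0 ∧ (g : Matrix (Fin 2) (Fin 2) F) 1 0 = 0 ∧
      (g : Matrix (Fin 2) (Fin 2) F) 0 0 = (g : Matrix (Fin 2) (Fin 2) F) 1 1)) :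
    IsConj (cmp ((g : Matrix (Fin 2) (Fin 2) F) 0 0 + (g : Matrix (Fin 2) (Fin 2) F) 1 1)
      (Units.mk0 _ (Cfsg.Agent.S2304.det_ne g))) g := by
  obtain ⟨e00, e01, e10, e11⟩ := cmp_entries ((g : Matrix (Fin 2) (Fin 2) F) 0 0 +
    (g : Matrix (Fin 2) (Fin 2) F) 1 1) (Units.mk0 _ (Cfsg.Agent.S2304.det_ne g))
  rw [Units.val_mk0] at e01
  generalize cmp ((g : Matrix (Fin 2) (Fin 2) F) 0 0 + (g : Matrix (Fin 2) (Fin 2) F) 1 1)
        (Units.mk0 _ (Cfsg.Agent.S2304.det_ne g)) = C at e00 e01 e10 e11 ⊢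
  have key : ∀ P : Matrix.GeneralLinearGroup (Fin 2) F, P * C = g * P → IsConj C g := by
    intro P hP
    exact isConj_iff.mpr ⟨P, by rw [mul_inv_eq_iff_eq_mul]; exact hP⟩
  by_cases h10 : (g : Matrix (Fin 2) (Fin 2) F) 1 0 = 0
  · by_cases h01 : (g : Matrix (Fin 2) (Fin 2) F) 0 1 = 0
    · have hne : (g : Matrix (Fin 2) (Fin 2) F) 0 0 ≠ (g : Matrix (Fin 2) (Fin 2) F) 1 1 :=
        fun h => hns ⟨h01, h10, h⟩
      apply key (Cfsg.Agent.S2304.mk2 1 ((g : Matrix (Fin 2) (Fin 2) F) 0 0) 1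
        ((g : Matrix (Fin 2) (Fin 2) F) 1 1) (by
          intro h
          apply hne
          linear_combination -h))
      apply Cfsg.Agent.S2304.gl2_ext <;>
        simp only [Cfsg.Agent.S2304.gmul, mk2_00, mk2_01, mk2_10, mk2_11, e00, e01, e10, e11,
          h01, h10] <;> ring
    · apply key (Cfsg.Agent.S2304.mk2 0 ((g : Matrix (Fin 2) (Fin 2) F) 0 1) 1
        ((g : Matrix (Fin 2) (Fin 2) F) 1 1) (by
          intro h
          apply h01
          linear_combination -h))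
      apply Cfsg.Agent.S2304.gl2_ext <;>
        simp only [Cfsg.Agent.S2304.gmul, mk2_00, mk2_01, mk2_10, mk2_11, e00, e01, e10, e11,
          h10] <;> ring
  · apply key (Cfsg.Agent.S2304.mk2 1 ((g : Matrix (Fin 2) (Fin 2) F) 0 0) 0
      ((g : Matrix (Fin 2) (Fin 2) F) 1 0) (by
        intro h
        apply h10
        linear_combination h))
    apply Cfsg.Agent.S2304.gl2_ext <;>
      simp only [Cfsg.Agent.S2304.gmul, mk2_00, mk2_01, mk2_10, mk2_11, e00, e01, e10, e11] <;> ring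

theorem crep_bij : Function.Bijective (crep (F := F)) := by
  constructor
  · rintro (a | ⟨t, d⟩) (a' | ⟨t', d'⟩) h
    · simp only [crep] at h
      obtain ⟨c, hc⟩ := isConj_iff.mp (ConjClasses.mk_eq_mk_iff_isConj.mp h)
      rw [scal_central] at hc
      have h1 := congrArg (fun x : Matrix.GeneralLinearGroup (Fin 2) F =>
        (x : Matrix (Fin 2) (Fin 2) F) 0 0) hc
      simp only [(scal_entries a).1, (scal_entries a').1] at h1
      rw [Units.ext h1]
    · simp only [crep] at h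
      obtain ⟨c, hc⟩ := isConj_iff.mp (ConjClasses.mk_eq_mk_iff_isConj.mp h)
      rw [scal_central] at hc
      have h1 := congrArg (fun x : Matrix.GeneralLinearGroup (Fin 2) F =>
        (x : Matrix (Fin 2) (Fin 2) F) 1 0) hc
      simp only [(scal_entries a).2.2.1, (cmp_entries t' d').2.2.1] at h1
      exact absurd h1 zero_ne_one
    · simp only [crep] at h
      obtain ⟨c, hc⟩ := isConj_iff.mp (ConjClasses.mk_eq_mk_iff_isConj.mp h.symm)
      rw [scal_central] at hc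
      have h1 := congrArg (fun x : Matrix.GeneralLinearGroup (Fin 2) F =>
        (x : Matrix (Fin 2) (Fin 2) F) 1 0) hc
      simp only [(scal_entries a').2.2.1, (cmp_entries t d).2.2.1] at h1
      exact absurd h1 zero_ne_one
    · simp only [crep] at h
      obtain ⟨h1, h2⟩ := conj_invariants (ConjClasses.mk_eq_mk_iff_isConj.mp h)
      obtain ⟨e00, e01, e10, e11⟩ := cmp_entries t d
      obtain ⟨f00, f01, f10, f11⟩ := cmp_entries t' d'
      rw [e00, e11, f00, f11] at h1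
      rw [e00, e11, f00, f11, e01, e10, f01, f10] at h2
      have ht : t = t' := by linear_combination h1
      have hd : (d : F) = (d' : F) := by linear_combination h2
      rw [ht, Units.ext hd]
  · intro c
    obtain ⟨g, rfl⟩ := ConjClasses.mk_surjective c
    by_cases hs : ((g : Matrix (Fin 2) (Fin 2) F) 0 1 = 0 ∧ (g : Matrix (Fin 2) (Fin 2) F) 1 0 = 0 ∧
        (g : Matrix (Fin 2) (Fin 2) F) 0 0 = (g : Matrix (Fin 2) (Fin 2) F) 1 1)
    · have hdet := Cfsg.Agent.S2304.det_ne g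
      rw [hs.1, zero_mul, sub_zero] at hdet
      refine ⟨Sum.inl (Units.mk0 _ (left_ne_zero_of_mul hdet)), ?_⟩
      simp only [crep]
      congr 1
      apply Cfsg.Agent.S2304.gl2_ext
      · rfl
      · exact hs.1.symm
      · exact hs.2.1.symm
      · exact hs.2.2
    · refine ⟨Sum.inr ((g : Matrix (Fin 2) (Fin 2) F) 0 0 + (g : Matrix (Fin 2) (Fin 2) F) 1 1,
        Units.mk0 _ (Cfsg.Agent.S2304.det_ne g)), ?_⟩
      simp only [crep]
      exact ConjClasses.mk_eq_mk_iff_isConj.mpr (conj_cmp g hs)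

theorem card_classes : (Nat.card (ConjClasses (Matrix.GeneralLinearGroup (Fin 2) F)) : ℂ) =
    (Fintype.card F : ℂ) ^ 2 - 1 := by
  rw [← Nat.card_congr (Equiv.ofBijective _ (crep_bij (F := F))), Nat.card_sum, Nat.card_prod,
    Nat.cast_add, Nat.cast_mul, Cfsg.Agent.S2304.card_units_cast, Nat.card_eq_fintype_card]
  ring

open Classical in
theorem sum_real_zero {ι : Type*} [Fintype ι] (P : ι → Prop) (r : ι → ℝ)
    (hr : ∀ i, P i → 0 ≤ r i) (h : ∑ i, (if P i then (r i : ℂ) else 0) = 0) (i : ι) (hi : P i) :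
    r i = 0 := by
  have h1 : ∀ i, (if P i then (r i : ℂ) else 0) = ((if P i then r i else 0 : ℝ) : ℂ) := by
    intro i
    split_ifs <;> simp
  rw [Finset.sum_congr rfl (fun i _ => h1 i), ← Complex.ofReal_sum] at h
  have h2 : ∑ i, (if P i then r i else 0 : ℝ) = 0 := by exact_mod_cast h
  rw [Finset.sum_eq_zero_iff_of_nonneg] at h2
  · have h3 := h2 i (Finset.mem_univ _)
    rw [if_pos hi] at h3
    exact h3
  · intro j _
    split_ifs with hj
    · exact hr j hj
    · exact le_refl _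

open Classical in
theorem cusp_sum [Fintype (MulChar F ℂ)]
    [Fintype (Cfsg.IrrCharacter (Matrix.GeneralLinearGroup (Fin 2) F))]
    (g h : Matrix.GeneralLinearGroup (Fin 2) F) :
    ∑ χ : Cfsg.IrrCharacter (Matrix.GeneralLinearGroup (Fin 2) F),
      (if Cusp (χ : Matrix.GeneralLinearGroup (Fin 2) F → ℂ) then
        (χ : Matrix.GeneralLinearGroup (Fin 2) F → ℂ) g *
          conj ((χ : Matrix.GeneralLinearGroup (Fin 2) F → ℂ) h) else 0) =
      (Nat.card {y : Matrix.GeneralLinearGroup (Fin 2) F // y * g * y⁻¹ = h} : ℂ) -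
        TT (fun χ : Matrix.GeneralLinearGroup (Fin 2) F → ℂ => χ g * conj (χ h)) := by
  rw [← sum_known, ← Cfsg.Agent.Lib.Helper3.CharTable.column_orth g h, ← Finset.sum_sub_distrib]
  refine Finset.sum_congr rfl (fun χ _ => ?_)
  split_ifs <;> ring

theorem LD_u (lam : MulChar F ℂ) (u : Matrix.GeneralLinearGroup (Fin 2) F)
    (hu : (u : Matrix (Fin 2) (Fin 2) F) = !![1, 1; 0, 1]) : LD lam u = 1 := by
  have e00 : (u : Matrix (Fin 2) (Fin 2) F) 0 0 = 1 := by rw [hu]; rfl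
  have e01 : (u : Matrix (Fin 2) (Fin 2) F) 0 1 = 1 := by rw [hu]; rfl
  have e10 : (u : Matrix (Fin 2) (Fin 2) F) 1 0 = 0 := by rw [hu]; rfl
  have e11 : (u : Matrix (Fin 2) (Fin 2) F) 1 1 = 1 := by rw [hu]; rfl
  rw [LD_apply, e00, e01, e10, e11]
  simp

theorem St_u (lam : MulChar F ℂ) (u : Matrix.GeneralLinearGroup (Fin 2) F)
    (hu : (u : Matrix (Fin 2) (Fin 2) F) = !![1, 1; 0, 1]) : St lam u = 0 := by
  rw [St_apply, PS_u _ _ u hu, LD_u lam u hu, sub_self]

theorem TT_11 [Fintype (MulChar F ℂ)] :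
    TT (fun χ : Matrix.GeneralLinearGroup (Fin 2) F → ℂ => χ 1 * conj (χ 1)) =
      ((Fintype.card F : ℂ) - 1) * (1 + (Fintype.card F : ℂ) ^ 2) +
      ((Fintype.card F : ℂ) - 1) * ((Fintype.card F : ℂ) - 2) / 2 *
        ((Fintype.card F : ℂ) + 1) ^ 2 := by
  apply TT_eval
  · intro lam
    simp only [LD_one, St_one, map_one, map_natCast]
    ring
  · intro α β _
    simp only [PS_one, map_add, map_one, map_natCast]
    ring

theorem TT_uu [Fintype (MulChar F ℂ)] (u : Matrix.GeneralLinearGroup (Fin 2) F)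
    (hu : (u : Matrix (Fin 2) (Fin 2) F) = !![1, 1; 0, 1]) :
    TT (fun χ : Matrix.GeneralLinearGroup (Fin 2) F → ℂ => χ u * conj (χ u)) =
      ((Fintype.card F : ℂ) - 1) * 1 +
      ((Fintype.card F : ℂ) - 1) * ((Fintype.card F : ℂ) - 2) / 2 * 1 := by
  apply TT_eval
  · intro lam
    simp only [LD_u lam u hu, St_u lam u hu, map_one, map_zero]
    ring
  · intro α β _
    simp only [PS_u α β u hu, map_one]
    ring

theorem TT_u1 [Fintype (MulChar F ℂ)] (u : Matrix.GeneralLinearGroup (Fin 2) F)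
    (hu : (u : Matrix (Fin 2) (Fin 2) F) = !![1, 1; 0, 1]) :
    TT (fun χ : Matrix.GeneralLinearGroup (Fin 2) F → ℂ => χ u * conj (χ 1)) =
      ((Fintype.card F : ℂ) - 1) * 1 +
      ((Fintype.card F : ℂ) - 1) * ((Fintype.card F : ℂ) - 2) / 2 *
        ((Fintype.card F : ℂ) + 1) := by
  apply TT_eval
  · intro lam
    simp only [LD_u lam u hu, St_u lam u hu, LD_one, St_one, map_one, map_natCast]
    ring
  · intro α β _
    simp only [PS_u α β u hu, PS_one, map_add, map_one, map_natCast]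
    ring

theorem TT_1u [Fintype (MulChar F ℂ)] (u : Matrix.GeneralLinearGroup (Fin 2) F)
    (hu : (u : Matrix (Fin 2) (Fin 2) F) = !![1, 1; 0, 1]) :
    TT (fun χ : Matrix.GeneralLinearGroup (Fin 2) F → ℂ => χ 1 * conj (χ u)) =
      ((Fintype.card F : ℂ) - 1) * 1 +
      ((Fintype.card F : ℂ) - 1) * ((Fintype.card F : ℂ) - 2) / 2 *
        ((Fintype.card F : ℂ) + 1) := by
  apply TT_eval
  · intro lam
    simp only [LD_u lam u hu, St_u lam u hu, LD_one, St_one, map_one, map_zero]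
    ring
  · intro α β _
    simp only [PS_u α β u hu, PS_one, map_one]
    ring

theorem TT_split [Fintype (MulChar F ℂ)] (g : Matrix.GeneralLinearGroup (Fin 2) F)
    (h01 : (g : Matrix (Fin 2) (Fin 2) F) 0 1 = 0) (h10 : (g : Matrix (Fin 2) (Fin 2) F) 1 0 = 0)
    (hne : (g : Matrix (Fin 2) (Fin 2) F) 0 0 ≠ (g : Matrix (Fin 2) (Fin 2) F) 1 1) :
    TT (fun χ : Matrix.GeneralLinearGroup (Fin 2) F → ℂ => χ g * conj (χ g)) =
      ((Fintype.card F : ℂ) - 1) ^ 2 := by
  have hdet := Cfsg.Agent.S2304.det_ne g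
  rw [h01, zero_mul, sub_zero] at hdet
  have ha : (g : Matrix (Fin 2) (Fin 2) F) 0 0 ≠ 0 := left_ne_zero_of_mul hdet
  have hd : (g : Matrix (Fin 2) (Fin 2) F) 1 1 ≠ 0 := right_ne_zero_of_mul hdet
  rw [TT_def]
  have h1 : ∀ α β : MulChar F ℂ,
      cw α β * (if α = β then (LD α g * conj (LD α g)) + (St α g * conj (St α g))
        else PS α β g * conj (PS α β g)) =
      1 + (1 / 2) * ((α ((g : Matrix (Fin 2) (Fin 2) F) 0 0) *
          conj (α ((g : Matrix (Fin 2) (Fin 2) F) 1 1))) *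
        (β ((g : Matrix (Fin 2) (Fin 2) F) 1 1) * conj (β ((g : Matrix (Fin 2) (Fin 2) F) 0 0)))) +
      (1 / 2) * ((α ((g : Matrix (Fin 2) (Fin 2) F) 1 1) *
          conj (α ((g : Matrix (Fin 2) (Fin 2) F) 0 0))) *
        (β ((g : Matrix (Fin 2) (Fin 2) F) 0 0) * conj (β ((g : Matrix (Fin 2) (Fin 2) F) 1 1)))) := by
    intro α β
    have hA := mc_norm α ha
    have hD := mc_norm α hd
    have hBa := mc_norm β ha
    have hBd := mc_norm β hd
    split_ifs with h
    · subst h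
      rw [cw_self, St_apply, PS_split α α g h01 h10 hne, LD_apply, h01, zero_mul, sub_zero, map_mul]
      simp only [map_mul, map_add, map_sub]
      linear_combination (α ((g : Matrix (Fin 2) (Fin 2) F) 1 1) *
        conj (α ((g : Matrix (Fin 2) (Fin 2) F) 1 1))) * hA + hD
    · rw [cw_ne _ _ h, PS_split α β g h01 h10 hne]
      simp only [map_mul, map_add]
      linear_combination (1 / 2) * (β ((g : Matrix (Fin 2) (Fin 2) F) 1 1) *
        conj (β ((g : Matrix (Fin 2) (Fin 2) F) 1 1))) * hA + (1 / 2) * hBd +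
        (1 / 2) * (β ((g : Matrix (Fin 2) (Fin 2) F) 0 0) *
        conj (β ((g : Matrix (Fin 2) (Fin 2) F) 0 0))) * hD + (1 / 2) * hBa
  have h1' : ∀ α β : MulChar F ℂ,
      cw α β * (if α = β then
        (fun χ : Matrix.GeneralLinearGroup (Fin 2) F → ℂ => χ g * conj (χ g)) (LD α) +
        (fun χ : Matrix.GeneralLinearGroup (Fin 2) F → ℂ => χ g * conj (χ g)) (St α)
        else (fun χ : Matrix.GeneralLinearGroup (Fin 2) F → ℂ => χ g * conj (χ g)) (PS α β)) =
      1 + (1 / 2) * ((α ((g : Matrix (Fin 2) (Fin 2) F) 0 0) *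
          conj (α ((g : Matrix (Fin 2) (Fin 2) F) 1 1))) *
        (β ((g : Matrix (Fin 2) (Fin 2) F) 1 1) * conj (β ((g : Matrix (Fin 2) (Fin 2) F) 0 0)))) +
      (1 / 2) * ((α ((g : Matrix (Fin 2) (Fin 2) F) 1 1) *
          conj (α ((g : Matrix (Fin 2) (Fin 2) F) 0 0))) *
        (β ((g : Matrix (Fin 2) (Fin 2) F) 0 0) * conj (β ((g : Matrix (Fin 2) (Fin 2) F) 1 1)))) :=
    h1
  have h2 : ∀ α : MulChar F ℂ, ∑ β : MulChar F ℂ,
      (1 + (1 / 2) * ((α ((g : Matrix (Fin 2) (Fin 2) F) 0 0) *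
          conj (α ((g : Matrix (Fin 2) (Fin 2) F) 1 1))) *
        (β ((g : Matrix (Fin 2) (Fin 2) F) 1 1) * conj (β ((g : Matrix (Fin 2) (Fin 2) F) 0 0)))) +
      (1 / 2) * ((α ((g : Matrix (Fin 2) (Fin 2) F) 1 1) *
          conj (α ((g : Matrix (Fin 2) (Fin 2) F) 0 0))) *
        (β ((g : Matrix (Fin 2) (Fin 2) F) 0 0) * conj (β ((g : Matrix (Fin 2) (Fin 2) F) 1 1))))) =
      (Fintype.card F : ℂ) - 1 := by
    intro α
    rw [Finset.sum_add_distrib, Finset.sum_add_distrib, ← Finset.mul_sum, ← Finset.mul_sum,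
      ← Finset.mul_sum, ← Finset.mul_sum, dual_orth2 ha (Ne.symm hne), dual_orth2 hd hne,
      Finset.sum_const, Finset.card_univ, nsmul_eq_mul, card_mulChar]
    ring
  rw [Finset.sum_congr rfl (fun α _ => Finset.sum_congr rfl (fun β _ => h1' α β)),
    Finset.sum_congr rfl (fun α _ => h2 α), Finset.sum_const, Finset.card_univ, nsmul_eq_mul,
    card_mulChar]
  ring

open Classical in
theorem cusp_rel [Fintype (MulChar F ℂ)]
    [Fintype (Cfsg.IrrCharacter (Matrix.GeneralLinearGroup (Fin 2) F))]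
    (u : Matrix.GeneralLinearGroup (Fin 2) F)
    (hu : (u : Matrix (Fin 2) (Fin 2) F) = !![1, 1; 0, 1])
    (χ : Cfsg.IrrCharacter (Matrix.GeneralLinearGroup (Fin 2) F))
    (hc : Cusp (χ : Matrix.GeneralLinearGroup (Fin 2) F → ℂ)) :
    ((Fintype.card F : ℂ) - 1) * (χ : Matrix.GeneralLinearGroup (Fin 2) F → ℂ) u +
      (χ : Matrix.GeneralLinearGroup (Fin 2) F → ℂ) 1 = 0 := by
  have hsum : ∑ χ : Cfsg.IrrCharacter (Matrix.GeneralLinearGroup (Fin 2) F),
      (if Cusp (χ : Matrix.GeneralLinearGroup (Fin 2) F → ℂ) then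
        ((Complex.normSq (((Fintype.card F : ℂ) - 1) * (χ : Matrix.GeneralLinearGroup (Fin 2) F → ℂ) u +
          (χ : Matrix.GeneralLinearGroup (Fin 2) F → ℂ) 1) : ℝ) : ℂ) else 0) = 0 := by
    have h1 : ∀ χ : Cfsg.IrrCharacter (Matrix.GeneralLinearGroup (Fin 2) F),
        (if Cusp (χ : Matrix.GeneralLinearGroup (Fin 2) F → ℂ) then
          ((Complex.normSq (((Fintype.card F : ℂ) - 1) * (χ : Matrix.GeneralLinearGroup (Fin 2) F → ℂ) u +
            (χ : Matrix.GeneralLinearGroup (Fin 2) F → ℂ) 1) : ℝ) : ℂ) else 0) =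
        ((Fintype.card F : ℂ) - 1) ^ 2 *
          (if Cusp (χ : Matrix.GeneralLinearGroup (Fin 2) F → ℂ) then
            (χ : Matrix.GeneralLinearGroup (Fin 2) F → ℂ) u *
              conj ((χ : Matrix.GeneralLinearGroup (Fin 2) F → ℂ) u) else 0) +
        ((Fintype.card F : ℂ) - 1) *
          (if Cusp (χ : Matrix.GeneralLinearGroup (Fin 2) F → ℂ) then
            (χ : Matrix.GeneralLinearGroup (Fin 2) F → ℂ) u *
              conj ((χ : Matrix.GeneralLinearGroup (Fin 2) F → ℂ) 1) else 0) +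
        ((Fintype.card F : ℂ) - 1) *
          (if Cusp (χ : Matrix.GeneralLinearGroup (Fin 2) F → ℂ) then
            (χ : Matrix.GeneralLinearGroup (Fin 2) F → ℂ) 1 *
              conj ((χ : Matrix.GeneralLinearGroup (Fin 2) F → ℂ) u) else 0) +
        (if Cusp (χ : Matrix.GeneralLinearGroup (Fin 2) F → ℂ) then
            (χ : Matrix.GeneralLinearGroup (Fin 2) F → ℂ) 1 *
              conj ((χ : Matrix.GeneralLinearGroup (Fin 2) F → ℂ) 1) else 0) := by
      intro χ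
      split_ifs
      · rw [← Complex.mul_conj]
        simp only [map_add, map_mul, map_sub, map_natCast, map_one]
        ring
      · ring
    rw [Finset.sum_congr rfl (fun χ _ => h1 χ)]
    simp only [Finset.sum_add_distrib, ← Finset.mul_sum]
    rw [cusp_sum u u, cusp_sum u 1, cusp_sum 1 u, cusp_sum 1 1, count_uu u hu,
      count_empty (not_conj_u_one u hu), count_empty (not_conj_one_u u hu), count_11,
      TT_uu u hu, TT_u1 u hu, TT_1u u hu, TT_11]
    ring
  have h2 := sum_real_zero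
    (fun χ : Cfsg.IrrCharacter (Matrix.GeneralLinearGroup (Fin 2) F) =>
      Cusp (χ : Matrix.GeneralLinearGroup (Fin 2) F → ℂ))
    (fun χ => Complex.normSq (((Fintype.card F : ℂ) - 1) *
      (χ : Matrix.GeneralLinearGroup (Fin 2) F → ℂ) u +
      (χ : Matrix.GeneralLinearGroup (Fin 2) F → ℂ) 1))
    (fun χ _ => Complex.normSq_nonneg _) hsum χ hc
  exact Complex.normSq_eq_zero.mp h2

open Classical in
theorem cusp_split [Fintype (MulChar F ℂ)]
    [Fintype (Cfsg.IrrCharacter (Matrix.GeneralLinearGroup (Fin 2) F))]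
    (g : Matrix.GeneralLinearGroup (Fin 2) F)
    (h01 : (g : Matrix (Fin 2) (Fin 2) F) 0 1 = 0) (h10 : (g : Matrix (Fin 2) (Fin 2) F) 1 0 = 0)
    (hne : (g : Matrix (Fin 2) (Fin 2) F) 0 0 ≠ (g : Matrix (Fin 2) (Fin 2) F) 1 1)
    (χ : Cfsg.IrrCharacter (Matrix.GeneralLinearGroup (Fin 2) F))
    (hc : Cusp (χ : Matrix.GeneralLinearGroup (Fin 2) F → ℂ)) :
    (χ : Matrix.GeneralLinearGroup (Fin 2) F → ℂ) g = 0 := by
  have hsum := cusp_sum (F := F) g g
  rw [count_ss g h01 h10 hne, TT_split g h01 h10 hne, sub_self] at hsum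
  have hsum' : ∑ χ : Cfsg.IrrCharacter (Matrix.GeneralLinearGroup (Fin 2) F),
      (if Cusp (χ : Matrix.GeneralLinearGroup (Fin 2) F → ℂ) then
        ((Complex.normSq ((χ : Matrix.GeneralLinearGroup (Fin 2) F → ℂ) g) : ℝ) : ℂ) else 0) = 0 := by
    refine (Finset.sum_congr rfl (fun χ _ => ?_)).trans hsum
    split_ifs
    · rw [Complex.mul_conj]
    · rfl
  have h2 := sum_real_zero
    (fun χ : Cfsg.IrrCharacter (Matrix.GeneralLinearGroup (Fin 2) F) =>
      Cusp (χ : Matrix.GeneralLinearGroup (Fin 2) F → ℂ))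
    (fun χ => Complex.normSq ((χ : Matrix.GeneralLinearGroup (Fin 2) F → ℂ) g))
    (fun χ _ => Complex.normSq_nonneg _) hsum' χ hc
  exact Complex.normSq_eq_zero.mp h2

theorem cusp_deg [Fintype (MulChar F ℂ)]
    [Fintype (Cfsg.IrrCharacter (Matrix.GeneralLinearGroup (Fin 2) F))]
    (u : Matrix.GeneralLinearGroup (Fin 2) F)
    (hu : (u : Matrix (Fin 2) (Fin 2) F) = !![1, 1; 0, 1])
    (χ : Cfsg.IrrCharacter (Matrix.GeneralLinearGroup (Fin 2) F))
    (hc : Cusp (χ : Matrix.GeneralLinearGroup (Fin 2) F → ℂ)) :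
    ∃ k : ℕ, 0 < k ∧ (χ : Matrix.GeneralLinearGroup (Fin 2) F → ℂ) 1 =
      (k : ℂ) * ((Fintype.card F : ℂ) - 1) ∧
      (χ : Matrix.GeneralLinearGroup (Fin 2) F → ℂ) u = -(k : ℂ) := by
  obtain ⟨n, hn, h1⟩ := Cfsg.Agent.Lib.Helper3.Char.irr_one_pos χ.2
  have hrel := cusp_rel u hu χ hc
  have hint : IsIntegral ℤ ((χ : Matrix.GeneralLinearGroup (Fin 2) F → ℂ) u) :=
    Cfsg.Agent.Lib.Helper3.Char.char_isIntegral
      (Cfsg.Agent.Lib.Helper3.Char.isCharacter_of_irr χ.2) u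
  have hq : ((Fintype.card F : ℂ) - 1) ≠ 0 := Cfsg.Agent.S2304.card_sub_one_ne
  have hq1 : 1 < Fintype.card F := Fintype.one_lt_card
  have hqQ : ((Fintype.card F : ℚ) - 1) ≠ 0 := by
    have : (1 : ℚ) < (Fintype.card F : ℚ) := by exact_mod_cast hq1
    linarith
  rw [h1] at hrel
  have h2 : (χ : Matrix.GeneralLinearGroup (Fin 2) F → ℂ) u =
      (((-(n : ℚ)) / ((Fintype.card F : ℚ) - 1) : ℚ) : ℂ) := by
    push_cast
    field_simp
    linear_combination hrel
  have h3 : IsIntegral ℤ ((-(n : ℚ)) / ((Fintype.card F : ℚ) - 1)) := by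
    have h4 : IsIntegral ℤ (algebraMap ℚ ℂ ((-(n : ℚ)) / ((Fintype.card F : ℚ) - 1))) := by
      rw [eq_ratCast, ← h2]
      exact hint
    exact (isIntegral_algebraMap_iff (algebraMap ℚ ℂ).injective).mp h4
  obtain ⟨z, hz⟩ := IsIntegrallyClosed.isIntegral_iff.mp h3
  rw [eq_intCast] at hz
  have h4 : (z : ℚ) * ((Fintype.card F : ℚ) - 1) = -(n : ℚ) := by
    rw [hz]
    field_simp
  have h5 : z * ((Fintype.card F : ℤ) - 1) = -(n : ℤ) := by exact_mod_cast h4
  have hzneg : z < 0 := by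
    by_contra hz0
    push_neg at hz0
    have h6 : (0 : ℤ) ≤ z * ((Fintype.card F : ℤ) - 1) := by
      apply mul_nonneg hz0
      have : (1 : ℤ) < (Fintype.card F : ℤ) := by exact_mod_cast hq1
      linarith
    have h7 : (0 : ℤ) < (n : ℤ) := by exact_mod_cast hn
    linarith
  refine ⟨(-z).toNat, ?_, ?_, ?_⟩
  · omega
  · have hnat : (((-z).toNat : ℕ) : ℤ) = -z := Int.toNat_of_nonneg (by omega)
    have h9 : (((-z).toNat : ℕ) : ℂ) = -(z : ℂ) := by
      rw [← Int.cast_natCast, hnat, Int.cast_neg]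
    rw [h1, h9]
    have h10 : (z : ℂ) * ((Fintype.card F : ℂ) - 1) = -(n : ℂ) := by exact_mod_cast h5
    linear_combination h10
  · have hnat : (((-z).toNat : ℕ) : ℤ) = -z := Int.toNat_of_nonneg (by omega)
    have h9 : (((-z).toNat : ℕ) : ℂ) = -(z : ℂ) := by
      rw [← Int.cast_natCast, hnat, Int.cast_neg]
    rw [h9, h2, ← hz]
    push_cast
    ring

open Classical in
theorem cusp_deg_eq [Fintype (MulChar F ℂ)]
    [Fintype (Cfsg.IrrCharacter (Matrix.GeneralLinearGroup (Fin 2) F))]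
    (u : Matrix.GeneralLinearGroup (Fin 2) F)
    (hu : (u : Matrix (Fin 2) (Fin 2) F) = !![1, 1; 0, 1])
    (χ : Cfsg.IrrCharacter (Matrix.GeneralLinearGroup (Fin 2) F))
    (hc : Cusp (χ : Matrix.GeneralLinearGroup (Fin 2) F → ℂ)) :
    (χ : Matrix.GeneralLinearGroup (Fin 2) F → ℂ) 1 = (Fintype.card F : ℂ) - 1 ∧
      (χ : Matrix.GeneralLinearGroup (Fin 2) F → ℂ) u = -1 := by
  have hsum : ∑ χ : Cfsg.IrrCharacter (Matrix.GeneralLinearGroup (Fin 2) F),
      (if Cusp (χ : Matrix.GeneralLinearGroup (Fin 2) F → ℂ) then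
        ((Complex.normSq ((χ : Matrix.GeneralLinearGroup (Fin 2) F → ℂ) 1) -
          ((Fintype.card F : ℝ) - 1) ^ 2 : ℝ) : ℂ) else 0) = 0 := by
    have h1 : ∀ χ : Cfsg.IrrCharacter (Matrix.GeneralLinearGroup (Fin 2) F),
        (if Cusp (χ : Matrix.GeneralLinearGroup (Fin 2) F → ℂ) then
          ((Complex.normSq ((χ : Matrix.GeneralLinearGroup (Fin 2) F → ℂ) 1) -
            ((Fintype.card F : ℝ) - 1) ^ 2 : ℝ) : ℂ) else 0) =
        (if Cusp (χ : Matrix.GeneralLinearGroup (Fin 2) F → ℂ) then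
            (χ : Matrix.GeneralLinearGroup (Fin 2) F → ℂ) 1 *
              conj ((χ : Matrix.GeneralLinearGroup (Fin 2) F → ℂ) 1) else 0) -
        ((Fintype.card F : ℂ) - 1) ^ 2 *
          (1 - (if Cusp (χ : Matrix.GeneralLinearGroup (Fin 2) F → ℂ) then 0
            else (fun _ : Matrix.GeneralLinearGroup (Fin 2) F → ℂ => (1 : ℂ))
              (χ : Matrix.GeneralLinearGroup (Fin 2) F → ℂ))) := by
      intro χ
      split_ifs
      · rw [Complex.mul_conj]
        push_cast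
        ring
      · ring
    rw [Finset.sum_congr rfl (fun χ _ => h1 χ), Finset.sum_sub_distrib, ← Finset.mul_sum,
      Finset.sum_sub_distrib, cusp_sum 1 1, count_11, TT_11,
      sum_known (fun _ : Matrix.GeneralLinearGroup (Fin 2) F → ℂ => (1 : ℂ)),
      TT_eval (fun _ : Matrix.GeneralLinearGroup (Fin 2) F → ℂ => (1 : ℂ)) 2 1
        (by intro _; norm_num) (by intro _ _ _; rfl)]
    simp only [Finset.sum_const, Finset.card_univ, nsmul_eq_mul, mul_one]
    rw [← Nat.card_eq_fintype_card (α := Cfsg.IrrCharacter (Matrix.GeneralLinearGroup (Fin 2) F)),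
      Cfsg.Agent.Lib.Helper3.CharTable.card_irr, card_classes]
    ring
  have hq1 : 1 < Fintype.card F := Fintype.one_lt_card
  have hqR : (1 : ℝ) < (Fintype.card F : ℝ) := by exact_mod_cast hq1
  have hns : ∀ k : ℕ, Complex.normSq ((k : ℂ) * ((Fintype.card F : ℂ) - 1)) =
      (k : ℝ) ^ 2 * ((Fintype.card F : ℝ) - 1) ^ 2 := by
    intro k
    have h : ((k : ℂ) * ((Fintype.card F : ℂ) - 1)) =
        (((k : ℝ) * ((Fintype.card F : ℝ) - 1) : ℝ) : ℂ) := by
      push_cast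
      ring
    rw [h, Complex.normSq_ofReal]
    ring
  have hnn : ∀ χ' : Cfsg.IrrCharacter (Matrix.GeneralLinearGroup (Fin 2) F),
      Cusp (χ' : Matrix.GeneralLinearGroup (Fin 2) F → ℂ) →
      0 ≤ Complex.normSq ((χ' : Matrix.GeneralLinearGroup (Fin 2) F → ℂ) 1) -
        ((Fintype.card F : ℝ) - 1) ^ 2 := by
    intro χ' hc'
    obtain ⟨k', hk', h1', _⟩ := cusp_deg u hu χ' hc'
    rw [h1', hns]
    have hk1 : (1 : ℝ) ≤ (k' : ℝ) := by exact_mod_cast hk'
    have h2 : (1 : ℝ) ≤ (k' : ℝ) ^ 2 := by nlinarith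
    nlinarith [sq_nonneg ((Fintype.card F : ℝ) - 1)]
  have h3 := sum_real_zero
    (fun χ : Cfsg.IrrCharacter (Matrix.GeneralLinearGroup (Fin 2) F) =>
      Cusp (χ : Matrix.GeneralLinearGroup (Fin 2) F → ℂ))
    (fun χ => Complex.normSq ((χ : Matrix.GeneralLinearGroup (Fin 2) F → ℂ) 1) -
      ((Fintype.card F : ℝ) - 1) ^ 2) hnn hsum χ hc
  obtain ⟨k, hk, h1, h2⟩ := cusp_deg u hu χ hc
  have h4 : (k : ℝ) = 1 := by
    have h5 : Complex.normSq ((χ : Matrix.GeneralLinearGroup (Fin 2) F → ℂ) 1) -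
        ((Fintype.card F : ℝ) - 1) ^ 2 = 0 := h3
    rw [h1, hns] at h5
    have h6 : ((k : ℝ) ^ 2 - 1) * ((Fintype.card F : ℝ) - 1) ^ 2 = 0 := by linarith
    have h7 : ((Fintype.card F : ℝ) - 1) ^ 2 ≠ 0 := by
      apply pow_ne_zero
      linarith
    have h8 : (k : ℝ) ^ 2 - 1 = 0 := by
      rcases mul_eq_zero.mp h6 with h | h
      · exact h
      · exact absurd h h7
    have hk1 : (1 : ℝ) ≤ (k : ℝ) := by exact_mod_cast hk
    nlinarith
  have h5 : k = 1 := by exact_mod_cast h4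
  subst h5
  constructor
  · rw [h1]
    simp
  · rw [h2]
    simp

/-- The classification of the irreducible characters of `GL₂` over a finite field. -/
theorem classify (χ : Matrix.GeneralLinearGroup (Fin 2) F → ℂ)
    (hχ : Cfsg.IsIrrCharacter (Matrix.GeneralLinearGroup (Fin 2) F) χ) :
    (∃ lam : MulChar F ℂ, χ = LD lam) ∨ (∃ lam : MulChar F ℂ, χ = St lam) ∨
      (∃ α β : MulChar F ℂ, α ≠ β ∧ χ = PS α β) ∨
      (Cusp χ ∧ χ 1 = (Fintype.card F : ℂ) - 1 ∧
        (∀ u : Matrix.GeneralLinearGroup (Fin 2) F,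
          (u : Matrix (Fin 2) (Fin 2) F) = !![1, 1; 0, 1] → χ u = -1) ∧
        (∀ g : Matrix.GeneralLinearGroup (Fin 2) F,
          (g : Matrix (Fin 2) (Fin 2) F) 0 1 = 0 → (g : Matrix (Fin 2) (Fin 2) F) 1 0 = 0 →
          (g : Matrix (Fin 2) (Fin 2) F) 0 0 ≠ (g : Matrix (Fin 2) (Fin 2) F) 1 1 → χ g = 0)) := by
  haveI : Fintype (MulChar F ℂ) := Fintype.ofFinite _
  haveI : Finite (Cfsg.IrrCharacter (Matrix.GeneralLinearGroup (Fin 2) F)) :=
    Cfsg.Agent.Lib.Helper3.CharCore.irr_finite _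
  haveI : Fintype (Cfsg.IrrCharacter (Matrix.GeneralLinearGroup (Fin 2) F)) := Fintype.ofFinite _
  by_cases hc : Cusp χ
  · right; right; right
    have hu0 : (Cfsg.Agent.S2304.mk2 (1 : F) 1 0 1 (by simp) :
        Matrix.GeneralLinearGroup (Fin 2) F).1 = !![1, 1; 0, 1] := rfl
    refine ⟨hc, (cusp_deg_eq _ hu0 ⟨χ, hχ⟩ hc).1, ?_, ?_⟩
    · intro u hu
      exact (cusp_deg_eq u hu ⟨χ, hχ⟩ hc).2
    · intro g h01 h10 hne
      exact cusp_split g h01 h10 hne ⟨χ, hχ⟩ hc
  · rcases noncusp_cases χ hχ hc with h | h | h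
    · exact Or.inl h
    · exact Or.inr (Or.inl h)
    · exact Or.inr (Or.inr (Or.inl h))

open Classical in
theorem cusp_count [Fintype (MulChar F ℂ)]
    [Fintype (Cfsg.IrrCharacter (Matrix.GeneralLinearGroup (Fin 2) F))] :
    ∑ χ : Cfsg.IrrCharacter (Matrix.GeneralLinearGroup (Fin 2) F),
      (if Cusp (χ : Matrix.GeneralLinearGroup (Fin 2) F → ℂ) then (1 : ℂ) else 0) =
      (Fintype.card F : ℂ) * ((Fintype.card F : ℂ) - 1) / 2 := by
  have h1 : ∀ χ : Cfsg.IrrCharacter (Matrix.GeneralLinearGroup (Fin 2) F),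
      (if Cusp (χ : Matrix.GeneralLinearGroup (Fin 2) F → ℂ) then (1 : ℂ) else 0) =
      1 - (if Cusp (χ : Matrix.GeneralLinearGroup (Fin 2) F → ℂ) then 0
            else (fun _ : Matrix.GeneralLinearGroup (Fin 2) F → ℂ => (1 : ℂ))
              (χ : Matrix.GeneralLinearGroup (Fin 2) F → ℂ)) := by
    intro χ
    split_ifs <;> ring
  rw [Finset.sum_congr rfl (fun χ _ => h1 χ), Finset.sum_sub_distrib,
    sum_known (fun _ : Matrix.GeneralLinearGroup (Fin 2) F → ℂ => (1 : ℂ)),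
    TT_eval (fun _ : Matrix.GeneralLinearGroup (Fin 2) F → ℂ => (1 : ℂ)) 2 1
      (by intro _; norm_num) (by intro _ _ _; rfl)]
  simp only [Finset.sum_const, Finset.card_univ, nsmul_eq_mul, mul_one]
  rw [← Nat.card_eq_fintype_card (α := Cfsg.IrrCharacter (Matrix.GeneralLinearGroup (Fin 2) F)),
    Cfsg.Agent.Lib.Helper3.CharTable.card_irr, card_classes]
  ring

open Classical in
theorem count_deg [Fintype (MulChar F ℂ)]
    [Fintype (Cfsg.IrrCharacter (Matrix.GeneralLinearGroup (Fin 2) F))] (D : ℂ → Prop) :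
    (Nat.card {χ : Cfsg.IrrCharacter (Matrix.GeneralLinearGroup (Fin 2) F) //
      D ((χ : Matrix.GeneralLinearGroup (Fin 2) F → ℂ) 1)} : ℂ) =
      (if D ((Fintype.card F : ℂ) - 1) then
        (Fintype.card F : ℂ) * ((Fintype.card F : ℂ) - 1) / 2 else 0) +
      (((Fintype.card F : ℂ) - 1) * ((if D 1 then 1 else 0) +
          (if D (Fintype.card F : ℂ) then 1 else 0)) +
        ((Fintype.card F : ℂ) - 1) * ((Fintype.card F : ℂ) - 2) / 2 *
          (if D ((Fintype.card F : ℂ) + 1) then 1 else 0)) := by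
  rw [Nat.card_eq_fintype_card, Fintype.card_subtype, Finset.card_filter, Nat.cast_sum]
  have hu0 : (Cfsg.Agent.S2304.mk2 (1 : F) 1 0 1 (by simp) :
      Matrix.GeneralLinearGroup (Fin 2) F).1 = !![1, 1; 0, 1] := rfl
  have h1 : ∀ χ : Cfsg.IrrCharacter (Matrix.GeneralLinearGroup (Fin 2) F),
      (((if D ((χ : Matrix.GeneralLinearGroup (Fin 2) F → ℂ) 1) then 1 else 0 : ℕ)) : ℂ) =
      (if D ((Fintype.card F : ℂ) - 1) then (1 : ℂ) else 0) *
        (if Cusp (χ : Matrix.GeneralLinearGroup (Fin 2) F → ℂ) then (1 : ℂ) else 0) +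
      (if Cusp (χ : Matrix.GeneralLinearGroup (Fin 2) F → ℂ) then 0
        else (fun ψ : Matrix.GeneralLinearGroup (Fin 2) F → ℂ => if D (ψ 1) then (1 : ℂ) else 0)
          (χ : Matrix.GeneralLinearGroup (Fin 2) F → ℂ)) := by
    intro χ
    by_cases hc : Cusp (χ : Matrix.GeneralLinearGroup (Fin 2) F → ℂ)
    · rw [if_pos hc, if_pos hc, (cusp_deg_eq _ hu0 χ hc).1]
      split_ifs <;> simp
    · rw [if_neg hc, if_neg hc]
      simp only [mul_zero, zero_add]
      split_ifs <;> simp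
  rw [Finset.sum_congr rfl (fun χ _ => h1 χ), Finset.sum_add_distrib, ← Finset.mul_sum,
    cusp_count,
    sum_known (fun ψ : Matrix.GeneralLinearGroup (Fin 2) F → ℂ => if D (ψ 1) then (1 : ℂ) else 0),
    TT_eval (fun ψ : Matrix.GeneralLinearGroup (Fin 2) F → ℂ => if D (ψ 1) then (1 : ℂ) else 0)
      ((if D 1 then 1 else 0) + (if D (Fintype.card F : ℂ) then 1 else 0))
      (if D ((Fintype.card F : ℂ) + 1) then 1 else 0)
      (by intro lam; simp only [LD_one, St_one])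
      (by intro α β _; simp only [PS_one])]
  split_ifs <;> ring

theorem mc_norm_one (α : MulChar F ℂ) {a : F} (ha : a ≠ 0) : ‖α a‖ = 1 := by
  have h := mc_norm α ha
  rw [Complex.mul_conj, Complex.normSq_eq_norm_sq] at h
  have h2 : ‖α a‖ ^ 2 = 1 := by exact_mod_cast h
  have h3 : 0 ≤ ‖α a‖ := norm_nonneg _
  nlinarith

end GL2

theorem result {F : Type*} [Field F] [Fintype F] (χ : Matrix.GeneralLinearGroup (Fin 2) F → ℂ) (hχ : Cfsg.IsIrrCharacter (Matrix.GeneralLinearGroup (Fin 2) F) χ) (g : Matrix.GeneralLinearGroup (Fin 2) F) :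
    (χ 1 = (Fintype.card F : ℂ) - 1 → (g : Matrix (Fin 2) (Fin 2) F) 0 1 = 0 → (g : Matrix (Fin 2) (Fin 2) F) 1 0 = 0 → (g : Matrix (Fin 2) (Fin 2) F) 0 0 ≠ (g : Matrix (Fin 2) (Fin 2) F) 1 1 → χ g = 0) ∧
    (χ 1 = (Fintype.card F : ℂ) + 1 → (∀ (c : F) (v : Fin 2 → F), v ≠ 0 → (g : Matrix (Fin 2) (Fin 2) F).mulVec v ≠ c • v) → χ g = 0) := by
  classical
  rcases classify χ hχ with ⟨lam, rfl⟩ | ⟨lam, rfl⟩ | ⟨α, β, hαβ, rfl⟩ | ⟨hc, hdeg, hu, hs⟩
  · constructor
    · intro h1 h01 h10 hne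
      rw [LD_one] at h1
      exfalso
      have hq : Fintype.card F = 2 := by
        have : (Fintype.card F : ℂ) = 2 := by linear_combination -h1
        exact_mod_cast this
      have hdet := Cfsg.Agent.S2304.det_ne g
      rw [h01, zero_mul, sub_zero] at hdet
      have ha := left_ne_zero_of_mul hdet
      have hd := right_ne_zero_of_mul hdet
      have hU : Fintype.card Fˣ = 1 := by rw [Fintype.card_units, hq]
      have := Fintype.card_le_one_iff.mp hU.le (Units.mk0 _ ha) (Units.mk0 _ hd)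
      exact hne (congrArg Units.val this)
    · intro h1 _
      rw [LD_one] at h1
      exfalso
      have : (Fintype.card F : ℂ) = 0 := by linear_combination -h1
      have h0 : Fintype.card F = 0 := by exact_mod_cast this
      exact Fintype.card_ne_zero h0
  · constructor
    · intro h1
      rw [St_one] at h1
      exfalso
      have : (1 : ℂ) = 0 := by linear_combination h1
      norm_num at this
    · intro h1
      rw [St_one] at h1
      exfalso
      have : (1 : ℂ) = 0 := by linear_combination -h1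
      norm_num at this
  · constructor
    · intro h1
      rw [PS_one] at h1
      exfalso
      have : (2 : ℂ) = 0 := by linear_combination h1
      norm_num at this
    · intro _ hg
      exact PS_elliptic α β g hg
  · constructor
    · intro _ h01 h10 hne
      exact hs g h01 h10 hne
    · intro h1
      rw [hdeg] at h1
      exfalso
      have : (2 : ℂ) = 0 := by linear_combination -h1
      norm_num at this

end Cfsg.Agent.S2309
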