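import Cfsg.Statements.S2298
import Mathlib
import Cfsg.Agent.S2309

set_option autoImplicit false
open Cfsg

namespace Cfsg.Agent.S2298

theorem result {F : Type*} [Field F] [Fintype F] :
    (∀ χ : Matrix.GeneralLinearGroup (Fin 2) F → ℂ, Cfsg.IsIrrCharacter (Matrix.GeneralLinearGroup (Fin 2) F) χ →
      χ 1 = 1 ∨ χ 1 = (Fintype.card F : ℂ) - 1 ∨ χ 1 = (Fintype.card F : ℂ) ∨ χ 1 = (Fintype.card F : ℂ) + 1) ∧
    (3 ≤ Fintype.card F →
      Nat.card {χ : Cfsg.IrrCharacter (Matrix.GeneralLinearGroup (Fin 2) F) // (χ : Matrix.GeneralLinearGroup (Fin 2) F → ℂ) 1 = 1} = Fintype.card F - 1 ∧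
      Nat.card {χ : Cfsg.IrrCharacter (Matrix.GeneralLinearGroup (Fin 2) F) // (χ : Matrix.GeneralLinearGroup (Fin 2) F → ℂ) 1 = (Fintype.card F : ℂ)} = Fintype.card F - 1 ∧
      Nat.card {χ : Cfsg.IrrCharacter (Matrix.GeneralLinearGroup (Fin 2) F) // (χ : Matrix.GeneralLinearGroup (Fin 2) F → ℂ) 1 = (Fintype.card F : ℂ) + 1} = (Fintype.card F - 1) * (Fintype.card F - 2) / 2 ∧
      Nat.card {χ : Cfsg.IrrCharacter (Matrix.GeneralLinearGroup (Fin 2) F) // (χ : Matrix.GeneralLinearGroup (Fin 2) F → ℂ) 1 = (Fintype.card F : ℂ) - 1} = Fintype.card F * (Fintype.card F - 1) / 2) := by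
  classical
  haveI : Fintype (MulChar F ℂ) := Fintype.ofFinite _
  haveI : Fintype (Cfsg.IrrCharacter (Matrix.GeneralLinearGroup (Fin 2) F)) := Fintype.ofFinite _
  constructor
  · intro χ hχ
    rcases Cfsg.Agent.S2309.classify χ hχ with ⟨lam, rfl⟩ | ⟨lam, rfl⟩ | ⟨α, β, hαβ, rfl⟩ | ⟨hc, hdeg, _, _⟩
    · left
      exact Cfsg.Agent.S2309.LD_one lam
    · right; right; left
      exact Cfsg.Agent.S2309.St_one lam
    · right; right; right
      exact Cfsg.Agent.S2309.PS_one α β
    · right; left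
      exact hdeg
  · intro hq
    have f1 : ¬ ((Fintype.card F : ℂ) - 1 = 1) := by
      intro h
      have h' : (Fintype.card F : ℤ) - 1 = 1 := by exact_mod_cast h
      omega
    have f2 : ¬ ((Fintype.card F : ℂ) = 1) := by
      intro h
      have h' : (Fintype.card F : ℤ) = 1 := by exact_mod_cast h
      omega
    have f3 : ¬ ((Fintype.card F : ℂ) + 1 = 1) := by
      intro h
      have h' : (Fintype.card F : ℤ) + 1 = 1 := by exact_mod_cast h
      omega
    have f4 : ¬ ((Fintype.card F : ℂ) - 1 = (Fintype.card F : ℂ)) := by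
      intro h
      have h' : (Fintype.card F : ℤ) - 1 = (Fintype.card F : ℤ) := by exact_mod_cast h
      omega
    have f5 : ¬ ((1 : ℂ) = (Fintype.card F : ℂ)) := fun h => f2 h.symm
    have f6 : ¬ ((Fintype.card F : ℂ) + 1 = (Fintype.card F : ℂ)) := by
      intro h
      have h' : (Fintype.card F : ℤ) + 1 = (Fintype.card F : ℤ) := by exact_mod_cast h
      omega
    have f7 : ¬ ((1 : ℂ) = (Fintype.card F : ℂ) + 1) := fun h => f3 h.symm
    have f8 : ¬ ((Fintype.card F : ℂ) = (Fintype.card F : ℂ) + 1) := fun h => f6 h.symm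
    have f9 : ¬ ((Fintype.card F : ℂ) - 1 = (Fintype.card F : ℂ) + 1) := by
      intro h
      have h' : (Fintype.card F : ℤ) - 1 = (Fintype.card F : ℤ) + 1 := by exact_mod_cast h
      omega
    have f10 : ¬ ((1 : ℂ) = (Fintype.card F : ℂ) - 1) := fun h => f1 h.symm
    have f11 : ¬ ((Fintype.card F : ℂ) = (Fintype.card F : ℂ) - 1) := fun h => f4 h.symm
    have f12 : ¬ ((Fintype.card F : ℂ) + 1 = (Fintype.card F : ℂ) - 1) := fun h => f9 h.symm
    refine ⟨?_, ?_, ?_, ?_⟩
    · have h := Cfsg.Agent.S2309.count_deg (F := F) (fun z => z = 1)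
      simp only [] at h
      rw [if_neg f1, if_pos trivial, if_neg f2, if_neg f3] at h
      have h2 : (Nat.card {χ : Cfsg.IrrCharacter (Matrix.GeneralLinearGroup (Fin 2) F) //
          (χ : Matrix.GeneralLinearGroup (Fin 2) F → ℂ) 1 = 1} : ℂ) =
          ((Fintype.card F - 1 : ℕ) : ℂ) := by
        rw [h, Nat.cast_sub (by omega)]
        push_cast
        ring
      exact_mod_cast h2
    · have h := Cfsg.Agent.S2309.count_deg (F := F) (fun z => z = (Fintype.card F : ℂ))
      simp only [] at h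
      rw [if_neg f4, if_neg f5, if_pos trivial, if_neg f6] at h
      have h2 : (Nat.card {χ : Cfsg.IrrCharacter (Matrix.GeneralLinearGroup (Fin 2) F) //
          (χ : Matrix.GeneralLinearGroup (Fin 2) F → ℂ) 1 = (Fintype.card F : ℂ)} : ℂ) =
          ((Fintype.card F - 1 : ℕ) : ℂ) := by
        rw [h, Nat.cast_sub (by omega)]
        push_cast
        ring
      exact_mod_cast h2
    · have h := Cfsg.Agent.S2309.count_deg (F := F) (fun z => z = (Fintype.card F : ℂ) + 1)
      simp only [] at h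
      rw [if_neg f9, if_neg f7, if_neg f8, if_pos trivial] at h
      have h2 : ((2 * Nat.card {χ : Cfsg.IrrCharacter (Matrix.GeneralLinearGroup (Fin 2) F) //
          (χ : Matrix.GeneralLinearGroup (Fin 2) F → ℂ) 1 = (Fintype.card F : ℂ) + 1} : ℕ) : ℂ) =
          (((Fintype.card F - 1) * (Fintype.card F - 2) : ℕ) : ℂ) := by
        rw [Nat.cast_mul, Nat.cast_mul, Nat.cast_sub (by omega), Nat.cast_sub (by omega), h]
        push_cast
        ring
      have h3 : 2 * Nat.card {χ : Cfsg.IrrCharacter (Matrix.GeneralLinearGroup (Fin 2) F) //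
          (χ : Matrix.GeneralLinearGroup (Fin 2) F → ℂ) 1 = (Fintype.card F : ℂ) + 1} =
          (Fintype.card F - 1) * (Fintype.card F - 2) := by exact_mod_cast h2
      exact (Nat.div_eq_of_eq_mul_right (by norm_num) h3.symm).symm
    · have h := Cfsg.Agent.S2309.count_deg (F := F) (fun z => z = (Fintype.card F : ℂ) - 1)
      simp only [] at h
      rw [if_pos trivial, if_neg f10, if_neg f11, if_neg f12] at h
      have h2 : ((2 * Nat.card {χ : Cfsg.IrrCharacter (Matrix.GeneralLinearGroup (Fin 2) F) //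
          (χ : Matrix.GeneralLinearGroup (Fin 2) F → ℂ) 1 = (Fintype.card F : ℂ) - 1} : ℕ) : ℂ) =
          (((Fintype.card F) * (Fintype.card F - 1) : ℕ) : ℂ) := by
        rw [Nat.cast_mul, Nat.cast_mul, Nat.cast_sub (by omega), h]
        push_cast
        ring
      have h3 : 2 * Nat.card {χ : Cfsg.IrrCharacter (Matrix.GeneralLinearGroup (Fin 2) F) //
          (χ : Matrix.GeneralLinearGroup (Fin 2) F → ℂ) 1 = (Fintype.card F : ℂ) - 1} =
          (Fintype.card F) * (Fintype.card F - 1) := by exact_mod_cast h2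
      exact (Nat.div_eq_of_eq_mul_right (by norm_num) h3.symm).symm

end Cfsg.Agent.S2298
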