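import Cfsg.Statements.S2432
import Mathlib
import Cfsg.Agent.S2304

set_option autoImplicit false
open Cfsg

namespace Cfsg.Agent.S2432

open scoped ComplexConjugate

section SL2

variable {F : Type*} [Field F]

theorem mem_BS (g : Matrix.SpecialLinearGroup (Fin 2) F) :
    g ∈ (Cfsg.upperTriangularGL 2 F).comap Matrix.SpecialLinearGroup.toGL ↔
      (g : Matrix (Fin 2) (Fin 2) F) 1 0 = 0 := by
  rw [Subgroup.mem_comap, Cfsg.Agent.S2304.mem_B]
  rfl

theorem smul2 (g h : Matrix.SpecialLinearGroup (Fin 2) F) (i j : Fin 2) :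
    ((g * h : Matrix.SpecialLinearGroup (Fin 2) F) : Matrix (Fin 2) (Fin 2) F) i j =
      (g : Matrix (Fin 2) (Fin 2) F) i 0 * (h : Matrix (Fin 2) (Fin 2) F) 0 j +
      (g : Matrix (Fin 2) (Fin 2) F) i 1 * (h : Matrix (Fin 2) (Fin 2) F) 1 j := by
  rw [Matrix.SpecialLinearGroup.coe_mul, Matrix.mul_apply, Fin.sum_univ_two]

theorem sdet (g : Matrix.SpecialLinearGroup (Fin 2) F) :
    (g : Matrix (Fin 2) (Fin 2) F) 0 0 * (g : Matrix (Fin 2) (Fin 2) F) 1 1 -
      (g : Matrix (Fin 2) (Fin 2) F) 0 1 * (g : Matrix (Fin 2) (Fin 2) F) 1 0 = 1 := by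
  rw [← Matrix.det_fin_two]
  exact g.2

/-- The element of `SL₂` with the given entries. -/
def smk (a b c d : F) (h : a * d - b * c = 1) : Matrix.SpecialLinearGroup (Fin 2) F :=
  ⟨!![a, b; c, d], by rw [Matrix.det_fin_two_of]; exact h⟩

theorem sl2_ext {g h : Matrix.SpecialLinearGroup (Fin 2) F}
    (h00 : (g : Matrix (Fin 2) (Fin 2) F) 0 0 = (h : Matrix (Fin 2) (Fin 2) F) 0 0)
    (h01 : (g : Matrix (Fin 2) (Fin 2) F) 0 1 = (h : Matrix (Fin 2) (Fin 2) F) 0 1)
    (h10 : (g : Matrix (Fin 2) (Fin 2) F) 1 0 = (h : Matrix (Fin 2) (Fin 2) F) 1 0)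
    (h11 : (g : Matrix (Fin 2) (Fin 2) F) 1 1 = (h : Matrix (Fin 2) (Fin 2) F) 1 1) : g = h := by
  apply Subtype.ext
  ext i j
  fin_cases i <;> fin_cases j <;> assumption

/-- The coset representative `n_t`. -/
def sn (t : F) : Matrix.SpecialLinearGroup (Fin 2) F :=
  smk t (-1) 1 0 (by ring)

theorem sn00 (t : F) : ((sn t : Matrix.SpecialLinearGroup (Fin 2) F) : Matrix (Fin 2) (Fin 2) F) 0 0 = t := rfl
theorem sn01 (t : F) : ((sn t : Matrix.SpecialLinearGroup (Fin 2) F) : Matrix (Fin 2) (Fin 2) F) 0 1 = -1 := rfl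
theorem sn10 (t : F) : ((sn t : Matrix.SpecialLinearGroup (Fin 2) F) : Matrix (Fin 2) (Fin 2) F) 1 0 = 1 := rfl
theorem sn11 (t : F) : ((sn t : Matrix.SpecialLinearGroup (Fin 2) F) : Matrix (Fin 2) (Fin 2) F) 1 1 = 0 := rfl

/-- Coset representatives of the upper triangular subgroup. -/
def srep (o : Option F) : Matrix.SpecialLinearGroup (Fin 2) F :=
  o.elim 1 sn

theorem BS00_ne (b : (Cfsg.upperTriangularGL 2 F).comap Matrix.SpecialLinearGroup.toGL) :
    ((b : Matrix.SpecialLinearGroup (Fin 2) F) : Matrix (Fin 2) (Fin 2) F) 0 0 ≠ 0 := by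
  have h := sdet (b : Matrix.SpecialLinearGroup (Fin 2) F)
  rw [(mem_BS _).mp b.2, mul_zero, sub_zero] at h
  intro h0
  rw [h0, zero_mul] at h
  exact zero_ne_one h

theorem srep_bij : Function.Bijective
    (fun p : Option F × ((Cfsg.upperTriangularGL 2 F).comap Matrix.SpecialLinearGroup.toGL) =>
      srep p.1 * (p.2 : Matrix.SpecialLinearGroup (Fin 2) F)) := by
  constructor
  · rintro ⟨o, b⟩ ⟨o', b'⟩ h
    have hb := (mem_BS _).mp b.2
    have hb' := (mem_BS _).mp b'.2
    have key : ∀ (t : F) (c c' : (Cfsg.upperTriangularGL 2 F).comap Matrix.SpecialLinearGroup.toGL),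
        (c : Matrix.SpecialLinearGroup (Fin 2) F) ≠ sn t * (c' : Matrix.SpecialLinearGroup (Fin 2) F) := by
      intro t c c' hc
      have h10 := congrArg (fun x : Matrix.SpecialLinearGroup (Fin 2) F =>
        (x : Matrix (Fin 2) (Fin 2) F) 1 0) hc
      simp only [smul2, sn10, sn11] at h10
      rw [(mem_BS _).mp c.2, (mem_BS _).mp c'.2] at h10
      have := BS00_ne c'
      apply this
      linear_combination -h10
    cases o with
    | none =>
      cases o' with
      | none =>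
        simp only [srep, Option.elim, one_mul] at h
        rw [Subtype.ext h]
      | some t =>
        simp only [srep, Option.elim, one_mul] at h
        exact absurd h (key t b b')
    | some t =>
      cases o' with
      | none =>
        simp only [srep, Option.elim, one_mul] at h
        exact absurd h.symm (key t b' b)
      | some s =>
        simp only [srep, Option.elim] at h
        have h10 := congrArg (fun x : Matrix.SpecialLinearGroup (Fin 2) F =>
          (x : Matrix (Fin 2) (Fin 2) F) 1 0) h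
        have h00 := congrArg (fun x : Matrix.SpecialLinearGroup (Fin 2) F =>
          (x : Matrix (Fin 2) (Fin 2) F) 0 0) h
        simp only [smul2, sn10, sn11, sn00, sn01] at h10 h00
        rw [hb, hb'] at h10 h00
        have hts : t = s := by
          have hne := BS00_ne b
          have : (t - s) * ((b : Matrix.SpecialLinearGroup (Fin 2) F) : Matrix (Fin 2) (Fin 2) F) 0 0 = 0 := by
            linear_combination h00 - s * h10
          rcases mul_eq_zero.mp this with h1 | h1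
          · exact sub_eq_zero.mp h1
          · exact absurd h1 hne
        subst hts
        have := mul_left_cancel h
        rw [Subtype.ext this]
  · intro g
    by_cases hg : (g : Matrix (Fin 2) (Fin 2) F) 1 0 = 0
    · exact ⟨(none, ⟨g, (mem_BS g).mpr hg⟩), by simp [srep]⟩
    · have hmem : (sn ((g : Matrix (Fin 2) (Fin 2) F) 0 0 / (g : Matrix (Fin 2) (Fin 2) F) 1 0))⁻¹ * g ∈
          (Cfsg.upperTriangularGL 2 F).comap Matrix.SpecialLinearGroup.toGL := by
        rw [mem_BS]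
        have e : sn ((g : Matrix (Fin 2) (Fin 2) F) 0 0 / (g : Matrix (Fin 2) (Fin 2) F) 1 0) *
            ((sn ((g : Matrix (Fin 2) (Fin 2) F) 0 0 / (g : Matrix (Fin 2) (Fin 2) F) 1 0))⁻¹ * g) = g := by
          group
        generalize (sn ((g : Matrix (Fin 2) (Fin 2) F) 0 0 / (g : Matrix (Fin 2) (Fin 2) F) 1 0))⁻¹ * g = y at e ⊢
        have h10 := congrArg (fun x : Matrix.SpecialLinearGroup (Fin 2) F =>
          (x : Matrix (Fin 2) (Fin 2) F) 1 0) e
        have h00 := congrArg (fun x : Matrix.SpecialLinearGroup (Fin 2) F =>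
          (x : Matrix (Fin 2) (Fin 2) F) 0 0) e
        simp only [smul2, sn10, sn11, sn00, sn01] at h10 h00
        have e3 : (g : Matrix (Fin 2) (Fin 2) F) 0 0 / (g : Matrix (Fin 2) (Fin 2) F) 1 0 *
            (g : Matrix (Fin 2) (Fin 2) F) 1 0 = (g : Matrix (Fin 2) (Fin 2) F) 0 0 :=
          div_mul_cancel₀ _ hg
        linear_combination -h00 + ((g : Matrix (Fin 2) (Fin 2) F) 0 0 / (g : Matrix (Fin 2) (Fin 2) F) 1 0) * h10 + e3
      refine ⟨(some ((g : Matrix (Fin 2) (Fin 2) F) 0 0 / (g : Matrix (Fin 2) (Fin 2) F) 1 0), ⟨_, hmem⟩), ?_⟩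
      simp [srep]

theorem sconj_entries (g : Matrix.SpecialLinearGroup (Fin 2) F) (t : F) :
    (((sn t)⁻¹ * g * sn t : Matrix.SpecialLinearGroup (Fin 2) F) : Matrix (Fin 2) (Fin 2) F) 1 0 =
      -(-((g : Matrix (Fin 2) (Fin 2) F) 1 0) * t ^ 2 +
        ((g : Matrix (Fin 2) (Fin 2) F) 0 0 - (g : Matrix (Fin 2) (Fin 2) F) 1 1) * t +
        (g : Matrix (Fin 2) (Fin 2) F) 0 1) ∧
    (((sn t)⁻¹ * g * sn t : Matrix.SpecialLinearGroup (Fin 2) F) : Matrix (Fin 2) (Fin 2) F) 0 0 =
      (g : Matrix (Fin 2) (Fin 2) F) 1 0 * t + (g : Matrix (Fin 2) (Fin 2) F) 1 1 := by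
  have h : sn t * ((sn t)⁻¹ * g * sn t) = g * sn t := by group
  generalize (sn t)⁻¹ * g * sn t = y at h ⊢
  have h00 := congrArg (fun x : Matrix.SpecialLinearGroup (Fin 2) F =>
    (x : Matrix (Fin 2) (Fin 2) F) 0 0) h
  have h10 := congrArg (fun x : Matrix.SpecialLinearGroup (Fin 2) F =>
    (x : Matrix (Fin 2) (Fin 2) F) 1 0) h
  simp only [smul2, sn10, sn11, sn00, sn01] at h00 h10
  refine ⟨?_, ?_⟩
  · linear_combination -h00 + t * h10
  · linear_combination h10

/-- The linear character `b ↦ α(b₁₁)` of the upper triangular subgroup of `SL₂`. -/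
noncomputable def ths (α : MulChar F ℂ) :
    ((Cfsg.upperTriangularGL 2 F).comap Matrix.SpecialLinearGroup.toGL) → ℂ :=
  fun b => α (((b : Matrix.SpecialLinearGroup (Fin 2) F) : Matrix (Fin 2) (Fin 2) F) 0 0)

theorem ths_ne_zero (α : MulChar F ℂ)
    (b : (Cfsg.upperTriangularGL 2 F).comap Matrix.SpecialLinearGroup.toGL) : ths α b ≠ 0 :=
  Cfsg.Agent.S2304.mulChar_ne_zero α (BS00_ne b)

theorem ths_mul (α : MulChar F ℂ)
    (b b' : (Cfsg.upperTriangularGL 2 F).comap Matrix.SpecialLinearGroup.toGL) :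
    ths α (b * b') = ths α b * ths α b' := by
  unfold ths
  have e0 : (((b * b' : (Cfsg.upperTriangularGL 2 F).comap Matrix.SpecialLinearGroup.toGL) :
      Matrix.SpecialLinearGroup (Fin 2) F) : Matrix (Fin 2) (Fin 2) F) 0 0 =
      ((b : Matrix.SpecialLinearGroup (Fin 2) F) : Matrix (Fin 2) (Fin 2) F) 0 0 *
      ((b' : Matrix.SpecialLinearGroup (Fin 2) F) : Matrix (Fin 2) (Fin 2) F) 0 0 := by
    rw [Subgroup.coe_mul, smul2, (mem_BS _).mp b'.2, mul_zero, add_zero]
  rw [e0, map_mul]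

/-- The linear character as a homomorphism. -/
noncomputable def lamBS (α : MulChar F ℂ) :
    ((Cfsg.upperTriangularGL 2 F).comap Matrix.SpecialLinearGroup.toGL) →* ℂˣ :=
  MonoidHom.mk' (fun b => Units.mk0 (ths α b) (ths_ne_zero α b))
    (fun b b' => Units.ext (ths_mul α b b'))

variable [Fintype F] [DecidableEq F]

theorem ths_irr (α : MulChar F ℂ) :
    Cfsg.IsIrrCharacter ((Cfsg.upperTriangularGL 2 F).comap Matrix.SpecialLinearGroup.toGL)
      (ths α) := by
  haveI : Fintype ((Cfsg.upperTriangularGL 2 F).comap Matrix.SpecialLinearGroup.toGL) :=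
    Fintype.ofFinite _
  exact Cfsg.Agent.Lib.Helper3.CharArith.isIrr_of_hom (lamBS α)

theorem ths_classFun (α : MulChar F ℂ) :
    Cfsg.IsClassFunction ((Cfsg.upperTriangularGL 2 F).comap Matrix.SpecialLinearGroup.toGL)
      (ths α) :=
  Cfsg.Agent.Lib.Helper3.Char.char_classFun
    (Cfsg.Agent.Lib.Helper3.Char.isCharacter_of_irr (ths_irr α))

theorem sind_char (α : MulChar F ℂ) :
    Cfsg.IsCharacter (Matrix.SpecialLinearGroup (Fin 2) F)
      (Cfsg.indFun ((Cfsg.upperTriangularGL 2 F).comap Matrix.SpecialLinearGroup.toGL) (ths α)) :=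
  Cfsg.Agent.S0148.result _ _ (Cfsg.Agent.Lib.Helper3.Char.isCharacter_of_irr (ths_irr α))

theorem ext_ths (α : MulChar F ℂ) (g : Matrix.SpecialLinearGroup (Fin 2) F) :
    Cfsg.extendByZero ((Cfsg.upperTriangularGL 2 F).comap Matrix.SpecialLinearGroup.toGL) (ths α) g =
      if (g : Matrix (Fin 2) (Fin 2) F) 1 0 = 0 then
        α ((g : Matrix (Fin 2) (Fin 2) F) 0 0) else 0 := by
  split_ifs with h
  · rw [Cfsg.Agent.Lib.Helper3.CharInd.extendByZero_mem _ _ ((mem_BS g).mpr h)]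
    rfl
  · rw [Cfsg.Agent.Lib.Helper3.CharInd.extendByZero_not_mem _ _ (fun hc => h ((mem_BS g).mp hc))]

/-- The value of the induced function at an arbitrary element. -/
theorem sind_value (α : MulChar F ℂ) (g : Matrix.SpecialLinearGroup (Fin 2) F) :
    Cfsg.indFun ((Cfsg.upperTriangularGL 2 F).comap Matrix.SpecialLinearGroup.toGL) (ths α) g =
      (if (g : Matrix (Fin 2) (Fin 2) F) 1 0 = 0 then
        α ((g : Matrix (Fin 2) (Fin 2) F) 0 0) else 0) +
      ∑ t : F, if -((g : Matrix (Fin 2) (Fin 2) F) 1 0) * t ^ 2 +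
          ((g : Matrix (Fin 2) (Fin 2) F) 0 0 - (g : Matrix (Fin 2) (Fin 2) F) 1 1) * t +
          (g : Matrix (Fin 2) (Fin 2) F) 0 1 = 0 then
        α ((g : Matrix (Fin 2) (Fin 2) F) 1 0 * t + (g : Matrix (Fin 2) (Fin 2) F) 1 1) else 0 := by
  rw [Cfsg.Agent.S2304.ind_transversal _ _ (ths_classFun α) srep srep_bij g, Fintype.sum_option]
  congr 1
  · have e : (srep (none : Option F))⁻¹ * g * srep none = g := by simp [srep]
    rw [e, ext_ths]
  · refine Finset.sum_congr rfl (fun t _ => ?_)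
    obtain ⟨h1, h2⟩ := sconj_entries g t
    show Cfsg.extendByZero _ _ ((sn t)⁻¹ * g * sn t) = _
    rw [ext_ths, h1, h2]
    simp only [neg_eq_zero]

/-- Parametrisation of the upper triangular subgroup. -/
noncomputable def toBS (p : Fˣ × F) :
    ((Cfsg.upperTriangularGL 2 F).comap Matrix.SpecialLinearGroup.toGL) :=
  ⟨smk (p.1 : F) p.2 0 ((p.1⁻¹ : Fˣ) : F) (by simp), (mem_BS _).mpr rfl⟩

theorem toBS00 (p : Fˣ × F) :
    ((toBS p : Matrix.SpecialLinearGroup (Fin 2) F) : Matrix (Fin 2) (Fin 2) F) 0 0 = (p.1 : F) := rfl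
theorem toBS01 (p : Fˣ × F) :
    ((toBS p : Matrix.SpecialLinearGroup (Fin 2) F) : Matrix (Fin 2) (Fin 2) F) 0 1 = p.2 := rfl
theorem toBS10 (p : Fˣ × F) :
    ((toBS p : Matrix.SpecialLinearGroup (Fin 2) F) : Matrix (Fin 2) (Fin 2) F) 1 0 = 0 := rfl
theorem toBS11 (p : Fˣ × F) :
    ((toBS p : Matrix.SpecialLinearGroup (Fin 2) F) : Matrix (Fin 2) (Fin 2) F) 1 1 =
      ((p.1⁻¹ : Fˣ) : F) := rfl

theorem toBS_bij : Function.Bijective
    (toBS : Fˣ × F → ((Cfsg.upperTriangularGL 2 F).comap Matrix.SpecialLinearGroup.toGL)) := by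
  constructor
  · rintro ⟨a, b⟩ ⟨a', b'⟩ h
    have h00 := congrArg (fun x : ((Cfsg.upperTriangularGL 2 F).comap Matrix.SpecialLinearGroup.toGL) =>
      ((x : Matrix.SpecialLinearGroup (Fin 2) F) : Matrix (Fin 2) (Fin 2) F) 0 0) h
    have h01 := congrArg (fun x : ((Cfsg.upperTriangularGL 2 F).comap Matrix.SpecialLinearGroup.toGL) =>
      ((x : Matrix.SpecialLinearGroup (Fin 2) F) : Matrix (Fin 2) (Fin 2) F) 0 1) h
    simp only [toBS00, toBS01] at h00 h01
    rw [Units.ext h00, h01]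
  · intro b
    refine ⟨(Units.mk0 _ (BS00_ne b),
      ((b : Matrix.SpecialLinearGroup (Fin 2) F) : Matrix (Fin 2) (Fin 2) F) 0 1), ?_⟩
    apply Subtype.ext
    apply sl2_ext
    · rfl
    · rfl
    · exact ((mem_BS _).mp b.2).symm
    · rw [toBS11]
      have h := sdet (b : Matrix.SpecialLinearGroup (Fin 2) F)
      rw [(mem_BS _).mp b.2, mul_zero, sub_zero] at h
      rw [Units.val_inv_eq_inv_val, Units.val_mk0]
      exact (eq_inv_of_mul_eq_one_right h).symm

theorem card_BS : (Nat.card ((Cfsg.upperTriangularGL 2 F).comap Matrix.SpecialLinearGroup.toGL) : ℂ) =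
    ((Fintype.card F : ℂ) - 1) * (Fintype.card F : ℂ) := by
  rw [← Nat.card_congr (Equiv.ofBijective _ (toBS_bij (F := F))), Nat.card_prod,
    Nat.cast_mul, Cfsg.Agent.S2304.card_units_cast, Nat.card_eq_fintype_card]

/-- The inner product of two principal series functions of `SL₂`. -/
theorem sinner_ind (α β : MulChar F ℂ) :
    Cfsg.classInner
      (Cfsg.indFun ((Cfsg.upperTriangularGL 2 F).comap Matrix.SpecialLinearGroup.toGL) (ths α))
      (Cfsg.indFun ((Cfsg.upperTriangularGL 2 F).comap Matrix.SpecialLinearGroup.toGL) (ths β)) =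
      (if α = β then 1 else 0) + (if α = β⁻¹ then 1 else 0) := by
  haveI : Fintype ((Cfsg.upperTriangularGL 2 F).comap Matrix.SpecialLinearGroup.toGL) :=
    Fintype.ofFinite _
  rw [Cfsg.Agent.Lib.Helper3.CharInd.frobenius _ (ths α) _
    (Cfsg.Agent.Lib.Helper3.CharInd.indFun_classFun _ (ths β))]
  unfold Cfsg.classInner
  rw [← Fintype.sum_bijective _ (toBS_bij (F := F)) _ _ (fun p => rfl)]
  have hval : ∀ p : Fˣ × F,
      ths α (toBS p) * conj (Cfsg.indFun
        ((Cfsg.upperTriangularGL 2 F).comap Matrix.SpecialLinearGroup.toGL) (ths β)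
        ((toBS p : (Cfsg.upperTriangularGL 2 F).comap Matrix.SpecialLinearGroup.toGL) :
          Matrix.SpecialLinearGroup (Fin 2) F)) =
      α (p.1 : F) * conj (β (p.1 : F)) +
      α (p.1 : F) * conj (β⁻¹ (p.1 : F)) *
        ∑ t : F, (if ((p.1 : F) - ((p.1⁻¹ : Fˣ) : F)) * t + p.2 = 0 then (1 : ℂ) else 0) := by
    intro p
    rw [sind_value]
    simp only [toBS00, toBS01, toBS10, toBS11, if_true, neg_zero, zero_mul, zero_add]
    unfold ths
    simp only [toBS00]
    rw [map_add, map_sum, mul_add]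
    congr 1
    rw [Finset.mul_sum, Finset.mul_sum]
    refine Finset.sum_congr rfl (fun t _ => ?_)
    split_ifs with h
    · rw [mul_one, MulChar.inv_apply', Units.val_inv_eq_inv_val]
    · simp
  rw [Finset.sum_congr rfl (fun p _ => hval p), Fintype.sum_prod_type]
  have h2 : ∀ a : Fˣ, ∑ b : F,
      (α (a : F) * conj (β (a : F)) +
      α (a : F) * conj (β⁻¹ (a : F)) *
        ∑ t : F, (if ((a : F) - ((a⁻¹ : Fˣ) : F)) * t + b = 0 then (1 : ℂ) else 0)) =
      (Fintype.card F : ℂ) * (α (a : F) * conj (β (a : F))) +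
        (Fintype.card F : ℂ) * (α (a : F) * conj (β⁻¹ (a : F))) := by
    intro a
    rw [Finset.sum_add_distrib, Finset.sum_const, Finset.card_univ, nsmul_eq_mul,
      ← Finset.mul_sum, Cfsg.Agent.S2304.sum_bt]
    ring
  rw [Finset.sum_congr rfl (fun a _ => h2 a), Finset.sum_add_distrib, ← Finset.mul_sum,
    ← Finset.mul_sum, Cfsg.Agent.S2304.orth_units, Cfsg.Agent.S2304.orth_units, card_BS]
  have hq : ((Fintype.card F : ℂ) - 1) ≠ 0 := Cfsg.Agent.S2304.card_sub_one_ne
  have hq0 : (Fintype.card F : ℂ) ≠ 0 := by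
    have : 0 < Fintype.card F := Fintype.card_pos
    exact_mod_cast this.ne'
  split_ifs <;> first | (field_simp; ring) | field_simp | simp

end SL2

theorem result {F : Type*} [Field F] [Fintype F] [DecidableEq F] (hodd : Odd (Fintype.card F))
    (α β : MulChar F ℂ) [Decidable (α = β)] [Decidable (α = β⁻¹)] :
    Cfsg.classInner (Cfsg.indFun ((Cfsg.upperTriangularGL 2 F).comap Matrix.SpecialLinearGroup.toGL) (fun b => α (((b : Matrix.SpecialLinearGroup (Fin 2) F) : Matrix (Fin 2) (Fin 2) F) 0 0))) (Cfsg.indFun ((Cfsg.upperTriangularGL 2 F).comap Matrix.SpecialLinearGroup.toGL) (fun b => β (((b : Matrix.SpecialLinearGroup (Fin 2) F) : Matrix (Fin 2) (Fin 2) F) 0 0))) =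
      (if α = β then 1 else 0) + (if α = β⁻¹ then 1 else 0) := by
  have h := sinner_ind α β
  have h2 : Cfsg.classInner (Cfsg.indFun ((Cfsg.upperTriangularGL 2 F).comap Matrix.SpecialLinearGroup.toGL) (fun b => α (((b : Matrix.SpecialLinearGroup (Fin 2) F) : Matrix (Fin 2) (Fin 2) F) 0 0))) (Cfsg.indFun ((Cfsg.upperTriangularGL 2 F).comap Matrix.SpecialLinearGroup.toGL) (fun b => β (((b : Matrix.SpecialLinearGroup (Fin 2) F) : Matrix (Fin 2) (Fin 2) F) 0 0))) =
      Cfsg.classInner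
        (Cfsg.indFun ((Cfsg.upperTriangularGL 2 F).comap Matrix.SpecialLinearGroup.toGL) (ths α))
        (Cfsg.indFun ((Cfsg.upperTriangularGL 2 F).comap Matrix.SpecialLinearGroup.toGL) (ths β)) := rfl
  rw [h2, h]
  congr 1 <;> congr

end Cfsg.Agent.S2432
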