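import Cfsg.Statements.S2323
import Mathlib
import Cfsg.Agent.S2309
import Cfsg.Agent.S2432
import Cfsg.Agent.S2325
import Cfsg.Agent.Lib.Helper3.CharCliff

set_option autoImplicit false
open Cfsg

set_option maxHeartbeats 1000000
namespace Cfsg.Agent.S2323

open scoped ComplexConjugate

section SL2

variable {F : Type*} [Field F] [Fintype F] [DecidableEq F]

/-- Restriction of a function on `GL₂` to `SL₂`. -/
noncomputable def res (φ : Matrix.GeneralLinearGroup (Fin 2) F → ℂ) :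
    Matrix.SpecialLinearGroup (Fin 2) F → ℂ :=
  fun s => φ (Matrix.SpecialLinearGroup.toGL s)

theorem res_apply (φ : Matrix.GeneralLinearGroup (Fin 2) F → ℂ)
    (s : Matrix.SpecialLinearGroup (Fin 2) F) :
    res φ s = φ (Matrix.SpecialLinearGroup.toGL s) := rfl

theorem res_char {φ : Matrix.GeneralLinearGroup (Fin 2) F → ℂ}
    (hφ : Cfsg.IsCharacter (Matrix.GeneralLinearGroup (Fin 2) F) φ) :
    Cfsg.IsCharacter (Matrix.SpecialLinearGroup (Fin 2) F) (res φ) :=
  Cfsg.Agent.Lib.Helper3.CharInd.comp_isCharacter Matrix.SpecialLinearGroup.toGL hφ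

theorem res_add (φ φ' : Matrix.GeneralLinearGroup (Fin 2) F → ℂ) :
    res (φ + φ') = res φ + res φ' := rfl

theorem res_sub (φ φ' : Matrix.GeneralLinearGroup (Fin 2) F → ℂ) :
    res (φ - φ') = res φ - res φ' := rfl

theorem toGL_entry (s : Matrix.SpecialLinearGroup (Fin 2) F) (i j : Fin 2) :
    ((Matrix.SpecialLinearGroup.toGL s : Matrix.GeneralLinearGroup (Fin 2) F) :
      Matrix (Fin 2) (Fin 2) F) i j = (s : Matrix (Fin 2) (Fin 2) F) i j := rfl

theorem toGL_val (s : Matrix.SpecialLinearGroup (Fin 2) F) :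
    ((Matrix.SpecialLinearGroup.toGL s : Matrix.GeneralLinearGroup (Fin 2) F) :
      Matrix (Fin 2) (Fin 2) F) = (s : Matrix (Fin 2) (Fin 2) F) := rfl

theorem sum_det_one (Φ : Matrix.GeneralLinearGroup (Fin 2) F → ℂ) :
    ∑ g : Matrix.GeneralLinearGroup (Fin 2) F,
      (if (g : Matrix (Fin 2) (Fin 2) F).det = 1 then Φ g else 0) =
    ∑ s : Matrix.SpecialLinearGroup (Fin 2) F, Φ (Matrix.SpecialLinearGroup.toGL s) := by
  rw [← Finset.sum_filter]
  have h : (Finset.univ.filter (fun g : Matrix.GeneralLinearGroup (Fin 2) F =>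
      (g : Matrix (Fin 2) (Fin 2) F).det = 1)) =
      Finset.univ.image (Matrix.SpecialLinearGroup.toGL :
        Matrix.SpecialLinearGroup (Fin 2) F → Matrix.GeneralLinearGroup (Fin 2) F) := by
    ext g
    simp only [Finset.mem_filter, Finset.mem_univ, true_and, Finset.mem_image]
    constructor
    · intro h
      exact ⟨⟨(g : Matrix (Fin 2) (Fin 2) F), h⟩, Units.ext rfl⟩
    · rintro ⟨s, rfl⟩
      exact s.2
  rw [h, Finset.sum_image (fun a _ b _ hab => Matrix.SpecialLinearGroup.toGL_injective hab)]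

theorem card_SL2_cast : (Nat.card (Matrix.SpecialLinearGroup (Fin 2) F) : ℂ) =
    (Fintype.card F : ℂ) * ((Fintype.card F : ℂ) ^ 2 - 1) := by
  rw [Cfsg.Agent.S2325.card_SL2, Nat.cast_mul, Nat.cast_sub (Nat.one_le_pow _ _ Fintype.card_pos)]
  push_cast
  ring

theorem card_GL_SL : (Nat.card (Matrix.GeneralLinearGroup (Fin 2) F) : ℂ) =
    ((Fintype.card F : ℂ) - 1) * (Nat.card (Matrix.SpecialLinearGroup (Fin 2) F) : ℂ) := by
  rw [card_SL2_cast, Cfsg.Agent.S2309.card_GL2]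
  ring

theorem card_SL2_ne : (Nat.card (Matrix.SpecialLinearGroup (Fin 2) F) : ℂ) ≠ 0 := by
  exact_mod_cast Nat.card_pos.ne'

theorem LD_det (lam : MulChar F ℂ) (g : Matrix.GeneralLinearGroup (Fin 2) F) :
    Cfsg.Agent.S2309.LD lam g = lam ((g : Matrix (Fin 2) (Fin 2) F).det) := by
  rw [Cfsg.Agent.S2309.LD_apply, Matrix.det_fin_two]

theorem sum_LD [Fintype (MulChar F ℂ)] (g : Matrix.GeneralLinearGroup (Fin 2) F) :
    ∑ lam : MulChar F ℂ, Cfsg.Agent.S2309.LD lam g =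
      if (g : Matrix (Fin 2) (Fin 2) F).det = 1 then ((Fintype.card F : ℂ) - 1) else 0 := by
  simp only [LD_det]
  split_ifs with h
  · rw [h]
    simp only [map_one, Finset.sum_const, Finset.card_univ, nsmul_eq_mul, mul_one]
    exact Cfsg.Agent.S2309.card_mulChar
  · exact Cfsg.Agent.S2309.dual_orth h

/-- The inner product of restrictions as a sum over twists. -/
theorem res_inner [Fintype (MulChar F ℂ)] (f₁ f₂ : Matrix.GeneralLinearGroup (Fin 2) F → ℂ) :
    Cfsg.classInner (res f₁) (res f₂) =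
      ∑ lam : MulChar F ℂ, Cfsg.classInner (f₁ * Cfsg.Agent.S2309.LD lam) f₂ := by
  unfold Cfsg.classInner
  rw [← Finset.mul_sum, Finset.sum_comm]
  have h1 : ∀ g : Matrix.GeneralLinearGroup (Fin 2) F,
      ∑ lam : MulChar F ℂ, (f₁ * Cfsg.Agent.S2309.LD lam) g * conj (f₂ g) =
      ((Fintype.card F : ℂ) - 1) *
        (if (g : Matrix (Fin 2) (Fin 2) F).det = 1 then f₁ g * conj (f₂ g) else 0) := by
    intro g
    have h2 : ∀ lam : MulChar F ℂ, (f₁ * Cfsg.Agent.S2309.LD lam) g * conj (f₂ g) =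
        (f₁ g * conj (f₂ g)) * Cfsg.Agent.S2309.LD lam g := by
      intro lam
      rw [Pi.mul_apply]
      ring
    rw [Finset.sum_congr rfl (fun lam _ => h2 lam), ← Finset.mul_sum, sum_LD]
    split_ifs <;> ring
  rw [Finset.sum_congr rfl (fun g _ => h1 g), ← Finset.mul_sum, sum_det_one, card_GL_SL]
  have hq : ((Fintype.card F : ℂ) - 1) ≠ 0 := Cfsg.Agent.S2304.card_sub_one_ne
  have hS := card_SL2_ne (F := F)
  simp only [res_apply]
  field_simp

/-- The principal series function of `SL₂`. -/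
noncomputable def RS (γ : MulChar F ℂ) : Matrix.SpecialLinearGroup (Fin 2) F → ℂ :=
  Cfsg.indFun ((Cfsg.upperTriangularGL 2 F).comap Matrix.SpecialLinearGroup.toGL)
    (Cfsg.Agent.S2432.ths γ)

theorem RS_def (γ : MulChar F ℂ) :
    RS γ = Cfsg.indFun ((Cfsg.upperTriangularGL 2 F).comap Matrix.SpecialLinearGroup.toGL)
      (Cfsg.Agent.S2432.ths γ) := rfl

theorem RS_value (γ : MulChar F ℂ) (g : Matrix.SpecialLinearGroup (Fin 2) F) :
    RS γ g =
      (if (g : Matrix (Fin 2) (Fin 2) F) 1 0 = 0 then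
        γ ((g : Matrix (Fin 2) (Fin 2) F) 0 0) else 0) +
      ∑ t : F, if -((g : Matrix (Fin 2) (Fin 2) F) 1 0) * t ^ 2 +
          ((g : Matrix (Fin 2) (Fin 2) F) 0 0 - (g : Matrix (Fin 2) (Fin 2) F) 1 1) * t +
          (g : Matrix (Fin 2) (Fin 2) F) 0 1 = 0 then
        γ ((g : Matrix (Fin 2) (Fin 2) F) 1 0 * t + (g : Matrix (Fin 2) (Fin 2) F) 1 1) else 0 :=
  Cfsg.Agent.S2432.sind_value γ g

theorem RS_char (γ : MulChar F ℂ) :
    Cfsg.IsCharacter (Matrix.SpecialLinearGroup (Fin 2) F) (RS γ) :=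
  Cfsg.Agent.S2432.sind_char γ

theorem RS_inner (α β : MulChar F ℂ) :
    Cfsg.classInner (RS α) (RS β) = (if α = β then 1 else 0) + (if α = β⁻¹ then 1 else 0) :=
  Cfsg.Agent.S2432.sinner_ind α β

theorem res_LD (lam : MulChar F ℂ) :
    res (Cfsg.Agent.S2309.LD lam) = fun _ => 1 := by
  funext s
  rw [res_apply, LD_det, toGL_val, s.2, map_one]

theorem res_PS (α β : MulChar F ℂ) : res (Cfsg.Agent.S2309.PS α β) = RS (α * β⁻¹) := by
  funext s
  have h0 : Cfsg.Agent.S2309.PS α β (Matrix.SpecialLinearGroup.toGL s) =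
      (if (s : Matrix (Fin 2) (Fin 2) F) 1 0 = 0 then
        α ((s : Matrix (Fin 2) (Fin 2) F) 0 0) * β ((s : Matrix (Fin 2) (Fin 2) F) 1 1) else 0) +
      ∑ t : F, if -((s : Matrix (Fin 2) (Fin 2) F) 1 0) * t ^ 2 +
          ((s : Matrix (Fin 2) (Fin 2) F) 0 0 - (s : Matrix (Fin 2) (Fin 2) F) 1 1) * t +
          (s : Matrix (Fin 2) (Fin 2) F) 0 1 = 0 then
        α ((s : Matrix (Fin 2) (Fin 2) F) 1 0 * t + (s : Matrix (Fin 2) (Fin 2) F) 1 1) *
          β ((s : Matrix (Fin 2) (Fin 2) F) 0 0 - t * (s : Matrix (Fin 2) (Fin 2) F) 1 0) else 0 :=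
    Cfsg.Agent.S2309.PS_value α β (Matrix.SpecialLinearGroup.toGL s)
  rw [res_apply, h0, RS_value]
  have hdet := Cfsg.Agent.S2432.sdet s
  congr 1
  · by_cases hc : (s : Matrix (Fin 2) (Fin 2) F) 1 0 = 0
    · rw [if_pos hc, if_pos hc]
      rw [hc, mul_zero, sub_zero] at hdet
      rw [MulChar.mul_apply, MulChar.inv_apply', ← eq_inv_of_mul_eq_one_right hdet]
    · rw [if_neg hc, if_neg hc]
  · refine Finset.sum_congr rfl (fun t _ => ?_)
    by_cases hP : -((s : Matrix (Fin 2) (Fin 2) F) 1 0) * t ^ 2 +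
          ((s : Matrix (Fin 2) (Fin 2) F) 0 0 - (s : Matrix (Fin 2) (Fin 2) F) 1 1) * t +
          (s : Matrix (Fin 2) (Fin 2) F) 0 1 = 0
    · rw [if_pos hP, if_pos hP]
      have h1 : ((s : Matrix (Fin 2) (Fin 2) F) 1 0 * t + (s : Matrix (Fin 2) (Fin 2) F) 1 1) *
          ((s : Matrix (Fin 2) (Fin 2) F) 0 0 - t * (s : Matrix (Fin 2) (Fin 2) F) 1 0) = 1 := by
        linear_combination hdet + (s : Matrix (Fin 2) (Fin 2) F) 1 0 * hP
      rw [MulChar.mul_apply, MulChar.inv_apply', ← eq_inv_of_mul_eq_one_right h1]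
    · rw [if_neg hP, if_neg hP]

theorem res_St (lam : MulChar F ℂ) :
    res (Cfsg.Agent.S2309.St lam) = RS 1 - fun _ => 1 := by
  rw [Cfsg.Agent.S2309.St_def, res_sub, res_PS, res_LD, mul_inv_cancel]

end SL2

section General

/-- A character of norm 2 is the sum of two distinct irreducible characters. -/
theorem norm_two_decomp {G : Type*} [Group G] [Fintype G] {φ : G → ℂ}
    (hφ : Cfsg.IsCharacter G φ) (h : Cfsg.classInner φ φ = 2) :
    ∃ ψ₁ ψ₂ : G → ℂ, Cfsg.IsIrrCharacter G ψ₁ ∧ Cfsg.IsIrrCharacter G ψ₂ ∧ ψ₁ ≠ ψ₂ ∧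
      φ = ψ₁ + ψ₂ := by
  obtain ⟨l, hl, rfl⟩ := Cfsg.Agent.Lib.Helper3.CharCore.isCharacter_decomp hφ
  match l, hl, h with
  | [], _, h =>
    rw [List.sum_nil, Cfsg.Agent.Lib.Helper3.Char.classInner_zero_left] at h
    norm_num at h
  | [a], hl, h =>
    rw [List.sum_singleton, Cfsg.Agent.Lib.Helper3.Char.irr_inner_self (hl a (by simp))] at h
    norm_num at h
  | [a, b], hl, h =>
    have ha := hl a (by simp)
    have hb := hl b (by simp)
    refine ⟨a, b, ha, hb, ?_, by simp⟩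
    rintro rfl
    have e : [a, a].sum = a + a := by simp
    rw [e, Cfsg.Agent.Lib.Helper3.Char.classInner_add_left,
      Cfsg.Agent.Lib.Helper3.Char.classInner_add_right,
      Cfsg.Agent.Lib.Helper3.Char.irr_inner_self ha] at h
    norm_num at h
  | a :: b :: c :: l', hl, h =>
    exfalso
    have hchar : Cfsg.IsCharacter G (a :: b :: c :: l').sum :=
      Cfsg.Agent.Lib.Helper3.CharArith.isCharacter_list_sum _
        (fun ψ hψ => Cfsg.Agent.Lib.Helper3.Char.isCharacter_of_irr (hl ψ hψ))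
    obtain ⟨ma, hma, hma'⟩ := Cfsg.Agent.Lib.Helper3.CharStab.inner_list_sum (hl a (by simp))
      (a :: b :: c :: l') hl
    obtain ⟨mb, hmb, hmb'⟩ := Cfsg.Agent.Lib.Helper3.CharStab.inner_list_sum (hl b (by simp))
      (a :: b :: c :: l') hl
    obtain ⟨mc, hmc, hmc'⟩ := Cfsg.Agent.Lib.Helper3.CharStab.inner_list_sum (hl c (by simp))
      (a :: b :: c :: l') hl
    have hl' : Cfsg.IsCharacter G l'.sum :=
      Cfsg.Agent.Lib.Helper3.CharArith.isCharacter_list_sum _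
        (fun ψ hψ => Cfsg.Agent.Lib.Helper3.Char.isCharacter_of_irr (hl ψ (by simp [hψ])))
    obtain ⟨k, hk⟩ := Cfsg.Agent.Lib.Helper3.CharArith.inner_char_nat hl' hchar
    have e : (a :: b :: c :: l').sum = a + (b + (c + l'.sum)) := by simp
    have h2 : Cfsg.classInner (a :: b :: c :: l').sum (a :: b :: c :: l').sum =
        (ma : ℂ) + ((mb : ℂ) + ((mc : ℂ) + (k : ℂ))) := by
      conv_lhs => rw [e]
      rw [Cfsg.Agent.Lib.Helper3.Char.classInner_add_left,
        Cfsg.Agent.Lib.Helper3.Char.classInner_add_left,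
        Cfsg.Agent.Lib.Helper3.Char.classInner_add_left, ← e, hma, hmb, hmc, hk]
    rw [h2] at h
    have h3 : ma + (mb + (mc + k)) = 2 := by exact_mod_cast h
    have := hma' (by simp)
    have := hmb' (by simp)
    have := hmc' (by simp)
    omega

theorem eq_of_constituent_deg {G : Type*} [Group G] [Fintype G] {A ψ : G → ℂ}
    (hA : Cfsg.IsCharacter G A) (hψ : Cfsg.IsIrrCharacter G ψ)
    (h : Cfsg.classInner A ψ ≠ 0) (hdeg : A 1 = ψ 1) : A = ψ := by
  have h1 := Cfsg.Agent.Lib.Helper3.CharCliff.sub_isCharacter hA hψ h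
  have h2 : (A - ψ) 1 = 0 := by
    rw [Pi.sub_apply, hdeg, sub_self]
  have h3 := Cfsg.Agent.Lib.Helper3.CharCliff.eq_zero_of_deg_zero h1 h2
  exact sub_eq_zero.mp h3

/-- Values at central elements have the absolute value of the degree. -/
theorem central_norm {G : Type*} [Group G] [Fintype G] (z : G) (hz : ∀ y : G, y * z * y⁻¹ = z)
    (χ : G → ℂ) (hχ : Cfsg.IsIrrCharacter G χ) : χ z * conj (χ z) = χ 1 * conj (χ 1) := by
  classical
  haveI : Fintype (Cfsg.IrrCharacter G) := Fintype.ofFinite _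
  have h1 := Cfsg.Agent.Lib.Helper3.CharTable.column_orth (G := G) z z
  have h2 := Cfsg.Agent.Lib.Helper3.CharTable.column_orth (G := G) 1 1
  have e1 : Nat.card {y : G // y * z * y⁻¹ = z} = Nat.card G :=
    Nat.card_congr (Equiv.subtypeUnivEquiv (fun y => hz y))
  have e2 : Nat.card {y : G // y * 1 * y⁻¹ = 1} = Nat.card G :=
    Nat.card_congr (Equiv.subtypeUnivEquiv (fun y => by simp))
  rw [e1] at h1
  rw [e2] at h2
  have hsum : ∑ η : Cfsg.IrrCharacter G, (if True then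
      ((Complex.normSq ((η : G → ℂ) 1) - Complex.normSq ((η : G → ℂ) z) : ℝ) : ℂ) else 0) = 0 := by
    have h3 : ∀ η : Cfsg.IrrCharacter G, (if True then
        ((Complex.normSq ((η : G → ℂ) 1) - Complex.normSq ((η : G → ℂ) z) : ℝ) : ℂ) else 0) =
        (η : G → ℂ) 1 * conj ((η : G → ℂ) 1) - (η : G → ℂ) z * conj ((η : G → ℂ) z) := by
      intro η
      rw [if_pos trivial, Complex.mul_conj, Complex.mul_conj]
      push_cast
      ring
    rw [Finset.sum_congr rfl (fun η _ => h3 η), Finset.sum_sub_distrib, h1, h2, sub_self]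
  have hnn : ∀ η : Cfsg.IrrCharacter G, True →
      0 ≤ Complex.normSq ((η : G → ℂ) 1) - Complex.normSq ((η : G → ℂ) z) := by
    intro η _
    obtain ⟨n, hn, hle⟩ := Cfsg.Agent.Lib.Helper3.Char.char_one
      (Cfsg.Agent.Lib.Helper3.Char.isCharacter_of_irr η.2)
    have h4 := hle z
    rw [hn, Complex.normSq_natCast, Complex.normSq_eq_norm_sq]
    have h5 : 0 ≤ ‖(η : G → ℂ) z‖ := norm_nonneg _
    nlinarith
  have h6 := Cfsg.Agent.S2309.sum_real_zero (fun _ : Cfsg.IrrCharacter G => True)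
    (fun η => Complex.normSq ((η : G → ℂ) 1) - Complex.normSq ((η : G → ℂ) z)) hnn
    (by convert hsum) ⟨χ, hχ⟩ trivial
  rw [Complex.mul_conj, Complex.mul_conj]
  have h7 : Complex.normSq (χ z) = Complex.normSq (χ 1) := by linarith
  rw [h7]

end General

section SL2b

variable {F : Type*} [Field F] [Fintype F] [DecidableEq F]

/-- Every irreducible character of `SL₂` lies under an irreducible character of `GL₂`. -/
theorem exists_over (ψ : Matrix.SpecialLinearGroup (Fin 2) F → ℂ)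
    (hψ : Cfsg.IsIrrCharacter (Matrix.SpecialLinearGroup (Fin 2) F) ψ) :
    ∃ χ : Matrix.GeneralLinearGroup (Fin 2) F → ℂ,
      Cfsg.IsIrrCharacter (Matrix.GeneralLinearGroup (Fin 2) F) χ ∧
      Cfsg.classInner (res χ) ψ ≠ 0 := by
  classical
  haveI : Fintype (Cfsg.IrrCharacter (Matrix.GeneralLinearGroup (Fin 2) F)) := Fintype.ofFinite _
  by_contra hcon
  have hcon' : ∀ χ : Matrix.GeneralLinearGroup (Fin 2) F → ℂ,
      Cfsg.IsIrrCharacter (Matrix.GeneralLinearGroup (Fin 2) F) χ →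
      Cfsg.classInner (res χ) ψ = 0 := by
    intro χ hχ
    by_contra h
    exact hcon ⟨χ, hχ, h⟩
  have h1 : ∑ χ : Cfsg.IrrCharacter (Matrix.GeneralLinearGroup (Fin 2) F),
      conj ((χ : Matrix.GeneralLinearGroup (Fin 2) F → ℂ) 1) *
        Cfsg.classInner (res (χ : Matrix.GeneralLinearGroup (Fin 2) F → ℂ)) ψ = 0 :=
    Finset.sum_eq_zero (fun χ _ => by rw [hcon' χ.1 χ.2, mul_zero])
  have h2 : ∑ χ : Cfsg.IrrCharacter (Matrix.GeneralLinearGroup (Fin 2) F),
      conj ((χ : Matrix.GeneralLinearGroup (Fin 2) F → ℂ) 1) *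
        Cfsg.classInner (res (χ : Matrix.GeneralLinearGroup (Fin 2) F → ℂ)) ψ =
      (Nat.card (Matrix.SpecialLinearGroup (Fin 2) F) : ℂ)⁻¹ *
        ((Nat.card (Matrix.GeneralLinearGroup (Fin 2) F) : ℂ) * conj (ψ 1)) := by
    unfold Cfsg.classInner
    have h3 : ∀ χ : Cfsg.IrrCharacter (Matrix.GeneralLinearGroup (Fin 2) F),
        conj ((χ : Matrix.GeneralLinearGroup (Fin 2) F → ℂ) 1) *
          ((Nat.card (Matrix.SpecialLinearGroup (Fin 2) F) : ℂ)⁻¹ *
            ∑ s : Matrix.SpecialLinearGroup (Fin 2) F,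
              res (χ : Matrix.GeneralLinearGroup (Fin 2) F → ℂ) s * conj (ψ s)) =
        (Nat.card (Matrix.SpecialLinearGroup (Fin 2) F) : ℂ)⁻¹ *
          ∑ s : Matrix.SpecialLinearGroup (Fin 2) F,
            ((χ : Matrix.GeneralLinearGroup (Fin 2) F → ℂ) (Matrix.SpecialLinearGroup.toGL s) *
              conj ((χ : Matrix.GeneralLinearGroup (Fin 2) F → ℂ) 1)) * conj (ψ s) := by
      intro χ
      rw [Finset.mul_sum, Finset.mul_sum, Finset.mul_sum]
      refine Finset.sum_congr rfl (fun s _ => ?_)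
      rw [res_apply]
      ring
    rw [Finset.sum_congr rfl (fun χ _ => h3 χ), ← Finset.mul_sum, Finset.sum_comm]
    congr 1
    have h4 : ∀ s : Matrix.SpecialLinearGroup (Fin 2) F,
        ∑ χ : Cfsg.IrrCharacter (Matrix.GeneralLinearGroup (Fin 2) F),
          ((χ : Matrix.GeneralLinearGroup (Fin 2) F → ℂ) (Matrix.SpecialLinearGroup.toGL s) *
            conj ((χ : Matrix.GeneralLinearGroup (Fin 2) F → ℂ) 1)) * conj (ψ s) =
        (if s = 1 then (Nat.card (Matrix.GeneralLinearGroup (Fin 2) F) : ℂ) * conj (ψ 1) else 0) := by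
      intro s
      rw [← Finset.sum_mul, Cfsg.Agent.Lib.Helper3.CharTable.column_orth
        (Matrix.SpecialLinearGroup.toGL s) 1]
      split_ifs with hs
      · subst hs
        rw [map_one]
        congr 2
        exact Nat.card_congr (Equiv.subtypeUnivEquiv (fun y => by simp))
      · have hemp : IsEmpty {y : Matrix.GeneralLinearGroup (Fin 2) F //
            y * Matrix.SpecialLinearGroup.toGL s * y⁻¹ = 1} :=
          ⟨fun ⟨y, hy⟩ => hs (by
            have h5 : Matrix.SpecialLinearGroup.toGL s =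
                y⁻¹ * (y * Matrix.SpecialLinearGroup.toGL s * y⁻¹) * y := by group
            rw [hy] at h5
            have h6 : Matrix.SpecialLinearGroup.toGL s = 1 := by simpa using h5
            exact Matrix.SpecialLinearGroup.toGL_injective (by rw [h6, map_one]))⟩
        rw [Nat.card_of_isEmpty]
        simp
    rw [Finset.sum_congr rfl (fun s _ => h4 s)]
    simp
  rw [h1] at h2
  have hψ1 : ψ 1 ≠ 0 := Cfsg.Agent.Lib.Helper3.Char.irr_one_ne_zero hψ
  have hS := card_SL2_ne (F := F)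
  have hG : (Nat.card (Matrix.GeneralLinearGroup (Fin 2) F) : ℂ) ≠ 0 := by
    exact_mod_cast Nat.card_pos.ne'
  have hc : conj (ψ 1) ≠ 0 := by
    intro h
    apply hψ1
    simpa using h
  exact (mul_ne_zero (inv_ne_zero hS) (mul_ne_zero hG hc)) h2.symm

theorem GL_det_ne (g : Matrix.GeneralLinearGroup (Fin 2) F) :
    (g : Matrix (Fin 2) (Fin 2) F).det ≠ 0 :=
  ((Matrix.isUnit_iff_isUnit_det _).mp (Units.isUnit g)).ne_zero

theorem twist_irr (χ : Matrix.GeneralLinearGroup (Fin 2) F → ℂ)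
    (hχ : Cfsg.IsIrrCharacter (Matrix.GeneralLinearGroup (Fin 2) F) χ) (lam : MulChar F ℂ) :
    Cfsg.IsIrrCharacter (Matrix.GeneralLinearGroup (Fin 2) F) (χ * Cfsg.Agent.S2309.LD lam) := by
  apply Cfsg.Agent.Lib.Helper3.CharArith.isIrr_of_inner_self
    (Cfsg.Agent.Lib.Helper3.CharArith.isCharacter_mul
      (Cfsg.Agent.Lib.Helper3.Char.isCharacter_of_irr hχ)
      (Cfsg.Agent.Lib.Helper3.Char.isCharacter_of_irr (Cfsg.Agent.S2309.LD_irr lam)))
  have h := Cfsg.Agent.Lib.Helper3.Char.irr_inner_self hχ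
  unfold Cfsg.classInner at h ⊢
  rw [← h]
  congr 1
  refine Finset.sum_congr rfl (fun g _ => ?_)
  rw [Pi.mul_apply, map_mul, LD_det]
  have h1 := Cfsg.Agent.S2309.mc_norm lam (GL_det_ne g)
  linear_combination (χ g * conj (χ g)) * h1

theorem LD_one_char : Cfsg.Agent.S2309.LD (1 : MulChar F ℂ) = fun _ => 1 := by
  funext g
  rw [LD_det]
  exact MulChar.one_apply (IsUnit.mk0 _ (GL_det_ne g))

theorem twist_eq_sq (χ : Matrix.GeneralLinearGroup (Fin 2) F → ℂ)
    (hχ : Cfsg.IsIrrCharacter (Matrix.GeneralLinearGroup (Fin 2) F) χ) (lam : MulChar F ℂ)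
    (h : χ * Cfsg.Agent.S2309.LD lam = χ) : lam * lam = 1 := by
  apply MulChar.ext
  intro a
  have hz : χ (Cfsg.Agent.S2309.scal a) ≠ 0 := by
    intro h0
    have h1 := central_norm (Cfsg.Agent.S2309.scal a)
      (fun y => Cfsg.Agent.S2309.scal_central a y) χ hχ
    rw [h0, zero_mul] at h1
    have h2 := Cfsg.Agent.Lib.Helper3.Char.irr_one_ne_zero hχ
    rcases mul_eq_zero.mp h1.symm with h3 | h3
    · exact h2 h3
    · apply h2
      simpa using h3
  have h1 := congrFun h (Cfsg.Agent.S2309.scal a)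
  obtain ⟨e00, e01, e10, e11⟩ := Cfsg.Agent.S2309.scal_entries a
  rw [Pi.mul_apply, Cfsg.Agent.S2309.LD_apply, e00, e01, e10, e11, mul_zero, sub_zero] at h1
  have h2 : lam ((a : F) * (a : F)) = 1 := by
    have h3 : χ (Cfsg.Agent.S2309.scal a) * (lam ((a : F) * (a : F)) - 1) = 0 := by
      linear_combination h1
    rcases mul_eq_zero.mp h3 with h4 | h4
    · exact absurd h4 hz
    · exact sub_eq_zero.mp h4
  rw [MulChar.mul_apply, ← map_mul, h2, MulChar.one_apply_coe]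

theorem mulChar_eq_of_gen (ω : Fˣ) (hω : ∀ a : Fˣ, a ∈ Subgroup.zpowers ω)
    (lam lam' : MulChar F ℂ) (h : lam (ω : F) = lam' (ω : F)) : lam = lam' := by
  apply MulChar.ext
  intro a
  obtain ⟨k, rfl⟩ := Subgroup.mem_zpowers_iff.mp (hω a)
  have h1 : MulChar.toUnitHom lam ω = MulChar.toUnitHom lam' ω := by
    apply Units.ext
    rw [MulChar.coe_toUnitHom, MulChar.coe_toUnitHom, h]
  have h2 : MulChar.toUnitHom lam (ω ^ k) = MulChar.toUnitHom lam' (ω ^ k) := by
    rw [map_zpow, map_zpow, h1]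
  have h3 := congrArg (fun x : ℂˣ => (x : ℂ)) h2
  simp only [MulChar.coe_toUnitHom] at h3
  exact h3

theorem card_sq_one [Fintype (MulChar F ℂ)] :
    (Finset.univ.filter (fun lam : MulChar F ℂ => lam * lam = 1)).card ≤ 2 := by
  obtain ⟨ω, hω⟩ := IsCyclic.exists_generator (α := Fˣ)
  have h1 : (Finset.univ.filter (fun lam : MulChar F ℂ => lam * lam = 1)).card ≤
      ({1, -1} : Finset ℂ).card := by
    apply Finset.card_le_card_of_injOn (fun lam : MulChar F ℂ => lam (ω : F))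
    · intro lam hlam
      rw [Finset.coe_filter] at hlam
      have h2 : lam * lam = 1 := hlam.2
      have h3 : lam (ω : F) * lam (ω : F) = 1 := by
        rw [← MulChar.mul_apply, h2, MulChar.one_apply_coe]
      rcases mul_self_eq_one_iff.mp h3 with h4 | h4
      · simp [h4]
      · simp [h4]
    · intro lam _ lam' _ h
      exact mulChar_eq_of_gen ω hω lam lam' h
  refine h1.trans ?_
  exact Finset.card_le_two

theorem sq_one_even (he : Even (Fintype.card F)) (lam : MulChar F ℂ) (h : lam * lam = 1) :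
    lam = 1 := by
  obtain ⟨ω, hω⟩ := IsCyclic.exists_generator (α := Fˣ)
  apply mulChar_eq_of_gen ω hω
  rw [MulChar.one_apply_coe]
  have h3 : lam (ω : F) * lam (ω : F) = 1 := by
    rw [← MulChar.mul_apply, h, MulChar.one_apply_coe]
  rcases mul_self_eq_one_iff.mp h3 with h4 | h4
  · exact h4
  · exfalso
    have h5 : lam (ω : F) ^ (Fintype.card F - 1) = 1 := by
      rw [← map_pow, ← Units.val_pow_eq_pow_val, ← Fintype.card_units, pow_card_eq_one,
        Units.val_one, map_one]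
    rw [h4] at h5
    have hodd : Odd (Fintype.card F - 1) := by
      have := Fintype.card_pos (α := F)
      obtain ⟨k, hk⟩ := he
      exact ⟨k - 1, by omega⟩
    rw [hodd.neg_one_pow] at h5
    norm_num at h5

theorem res_norm [Fintype (MulChar F ℂ)] (χ : Matrix.GeneralLinearGroup (Fin 2) F → ℂ)
    (hχ : Cfsg.IsIrrCharacter (Matrix.GeneralLinearGroup (Fin 2) F) χ) :
    ∃ t : ℕ, Cfsg.classInner (res χ) (res χ) = (t : ℂ) ∧ 1 ≤ t ∧ t ≤ 2 ∧
      (Even (Fintype.card F) → t = 1) := by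
  classical
  rw [res_inner]
  have hpos : 0 < (Finset.univ.filter (fun lam : MulChar F ℂ =>
      χ * Cfsg.Agent.S2309.LD lam = χ)).card := by
    apply Finset.card_pos.mpr
    refine ⟨1, ?_⟩
    rw [Finset.mem_filter]
    refine ⟨Finset.mem_univ _, ?_⟩
    rw [LD_one_char]
    funext g
    simp
  refine ⟨(Finset.univ.filter (fun lam : MulChar F ℂ =>
      χ * Cfsg.Agent.S2309.LD lam = χ)).card, ?_, hpos, ?_, ?_⟩
  · rw [Finset.card_filter, Nat.cast_sum]
    refine Finset.sum_congr rfl (fun lam _ => ?_)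
    by_cases h : χ * Cfsg.Agent.S2309.LD lam = χ
    · rw [if_pos h, h, Cfsg.Agent.Lib.Helper3.Char.irr_inner_self hχ]
      simp
    · rw [if_neg h, Cfsg.Agent.Lib.Helper3.Char.irr_inner_ne (twist_irr χ hχ lam) hχ h]
      simp
  · refine le_trans (Finset.card_le_card ?_) (card_sq_one (F := F))
    intro lam hl
    rw [Finset.mem_filter] at hl ⊢
    exact ⟨Finset.mem_univ _, twist_eq_sq χ hχ lam hl.2⟩
  · intro he
    apply le_antisymm _ hpos
    have h1 : (Finset.univ.filter (fun lam : MulChar F ℂ =>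
        χ * Cfsg.Agent.S2309.LD lam = χ)) ⊆ {1} := by
      intro lam hl
      rw [Finset.mem_filter] at hl
      rw [Finset.mem_singleton]
      exact sq_one_even he lam (twist_eq_sq χ hχ lam hl.2)
    exact le_trans (Finset.card_le_card h1) (by simp)

/-- Conjugation by an element of `GL₂` on `SL₂`. -/
noncomputable def cjS (x : Matrix.GeneralLinearGroup (Fin 2) F) :
    Matrix.SpecialLinearGroup (Fin 2) F →* Matrix.SpecialLinearGroup (Fin 2) F where
  toFun s := ⟨(x : Matrix (Fin 2) (Fin 2) F) * (s : Matrix (Fin 2) (Fin 2) F) *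
    ((x⁻¹ : Matrix.GeneralLinearGroup (Fin 2) F) : Matrix (Fin 2) (Fin 2) F), by
      rw [Matrix.det_units_conj]
      exact s.2⟩
  map_one' := by
    apply Subtype.ext
    show (x : Matrix (Fin 2) (Fin 2) F) * (1 : Matrix (Fin 2) (Fin 2) F) *
      ((x⁻¹ : Matrix.GeneralLinearGroup (Fin 2) F) : Matrix (Fin 2) (Fin 2) F) = 1
    rw [mul_one, Units.mul_inv]
  map_mul' a b := by
    apply Subtype.ext
    show (x : Matrix (Fin 2) (Fin 2) F) * ((a : Matrix (Fin 2) (Fin 2) F) *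
        (b : Matrix (Fin 2) (Fin 2) F)) *
      ((x⁻¹ : Matrix.GeneralLinearGroup (Fin 2) F) : Matrix (Fin 2) (Fin 2) F) =
      ((x : Matrix (Fin 2) (Fin 2) F) * (a : Matrix (Fin 2) (Fin 2) F) *
        ((x⁻¹ : Matrix.GeneralLinearGroup (Fin 2) F) : Matrix (Fin 2) (Fin 2) F)) *
      ((x : Matrix (Fin 2) (Fin 2) F) * (b : Matrix (Fin 2) (Fin 2) F) *
        ((x⁻¹ : Matrix.GeneralLinearGroup (Fin 2) F) : Matrix (Fin 2) (Fin 2) F))
    have h : ((x⁻¹ : Matrix.GeneralLinearGroup (Fin 2) F) : Matrix (Fin 2) (Fin 2) F) *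
        (x : Matrix (Fin 2) (Fin 2) F) = 1 := Units.inv_mul x
    symm
    calc ((x : Matrix (Fin 2) (Fin 2) F) * (a : Matrix (Fin 2) (Fin 2) F) *
        ((x⁻¹ : Matrix.GeneralLinearGroup (Fin 2) F) : Matrix (Fin 2) (Fin 2) F)) *
      ((x : Matrix (Fin 2) (Fin 2) F) * (b : Matrix (Fin 2) (Fin 2) F) *
        ((x⁻¹ : Matrix.GeneralLinearGroup (Fin 2) F) : Matrix (Fin 2) (Fin 2) F))
        = (x : Matrix (Fin 2) (Fin 2) F) * (a : Matrix (Fin 2) (Fin 2) F) *
          (((x⁻¹ : Matrix.GeneralLinearGroup (Fin 2) F) : Matrix (Fin 2) (Fin 2) F) *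
            (x : Matrix (Fin 2) (Fin 2) F)) * (b : Matrix (Fin 2) (Fin 2) F) *
          ((x⁻¹ : Matrix.GeneralLinearGroup (Fin 2) F) : Matrix (Fin 2) (Fin 2) F) := by
            simp only [mul_assoc]
      _ = _ := by
            rw [h, mul_one]
            simp only [mul_assoc]

theorem toGL_cjS (x : Matrix.GeneralLinearGroup (Fin 2) F)
    (s : Matrix.SpecialLinearGroup (Fin 2) F) :
    Matrix.SpecialLinearGroup.toGL (cjS x s) = x * Matrix.SpecialLinearGroup.toGL s * x⁻¹ :=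
  Units.ext rfl

theorem cjS_cjS (x y : Matrix.GeneralLinearGroup (Fin 2) F)
    (s : Matrix.SpecialLinearGroup (Fin 2) F) : cjS x (cjS y s) = cjS (x * y) s := by
  apply Matrix.SpecialLinearGroup.toGL_injective
  rw [toGL_cjS, toGL_cjS, toGL_cjS]
  group

theorem cjS_one (s : Matrix.SpecialLinearGroup (Fin 2) F) : cjS (1 : Matrix.GeneralLinearGroup (Fin 2) F) s = s := by
  apply Matrix.SpecialLinearGroup.toGL_injective
  rw [toGL_cjS]
  group

theorem cjS_toGL (y s : Matrix.SpecialLinearGroup (Fin 2) F) :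
    cjS (Matrix.SpecialLinearGroup.toGL y) s = y * s * y⁻¹ := by
  apply Matrix.SpecialLinearGroup.toGL_injective
  rw [toGL_cjS, map_mul, map_mul, map_inv]

theorem cjS_surj (x : Matrix.GeneralLinearGroup (Fin 2) F) : Function.Surjective (cjS x) := by
  intro s
  refine ⟨cjS x⁻¹ s, ?_⟩
  rw [cjS_cjS, mul_inv_cancel, cjS_one]

theorem cjS_bij (x : Matrix.GeneralLinearGroup (Fin 2) F) : Function.Bijective (cjS x) :=
  ⟨Finite.injective_iff_surjective.mpr (cjS_surj x), cjS_surj x⟩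

theorem cj_irr (ψ : Matrix.SpecialLinearGroup (Fin 2) F → ℂ)
    (hψ : Cfsg.IsIrrCharacter (Matrix.SpecialLinearGroup (Fin 2) F) ψ)
    (x : Matrix.GeneralLinearGroup (Fin 2) F) :
    Cfsg.IsIrrCharacter (Matrix.SpecialLinearGroup (Fin 2) F) (ψ ∘ cjS x) :=
  Cfsg.Agent.Lib.Helper3.CharInd.comp_isIrr (cjS x) (cjS_surj x) hψ

theorem res_cj (χ : Matrix.GeneralLinearGroup (Fin 2) F → ℂ)
    (hχ : Cfsg.IsClassFunction (Matrix.GeneralLinearGroup (Fin 2) F) χ)
    (x : Matrix.GeneralLinearGroup (Fin 2) F) : (res χ) ∘ cjS x = res χ := by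
  funext s
  rw [Function.comp_apply, res_apply, res_apply, toGL_cjS]
  exact hχ _ x

theorem inner_cj (f₁ f₂ : Matrix.SpecialLinearGroup (Fin 2) F → ℂ)
    (x : Matrix.GeneralLinearGroup (Fin 2) F) :
    Cfsg.classInner (f₁ ∘ cjS x) (f₂ ∘ cjS x) = Cfsg.classInner f₁ f₂ := by
  unfold Cfsg.classInner
  congr 1
  exact Fintype.sum_bijective _ (cjS_bij x) _ _ (fun s => rfl)

/-- Extension by zero from `SL₂` to `GL₂`. -/
noncomputable def EZ (f : Matrix.SpecialLinearGroup (Fin 2) F → ℂ) :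
    Matrix.GeneralLinearGroup (Fin 2) F → ℂ :=
  fun g => if h : (g : Matrix (Fin 2) (Fin 2) F).det = 1 then
    f ⟨(g : Matrix (Fin 2) (Fin 2) F), h⟩ else 0

theorem EZ_toGL (f : Matrix.SpecialLinearGroup (Fin 2) F → ℂ)
    (s : Matrix.SpecialLinearGroup (Fin 2) F) :
    EZ f (Matrix.SpecialLinearGroup.toGL s) = f s := by
  unfold EZ
  split
  · rfl
  · rename_i hn
    exact absurd s.2 hn

theorem EZ_not (f : Matrix.SpecialLinearGroup (Fin 2) F → ℂ)
    (g : Matrix.GeneralLinearGroup (Fin 2) F) (h : (g : Matrix (Fin 2) (Fin 2) F).det ≠ 1) :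
    EZ f g = 0 := by
  unfold EZ
  rw [dif_neg h]

theorem EZ_inner_left (f : Matrix.SpecialLinearGroup (Fin 2) F → ℂ)
    (φ : Matrix.GeneralLinearGroup (Fin 2) F → ℂ) :
    Cfsg.classInner (EZ f) φ = ((Fintype.card F : ℂ) - 1)⁻¹ * Cfsg.classInner f (res φ) := by
  unfold Cfsg.classInner
  have h1 : ∀ g : Matrix.GeneralLinearGroup (Fin 2) F, EZ f g * conj (φ g) =
      if (g : Matrix (Fin 2) (Fin 2) F).det = 1 then EZ f g * conj (φ g) else 0 := by
    intro g
    split_ifs with h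
    · rfl
    · rw [EZ_not f g h, zero_mul]
  rw [Finset.sum_congr rfl (fun g _ => h1 g), sum_det_one, card_GL_SL]
  simp only [EZ_toGL, res_apply]
  have hq : ((Fintype.card F : ℂ) - 1) ≠ 0 := Cfsg.Agent.S2304.card_sub_one_ne
  have hS := card_SL2_ne (F := F)
  field_simp

theorem res_EZ (f : Matrix.SpecialLinearGroup (Fin 2) F → ℂ) : res (EZ f) = f := by
  funext s
  rw [res_apply, EZ_toGL]

theorem EZ_classFun (f : Matrix.SpecialLinearGroup (Fin 2) F → ℂ)
    (hinv : ∀ x : Matrix.GeneralLinearGroup (Fin 2) F, f ∘ cjS x = f) :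
    Cfsg.IsClassFunction (Matrix.GeneralLinearGroup (Fin 2) F) (EZ f) := by
  intro g x
  by_cases h : (g : Matrix (Fin 2) (Fin 2) F).det = 1
  · obtain ⟨s, hs⟩ : ∃ s : Matrix.SpecialLinearGroup (Fin 2) F,
        Matrix.SpecialLinearGroup.toGL s = g := ⟨⟨(g : Matrix (Fin 2) (Fin 2) F), h⟩, Units.ext rfl⟩
    rw [← hs, ← toGL_cjS, EZ_toGL, EZ_toGL]
    exact congrFun (hinv x) s
  · have h2 : ((x * g * x⁻¹ : Matrix.GeneralLinearGroup (Fin 2) F) :
        Matrix (Fin 2) (Fin 2) F).det ≠ 1 := by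
      have e2 : ((x * g * x⁻¹ : Matrix.GeneralLinearGroup (Fin 2) F) :
          Matrix (Fin 2) (Fin 2) F) = (x : Matrix (Fin 2) (Fin 2) F) *
          (g : Matrix (Fin 2) (Fin 2) F) *
          ((x⁻¹ : Matrix.GeneralLinearGroup (Fin 2) F) : Matrix (Fin 2) (Fin 2) F) := rfl
      rw [e2, Matrix.det_units_conj]
      exact h
    rw [EZ_not f g h, EZ_not f _ h2]

/-- Two distinct irreducible constituents of the restriction of an irreducible character
of `GL₂` are conjugate under `GL₂`. -/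
theorem conj_of_sum (χ : Matrix.GeneralLinearGroup (Fin 2) F → ℂ)
    (hχ : Cfsg.IsIrrCharacter (Matrix.GeneralLinearGroup (Fin 2) F) χ)
    (ψ₁ ψ₂ : Matrix.SpecialLinearGroup (Fin 2) F → ℂ)
    (h1 : Cfsg.IsIrrCharacter (Matrix.SpecialLinearGroup (Fin 2) F) ψ₁)
    (h2 : Cfsg.IsIrrCharacter (Matrix.SpecialLinearGroup (Fin 2) F) ψ₂)
    (hne : ψ₁ ≠ ψ₂) (hsum : res χ = ψ₁ + ψ₂) :
    ∃ x : Matrix.GeneralLinearGroup (Fin 2) F, ψ₂ = ψ₁ ∘ cjS x := by
  classical
  by_contra hcon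
  have hcon' : ∀ x : Matrix.GeneralLinearGroup (Fin 2) F, ψ₂ ≠ ψ₁ ∘ cjS x := by
    intro x hx
    exact hcon ⟨x, hx⟩
  have hχc := Cfsg.Agent.Lib.Helper3.Char.char_classFun
    (Cfsg.Agent.Lib.Helper3.Char.isCharacter_of_irr hχ)
  have hinv : ∀ x : Matrix.GeneralLinearGroup (Fin 2) F, ψ₁ ∘ cjS x = ψ₁ := by
    intro x
    have hirr := cj_irr ψ₁ h1 x
    have hin : Cfsg.classInner (ψ₁ ∘ cjS x) (res χ) = 1 := by
      rw [← res_cj χ hχc x, inner_cj, hsum, Cfsg.Agent.Lib.Helper3.Char.classInner_add_right,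
        Cfsg.Agent.Lib.Helper3.Char.irr_inner_self h1,
        Cfsg.Agent.Lib.Helper3.Char.irr_inner_ne h1 h2 hne, add_zero]
    rw [hsum, Cfsg.Agent.Lib.Helper3.Char.classInner_add_right] at hin
    by_contra hx
    rw [Cfsg.Agent.Lib.Helper3.Char.irr_inner_ne hirr h1 hx, zero_add] at hin
    have h3 : ψ₁ ∘ cjS x = ψ₂ := by
      by_contra h'
      rw [Cfsg.Agent.Lib.Helper3.Char.irr_inner_ne hirr h2 h'] at hin
      exact zero_ne_one hin
    exact hcon' x h3.symm
  haveI : Fintype (Cfsg.IrrCharacter (Matrix.GeneralLinearGroup (Fin 2) F)) := Fintype.ofFinite _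
  have hcl := EZ_classFun ψ₁ hinv
  have hp := Cfsg.Agent.Lib.Helper3.CharNormal.parseval (EZ ψ₁) (EZ ψ₂) hcl
  rw [EZ_inner_left, res_EZ, Cfsg.Agent.Lib.Helper3.Char.irr_inner_ne h1 h2 hne, mul_zero] at hp
  have hq1 : 1 < Fintype.card F := Fintype.one_lt_card
  have hqR : (1 : ℝ) < (Fintype.card F : ℝ) := by exact_mod_cast hq1
  have hterm : ∀ η : Cfsg.IrrCharacter (Matrix.GeneralLinearGroup (Fin 2) F),
      ∃ n m : ℕ, Cfsg.classInner ψ₁ (res (η : Matrix.GeneralLinearGroup (Fin 2) F → ℂ)) = (n : ℂ) ∧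
        Cfsg.classInner ψ₂ (res (η : Matrix.GeneralLinearGroup (Fin 2) F → ℂ)) = (m : ℂ) ∧
        Cfsg.classInner (EZ ψ₁) (η : Matrix.GeneralLinearGroup (Fin 2) F → ℂ) *
          Cfsg.classInner (η : Matrix.GeneralLinearGroup (Fin 2) F → ℂ) (EZ ψ₂) =
        (((((Fintype.card F : ℝ) - 1)⁻¹) ^ 2 * (n : ℝ) * (m : ℝ) : ℝ) : ℂ) := by
    intro η
    obtain ⟨n, hn⟩ := Cfsg.Agent.Lib.Helper3.CharArith.inner_char_nat
      (Cfsg.Agent.Lib.Helper3.Char.isCharacter_of_irr h1)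
      (res_char (Cfsg.Agent.Lib.Helper3.Char.isCharacter_of_irr η.2))
    obtain ⟨m, hm⟩ := Cfsg.Agent.Lib.Helper3.CharArith.inner_char_nat
      (Cfsg.Agent.Lib.Helper3.Char.isCharacter_of_irr h2)
      (res_char (Cfsg.Agent.Lib.Helper3.Char.isCharacter_of_irr η.2))
    refine ⟨n, m, hn, hm, ?_⟩
    rw [Cfsg.Agent.Lib.Helper3.Char.classInner_conj_symm (EZ ψ₂)
      (η : Matrix.GeneralLinearGroup (Fin 2) F → ℂ), EZ_inner_left, EZ_inner_left, hn, hm]
    simp only [map_mul, map_inv₀, map_sub, map_natCast, map_one]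
    push_cast
    ring
  have hsum0 : ∑ η : Cfsg.IrrCharacter (Matrix.GeneralLinearGroup (Fin 2) F),
      (if True then (((Cfsg.classInner (EZ ψ₁) (η : Matrix.GeneralLinearGroup (Fin 2) F → ℂ) *
          Cfsg.classInner (η : Matrix.GeneralLinearGroup (Fin 2) F → ℂ) (EZ ψ₂)).re : ℝ) : ℂ)
        else 0) = 0 := by
    rw [hp]
    refine Finset.sum_congr rfl (fun η _ => ?_)
    obtain ⟨n, m, _, _, hnm⟩ := hterm η
    rw [if_pos trivial, hnm, Complex.ofReal_re]
  have hnn : ∀ η : Cfsg.IrrCharacter (Matrix.GeneralLinearGroup (Fin 2) F), True →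
      0 ≤ (Cfsg.classInner (EZ ψ₁) (η : Matrix.GeneralLinearGroup (Fin 2) F → ℂ) *
          Cfsg.classInner (η : Matrix.GeneralLinearGroup (Fin 2) F → ℂ) (EZ ψ₂)).re := by
    intro η _
    obtain ⟨n, m, _, _, hnm⟩ := hterm η
    rw [hnm, Complex.ofReal_re]
    positivity
  have h6 := Cfsg.Agent.S2309.sum_real_zero
    (fun _ : Cfsg.IrrCharacter (Matrix.GeneralLinearGroup (Fin 2) F) => True)
    (fun η => (Cfsg.classInner (EZ ψ₁) (η : Matrix.GeneralLinearGroup (Fin 2) F → ℂ) *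
          Cfsg.classInner (η : Matrix.GeneralLinearGroup (Fin 2) F → ℂ) (EZ ψ₂)).re) hnn
    (by convert hsum0) ⟨χ, hχ⟩ trivial
  obtain ⟨n, m, hn, hm, hnm⟩ := hterm ⟨χ, hχ⟩
  have hn1 : n = 1 := by
    have h7 : Cfsg.classInner ψ₁ (res χ) = 1 := by
      rw [hsum, Cfsg.Agent.Lib.Helper3.Char.classInner_add_right,
        Cfsg.Agent.Lib.Helper3.Char.irr_inner_self h1,
        Cfsg.Agent.Lib.Helper3.Char.irr_inner_ne h1 h2 hne, add_zero]
    rw [h7] at hn
    exact_mod_cast hn.symm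
  have hm1 : m = 1 := by
    have h7 : Cfsg.classInner ψ₂ (res χ) = 1 := by
      rw [hsum, Cfsg.Agent.Lib.Helper3.Char.classInner_add_right,
        Cfsg.Agent.Lib.Helper3.Char.irr_inner_self h2,
        Cfsg.Agent.Lib.Helper3.Char.irr_inner_ne h2 h1 (Ne.symm hne), zero_add]
    rw [h7] at hm
    exact_mod_cast hm.symm
  subst hn1 hm1
  have h8 : (Cfsg.classInner (EZ ψ₁) χ * Cfsg.classInner χ (EZ ψ₂)).re = 0 := h6
  rw [hnm, Complex.ofReal_re] at h8
  have h9 : (0 : ℝ) < (((Fintype.card F : ℝ) - 1)⁻¹) ^ 2 * ((1 : ℕ) : ℝ) * ((1 : ℕ) : ℝ) := by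
    have : (0 : ℝ) < ((Fintype.card F : ℝ) - 1)⁻¹ := by
      apply inv_pos.mpr
      linarith
    positivity
  linarith

/-- Every irreducible character of `SL₂` is the restriction of an irreducible character of
`GL₂`, or one of two conjugate constituents of such a restriction. -/
theorem under (ψ : Matrix.SpecialLinearGroup (Fin 2) F → ℂ)
    (hψ : Cfsg.IsIrrCharacter (Matrix.SpecialLinearGroup (Fin 2) F) ψ) :
    ∃ χ : Matrix.GeneralLinearGroup (Fin 2) F → ℂ,
      Cfsg.IsIrrCharacter (Matrix.GeneralLinearGroup (Fin 2) F) χ ∧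
      (res χ = ψ ∨ (¬ Even (Fintype.card F) ∧ ∃ x : Matrix.GeneralLinearGroup (Fin 2) F,
        ψ ∘ cjS x ≠ ψ ∧ res χ = ψ + ψ ∘ cjS x)) := by
  haveI : Fintype (MulChar F ℂ) := Fintype.ofFinite _
  obtain ⟨χ, hχ, hne⟩ := exists_over ψ hψ
  obtain ⟨t, ht, h1, h2, heven⟩ := res_norm χ hχ
  refine ⟨χ, hχ, ?_⟩
  have hc := res_char (Cfsg.Agent.Lib.Helper3.Char.isCharacter_of_irr hχ)
  have ht12 : t = 1 ∨ t = 2 := by omega
  rcases ht12 with rfl | rfl
  · left
    have hirr : Cfsg.IsIrrCharacter (Matrix.SpecialLinearGroup (Fin 2) F) (res χ) :=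
      Cfsg.Agent.Lib.Helper3.CharArith.isIrr_of_inner_self hc (by rw [ht]; simp)
    by_contra hneq
    exact hne (Cfsg.Agent.Lib.Helper3.Char.irr_inner_ne hirr hψ hneq)
  · right
    obtain ⟨ψ₁, ψ₂, hi1, hi2, hne12, hsum⟩ := norm_two_decomp hc (by rw [ht]; simp)
    refine ⟨fun he => by have := heven he; omega, ?_⟩
    rw [hsum, Cfsg.Agent.Lib.Helper3.Char.classInner_add_left] at hne
    by_cases hA : ψ₁ = ψ
    · subst hA
      obtain ⟨x, hx⟩ := conj_of_sum χ hχ ψ₁ ψ₂ hi1 hi2 hne12 hsum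
      exact ⟨x, by rw [← hx]; exact hne12.symm, by rw [hsum, hx]⟩
    · rw [Cfsg.Agent.Lib.Helper3.Char.irr_inner_ne hi1 hψ hA, zero_add] at hne
      have hB : ψ₂ = ψ := by
        by_contra h'
        exact hne (Cfsg.Agent.Lib.Helper3.Char.irr_inner_ne hi2 hψ h')
      subst hB
      obtain ⟨x, hx⟩ := conj_of_sum χ hχ ψ₂ ψ₁ hi2 hi1 hne12.symm (by rw [hsum, add_comm])
      exact ⟨x, by rw [← hx]; exact hne12, by rw [hsum, hx, add_comm]⟩

theorem RS_eq_res (γ : MulChar F ℂ) : RS γ = res (Cfsg.Agent.S2309.PS γ 1) := by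
  rw [res_PS, inv_one, mul_one]

theorem RS_one_val (γ : MulChar F ℂ) : RS γ 1 = (Fintype.card F : ℂ) + 1 := by
  rw [RS_eq_res, res_apply, map_one, Cfsg.Agent.S2309.PS_one]

theorem RS_u (γ : MulChar F ℂ) (u : Matrix.SpecialLinearGroup (Fin 2) F)
    (hu : (u : Matrix (Fin 2) (Fin 2) F) = !![1, 1; 0, 1]) : RS γ u = 1 := by
  rw [RS_eq_res, res_apply]
  exact Cfsg.Agent.S2309.PS_u γ 1 _ hu

theorem RS_elliptic (γ : MulChar F ℂ) (g : Matrix.SpecialLinearGroup (Fin 2) F)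
    (hg : ∀ (c : F) (v : Fin 2 → F), v ≠ 0 → (g : Matrix (Fin 2) (Fin 2) F).mulVec v ≠ c • v) :
    RS γ g = 0 := by
  rw [RS_eq_res, res_apply]
  exact Cfsg.Agent.S2309.PS_elliptic γ 1 _ hg

theorem cj_one_val (ψ : Matrix.SpecialLinearGroup (Fin 2) F → ℂ)
    (x : Matrix.GeneralLinearGroup (Fin 2) F) : (ψ ∘ cjS x) 1 = ψ 1 := by
  rw [Function.comp_apply, map_one]

theorem res_one_val (Χ : Matrix.GeneralLinearGroup (Fin 2) F → ℂ) : res Χ 1 = Χ 1 := by
  rw [res_apply, map_one]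

/-- The properties of a cuspidal irreducible character of `GL₂`. -/
def CuspP (Χ : Matrix.GeneralLinearGroup (Fin 2) F → ℂ) : Prop :=
  Cfsg.Agent.S2309.Cusp Χ ∧ Χ 1 = (Fintype.card F : ℂ) - 1 ∧
    (∀ u : Matrix.GeneralLinearGroup (Fin 2) F,
      (u : Matrix (Fin 2) (Fin 2) F) = !![1, 1; 0, 1] → Χ u = -1) ∧
    (∀ g : Matrix.GeneralLinearGroup (Fin 2) F,
      (g : Matrix (Fin 2) (Fin 2) F) 0 1 = 0 → (g : Matrix (Fin 2) (Fin 2) F) 1 0 = 0 →
      (g : Matrix (Fin 2) (Fin 2) F) 0 0 ≠ (g : Matrix (Fin 2) (Fin 2) F) 1 1 → Χ g = 0)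

/-- The classification of the irreducible characters of `SL₂` over a finite field by type. -/
theorem sclassify (ψ : Matrix.SpecialLinearGroup (Fin 2) F → ℂ)
    (hψ : Cfsg.IsIrrCharacter (Matrix.SpecialLinearGroup (Fin 2) F) ψ) :
    (ψ = fun _ => 1) ∨ (ψ = RS 1 - fun _ => 1) ∨ (∃ γ : MulChar F ℂ, ψ = RS γ) ∨
    (¬ Even (Fintype.card F) ∧ ∃ (γ : MulChar F ℂ) (x : Matrix.GeneralLinearGroup (Fin 2) F),
      ψ ∘ cjS x ≠ ψ ∧ RS γ = ψ + ψ ∘ cjS x) ∨
    (∃ Χ : Matrix.GeneralLinearGroup (Fin 2) F → ℂ,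
      Cfsg.IsIrrCharacter (Matrix.GeneralLinearGroup (Fin 2) F) Χ ∧ CuspP Χ ∧ res Χ = ψ) ∨
    (¬ Even (Fintype.card F) ∧ ∃ (Χ : Matrix.GeneralLinearGroup (Fin 2) F → ℂ)
      (x : Matrix.GeneralLinearGroup (Fin 2) F),
      Cfsg.IsIrrCharacter (Matrix.GeneralLinearGroup (Fin 2) F) Χ ∧ CuspP Χ ∧
      ψ ∘ cjS x ≠ ψ ∧ res Χ = ψ + ψ ∘ cjS x) := by
  obtain ⟨Χ, hΧ, hcase⟩ := under ψ hψ
  obtain ⟨n, hn, hn1⟩ := Cfsg.Agent.Lib.Helper3.Char.irr_one_pos hψ
  rcases Cfsg.Agent.S2309.classify Χ hΧ with ⟨lam, rfl⟩ | ⟨lam, rfl⟩ | ⟨α, β, hαβ, rfl⟩ | hcusp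
  · rcases hcase with h | ⟨_, x, _, h⟩
    · left
      rw [← h, res_LD]
    · exfalso
      have h1 := congrFun h 1
      rw [res_LD, Pi.add_apply, cj_one_val, hn1] at h1
      have h1' : (1 : ℂ) = (n : ℂ) + n := h1
      have h2 : (1 : ℕ) = n + n := by exact_mod_cast h1'
      omega
  · rcases hcase with h | ⟨hodd, x, _, h⟩
    · right; left
      rw [← h, res_St]
    · exfalso
      have h1 := congrFun h 1
      rw [res_one_val, Cfsg.Agent.S2309.St_one, Pi.add_apply, cj_one_val, hn1] at h1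
      have h2 : Fintype.card F = n + n := by exact_mod_cast h1
      exact hodd ⟨n, h2⟩
  · rcases hcase with h | ⟨hodd, x, hx, h⟩
    · right; right; left
      exact ⟨α * β⁻¹, by rw [← h, res_PS]⟩
    · right; right; right; left
      exact ⟨hodd, α * β⁻¹, x, hx, by rw [← h, res_PS]⟩
  · rcases hcase with h | ⟨hodd, x, hx, h⟩
    · right; right; right; right; left
      exact ⟨Χ, hΧ, hcusp, h⟩
    · right; right; right; right; right
      exact ⟨hodd, Χ, x, hΧ, hcusp, hx, h⟩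

end SL2b

theorem result {F : Type*} [Field F] [Fintype F] (hq : 4 ≤ Fintype.card F) (χ : Matrix.SpecialLinearGroup (Fin 2) F → ℂ) (hχ : Cfsg.IsIrrCharacter (Matrix.SpecialLinearGroup (Fin 2) F) χ)
    (u : Matrix.SpecialLinearGroup (Fin 2) F) (hu : (u : Matrix (Fin 2) (Fin 2) F) = !![1, 1; 0, 1]) :
    (χ 1 = (Fintype.card F : ℂ) + 1 → χ u = 1) ∧ (χ 1 = (Fintype.card F : ℂ) - 1 → χ u = -1) := by
  classical
  have hq' : (4 : ℤ) ≤ (Fintype.card F : ℤ) := by exact_mod_cast hq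
  rcases sclassify χ hχ with rfl | rfl | ⟨γ, rfl⟩ | ⟨hodd, γ, x, hx, h⟩ | ⟨Χ, hΧ, hcusp, rfl⟩ |
    ⟨hodd, Χ, x, hΧ, hcusp, hx, h⟩
  · constructor
    · intro hd
      exfalso
      have hd' : (1 : ℂ) = (Fintype.card F : ℂ) + 1 := hd
      have e : (1 : ℤ) = (Fintype.card F : ℤ) + 1 := by exact_mod_cast hd'
      omega
    · intro hd
      exfalso
      have hd' : (1 : ℂ) = (Fintype.card F : ℂ) - 1 := hd
      have e : (1 : ℤ) = (Fintype.card F : ℤ) - 1 := by exact_mod_cast hd'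
      omega
  · have h1 : ((RS (1 : MulChar F ℂ) - fun _ => 1 : Matrix.SpecialLinearGroup (Fin 2) F → ℂ)) 1 =
        (Fintype.card F : ℂ) := by
      rw [Pi.sub_apply, RS_one_val]
      ring
    constructor
    · intro hd
      exfalso
      rw [h1] at hd
      have e : (Fintype.card F : ℤ) = (Fintype.card F : ℤ) + 1 := by exact_mod_cast hd
      omega
    · intro hd
      exfalso
      rw [h1] at hd
      have e : (Fintype.card F : ℤ) = (Fintype.card F : ℤ) - 1 := by exact_mod_cast hd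
      omega
  · constructor
    · intro _
      exact RS_u γ u hu
    · intro hd
      exfalso
      rw [RS_one_val] at hd
      have e : (Fintype.card F : ℤ) + 1 = (Fintype.card F : ℤ) - 1 := by exact_mod_cast hd
      omega
  · have h1 := congrFun h 1
    rw [RS_one_val, Pi.add_apply, cj_one_val] at h1
    constructor
    · intro hd
      exfalso
      rw [hd] at h1
      have e : (Fintype.card F : ℤ) + 1 = (Fintype.card F : ℤ) + 1 + ((Fintype.card F : ℤ) + 1) := by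
        exact_mod_cast h1
      omega
    · intro hd
      exfalso
      rw [hd] at h1
      have e : (Fintype.card F : ℤ) + 1 = (Fintype.card F : ℤ) - 1 + ((Fintype.card F : ℤ) - 1) := by
        exact_mod_cast h1
      omega
  · obtain ⟨_, hdeg, hu', _⟩ := hcusp
    constructor
    · intro hd
      exfalso
      rw [res_one_val, hdeg] at hd
      have e : (Fintype.card F : ℤ) - 1 = (Fintype.card F : ℤ) + 1 := by exact_mod_cast hd
      omega
    · intro _
      rw [res_apply]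
      exact hu' _ hu
  · obtain ⟨_, hdeg, _, _⟩ := hcusp
    have h1 := congrFun h 1
    rw [res_one_val, hdeg, Pi.add_apply, cj_one_val] at h1
    constructor
    · intro hd
      exfalso
      rw [hd] at h1
      have e : (Fintype.card F : ℤ) - 1 = (Fintype.card F : ℤ) + 1 + ((Fintype.card F : ℤ) + 1) := by
        exact_mod_cast h1
      omega
    · intro hd
      exfalso
      rw [hd] at h1
      have e : (Fintype.card F : ℤ) - 1 = (Fintype.card F : ℤ) - 1 + ((Fintype.card F : ℤ) - 1) := by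
        exact_mod_cast h1
      omega

end Cfsg.Agent.S2323
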