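import Cfsg.Statements.S2321
import Cfsg.Agent.S2323

set_option autoImplicit false
open Cfsg

set_option maxHeartbeats 1000000
namespace Cfsg.Agent.S2321

open Cfsg.Agent.S2323 in
theorem deg_q_eq {F : Type*} [Field F] [Fintype F] [DecidableEq F]
    (χ : Matrix.SpecialLinearGroup (Fin 2) F → ℂ)
    (hχ : Cfsg.IsIrrCharacter (Matrix.SpecialLinearGroup (Fin 2) F) χ)
    (hdeg : χ 1 = (Fintype.card F : ℂ)) :
    χ = RS 1 - fun _ => 1 := by
  have hq : (2 : ℤ) ≤ (Fintype.card F : ℤ) := by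
    have := Fintype.one_lt_card (α := F)
    exact_mod_cast this
  rcases sclassify χ hχ with rfl | h | ⟨γ, rfl⟩ | ⟨hodd, γ, x, hx, h⟩ | ⟨Χ, hΧ, hcusp, rfl⟩ |
    ⟨hodd, Χ, x, hΧ, hcusp, hx, h⟩
  · exfalso
    have hd' : (1 : ℂ) = (Fintype.card F : ℂ) := hdeg
    have e : (1 : ℤ) = (Fintype.card F : ℤ) := by exact_mod_cast hd'
    omega
  · exact h
  · exfalso
    rw [RS_one_val] at hdeg
    have e : (Fintype.card F : ℤ) + 1 = (Fintype.card F : ℤ) := by exact_mod_cast hdeg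
    omega
  · exfalso
    have h1 := congrFun h 1
    rw [RS_one_val, Pi.add_apply, cj_one_val, hdeg] at h1
    have e : (Fintype.card F : ℤ) + 1 = (Fintype.card F : ℤ) + (Fintype.card F : ℤ) := by
      exact_mod_cast h1
    omega
  · exfalso
    obtain ⟨_, hd, _, _⟩ := hcusp
    rw [res_one_val, hd] at hdeg
    have e : (Fintype.card F : ℤ) - 1 = (Fintype.card F : ℤ) := by exact_mod_cast hdeg
    omega
  · exfalso
    obtain ⟨_, hd, _, _⟩ := hcusp
    have h1 := congrFun h 1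
    rw [res_one_val, hd, Pi.add_apply, cj_one_val, hdeg] at h1
    have e : (Fintype.card F : ℤ) - 1 = (Fintype.card F : ℤ) + (Fintype.card F : ℤ) := by
      exact_mod_cast h1
    omega

theorem result {F : Type*} [Field F] [Fintype F] (χ : Matrix.SpecialLinearGroup (Fin 2) F → ℂ) (hχ : Cfsg.IsIrrCharacter (Matrix.SpecialLinearGroup (Fin 2) F) χ) (hdeg : χ 1 = (Fintype.card F : ℂ)) (g : Matrix.SpecialLinearGroup (Fin 2) F) :
    ((g : Matrix (Fin 2) (Fin 2) F) 0 1 = 0 → (g : Matrix (Fin 2) (Fin 2) F) 1 0 = 0 → (g : Matrix (Fin 2) (Fin 2) F) 0 0 ^ 2 ≠ 1 → χ g = 1) ∧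
    ((∀ (c : F) (v : Fin 2 → F), v ≠ 0 → (g : Matrix (Fin 2) (Fin 2) F).mulVec v ≠ c • v) → χ g = -1) ∧
    ((g : Matrix (Fin 2) (Fin 2) F) 1 0 = 0 → (g : Matrix (Fin 2) (Fin 2) F) 0 0 = (g : Matrix (Fin 2) (Fin 2) F) 1 1 → (g : Matrix (Fin 2) (Fin 2) F) 0 1 ≠ 0 → χ g = 0) := by
  classical
  have hχe := deg_q_eq χ hχ hdeg
  have hdet : (g : Matrix (Fin 2) (Fin 2) F) 0 0 * (g : Matrix (Fin 2) (Fin 2) F) 1 1 -
      (g : Matrix (Fin 2) (Fin 2) F) 0 1 * (g : Matrix (Fin 2) (Fin 2) F) 1 0 = 1 := by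
    have := g.2
    rw [Matrix.det_fin_two] at this
    exact this
  refine ⟨?_, ?_, ?_⟩
  · intro h01 h10 ha
    rw [hχe, Pi.sub_apply, Cfsg.Agent.S2323.RS_value]
    rw [h01, h10] at hdet ⊢
    have hu : (g : Matrix (Fin 2) (Fin 2) F) 0 0 * (g : Matrix (Fin 2) (Fin 2) F) 1 1 = 1 := by
      linear_combination hdet
    have ha0 : IsUnit ((g : Matrix (Fin 2) (Fin 2) F) 0 0) := IsUnit.of_mul_eq_one _ hu
    have hd0 : IsUnit ((g : Matrix (Fin 2) (Fin 2) F) 1 1) := isUnit_iff_ne_zero.mpr (right_ne_zero_of_mul_eq_one hu)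
    have hne : (g : Matrix (Fin 2) (Fin 2) F) 0 0 - (g : Matrix (Fin 2) (Fin 2) F) 1 1 ≠ 0 := by
      intro h
      apply ha
      have : (g : Matrix (Fin 2) (Fin 2) F) 0 0 = (g : Matrix (Fin 2) (Fin 2) F) 1 1 :=
        sub_eq_zero.mp h
      rw [← this] at hu
      rw [pow_two, hu]
    rw [if_pos rfl]
    have hs : ∀ t : F, (if -(0 : F) * t ^ 2 +
        ((g : Matrix (Fin 2) (Fin 2) F) 0 0 - (g : Matrix (Fin 2) (Fin 2) F) 1 1) * t + 0 = 0 then
        (1 : MulChar F ℂ) ((0 : F) * t + (g : Matrix (Fin 2) (Fin 2) F) 1 1) else 0) =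
        if t = 0 then 1 else 0 := by
      intro t
      have e1 : (-(0 : F) * t ^ 2 +
        ((g : Matrix (Fin 2) (Fin 2) F) 0 0 - (g : Matrix (Fin 2) (Fin 2) F) 1 1) * t + 0 = 0) ↔
          t = 0 := by
        constructor
        · intro h
          have : ((g : Matrix (Fin 2) (Fin 2) F) 0 0 - (g : Matrix (Fin 2) (Fin 2) F) 1 1) * t = 0 := by
            linear_combination h
          rcases mul_eq_zero.mp this with h | h
          · exact absurd h hne
          · exact h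
        · intro h
          rw [h]
          ring
      rw [if_congr e1 rfl rfl, zero_mul, zero_add, MulChar.one_apply hd0]
    rw [Finset.sum_congr rfl (fun t _ => hs t), Finset.sum_ite_eq' Finset.univ (0 : F),
      if_pos (Finset.mem_univ _), MulChar.one_apply ha0]
    norm_num
  · intro hell
    rw [hχe, Pi.sub_apply, Cfsg.Agent.S2323.RS_elliptic _ _ hell]
    norm_num
  · intro h10 hdiag h01
    rw [hχe, Pi.sub_apply, Cfsg.Agent.S2323.RS_value]
    rw [h10, hdiag] at hdet ⊢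
    have hu : (g : Matrix (Fin 2) (Fin 2) F) 1 1 * (g : Matrix (Fin 2) (Fin 2) F) 1 1 = 1 := by
      linear_combination hdet
    have hd0 : IsUnit ((g : Matrix (Fin 2) (Fin 2) F) 1 1) := IsUnit.of_mul_eq_one _ hu
    rw [if_pos rfl]
    have hs : ∀ t : F, (if -(0 : F) * t ^ 2 +
        ((g : Matrix (Fin 2) (Fin 2) F) 1 1 - (g : Matrix (Fin 2) (Fin 2) F) 1 1) * t +
        (g : Matrix (Fin 2) (Fin 2) F) 0 1 = 0 then
        (1 : MulChar F ℂ) ((0 : F) * t + (g : Matrix (Fin 2) (Fin 2) F) 1 1) else 0) = 0 := by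
      intro t
      rw [if_neg]
      intro h
      apply h01
      linear_combination h
    rw [Finset.sum_congr rfl (fun t _ => hs t), Finset.sum_const_zero, MulChar.one_apply hd0]
    norm_num

end Cfsg.Agent.S2321
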