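import Cfsg.Statements.S2300
import Cfsg.Agent.S2323
import Cfsg.Agent.S2321
import Cfsg.Agent.S2331

set_option autoImplicit false
open Cfsg

set_option maxHeartbeats 1000000
namespace Cfsg.Agent.S2300

open scoped ComplexConjugate

section GenDeg

variable {G : Type*} [Group G] [Fintype G]

/-- The degree of an irreducible character as a natural number. -/
noncomputable def degN (χ : Cfsg.IrrCharacter G) : ℕ :=
  Classical.choose (Cfsg.Agent.Lib.Helper3.Char.irr_one_pos χ.2)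

theorem degN_pos (χ : Cfsg.IrrCharacter G) : 0 < degN χ :=
  (Classical.choose_spec (Cfsg.Agent.Lib.Helper3.Char.irr_one_pos χ.2)).1

theorem degN_spec (χ : Cfsg.IrrCharacter G) : (χ : G → ℂ) 1 = (degN χ : ℂ) :=
  (Classical.choose_spec (Cfsg.Agent.Lib.Helper3.Char.irr_one_pos χ.2)).2

theorem degN_eq_iff (χ : Cfsg.IrrCharacter G) (m : ℕ) :
    (χ : G → ℂ) 1 = (m : ℂ) ↔ degN χ = m := by
  rw [degN_spec, Nat.cast_inj]

theorem card_deg_eq [Fintype (Cfsg.IrrCharacter G)] (v : ℂ) (m : ℕ) (hv : v = (m : ℂ)) :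
    Nat.card {χ : Cfsg.IrrCharacter G // (χ : G → ℂ) 1 = v} =
      (Finset.univ.filter (fun χ : Cfsg.IrrCharacter G => degN χ = m)).card := by
  classical
  rw [Nat.card_eq_fintype_card]
  apply Fintype.card_of_subtype
  intro χ
  rw [Finset.mem_filter, hv, degN_eq_iff]
  simp

theorem sum_by_deg [Fintype (Cfsg.IrrCharacter G)] (vals : Finset ℕ)
    (h : ∀ χ : Cfsg.IrrCharacter G, degN χ ∈ vals) (Φ : ℕ → ℕ) :
    ∑ χ : Cfsg.IrrCharacter G, Φ (degN χ) =
      ∑ v ∈ vals, (Finset.univ.filter (fun χ : Cfsg.IrrCharacter G => degN χ = v)).card * Φ v := by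
  rw [← Finset.sum_fiberwise_of_maps_to (s := Finset.univ) (t := vals) (g := degN)
    (fun χ _ => h χ)]
  refine Finset.sum_congr rfl (fun v _ => ?_)
  rw [Finset.sum_congr rfl (fun χ hχ => by rw [(Finset.mem_filter.mp hχ).2] :
    ∀ χ ∈ Finset.univ.filter (fun χ : Cfsg.IrrCharacter G => degN χ = v), Φ (degN χ) = Φ v),
    Finset.sum_const, smul_eq_mul]

theorem sum_degN_sq [Fintype (Cfsg.IrrCharacter G)] :
    ∑ χ : Cfsg.IrrCharacter G, degN χ ^ 2 = Nat.card G := by
  have h := Cfsg.Agent.Lib.Helper3.CharTable.column_orth (G := G) 1 1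
  have e : Nat.card {y : G // y * 1 * y⁻¹ = 1} = Nat.card G :=
    Nat.card_congr (Equiv.subtypeUnivEquiv (fun y => by group))
  rw [e] at h
  have h2 : ∀ χ : Cfsg.IrrCharacter G,
      (χ : G → ℂ) 1 * conj ((χ : G → ℂ) 1) = ((degN χ ^ 2 : ℕ) : ℂ) := by
    intro χ
    rw [degN_spec, Complex.conj_natCast]
    push_cast
    ring
  rw [Finset.sum_congr rfl (fun χ _ => h2 χ), ← Nat.cast_sum] at h
  exact_mod_cast h

theorem card_irr_sum [Fintype (Cfsg.IrrCharacter G)] :
    ∑ _χ : Cfsg.IrrCharacter G, 1 = Nat.card (ConjClasses G) := by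
  rw [← Cfsg.Agent.Lib.Helper3.CharTable.card_irr, Nat.card_eq_fintype_card]
  simp

theorem nf_unique [Fintype (Cfsg.IrrCharacter G)] (m : ℕ) (x : Cfsg.IrrCharacter G)
    (hx : degN x = m) (huniq : ∀ χ : Cfsg.IrrCharacter G, degN χ = m → χ = x) :
    (Finset.univ.filter (fun χ : Cfsg.IrrCharacter G => degN χ = m)).card = 1 := by
  rw [Finset.card_eq_one]
  refine ⟨x, ?_⟩
  ext χ
  rw [Finset.mem_filter, Finset.mem_singleton]
  constructor
  · rintro ⟨_, h⟩
    exact huniq χ h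
  · rintro rfl
    exact ⟨Finset.mem_univ _, hx⟩

end GenDeg

section SL2c

open Cfsg.Agent.S2323

variable {F : Type*} [Field F] [Fintype F] [DecidableEq F]

theorem deg_cases (ψ : Matrix.SpecialLinearGroup (Fin 2) F → ℂ)
    (hψ : Cfsg.IsIrrCharacter (Matrix.SpecialLinearGroup (Fin 2) F) ψ) :
    ψ 1 = 1 ∨ ψ 1 = (Fintype.card F : ℂ) ∨ ψ 1 = (Fintype.card F : ℂ) + 1 ∨
    ψ 1 = (Fintype.card F : ℂ) - 1 ∨
    (¬ Even (Fintype.card F) ∧ ψ 1 + ψ 1 = (Fintype.card F : ℂ) + 1) ∨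
    (¬ Even (Fintype.card F) ∧ ψ 1 + ψ 1 = (Fintype.card F : ℂ) - 1) := by
  rcases sclassify ψ hψ with rfl | rfl | ⟨γ, rfl⟩ | ⟨hodd, γ, x, hx, h⟩ | ⟨Χ, hΧ, hcusp, rfl⟩ |
    ⟨hodd, Χ, x, hΧ, hcusp, hx, h⟩
  · left
    rfl
  · right; left
    show RS (1 : MulChar F ℂ) 1 - 1 = _
    rw [RS_one_val]
    ring
  · right; right; left
    exact RS_one_val γ
  · right; right; right; right; left
    refine ⟨hodd, ?_⟩
    have h1 := congrFun h 1
    rw [RS_one_val, Pi.add_apply, cj_one_val] at h1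
    exact h1.symm
  · right; right; right; left
    rw [res_one_val]
    exact hcusp.2.1
  · right; right; right; right; right
    refine ⟨hodd, ?_⟩
    have h1 := congrFun h 1
    rw [res_one_val, hcusp.2.1, Pi.add_apply, cj_one_val] at h1
    exact h1.symm

theorem degN_cases (χ : Cfsg.IrrCharacter (Matrix.SpecialLinearGroup (Fin 2) F)) :
    degN χ = 1 ∨ degN χ = Fintype.card F ∨ degN χ = Fintype.card F + 1 ∨
    degN χ + 1 = Fintype.card F ∨
    (¬ Even (Fintype.card F) ∧ degN χ + degN χ = Fintype.card F + 1) ∨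
    (¬ Even (Fintype.card F) ∧ degN χ + degN χ + 1 = Fintype.card F) := by
  have h := deg_cases χ.1 χ.2
  rw [degN_spec] at h
  rcases h with h | h | h | h | ⟨ho, h⟩ | ⟨ho, h⟩
  · left
    exact_mod_cast h
  · right; left
    exact_mod_cast h
  · right; right; left
    exact_mod_cast h
  · right; right; right; left
    have : ((degN χ + 1 : ℕ) : ℂ) = (Fintype.card F : ℂ) := by
      push_cast
      linear_combination h
    exact_mod_cast this
  · right; right; right; right; left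
    exact ⟨ho, by exact_mod_cast h⟩
  · right; right; right; right; right
    refine ⟨ho, ?_⟩
    have : ((degN χ + degN χ + 1 : ℕ) : ℂ) = (Fintype.card F : ℂ) := by
      push_cast
      linear_combination h
    exact_mod_cast this

theorem StS_irr : Cfsg.IsIrrCharacter (Matrix.SpecialLinearGroup (Fin 2) F)
    (RS (1 : MulChar F ℂ) - fun _ => 1) := by
  haveI : Fintype (MulChar F ℂ) := Fintype.ofFinite _
  have hirr := Cfsg.Agent.S2309.St_irr (1 : MulChar F ℂ)
  have hch := res_char (Cfsg.Agent.Lib.Helper3.Char.isCharacter_of_irr hirr)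
  obtain ⟨t, ht, h1, h2, heven⟩ := res_norm _ hirr
  rw [res_St] at ht hch
  have ht' : t = 1 ∨ t = 2 := by omega
  rcases ht' with rfl | rfl
  · exact Cfsg.Agent.Lib.Helper3.CharArith.isIrr_of_inner_self hch (by simpa using ht)
  · exfalso
    obtain ⟨ψ₁, ψ₂, hi1, hi2, hne, hsum⟩ := norm_two_decomp hch (by simpa using ht)
    have hres : res (Cfsg.Agent.S2309.St (1 : MulChar F ℂ)) = ψ₁ + ψ₂ := by
      rw [res_St, hsum]
    obtain ⟨x, hx⟩ := conj_of_sum _ hirr ψ₁ ψ₂ hi1 hi2 hne hres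
    obtain ⟨n, hn, hn1⟩ := Cfsg.Agent.Lib.Helper3.Char.irr_one_pos hi1
    have hd := congrFun hres 1
    rw [res_one_val, Cfsg.Agent.S2309.St_one, Pi.add_apply, hx, cj_one_val, hn1] at hd
    have e : Fintype.card F = n + n := by exact_mod_cast hd
    have := heven ⟨n, e⟩
    omega

theorem deg_one_eq (hq : 4 ≤ Fintype.card F) (ψ : Matrix.SpecialLinearGroup (Fin 2) F → ℂ)
    (hψ : Cfsg.IsIrrCharacter (Matrix.SpecialLinearGroup (Fin 2) F) ψ) (hdeg : ψ 1 = 1) :
    ψ = fun _ => 1 := by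
  have hq' : (4 : ℤ) ≤ (Fintype.card F : ℤ) := by exact_mod_cast hq
  rcases sclassify ψ hψ with h | rfl | ⟨γ, rfl⟩ | ⟨hodd, γ, x, hx, h⟩ | ⟨Χ, hΧ, hcusp, rfl⟩ |
    ⟨hodd, Χ, x, hΧ, hcusp, hx, h⟩
  · exact h
  · exfalso
    have hd' : RS (1 : MulChar F ℂ) 1 - 1 = 1 := hdeg
    rw [RS_one_val] at hd'
    have e : (Fintype.card F : ℤ) + 1 - 1 = 1 := by exact_mod_cast hd'
    omega
  · exfalso
    rw [RS_one_val] at hdeg
    have e : (Fintype.card F : ℤ) + 1 = 1 := by exact_mod_cast hdeg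
    omega
  · exfalso
    have h1 := congrFun h 1
    rw [RS_one_val, Pi.add_apply, cj_one_val, hdeg] at h1
    have e : (Fintype.card F : ℤ) + 1 = 1 + 1 := by exact_mod_cast h1
    omega
  · exfalso
    rw [res_one_val, hcusp.2.1] at hdeg
    have e : (Fintype.card F : ℤ) - 1 = 1 := by exact_mod_cast hdeg
    omega
  · exfalso
    have h1 := congrFun h 1
    rw [res_one_val, hcusp.2.1, Pi.add_apply, cj_one_val, hdeg] at h1
    have e : (Fintype.card F : ℤ) - 1 = 1 + 1 := by exact_mod_cast h1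
    omega

theorem deg_q1_eq (ψ : Matrix.SpecialLinearGroup (Fin 2) F → ℂ)
    (hψ : Cfsg.IsIrrCharacter (Matrix.SpecialLinearGroup (Fin 2) F) ψ)
    (hdeg : ψ 1 = (Fintype.card F : ℂ) + 1) : ∃ γ : MulChar F ℂ, ψ = RS γ := by
  have hq : (2 : ℤ) ≤ (Fintype.card F : ℤ) := by
    have := Fintype.one_lt_card (α := F)
    exact_mod_cast this
  rcases sclassify ψ hψ with rfl | rfl | ⟨γ, rfl⟩ | ⟨hodd, γ, x, hx, h⟩ | ⟨Χ, hΧ, hcusp, rfl⟩ |
    ⟨hodd, Χ, x, hΧ, hcusp, hx, h⟩
  · exfalso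
    have hd' : (1 : ℂ) = (Fintype.card F : ℂ) + 1 := hdeg
    have e : (1 : ℤ) = (Fintype.card F : ℤ) + 1 := by exact_mod_cast hd'
    omega
  · exfalso
    have hd' : RS (1 : MulChar F ℂ) 1 - 1 = (Fintype.card F : ℂ) + 1 := hdeg
    rw [RS_one_val] at hd'
    have e : (Fintype.card F : ℤ) + 1 - 1 = (Fintype.card F : ℤ) + 1 := by exact_mod_cast hd'
    omega
  · exact ⟨γ, rfl⟩
  · exfalso
    have h1 := congrFun h 1
    rw [RS_one_val, Pi.add_apply, cj_one_val, hdeg] at h1
    have e : (Fintype.card F : ℤ) + 1 = (Fintype.card F : ℤ) + 1 + ((Fintype.card F : ℤ) + 1) := by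
      exact_mod_cast h1
    omega
  · exfalso
    rw [res_one_val, hcusp.2.1] at hdeg
    have e : (Fintype.card F : ℤ) - 1 = (Fintype.card F : ℤ) + 1 := by exact_mod_cast hdeg
    omega
  · exfalso
    have h1 := congrFun h 1
    rw [res_one_val, hcusp.2.1, Pi.add_apply, cj_one_val, hdeg] at h1
    have e : (Fintype.card F : ℤ) - 1 = (Fintype.card F : ℤ) + 1 + ((Fintype.card F : ℤ) + 1) := by
      exact_mod_cast h1
    omega

theorem nf_one [Fintype (Cfsg.IrrCharacter (Matrix.SpecialLinearGroup (Fin 2) F))]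
    (hq : 4 ≤ Fintype.card F) :
    (Finset.univ.filter (fun χ : Cfsg.IrrCharacter (Matrix.SpecialLinearGroup (Fin 2) F) =>
      degN χ = 1)).card = 1 := by
  apply nf_unique 1 ⟨fun _ => 1, Cfsg.Agent.Lib.Helper3.CharArith.isIrr_one _⟩
  · rw [← degN_eq_iff]
    simp
  · intro χ h
    apply Subtype.ext
    apply deg_one_eq hq χ.1 χ.2
    rw [degN_spec, h]
    simp

theorem nf_q [Fintype (Cfsg.IrrCharacter (Matrix.SpecialLinearGroup (Fin 2) F))] :
    (Finset.univ.filter (fun χ : Cfsg.IrrCharacter (Matrix.SpecialLinearGroup (Fin 2) F) =>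
      degN χ = Fintype.card F)).card = 1 := by
  apply nf_unique _ ⟨RS (1 : MulChar F ℂ) - fun _ => 1, StS_irr⟩
  · rw [← degN_eq_iff]
    show RS (1 : MulChar F ℂ) 1 - 1 = _
    rw [RS_one_val]
    ring
  · intro χ h
    apply Subtype.ext
    apply Cfsg.Agent.S2321.deg_q_eq χ.1 χ.2
    rw [degN_spec, h]

theorem even_counts [Fintype (Cfsg.IrrCharacter (Matrix.SpecialLinearGroup (Fin 2) F))]
    (hq : 4 ≤ Fintype.card F) (he : Even (Fintype.card F))
    (hN : Nat.card (ConjClasses (Matrix.SpecialLinearGroup (Fin 2) F)) = Fintype.card F + 1) :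
    2 * (Finset.univ.filter (fun χ : Cfsg.IrrCharacter (Matrix.SpecialLinearGroup (Fin 2) F) =>
      degN χ = Fintype.card F + 1)).card + 2 = Fintype.card F ∧
    2 * (Finset.univ.filter (fun χ : Cfsg.IrrCharacter (Matrix.SpecialLinearGroup (Fin 2) F) =>
      degN χ = Fintype.card F - 1)).card = Fintype.card F := by
  have hvals : ∀ χ : Cfsg.IrrCharacter (Matrix.SpecialLinearGroup (Fin 2) F),
      degN χ ∈ ({1, Fintype.card F, Fintype.card F + 1, Fintype.card F - 1} : Finset ℕ) := by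
    intro χ
    simp only [Finset.mem_insert, Finset.mem_singleton]
    rcases degN_cases χ with h | h | h | h | ⟨ho, _⟩ | ⟨ho, _⟩
    · left
      exact h
    · right; left
      exact h
    · right; right; left
      exact h
    · right; right; right
      omega
    · exact absurd he ho
    · exact absurd he ho
  have hs1 := sum_by_deg _ hvals (fun _ => 1)
  have hs2 := sum_by_deg _ hvals (fun d => d ^ 2)
  rw [card_irr_sum, hN] at hs1
  rw [sum_degN_sq, Cfsg.Agent.S2325.card_SL2] at hs2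
  have hn1 : (1 : ℕ) ∉ ({Fintype.card F, Fintype.card F + 1, Fintype.card F - 1} : Finset ℕ) := by
    simp only [Finset.mem_insert, Finset.mem_singleton]
    omega
  have hn2 : Fintype.card F ∉ ({Fintype.card F + 1, Fintype.card F - 1} : Finset ℕ) := by
    simp only [Finset.mem_insert, Finset.mem_singleton]
    omega
  have hn3 : Fintype.card F + 1 ∉ ({Fintype.card F - 1} : Finset ℕ) := by
    simp only [Finset.mem_singleton]
    omega
  rw [Finset.sum_insert hn1, Finset.sum_insert hn2, Finset.sum_insert hn3,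
    Finset.sum_singleton, nf_one hq, nf_q] at hs1 hs2
  generalize (Finset.univ.filter (fun χ : Cfsg.IrrCharacter (Matrix.SpecialLinearGroup (Fin 2) F) =>
      degN χ = Fintype.card F + 1)).card = a at hs1 hs2 ⊢
  generalize (Finset.univ.filter (fun χ : Cfsg.IrrCharacter (Matrix.SpecialLinearGroup (Fin 2) F) =>
      degN χ = Fintype.card F - 1)).card = c at hs1 hs2 ⊢
  have h1le : 1 ≤ Fintype.card F := by omega
  have h2le : 1 ≤ Fintype.card F ^ 2 := Nat.one_le_pow _ _ (by omega)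
  zify [h1le, h2le] at hs1 hs2
  have hq' : (4 : ℤ) ≤ (Fintype.card F : ℤ) := by exact_mod_cast hq
  have key : (2 * (a : ℤ) + 2 - (Fintype.card F : ℤ)) * (2 * (Fintype.card F : ℤ)) = 0 := by
    linear_combination (-1 : ℤ) * hs2 + ((Fintype.card F : ℤ) - 1) ^ 2 * hs1
  rcases mul_eq_zero.mp key with h | h
  · constructor
    · omega
    · omega
  · omega

end SL2c

theorem result {F : Type*} [Field F] [Fintype F] [CharP F 2] :
    (∀ χ : Matrix.SpecialLinearGroup (Fin 2) F → ℂ, Cfsg.IsIrrCharacter (Matrix.SpecialLinearGroup (Fin 2) F) χ →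
      χ 1 = 1 ∨ χ 1 = (Fintype.card F : ℂ) - 1 ∨ χ 1 = (Fintype.card F : ℂ) ∨ χ 1 = (Fintype.card F : ℂ) + 1) ∧
    (4 ≤ Fintype.card F →
      Nat.card {χ : Cfsg.IrrCharacter (Matrix.SpecialLinearGroup (Fin 2) F) // (χ : Matrix.SpecialLinearGroup (Fin 2) F → ℂ) 1 = 1} = 1 ∧
      Nat.card {χ : Cfsg.IrrCharacter (Matrix.SpecialLinearGroup (Fin 2) F) // (χ : Matrix.SpecialLinearGroup (Fin 2) F → ℂ) 1 = (Fintype.card F : ℂ)} = 1 ∧
      Nat.card {χ : Cfsg.IrrCharacter (Matrix.SpecialLinearGroup (Fin 2) F) // (χ : Matrix.SpecialLinearGroup (Fin 2) F → ℂ) 1 = (Fintype.card F : ℂ) + 1} = (Fintype.card F - 2) / 2 ∧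
      Nat.card {χ : Cfsg.IrrCharacter (Matrix.SpecialLinearGroup (Fin 2) F) // (χ : Matrix.SpecialLinearGroup (Fin 2) F → ℂ) 1 = (Fintype.card F : ℂ) - 1} = Fintype.card F / 2) := by
  classical
  haveI : Fintype (Cfsg.IrrCharacter (Matrix.SpecialLinearGroup (Fin 2) F)) := Fintype.ofFinite _
  have he : Even (Fintype.card F) := by
    have h2 : ringChar F = 2 := ringChar.eq F 2
    exact Nat.even_iff.mpr (FiniteField.even_card_of_char_two h2)
  refine ⟨?_, ?_⟩
  · intro χ hχ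
    rcases deg_cases χ hχ with h | h | h | h | ⟨ho, _⟩ | ⟨ho, _⟩
    · left
      exact h
    · right; right; left
      exact h
    · right; right; right
      exact h
    · right; left
      exact h
    · exact absurd he ho
    · exact absurd he ho
  · intro hq
    obtain ⟨ha, hc⟩ := even_counts hq he Cfsg.Agent.S2331.result
    refine ⟨?_, ?_, ?_, ?_⟩
    · rw [card_deg_eq 1 1 (by simp)]
      exact nf_one hq
    · rw [card_deg_eq _ (Fintype.card F) rfl]
      exact nf_q
    · rw [card_deg_eq _ (Fintype.card F + 1) (by push_cast; ring)]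
      omega
    · rw [card_deg_eq _ (Fintype.card F - 1) (by rw [Nat.cast_sub (by omega)]; simp)]
      omega

end Cfsg.Agent.S2300
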