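import Cfsg.Statements.S2307
import Cfsg.Agent.S2323

set_option autoImplicit false
open Cfsg

set_option maxHeartbeats 1000000
namespace Cfsg.Agent.S2307

open Cfsg.Agent.S2323 in
/-- The principal series of the quadratic character splits into two conjugate halves. -/
theorem half_decomp {F : Type*} [Field F] [Fintype F] [DecidableEq F] (α : MulChar F ℂ)
    (hα : α ^ 2 = 1) (hα1 : α ≠ 1) :
    ∃ (χ₁ χ₂ : Matrix.SpecialLinearGroup (Fin 2) F → ℂ)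
      (x : Matrix.GeneralLinearGroup (Fin 2) F),
      Cfsg.IsIrrCharacter (Matrix.SpecialLinearGroup (Fin 2) F) χ₁ ∧
      Cfsg.IsIrrCharacter (Matrix.SpecialLinearGroup (Fin 2) F) χ₂ ∧ χ₁ ≠ χ₂ ∧
      RS α = χ₁ + χ₂ ∧ χ₂ = χ₁ ∘ cjS x := by
  have hinv : α = α⁻¹ := by
    rw [eq_inv_iff_mul_eq_one, ← pow_two]
    exact hα
  have h2 : Cfsg.classInner (RS α) (RS α) = 2 := by
    rw [RS_inner, if_pos rfl, if_pos hinv]
    norm_num
  obtain ⟨ψ₁, ψ₂, h1, h2', hne, hsum⟩ := norm_two_decomp (RS_char α) h2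
  have hirr := Cfsg.Agent.S2309.PS_irr α 1 hα1
  have hres : res (Cfsg.Agent.S2309.PS α 1) = ψ₁ + ψ₂ := by
    rw [res_PS, inv_one, mul_one, hsum]
  obtain ⟨x, hx⟩ := conj_of_sum _ hirr ψ₁ ψ₂ h1 h2' hne hres
  exact ⟨ψ₁, ψ₂, x, h1, h2', hne, hsum, hx⟩

theorem result {F : Type*} [Field F] [Fintype F] [DecidableEq F] (hodd : Odd (Fintype.card F)) (α : MulChar F ℂ)
    (hα : α ^ 2 = 1) (hα1 : α ≠ 1) :
    ∃ χ₁ χ₂ : Matrix.SpecialLinearGroup (Fin 2) F → ℂ, Cfsg.IsIrrCharacter (Matrix.SpecialLinearGroup (Fin 2) F) χ₁ ∧ Cfsg.IsIrrCharacter (Matrix.SpecialLinearGroup (Fin 2) F) χ₂ ∧ χ₁ ≠ χ₂ ∧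
      Cfsg.indFun ((Cfsg.upperTriangularGL 2 F).comap Matrix.SpecialLinearGroup.toGL) (fun b => α (((b : Matrix.SpecialLinearGroup (Fin 2) F) : Matrix (Fin 2) (Fin 2) F) 0 0)) = χ₁ + χ₂ ∧
      χ₁ 1 = (((Fintype.card F + 1) / 2 : ℕ) : ℂ) ∧ χ₂ 1 = (((Fintype.card F + 1) / 2 : ℕ) : ℂ) ∧
      ∃ x : Matrix.GeneralLinearGroup (Fin 2) F, ∀ g h : Matrix.SpecialLinearGroup (Fin 2) F,
        Matrix.SpecialLinearGroup.toGL h = x * Matrix.SpecialLinearGroup.toGL g * x⁻¹ → χ₂ h = χ₁ g := by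
  obtain ⟨χ₁, χ₂, x, h1, h2, hne, hsum, hx⟩ := half_decomp α hα hα1
  have hd := congrFun hsum 1
  rw [Cfsg.Agent.S2323.RS_one_val, Pi.add_apply, hx, Cfsg.Agent.S2323.cj_one_val] at hd
  obtain ⟨k, hk⟩ := hodd
  have hhalf : (Fintype.card F + 1) / 2 = k + 1 := by omega
  have hd1 : χ₁ 1 = (((Fintype.card F + 1) / 2 : ℕ) : ℂ) := by
    rw [hhalf]
    rw [hk] at hd
    push_cast at hd ⊢
    linear_combination (-1 / 2 : ℂ) * hd
  refine ⟨χ₁, χ₂, h1, h2, hne, hsum, hd1, ?_, x⁻¹, ?_⟩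
  · rw [hx, Cfsg.Agent.S2323.cj_one_val]
    exact hd1
  · intro g h hgh
    rw [hx, Function.comp_apply]
    congr 1
    apply Matrix.SpecialLinearGroup.toGL_injective
    rw [Cfsg.Agent.S2323.toGL_cjS, hgh]
    group

end Cfsg.Agent.S2307
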