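import Cfsg.Statements.S2299
import Cfsg.Agent.S2300
import Cfsg.Agent.S2307
import Cfsg.Agent.S2325

set_option autoImplicit false
open Cfsg

set_option maxHeartbeats 1000000
namespace Cfsg.Agent.S2299

open scoped ComplexConjugate

section GenTwo

theorem mem_of_sum_two {G : Type*} [Group G] [Fintype G] {χ₁ χ₂ ψ ψ' : G → ℂ}
    (h1 : Cfsg.IsIrrCharacter G χ₁) (h2 : Cfsg.IsIrrCharacter G χ₂)
    (hψ : Cfsg.IsIrrCharacter G ψ) (hψ' : Cfsg.IsIrrCharacter G ψ') (hne : ψ' ≠ ψ)
    (h : χ₁ + χ₂ = ψ + ψ') : ψ = χ₁ ∨ ψ = χ₂ := by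
  by_contra hcon
  push_neg at hcon
  have e1 : Cfsg.classInner (χ₁ + χ₂) ψ = 0 := by
    rw [Cfsg.Agent.Lib.Helper3.Char.classInner_add_left,
      Cfsg.Agent.Lib.Helper3.Char.irr_inner_ne h1 hψ (Ne.symm hcon.1),
      Cfsg.Agent.Lib.Helper3.Char.irr_inner_ne h2 hψ (Ne.symm hcon.2), add_zero]
  rw [h, Cfsg.Agent.Lib.Helper3.Char.classInner_add_left,
    Cfsg.Agent.Lib.Helper3.Char.irr_inner_self hψ,
    Cfsg.Agent.Lib.Helper3.Char.irr_inner_ne hψ' hψ hne] at e1
  norm_num at e1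

end GenTwo

section SL2d

open Cfsg.Agent.S2323 Cfsg.Agent.S2300

variable {F : Type*} [Field F] [Fintype F] [DecidableEq F]

theorem exists_quad (hodd : Odd (Fintype.card F)) :
    ∃ γ₀ : MulChar F ℂ, γ₀ * γ₀ = 1 ∧ γ₀ ≠ 1 := by
  have hc : ringChar F ≠ 2 := by
    intro h
    have h2 := FiniteField.even_card_of_char_two h
    rcases hodd with ⟨k, hk⟩
    omega
  refine ⟨(quadraticChar F).ringHomComp (Int.castRingHom ℂ), ?_, ?_⟩
  · rw [← pow_two]
    exact ((quadraticChar_isQuadratic F).comp _).sq_eq_one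
  · rw [MulChar.ringHomComp_ne_one_iff (RingHom.injective_int (Int.castRingHom ℂ))]
    exact quadraticChar_ne_one hc

theorem quad_unique [Fintype (MulChar F ℂ)] (γ₀ γ : MulChar F ℂ) (h0 : γ₀ * γ₀ = 1)
    (h01 : γ₀ ≠ 1) (h : γ * γ = 1) (h1 : γ ≠ 1) : γ = γ₀ := by
  by_contra hne
  have hsub : ({1, γ₀, γ} : Finset (MulChar F ℂ)) ⊆
      Finset.univ.filter (fun lam : MulChar F ℂ => lam * lam = 1) := by
    intro x hx
    rw [Finset.mem_insert, Finset.mem_insert, Finset.mem_singleton] at hx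
    rw [Finset.mem_filter]
    refine ⟨Finset.mem_univ _, ?_⟩
    rcases hx with rfl | rfl | rfl
    · exact one_mul 1
    · exact h0
    · exact h
  have hc := Finset.card_le_card hsub
  have h3 : ({1, γ₀, γ} : Finset (MulChar F ℂ)).card = 3 := by
    rw [Finset.card_insert_of_notMem, Finset.card_pair (Ne.symm hne)]
    rw [Finset.mem_insert, Finset.mem_singleton]
    rintro (h | h)
    · exact h01 h.symm
    · exact h1 h.symm
  have := card_sq_one (F := F)
  omega

theorem card_sq_ne [Fintype (MulChar F ℂ)] (hodd : Odd (Fintype.card F)) :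
    (Finset.univ.filter (fun γ : MulChar F ℂ => ¬ γ * γ = 1)).card + 3 = Fintype.card F := by
  obtain ⟨γ₀, h0, h01⟩ := exists_quad hodd
  have h2 : (Finset.univ.filter (fun γ : MulChar F ℂ => γ * γ = 1)).card = 2 := by
    have hset : Finset.univ.filter (fun γ : MulChar F ℂ => γ * γ = 1) = {1, γ₀} := by
      ext γ
      rw [Finset.mem_filter, Finset.mem_insert, Finset.mem_singleton]
      constructor
      · rintro ⟨_, h⟩
        by_cases h1 : γ = 1
        · left
          exact h1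
        · right
          exact quad_unique γ₀ γ h0 h01 h h1
      · rintro (rfl | rfl)
        · exact ⟨Finset.mem_univ _, one_mul 1⟩
        · exact ⟨Finset.mem_univ _, h0⟩
    rw [hset, Finset.card_pair (Ne.symm h01)]
  have h3 := Finset.card_filter_add_card_filter_not (s := (Finset.univ : Finset (MulChar F ℂ)))
    (fun γ : MulChar F ℂ => γ * γ = 1)
  rw [h2, Finset.card_univ] at h3
  have h4 : (Fintype.card (MulChar F ℂ) : ℂ) = (Fintype.card F : ℂ) - 1 :=
    Cfsg.Agent.S2309.card_mulChar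
  have h5 : Fintype.card (MulChar F ℂ) + 1 = Fintype.card F := by
    have : ((Fintype.card (MulChar F ℂ) + 1 : ℕ) : ℂ) = (Fintype.card F : ℂ) := by
      push_cast
      rw [h4]
      ring
    exact_mod_cast this
  omega

theorem RS_irr (γ : MulChar F ℂ) (h : ¬ γ * γ = 1) :
    Cfsg.IsIrrCharacter (Matrix.SpecialLinearGroup (Fin 2) F) (RS γ) := by
  apply Cfsg.Agent.Lib.Helper3.CharArith.isIrr_of_inner_self (RS_char γ)
  rw [RS_inner, if_pos rfl, if_neg, add_zero]
  intro h2
  exact h (eq_inv_iff_mul_eq_one.mp h2)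

theorem inv_sq_ne (γ : MulChar F ℂ) (h : ¬ γ * γ = 1) : ¬ γ⁻¹ * γ⁻¹ = 1 := by
  intro h2
  apply h
  have : (γ * γ)⁻¹ = 1 := by
    rw [mul_inv]
    exact h2
  exact inv_eq_one.mp this

theorem RS_inv (γ : MulChar F ℂ) (h : ¬ γ * γ = 1) : RS γ⁻¹ = RS γ := by
  have h' := inv_sq_ne γ h
  by_contra hne
  have h0 := Cfsg.Agent.Lib.Helper3.Char.irr_inner_ne (RS_irr _ h') (RS_irr _ h) hne
  rw [RS_inner, if_neg, if_pos rfl] at h0
  · norm_num at h0
  · intro h2
    exact h (eq_inv_iff_mul_eq_one.mp h2.symm)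

theorem RS_eq_cases (γ γ' : MulChar F ℂ) (h : ¬ γ * γ = 1) (he : RS γ = RS γ') :
    γ' = γ ∨ γ' = γ⁻¹ := by
  have h1 : Cfsg.classInner (RS γ) (RS γ') = 1 := by
    rw [← he]
    exact Cfsg.Agent.Lib.Helper3.Char.irr_inner_self (RS_irr γ h)
  rw [RS_inner] at h1
  by_cases ha : γ = γ'
  · left
    exact ha.symm
  · by_cases hb : γ = γ'⁻¹
    · right
      rw [hb, inv_inv]
    · rw [if_neg ha, if_neg hb] at h1
      norm_num at h1

theorem nf_q1 [Fintype (MulChar F ℂ)]
    [Fintype (Cfsg.IrrCharacter (Matrix.SpecialLinearGroup (Fin 2) F))] :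
    2 * (Finset.univ.filter (fun χ : Cfsg.IrrCharacter (Matrix.SpecialLinearGroup (Fin 2) F) =>
      degN χ = Fintype.card F + 1)).card =
      (Finset.univ.filter (fun γ : MulChar F ℂ => ¬ γ * γ = 1)).card := by
  classical
  have hL : ∀ χ : Cfsg.IrrCharacter (Matrix.SpecialLinearGroup (Fin 2) F),
      ∑ γ : MulChar F ℂ, (if (¬ γ * γ = 1 ∧ χ.1 = RS γ) then 1 else 0) =
        2 * (if degN χ = Fintype.card F + 1 then 1 else 0) := by
    intro χ
    rw [← Finset.card_filter]
    split_ifs with hd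
    · obtain ⟨γ₀, h0⟩ := deg_q1_eq χ.1 χ.2 (by rw [degN_spec, hd]; push_cast; ring)
      have hirr : Cfsg.IsIrrCharacter (Matrix.SpecialLinearGroup (Fin 2) F) (RS γ₀) := h0 ▸ χ.2
      have hne : ¬ γ₀ * γ₀ = 1 := by
        intro h2
        have h3 := Cfsg.Agent.Lib.Helper3.Char.irr_inner_self hirr
        rw [RS_inner, if_pos rfl, if_pos (eq_inv_iff_mul_eq_one.mpr h2)] at h3
        norm_num at h3
      have hne' : γ₀ ≠ γ₀⁻¹ := fun h2 => hne (eq_inv_iff_mul_eq_one.mp h2)
      have hset : Finset.univ.filter (fun γ : MulChar F ℂ => ¬ γ * γ = 1 ∧ χ.1 = RS γ) =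
          {γ₀, γ₀⁻¹} := by
        ext γ
        rw [Finset.mem_filter, Finset.mem_insert, Finset.mem_singleton, h0]
        constructor
        · rintro ⟨_, _, he⟩
          exact RS_eq_cases γ₀ γ hne he
        · rintro (rfl | rfl)
          · exact ⟨Finset.mem_univ _, hne, rfl⟩
          · exact ⟨Finset.mem_univ _, inv_sq_ne γ₀ hne, (RS_inv γ₀ hne).symm⟩
      rw [hset, Finset.card_pair hne']
    · rw [mul_zero]
      apply Finset.card_eq_zero.mpr
      apply Finset.filter_eq_empty_iff.mpr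
      rintro γ _ ⟨_, he⟩
      apply hd
      rw [← degN_eq_iff, he, RS_one_val]
      push_cast
      ring
  have hR : ∀ γ : MulChar F ℂ,
      ∑ χ : Cfsg.IrrCharacter (Matrix.SpecialLinearGroup (Fin 2) F),
        (if (¬ γ * γ = 1 ∧ χ.1 = RS γ) then 1 else 0) = if ¬ γ * γ = 1 then 1 else 0 := by
    intro γ
    rw [← Finset.card_filter]
    split_ifs with hγ
    · apply Finset.card_eq_zero.mpr
      apply Finset.filter_eq_empty_iff.mpr
      rintro χ _ ⟨h, _⟩
      exact h hγ
    · rw [Finset.card_eq_one]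
      refine ⟨⟨RS γ, RS_irr γ hγ⟩, ?_⟩
      ext χ
      rw [Finset.mem_filter, Finset.mem_singleton]
      constructor
      · rintro ⟨_, _, he⟩
        exact Subtype.ext he
      · rintro rfl
        exact ⟨Finset.mem_univ _, hγ, rfl⟩
  have hcomm := Finset.sum_comm
    (s := (Finset.univ : Finset (Cfsg.IrrCharacter (Matrix.SpecialLinearGroup (Fin 2) F))))
    (t := (Finset.univ : Finset (MulChar F ℂ)))
    (f := fun χ γ => if (¬ γ * γ = 1 ∧ χ.1 = RS γ) then 1 else 0)
  rw [Finset.sum_congr rfl (fun χ _ => hL χ), Finset.sum_congr rfl (fun γ _ => hR γ),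
    ← Finset.mul_sum, ← Finset.card_filter, ← Finset.card_filter] at hcomm
  exact hcomm

theorem deg_half_eq (hq : 5 ≤ Fintype.card F) (ψ : Matrix.SpecialLinearGroup (Fin 2) F → ℂ)
    (hψ : Cfsg.IsIrrCharacter (Matrix.SpecialLinearGroup (Fin 2) F) ψ)
    (hdeg : ψ 1 + ψ 1 = (Fintype.card F : ℂ) + 1) :
    ∃ (γ : MulChar F ℂ) (x : Matrix.GeneralLinearGroup (Fin 2) F),
      ψ ∘ cjS x ≠ ψ ∧ RS γ = ψ + ψ ∘ cjS x := by
  have hq' : (5 : ℤ) ≤ (Fintype.card F : ℤ) := by exact_mod_cast hq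
  rcases sclassify ψ hψ with rfl | rfl | ⟨γ, rfl⟩ | ⟨hodd, γ, x, hx, h⟩ | ⟨Χ, hΧ, hcusp, rfl⟩ |
    ⟨hodd, Χ, x, hΧ, hcusp, hx, h⟩
  · exfalso
    have hd' : (1 : ℂ) + 1 = (Fintype.card F : ℂ) + 1 := hdeg
    have e : (1 : ℤ) + 1 = (Fintype.card F : ℤ) + 1 := by exact_mod_cast hd'
    omega
  · exfalso
    have hd' : (RS (1 : MulChar F ℂ) 1 - 1) + (RS (1 : MulChar F ℂ) 1 - 1) =
        (Fintype.card F : ℂ) + 1 := hdeg
    rw [RS_one_val] at hd'
    have e : ((Fintype.card F : ℤ) + 1 - 1) + ((Fintype.card F : ℤ) + 1 - 1) =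
        (Fintype.card F : ℤ) + 1 := by exact_mod_cast hd'
    omega
  · exfalso
    rw [RS_one_val] at hdeg
    have e : ((Fintype.card F : ℤ) + 1) + ((Fintype.card F : ℤ) + 1) =
        (Fintype.card F : ℤ) + 1 := by exact_mod_cast hdeg
    omega
  · exact ⟨γ, x, hx, h⟩
  · exfalso
    rw [res_one_val, hcusp.2.1] at hdeg
    have e : ((Fintype.card F : ℤ) - 1) + ((Fintype.card F : ℤ) - 1) =
        (Fintype.card F : ℤ) + 1 := by exact_mod_cast hdeg
    omega
  · exfalso
    have h1 := congrFun h 1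
    rw [res_one_val, hcusp.2.1, Pi.add_apply, cj_one_val, hdeg] at h1
    have e : (Fintype.card F : ℤ) - 1 = (Fintype.card F : ℤ) + 1 := by exact_mod_cast h1
    omega

theorem nf_half [Fintype (MulChar F ℂ)]
    [Fintype (Cfsg.IrrCharacter (Matrix.SpecialLinearGroup (Fin 2) F))]
    (hodd : Odd (Fintype.card F)) (hq : 5 ≤ Fintype.card F) :
    (Finset.univ.filter (fun χ : Cfsg.IrrCharacter (Matrix.SpecialLinearGroup (Fin 2) F) =>
      degN χ = (Fintype.card F + 1) / 2)).card = 2 := by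
  classical
  have hq' : (5 : ℤ) ≤ (Fintype.card F : ℤ) := by exact_mod_cast hq
  obtain ⟨γ₀, h0, h01⟩ := exists_quad hodd
  obtain ⟨χ₁, χ₂, x, hi1, hi2, hne, hsum, hx⟩ :=
    Cfsg.Agent.S2307.half_decomp γ₀ (by rw [pow_two]; exact h0) h01
  have hd := congrFun hsum 1
  rw [RS_one_val, Pi.add_apply, hx, cj_one_val] at hd
  have hset : Finset.univ.filter
      (fun χ : Cfsg.IrrCharacter (Matrix.SpecialLinearGroup (Fin 2) F) =>
        degN χ = (Fintype.card F + 1) / 2) = {⟨χ₁, hi1⟩, ⟨χ₂, hi2⟩} := by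
    ext χ
    rw [Finset.mem_filter, Finset.mem_insert, Finset.mem_singleton]
    constructor
    · rintro ⟨_, hdeg⟩
      have hdeg2 : χ.1 1 + χ.1 1 = (Fintype.card F : ℂ) + 1 := by
        rw [degN_spec, hdeg]
        obtain ⟨k, hk⟩ := hodd
        have : (Fintype.card F + 1) / 2 = k + 1 := by omega
        rw [this, hk]
        push_cast
        ring
      obtain ⟨γ, y, hy, hγ⟩ := deg_half_eq hq χ.1 χ.2 hdeg2
      have hirr' := cj_irr χ.1 χ.2 y
      have hγ2 : γ * γ = 1 := by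
        by_contra hcon
        have h3 := Cfsg.Agent.Lib.Helper3.Char.irr_inner_self (RS_irr γ hcon)
        rw [hγ, Cfsg.Agent.Lib.Helper3.Char.classInner_add_left,
          Cfsg.Agent.Lib.Helper3.Char.classInner_add_right,
          Cfsg.Agent.Lib.Helper3.Char.classInner_add_right,
          Cfsg.Agent.Lib.Helper3.Char.irr_inner_self χ.2,
          Cfsg.Agent.Lib.Helper3.Char.irr_inner_self hirr',
          Cfsg.Agent.Lib.Helper3.Char.irr_inner_ne χ.2 hirr' (Ne.symm hy),
          Cfsg.Agent.Lib.Helper3.Char.irr_inner_ne hirr' χ.2 hy] at h3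
        norm_num at h3
      have hγ1 : γ ≠ 1 := by
        rintro rfl
        have hone := Cfsg.Agent.Lib.Helper3.CharArith.isIrr_one
          (Matrix.SpecialLinearGroup (Fin 2) F)
        have hdec : (RS (1 : MulChar F ℂ) - fun _ => 1) + (fun _ => 1) =
            RS (1 : MulChar F ℂ) := sub_add_cancel _ _
        rcases mem_of_sum_two (StS_irr (F := F)) hone χ.2 hirr' hy (hdec.trans hγ) with hm | hm
        · have h5 : χ.1 1 = (Fintype.card F : ℂ) := by
            rw [hm]
            show RS (1 : MulChar F ℂ) 1 - 1 = _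
            rw [RS_one_val]
            ring
          rw [h5] at hdeg2
          have e : (Fintype.card F : ℤ) + (Fintype.card F : ℤ) = (Fintype.card F : ℤ) + 1 := by
            exact_mod_cast hdeg2
          omega
        · have h5 : χ.1 1 = 1 := by
            rw [hm]
          rw [h5] at hdeg2
          have e : (1 : ℤ) + 1 = (Fintype.card F : ℤ) + 1 := by exact_mod_cast hdeg2
          omega
      have hγ0 := quad_unique γ₀ γ h0 h01 hγ2 hγ1
      rw [hγ0, hsum] at hγ
      rcases mem_of_sum_two hi1 hi2 χ.2 hirr' hy hγ with hm | hm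
      · left
        exact Subtype.ext hm
      · right
        exact Subtype.ext hm
    · have key : ∀ (ψ : Matrix.SpecialLinearGroup (Fin 2) F → ℂ)
          (hψ : Cfsg.IsIrrCharacter (Matrix.SpecialLinearGroup (Fin 2) F) ψ),
          ψ 1 + ψ 1 = (Fintype.card F : ℂ) + 1 →
          degN (⟨ψ, hψ⟩ : Cfsg.IrrCharacter (Matrix.SpecialLinearGroup (Fin 2) F)) =
            (Fintype.card F + 1) / 2 := by
        intro ψ hψ h
        have h2' : ψ 1 = (degN (⟨ψ, hψ⟩ :
            Cfsg.IrrCharacter (Matrix.SpecialLinearGroup (Fin 2) F)) : ℂ) :=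
          degN_spec (⟨ψ, hψ⟩ : Cfsg.IrrCharacter (Matrix.SpecialLinearGroup (Fin 2) F))
        rw [h2'] at h
        have e : degN (⟨ψ, hψ⟩ : Cfsg.IrrCharacter (Matrix.SpecialLinearGroup (Fin 2) F)) +
            degN (⟨ψ, hψ⟩ : Cfsg.IrrCharacter (Matrix.SpecialLinearGroup (Fin 2) F)) =
            Fintype.card F + 1 := by exact_mod_cast h
        omega
      rintro (rfl | rfl)
      · exact ⟨Finset.mem_univ _, key χ₁ hi1 hd.symm⟩
      · refine ⟨Finset.mem_univ _, key χ₂ hi2 ?_⟩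
        rw [hx, cj_one_val]
        exact hd.symm
  rw [hset, Finset.card_pair]
  intro h
  exact hne (congrArg Subtype.val h)

theorem odd_counts [Fintype (MulChar F ℂ)]
    [Fintype (Cfsg.IrrCharacter (Matrix.SpecialLinearGroup (Fin 2) F))]
    (hodd : Odd (Fintype.card F)) (hq : 5 ≤ Fintype.card F) :
    2 * (Finset.univ.filter (fun χ : Cfsg.IrrCharacter (Matrix.SpecialLinearGroup (Fin 2) F) =>
      degN χ = Fintype.card F + 1)).card + 3 = Fintype.card F ∧
    2 * (Finset.univ.filter (fun χ : Cfsg.IrrCharacter (Matrix.SpecialLinearGroup (Fin 2) F) =>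
      degN χ = Fintype.card F - 1)).card + 1 = Fintype.card F ∧
    (Finset.univ.filter (fun χ : Cfsg.IrrCharacter (Matrix.SpecialLinearGroup (Fin 2) F) =>
      degN χ = (Fintype.card F - 1) / 2)).card = 2 := by
  have hN := Cfsg.Agent.S2325.result hodd
  have ha := nf_q1 (F := F)
  have ha2 := card_sq_ne hodd
  have hb := nf_half hodd hq
  obtain ⟨k, hk⟩ := hodd
  have hvals : ∀ χ : Cfsg.IrrCharacter (Matrix.SpecialLinearGroup (Fin 2) F),
      degN χ ∈ ({1, Fintype.card F, Fintype.card F + 1, Fintype.card F - 1,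
        (Fintype.card F + 1) / 2, (Fintype.card F - 1) / 2} : Finset ℕ) := by
    intro χ
    simp only [Finset.mem_insert, Finset.mem_singleton]
    rcases degN_cases χ with h | h | h | h | ⟨ho, h⟩ | ⟨ho, h⟩
    · left
      exact h
    · right; left
      exact h
    · right; right; left
      exact h
    · right; right; right; left
      omega
    · right; right; right; right; left
      omega
    · right; right; right; right; right
      omega
  have hs1 := sum_by_deg _ hvals (fun _ => 1)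
  have hs2 := sum_by_deg _ hvals (fun d => d ^ 2)
  rw [card_irr_sum, hN] at hs1
  rw [sum_degN_sq, Cfsg.Agent.S2325.card_SL2] at hs2
  have hn1 : (1 : ℕ) ∉ ({Fintype.card F, Fintype.card F + 1, Fintype.card F - 1,
        (Fintype.card F + 1) / 2, (Fintype.card F - 1) / 2} : Finset ℕ) := by
    simp only [Finset.mem_insert, Finset.mem_singleton]
    omega
  have hn2 : Fintype.card F ∉ ({Fintype.card F + 1, Fintype.card F - 1,
        (Fintype.card F + 1) / 2, (Fintype.card F - 1) / 2} : Finset ℕ) := by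
    simp only [Finset.mem_insert, Finset.mem_singleton]
    omega
  have hn3 : Fintype.card F + 1 ∉ ({Fintype.card F - 1,
        (Fintype.card F + 1) / 2, (Fintype.card F - 1) / 2} : Finset ℕ) := by
    simp only [Finset.mem_insert, Finset.mem_singleton]
    omega
  have hn4 : Fintype.card F - 1 ∉ ({(Fintype.card F + 1) / 2,
      (Fintype.card F - 1) / 2} : Finset ℕ) := by
    simp only [Finset.mem_insert, Finset.mem_singleton]
    omega
  have hn5 : (Fintype.card F + 1) / 2 ∉ ({(Fintype.card F - 1) / 2} : Finset ℕ) := by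
    simp only [Finset.mem_singleton]
    omega
  rw [Finset.sum_insert hn1, Finset.sum_insert hn2, Finset.sum_insert hn3, Finset.sum_insert hn4,
    Finset.sum_insert hn5, Finset.sum_singleton, nf_one (by omega), nf_q, hb] at hs1 hs2
  generalize (Finset.univ.filter (fun χ : Cfsg.IrrCharacter (Matrix.SpecialLinearGroup (Fin 2) F) =>
      degN χ = Fintype.card F + 1)).card = a at hs1 hs2 ha ⊢
  generalize (Finset.univ.filter (fun χ : Cfsg.IrrCharacter (Matrix.SpecialLinearGroup (Fin 2) F) =>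
      degN χ = Fintype.card F - 1)).card = c at hs1 hs2 ⊢
  generalize (Finset.univ.filter (fun χ : Cfsg.IrrCharacter (Matrix.SpecialLinearGroup (Fin 2) F) =>
      degN χ = (Fintype.card F - 1) / 2)).card = d at hs1 hs2 ⊢
  have e1 : (Fintype.card F + 1) / 2 = k + 1 := by omega
  have e2 : (Fintype.card F - 1) / 2 = k := by omega
  have e3 : Fintype.card F - 1 = 2 * k := by omega
  rw [e1, e2, e3] at hs2
  rw [hk] at hs1 hs2 ⊢
  have ha' : a + 1 = k := by omega
  have h2le : 1 ≤ (2 * k + 1) ^ 2 := Nat.one_le_pow _ _ (by omega)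
  zify [h2le] at hs1 hs2 ha'
  have key : ((k : ℤ)) ^ 2 * (4 * (c : ℤ) + d - 4 * k - 2) = 0 := by
    linear_combination (-1 : ℤ) * hs2 - (2 * (k : ℤ) + 2) ^ 2 * ha'
  have hk0 : ((k : ℤ)) ^ 2 ≠ 0 := by
    apply pow_ne_zero
    omega
  have h4 := (mul_eq_zero.mp key).resolve_left hk0
  refine ⟨by omega, by omega, by omega⟩

end SL2d

theorem result {F : Type*} [Field F] [Fintype F] (hodd : Odd (Fintype.card F)) :
    (∀ χ : Matrix.SpecialLinearGroup (Fin 2) F → ℂ, Cfsg.IsIrrCharacter (Matrix.SpecialLinearGroup (Fin 2) F) χ →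
      χ 1 = 1 ∨ χ 1 = (Fintype.card F : ℂ) ∨ χ 1 = (Fintype.card F : ℂ) + 1 ∨ χ 1 = (Fintype.card F : ℂ) - 1 ∨
        χ 1 = (((Fintype.card F + 1) / 2 : ℕ) : ℂ) ∨ χ 1 = (((Fintype.card F - 1) / 2 : ℕ) : ℂ)) ∧
    (5 ≤ Fintype.card F →
      Nat.card {χ : Cfsg.IrrCharacter (Matrix.SpecialLinearGroup (Fin 2) F) // (χ : Matrix.SpecialLinearGroup (Fin 2) F → ℂ) 1 = 1} = 1 ∧
      Nat.card {χ : Cfsg.IrrCharacter (Matrix.SpecialLinearGroup (Fin 2) F) // (χ : Matrix.SpecialLinearGroup (Fin 2) F → ℂ) 1 = (Fintype.card F : ℂ)} = 1 ∧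
      Nat.card {χ : Cfsg.IrrCharacter (Matrix.SpecialLinearGroup (Fin 2) F) // (χ : Matrix.SpecialLinearGroup (Fin 2) F → ℂ) 1 = (Fintype.card F : ℂ) + 1} = (Fintype.card F - 3) / 2 ∧
      Nat.card {χ : Cfsg.IrrCharacter (Matrix.SpecialLinearGroup (Fin 2) F) // (χ : Matrix.SpecialLinearGroup (Fin 2) F → ℂ) 1 = (Fintype.card F : ℂ) - 1} = (Fintype.card F - 1) / 2 ∧
      Nat.card {χ : Cfsg.IrrCharacter (Matrix.SpecialLinearGroup (Fin 2) F) // (χ : Matrix.SpecialLinearGroup (Fin 2) F → ℂ) 1 = (((Fintype.card F + 1) / 2 : ℕ) : ℂ)} = 2 ∧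
      Nat.card {χ : Cfsg.IrrCharacter (Matrix.SpecialLinearGroup (Fin 2) F) // (χ : Matrix.SpecialLinearGroup (Fin 2) F → ℂ) 1 = (((Fintype.card F - 1) / 2 : ℕ) : ℂ)} = 2) := by
  classical
  haveI : Fintype (Cfsg.IrrCharacter (Matrix.SpecialLinearGroup (Fin 2) F)) := Fintype.ofFinite _
  haveI : Fintype (MulChar F ℂ) := Fintype.ofFinite _
  refine ⟨?_, ?_⟩
  · intro χ hχ
    obtain ⟨k, hk⟩ := hodd
    have e1 : (Fintype.card F + 1) / 2 = k + 1 := by omega
    have e2 : (Fintype.card F - 1) / 2 = k := by omega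
    have hkc : (Fintype.card F : ℂ) = 2 * (k : ℂ) + 1 := by
      rw [hk]
      push_cast
      ring
    rcases Cfsg.Agent.S2300.deg_cases χ hχ with h | h | h | h | ⟨ho, h⟩ | ⟨ho, h⟩
    · left
      exact h
    · right; left
      exact h
    · right; right; left
      exact h
    · right; right; right; left
      exact h
    · right; right; right; right; left
      rw [e1]
      push_cast
      linear_combination (1 / 2 : ℂ) * h + (1 / 2 : ℂ) * hkc
    · right; right; right; right; right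
      rw [e2]
      linear_combination (1 / 2 : ℂ) * h + (1 / 2 : ℂ) * hkc
  · intro hq
    obtain ⟨ha, hc, hd⟩ := odd_counts hodd hq
    refine ⟨?_, ?_, ?_, ?_, ?_, ?_⟩
    · rw [Cfsg.Agent.S2300.card_deg_eq 1 1 (by simp)]
      exact Cfsg.Agent.S2300.nf_one (by omega)
    · rw [Cfsg.Agent.S2300.card_deg_eq _ (Fintype.card F) rfl]
      exact Cfsg.Agent.S2300.nf_q
    · rw [Cfsg.Agent.S2300.card_deg_eq _ (Fintype.card F + 1) (by push_cast; ring)]
      omega
    · rw [Cfsg.Agent.S2300.card_deg_eq _ (Fintype.card F - 1) (by rw [Nat.cast_sub (by omega)]; simp)]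
      omega
    · rw [Cfsg.Agent.S2300.card_deg_eq _ ((Fintype.card F + 1) / 2) rfl]
      exact nf_half hodd hq
    · rw [Cfsg.Agent.S2300.card_deg_eq _ ((Fintype.card F - 1) / 2) rfl]
      exact hd

end Cfsg.Agent.S2299
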