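import Cfsg.Statements.S2301
import Mathlib

set_option autoImplicit false
open Cfsg

namespace Cfsg.Agent.S2301

open Matrix

theorem card_class_mul_card_centralizer {G : Type*} [Group G] [Finite G] (g : G) :
    Nat.card (ConjClasses.mk g).carrier * Nat.card (Subgroup.centralizer ({g} : Set G)) =
      Nat.card G := by
  classical
  have := Fintype.ofFinite G
  rw [Subgroup.nat_card_centralizer_nat_card_stabilizer, ← ConjAct.orbit_eq_carrier_conjClasses]
  have h := MulAction.card_orbit_mul_card_stabilizer_eq_card_group (ConjAct G) g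
  simp only [← Nat.card_eq_fintype_card] at h
  exact h

theorem card_SL2 {F : Type*} [Field F] [Fintype F] :
    Nat.card (Matrix.SpecialLinearGroup (Fin 2) F) =
      Fintype.card F * (Fintype.card F ^ 2 - 1) := by
  classical
  have hGL := Matrix.card_GL_field (𝔽 := F) 2
  rw [Fin.prod_univ_two] at hGL
  simp only [Fin.val_zero, Fin.val_one, pow_zero, pow_one] at hGL
  have hsurj : Function.Surjective (Matrix.GeneralLinearGroup.det : GL (Fin 2) F →* Fˣ) := by
    intro a
    refine ⟨Matrix.GeneralLinearGroup.mkOfDetNeZero !![(a : F), 0; 0, 1]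
      (by simp [Matrix.det_fin_two_of]), ?_⟩
    apply Units.ext
    simp [Matrix.GeneralLinearGroup.mkOfDetNeZero, Matrix.det_fin_two_of]
  have hker : Nat.card (Matrix.GeneralLinearGroup.det : GL (Fin 2) F →* Fˣ).ker =
      Nat.card (Matrix.SpecialLinearGroup (Fin 2) F) := by
    symm
    apply Nat.card_congr
    refine Equiv.ofBijective (fun g => ⟨Matrix.SpecialLinearGroup.toGL g, ?_⟩) ⟨?_, ?_⟩
    · rw [MonoidHom.mem_ker]
      apply Units.ext
      simp
    · intro g h hgh
      exact Matrix.SpecialLinearGroup.toGL_injective (congrArg Subtype.val hgh)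
    · rintro ⟨x, hx⟩
      rw [MonoidHom.mem_ker] at hx
      have hx' : (x : Matrix (Fin 2) (Fin 2) F).det = 1 := by
        have := congrArg Units.val hx
        simpa using this
      refine ⟨⟨(x : Matrix (Fin 2) (Fin 2) F), hx'⟩, ?_⟩
      apply Subtype.ext
      apply Units.ext
      rfl
  have h1 := Subgroup.card_eq_card_quotient_mul_card_subgroup
    (Matrix.GeneralLinearGroup.det : GL (Fin 2) F →* Fˣ).ker
  have h2 : Nat.card (GL (Fin 2) F ⧸ (Matrix.GeneralLinearGroup.det : GL (Fin 2) F →* Fˣ).ker) =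
      Nat.card Fˣ := Nat.card_congr (QuotientGroup.quotientKerEquivOfSurjective _ hsurj).toEquiv
  rw [h2, hker, Nat.card_units, Nat.card_eq_fintype_card (α := F), hGL] at h1
  have hq : 1 < Fintype.card F := Fintype.one_lt_card
  have e : Fintype.card F ^ 2 - Fintype.card F = (Fintype.card F - 1) * Fintype.card F := by
    rw [Nat.sub_mul, one_mul, sq]
  rw [e] at h1
  have h3 : (Fintype.card F - 1) * Nat.card (Matrix.SpecialLinearGroup (Fin 2) F) =
      (Fintype.card F - 1) * (Fintype.card F * (Fintype.card F ^ 2 - 1)) := by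
    rw [← h1]; ring
  exact Nat.eq_of_mul_eq_mul_left (by omega) h3

/-- the upper unitriangular element -/
def uu {F : Type*} [Field F] (b : F) : Matrix.SpecialLinearGroup (Fin 2) F :=
  ⟨!![1, b; 0, 1], by simp [Matrix.det_fin_two_of]⟩

theorem uu_val {F : Type*} [Field F] (b : F) :
    ((uu b : Matrix.SpecialLinearGroup (Fin 2) F) : Matrix (Fin 2) (Fin 2) F) = !![1, b; 0, 1] := rfl

theorem sl2_conj_iff {F : Type*} [Field F] (g h : Matrix.SpecialLinearGroup (Fin 2) F) :
    IsConj g h ↔ ∃ x : Matrix.SpecialLinearGroup (Fin 2) F, x * g = h * x := by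
  rw [isConj_iff]
  constructor
  · rintro ⟨x, hx⟩
    exact ⟨x, mul_inv_eq_iff_eq_mul.1 hx⟩
  · rintro ⟨x, hx⟩
    exact ⟨x, mul_inv_eq_iff_eq_mul.2 hx⟩

theorem sl2_det {F : Type*} [Field F] (x : Matrix.SpecialLinearGroup (Fin 2) F) :
    (x : Matrix (Fin 2) (Fin 2) F) 0 0 * (x : Matrix (Fin 2) (Fin 2) F) 1 1 -
      (x : Matrix (Fin 2) (Fin 2) F) 0 1 * (x : Matrix (Fin 2) (Fin 2) F) 1 0 = 1 := by
  have h := x.2
  rw [Matrix.det_fin_two] at h
  exact h

theorem sl2_ext {F : Type*} [Field F] (g h : Matrix.SpecialLinearGroup (Fin 2) F)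
    (h00 : (g : Matrix (Fin 2) (Fin 2) F) 0 0 = (h : Matrix (Fin 2) (Fin 2) F) 0 0)
    (h01 : (g : Matrix (Fin 2) (Fin 2) F) 0 1 = (h : Matrix (Fin 2) (Fin 2) F) 0 1)
    (h10 : (g : Matrix (Fin 2) (Fin 2) F) 1 0 = (h : Matrix (Fin 2) (Fin 2) F) 1 0)
    (h11 : (g : Matrix (Fin 2) (Fin 2) F) 1 1 = (h : Matrix (Fin 2) (Fin 2) F) 1 1) : g = h := by
  apply Subtype.ext
  ext i j
  fin_cases i <;> fin_cases j <;> assumption

theorem uu_conj {F : Type*} [Field F] (b b' : F) (hb : b ≠ 0) (hb' : b' ≠ 0) :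
    IsConj (uu b) (uu b') ↔ IsSquare (b * b') := by
  rw [sl2_conj_iff]
  constructor
  · rintro ⟨x, hx⟩
    have hd := sl2_det x
    have e00 := congrArg (fun m : Matrix.SpecialLinearGroup (Fin 2) F =>
      (m : Matrix (Fin 2) (Fin 2) F) 0 0) hx
    have e01 := congrArg (fun m : Matrix.SpecialLinearGroup (Fin 2) F =>
      (m : Matrix (Fin 2) (Fin 2) F) 0 1) hx
    simp [uu_val, Matrix.SpecialLinearGroup.coe_mul, Matrix.mul_apply, Fin.sum_univ_two] at e00 e01
    rcases e00 with e00 | e00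
    · exact absurd e00 hb'
    · rw [e00, mul_zero, sub_zero] at hd
      refine ⟨(x : Matrix (Fin 2) (Fin 2) F) 0 0 * b, ?_⟩
      linear_combination (-b * b') * hd - (b * (x : Matrix (Fin 2) (Fin 2) F) 0 0) * e01
  · rintro ⟨s, hs⟩
    have hs0 : s ≠ 0 := by
      rintro rfl
      simp at hs
      rcases hs with h | h
      · exact hb h
      · exact hb' h
    obtain ⟨x, hx⟩ : ∃ x : Matrix.SpecialLinearGroup (Fin 2) F,
        (x : Matrix (Fin 2) (Fin 2) F) = !![s / b, 0; 0, b / s] :=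
      ⟨⟨_, by rw [Matrix.det_fin_two_of]; field_simp; ring⟩, rfl⟩
    refine ⟨x, ?_⟩
    apply sl2_ext <;> simp [uu_val, hx, Matrix.SpecialLinearGroup.coe_mul, Matrix.mul_apply, Fin.sum_univ_two]
    field_simp
    linear_combination -hs

theorem trace2_conj {F : Type*} [Field F] (g : Matrix.SpecialLinearGroup (Fin 2) F)
    (htr : (g : Matrix (Fin 2) (Fin 2) F) 0 0 + (g : Matrix (Fin 2) (Fin 2) F) 1 1 = 2)
    (hne : g ≠ 1) : ∃ b : F, b ≠ 0 ∧ IsConj (uu b) g := by
  have hd := sl2_det g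
  by_cases hc : (g : Matrix (Fin 2) (Fin 2) F) 1 0 = 0
  · rw [hc, mul_zero, sub_zero] at hd
    have ha : (g : Matrix (Fin 2) (Fin 2) F) 0 0 = 1 := by
      have : ((g : Matrix (Fin 2) (Fin 2) F) 0 0 - 1) * ((g : Matrix (Fin 2) (Fin 2) F) 0 0 - 1) = 0 := by
        linear_combination (g : Matrix (Fin 2) (Fin 2) F) 0 0 * htr - hd
      exact sub_eq_zero.1 (mul_self_eq_zero.1 this)
    have hdd : (g : Matrix (Fin 2) (Fin 2) F) 1 1 = 1 := by
      rw [ha] at htr
      linear_combination htr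
    have hgu : g = uu ((g : Matrix (Fin 2) (Fin 2) F) 0 1) := by
      apply sl2_ext <;> simp [uu_val, ha, hc, hdd]
    refine ⟨(g : Matrix (Fin 2) (Fin 2) F) 0 1, ?_, ?_⟩
    · intro h0
      apply hne
      rw [hgu, h0]
      apply sl2_ext <;> simp [uu_val]
    · rw [← hgu]
  · obtain ⟨x, hx⟩ : ∃ x : Matrix.SpecialLinearGroup (Fin 2) F,
        (x : Matrix (Fin 2) (Fin 2) F) = !![(g : Matrix (Fin 2) (Fin 2) F) 0 0 - 1,
          -((g : Matrix (Fin 2) (Fin 2) F) 1 0)⁻¹; (g : Matrix (Fin 2) (Fin 2) F) 1 0, 0] :=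
      ⟨⟨_, by rw [Matrix.det_fin_two_of]; field_simp; ring⟩, rfl⟩
    refine ⟨-((g : Matrix (Fin 2) (Fin 2) F) 1 0)⁻¹, by simpa using hc, ?_⟩
    rw [sl2_conj_iff]
    refine ⟨x, ?_⟩
    apply sl2_ext <;> simp [uu_val, hx, Matrix.SpecialLinearGroup.coe_mul, Matrix.mul_apply, Fin.sum_univ_two]
    · linear_combination -(g : Matrix (Fin 2) (Fin 2) F) 0 0 * htr + hd
    · field_simp
      ring
    · linear_combination -(g : Matrix (Fin 2) (Fin 2) F) 1 0 * htr

theorem uu_mul {F : Type*} [Field F] (b c : F) : uu b * uu c = uu (b + c) := by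
  apply sl2_ext <;> simp [uu_val, Matrix.SpecialLinearGroup.coe_mul, Matrix.mul_apply, Fin.sum_univ_two]
  ring

theorem uu_zero {F : Type*} [Field F] : uu (0 : F) = 1 := by
  apply sl2_ext <;> simp [uu_val]

theorem uu_pow {F : Type*} [Field F] (b : F) (n : ℕ) : uu b ^ n = uu (n * b) := by
  induction n with
  | zero => simp [uu_zero]
  | succ n ih =>
    rw [pow_succ, ih, uu_mul]
    congr 1
    push_cast
    ring

theorem uu_order {F : Type*} [Field F] (p : ℕ) [Fact p.Prime] [CharP F p] (b : F) (hb : b ≠ 0) :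
    orderOf (uu b) = p := by
  apply orderOf_eq_prime
  · rw [uu_pow, CharP.cast_eq_zero F p, zero_mul, uu_zero]
  · intro h
    have := congrArg (fun m : Matrix.SpecialLinearGroup (Fin 2) F =>
      (m : Matrix (Fin 2) (Fin 2) F) 0 1) h
    simp [uu_val] at this
    exact hb this

theorem order_p_trace {F : Type*} [Field F] (p : ℕ) [Fact p.Prime] [CharP F p]
    (g : Matrix.SpecialLinearGroup (Fin 2) F) (hg : orderOf g = p) :
    (g : Matrix (Fin 2) (Fin 2) F) 0 0 + (g : Matrix (Fin 2) (Fin 2) F) 1 1 = 2 ∧ g ≠ 1 := by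
  have hp : p.Prime := Fact.out
  have hgp : g ^ p = 1 := by rw [← hg]; exact pow_orderOf_eq_one g
  have h1 : ((g : Matrix (Fin 2) (Fin 2) F)) ^ p = 1 := by
    rw [← Matrix.SpecialLinearGroup.coe_pow, hgp, Matrix.SpecialLinearGroup.coe_one]
  have h2 : ((g : Matrix (Fin 2) (Fin 2) F) - 1) ^ p = 0 := by
    rw [sub_pow_char_of_commute p (Commute.one_right _), h1, one_pow, sub_self]
  have hnil : IsNilpotent ((g : Matrix (Fin 2) (Fin 2) F) - 1) := ⟨p, h2⟩
  have htr := Matrix.isNilpotent_trace_of_isNilpotent hnil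
  have htr0 : ((g : Matrix (Fin 2) (Fin 2) F) - 1).trace = 0 := htr.eq_zero
  rw [Matrix.trace_fin_two] at htr0
  simp only [Matrix.sub_apply, Matrix.one_apply_eq] at htr0
  refine ⟨by linear_combination htr0, ?_⟩
  intro h
  rw [h, orderOf_one] at hg
  exact hp.one_lt.ne hg

theorem card_centralizer_uu {F : Type*} [Field F] [Fintype F] (hF : ringChar F ≠ 2)
    (b : F) (hb : b ≠ 0) :
    Nat.card (Subgroup.centralizer ({uu b} : Set (Matrix.SpecialLinearGroup (Fin 2) F))) =
      2 * Fintype.card F := by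
  classical
  have h11 : (-1 : F) ≠ 1 := Ring.neg_one_ne_one_of_char_ne_two hF
  have hmem : ∀ x : Matrix.SpecialLinearGroup (Fin 2) F,
      x ∈ Subgroup.centralizer ({uu b} : Set (Matrix.SpecialLinearGroup (Fin 2) F)) ↔
      ((x : Matrix (Fin 2) (Fin 2) F) 1 0 = 0 ∧
        (x : Matrix (Fin 2) (Fin 2) F) 0 0 = (x : Matrix (Fin 2) (Fin 2) F) 1 1) := by
    intro x
    rw [Subgroup.mem_centralizer_iff]
    simp only [Set.mem_singleton_iff, forall_eq]
    constructor
    · intro h
      have e00 := congrArg (fun m : Matrix.SpecialLinearGroup (Fin 2) F =>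
        (m : Matrix (Fin 2) (Fin 2) F) 0 0) h
      have e01 := congrArg (fun m : Matrix.SpecialLinearGroup (Fin 2) F =>
        (m : Matrix (Fin 2) (Fin 2) F) 0 1) h
      simp [uu_val, Matrix.SpecialLinearGroup.coe_mul, Matrix.mul_apply, Fin.sum_univ_two] at e00 e01
      rcases e00 with e00 | e00
      · exact absurd e00 hb
      · refine ⟨e00, ?_⟩
        have : b * ((x : Matrix (Fin 2) (Fin 2) F) 0 0 - (x : Matrix (Fin 2) (Fin 2) F) 1 1) = 0 := by
          linear_combination -e01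
        rcases mul_eq_zero.1 this with h' | h'
        · exact absurd h' hb
        · exact sub_eq_zero.1 h'
    · rintro ⟨h10, h00⟩
      apply sl2_ext <;>
        simp [uu_val, Matrix.SpecialLinearGroup.coe_mul, Matrix.mul_apply, Fin.sum_univ_two, h10, h00]
      ring
  have hcard : Nat.card (Bool × F) = 2 * Fintype.card F := by
    rw [Nat.card_prod, Nat.card_eq_fintype_card, Nat.card_eq_fintype_card, Fintype.card_bool]
  rw [← hcard]
  symm
  apply Nat.card_congr
  have hmk : ∀ sb : Bool × F, ∃ x : Matrix.SpecialLinearGroup (Fin 2) F,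
      (x : Matrix (Fin 2) (Fin 2) F) = !![(if sb.1 then 1 else -1), sb.2; 0, (if sb.1 then 1 else -1)] := by
    intro sb
    refine ⟨⟨_, ?_⟩, rfl⟩
    rw [Matrix.det_fin_two_of]
    cases sb.1 <;> simp
  choose f hf using hmk
  refine Equiv.ofBijective (fun sb => ⟨f sb, ?_⟩) ⟨?_, ?_⟩
  · rw [hmem, hf]
    simp
  · intro sb sb' h
    have h' : f sb = f sb' := congrArg Subtype.val h
    have e00 := congrArg (fun m : Matrix.SpecialLinearGroup (Fin 2) F =>
      (m : Matrix (Fin 2) (Fin 2) F) 0 0) h'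
    have e01 := congrArg (fun m : Matrix.SpecialLinearGroup (Fin 2) F =>
      (m : Matrix (Fin 2) (Fin 2) F) 0 1) h'
    simp only [hf] at e00 e01
    simp at e00 e01
    rcases sb with ⟨s, β⟩
    rcases sb' with ⟨s', β'⟩
    simp only at e00 e01
    have hs : s = s' := by
      cases s <;> cases s' <;> simp at e00 ⊢
      · exact h11 e00
      · exact h11 e00.symm
    rw [hs, e01]
  · rintro ⟨x, hx⟩
    obtain ⟨h10, h00⟩ := (hmem x).1 hx
    have hd := sl2_det x
    rw [h10, mul_zero, sub_zero, ← h00] at hd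
    rcases mul_self_eq_one_iff.1 hd with h | h
    · refine ⟨(true, (x : Matrix (Fin 2) (Fin 2) F) 0 1), ?_⟩
      apply Subtype.ext
      apply sl2_ext <;> simp [hf, h, h10, ← h00]
    · refine ⟨(false, (x : Matrix (Fin 2) (Fin 2) F) 0 1), ?_⟩
      apply Subtype.ext
      apply sl2_ext <;> simp [hf, h, h10, ← h00]

theorem card_class_uu {F : Type*} [Field F] [Fintype F] (hF : ringChar F ≠ 2)
    (b : F) (hb : b ≠ 0) :
    Nat.card (ConjClasses.mk (uu b)).carrier = (Fintype.card F ^ 2 - 1) / 2 := by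
  have h := card_class_mul_card_centralizer (uu b)
  rw [card_centralizer_uu hF b hb, card_SL2] at h
  have hq : 0 < Fintype.card F := Fintype.card_pos
  have h2 : Fintype.card F * (Nat.card (ConjClasses.mk (uu b)).carrier * 2) =
      Fintype.card F * (Fintype.card F ^ 2 - 1) := by
    rw [← h]; ring
  have h3 := Nat.eq_of_mul_eq_mul_left hq h2
  omega

theorem result {F : Type*} [Field F] [Fintype F] (p : ℕ) [Fact p.Prime] [CharP F p] (hp : p ≠ 2) :
    Nat.card {C : ConjClasses (Matrix.SpecialLinearGroup (Fin 2) F) // ∃ g : Matrix.SpecialLinearGroup (Fin 2) F, orderOf g = p ∧ ConjClasses.mk g = C} = 2 ∧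
    (∀ g : Matrix.SpecialLinearGroup (Fin 2) F, orderOf g = p → Nat.card (ConjClasses.mk g).carrier = (Fintype.card F ^ 2 - 1) / 2) ∧
    ∀ g h : Matrix.SpecialLinearGroup (Fin 2) F, (g : Matrix (Fin 2) (Fin 2) F) 0 0 = 1 → (g : Matrix (Fin 2) (Fin 2) F) 1 1 = 1 → (g : Matrix (Fin 2) (Fin 2) F) 1 0 = 0 → (g : Matrix (Fin 2) (Fin 2) F) 0 1 ≠ 0 →
      (h : Matrix (Fin 2) (Fin 2) F) 0 0 = 1 → (h : Matrix (Fin 2) (Fin 2) F) 1 1 = 1 → (h : Matrix (Fin 2) (Fin 2) F) 1 0 = 0 → (h : Matrix (Fin 2) (Fin 2) F) 0 1 ≠ 0 →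
      (IsConj g h ↔ IsSquare ((g : Matrix (Fin 2) (Fin 2) F) 0 1 * (h : Matrix (Fin 2) (Fin 2) F) 0 1)) := by
  classical
  have hF : ringChar F ≠ 2 := by
    rw [ringChar.eq F p]
    exact hp
  obtain ⟨ε, hε⟩ := FiniteField.exists_nonsquare hF
  have hε0 : ε ≠ 0 := by
    rintro rfl
    exact hε IsSquare.zero
  have hconj : ∀ g : Matrix.SpecialLinearGroup (Fin 2) F, orderOf g = p →
      ∃ b : F, b ≠ 0 ∧ IsConj (uu b) g := by
    intro g hg
    obtain ⟨htr, hne⟩ := order_p_trace p g hg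
    exact trace2_conj g htr hne
  have hcls : ∀ b : F, b ≠ 0 → ConjClasses.mk (uu b) = ConjClasses.mk (uu (1 : F)) ∨
      ConjClasses.mk (uu b) = ConjClasses.mk (uu ε) := by
    intro b hb
    by_cases hsq : IsSquare b
    · left
      apply ConjClasses.mk_eq_mk_iff_isConj.2
      rw [uu_conj b 1 hb one_ne_zero, mul_one]
      exact hsq
    · right
      apply ConjClasses.mk_eq_mk_iff_isConj.2
      rw [uu_conj b ε hb hε0]
      have h1 : quadraticChar F (b * ε) = 1 := by
        rw [map_mul, quadraticChar_neg_one_iff_not_isSquare.2 hsq,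
          quadraticChar_neg_one_iff_not_isSquare.2 hε]
        norm_num
      exact (quadraticChar_one_iff_isSquare (mul_ne_zero hb hε0)).1 h1
  refine ⟨?_, ?_, ?_⟩
  · have hset : {C : ConjClasses (Matrix.SpecialLinearGroup (Fin 2) F) |
        ∃ g : Matrix.SpecialLinearGroup (Fin 2) F, orderOf g = p ∧ ConjClasses.mk g = C} =
        {ConjClasses.mk (uu (1 : F)), ConjClasses.mk (uu ε)} := by
      ext C
      simp only [Set.mem_setOf_eq, Set.mem_insert_iff, Set.mem_singleton_iff]
      constructor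
      · rintro ⟨g, hg, rfl⟩
        obtain ⟨b, hb, hbg⟩ := hconj g hg
        rw [← ConjClasses.mk_eq_mk_iff_isConj.2 hbg]
        exact hcls b hb
      · rintro (rfl | rfl)
        · exact ⟨uu 1, uu_order p 1 one_ne_zero, rfl⟩
        · exact ⟨uu ε, uu_order p ε hε0, rfl⟩
    have hne : ConjClasses.mk (uu (1 : F)) ≠ ConjClasses.mk (uu ε) := by
      intro h
      have := (uu_conj 1 ε one_ne_zero hε0).1 (ConjClasses.mk_eq_mk_iff_isConj.1 h)
      rw [one_mul] at this
      exact hε this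
    have h2 := Set.ncard_pair hne
    rw [← hset] at h2
    exact h2
  · intro g hg
    obtain ⟨b, hb, hbg⟩ := hconj g hg
    rw [← ConjClasses.mk_eq_mk_iff_isConj.2 hbg]
    exact card_class_uu hF b hb
  · intro g h g00 g11 g10 g01 h00 h11 h10 h01
    have hg : g = uu ((g : Matrix (Fin 2) (Fin 2) F) 0 1) := by
      apply sl2_ext <;> simp [uu_val, g00, g11, g10]
    have hh : h = uu ((h : Matrix (Fin 2) (Fin 2) F) 0 1) := by
      apply sl2_ext <;> simp [uu_val, h00, h11, h10]
    rw [hg, hh]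
    simp only [uu_val, Matrix.of_apply, Matrix.cons_val', Matrix.cons_val_one, Matrix.cons_val_zero]
    rw [hg] at g01
    rw [hh] at h01
    simp only [uu_val, Matrix.of_apply, Matrix.cons_val', Matrix.cons_val_one, Matrix.cons_val_zero] at g01 h01
    exact uu_conj _ _ g01 h01

end Cfsg.Agent.S2301
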