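import Cfsg.Statements.S2302
import Mathlib

set_option autoImplicit false
open Cfsg

namespace Cfsg.Agent.S2302

/-- the involution attached to `(u, s)` -/
def phi {F : Type*} [Field F] [CharP F 2] (x : F × F) : Matrix.SpecialLinearGroup (Fin 2) F :=
  ⟨!![1 + x.1 * x.2, x.1 * x.1; x.2 * x.2, 1 + x.1 * x.2], by
    rw [Matrix.det_fin_two_of]
    have h2 : (2 : F) = 0 := CharTwo.two_eq_zero
    linear_combination (x.1 * x.2) * h2⟩

theorem phi_val {F : Type*} [Field F] [CharP F 2] (x : F × F) :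
    ((phi x : Matrix.SpecialLinearGroup (Fin 2) F) : Matrix (Fin 2) (Fin 2) F) =
      !![1 + x.1 * x.2, x.1 * x.1; x.2 * x.2, 1 + x.1 * x.2] := rfl

/-- the standard transvection -/
def Jm (F : Type*) [Field F] : Matrix.SpecialLinearGroup (Fin 2) F :=
  ⟨!![1, 1; 0, 1], by simp [Matrix.det_fin_two_of]⟩

theorem Jm_val (F : Type*) [Field F] :
    ((Jm F : Matrix.SpecialLinearGroup (Fin 2) F) : Matrix (Fin 2) (Fin 2) F) = !![1, 1; 0, 1] := rfl

theorem sq_inj {F : Type*} [Field F] [CharP F 2] {x y : F} (h : x * x = y * y) : x = y := by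
  have h2 : (2 : F) = 0 := CharTwo.two_eq_zero
  have : (x - y) * (x - y) = 0 := by linear_combination h + (y * y - x * y) * h2
  exact sub_eq_zero.mp (mul_self_eq_zero.mp this)

theorem phi_inj {F : Type*} [Field F] [CharP F 2] : Function.Injective (phi (F := F)) := by
  intro x y h
  have h' : ((phi x : Matrix.SpecialLinearGroup (Fin 2) F) : Matrix (Fin 2) (Fin 2) F) =
      ((phi y : Matrix.SpecialLinearGroup (Fin 2) F) : Matrix (Fin 2) (Fin 2) F) := by rw [h]
  rw [phi_val, phi_val] at h'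
  have h01 := congrFun (congrFun h' 0) 1
  have h10 := congrFun (congrFun h' 1) 0
  simp at h01 h10
  exact Prod.ext (sq_inj h01) (sq_inj h10)

theorem phi_conj {F : Type*} [Field F] [CharP F 2] (x : F × F) (hx : x ≠ 0) :
    ∃ P : Matrix.SpecialLinearGroup (Fin 2) F, phi x * P = P * Jm F := by
  have h2 : (2 : F) = 0 := CharTwo.two_eq_zero
  by_cases hu : x.1 = 0
  · have hs : x.2 ≠ 0 := by
      intro hs; apply hx; exact Prod.ext hu hs
    have hdet : (!![x.1, x.2⁻¹; x.2, 0] : Matrix (Fin 2) (Fin 2) F).det = 1 := by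
      rw [Matrix.det_fin_two_of]
      field_simp
      linear_combination (-1 : F) * h2
    obtain ⟨P, hPv⟩ : ∃ P : Matrix.SpecialLinearGroup (Fin 2) F,
        (P : Matrix (Fin 2) (Fin 2) F) = !![x.1, x.2⁻¹; x.2, 0] := ⟨⟨_, hdet⟩, rfl⟩
    refine ⟨P, ?_⟩
    apply Subtype.ext
    rw [Matrix.SpecialLinearGroup.coe_mul, Matrix.SpecialLinearGroup.coe_mul, phi_val, Jm_val, hPv]
    have hi : x.2⁻¹ * x.2 = 1 := inv_mul_cancel₀ hs
    ext i j
    fin_cases i <;> fin_cases j <;> simp [Matrix.mul_apply, Fin.sum_univ_two] <;> grind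
  · have hdet : (!![x.1, 0; x.2, x.1⁻¹] : Matrix (Fin 2) (Fin 2) F).det = 1 := by
      rw [Matrix.det_fin_two_of]
      field_simp
      ring
    obtain ⟨P, hPv⟩ : ∃ P : Matrix.SpecialLinearGroup (Fin 2) F,
        (P : Matrix (Fin 2) (Fin 2) F) = !![x.1, 0; x.2, x.1⁻¹] := ⟨⟨_, hdet⟩, rfl⟩
    refine ⟨P, ?_⟩
    apply Subtype.ext
    rw [Matrix.SpecialLinearGroup.coe_mul, Matrix.SpecialLinearGroup.coe_mul, phi_val, Jm_val, hPv]
    have hi : x.1⁻¹ * x.1 = 1 := inv_mul_cancel₀ hu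
    ext i j
    fin_cases i <;> fin_cases j <;> simp [Matrix.mul_apply, Fin.sum_univ_two] <;> grind

theorem phi_order {F : Type*} [Field F] [CharP F 2] (x : F × F) (hx : x ≠ 0) :
    orderOf (phi x) = 2 := by
  have h2 : (2 : F) = 0 := CharTwo.two_eq_zero
  haveI : Fact (Nat.Prime 2) := ⟨Nat.prime_two⟩
  apply orderOf_eq_prime
  · rw [pow_two]
    apply Subtype.ext
    rw [Matrix.SpecialLinearGroup.coe_mul, phi_val, Matrix.SpecialLinearGroup.coe_one]
    ext i j
    fin_cases i <;> fin_cases j <;> simp [Matrix.mul_apply, Fin.sum_univ_two] <;> grind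
  · intro h
    have h' : ((phi x : Matrix.SpecialLinearGroup (Fin 2) F) : Matrix (Fin 2) (Fin 2) F) = 1 := by
      rw [h]; rfl
    rw [phi_val] at h'
    have h01 := congrFun (congrFun h' 0) 1
    have h10 := congrFun (congrFun h' 1) 0
    simp at h01 h10
    exact hx (Prod.ext h01 h10)

theorem phi_surj {F : Type*} [Field F] [Fintype F] [CharP F 2]
    (g : Matrix.SpecialLinearGroup (Fin 2) F) (hg : orderOf g = 2) :
    ∃ x : F × F, x ≠ 0 ∧ phi x = g := by
  have h2 : (2 : F) = 0 := CharTwo.two_eq_zero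
  have hchar : ringChar F = 2 := ringChar.eq F 2
  have hsq : g ^ 2 = 1 := by
    have := pow_orderOf_eq_one g
    rwa [hg] at this
  have hA : (g : Matrix (Fin 2) (Fin 2) F) * (g : Matrix (Fin 2) (Fin 2) F) = 1 := by
    rw [pow_two] at hsq
    rw [← Matrix.SpecialLinearGroup.coe_mul, hsq]; rfl
  have hdet : (g : Matrix (Fin 2) (Fin 2) F) 0 0 * (g : Matrix (Fin 2) (Fin 2) F) 1 1 -
      (g : Matrix (Fin 2) (Fin 2) F) 0 1 * (g : Matrix (Fin 2) (Fin 2) F) 1 0 = 1 := by
    rw [← Matrix.det_fin_two]; exact g.2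
  have e00 := congrFun (congrFun hA 0) 0
  have e11 := congrFun (congrFun hA 1) 1
  simp [Matrix.mul_apply, Fin.sum_univ_two] at e00 e11
  obtain ⟨u, hu⟩ := FiniteField.isSquare_of_char_two hchar ((g : Matrix (Fin 2) (Fin 2) F) 0 1)
  obtain ⟨s, hs⟩ := FiniteField.isSquare_of_char_two hchar ((g : Matrix (Fin 2) (Fin 2) F) 1 0)
  obtain ⟨a, ha0⟩ : ∃ a, (g : Matrix (Fin 2) (Fin 2) F) 0 0 = a := ⟨_, rfl⟩
  rw [ha0] at hdet e00
  have had : (g : Matrix (Fin 2) (Fin 2) F) 1 1 = a := by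
    have : ((g : Matrix (Fin 2) (Fin 2) F) 1 1 - a) * ((g : Matrix (Fin 2) (Fin 2) F) 1 1 - a) = 0 := by
      linear_combination e00 + e11 + (1 - (g : Matrix (Fin 2) (Fin 2) F) 0 1 * (g : Matrix (Fin 2) (Fin 2) F) 1 0 - a * (g : Matrix (Fin 2) (Fin 2) F) 1 1) * h2
    exact sub_eq_zero.mp (mul_self_eq_zero.mp this)
  have ha : a = 1 + u * s := by
    have : (a - (1 + u * s)) * (a - (1 + u * s)) = 0 := by
      rw [hu, hs] at e00
      linear_combination e00 + (1 - a - a * u * s + u * s) * h2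
    exact sub_eq_zero.mp (mul_self_eq_zero.mp this)
  have hphi : phi (u, s) = g := by
    apply Subtype.ext
    rw [phi_val]
    ext i j
    fin_cases i <;> fin_cases j <;> simp <;> grind
  refine ⟨(u, s), ?_, hphi⟩
  intro h0
  rw [h0] at hphi
  have h1 : g = 1 := by
    rw [← hphi]
    apply Subtype.ext
    rw [phi_val]
    ext i j
    fin_cases i <;> fin_cases j <;> simp
  rw [h1, orderOf_one] at hg
  omega

theorem result {F : Type*} [Field F] [Fintype F] [CharP F 2] (g h : Matrix.SpecialLinearGroup (Fin 2) F) (hg : orderOf g = 2) (hh : orderOf h = 2) :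
    IsConj g h ∧ Nat.card (ConjClasses.mk g).carrier = Fintype.card F ^ 2 - 1 := by
  classical
  have hconjJ : ∀ g : Matrix.SpecialLinearGroup (Fin 2) F, orderOf g = 2 → IsConj g (Jm F) := by
    intro g hg
    obtain ⟨x, hx, rfl⟩ := phi_surj g hg
    obtain ⟨P, hP⟩ := phi_conj x hx
    exact isConj_iff.mpr ⟨P⁻¹, by rw [inv_inv, mul_assoc, hP, inv_mul_cancel_left]⟩
  refine ⟨(hconjJ g hg).trans (hconjJ h hh).symm, ?_⟩
  have hmem : ∀ x : F × F, x ≠ 0 → phi x ∈ (ConjClasses.mk g).carrier := by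
    intro x hx
    rw [ConjClasses.mem_carrier_iff_mk_eq, ConjClasses.mk_eq_mk_iff_isConj]
    exact (hconjJ _ (phi_order x hx)).trans (hconjJ g hg).symm
  have hbij : Function.Bijective (fun x : {x : F × F // x ≠ 0} =>
      (⟨phi x.1, hmem x.1 x.2⟩ : ↥(ConjClasses.mk g).carrier)) := by
    constructor
    · intro x y hxy
      have := congrArg Subtype.val hxy
      exact Subtype.ext (phi_inj this)
    · rintro ⟨k, hk⟩
      rw [ConjClasses.mem_carrier_iff_mk_eq, ConjClasses.mk_eq_mk_iff_isConj] at hk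
      obtain ⟨c, hc⟩ := hk
      have hko : orderOf k = 2 := by rw [SemiconjBy.orderOf_eq _ hc, hg]
      obtain ⟨x, hx, hxk⟩ := phi_surj k hko
      exact ⟨⟨x, hx⟩, Subtype.ext hxk⟩
  rw [← Nat.card_eq_of_bijective _ hbij, Nat.card_eq_fintype_card]
  have := Set.card_ne_eq (0 : F × F)
  rw [Fintype.card_prod] at this
  rw [sq]
  convert this

end Cfsg.Agent.S2302
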