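import Cfsg.Statements.S2306
import Mathlib
import Cfsg.Agent.S2432

set_option autoImplicit false
open Cfsg

namespace Cfsg.Agent.S2306

theorem result {F : Type*} [Field F] [Fintype F] [DecidableEq F] (α : MulChar F ℂ) :
    Cfsg.IsIrrCharacter (Matrix.SpecialLinearGroup (Fin 2) F) (Cfsg.indFun ((Cfsg.upperTriangularGL 2 F).comap Matrix.SpecialLinearGroup.toGL) (fun b => α (((b : Matrix.SpecialLinearGroup (Fin 2) F) : Matrix (Fin 2) (Fin 2) F) 0 0))) ↔ α ^ 2 ≠ 1 := by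
  show Cfsg.IsIrrCharacter (Matrix.SpecialLinearGroup (Fin 2) F)
    (Cfsg.indFun ((Cfsg.upperTriangularGL 2 F).comap Matrix.SpecialLinearGroup.toGL)
      (Cfsg.Agent.S2432.ths α)) ↔ _
  have h := Cfsg.Agent.S2432.sinner_ind α α
  rw [if_pos rfl] at h
  have hiff : α ^ 2 = 1 ↔ α = α⁻¹ := by
    rw [sq, mul_eq_one_iff_eq_inv]
  constructor
  · intro hirr hsq
    have h1 := Cfsg.Agent.Lib.Helper3.Char.irr_inner_self hirr
    rw [h, if_pos (hiff.mp hsq)] at h1
    norm_num at h1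
  · intro hsq
    rw [if_neg (fun hc => hsq (hiff.mpr hc)), add_zero] at h
    exact Cfsg.Agent.Lib.Helper3.CharArith.isIrr_of_inner_self (Cfsg.Agent.S2432.sind_char α) h

end Cfsg.Agent.S2306
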