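import Cfsg.Statements.S2308
import Mathlib

set_option autoImplicit false
open Cfsg

namespace Cfsg.Agent.S2308

open Matrix

theorem mem_B {F : Type*} [Field F] (g : GL (Fin 2) F) :
    g ∈ Cfsg.upperTriangularGL 2 F ↔ (g : Matrix (Fin 2) (Fin 2) F) 1 0 = 0 := by
  change (g : Matrix (Fin 2) (Fin 2) F).BlockTriangular id ↔ _
  constructor
  · intro h
    exact h (by decide : id (0 : Fin 2) < id 1)
  · intro h i j hij
    fin_cases i <;> fin_cases j <;> simp_all

/-- coset representatives -/
def rep {F : Type*} [Field F] : Option F → GL (Fin 2) F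
  | none => 1
  | some t => ⟨!![t, 1; 1, 0], !![0, 1; 1, -t], by
      ext i j; fin_cases i <;> fin_cases j <;> simp [Matrix.mul_apply, Fin.sum_univ_two], by
      ext i j; fin_cases i <;> fin_cases j <;> simp [Matrix.mul_apply, Fin.sum_univ_two]⟩

def cond {F : Type*} [Field F] (g : GL (Fin 2) F) : Option F → Prop
  | none => (g : Matrix (Fin 2) (Fin 2) F) 1 0 = 0
  | some t => (g : Matrix (Fin 2) (Fin 2) F) 0 0 * t + (g : Matrix (Fin 2) (Fin 2) F) 0 1
      - t * ((g : Matrix (Fin 2) (Fin 2) F) 1 0 * t + (g : Matrix (Fin 2) (Fin 2) F) 1 1) = 0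

theorem rep_inv_mul {F : Type*} [Field F] (o : Option F) (x : GL (Fin 2) F) :
    (((rep o)⁻¹ * x : GL (Fin 2) F) : Matrix (Fin 2) (Fin 2) F) 1 0 =
      match o with
      | none => (x : Matrix (Fin 2) (Fin 2) F) 1 0
      | some t => (x : Matrix (Fin 2) (Fin 2) F) 0 0 - t * (x : Matrix (Fin 2) (Fin 2) F) 1 0 := by
  cases o with
  | none => simp [rep]
  | some t =>
    have : ((rep (some t))⁻¹ : GL (Fin 2) F) = ⟨!![0, 1; 1, -t], !![t, 1; 1, 0], by
      ext i j; fin_cases i <;> fin_cases j <;> simp [Matrix.mul_apply, Fin.sum_univ_two], by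
      ext i j; fin_cases i <;> fin_cases j <;> simp [Matrix.mul_apply, Fin.sum_univ_two]⟩ := rfl
    rw [this]
    simp [Matrix.mul_apply, Fin.sum_univ_two]
    ring

theorem e_bij {F : Type*} [Field F] :
    Function.Bijective (fun o : Option F =>
      (QuotientGroup.mk (rep o) : GL (Fin 2) F ⧸ Cfsg.upperTriangularGL 2 F)) := by
  constructor
  · intro o o' h
    have h' := QuotientGroup.eq.1 h
    rw [mem_B, rep_inv_mul] at h'
    cases o with
    | none =>
      cases o' with
      | none => rfl
      | some t => simp [rep] at h'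
    | some s =>
      cases o' with
      | none => simp [rep] at h'
      | some t =>
        simp [rep] at h'
        have : t = s := by linear_combination h'
        rw [this]
  · intro c
    induction c using QuotientGroup.induction_on with
    | H x =>
      by_cases hx : (x : Matrix (Fin 2) (Fin 2) F) 1 0 = 0
      · refine ⟨none, ?_⟩
        apply QuotientGroup.eq.2
        rw [mem_B, rep_inv_mul]
        exact hx
      · refine ⟨some ((x : Matrix (Fin 2) (Fin 2) F) 0 0 / (x : Matrix (Fin 2) (Fin 2) F) 1 0), ?_⟩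
        apply QuotientGroup.eq.2
        rw [mem_B, rep_inv_mul]
        field_simp
        ring

theorem fixed_iff {F : Type*} [Field F] (g : GL (Fin 2) F) (o : Option F) :
    g • (QuotientGroup.mk (rep o) : GL (Fin 2) F ⧸ Cfsg.upperTriangularGL 2 F) = QuotientGroup.mk (rep o)
      ↔ cond g o := by
  rw [MulAction.Quotient.smul_mk, eq_comm, QuotientGroup.eq, mem_B, rep_inv_mul]
  cases o with
  | none => simp [rep, cond]
  | some t =>
    simp [rep, cond, Matrix.mul_apply, Fin.sum_univ_two]

theorem key {F : Type*} [Field F] (g : GL (Fin 2) F) :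
    Nat.card (MulAction.fixedBy (GL (Fin 2) F ⧸ Cfsg.upperTriangularGL 2 F) g) =
      Set.ncard {o : Option F | cond g o} := by
  rw [← Nat.card_coe_set_eq]
  symm
  refine Nat.card_congr (Equiv.subtypeEquiv (Equiv.ofBijective _ e_bij) ?_)
  intro o
  rw [Set.mem_setOf_eq, MulAction.mem_fixedBy]
  exact (fixed_iff g o).symm

theorem result {F : Type*} [Field F] [Fintype F] (g : Matrix.GeneralLinearGroup (Fin 2) F) :
    ((∃ a : F, (g : Matrix (Fin 2) (Fin 2) F) = a • (1 : Matrix (Fin 2) (Fin 2) F)) → Cfsg.fixedPointCharacter (Cfsg.upperTriangularGL 2 F) g = Fintype.card F + 1) ∧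
    ((g : Matrix (Fin 2) (Fin 2) F) 0 1 = 0 → (g : Matrix (Fin 2) (Fin 2) F) 1 0 = 0 → (g : Matrix (Fin 2) (Fin 2) F) 0 0 ≠ (g : Matrix (Fin 2) (Fin 2) F) 1 1 →
      Cfsg.fixedPointCharacter (Cfsg.upperTriangularGL 2 F) g = 2) ∧
    ((∀ (c : F) (v : Fin 2 → F), v ≠ 0 → (g : Matrix (Fin 2) (Fin 2) F).mulVec v ≠ c • v) → Cfsg.fixedPointCharacter (Cfsg.upperTriangularGL 2 F) g = 0) ∧
    ((g : Matrix (Fin 2) (Fin 2) F) 1 0 = 0 → (g : Matrix (Fin 2) (Fin 2) F) 0 0 = (g : Matrix (Fin 2) (Fin 2) F) 1 1 → (g : Matrix (Fin 2) (Fin 2) F) 0 1 ≠ 0 →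
      Cfsg.fixedPointCharacter (Cfsg.upperTriangularGL 2 F) g = 1) := by
  unfold Cfsg.fixedPointCharacter
  simp only [key]
  refine ⟨?_, ?_, ?_, ?_⟩
  · rintro ⟨a, ha⟩
    have : {o : Option F | cond g o} = Set.univ := by
      ext o
      simp only [Set.mem_setOf_eq, Set.mem_univ, iff_true]
      cases o with
      | none => simp [cond, ha]
      | some t => simp [cond, ha]; ring
    rw [this, Set.ncard_univ, Nat.card_eq_fintype_card, Fintype.card_option]
    push_cast
    rfl
  · intro h01 h10 hne
    have : {o : Option F | cond g o} = {none, some 0} := by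
      ext o
      simp only [Set.mem_setOf_eq, Set.mem_insert_iff, Set.mem_singleton_iff]
      cases o with
      | none => simp [cond, h10]
      | some t =>
        simp only [cond, h10, h01, reduceCtorEq, Option.some.injEq, false_or]
        constructor
        · intro h
          have h' : t * ((g : Matrix (Fin 2) (Fin 2) F) 0 0 - (g : Matrix (Fin 2) (Fin 2) F) 1 1) = 0 := by
            linear_combination h
          rcases mul_eq_zero.1 h' with h'' | h''
          · exact h''
          · exact absurd (sub_eq_zero.1 h'') hne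
        · rintro rfl
          ring
    rw [this, Set.ncard_pair (by simp)]
    norm_num
  · intro hno
    have : {o : Option F | cond g o} = ∅ := by
      ext o
      simp only [Set.mem_setOf_eq, Set.mem_empty_iff_false, iff_false]
      cases o with
      | none =>
        intro h
        refine hno ((g : Matrix (Fin 2) (Fin 2) F) 0 0) ![1, 0] (by simp) ?_
        ext i
        fin_cases i <;> simp [Matrix.mulVec, dotProduct, Fin.sum_univ_two]
        exact h
      | some t =>
        intro h
        refine hno ((g : Matrix (Fin 2) (Fin 2) F) 1 0 * t + (g : Matrix (Fin 2) (Fin 2) F) 1 1) ![t, 1] (by simp) ?_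
        ext i
        fin_cases i <;> simp [Matrix.mulVec, dotProduct, Fin.sum_univ_two]
        simp only [cond] at h
        linear_combination h
    rw [this, Set.ncard_empty]
    norm_num
  · intro h10 heq hne
    have : {o : Option F | cond g o} = {none} := by
      ext o
      simp only [Set.mem_setOf_eq, Set.mem_singleton_iff]
      cases o with
      | none => simp [cond, h10]
      | some t =>
        simp only [cond, h10, heq, reduceCtorEq, iff_false]
        intro h
        apply hne
        linear_combination h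
    rw [this, Set.ncard_singleton]
    norm_num

end Cfsg.Agent.S2308
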