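import Cfsg.Statements.S2310
import Mathlib
import Cfsg.Agent.S2309

set_option autoImplicit false
open Cfsg

namespace Cfsg.Agent.S2310

theorem result {F : Type*} [Field F] [Fintype F] (hq : 3 ≤ Fintype.card F) (χ : Matrix.GeneralLinearGroup (Fin 2) F → ℂ) (hχ : Cfsg.IsIrrCharacter (Matrix.GeneralLinearGroup (Fin 2) F) χ)
    (u : Matrix.GeneralLinearGroup (Fin 2) F) (hu : (u : Matrix (Fin 2) (Fin 2) F) = !![1, 1; 0, 1]) :
    (χ 1 = 1 → χ u = 1) ∧ (χ 1 = (Fintype.card F : ℂ) + 1 → χ u = 1) ∧
    (χ 1 = (Fintype.card F : ℂ) - 1 → χ u = -1) ∧ (χ 1 = (Fintype.card F : ℂ) → χ u = 0) := by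
  classical
  have hq3 : (3 : ℝ) ≤ (Fintype.card F : ℝ) := by exact_mod_cast hq
  have key : ∀ c : ℝ, ((Fintype.card F : ℂ) = (c : ℂ)) → (Fintype.card F : ℝ) = c := by
    intro c h
    have h2 : ((Fintype.card F : ℝ) : ℂ) = (c : ℂ) := by
      rw [← h]
      simp
    exact_mod_cast h2
  rcases Cfsg.Agent.S2309.classify χ hχ with ⟨lam, rfl⟩ | ⟨lam, rfl⟩ | ⟨α, β, hαβ, rfl⟩ | ⟨hc, hdeg, hu', hs⟩
  · refine ⟨fun _ => Cfsg.Agent.S2309.LD_u lam u hu, fun _ => Cfsg.Agent.S2309.LD_u lam u hu, ?_, ?_⟩
    · intro h1
      rw [Cfsg.Agent.S2309.LD_one] at h1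
      exfalso
      have := key 2 (by push_cast; linear_combination -h1)
      linarith
    · intro h1
      rw [Cfsg.Agent.S2309.LD_one] at h1
      exfalso
      have := key 1 (by push_cast; linear_combination -h1)
      linarith
  · refine ⟨?_, ?_, ?_, fun _ => Cfsg.Agent.S2309.St_u lam u hu⟩
    · intro h1
      rw [Cfsg.Agent.S2309.St_one] at h1
      exfalso
      have := key 1 (by push_cast; linear_combination h1)
      linarith
    · intro h1
      rw [Cfsg.Agent.S2309.St_one] at h1
      exfalso
      have : (1 : ℂ) = 0 := by linear_combination -h1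
      norm_num at this
    · intro h1
      rw [Cfsg.Agent.S2309.St_one] at h1
      exfalso
      have : (1 : ℂ) = 0 := by linear_combination h1
      norm_num at this
  · refine ⟨?_, fun _ => Cfsg.Agent.S2309.PS_u α β u hu, ?_, ?_⟩
    · intro h1
      rw [Cfsg.Agent.S2309.PS_one] at h1
      exfalso
      have := key 0 (by push_cast; linear_combination h1)
      linarith
    · intro h1
      rw [Cfsg.Agent.S2309.PS_one] at h1
      exfalso
      have : (2 : ℂ) = 0 := by linear_combination h1
      norm_num at this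
    · intro h1
      rw [Cfsg.Agent.S2309.PS_one] at h1
      exfalso
      have : (1 : ℂ) = 0 := by linear_combination h1
      norm_num at this
  · refine ⟨?_, ?_, fun _ => hu' u hu, ?_⟩
    · intro h1
      rw [hdeg] at h1
      exfalso
      have := key 2 (by push_cast; linear_combination h1)
      linarith
    · intro h1
      rw [hdeg] at h1
      exfalso
      have : (2 : ℂ) = 0 := by linear_combination -h1
      norm_num at this
    · intro h1
      rw [hdeg] at h1
      exfalso
      have : (1 : ℂ) = 0 := by linear_combination -h1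
      norm_num at this

end Cfsg.Agent.S2310
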