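import Cfsg.Statements.S2320
import Mathlib
import Cfsg.Agent.S2309

set_option autoImplicit false
open Cfsg

namespace Cfsg.Agent.S2320

theorem result {F : Type*} [Field F] [Fintype F] (χ : Matrix.GeneralLinearGroup (Fin 2) F → ℂ) (hχ : Cfsg.IsIrrCharacter (Matrix.GeneralLinearGroup (Fin 2) F) χ) (hdeg : χ 1 = (Fintype.card F : ℂ)) (g : Matrix.GeneralLinearGroup (Fin 2) F) :
    ((g : Matrix (Fin 2) (Fin 2) F) 0 1 = 0 → (g : Matrix (Fin 2) (Fin 2) F) 1 0 = 0 → (g : Matrix (Fin 2) (Fin 2) F) 0 0 ≠ (g : Matrix (Fin 2) (Fin 2) F) 1 1 → ‖χ g‖ = 1) ∧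
    ((∀ (c : F) (v : Fin 2 → F), v ≠ 0 → (g : Matrix (Fin 2) (Fin 2) F).mulVec v ≠ c • v) → ‖χ g‖ = 1) := by
  classical
  have hq1 : 1 < Fintype.card F := Fintype.one_lt_card
  rcases Cfsg.Agent.S2309.classify χ hχ with ⟨lam, rfl⟩ | ⟨lam, rfl⟩ | ⟨α, β, hαβ, rfl⟩ | ⟨hc, hdeg', hu', hs⟩
  · exfalso
    rw [Cfsg.Agent.S2309.LD_one] at hdeg
    have : Fintype.card F = 1 := by exact_mod_cast hdeg.symm
    omega
  · constructor
    · intro h01 h10 hne
      have hdet := Cfsg.Agent.S2304.det_ne g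
      rw [h01, zero_mul, sub_zero] at hdet
      rw [Cfsg.Agent.S2309.St_apply, Cfsg.Agent.S2309.PS_split lam lam g h01 h10 hne,
        Cfsg.Agent.S2309.LD_apply, h01, zero_mul, sub_zero, map_mul]
      have e : lam ((g : Matrix (Fin 2) (Fin 2) F) 0 0) * lam ((g : Matrix (Fin 2) (Fin 2) F) 1 1) +
          lam ((g : Matrix (Fin 2) (Fin 2) F) 1 1) * lam ((g : Matrix (Fin 2) (Fin 2) F) 0 0) -
          lam ((g : Matrix (Fin 2) (Fin 2) F) 0 0) * lam ((g : Matrix (Fin 2) (Fin 2) F) 1 1) =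
          lam ((g : Matrix (Fin 2) (Fin 2) F) 0 0) * lam ((g : Matrix (Fin 2) (Fin 2) F) 1 1) := by
        ring
      rw [e, norm_mul, Cfsg.Agent.S2309.mc_norm_one lam (left_ne_zero_of_mul hdet),
        Cfsg.Agent.S2309.mc_norm_one lam (right_ne_zero_of_mul hdet), mul_one]
    · intro hg
      rw [Cfsg.Agent.S2309.St_apply, Cfsg.Agent.S2309.PS_elliptic lam lam g hg,
        Cfsg.Agent.S2309.LD_apply, zero_sub, norm_neg]
      exact Cfsg.Agent.S2309.mc_norm_one lam (Cfsg.Agent.S2304.det_ne g)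
  · exfalso
    rw [Cfsg.Agent.S2309.PS_one] at hdeg
    have : (1 : ℂ) = 0 := by linear_combination hdeg
    norm_num at this
  · exfalso
    rw [hdeg'] at hdeg
    have : (1 : ℂ) = 0 := by linear_combination -hdeg
    norm_num at this

end Cfsg.Agent.S2320
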