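import Cfsg.Statements.S2438
import Cfsg.Agent.S2299

set_option autoImplicit false
open Cfsg

set_option maxHeartbeats 1000000
namespace Cfsg.Agent.S2438

open scoped ComplexConjugate

section SL2e

open Cfsg.Agent.S2323 Cfsg.Agent.S2300

variable {F : Type*} [Field F] [Fintype F] [DecidableEq F]

/-- The diagonal matrix `diag(δ, 1)`. -/
noncomputable def dg (δ : F) (hδ : δ ≠ 0) : Matrix.GeneralLinearGroup (Fin 2) F :=
  Cfsg.Agent.S2304.mk2 δ 0 0 1 (by rw [mul_one, zero_mul, sub_zero]; exact hδ)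

theorem dg_entries (δ : F) (hδ : δ ≠ 0) :
    ((dg δ hδ : Matrix.GeneralLinearGroup (Fin 2) F) : Matrix (Fin 2) (Fin 2) F) 0 0 = δ ∧
    ((dg δ hδ : Matrix.GeneralLinearGroup (Fin 2) F) : Matrix (Fin 2) (Fin 2) F) 0 1 = 0 ∧
    ((dg δ hδ : Matrix.GeneralLinearGroup (Fin 2) F) : Matrix (Fin 2) (Fin 2) F) 1 0 = 0 ∧
    ((dg δ hδ : Matrix.GeneralLinearGroup (Fin 2) F) : Matrix (Fin 2) (Fin 2) F) 1 1 = 1 :=
  ⟨rfl, rfl, rfl, rfl⟩

/-- The upper unitriangular matrix with off-diagonal entry `b`. -/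
def ub (b : F) : Matrix.SpecialLinearGroup (Fin 2) F :=
  Cfsg.Agent.S2432.smk 1 b 0 1 (by ring)

theorem ub_entries (b : F) :
    ((ub b : Matrix.SpecialLinearGroup (Fin 2) F) : Matrix (Fin 2) (Fin 2) F) 0 0 = 1 ∧
    ((ub b : Matrix.SpecialLinearGroup (Fin 2) F) : Matrix (Fin 2) (Fin 2) F) 0 1 = b ∧
    ((ub b : Matrix.SpecialLinearGroup (Fin 2) F) : Matrix (Fin 2) (Fin 2) F) 1 0 = 0 ∧
    ((ub b : Matrix.SpecialLinearGroup (Fin 2) F) : Matrix (Fin 2) (Fin 2) F) 1 1 = 1 :=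
  ⟨rfl, rfl, rfl, rfl⟩

theorem ub_val (b : F) :
    ((ub b : Matrix.SpecialLinearGroup (Fin 2) F) : Matrix (Fin 2) (Fin 2) F) = !![1, b; 0, 1] :=
  rfl

theorem ub_zero : ub (0 : F) = 1 := by
  obtain ⟨e00, e01, e10, e11⟩ := ub_entries (0 : F)
  apply Cfsg.Agent.S2432.sl2_ext
  · rw [e00]; simp
  · rw [e01]; simp
  · rw [e10]; simp
  · rw [e11]; simp

theorem cjS_eq_of (x : Matrix.GeneralLinearGroup (Fin 2) F)
    (s s' : Matrix.SpecialLinearGroup (Fin 2) F)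
    (h : x * Matrix.SpecialLinearGroup.toGL s = Matrix.SpecialLinearGroup.toGL s' * x) :
    cjS x s = s' := by
  apply Matrix.SpecialLinearGroup.toGL_injective
  rw [toGL_cjS, h]
  group

theorem cjS_dg_ub (δ : F) (hδ : δ ≠ 0) (b : F) : cjS (dg δ hδ) (ub b) = ub (δ * b) := by
  apply cjS_eq_of
  obtain ⟨d00, d01, d10, d11⟩ := dg_entries δ hδ
  obtain ⟨e00, e01, e10, e11⟩ := ub_entries b
  obtain ⟨f00, f01, f10, f11⟩ := ub_entries (δ * b)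
  apply Cfsg.Agent.S2304.gl2_ext <;>
    simp only [Cfsg.Agent.S2304.gmul, toGL_entry, d00, d01, d10, d11, e00, e01, e10, e11,
      f00, f01, f10, f11] <;> ring

theorem cj_diag (ψ : Matrix.SpecialLinearGroup (Fin 2) F → ℂ)
    (hψ : Cfsg.IsClassFunction (Matrix.SpecialLinearGroup (Fin 2) F) ψ)
    (x : Matrix.GeneralLinearGroup (Fin 2) F) :
    ψ ∘ cjS x = ψ ∘ cjS (dg _ (Cfsg.Agent.S2304.det_ne x)) := by
  have hδ := Cfsg.Agent.S2304.det_ne x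
  obtain ⟨d00, d01, d10, d11⟩ := dg_entries _ hδ
  generalize dg _ hδ = D at d00 d01 d10 d11 ⊢
  generalize hδdef : (x : Matrix (Fin 2) (Fin 2) F) 0 0 * (x : Matrix (Fin 2) (Fin 2) F) 1 1 -
      (x : Matrix (Fin 2) (Fin 2) F) 0 1 * (x : Matrix (Fin 2) (Fin 2) F) 1 0 = δ at hδ d00
  have hdet : (x : Matrix (Fin 2) (Fin 2) F) 0 0 * δ⁻¹ * (x : Matrix (Fin 2) (Fin 2) F) 1 1 -
      (x : Matrix (Fin 2) (Fin 2) F) 0 1 * ((x : Matrix (Fin 2) (Fin 2) F) 1 0 * δ⁻¹) = 1 := by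
    have : ((x : Matrix (Fin 2) (Fin 2) F) 0 0 * (x : Matrix (Fin 2) (Fin 2) F) 1 1 -
      (x : Matrix (Fin 2) (Fin 2) F) 0 1 * (x : Matrix (Fin 2) (Fin 2) F) 1 0) * δ⁻¹ = 1 := by
      rw [hδdef]
      exact mul_inv_cancel₀ hδ
    linear_combination this
  have hx : x = Matrix.SpecialLinearGroup.toGL
      (Cfsg.Agent.S2432.smk ((x : Matrix (Fin 2) (Fin 2) F) 0 0 * δ⁻¹)
        ((x : Matrix (Fin 2) (Fin 2) F) 0 1) ((x : Matrix (Fin 2) (Fin 2) F) 1 0 * δ⁻¹)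
        ((x : Matrix (Fin 2) (Fin 2) F) 1 1) hdet) * D := by
    have s00 : ((Cfsg.Agent.S2432.smk ((x : Matrix (Fin 2) (Fin 2) F) 0 0 * δ⁻¹)
        ((x : Matrix (Fin 2) (Fin 2) F) 0 1) ((x : Matrix (Fin 2) (Fin 2) F) 1 0 * δ⁻¹)
        ((x : Matrix (Fin 2) (Fin 2) F) 1 1) hdet : Matrix.SpecialLinearGroup (Fin 2) F) :
        Matrix (Fin 2) (Fin 2) F) 0 0 = (x : Matrix (Fin 2) (Fin 2) F) 0 0 * δ⁻¹ := rfl
    have s01 : ((Cfsg.Agent.S2432.smk ((x : Matrix (Fin 2) (Fin 2) F) 0 0 * δ⁻¹)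
        ((x : Matrix (Fin 2) (Fin 2) F) 0 1) ((x : Matrix (Fin 2) (Fin 2) F) 1 0 * δ⁻¹)
        ((x : Matrix (Fin 2) (Fin 2) F) 1 1) hdet : Matrix.SpecialLinearGroup (Fin 2) F) :
        Matrix (Fin 2) (Fin 2) F) 0 1 = (x : Matrix (Fin 2) (Fin 2) F) 0 1 := rfl
    have s10 : ((Cfsg.Agent.S2432.smk ((x : Matrix (Fin 2) (Fin 2) F) 0 0 * δ⁻¹)
        ((x : Matrix (Fin 2) (Fin 2) F) 0 1) ((x : Matrix (Fin 2) (Fin 2) F) 1 0 * δ⁻¹)
        ((x : Matrix (Fin 2) (Fin 2) F) 1 1) hdet : Matrix.SpecialLinearGroup (Fin 2) F) :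
        Matrix (Fin 2) (Fin 2) F) 1 0 = (x : Matrix (Fin 2) (Fin 2) F) 1 0 * δ⁻¹ := rfl
    have s11 : ((Cfsg.Agent.S2432.smk ((x : Matrix (Fin 2) (Fin 2) F) 0 0 * δ⁻¹)
        ((x : Matrix (Fin 2) (Fin 2) F) 0 1) ((x : Matrix (Fin 2) (Fin 2) F) 1 0 * δ⁻¹)
        ((x : Matrix (Fin 2) (Fin 2) F) 1 1) hdet : Matrix.SpecialLinearGroup (Fin 2) F) :
        Matrix (Fin 2) (Fin 2) F) 1 1 = (x : Matrix (Fin 2) (Fin 2) F) 1 1 := rfl
    apply Cfsg.Agent.S2304.gl2_ext <;>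
      simp only [Cfsg.Agent.S2304.gmul, toGL_entry, d00, d01, d10, d11, s00, s01, s10, s11] <;>
      field_simp <;> ring
  funext g
  rw [Function.comp_apply, Function.comp_apply]
  conv_lhs => rw [hx]
  rw [← cjS_cjS, cjS_toGL, hψ]

theorem usum_eq (χ : Matrix.SpecialLinearGroup (Fin 2) F → ℂ) :
    (∑ g : Matrix.SpecialLinearGroup (Fin 2) F,
      if (g : Matrix (Fin 2) (Fin 2) F) 1 0 = 0 ∧ (g : Matrix (Fin 2) (Fin 2) F) 0 0 = 1 ∧
        (g : Matrix (Fin 2) (Fin 2) F) 1 1 = 1 then χ g else 0) = ∑ b : F, χ (ub b) := by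
  rw [← Finset.sum_filter]
  symm
  apply Finset.sum_bij (fun b _ => ub b)
  · intro b _
    rw [Finset.mem_filter]
    exact ⟨Finset.mem_univ _, rfl, rfl, rfl⟩
  · intro b _ b' _ h
    have h2 := congrArg (fun s : Matrix.SpecialLinearGroup (Fin 2) F =>
      (s : Matrix (Fin 2) (Fin 2) F) 0 1) h
    exact h2
  · intro g hg
    rw [Finset.mem_filter] at hg
    obtain ⟨_, h10, h00, h11⟩ := hg
    refine ⟨(g : Matrix (Fin 2) (Fin 2) F) 0 1, Finset.mem_univ _, ?_⟩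
    obtain ⟨e00, e01, e10, e11⟩ := ub_entries ((g : Matrix (Fin 2) (Fin 2) F) 0 1)
    apply Cfsg.Agent.S2432.sl2_ext
    · rw [e00, h00]
    · rw [e01]
    · rw [e10, h10]
    · rw [e11, h11]
  · intro b _
    rfl

theorem usum_cj (ψ : Matrix.SpecialLinearGroup (Fin 2) F → ℂ)
    (hψ : Cfsg.IsClassFunction (Matrix.SpecialLinearGroup (Fin 2) F) ψ)
    (x : Matrix.GeneralLinearGroup (Fin 2) F) :
    ∑ b : F, (ψ ∘ cjS x) (ub b) = ∑ b : F, ψ (ub b) := by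
  rw [cj_diag ψ hψ x]
  simp only [Function.comp_apply, cjS_dg_ub]
  exact Fintype.sum_equiv (Equiv.mulLeft₀ _ (Cfsg.Agent.S2304.det_ne x)) _ _ (fun b => rfl)

theorem RS_ub (γ : MulChar F ℂ) (b : F) (hb : b ≠ 0) : RS γ (ub b) = 1 := by
  obtain ⟨e00, e01, e10, e11⟩ := ub_entries b
  rw [RS_value, e00, e01, e10, e11, if_pos rfl, map_one, Finset.sum_eq_zero, add_zero]
  intro t _
  rw [if_neg]
  intro h
  apply hb
  linear_combination h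

theorem usum_RS (γ : MulChar F ℂ) : ∑ b : F, RS γ (ub b) = 2 * (Fintype.card F : ℂ) := by
  have h1 : ∀ b : F, RS γ (ub b) = (if b = 0 then (Fintype.card F : ℂ) else 0) + 1 := by
    intro b
    by_cases hb : b = 0
    · subst hb
      rw [ub_zero, RS_one_val, if_pos rfl]
    · rw [RS_ub γ b hb, if_neg hb, zero_add]
  rw [Finset.sum_congr rfl (fun b _ => h1 b), Finset.sum_add_distrib,
    Finset.sum_ite_eq' Finset.univ (0 : F) (fun _ => (Fintype.card F : ℂ)),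
    if_pos (Finset.mem_univ _), Finset.sum_const, Finset.card_univ, nsmul_eq_mul, mul_one]
  ring

theorem cusp_ub (Χ : Matrix.GeneralLinearGroup (Fin 2) F → ℂ)
    (hΧ : Cfsg.IsIrrCharacter (Matrix.GeneralLinearGroup (Fin 2) F) Χ) (hc : CuspP Χ)
    (b : F) (hb : b ≠ 0) : Χ (Matrix.SpecialLinearGroup.toGL (ub b)) = -1 := by
  have h1 : ub b = cjS (dg b hb) (ub 1) := by
    rw [cjS_dg_ub, mul_one]
  rw [h1, toGL_cjS, Cfsg.Agent.Lib.Helper3.Char.char_classFun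
    (Cfsg.Agent.Lib.Helper3.Char.isCharacter_of_irr hΧ)]
  exact hc.2.2.1 _ rfl

theorem usum_cusp (Χ : Matrix.GeneralLinearGroup (Fin 2) F → ℂ)
    (hΧ : Cfsg.IsIrrCharacter (Matrix.GeneralLinearGroup (Fin 2) F) Χ) (hc : CuspP Χ) :
    ∑ b : F, res Χ (ub b) = 0 := by
  have h1 : ∀ b : F, res Χ (ub b) = (if b = 0 then (Fintype.card F : ℂ) else 0) - 1 := by
    intro b
    by_cases hb : b = 0
    · subst hb
      rw [ub_zero, res_one_val, hc.2.1, if_pos rfl]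
    · rw [res_apply, cusp_ub Χ hΧ hc b hb, if_neg hb, zero_sub]
  rw [Finset.sum_congr rfl (fun b _ => h1 b), Finset.sum_sub_distrib,
    Finset.sum_ite_eq' Finset.univ (0 : F) (fun _ => (Fintype.card F : ℂ)),
    if_pos (Finset.mem_univ _), Finset.sum_const, Finset.card_univ, nsmul_eq_mul, mul_one]
  ring

theorem deg_qm1_eq (hq : 4 ≤ Fintype.card F) (ψ : Matrix.SpecialLinearGroup (Fin 2) F → ℂ)
    (hψ : Cfsg.IsIrrCharacter (Matrix.SpecialLinearGroup (Fin 2) F) ψ)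
    (hdeg : ψ 1 = (Fintype.card F : ℂ) - 1) :
    ∃ Χ : Matrix.GeneralLinearGroup (Fin 2) F → ℂ,
      Cfsg.IsIrrCharacter (Matrix.GeneralLinearGroup (Fin 2) F) Χ ∧ CuspP Χ ∧ res Χ = ψ := by
  have hq' : (4 : ℤ) ≤ (Fintype.card F : ℤ) := by exact_mod_cast hq
  rcases sclassify ψ hψ with rfl | rfl | ⟨γ, rfl⟩ | ⟨hodd, γ, x, hx, h⟩ | ⟨Χ, hΧ, hcusp, rfl⟩ |
    ⟨hodd, Χ, x, hΧ, hcusp, hx, h⟩
  · exfalso
    have hd' : (1 : ℂ) = (Fintype.card F : ℂ) - 1 := hdeg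
    have e : (1 : ℤ) = (Fintype.card F : ℤ) - 1 := by exact_mod_cast hd'
    omega
  · exfalso
    have hd' : RS (1 : MulChar F ℂ) 1 - 1 = (Fintype.card F : ℂ) - 1 := hdeg
    rw [RS_one_val] at hd'
    have e : (Fintype.card F : ℤ) + 1 - 1 = (Fintype.card F : ℤ) - 1 := by exact_mod_cast hd'
    omega
  · exfalso
    rw [RS_one_val] at hdeg
    have e : (Fintype.card F : ℤ) + 1 = (Fintype.card F : ℤ) - 1 := by exact_mod_cast hdeg
    omega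
  · exfalso
    have h1 := congrFun h 1
    rw [RS_one_val, Pi.add_apply, cj_one_val, hdeg] at h1
    have e : (Fintype.card F : ℤ) + 1 = (Fintype.card F : ℤ) - 1 + ((Fintype.card F : ℤ) - 1) := by
      exact_mod_cast h1
    omega
  · exact ⟨Χ, hΧ, hcusp, rfl⟩
  · exfalso
    have h1 := congrFun h 1
    rw [res_one_val, hcusp.2.1, Pi.add_apply, cj_one_val, hdeg] at h1
    have e : (Fintype.card F : ℤ) - 1 = (Fintype.card F : ℤ) - 1 + ((Fintype.card F : ℤ) - 1) := by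
      exact_mod_cast h1
    omega

theorem deg_halfm_eq (hq : 4 ≤ Fintype.card F) (ψ : Matrix.SpecialLinearGroup (Fin 2) F → ℂ)
    (hψ : Cfsg.IsIrrCharacter (Matrix.SpecialLinearGroup (Fin 2) F) ψ)
    (hdeg : ψ 1 + ψ 1 = (Fintype.card F : ℂ) - 1) :
    ∃ (Χ : Matrix.GeneralLinearGroup (Fin 2) F → ℂ) (x : Matrix.GeneralLinearGroup (Fin 2) F),
      Cfsg.IsIrrCharacter (Matrix.GeneralLinearGroup (Fin 2) F) Χ ∧ CuspP Χ ∧
      ψ ∘ cjS x ≠ ψ ∧ res Χ = ψ + ψ ∘ cjS x := by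
  have hq' : (4 : ℤ) ≤ (Fintype.card F : ℤ) := by exact_mod_cast hq
  rcases sclassify ψ hψ with rfl | rfl | ⟨γ, rfl⟩ | ⟨hodd, γ, x, hx, h⟩ | ⟨Χ, hΧ, hcusp, rfl⟩ |
    ⟨hodd, Χ, x, hΧ, hcusp, hx, h⟩
  · exfalso
    have hd' : (1 : ℂ) + 1 = (Fintype.card F : ℂ) - 1 := hdeg
    have e : (1 : ℤ) + 1 = (Fintype.card F : ℤ) - 1 := by exact_mod_cast hd'
    omega
  · exfalso
    have hd' : (RS (1 : MulChar F ℂ) 1 - 1) + (RS (1 : MulChar F ℂ) 1 - 1) =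
        (Fintype.card F : ℂ) - 1 := hdeg
    rw [RS_one_val] at hd'
    have e : ((Fintype.card F : ℤ) + 1 - 1) + ((Fintype.card F : ℤ) + 1 - 1) =
        (Fintype.card F : ℤ) - 1 := by exact_mod_cast hd'
    omega
  · exfalso
    rw [RS_one_val] at hdeg
    have e : ((Fintype.card F : ℤ) + 1) + ((Fintype.card F : ℤ) + 1) =
        (Fintype.card F : ℤ) - 1 := by exact_mod_cast hdeg
    omega
  · exfalso
    have h1 := congrFun h 1
    rw [RS_one_val, Pi.add_apply, cj_one_val, hdeg] at h1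
    have e : (Fintype.card F : ℤ) + 1 = (Fintype.card F : ℤ) - 1 := by exact_mod_cast h1
    omega
  · exfalso
    rw [res_one_val, hcusp.2.1] at hdeg
    have e : ((Fintype.card F : ℤ) - 1) + ((Fintype.card F : ℤ) - 1) =
        (Fintype.card F : ℤ) - 1 := by exact_mod_cast hdeg
    omega
  · exact ⟨Χ, x, hΧ, hcusp, hx, h⟩

end SL2e

theorem result {F : Type*} [Field F] [Fintype F] [DecidableEq F] (hodd : Odd (Fintype.card F)) (hq : 5 ≤ Fintype.card F)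
    (χ : Matrix.SpecialLinearGroup (Fin 2) F → ℂ) (hχ : Cfsg.IsIrrCharacter (Matrix.SpecialLinearGroup (Fin 2) F) χ) :
    (χ 1 = (Fintype.card F : ℂ) + 1 →
      (∑ g : Matrix.SpecialLinearGroup (Fin 2) F, if (g : Matrix (Fin 2) (Fin 2) F) 1 0 = 0 ∧ (g : Matrix (Fin 2) (Fin 2) F) 0 0 = 1 ∧ (g : Matrix (Fin 2) (Fin 2) F) 1 1 = 1 then χ g else 0) = 2 * (Fintype.card F : ℂ)) ∧
    (χ 1 = (Fintype.card F : ℂ) →
      (∑ g : Matrix.SpecialLinearGroup (Fin 2) F, if (g : Matrix (Fin 2) (Fin 2) F) 1 0 = 0 ∧ (g : Matrix (Fin 2) (Fin 2) F) 0 0 = 1 ∧ (g : Matrix (Fin 2) (Fin 2) F) 1 1 = 1 then χ g else 0) = (Fintype.card F : ℂ)) ∧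
    (χ 1 = (Fintype.card F : ℂ) - 1 →
      (∑ g : Matrix.SpecialLinearGroup (Fin 2) F, if (g : Matrix (Fin 2) (Fin 2) F) 1 0 = 0 ∧ (g : Matrix (Fin 2) (Fin 2) F) 0 0 = 1 ∧ (g : Matrix (Fin 2) (Fin 2) F) 1 1 = 1 then χ g else 0) = 0) ∧
    (χ 1 = (((Fintype.card F + 1) / 2 : ℕ) : ℂ) →
      (∑ g : Matrix.SpecialLinearGroup (Fin 2) F, if (g : Matrix (Fin 2) (Fin 2) F) 1 0 = 0 ∧ (g : Matrix (Fin 2) (Fin 2) F) 0 0 = 1 ∧ (g : Matrix (Fin 2) (Fin 2) F) 1 1 = 1 then χ g else 0) = (Fintype.card F : ℂ)) ∧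
    (χ 1 = (((Fintype.card F - 1) / 2 : ℕ) : ℂ) →
      (∑ g : Matrix.SpecialLinearGroup (Fin 2) F, if (g : Matrix (Fin 2) (Fin 2) F) 1 0 = 0 ∧ (g : Matrix (Fin 2) (Fin 2) F) 0 0 = 1 ∧ (g : Matrix (Fin 2) (Fin 2) F) 1 1 = 1 then χ g else 0) = 0) := by
  have hcf := Cfsg.Agent.Lib.Helper3.Char.char_classFun
    (Cfsg.Agent.Lib.Helper3.Char.isCharacter_of_irr hχ)
  obtain ⟨k, hk⟩ := hodd
  have e1 : (Fintype.card F + 1) / 2 = k + 1 := by omega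
  have e2 : (Fintype.card F - 1) / 2 = k := by omega
  have hkc : (Fintype.card F : ℂ) = 2 * (k : ℂ) + 1 := by
    rw [hk]
    push_cast
    ring
  refine ⟨?_, ?_, ?_, ?_, ?_⟩
  · intro hdeg
    obtain ⟨γ, rfl⟩ := Cfsg.Agent.S2300.deg_q1_eq χ hχ hdeg
    rw [usum_eq, usum_RS]
  · intro hdeg
    rw [Cfsg.Agent.S2321.deg_q_eq χ hχ hdeg, usum_eq]
    simp only [Pi.sub_apply]
    rw [Finset.sum_sub_distrib, usum_RS, Finset.sum_const, Finset.card_univ, nsmul_eq_mul, mul_one]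
    ring
  · intro hdeg
    obtain ⟨Χ, hΧ, hc, rfl⟩ := deg_qm1_eq (by omega) χ hχ hdeg
    rw [usum_eq, usum_cusp Χ hΧ hc]
  · intro hdeg
    rw [e1] at hdeg
    have hdeg2 : χ 1 + χ 1 = (Fintype.card F : ℂ) + 1 := by
      rw [hdeg, hkc]
      push_cast
      ring
    obtain ⟨γ, x, hx, h⟩ := Cfsg.Agent.S2299.deg_half_eq hq χ hχ hdeg2
    have h1 := usum_RS γ
    rw [h] at h1
    simp only [Pi.add_apply] at h1
    rw [Finset.sum_add_distrib, usum_cj χ hcf x] at h1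
    rw [usum_eq]
    linear_combination (1 / 2 : ℂ) * h1
  · intro hdeg
    rw [e2] at hdeg
    have hdeg2 : χ 1 + χ 1 = (Fintype.card F : ℂ) - 1 := by
      rw [hdeg, hkc]
      ring
    obtain ⟨Χ, x, hΧ, hc, hx, h⟩ := deg_halfm_eq (by omega) χ hχ hdeg2
    have h1 := usum_cusp Χ hΧ hc
    rw [h] at h1
    simp only [Pi.add_apply] at h1
    rw [Finset.sum_add_distrib, usum_cj χ hcf x] at h1
    rw [usum_eq]
    linear_combination (1 / 2 : ℂ) * h1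

end Cfsg.Agent.S2438
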