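import Cfsg.Statements.S2322
import Cfsg.Agent.S2438
import Cfsg.Agent.Lib.Helper3.CharInt

set_option autoImplicit false
open Cfsg

set_option maxHeartbeats 1000000
namespace Cfsg.Agent.S2322

open scoped ComplexConjugate

section GenCentral

theorem central_char {G : Type*} [Group G] {χ : G → ℂ} (hχ : Cfsg.IsIrrCharacter G χ) (z : G)
    (hz : z ∈ Subgroup.center G) : ∃ ω : ℂ, ∀ g : G, χ (z * g) = ω * χ g := by
  obtain ⟨n, ρ, hirr, rfl⟩ := hχ
  haveI := hirr
  have hA : ∀ g : G, ρ z ∘ₗ ρ g = ρ g ∘ₗ ρ z := by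
    intro g
    have h1 : z * g = g * z := ((Subgroup.mem_center_iff.mp hz) g).symm
    have h2 : ρ z * ρ g = ρ g * ρ z := by rw [← map_mul, ← map_mul, h1]
    exact h2
  obtain ⟨a, ha0⟩ :=
    (Representation.IsIrreducible.algebraMap_intertwiningMap_bijective_of_isAlgClosed (ρ := ρ)).2
      ⟨ρ z, hA⟩
  have ha : ρ z = a • LinearMap.id :=
    (congrArg Representation.IntertwiningMap.toLinearMap ha0).symm
  refine ⟨a, fun g => ?_⟩
  have h1 : ρ (z * g) = a • ρ g := by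
    rw [map_mul, ha]
    ext v
    simp
  show LinearMap.trace ℂ _ (ρ (z * g)) = a * LinearMap.trace ℂ _ (ρ g)
  rw [h1, map_smul, smul_eq_mul]

end GenCentral

section SL2f

open Cfsg.Agent.S2323 Cfsg.Agent.S2300 Cfsg.Agent.S2438

variable {F : Type*} [Field F] [Fintype F] [DecidableEq F]

theorem two_ne (hodd : Odd (Fintype.card F)) : (2 : F) ≠ 0 := by
  apply Ring.two_ne_zero
  intro h
  have h2 := FiniteField.even_card_of_char_two h
  rcases hodd with ⟨k, hk⟩
  omega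

theorem norm_surj (hodd : Odd (Fintype.card F)) (τ : F) (hτ : τ ^ 2 ≠ 4) (d : F) :
    ∃ α β : F, α ^ 2 + α * β * τ + β ^ 2 = d := by
  have h2 := two_ne hodd
  obtain ⟨h, hh⟩ : ∃ h : F, 2 * h = 1 := ⟨2⁻¹, mul_inv_cancel₀ h2⟩
  have hc : (1 - τ ^ 2 * h ^ 2 : F) ≠ 0 := by
    intro h0
    apply hτ
    linear_combination (-4 : F) * h0 - τ ^ 2 * (2 * h + 1) * hh
  obtain ⟨a, b, hab⟩ := FiniteField.exists_root_sum_quadratic (R := F)
    (f := Polynomial.X ^ 2)
    (g := Polynomial.C (1 - τ ^ 2 * h ^ 2) * Polynomial.X ^ 2 + Polynomial.C 0 * Polynomial.X +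
      Polynomial.C (-d))
    (Polynomial.degree_X_pow 2) (Polynomial.degree_quadratic hc) (Nat.odd_iff.mp hodd)
  simp only [Polynomial.eval_pow, Polynomial.eval_X, Polynomial.eval_add, Polynomial.eval_mul,
    Polynomial.eval_C, zero_mul, add_zero] at hab
  refine ⟨a - τ * b * h, b, ?_⟩
  linear_combination hab - (a * b * τ - τ ^ 2 * b ^ 2 * h) * hh

theorem cj_fix (hodd : Odd (Fintype.card F)) (ψ : Matrix.SpecialLinearGroup (Fin 2) F → ℂ)
    (hψ : Cfsg.IsClassFunction (Matrix.SpecialLinearGroup (Fin 2) F) ψ)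
    (x : Matrix.GeneralLinearGroup (Fin 2) F) (s : Matrix.SpecialLinearGroup (Fin 2) F)
    (hs : ((s : Matrix (Fin 2) (Fin 2) F) 0 0 + (s : Matrix (Fin 2) (Fin 2) F) 1 1) ^ 2 ≠ 4) :
    ψ (cjS x s) = ψ s := by
  have hδ := Cfsg.Agent.S2304.det_ne x
  obtain ⟨α, β, hαβ⟩ := norm_surj hodd _ hs
    ((x : Matrix (Fin 2) (Fin 2) F) 0 0 * (x : Matrix (Fin 2) (Fin 2) F) 1 1 -
      (x : Matrix (Fin 2) (Fin 2) F) 0 1 * (x : Matrix (Fin 2) (Fin 2) F) 1 0)⁻¹
  have hdet := Cfsg.Agent.S2432.sdet s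
  have hcv : (α + β * (s : Matrix (Fin 2) (Fin 2) F) 0 0) *
      (α + β * (s : Matrix (Fin 2) (Fin 2) F) 1 1) -
      (β * (s : Matrix (Fin 2) (Fin 2) F) 0 1) * (β * (s : Matrix (Fin 2) (Fin 2) F) 1 0) =
      ((x : Matrix (Fin 2) (Fin 2) F) 0 0 * (x : Matrix (Fin 2) (Fin 2) F) 1 1 -
      (x : Matrix (Fin 2) (Fin 2) F) 0 1 * (x : Matrix (Fin 2) (Fin 2) F) 1 0)⁻¹ := by
    linear_combination hαβ + β ^ 2 * hdet
  have hc : (α + β * (s : Matrix (Fin 2) (Fin 2) F) 0 0) *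
      (α + β * (s : Matrix (Fin 2) (Fin 2) F) 1 1) -
      (β * (s : Matrix (Fin 2) (Fin 2) F) 0 1) * (β * (s : Matrix (Fin 2) (Fin 2) F) 1 0) ≠ 0 := by
    rw [hcv]
    exact inv_ne_zero hδ
  obtain ⟨c, c00, c01, c10, c11⟩ : ∃ c : Matrix.GeneralLinearGroup (Fin 2) F,
      (c : Matrix (Fin 2) (Fin 2) F) 0 0 = α + β * (s : Matrix (Fin 2) (Fin 2) F) 0 0 ∧
      (c : Matrix (Fin 2) (Fin 2) F) 0 1 = β * (s : Matrix (Fin 2) (Fin 2) F) 0 1 ∧
      (c : Matrix (Fin 2) (Fin 2) F) 1 0 = β * (s : Matrix (Fin 2) (Fin 2) F) 1 0 ∧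
      (c : Matrix (Fin 2) (Fin 2) F) 1 1 = α + β * (s : Matrix (Fin 2) (Fin 2) F) 1 1 :=
    ⟨Cfsg.Agent.S2304.mk2 _ _ _ _ hc, rfl, rfl, rfl, rfl⟩
  have hy : ((x * c : Matrix.GeneralLinearGroup (Fin 2) F) : Matrix (Fin 2) (Fin 2) F).det = 1 := by
    rw [Units.val_mul, Matrix.det_mul, Matrix.det_fin_two, Matrix.det_fin_two, c00, c01, c10, c11,
      hcv]
    exact mul_inv_cancel₀ hδ
  obtain ⟨y', hy'⟩ : ∃ y' : Matrix.SpecialLinearGroup (Fin 2) F,
      Matrix.SpecialLinearGroup.toGL y' = x * c := ⟨⟨_, hy⟩, Units.ext rfl⟩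
  have hcomm : c * Matrix.SpecialLinearGroup.toGL s = Matrix.SpecialLinearGroup.toGL s * c := by
    apply Cfsg.Agent.S2304.gl2_ext <;>
      simp only [Cfsg.Agent.S2304.gmul, toGL_entry, c00, c01, c10, c11] <;> ring
  have key : cjS x s = y' * s * y'⁻¹ := by
    apply Matrix.SpecialLinearGroup.toGL_injective
    rw [toGL_cjS, map_mul, map_mul, map_inv, hy']
    calc x * Matrix.SpecialLinearGroup.toGL s * x⁻¹
        = x * (Matrix.SpecialLinearGroup.toGL s * c) * c⁻¹ * x⁻¹ := by group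
      _ = x * (c * Matrix.SpecialLinearGroup.toGL s) * c⁻¹ * x⁻¹ := by rw [hcomm]
      _ = x * c * Matrix.SpecialLinearGroup.toGL s * (x * c)⁻¹ := by group
  rw [key, hψ]

/-- The central element `-1` of `SL₂`. -/
def zS : Matrix.SpecialLinearGroup (Fin 2) F :=
  Cfsg.Agent.S2432.smk (-1) 0 0 (-1) (by ring)

theorem zS_entries :
    ((zS : Matrix.SpecialLinearGroup (Fin 2) F) : Matrix (Fin 2) (Fin 2) F) 0 0 = -1 ∧
    ((zS : Matrix.SpecialLinearGroup (Fin 2) F) : Matrix (Fin 2) (Fin 2) F) 0 1 = 0 ∧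
    ((zS : Matrix.SpecialLinearGroup (Fin 2) F) : Matrix (Fin 2) (Fin 2) F) 1 0 = 0 ∧
    ((zS : Matrix.SpecialLinearGroup (Fin 2) F) : Matrix (Fin 2) (Fin 2) F) 1 1 = -1 :=
  ⟨rfl, rfl, rfl, rfl⟩

theorem zS_mul_entries (s : Matrix.SpecialLinearGroup (Fin 2) F) :
    ((zS * s : Matrix.SpecialLinearGroup (Fin 2) F) : Matrix (Fin 2) (Fin 2) F) 0 0 =
      -(s : Matrix (Fin 2) (Fin 2) F) 0 0 ∧
    ((zS * s : Matrix.SpecialLinearGroup (Fin 2) F) : Matrix (Fin 2) (Fin 2) F) 0 1 =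
      -(s : Matrix (Fin 2) (Fin 2) F) 0 1 ∧
    ((zS * s : Matrix.SpecialLinearGroup (Fin 2) F) : Matrix (Fin 2) (Fin 2) F) 1 0 =
      -(s : Matrix (Fin 2) (Fin 2) F) 1 0 ∧
    ((zS * s : Matrix.SpecialLinearGroup (Fin 2) F) : Matrix (Fin 2) (Fin 2) F) 1 1 =
      -(s : Matrix (Fin 2) (Fin 2) F) 1 1 := by
  obtain ⟨z00, z01, z10, z11⟩ := zS_entries (F := F)
  refine ⟨?_, ?_, ?_, ?_⟩ <;> simp only [Cfsg.Agent.S2432.smul2, z00, z01, z10, z11] <;> ring

theorem zS_comm (s : Matrix.SpecialLinearGroup (Fin 2) F) : s * zS = zS * s := by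
  obtain ⟨z00, z01, z10, z11⟩ := zS_entries (F := F)
  apply Cfsg.Agent.S2432.sl2_ext <;>
    simp only [Cfsg.Agent.S2432.smul2, z00, z01, z10, z11] <;> ring

theorem zS_mem_center : (zS : Matrix.SpecialLinearGroup (Fin 2) F) ∈
    Subgroup.center (Matrix.SpecialLinearGroup (Fin 2) F) := by
  rw [Subgroup.mem_center_iff]
  intro g
  exact zS_comm g

theorem zS_sq : (zS : Matrix.SpecialLinearGroup (Fin 2) F) * zS = 1 := by
  obtain ⟨z00, z01, z10, z11⟩ := zS_entries (F := F)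
  apply Cfsg.Agent.S2432.sl2_ext <;>
    simp only [Cfsg.Agent.S2432.smul2, z00, z01, z10, z11] <;> simp

theorem cjS_zS (x : Matrix.GeneralLinearGroup (Fin 2) F) : cjS x zS = zS := by
  obtain ⟨z00, z01, z10, z11⟩ := zS_entries (F := F)
  apply cjS_eq_of
  apply Cfsg.Agent.S2304.gl2_ext <;>
    simp only [Cfsg.Agent.S2304.gmul, toGL_entry, z00, z01, z10, z11] <;> ring

theorem neg_char (ψ : Matrix.SpecialLinearGroup (Fin 2) F → ℂ)
    (hψ : Cfsg.IsIrrCharacter (Matrix.SpecialLinearGroup (Fin 2) F) ψ) :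
    ∃ ω : ℂ, ω * ω = 1 ∧ ∀ s : Matrix.SpecialLinearGroup (Fin 2) F, ψ (zS * s) = ω * ψ s := by
  obtain ⟨ω, hω⟩ := central_char hψ zS zS_mem_center
  refine ⟨ω, ?_, hω⟩
  have h1 := hω zS
  have h2 := hω 1
  rw [mul_one] at h2
  rw [zS_sq, h2] at h1
  have h3 := Cfsg.Agent.Lib.Helper3.Char.irr_one_ne_zero hψ
  have h4 : (ω * ω - 1) * ψ 1 = 0 := by linear_combination -h1
  rcases mul_eq_zero.mp h4 with h | h
  · linear_combination h
  · exact absurd h h3

theorem conj_u_of_trace (hodd : Odd (Fintype.card F)) (s : Matrix.SpecialLinearGroup (Fin 2) F)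
    (htr : (s : Matrix (Fin 2) (Fin 2) F) 0 0 + (s : Matrix (Fin 2) (Fin 2) F) 1 1 = 2)
    (hne : s ≠ 1) : ∃ y : Matrix.GeneralLinearGroup (Fin 2) F, cjS y (ub 1) = s := by
  have h2 := two_ne hodd
  have hns : ¬ ((Matrix.SpecialLinearGroup.toGL s : Matrix.GeneralLinearGroup (Fin 2) F).1 0 1 = 0 ∧
      (Matrix.SpecialLinearGroup.toGL s : Matrix.GeneralLinearGroup (Fin 2) F).1 1 0 = 0 ∧
      (Matrix.SpecialLinearGroup.toGL s : Matrix.GeneralLinearGroup (Fin 2) F).1 0 0 =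
        (Matrix.SpecialLinearGroup.toGL s : Matrix.GeneralLinearGroup (Fin 2) F).1 1 1) := by
    rintro ⟨h01, h10, h00⟩
    apply hne
    have h01' : (s : Matrix (Fin 2) (Fin 2) F) 0 1 = 0 := h01
    have h10' : (s : Matrix (Fin 2) (Fin 2) F) 1 0 = 0 := h10
    have h00' : (s : Matrix (Fin 2) (Fin 2) F) 0 0 = (s : Matrix (Fin 2) (Fin 2) F) 1 1 := h00
    have h11 : (s : Matrix (Fin 2) (Fin 2) F) 1 1 = 1 := by
      have : (2 : F) * (s : Matrix (Fin 2) (Fin 2) F) 1 1 = 2 * 1 := by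
        linear_combination htr - h00'
      exact mul_left_cancel₀ h2 this
    apply Cfsg.Agent.S2432.sl2_ext
    · rw [h00', h11]; simp
    · rw [h01']; simp
    · rw [h10']; simp
    · rw [h11]; simp
  have hnu : ¬ ((Matrix.SpecialLinearGroup.toGL (ub (1 : F)) :
        Matrix.GeneralLinearGroup (Fin 2) F).1 0 1 = 0 ∧
      (Matrix.SpecialLinearGroup.toGL (ub (1 : F)) : Matrix.GeneralLinearGroup (Fin 2) F).1 1 0 = 0 ∧
      (Matrix.SpecialLinearGroup.toGL (ub (1 : F)) : Matrix.GeneralLinearGroup (Fin 2) F).1 0 0 =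
        (Matrix.SpecialLinearGroup.toGL (ub (1 : F)) :
          Matrix.GeneralLinearGroup (Fin 2) F).1 1 1) := by
    rintro ⟨h01, _, _⟩
    have h01' : (1 : F) = 0 := h01
    exact one_ne_zero h01'
  have c1 := Cfsg.Agent.S2309.conj_cmp (Matrix.SpecialLinearGroup.toGL s) hns
  have c2 := Cfsg.Agent.S2309.conj_cmp (Matrix.SpecialLinearGroup.toGL (ub (1 : F))) hnu
  have hcmp : Cfsg.Agent.S2309.cmp
      ((Matrix.SpecialLinearGroup.toGL s : Matrix.GeneralLinearGroup (Fin 2) F).1 0 0 +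
        (Matrix.SpecialLinearGroup.toGL s : Matrix.GeneralLinearGroup (Fin 2) F).1 1 1)
      (Units.mk0 _ (Cfsg.Agent.S2304.det_ne (Matrix.SpecialLinearGroup.toGL s))) =
      Cfsg.Agent.S2309.cmp
      ((Matrix.SpecialLinearGroup.toGL (ub (1 : F)) : Matrix.GeneralLinearGroup (Fin 2) F).1 0 0 +
        (Matrix.SpecialLinearGroup.toGL (ub (1 : F)) : Matrix.GeneralLinearGroup (Fin 2) F).1 1 1)
      (Units.mk0 _ (Cfsg.Agent.S2304.det_ne (Matrix.SpecialLinearGroup.toGL (ub (1 : F))))) := by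
    congr 1
    · show (s : Matrix (Fin 2) (Fin 2) F) 0 0 + (s : Matrix (Fin 2) (Fin 2) F) 1 1 = 1 + 1
      rw [htr]
      norm_num
    · apply Units.ext
      show (s : Matrix (Fin 2) (Fin 2) F) 0 0 * (s : Matrix (Fin 2) (Fin 2) F) 1 1 -
        (s : Matrix (Fin 2) (Fin 2) F) 0 1 * (s : Matrix (Fin 2) (Fin 2) F) 1 0 = 1 * 1 - 1 * 0
      rw [Cfsg.Agent.S2432.sdet s]
      ring
  rw [hcmp] at c1
  have c3 : IsConj (Matrix.SpecialLinearGroup.toGL (ub (1 : F)))
      (Matrix.SpecialLinearGroup.toGL s) := c2.symm.trans c1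
  obtain ⟨y, hy⟩ := isConj_iff.mp c3
  refine ⟨y, ?_⟩
  apply Matrix.SpecialLinearGroup.toGL_injective
  rw [toGL_cjS, hy]

theorem card_Bp (hodd : Odd (Fintype.card F)) :
    ((Finset.univ.filter (fun s : Matrix.SpecialLinearGroup (Fin 2) F =>
      (s : Matrix (Fin 2) (Fin 2) F) 0 0 + (s : Matrix (Fin 2) (Fin 2) F) 1 1 = 2 ∧ s ≠ 1)).card : ℂ) =
      (Fintype.card F : ℂ) ^ 2 - 1 := by
  classical
  have huv : ((Matrix.SpecialLinearGroup.toGL (ub (1 : F)) : Matrix.GeneralLinearGroup (Fin 2) F) :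
      Matrix (Fin 2) (Fin 2) F) = !![1, 1; 0, 1] := rfl
  generalize Matrix.SpecialLinearGroup.toGL (ub (1 : F)) = u at huv
  have hex : ∀ s : Matrix.SpecialLinearGroup (Fin 2) F,
      (s : Matrix (Fin 2) (Fin 2) F) 0 0 + (s : Matrix (Fin 2) (Fin 2) F) 1 1 = 2 → s ≠ 1 →
      IsConj u (Matrix.SpecialLinearGroup.toGL s) := by
    intro s h1 h2
    obtain ⟨y, hy⟩ := conj_u_of_trace hodd s h1 h2
    have hu1 : u = Matrix.SpecialLinearGroup.toGL (ub (1 : F)) := Units.ext huv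
    refine isConj_iff.mpr ⟨y, ?_⟩
    rw [hu1, ← toGL_cjS, hy]
  have hcl := Cfsg.Agent.Lib.Helper3.CharInt.card_conj_class u
  have hfib := Cfsg.Agent.Lib.Helper3.CharInt.card_conj_fiber u u (IsConj.refl u)
  have hcnt := Cfsg.Agent.S2309.count_uu u huv
  have hmi := Subgroup.card_mul_index (Subgroup.centralizer ({u} : Set (Matrix.GeneralLinearGroup (Fin 2) F)))
  have hG := Cfsg.Agent.S2309.card_GL2 (F := F)
  have hbij : (Finset.univ.filter (fun s : Matrix.SpecialLinearGroup (Fin 2) F =>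
      (s : Matrix (Fin 2) (Fin 2) F) 0 0 + (s : Matrix (Fin 2) (Fin 2) F) 1 1 = 2 ∧ s ≠ 1)).card =
      (Finset.univ.filter (fun x : Matrix.GeneralLinearGroup (Fin 2) F => IsConj u x)).card := by
    apply Finset.card_bij (fun s _ => Matrix.SpecialLinearGroup.toGL s)
    · intro s hs
      rw [Finset.mem_filter] at hs ⊢
      exact ⟨Finset.mem_univ _, hex s hs.2.1 hs.2.2⟩
    · intro s _ s' _ h
      exact Matrix.SpecialLinearGroup.toGL_injective h
    · intro x hx
      rw [Finset.mem_filter] at hx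
      obtain ⟨htr, hdet⟩ := Cfsg.Agent.S2309.conj_invariants hx.2
      rw [huv] at htr hdet
      have hd : (x : Matrix (Fin 2) (Fin 2) F).det = 1 := by
        rw [Matrix.det_fin_two, ← hdet]
        simp
      obtain ⟨s', hs'⟩ : ∃ s' : Matrix.SpecialLinearGroup (Fin 2) F,
          Matrix.SpecialLinearGroup.toGL s' = x := ⟨⟨_, hd⟩, Units.ext rfl⟩
      have e : ∀ i j : Fin 2, (s' : Matrix (Fin 2) (Fin 2) F) i j =
          (x : Matrix (Fin 2) (Fin 2) F) i j := by
        intro i j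
        rw [← hs']
        rfl
      refine ⟨s', ?_, hs'⟩
      rw [Finset.mem_filter]
      refine ⟨Finset.mem_univ _, ?_, ?_⟩
      · rw [e, e, ← htr]
        simp
        norm_num
      · intro h1
        have hx1 : x = 1 := by
          rw [← hs', h1, map_one]
        have h4 := hx.2
        rw [hx1, isConj_one_left] at h4
        rw [h4] at huv
        have h5 := congrFun (congrFun huv 0) 1
        simp at h5
  rw [hbij, hcl]
  have hq1 : (Fintype.card F : ℂ) ≠ 0 := by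
    exact_mod_cast Fintype.card_pos.ne'
  have hq2 : (Fintype.card F : ℂ) - 1 ≠ 0 := by
    have := Fintype.one_lt_card (α := F)
    intro h
    have h' : (Fintype.card F : ℂ) = 1 := by linear_combination h
    have h'' : Fintype.card F = 1 := by exact_mod_cast h'
    omega
  have h3 : ((Subgroup.centralizer ({u} : Set (Matrix.GeneralLinearGroup (Fin 2) F))).index : ℂ) *
      ((Fintype.card F : ℂ) * ((Fintype.card F : ℂ) - 1)) =
      ((Fintype.card F : ℂ) ^ 2 - 1) * ((Fintype.card F : ℂ) ^ 2 - (Fintype.card F : ℂ)) := by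
    rw [← hcnt, hfib, ← hG, ← hmi]
    push_cast
    ring
  have h4 : (((Subgroup.centralizer ({u} : Set (Matrix.GeneralLinearGroup (Fin 2) F))).index : ℂ) -
      ((Fintype.card F : ℂ) ^ 2 - 1)) * ((Fintype.card F : ℂ) * ((Fintype.card F : ℂ) - 1)) = 0 := by
    linear_combination h3
  rcases mul_eq_zero.mp h4 with h | h
  · linear_combination h
  · exact absurd h (mul_ne_zero hq1 hq2)

/-- Indicator of the non-central elements of trace `2`. -/
noncomputable def indp (s : Matrix.SpecialLinearGroup (Fin 2) F) : ℂ :=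
  if ((s : Matrix (Fin 2) (Fin 2) F) 0 0 + (s : Matrix (Fin 2) (Fin 2) F) 1 1 = 2 ∧ s ≠ 1) then 1
  else 0

/-- Indicator of the non-central elements of trace `-2`. -/
noncomputable def indm (s : Matrix.SpecialLinearGroup (Fin 2) F) : ℂ :=
  if ((s : Matrix (Fin 2) (Fin 2) F) 0 0 + (s : Matrix (Fin 2) (Fin 2) F) 1 1 = -2 ∧ s ≠ zS) then 1
  else 0

theorem indp_def (s : Matrix.SpecialLinearGroup (Fin 2) F) : indp s =
    if ((s : Matrix (Fin 2) (Fin 2) F) 0 0 + (s : Matrix (Fin 2) (Fin 2) F) 1 1 = 2 ∧ s ≠ 1) then 1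
    else 0 := rfl

theorem indm_def (s : Matrix.SpecialLinearGroup (Fin 2) F) : indm s =
    if ((s : Matrix (Fin 2) (Fin 2) F) 0 0 + (s : Matrix (Fin 2) (Fin 2) F) 1 1 = -2 ∧ s ≠ zS)
    then 1 else 0 := rfl

theorem sum_indp (hodd : Odd (Fintype.card F)) :
    ∑ s : Matrix.SpecialLinearGroup (Fin 2) F, indp s = (Fintype.card F : ℂ) ^ 2 - 1 := by
  simp only [indp_def]
  rw [Finset.sum_boole]
  exact card_Bp hodd

theorem indm_zS_mul (s : Matrix.SpecialLinearGroup (Fin 2) F) : indm (zS * s) = indp s := by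
  rw [indm_def, indp_def]
  obtain ⟨e00, e01, e10, e11⟩ := zS_mul_entries s
  rw [e00, e11]
  have h1 : (-(s : Matrix (Fin 2) (Fin 2) F) 0 0 + -(s : Matrix (Fin 2) (Fin 2) F) 1 1 = -2) ↔
      ((s : Matrix (Fin 2) (Fin 2) F) 0 0 + (s : Matrix (Fin 2) (Fin 2) F) 1 1 = 2) := by
    constructor <;> intro h <;> linear_combination -h
  have h2 : zS * s ≠ zS ↔ s ≠ 1 := by
    constructor
    · intro h h'
      apply h
      rw [h', mul_one]
    · intro h h'
      apply h
      have h3 : zS * s = zS * 1 := by rw [h', mul_one]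
      exact mul_left_cancel h3
  simp only [h1, h2]

theorem sum_indm (hodd : Odd (Fintype.card F)) :
    ∑ s : Matrix.SpecialLinearGroup (Fin 2) F, indm s = (Fintype.card F : ℂ) ^ 2 - 1 := by
  rw [← Fintype.sum_equiv (Equiv.mulLeft (zS : Matrix.SpecialLinearGroup (Fin 2) F)) indp indm
    (fun s => (indm_zS_mul s).symm)]
  exact sum_indp hodd

theorem eigen_of_det (g : Matrix.SpecialLinearGroup (Fin 2) F) (c : F)
    (h : 1 - c * ((g : Matrix (Fin 2) (Fin 2) F) 0 0 + (g : Matrix (Fin 2) (Fin 2) F) 1 1) + c ^ 2 = 0) :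
    ∃ v : Fin 2 → F, v ≠ 0 ∧ (g : Matrix (Fin 2) (Fin 2) F).mulVec v = c • v := by
  have hd : ((g : Matrix (Fin 2) (Fin 2) F) - c • (1 : Matrix (Fin 2) (Fin 2) F)).det = 0 := by
    rw [Matrix.det_fin_two]
    simp only [Matrix.sub_apply, Matrix.smul_apply, Matrix.one_apply_eq, smul_eq_mul, mul_one,
      Matrix.one_apply_ne (show (0 : Fin 2) ≠ 1 by decide),
      Matrix.one_apply_ne (show (1 : Fin 2) ≠ 0 by decide), mul_zero, sub_zero]
    linear_combination h + Cfsg.Agent.S2432.sdet g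
  obtain ⟨v, hv, hv0⟩ := Matrix.exists_mulVec_eq_zero_iff.mpr hd
  refine ⟨v, hv, ?_⟩
  rw [Matrix.sub_mulVec, Matrix.smul_mulVec, Matrix.one_mulVec, sub_eq_zero] at hv0
  exact hv0

theorem elliptic_tr (g : Matrix.SpecialLinearGroup (Fin 2) F)
    (hell : ∀ (c : F) (v : Fin 2 → F), v ≠ 0 → (g : Matrix (Fin 2) (Fin 2) F).mulVec v ≠ c • v) :
    ((g : Matrix (Fin 2) (Fin 2) F) 0 0 + (g : Matrix (Fin 2) (Fin 2) F) 1 1) ^ 2 ≠ 4 := by
  intro h
  have h' : ((g : Matrix (Fin 2) (Fin 2) F) 0 0 + (g : Matrix (Fin 2) (Fin 2) F) 1 1 - 2) *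
      ((g : Matrix (Fin 2) (Fin 2) F) 0 0 + (g : Matrix (Fin 2) (Fin 2) F) 1 1 + 2) = 0 := by
    linear_combination h
  rcases mul_eq_zero.mp h' with h1 | h1
  · obtain ⟨v, hv, hv1⟩ := eigen_of_det g 1 (by linear_combination -h1)
    exact hell 1 v hv hv1
  · obtain ⟨v, hv, hv1⟩ := eigen_of_det g (-1) (by linear_combination h1)
    exact hell (-1) v hv hv1

theorem one_tr : ((1 : Matrix.SpecialLinearGroup (Fin 2) F) : Matrix (Fin 2) (Fin 2) F) 0 0 +
    ((1 : Matrix.SpecialLinearGroup (Fin 2) F) : Matrix (Fin 2) (Fin 2) F) 1 1 = 2 := by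
  simp
  norm_num

theorem zS_tr : ((zS : Matrix.SpecialLinearGroup (Fin 2) F) : Matrix (Fin 2) (Fin 2) F) 0 0 +
    ((zS : Matrix.SpecialLinearGroup (Fin 2) F) : Matrix (Fin 2) (Fin 2) F) 1 1 = -2 := by
  obtain ⟨z00, z01, z10, z11⟩ := zS_entries (F := F)
  rw [z00, z11]
  norm_num

theorem two_ne_neg (hodd : Odd (Fintype.card F)) : (2 : F) ≠ -2 := by
  intro h
  have h2 := two_ne hodd
  have h3 : (2 : F) * 2 = 0 := by linear_combination h
  rcases mul_eq_zero.mp h3 with h4 | h4 <;> exact h2 h4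

open Classical in
theorem cusp_q3 (hodd : Odd (Fintype.card F)) (hq3 : Fintype.card F = 3)
    (Χ : Matrix.GeneralLinearGroup (Fin 2) F → ℂ)
    (hΧ : Cfsg.IsIrrCharacter (Matrix.GeneralLinearGroup (Fin 2) F) Χ) (hc : CuspP Χ)
    (hirr : Cfsg.IsIrrCharacter (Matrix.SpecialLinearGroup (Fin 2) F) (res Χ))
    (g : Matrix.SpecialLinearGroup (Fin 2) F)
    (htr : ((g : Matrix (Fin 2) (Fin 2) F) 0 0 + (g : Matrix (Fin 2) (Fin 2) F) 1 1) ^ 2 ≠ 4) :
    res Χ g = 0 := by
  have h22 := two_ne_neg hodd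
  have hq3c : (Fintype.card F : ℂ) = 3 := by
    rw [hq3]
    norm_num
  obtain ⟨ω, hω2, hω⟩ := neg_char (res Χ) hirr
  have hωc : ω * conj ω = 1 := by
    rcases mul_self_eq_one_iff.mp hω2 with h | h <;> rw [h] <;> simp
  have hcf := Cfsg.Agent.Lib.Helper3.Char.char_classFun
    (Cfsg.Agent.Lib.Helper3.Char.isCharacter_of_irr hΧ)
  have hv1 : res Χ 1 = 2 := by
    rw [res_one_val, hc.2.1, hq3c]
    norm_num
  have hvp : ∀ s : Matrix.SpecialLinearGroup (Fin 2) F,
      (s : Matrix (Fin 2) (Fin 2) F) 0 0 + (s : Matrix (Fin 2) (Fin 2) F) 1 1 = 2 → s ≠ 1 →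
      res Χ s = -1 := by
    intro s h1 h2
    obtain ⟨y, hy⟩ := conj_u_of_trace hodd s h1 h2
    rw [← hy, res_apply, toGL_cjS, hcf]
    exact hc.2.2.1 _ rfl
  have hpt : ∀ s : Matrix.SpecialLinearGroup (Fin 2) F, res Χ s * conj (res Χ s) =
      (if ((s : Matrix (Fin 2) (Fin 2) F) 0 0 + (s : Matrix (Fin 2) (Fin 2) F) 1 1) ^ 2 ≠ 4 then
        ((Complex.normSq (res Χ s) : ℝ) : ℂ) else 0) +
      ((if s = 1 then 4 else 0) + (if s = zS then 4 else 0) + indp s + indm s) := by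
    intro s
    by_cases hp : (s : Matrix (Fin 2) (Fin 2) F) 0 0 + (s : Matrix (Fin 2) (Fin 2) F) 1 1 = 2
    · have hne4 : ¬ (((s : Matrix (Fin 2) (Fin 2) F) 0 0 + (s : Matrix (Fin 2) (Fin 2) F) 1 1) ^ 2
          ≠ 4) := by
        rw [hp]
        norm_num
      have hzs : s ≠ zS := by
        rintro rfl
        rw [zS_tr] at hp
        exact h22 hp.symm
      have hm : indm s = 0 := by
        rw [indm_def, if_neg]
        rintro ⟨h, _⟩
        rw [hp] at h
        exact h22 h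
      by_cases h1 : s = 1
      · subst h1
        rw [hv1, if_neg hne4, if_pos rfl, if_neg hzs, hm, indp_def, if_neg (by simp),
          Complex.conj_ofNat]
        norm_num
      · rw [hvp s hp h1, if_neg hne4, if_neg h1, if_neg hzs, hm, indp_def, if_pos ⟨hp, h1⟩]
        simp
    · by_cases hm : (s : Matrix (Fin 2) (Fin 2) F) 0 0 + (s : Matrix (Fin 2) (Fin 2) F) 1 1 = -2
      · have hne4 : ¬ (((s : Matrix (Fin 2) (Fin 2) F) 0 0 +
            (s : Matrix (Fin 2) (Fin 2) F) 1 1) ^ 2 ≠ 4) := by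
          rw [hm]
          norm_num
        have hs1 : s ≠ 1 := by
          rintro rfl
          exact hp one_tr
        have hpz : indp s = 0 := by
          rw [indp_def, if_neg]
          rintro ⟨h, _⟩
          exact hp h
        by_cases hz : s = zS
        · subst hz
          have h5 := hω 1
          rw [mul_one] at h5
          rw [h5, hv1, if_neg hne4, if_neg hs1, if_pos rfl, hpz, indm_def, if_neg (by simp),
            map_mul, Complex.conj_ofNat]
          linear_combination 4 * hωc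
        · have hs' : s = zS * (zS * s) := by
            rw [← mul_assoc, zS_sq, one_mul]
          obtain ⟨e00, _, _, e11⟩ := zS_mul_entries s
          have htr' : ((zS * s : Matrix.SpecialLinearGroup (Fin 2) F) :
              Matrix (Fin 2) (Fin 2) F) 0 0 + ((zS * s : Matrix.SpecialLinearGroup (Fin 2) F) :
              Matrix (Fin 2) (Fin 2) F) 1 1 = 2 := by
            rw [e00, e11]
            linear_combination -hm
          have hne' : zS * s ≠ 1 := by
            intro h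
            apply hz
            rw [hs', h, mul_one]
          have hval : res Χ s = ω * (-1) := by
            conv_lhs => rw [hs']
            rw [hω, hvp _ htr' hne']
          rw [hval, if_neg hne4, if_neg hs1, if_neg hz, hpz, indm_def, if_pos ⟨hm, hz⟩, map_mul]
          simp
          linear_combination hωc
      · have hne4 : ((s : Matrix (Fin 2) (Fin 2) F) 0 0 +
            (s : Matrix (Fin 2) (Fin 2) F) 1 1) ^ 2 ≠ 4 := by
          intro h
          have h' : ((s : Matrix (Fin 2) (Fin 2) F) 0 0 + (s : Matrix (Fin 2) (Fin 2) F) 1 1 - 2) *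
              ((s : Matrix (Fin 2) (Fin 2) F) 0 0 + (s : Matrix (Fin 2) (Fin 2) F) 1 1 + 2) = 0 := by
            linear_combination h
          rcases mul_eq_zero.mp h' with h | h
          · exact hp (by linear_combination h)
          · exact hm (by linear_combination h)
        have hs1 : s ≠ 1 := by
          rintro rfl
          exact hp one_tr
        have hsz : s ≠ zS := by
          rintro rfl
          exact hm zS_tr
        rw [if_pos hne4, if_neg hs1, if_neg hsz, indp_def, indm_def, if_neg (fun h => hp h.1),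
          if_neg (fun h => hm h.1), Complex.mul_conj]
        simp
  have hnorm := Cfsg.Agent.Lib.Helper3.Char.irr_inner_self hirr
  unfold Cfsg.classInner at hnorm
  have hcard := card_SL2_cast (F := F)
  have hne := card_SL2_ne (F := F)
  have hsum : ∑ s : Matrix.SpecialLinearGroup (Fin 2) F, res Χ s * conj (res Χ s) = 24 := by
    have h5 : ∑ s : Matrix.SpecialLinearGroup (Fin 2) F, res Χ s * conj (res Χ s) =
        (Nat.card (Matrix.SpecialLinearGroup (Fin 2) F) : ℂ) := by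
      field_simp at hnorm
      linear_combination hnorm
    rw [h5, hcard, hq3c]
    norm_num
  rw [Finset.sum_congr rfl (fun s _ => hpt s)] at hsum
  simp only [Finset.sum_add_distrib] at hsum
  rw [sum_indp hodd, sum_indm hodd, Finset.sum_ite_eq', Finset.sum_ite_eq', if_pos (Finset.mem_univ _),
    if_pos (Finset.mem_univ _), hq3c] at hsum
  have hzero : ∑ s : Matrix.SpecialLinearGroup (Fin 2) F,
      (if ((s : Matrix (Fin 2) (Fin 2) F) 0 0 + (s : Matrix (Fin 2) (Fin 2) F) 1 1) ^ 2 ≠ 4 then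
        ((Complex.normSq (res Χ s) : ℝ) : ℂ) else 0) = 0 := by
    linear_combination hsum
  have h6 := Cfsg.Agent.S2309.sum_real_zero
    (fun s : Matrix.SpecialLinearGroup (Fin 2) F =>
      ((s : Matrix (Fin 2) (Fin 2) F) 0 0 + (s : Matrix (Fin 2) (Fin 2) F) 1 1) ^ 2 ≠ 4)
    (fun s => Complex.normSq (res Χ s)) (fun s _ => Complex.normSq_nonneg _)
    (by convert hzero) g htr
  exact Complex.normSq_eq_zero.mp h6

end SL2f

theorem result {F : Type*} [Field F] [Fintype F] (hodd : Odd (Fintype.card F)) (χ : Matrix.SpecialLinearGroup (Fin 2) F → ℂ) (hχ : Cfsg.IsIrrCharacter (Matrix.SpecialLinearGroup (Fin 2) F) χ) (g : Matrix.SpecialLinearGroup (Fin 2) F) :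
    ((χ 1 = (Fintype.card F : ℂ) - 1 ∨ χ 1 = (((Fintype.card F - 1) / 2 : ℕ) : ℂ)) →
      (g : Matrix (Fin 2) (Fin 2) F) 0 1 = 0 → (g : Matrix (Fin 2) (Fin 2) F) 1 0 = 0 → (g : Matrix (Fin 2) (Fin 2) F) 0 0 ^ 2 ≠ 1 → χ g = 0) ∧
    ((χ 1 = (Fintype.card F : ℂ) + 1 ∨ χ 1 = (((Fintype.card F + 1) / 2 : ℕ) : ℂ)) →
      (∀ (c : F) (v : Fin 2 → F), v ≠ 0 → (g : Matrix (Fin 2) (Fin 2) F).mulVec v ≠ c • v) → χ g = 0) := by
  classical
  have hodd' := hodd
  have hcf := Cfsg.Agent.Lib.Helper3.Char.char_classFun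
    (Cfsg.Agent.Lib.Helper3.Char.isCharacter_of_irr hχ)
  obtain ⟨k, hk⟩ := hodd
  have e1 : (Fintype.card F + 1) / 2 = k + 1 := by omega
  have e2 : (Fintype.card F - 1) / 2 = k := by omega
  have hkc : (Fintype.card F : ℂ) = 2 * (k : ℂ) + 1 := by
    rw [hk]
    push_cast
    ring
  have hq1 := Fintype.one_lt_card (α := F)
  refine ⟨?_, ?_⟩
  · intro hdeg h01 h10 ha
    have hdet := Cfsg.Agent.S2432.sdet g
    rw [h01, h10] at hdet
    have hu : (g : Matrix (Fin 2) (Fin 2) F) 0 0 * (g : Matrix (Fin 2) (Fin 2) F) 1 1 = 1 := by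
      linear_combination hdet
    have ha0 : (g : Matrix (Fin 2) (Fin 2) F) 0 0 ≠ 0 := left_ne_zero_of_mul_eq_one hu
    have hq5 : 5 ≤ Fintype.card F := by
      by_contra hlt
      have hq3 : Fintype.card F = 3 := by omega
      have h5 := FiniteField.pow_card_sub_one_eq_one _ ha0
      rw [hq3] at h5
      exact ha h5
    have hne : (g : Matrix (Fin 2) (Fin 2) F) 0 0 ≠ (g : Matrix (Fin 2) (Fin 2) F) 1 1 := by
      intro h
      apply ha
      rw [pow_two]
      nth_rewrite 2 [h]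
      exact hu
    have htr : ((g : Matrix (Fin 2) (Fin 2) F) 0 0 + (g : Matrix (Fin 2) (Fin 2) F) 1 1) ^ 2 ≠ 4 := by
      intro h
      have h5 : ((g : Matrix (Fin 2) (Fin 2) F) 0 0 - (g : Matrix (Fin 2) (Fin 2) F) 1 1) ^ 2 = 0 := by
        linear_combination h - 4 * hu
      exact hne (sub_eq_zero.mp ((pow_eq_zero_iff two_ne_zero).mp h5))
    rcases hdeg with hdeg | hdeg
    · obtain ⟨Χ, hΧ, hc, rfl⟩ := Cfsg.Agent.S2438.deg_qm1_eq (by omega) χ hχ hdeg
      rw [Cfsg.Agent.S2323.res_apply]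
      exact hc.2.2.2 _ h01 h10 hne
    · rw [e2] at hdeg
      have hdeg2 : χ 1 + χ 1 = (Fintype.card F : ℂ) - 1 := by
        rw [hdeg, hkc]
        ring
      obtain ⟨Χ, x, hΧ, hc, hx, h⟩ := Cfsg.Agent.S2438.deg_halfm_eq (by omega) χ hχ hdeg2
      have h1 := congrFun h g
      rw [Cfsg.Agent.S2323.res_apply, hc.2.2.2 _ h01 h10 hne, Pi.add_apply, Function.comp_apply,
        cj_fix hodd' χ hcf x g htr] at h1
      linear_combination (-1 / 2 : ℂ) * h1
  · intro hdeg hell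
    have htr := elliptic_tr g hell
    rcases hdeg with hdeg | hdeg
    · obtain ⟨γ, rfl⟩ := Cfsg.Agent.S2300.deg_q1_eq χ hχ hdeg
      exact Cfsg.Agent.S2323.RS_elliptic γ g hell
    · rw [e1] at hdeg
      have hdeg2 : χ 1 + χ 1 = (Fintype.card F : ℂ) + 1 := by
        rw [hdeg, hkc]
        push_cast
        ring
      have hq' : (3 : ℤ) ≤ (Fintype.card F : ℤ) := by
        have : 3 ≤ Fintype.card F := by omega
        exact_mod_cast this
      rcases Cfsg.Agent.S2323.sclassify χ hχ with rfl | rfl | ⟨γ, rfl⟩ | ⟨ho, γ, x, hx, h⟩ |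
        ⟨Χ, hΧ, hcusp, rfl⟩ | ⟨ho, Χ, x, hΧ, hcusp, hx, h⟩
      · exfalso
        have hd' : (1 : ℂ) + 1 = (Fintype.card F : ℂ) + 1 := hdeg2
        have e : (1 : ℤ) + 1 = (Fintype.card F : ℤ) + 1 := by exact_mod_cast hd'
        omega
      · exfalso
        have hd' : (Cfsg.Agent.S2323.RS (1 : MulChar F ℂ) 1 - 1) +
            (Cfsg.Agent.S2323.RS (1 : MulChar F ℂ) 1 - 1) = (Fintype.card F : ℂ) + 1 := hdeg2
        rw [Cfsg.Agent.S2323.RS_one_val] at hd'
        have e : ((Fintype.card F : ℤ) + 1 - 1) + ((Fintype.card F : ℤ) + 1 - 1) =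
            (Fintype.card F : ℤ) + 1 := by exact_mod_cast hd'
        omega
      · exfalso
        rw [Cfsg.Agent.S2323.RS_one_val] at hdeg2
        have e : ((Fintype.card F : ℤ) + 1) + ((Fintype.card F : ℤ) + 1) =
            (Fintype.card F : ℤ) + 1 := by exact_mod_cast hdeg2
        omega
      · have h1 := congrFun h g
        rw [Cfsg.Agent.S2323.RS_elliptic γ g hell, Pi.add_apply, Function.comp_apply,
          cj_fix hodd' χ hcf x g htr] at h1
        linear_combination (-1 / 2 : ℂ) * h1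
      · rw [Cfsg.Agent.S2323.res_one_val, hcusp.2.1] at hdeg2
        have e : ((Fintype.card F : ℤ) - 1) + ((Fintype.card F : ℤ) - 1) =
            (Fintype.card F : ℤ) + 1 := by exact_mod_cast hdeg2
        have hq3 : Fintype.card F = 3 := by omega
        exact cusp_q3 hodd' hq3 Χ hΧ hcusp hχ g htr
      · exfalso
        have h1 := congrFun h 1
        rw [Cfsg.Agent.S2323.res_one_val, hcusp.2.1, Pi.add_apply, Cfsg.Agent.S2323.cj_one_val,
          hdeg2] at h1
        have e : (Fintype.card F : ℤ) - 1 = (Fintype.card F : ℤ) + 1 := by exact_mod_cast h1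
        omega

end Cfsg.Agent.S2322
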