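import Cfsg.Statements.S2324
import Cfsg.Agent.S2322

set_option autoImplicit false
open Cfsg

set_option maxHeartbeats 1000000
namespace Cfsg.Agent.S2324

open scoped ComplexConjugate

section SL2g

open Cfsg.Agent.S2323 Cfsg.Agent.S2300 Cfsg.Agent.S2438 Cfsg.Agent.S2322

variable {F : Type*} [Field F] [Fintype F] [DecidableEq F]

theorem pair_perm (A ψ₁ ψ₂ : Matrix.SpecialLinearGroup (Fin 2) F → ℂ)
    (hA : ∀ y : Matrix.GeneralLinearGroup (Fin 2) F, A ∘ cjS y = A)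
    (h1 : Cfsg.IsIrrCharacter (Matrix.SpecialLinearGroup (Fin 2) F) ψ₁)
    (h2 : Cfsg.IsIrrCharacter (Matrix.SpecialLinearGroup (Fin 2) F) ψ₂) (hne : ψ₁ ≠ ψ₂)
    (hsum : A = ψ₁ + ψ₂) (y : Matrix.GeneralLinearGroup (Fin 2) F) :
    (ψ₁ ∘ cjS y = ψ₁ ∧ ψ₂ ∘ cjS y = ψ₂) ∨ (ψ₁ ∘ cjS y = ψ₂ ∧ ψ₂ ∘ cjS y = ψ₁) := by
  have hs : ψ₁ + ψ₂ = ψ₁ ∘ cjS y + ψ₂ ∘ cjS y := by
    have h3 := hA y
    rw [hsum] at h3
    exact h3.symm
  have hne' : ψ₂ ∘ cjS y ≠ ψ₁ ∘ cjS y := by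
    intro h
    apply hne
    exact ((cjS_surj y).injective_comp_right h).symm
  rcases Cfsg.Agent.S2299.mem_of_sum_two h1 h2 (cj_irr ψ₁ h1 y) (cj_irr ψ₂ h2 y) hne' hs with h | h
  · left
    refine ⟨h, ?_⟩
    rw [h] at hs
    exact (add_left_cancel hs).symm
  · right
    refine ⟨h, ?_⟩
    rw [h] at hs
    have h4 : ψ₂ + ψ₁ = ψ₂ + ψ₂ ∘ cjS y := by
      rw [add_comm]
      exact hs
    exact (add_left_cancel h4).symm

theorem sq_act (ψ : Matrix.SpecialLinearGroup (Fin 2) F → ℂ)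
    (hψ : Cfsg.IsClassFunction (Matrix.SpecialLinearGroup (Fin 2) F) ψ) (c : F) (hc : c ≠ 0)
    (h : c * c ≠ 0) : ψ ∘ cjS (dg (c * c) h) = ψ := by
  obtain ⟨d00, d01, d10, d11⟩ := dg_entries (c * c) h
  generalize dg (c * c) h = D at d00 d01 d10 d11 ⊢
  obtain ⟨z00, z01, z10, z11⟩ := Cfsg.Agent.S2309.scal_entries (Units.mk0 c hc)
  have hZc := Cfsg.Agent.S2309.scal_central (Units.mk0 c hc)
  generalize Cfsg.Agent.S2309.scal (Units.mk0 c hc) = Z at z00 z01 z10 z11 hZc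
  rw [Units.val_mk0] at z00 z11
  obtain ⟨t, t00, t01, t10, t11⟩ : ∃ t : Matrix.SpecialLinearGroup (Fin 2) F,
      (t : Matrix (Fin 2) (Fin 2) F) 0 0 = c ∧ (t : Matrix (Fin 2) (Fin 2) F) 0 1 = 0 ∧
      (t : Matrix (Fin 2) (Fin 2) F) 1 0 = 0 ∧ (t : Matrix (Fin 2) (Fin 2) F) 1 1 = c⁻¹ :=
    ⟨Cfsg.Agent.S2432.smk c 0 0 c⁻¹ (by rw [mul_inv_cancel₀ hc]; ring), rfl, rfl, rfl, rfl⟩
  have hD : D = Matrix.SpecialLinearGroup.toGL t * Z := by
    apply Cfsg.Agent.S2304.gl2_ext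
    · rw [Cfsg.Agent.S2304.gmul, toGL_entry, toGL_entry, d00, z00, z10, t00, t01]
      ring
    · rw [Cfsg.Agent.S2304.gmul, toGL_entry, toGL_entry, d01, z01, z11, t00, t01]
      ring
    · rw [Cfsg.Agent.S2304.gmul, toGL_entry, toGL_entry, d10, z00, z10, t10, t11]
      ring
    · rw [Cfsg.Agent.S2304.gmul, toGL_entry, toGL_entry, d11, z01, z11, t10, t11,
        inv_mul_cancel₀ hc]
      ring
  funext s
  rw [Function.comp_apply]
  have key : cjS D s = t * s * t⁻¹ := by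
    apply Matrix.SpecialLinearGroup.toGL_injective
    rw [toGL_cjS, hD, map_mul, map_mul, map_inv]
    have hZ := hZc (Matrix.SpecialLinearGroup.toGL s)
    have hZ' : Z * Matrix.SpecialLinearGroup.toGL s = Matrix.SpecialLinearGroup.toGL s * Z :=
      (mul_inv_eq_iff_eq_mul.mp hZ).symm
    calc Matrix.SpecialLinearGroup.toGL t * Z * Matrix.SpecialLinearGroup.toGL s *
          (Matrix.SpecialLinearGroup.toGL t * Z)⁻¹
        = Matrix.SpecialLinearGroup.toGL t * (Z * Matrix.SpecialLinearGroup.toGL s) * Z⁻¹ *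
          (Matrix.SpecialLinearGroup.toGL t)⁻¹ := by group
      _ = Matrix.SpecialLinearGroup.toGL t * (Matrix.SpecialLinearGroup.toGL s * Z) * Z⁻¹ *
          (Matrix.SpecialLinearGroup.toGL t)⁻¹ := by rw [hZ']
      _ = Matrix.SpecialLinearGroup.toGL t * Matrix.SpecialLinearGroup.toGL s *
          (Matrix.SpecialLinearGroup.toGL t)⁻¹ := by group
  rw [key, hψ]

theorem sq_fix (ψ : Matrix.SpecialLinearGroup (Fin 2) F → ℂ)
    (hψ : Cfsg.IsClassFunction (Matrix.SpecialLinearGroup (Fin 2) F) ψ) (δ : F) (hδ : δ ≠ 0)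
    (hsq : IsSquare δ) : ψ ∘ cjS (dg δ hδ) = ψ := by
  obtain ⟨c, rfl⟩ := hsq
  have hc : c ≠ 0 := by
    rintro rfl
    simp at hδ
  exact sq_act ψ hψ c hc hδ

theorem dg_mul (a b : F) (ha : a ≠ 0) (hb : b ≠ 0) (hab : a * b ≠ 0) :
    dg (a * b) hab = dg a ha * dg b hb := by
  obtain ⟨a00, a01, a10, a11⟩ := dg_entries a ha
  obtain ⟨b00, b01, b10, b11⟩ := dg_entries b hb
  obtain ⟨c00, c01, c10, c11⟩ := dg_entries (a * b) hab
  apply Cfsg.Agent.S2304.gl2_ext <;>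
    simp only [Cfsg.Agent.S2304.gmul, a00, a01, a10, a11, b00, b01, b10, b11, c00, c01, c10, c11] <;>
    ring

theorem ub_inv : (ub (1 : F))⁻¹ = ub (-1) := by
  apply inv_eq_of_mul_eq_one_right
  obtain ⟨a00, a01, a10, a11⟩ := ub_entries (1 : F)
  obtain ⟨b00, b01, b10, b11⟩ := ub_entries (-1 : F)
  apply Cfsg.Agent.S2432.sl2_ext <;>
    simp only [Cfsg.Agent.S2432.smul2, a00, a01, a10, a11, b00, b01, b10, b11] <;> simp

theorem half_values (hodd : Odd (Fintype.card F))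
    (A ψ₁ ψ₂ : Matrix.SpecialLinearGroup (Fin 2) F → ℂ)
    (hA : ∀ y : Matrix.GeneralLinearGroup (Fin 2) F, A ∘ cjS y = A)
    (h1 : Cfsg.IsIrrCharacter (Matrix.SpecialLinearGroup (Fin 2) F) ψ₁)
    (h2 : Cfsg.IsIrrCharacter (Matrix.SpecialLinearGroup (Fin 2) F) ψ₂) (hne : ψ₁ ≠ ψ₂)
    (hsum : A = ψ₁ + ψ₂) (x₀ : Matrix.GeneralLinearGroup (Fin 2) F) (hx₀ : ψ₂ = ψ₁ ∘ cjS x₀) :
    (ψ₁ (ub 1) - ψ₂ (ub 1)) ^ 2 =
      (-1 : ℂ) ^ ((Fintype.card F - 1) / 2) * (Fintype.card F : ℂ) := by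
  classical
  have h2F := two_ne hodd
  have h22 := two_ne_neg hodd
  have hcf1 := Cfsg.Agent.Lib.Helper3.Char.char_classFun
    (Cfsg.Agent.Lib.Helper3.Char.isCharacter_of_irr h1)
  have hperm := pair_perm A ψ₁ ψ₂ hA h1 h2 hne hsum
  obtain ⟨ω, hω2, hω⟩ := neg_char ψ₁ h1
  have hωc : ω * conj ω = 1 := by
    rcases mul_self_eq_one_iff.mp hω2 with h | h <;> rw [h] <;> simp
  have hω' : ∀ s : Matrix.SpecialLinearGroup (Fin 2) F, ψ₂ (zS * s) = ω * ψ₂ s := by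
    intro s
    rw [hx₀, Function.comp_apply, Function.comp_apply, map_mul, cjS_zS, hω]
  generalize hw : ψ₁ (ub 1) - ψ₂ (ub 1) = w
  -- values on the elements of trace 2
  have hBp : ∀ s : Matrix.SpecialLinearGroup (Fin 2) F,
      (s : Matrix (Fin 2) (Fin 2) F) 0 0 + (s : Matrix (Fin 2) (Fin 2) F) 1 1 = 2 → s ≠ 1 →
      (ψ₁ s - ψ₂ s) * conj (ψ₁ s - ψ₂ s) = w * conj w := by
    intro s hs1 hs2
    obtain ⟨y, hy⟩ := conj_u_of_trace hodd s hs1 hs2
    rcases hperm y with ⟨ha, hb⟩ | ⟨ha, hb⟩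
    · have e1 : ψ₁ s = ψ₁ (ub 1) := by
        rw [← hy]
        exact congrFun ha (ub 1)
      have e2 : ψ₂ s = ψ₂ (ub 1) := by
        rw [← hy]
        exact congrFun hb (ub 1)
      rw [e1, e2, hw]
    · have e1 : ψ₁ s = ψ₂ (ub 1) := by
        rw [← hy]
        exact congrFun ha (ub 1)
      have e2 : ψ₂ s = ψ₁ (ub 1) := by
        rw [← hy]
        exact congrFun hb (ub 1)
      rw [e1, e2, ← hw, map_sub, map_sub]
      ring
  have hpt : ∀ s : Matrix.SpecialLinearGroup (Fin 2) F,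
      (ψ₁ s - ψ₂ s) * conj (ψ₁ s - ψ₂ s) = (w * conj w) * (indp s + indm s) := by
    intro s
    by_cases hp : (s : Matrix (Fin 2) (Fin 2) F) 0 0 + (s : Matrix (Fin 2) (Fin 2) F) 1 1 = 2
    · have hm : indm s = 0 := by
        rw [indm_def, if_neg]
        rintro ⟨h, _⟩
        rw [hp] at h
        exact h22 h
      by_cases hs1 : s = 1
      · subst hs1
        have e : ψ₂ 1 = ψ₁ 1 := by
          rw [hx₀, cj_one_val]
        rw [hm, indp_def, if_neg (by simp), e]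
        simp
      · rw [hBp s hp hs1, hm, indp_def, if_pos ⟨hp, hs1⟩]
        ring
    · have hpz : indp s = 0 := by
        rw [indp_def, if_neg]
        rintro ⟨h, _⟩
        exact hp h
      by_cases hm : (s : Matrix (Fin 2) (Fin 2) F) 0 0 + (s : Matrix (Fin 2) (Fin 2) F) 1 1 = -2
      · by_cases hz : s = zS
        · subst hz
          have e : ψ₂ zS = ψ₁ zS := by
            rw [hx₀, Function.comp_apply, cjS_zS]
          rw [hpz, indm_def, if_neg (by simp), e]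
          simp
        · have hs' : s = zS * (zS * s) := by
            rw [← mul_assoc, zS_sq, one_mul]
          obtain ⟨e00, _, _, e11⟩ := zS_mul_entries s
          have htr' : ((zS * s : Matrix.SpecialLinearGroup (Fin 2) F) :
              Matrix (Fin 2) (Fin 2) F) 0 0 + ((zS * s : Matrix.SpecialLinearGroup (Fin 2) F) :
              Matrix (Fin 2) (Fin 2) F) 1 1 = 2 := by
            rw [e00, e11]
            linear_combination -hm
          have hne' : zS * s ≠ 1 := by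
            intro h
            apply hz
            rw [hs', h, mul_one]
          have hval1 : ψ₁ s = ω * ψ₁ (zS * s) := by
            conv_lhs => rw [hs']
            rw [hω]
          have hval2 : ψ₂ s = ω * ψ₂ (zS * s) := by
            conv_lhs => rw [hs']
            rw [hω']
          have h5 := hBp _ htr' hne'
          rw [hval1, hval2, hpz, indm_def, if_pos ⟨hm, hz⟩, ← mul_sub, map_mul]
          linear_combination (ψ₁ (zS * s) - ψ₂ (zS * s)) * conj (ψ₁ (zS * s) - ψ₂ (zS * s)) * hωc + h5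
      · have hne4 : ((s : Matrix (Fin 2) (Fin 2) F) 0 0 +
            (s : Matrix (Fin 2) (Fin 2) F) 1 1) ^ 2 ≠ 4 := by
          intro h
          have h' : ((s : Matrix (Fin 2) (Fin 2) F) 0 0 + (s : Matrix (Fin 2) (Fin 2) F) 1 1 - 2) *
              ((s : Matrix (Fin 2) (Fin 2) F) 0 0 + (s : Matrix (Fin 2) (Fin 2) F) 1 1 + 2) = 0 := by
            linear_combination h
          rcases mul_eq_zero.mp h' with h | h
          · exact hp (by linear_combination h)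
          · exact hm (by linear_combination h)
        have e : ψ₂ s = ψ₁ s := by
          rw [hx₀, Function.comp_apply, cj_fix hodd ψ₁ hcf1 x₀ s hne4]
        rw [hpz, indm_def, if_neg (fun h => hm h.1), e]
        simp
  -- the norm
  have hin : Cfsg.classInner (ψ₁ - ψ₂) (ψ₁ - ψ₂) = 2 := by
    rw [Cfsg.Agent.Lib.Helper3.Char.classInner_sub_left,
      Cfsg.Agent.Lib.Helper3.Char.classInner_sub_right,
      Cfsg.Agent.Lib.Helper3.Char.classInner_sub_right,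
      Cfsg.Agent.Lib.Helper3.Char.irr_inner_self h1,
      Cfsg.Agent.Lib.Helper3.Char.irr_inner_self h2,
      Cfsg.Agent.Lib.Helper3.Char.irr_inner_ne h1 h2 hne,
      Cfsg.Agent.Lib.Helper3.Char.irr_inner_ne h2 h1 (Ne.symm hne)]
    norm_num
  unfold Cfsg.classInner at hin
  have hcard := card_SL2_cast (F := F)
  have hcne := card_SL2_ne (F := F)
  have hsumD : ∑ s : Matrix.SpecialLinearGroup (Fin 2) F,
      (ψ₁ s - ψ₂ s) * conj (ψ₁ s - ψ₂ s) =
      2 * ((Fintype.card F : ℂ) * ((Fintype.card F : ℂ) ^ 2 - 1)) := by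
    rw [← hcard]
    have h5 : ∑ s : Matrix.SpecialLinearGroup (Fin 2) F,
        (ψ₁ s - ψ₂ s) * conj (ψ₁ s - ψ₂ s) =
        ∑ s : Matrix.SpecialLinearGroup (Fin 2) F, (ψ₁ - ψ₂) s * conj ((ψ₁ - ψ₂) s) := rfl
    rw [h5]
    field_simp at hin
    linear_combination hin
  rw [Finset.sum_congr rfl (fun s _ => hpt s), ← Finset.mul_sum, Finset.sum_add_distrib,
    sum_indp hodd, sum_indm hodd] at hsumD
  have hq1 : (Fintype.card F : ℂ) ^ 2 - 1 ≠ 0 := by
    have h6 := Fintype.one_lt_card (α := F)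
    intro h
    have h' : ((Fintype.card F ^ 2 : ℕ) : ℂ) = ((1 : ℕ) : ℂ) := by
      push_cast
      linear_combination h
    have h'' : Fintype.card F ^ 2 = 1 := by exact_mod_cast h'
    have h7 : 2 ^ 2 ≤ Fintype.card F ^ 2 := Nat.pow_le_pow_left h6 2
    omega
  have hww : w * conj w = (Fintype.card F : ℂ) := by
    have h6 : (w * conj w - (Fintype.card F : ℂ)) * (2 * ((Fintype.card F : ℂ) ^ 2 - 1)) = 0 := by
      linear_combination hsumD
    rcases mul_eq_zero.mp h6 with h | h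
    · linear_combination h
    · exfalso
      rcases mul_eq_zero.mp h with h | h
      · norm_num at h
      · exact hq1 h
  -- the sign
  have hm1 : (-1 : F) ≠ 0 := neg_ne_zero.mpr one_ne_zero
  have hcw : conj w = ψ₁ (cjS (dg (-1) hm1) (ub 1)) - ψ₂ (cjS (dg (-1) hm1) (ub 1)) := by
    rw [← hw, map_sub, ← Cfsg.Agent.Lib.Helper3.Char.char_inv
      (Cfsg.Agent.Lib.Helper3.Char.isCharacter_of_irr h1),
      ← Cfsg.Agent.Lib.Helper3.Char.char_inv
      (Cfsg.Agent.Lib.Helper3.Char.isCharacter_of_irr h2), ub_inv, cjS_dg_ub, mul_one]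
  obtain ⟨k, hk⟩ := hodd
  have hodd' : Odd (Fintype.card F) := ⟨k, hk⟩
  rcases hperm (dg (-1) hm1) with ⟨ha, hb⟩ | ⟨ha, hb⟩
  · -- fixed: then -1 is a square
    have hsq : IsSquare (-1 : F) := by
      by_contra hnsq
      obtain ⟨δ, hδ, hcd⟩ : ∃ (δ : F) (hδ : δ ≠ 0), ψ₁ ∘ cjS x₀ = ψ₁ ∘ cjS (dg δ hδ) :=
        ⟨_, Cfsg.Agent.S2304.det_ne x₀, cj_diag ψ₁ hcf1 x₀⟩
      have hnsq' : ¬ IsSquare δ := by
        intro hsq
        apply hne
        rw [hx₀, hcd, sq_fix ψ₁ hcf1 δ hδ hsq]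
      have hprod : IsSquare (-1 * δ) := by
        rw [← quadraticChar_one_iff_isSquare (mul_ne_zero hm1 hδ), map_mul,
          quadraticChar_neg_one_iff_not_isSquare.mpr hnsq,
          quadraticChar_neg_one_iff_not_isSquare.mpr hnsq']
        norm_num
      obtain ⟨c, hc⟩ := hprod
      have hc0 : c ≠ 0 := by
        rintro rfl
        rw [mul_zero] at hc
        exact mul_ne_zero hm1 hδ hc
      have hδc : δ = -1 * (c * c) := by
        linear_combination -hc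
      subst hδc
      apply hne
      rw [hx₀, hcd, dg_mul (-1) (c * c) hm1 (mul_ne_zero hc0 hc0) hδ]
      funext s
      rw [Function.comp_apply, ← cjS_cjS]
      have h7 := congrFun ha (cjS (dg (c * c) (mul_ne_zero hc0 hc0)) s)
      rw [Function.comp_apply] at h7
      rw [h7]
      exact (congrFun (sq_act ψ₁ hcf1 c hc0 (mul_ne_zero hc0 hc0)) s).symm
    have hmod := FiniteField.isSquare_neg_one_iff.mp hsq
    have heven : Even ((Fintype.card F - 1) / 2) := by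
      rw [Nat.even_iff]
      omega
    have hcw' : conj w = w := by
      rw [hcw, ← hw]
      have e1 := congrFun ha (ub 1)
      have e2 := congrFun hb (ub 1)
      rw [Function.comp_apply] at e1 e2
      rw [e1, e2]
    rw [heven.neg_one_pow, one_mul, pow_two]
    nth_rewrite 2 [← hcw']
    exact hww
  · -- swapped: then -1 is not a square
    have hnsq : ¬ IsSquare (-1 : F) := by
      intro hsq
      apply hne
      rw [← ha, sq_fix ψ₁ hcf1 (-1) hm1 hsq]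
    have hmod : Fintype.card F % 4 = 3 := by
      by_contra h
      exact hnsq (FiniteField.isSquare_neg_one_iff.mpr h)
    have hoddk : Odd ((Fintype.card F - 1) / 2) := by
      rw [Nat.odd_iff]
      omega
    have hcw' : conj w = -w := by
      rw [hcw, ← hw]
      have e1 := congrFun ha (ub 1)
      have e2 := congrFun hb (ub 1)
      rw [Function.comp_apply] at e1 e2
      rw [e1, e2]
      ring
    rw [hoddk.neg_one_pow, pow_two]
    rw [hcw'] at hww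
    linear_combination -hww

theorem third_eq {G : Type*} [Group G] [Fintype G] [Fintype (Cfsg.IrrCharacter G)] (m : ℕ)
    (hcard : (Finset.univ.filter (fun χ : Cfsg.IrrCharacter G => degN χ = m)).card = 2)
    (a b c : G → ℂ) (ha : Cfsg.IsIrrCharacter G a) (hb : Cfsg.IsIrrCharacter G b)
    (hc : Cfsg.IsIrrCharacter G c) (ha1 : a 1 = (m : ℂ)) (hb1 : b 1 = (m : ℂ))
    (hc1 : c 1 = (m : ℂ)) (hab : a ≠ b) (hac : a ≠ c) : c = b := by
  classical
  by_contra hcb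
  have hsub : ({⟨a, ha⟩, ⟨b, hb⟩, ⟨c, hc⟩} : Finset (Cfsg.IrrCharacter G)) ⊆
      Finset.univ.filter (fun χ : Cfsg.IrrCharacter G => degN χ = m) := by
    intro x hx
    rw [Finset.mem_insert, Finset.mem_insert, Finset.mem_singleton] at hx
    rw [Finset.mem_filter]
    refine ⟨Finset.mem_univ _, ?_⟩
    rcases hx with rfl | rfl | rfl
    · exact (degN_eq_iff _ m).mp ha1
    · exact (degN_eq_iff _ m).mp hb1
    · exact (degN_eq_iff _ m).mp hc1
  have h3 : ({⟨a, ha⟩, ⟨b, hb⟩, ⟨c, hc⟩} : Finset (Cfsg.IrrCharacter G)).card = 3 := by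
    rw [Finset.card_insert_of_notMem, Finset.card_pair]
    · intro h
      exact hcb (congrArg Subtype.val h).symm
    · rw [Finset.mem_insert, Finset.mem_singleton]
      rintro (h | h)
      · exact hab (congrArg Subtype.val h)
      · exact hac (congrArg Subtype.val h)
  have := Finset.card_le_card hsub
  omega

end SL2g

theorem result {F : Type*} [Field F] [Fintype F] (hodd : Odd (Fintype.card F)) (hq : 5 ≤ Fintype.card F)
    (u : Matrix.SpecialLinearGroup (Fin 2) F) (hu : (u : Matrix (Fin 2) (Fin 2) F) = !![1, 1; 0, 1]) :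
    (∀ χ : Matrix.SpecialLinearGroup (Fin 2) F → ℂ, Cfsg.IsIrrCharacter (Matrix.SpecialLinearGroup (Fin 2) F) χ → χ 1 = (((Fintype.card F + 1) / 2 : ℕ) : ℂ) → (2 * χ u - 1) ^ 2 = (-1 : ℂ) ^ ((Fintype.card F - 1) / 2) * (Fintype.card F : ℂ)) ∧
    (∀ χ : Matrix.SpecialLinearGroup (Fin 2) F → ℂ, Cfsg.IsIrrCharacter (Matrix.SpecialLinearGroup (Fin 2) F) χ → χ 1 = (((Fintype.card F - 1) / 2 : ℕ) : ℂ) → (2 * χ u + 1) ^ 2 = (-1 : ℂ) ^ ((Fintype.card F - 1) / 2) * (Fintype.card F : ℂ)) ∧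
    (∀ χ₁ χ₂ : Matrix.SpecialLinearGroup (Fin 2) F → ℂ, Cfsg.IsIrrCharacter (Matrix.SpecialLinearGroup (Fin 2) F) χ₁ → Cfsg.IsIrrCharacter (Matrix.SpecialLinearGroup (Fin 2) F) χ₂ → χ₁ ≠ χ₂ →
      χ₁ 1 = (((Fintype.card F + 1) / 2 : ℕ) : ℂ) → χ₂ 1 = (((Fintype.card F + 1) / 2 : ℕ) : ℂ) → χ₁ u + χ₂ u = 1) ∧
    (∀ χ₁ χ₂ : Matrix.SpecialLinearGroup (Fin 2) F → ℂ, Cfsg.IsIrrCharacter (Matrix.SpecialLinearGroup (Fin 2) F) χ₁ → Cfsg.IsIrrCharacter (Matrix.SpecialLinearGroup (Fin 2) F) χ₂ → χ₁ ≠ χ₂ →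
      χ₁ 1 = (((Fintype.card F - 1) / 2 : ℕ) : ℂ) → χ₂ 1 = (((Fintype.card F - 1) / 2 : ℕ) : ℂ) → χ₁ u + χ₂ u = -1) := by
  classical
  haveI : Fintype (Cfsg.IrrCharacter (Matrix.SpecialLinearGroup (Fin 2) F)) := Fintype.ofFinite _
  haveI : Fintype (MulChar F ℂ) := Fintype.ofFinite _
  have hu1 : u = Cfsg.Agent.S2438.ub 1 := Subtype.ext hu
  subst hu1
  have hodd' := hodd
  obtain ⟨k, hk⟩ := hodd
  have e1 : (Fintype.card F + 1) / 2 = k + 1 := by omega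
  have e2 : (Fintype.card F - 1) / 2 = k := by omega
  have hkc : (Fintype.card F : ℂ) = 2 * (k : ℂ) + 1 := by
    rw [hk]
    push_cast
    ring
  have hplus : ∀ χ : Matrix.SpecialLinearGroup (Fin 2) F → ℂ,
      Cfsg.IsIrrCharacter (Matrix.SpecialLinearGroup (Fin 2) F) χ →
      χ 1 = (((Fintype.card F + 1) / 2 : ℕ) : ℂ) →
      ∃ x : Matrix.GeneralLinearGroup (Fin 2) F, χ ∘ Cfsg.Agent.S2323.cjS x ≠ χ ∧
        χ (Cfsg.Agent.S2438.ub 1) + (χ ∘ Cfsg.Agent.S2323.cjS x) (Cfsg.Agent.S2438.ub 1) = 1 ∧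
        (χ (Cfsg.Agent.S2438.ub 1) - (χ ∘ Cfsg.Agent.S2323.cjS x) (Cfsg.Agent.S2438.ub 1)) ^ 2 =
          (-1 : ℂ) ^ ((Fintype.card F - 1) / 2) * (Fintype.card F : ℂ) := by
    intro χ hχ hdeg
    rw [e1] at hdeg
    have hdeg2 : χ 1 + χ 1 = (Fintype.card F : ℂ) + 1 := by
      rw [hdeg, hkc]
      push_cast
      ring
    obtain ⟨γ, x, hx, h⟩ := Cfsg.Agent.S2299.deg_half_eq hq χ hχ hdeg2
    have hA : ∀ y : Matrix.GeneralLinearGroup (Fin 2) F,
        Cfsg.Agent.S2323.RS γ ∘ Cfsg.Agent.S2323.cjS y = Cfsg.Agent.S2323.RS γ := by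
      intro y
      rw [Cfsg.Agent.S2323.RS_eq_res]
      exact Cfsg.Agent.S2323.res_cj _ (Cfsg.Agent.Lib.Helper3.Char.char_classFun
        (Cfsg.Agent.S2309.PS_char γ 1)) y
    have hv := half_values hodd' _ χ (χ ∘ Cfsg.Agent.S2323.cjS x) hA hχ
      (Cfsg.Agent.S2323.cj_irr χ hχ x) (Ne.symm hx) h x rfl
    refine ⟨x, hx, ?_, hv⟩
    have h1 := congrFun h (Cfsg.Agent.S2438.ub 1)
    rw [Cfsg.Agent.S2438.RS_ub γ 1 one_ne_zero, Pi.add_apply] at h1
    exact h1.symm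
  have hminus : ∀ χ : Matrix.SpecialLinearGroup (Fin 2) F → ℂ,
      Cfsg.IsIrrCharacter (Matrix.SpecialLinearGroup (Fin 2) F) χ →
      χ 1 = (((Fintype.card F - 1) / 2 : ℕ) : ℂ) →
      ∃ x : Matrix.GeneralLinearGroup (Fin 2) F, χ ∘ Cfsg.Agent.S2323.cjS x ≠ χ ∧
        χ (Cfsg.Agent.S2438.ub 1) + (χ ∘ Cfsg.Agent.S2323.cjS x) (Cfsg.Agent.S2438.ub 1) = -1 ∧
        (χ (Cfsg.Agent.S2438.ub 1) - (χ ∘ Cfsg.Agent.S2323.cjS x) (Cfsg.Agent.S2438.ub 1)) ^ 2 =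
          (-1 : ℂ) ^ ((Fintype.card F - 1) / 2) * (Fintype.card F : ℂ) := by
    intro χ hχ hdeg
    rw [e2] at hdeg
    have hdeg2 : χ 1 + χ 1 = (Fintype.card F : ℂ) - 1 := by
      rw [hdeg, hkc]
      ring
    obtain ⟨Χ, x, hΧ, hc, hx, h⟩ := Cfsg.Agent.S2438.deg_halfm_eq (by omega) χ hχ hdeg2
    have hA : ∀ y : Matrix.GeneralLinearGroup (Fin 2) F,
        Cfsg.Agent.S2323.res Χ ∘ Cfsg.Agent.S2323.cjS y = Cfsg.Agent.S2323.res Χ := by
      intro y
      exact Cfsg.Agent.S2323.res_cj _ (Cfsg.Agent.Lib.Helper3.Char.char_classFun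
        (Cfsg.Agent.Lib.Helper3.Char.isCharacter_of_irr hΧ)) y
    have hv := half_values hodd' _ χ (χ ∘ Cfsg.Agent.S2323.cjS x) hA hχ
      (Cfsg.Agent.S2323.cj_irr χ hχ x) (Ne.symm hx) h x rfl
    refine ⟨x, hx, ?_, hv⟩
    have h1 := congrFun h (Cfsg.Agent.S2438.ub 1)
    rw [Cfsg.Agent.S2323.res_apply, Cfsg.Agent.S2438.cusp_ub Χ hΧ hc 1 one_ne_zero,
      Pi.add_apply] at h1
    exact h1.symm
  refine ⟨?_, ?_, ?_, ?_⟩
  · intro χ hχ hdeg
    obtain ⟨x, hx, hs, hv⟩ := hplus χ hχ hdeg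
    rw [← hv]
    congr 1
    linear_combination hs
  · intro χ hχ hdeg
    obtain ⟨x, hx, hs, hv⟩ := hminus χ hχ hdeg
    rw [← hv]
    congr 1
    linear_combination hs
  · intro χ₁ χ₂ hχ₁ hχ₂ hne hd1 hd2
    obtain ⟨x, hx, hs, hv⟩ := hplus χ₁ hχ₁ hd1
    have h3 := third_eq ((Fintype.card F + 1) / 2) (Cfsg.Agent.S2299.nf_half hodd' hq)
      χ₁ (χ₁ ∘ Cfsg.Agent.S2323.cjS x) χ₂ hχ₁ (Cfsg.Agent.S2323.cj_irr χ₁ hχ₁ x) hχ₂ hd1
      (by rw [Cfsg.Agent.S2323.cj_one_val]; exact hd1) hd2 (Ne.symm hx) hne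
    rw [h3]
    exact hs
  · intro χ₁ χ₂ hχ₁ hχ₂ hne hd1 hd2
    obtain ⟨x, hx, hs, hv⟩ := hminus χ₁ hχ₁ hd1
    have h3 := third_eq ((Fintype.card F - 1) / 2) (Cfsg.Agent.S2299.odd_counts hodd' hq).2.2
      χ₁ (χ₁ ∘ Cfsg.Agent.S2323.cjS x) χ₂ hχ₁ (Cfsg.Agent.S2323.cj_irr χ₁ hχ₁ x) hχ₂ hd1
      (by rw [Cfsg.Agent.S2323.cj_one_val]; exact hd1) hd2 (Ne.symm hx) hne
    rw [h3]
    exact hs

end Cfsg.Agent.S2324
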