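import Cfsg.Statements.S2329
import Mathlib

set_option autoImplicit false
open Cfsg

namespace Cfsg.Agent.S2329

theorem nilp_pow_card {F : Type*} [Field F] {d : ℕ} (N : Matrix (Fin d) (Fin d) F)
    (hN : IsNilpotent N) : N ^ d = 0 := by
  have h1 : N.charpoly = Polynomial.X ^ (Fintype.card (Fin d)) := by
    rw [← sub_eq_zero]
    exact IsNilpotent.eq_zero (Matrix.isNilpotent_charpoly_sub_pow_of_isNilpotent hN)
  have h2 := Matrix.aeval_self_charpoly N
  rw [h1] at h2
  simpa using h2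

theorem pow_ppow {F : Type*} [Field F] (p : ℕ) [Fact p.Prime] [CharP F p] {d : ℕ}
    (M : Matrix (Fin d) (Fin d) F) (j : ℕ) : M ^ (p ^ j) = (M - 1) ^ (p ^ j) + 1 := by
  cases d with
  | zero => exact Subsingleton.elim _ _
  | succ d =>
    have h := add_pow_char_pow_of_commute (p := p) (n := j) (Commute.one_right (M - 1))
    simpa using h


theorem conj_J {F : Type*} [Field F] (p : ℕ) [Fact p.Prime] [CharP F p]
    (g : GL (Fin 2) F) (hg : orderOf g = p) :
    ∃ P : GL (Fin 2) F, (g : Matrix (Fin 2) (Fin 2) F) * (P : Matrix (Fin 2) (Fin 2) F) =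
      (P : Matrix (Fin 2) (Fin 2) F) * !![1, 1; 0, 1] := by
  have hp : p.Prime := Fact.out
  have hgp : g ^ p = 1 := by rw [← hg]; exact pow_orderOf_eq_one g
  have h1 : ((g : Matrix (Fin 2) (Fin 2) F)) ^ (p ^ 1) = 1 := by
    rw [pow_one, ← Units.val_pow_eq_pow_val, hgp, Units.val_one]
  rw [pow_ppow p] at h1
  have h2 : ((g : Matrix (Fin 2) (Fin 2) F) - 1) ^ (p ^ 1) = 0 := by simpa using h1
  have hN2 := nilp_pow_card _ (⟨_, h2⟩ : IsNilpotent ((g : Matrix (Fin 2) (Fin 2) F) - 1))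
  have hg1 : g ≠ 1 := by
    intro h
    rw [h, orderOf_one] at hg
    exact hp.one_lt.ne hg
  have hN0 : (g : Matrix (Fin 2) (Fin 2) F) - 1 ≠ 0 := by
    intro h
    apply hg1
    apply Units.ext
    rw [Units.val_one]
    exact sub_eq_zero.mp h
  obtain ⟨N, hN⟩ : ∃ N : Matrix (Fin 2) (Fin 2) F, N = (g : Matrix (Fin 2) (Fin 2) F) - 1 := ⟨_, rfl⟩
  have hgN : (g : Matrix (Fin 2) (Fin 2) F) = 1 + N := by rw [hN]; abel
  rw [← hN] at hN2 hN0
  rw [hgN]
  have e00 := congrFun (congrFun hN2 0) 0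
  have e01 := congrFun (congrFun hN2 0) 1
  have e10 := congrFun (congrFun hN2 1) 0
  have e11 := congrFun (congrFun hN2 1) 1
  simp only [pow_two, Matrix.mul_apply, Fin.sum_univ_two, Matrix.zero_apply] at e00 e01 e10 e11
  by_cases hc : N 1 0 = 0
  · have ha : N 0 0 = 0 := by
      rw [hc, mul_zero, add_zero] at e00
      exact mul_self_eq_zero.mp e00
    have hd : N 1 1 = 0 := by
      rw [hc, zero_mul, zero_add] at e11
      exact mul_self_eq_zero.mp e11
    have hb : N 0 1 ≠ 0 := by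
      intro hb
      apply hN0
      ext i j
      fin_cases i <;> fin_cases j <;> simp [ha, hb, hc, hd]
    have hdet : (!![N 0 1, 0; 0, 1] : Matrix (Fin 2) (Fin 2) F).det ≠ 0 := by
      rw [Matrix.det_fin_two_of]; simpa using hb
    refine ⟨Matrix.GeneralLinearGroup.mkOfDetNeZero _ hdet, ?_⟩
    show (1 + N) * !![N 0 1, 0; 0, 1] = !![N 0 1, 0; 0, 1] * !![1, 1; 0, 1]
    rw [Matrix.eta_fin_two N, ha, hc, hd]
    ext i j
    fin_cases i <;> fin_cases j <;> simp [Matrix.mul_apply, Fin.sum_univ_two]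
  · have hdet : (!![N 0 0, 1; N 1 0, 0] : Matrix (Fin 2) (Fin 2) F).det ≠ 0 := by
      rw [Matrix.det_fin_two_of]; simpa using hc
    refine ⟨Matrix.GeneralLinearGroup.mkOfDetNeZero _ hdet, ?_⟩
    show (1 + N) * !![N 0 0, 1; N 1 0, 0] = !![N 0 0, 1; N 1 0, 0] * !![1, 1; 0, 1]
    ext i j
    fin_cases i <;> fin_cases j <;> simp [Matrix.mul_apply, Fin.sum_univ_two, Matrix.add_apply]
    all_goals first | ring1 | linear_combination e00 | linear_combination e10

theorem result {F : Type*} [Field F] [Fintype F] (p : ℕ) [Fact p.Prime] [CharP F p] (g h : Matrix.GeneralLinearGroup (Fin 2) F)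
    (hg : orderOf g = p) (hh : orderOf h = p) : IsConj g h := by
  have hJdet : (!![1, 1; 0, 1] : Matrix (Fin 2) (Fin 2) F).det ≠ 0 := by
    rw [Matrix.det_fin_two_of]; simp
  have key : ∀ g : Matrix.GeneralLinearGroup (Fin 2) F, orderOf g = p →
      IsConj g (Matrix.GeneralLinearGroup.mkOfDetNeZero _ hJdet) := by
    intro g hg
    obtain ⟨P, hP⟩ := conj_J p g hg
    have hP' : g * P = P * Matrix.GeneralLinearGroup.mkOfDetNeZero _ hJdet := by
      apply Units.ext
      exact hP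
    rw [isConj_iff]
    refine ⟨P⁻¹, ?_⟩
    rw [inv_inv, mul_assoc, hP', inv_mul_cancel_left]
  exact (key g hg).trans (key h hh).symm

end Cfsg.Agent.S2329
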