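import Cfsg.Statements.S2330
import Mathlib

set_option autoImplicit false
open Cfsg

namespace Cfsg.Agent.S2330

open Matrix

def sc {F : Type*} [Field F] (a : Fˣ) : GL (Fin 2) F :=
  Matrix.GeneralLinearGroup.mkOfDetNeZero !![(a : F), 0; 0, (a : F)] (by
    rw [Matrix.det_fin_two_of]; simp)

theorem sc_val {F : Type*} [Field F] (a : Fˣ) :
    ((sc a : GL (Fin 2) F) : Matrix (Fin 2) (Fin 2) F) = !![(a : F), 0; 0, (a : F)] := rfl

def cp {F : Type*} [Field F] (t : F) (d : Fˣ) : GL (Fin 2) F :=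
  Matrix.GeneralLinearGroup.mkOfDetNeZero !![0, -(d : F); 1, t] (by
    rw [Matrix.det_fin_two_of]; simp)

theorem cp_val {F : Type*} [Field F] (t : F) (d : Fˣ) :
    ((cp t d : GL (Fin 2) F) : Matrix (Fin 2) (Fin 2) F) = !![0, -(d : F); 1, t] := rfl

theorem gl_conj_iff {F : Type*} [Field F] (g h : GL (Fin 2) F) :
    IsConj g h ↔ ∃ x : GL (Fin 2) F, (x : Matrix (Fin 2) (Fin 2) F) * (g : Matrix (Fin 2) (Fin 2) F) =
      (h : Matrix (Fin 2) (Fin 2) F) * (x : Matrix (Fin 2) (Fin 2) F) := by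
  rw [isConj_iff]
  constructor
  · rintro ⟨x, hx⟩
    refine ⟨x, ?_⟩
    have := mul_inv_eq_iff_eq_mul.1 hx
    rw [← Units.val_mul, this, Units.val_mul]
  · rintro ⟨x, hx⟩
    refine ⟨x, ?_⟩
    rw [mul_inv_eq_iff_eq_mul]
    apply Units.ext
    rw [Units.val_mul, hx, Units.val_mul]

theorem conj_inv {F : Type*} [Field F] (g h : GL (Fin 2) F) (hc : IsConj g h) :
    (g : Matrix (Fin 2) (Fin 2) F).trace = (h : Matrix (Fin 2) (Fin 2) F).trace ∧
    (g : Matrix (Fin 2) (Fin 2) F).det = (h : Matrix (Fin 2) (Fin 2) F).det := by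
  obtain ⟨x, hx⟩ := isConj_iff.1 hc
  have h1 : (h : Matrix (Fin 2) (Fin 2) F) =
      (x : Matrix (Fin 2) (Fin 2) F) * (g : Matrix (Fin 2) (Fin 2) F) *
        ((x⁻¹ : GL (Fin 2) F) : Matrix (Fin 2) (Fin 2) F) := by
    rw [← hx, Units.val_mul, Units.val_mul]
  rw [h1, Matrix.trace_units_conj, Matrix.det_units_conj]
  exact ⟨rfl, rfl⟩

theorem sc_conj {F : Type*} [Field F] (a : Fˣ) (h : GL (Fin 2) F) (hc : IsConj (sc a) h) :
    h = sc a := by
  obtain ⟨x, hx⟩ := (gl_conj_iff _ _).1 hc
  have hcomm : (x : Matrix (Fin 2) (Fin 2) F) * (sc a : GL (Fin 2) F) =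
      (sc a : GL (Fin 2) F) * (x : Matrix (Fin 2) (Fin 2) F) := by
    rw [sc_val]
    ext i j
    fin_cases i <;> fin_cases j <;> simp [Matrix.mul_apply, Fin.sum_univ_two, mul_comm]
  rw [hcomm] at hx
  have hx' : sc a * x = h * x := by
    apply Units.ext
    rw [Units.val_mul, Units.val_mul, hx]
  exact (mul_right_cancel hx').symm

def rep {F : Type*} [Field F] : Fˣ ⊕ (F × Fˣ) → GL (Fin 2) F
  | Sum.inl a => sc a
  | Sum.inr (t, d) => cp t d

theorem rep_bij {F : Type*} [Field F] :
    Function.Bijective (fun t : Fˣ ⊕ (F × Fˣ) => ConjClasses.mk (rep t)) := by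
  constructor
  · intro s s' hss
    have hc : IsConj (rep s) (rep s') := ConjClasses.mk_eq_mk_iff_isConj.1 hss
    rcases s with a | ⟨t, d⟩ <;> rcases s' with a' | ⟨t', d'⟩
    · have h1 := sc_conj a _ hc
      simp only [rep] at h1
      have h2 := congrArg (fun m : GL (Fin 2) F => (m : Matrix (Fin 2) (Fin 2) F) 0 0) h1
      simp [sc_val] at h2
      rw [Units.ext h2]
    · exfalso
      have h1 := sc_conj a _ hc
      simp only [rep] at h1
      have h2 := congrArg (fun m : GL (Fin 2) F => (m : Matrix (Fin 2) (Fin 2) F) 1 0) h1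
      simp [sc_val, cp_val] at h2
    · exfalso
      have h1 := sc_conj a' _ hc.symm
      simp only [rep] at h1
      have h2 := congrArg (fun m : GL (Fin 2) F => (m : Matrix (Fin 2) (Fin 2) F) 1 0) h1
      simp [sc_val, cp_val] at h2
    · obtain ⟨htr, hdet⟩ := conj_inv _ _ hc
      simp only [rep, cp_val, Matrix.trace_fin_two_of, Matrix.det_fin_two_of] at htr hdet
      have ht : t = t' := by linear_combination htr
      have hd : d = d' := by
        apply Units.ext
        linear_combination hdet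
      rw [ht, hd]
  · intro C
    obtain ⟨g, rfl⟩ := ConjClasses.mk_surjective C
    obtain ⟨M, hM⟩ : ∃ M : Matrix (Fin 2) (Fin 2) F, M = (g : Matrix (Fin 2) (Fin 2) F) := ⟨_, rfl⟩
    have hdet : M.det ≠ 0 := by
      rw [hM]
      exact (Matrix.isUnits_det_units g).ne_zero
    have hdet' : M 0 0 * M 1 1 - M 0 1 * M 1 0 ≠ 0 := by
      rw [← Matrix.det_fin_two]
      exact hdet
    -- the companion class
    have hcomp : ∀ (v1 v2 : F), v1 * (M 1 0 * v1 + M 1 1 * v2) - (M 0 0 * v1 + M 0 1 * v2) * v2 ≠ 0 →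
        ∃ s : Fˣ ⊕ (F × Fˣ), ConjClasses.mk (rep s) = ConjClasses.mk g := by
      intro v1 v2 hv
      have hP : (!![v1, M 0 0 * v1 + M 0 1 * v2; v2, M 1 0 * v1 + M 1 1 * v2] :
          Matrix (Fin 2) (Fin 2) F).det ≠ 0 := by
        rw [Matrix.det_fin_two_of]
        exact hv
      obtain ⟨x, hx⟩ : ∃ x : GL (Fin 2) F, (x : Matrix (Fin 2) (Fin 2) F) =
          !![v1, M 0 0 * v1 + M 0 1 * v2; v2, M 1 0 * v1 + M 1 1 * v2] :=
        ⟨Matrix.GeneralLinearGroup.mkOfDetNeZero _ hP, rfl⟩
      refine ⟨Sum.inr (M 0 0 + M 1 1, Units.mk0 _ hdet'), ?_⟩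
      apply ConjClasses.mk_eq_mk_iff_isConj.2
      rw [gl_conj_iff]
      refine ⟨x, ?_⟩
      simp only [rep]
      rw [hx, cp_val, ← hM]
      ext i j
      fin_cases i <;> fin_cases j <;> simp [Matrix.mul_apply, Fin.sum_univ_two] <;> ring
    by_cases hc : M 1 0 = 0
    · by_cases hb : M 0 1 = 0
      · by_cases had : M 0 0 = M 1 1
        · have ha : M 0 0 ≠ 0 := by
            intro h0
            apply hdet'
            rw [h0, hb]
            ring
          refine ⟨Sum.inl (Units.mk0 _ ha), ?_⟩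
          apply ConjClasses.mk_eq_mk_iff_isConj.2
          have : rep (Sum.inl (Units.mk0 _ ha)) = g := by
            apply Units.ext
            simp only [rep]
            rw [sc_val, ← hM]
            ext i j
            fin_cases i <;> fin_cases j <;> simp [hb, hc, had]
          rw [this]
        · apply hcomp 1 1
          rw [hc, hb]
          intro h
          apply had
          linear_combination -h
      · apply hcomp 0 1
        intro h
        apply hb
        linear_combination -h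
    · apply hcomp 1 0
      intro h
      apply hc
      linear_combination h

theorem result {F : Type*} [Field F] [Fintype F] :
    Nat.card (ConjClasses (Matrix.GeneralLinearGroup (Fin 2) F)) = Fintype.card F ^ 2 - 1 := by
  classical
  rw [← Nat.card_eq_of_bijective _ (rep_bij (F := F))]
  rw [Nat.card_sum, Nat.card_prod, Nat.card_units, Nat.card_eq_fintype_card]
  have hq : 0 < Fintype.card F := Fintype.card_pos
  obtain ⟨k, hk⟩ : ∃ k, Fintype.card F = k + 1 := ⟨Fintype.card F - 1, by omega⟩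
  rw [hk]
  have e : (k + 1) ^ 2 - 1 = k + (k + 1) * k := by
    have : (k + 1) ^ 2 = k + (k + 1) * k + 1 := by ring
    omega
  rw [e]
  simp

end Cfsg.Agent.S2330
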