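import Cfsg.Statements.S2367
import Mathlib

set_option autoImplicit false
open Cfsg

namespace Cfsg.Agent.S2367


theorem spor_aux (N e : ℕ) (hN : N ≠ 0) (h2 : 2 ^ e ∣ N)
    (hR : N ∣ (([2, 3, 5, 7, 11, 13, 17, 19, 23, 29, 31, 37, 41, 43, 47, 59, 67, 71] : List ℕ).prod) ^ 46)
    (hcheck : ∀ q ∈ ([3, 5, 7, 11, 13, 17, 19, 23, 29, 31, 37, 41, 43, 47, 59, 67, 71] : List ℕ), q ^ 3 ∣ N → ¬ q ^ 4 ∣ N → q ^ 3 < 2 ^ e)
    (p : ℕ) (hp : p.Prime) (hodd : p ≠ 2) (h3 : N.factorization p = 3) :
    p ^ 3 < 2 ^ N.factorization 2 := by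
  have h2' : e ≤ N.factorization 2 := (Nat.prime_two.pow_dvd_iff_le_factorization hN).1 h2
  have hp3 : p ^ 3 ∣ N := (hp.pow_dvd_iff_le_factorization hN).2 (by omega)
  have hp4 : ¬ p ^ 4 ∣ N := fun h => by
    have := (hp.pow_dvd_iff_le_factorization hN).1 h
    omega
  have hpN : p ∣ N := dvd_trans (dvd_pow_self p (by norm_num)) hp3
  have hpR : p ∣ ([2, 3, 5, 7, 11, 13, 17, 19, 23, 29, 31, 37, 41, 43, 47, 59, 67, 71] : List ℕ).prod := hp.dvd_of_dvd_pow (dvd_trans hpN hR)
  obtain ⟨a, ha, hpa⟩ := (Prime.dvd_prod_iff hp.prime).1 hpR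
  have hmem : p ∈ ([3, 5, 7, 11, 13, 17, 19, 23, 29, 31, 37, 41, 43, 47, 59, 67, 71] : List ℕ) := by
    simp only [List.mem_cons, List.not_mem_nil, or_false] at ha ⊢
    rcases ha with rfl | rfl | rfl | rfl | rfl | rfl | rfl | rfl | rfl | rfl | rfl | rfl | rfl | rfl | rfl | rfl | rfl | rfl
    · exact absurd ((Nat.prime_dvd_prime_iff_eq hp (by norm_num)).1 hpa) hodd
    · have := (Nat.prime_dvd_prime_iff_eq hp (by norm_num : Nat.Prime 3)).1 hpa
      simp [this]
    · have := (Nat.prime_dvd_prime_iff_eq hp (by norm_num : Nat.Prime 5)).1 hpa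
      simp [this]
    · have := (Nat.prime_dvd_prime_iff_eq hp (by norm_num : Nat.Prime 7)).1 hpa
      simp [this]
    · have := (Nat.prime_dvd_prime_iff_eq hp (by norm_num : Nat.Prime 11)).1 hpa
      simp [this]
    · have := (Nat.prime_dvd_prime_iff_eq hp (by norm_num : Nat.Prime 13)).1 hpa
      simp [this]
    · have := (Nat.prime_dvd_prime_iff_eq hp (by norm_num : Nat.Prime 17)).1 hpa
      simp [this]
    · have := (Nat.prime_dvd_prime_iff_eq hp (by norm_num : Nat.Prime 19)).1 hpa
      simp [this]
    · have := (Nat.prime_dvd_prime_iff_eq hp (by norm_num : Nat.Prime 23)).1 hpa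
      simp [this]
    · have := (Nat.prime_dvd_prime_iff_eq hp (by norm_num : Nat.Prime 29)).1 hpa
      simp [this]
    · have := (Nat.prime_dvd_prime_iff_eq hp (by norm_num : Nat.Prime 31)).1 hpa
      simp [this]
    · have := (Nat.prime_dvd_prime_iff_eq hp (by norm_num : Nat.Prime 37)).1 hpa
      simp [this]
    · have := (Nat.prime_dvd_prime_iff_eq hp (by norm_num : Nat.Prime 41)).1 hpa
      simp [this]
    · have := (Nat.prime_dvd_prime_iff_eq hp (by norm_num : Nat.Prime 43)).1 hpa
      simp [this]
    · have := (Nat.prime_dvd_prime_iff_eq hp (by norm_num : Nat.Prime 47)).1 hpa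
      simp [this]
    · have := (Nat.prime_dvd_prime_iff_eq hp (by norm_num : Nat.Prime 59)).1 hpa
      simp [this]
    · have := (Nat.prime_dvd_prime_iff_eq hp (by norm_num : Nat.Prime 67)).1 hpa
      simp [this]
    · have := (Nat.prime_dvd_prime_iff_eq hp (by norm_num : Nat.Prime 71)).1 hpa
      simp [this]
  exact lt_of_lt_of_le (hcheck p hmem hp3 hp4) (Nat.pow_le_pow_right (by norm_num) h2')

theorem cube_lt (k : ℕ) : (k + 5) ^ 3 < 2 ^ (2 * k + 9) := by
  induction k with
  | zero => norm_num
  | succ k ih =>
    have h1 : (k + 1 + 5) ^ 3 ≤ 4 * (k + 5) ^ 3 := by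
      have e1 : (k + 1 + 5) ^ 3 = k ^ 3 + 18 * k ^ 2 + 108 * k + 216 := by ring
      have e2 : 4 * (k + 5) ^ 3 = 4 * k ^ 3 + 60 * k ^ 2 + 300 * k + 500 := by ring
      rw [e1, e2]
      have := Nat.zero_le (k ^ 3)
      have := Nat.zero_le (k ^ 2)
      omega
    have h2 : (2:ℕ) ^ (2 * (k + 1) + 9) = 4 * 2 ^ (2 * k + 9) := by ring
    rw [h2]
    omega

theorem alt_aux (n N : ℕ) (hn : 5 ≤ n) (hN : 2 * N = n.factorial)
    (p : ℕ) (hp : p.Prime) (hodd : p ≠ 2) (h3 : N.factorization p = 3) :
    p ^ 3 < 2 ^ N.factorization 2 := by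
  have hN0 : N ≠ 0 := by
    rintro rfl
    have := Nat.factorial_pos n
    omega
  have := Fact.mk hp
  have := Fact.mk Nat.prime_two
  have hfac := Nat.factorization_mul (two_ne_zero) hN0
  rw [hN] at hfac
  have hfp : (n.factorial).factorization p = 3 := by
    rw [hfac, Finsupp.add_apply, h3, Nat.prime_two.factorization, Finsupp.single_apply, if_neg (Ne.symm hodd)]
  have hf2 : (n.factorial).factorization 2 = 1 + N.factorization 2 := by
    rw [hfac, Finsupp.add_apply, Nat.prime_two.factorization, Finsupp.single_apply, if_pos rfl]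
  rw [Nat.factorization_def _ hp] at hfp
  rw [Nat.factorization_def _ Nat.prime_two] at hf2
  have hsub : ({1, 2} : Finset ℕ) ⊆ Finset.Ico 1 (n + 1) := by
    intro x hx
    simp only [Finset.mem_insert, Finset.mem_singleton] at hx
    rw [Finset.mem_Ico]
    omega
  have hlow : ∀ q : ℕ, n / q ^ 1 + n / q ^ 2 ≤ ∑ i ∈ Finset.Ico 1 (n + 1), n / q ^ i := by
    intro q
    have := Finset.sum_le_sum_of_subset (f := fun i => n / q ^ i) hsub
    rwa [Finset.sum_pair (by norm_num)] at this
  have hp2 : 2 ≤ p := hp.two_le
  have hlt : n < p ^ 2 := by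
    by_contra hcon
    rw [not_lt] at hcon
    have h1 := padicValNat_factorial (p := p) (n := n) (b := n + 1) (Nat.lt_succ_of_le (Nat.log_le_self p n))
    have h2 := hlow p
    have h4 : 1 ≤ n / p ^ 2 := (Nat.one_le_div_iff (by positivity)).2 hcon
    have h5 : p ≤ n / p ^ 1 := by
      rw [pow_one, Nat.le_div_iff_mul_le (by omega)]
      nlinarith
    have h6 : 3 ≤ p := by
      rcases Nat.lt_or_ge p 3 with h | h
      · exact absurd (by omega : p = 2) hodd
      · exact h
    omega
  have h1 := padicValNat_factorial (p := p) (n := n) (b := 2) (Nat.log_lt_of_lt_pow (by omega) hlt)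
  rw [hfp] at h1
  simp at h1
  have h3p : 3 * p ≤ n := by
    have := Nat.div_mul_le_self n p
    rw [← h1] at this
    exact this
  have hp5 : 5 ≤ p := by
    have h6 : 3 ≤ p := by
      rcases Nat.lt_or_ge p 3 with h | h
      · exact absurd (by omega : p = 2) hodd
      · exact h
    have h7 : p ≠ 3 := by
      rintro rfl
      omega
    have h8 : p ≠ 4 := by
      rintro rfl
      norm_num at hp
    omega
  have h2v := padicValNat_factorial (p := 2) (n := n) (b := n + 1) (Nat.lt_succ_of_le (Nat.log_le_self 2 n))
  have h2l := hlow 2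
  have hv : 2 * p - 1 ≤ N.factorization 2 := by
    norm_num at h2l
    omega
  obtain ⟨k, rfl⟩ : ∃ k, p = k + 5 := ⟨p - 5, by omega⟩
  calc (k + 5) ^ 3 < 2 ^ (2 * k + 9) := cube_lt k
    _ ≤ 2 ^ N.factorization 2 := Nat.pow_le_pow_right (by norm_num) (by omega)

theorem result {G : Type*} [Group G] [Finite G] (hG : Cfsg.IsAlternating G ∨ Cfsg.IsSporadic G)
    (p : ℕ) (hp : p.Prime) (hodd : p ≠ 2) (h3 : (Nat.card G).factorization p = 3) :
    p ^ 3 < 2 ^ (Nat.card G).factorization 2 := by
  rcases hG with ⟨n, hn, ⟨e⟩⟩ | hS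
  · have : Nontrivial (Fin n) := Fin.nontrivial_iff_two_le.2 (by omega)
    have hc : Nat.card G = Nat.card (alternatingGroup (Fin n)) := Nat.card_congr e.toEquiv
    have h2 := two_mul_nat_card_alternatingGroup (α := Fin n)
    rw [Nat.card_perm, Nat.card_fin] at h2
    rw [hc] at h3 ⊢
    exact alt_aux n _ hn h2 p hp hodd h3
  · unfold Cfsg.IsSporadic at hS
    rcases hS with h | h | h | h | h | h | h | h | h | h | h | h | h | h | h | h | h | h | h | h | h | h | h | h | h | h
    · have hc : Nat.card G = 7920 := h.2
      rw [hc] at h3 ⊢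
      exact spor_aux 7920 4 (by norm_num) (by norm_num) (by decide +kernel) (by decide +kernel) p hp hodd h3
    · have hc : Nat.card G = 95040 := h.2
      rw [hc] at h3 ⊢
      exact spor_aux 95040 6 (by norm_num) (by norm_num) (by decide +kernel) (by decide +kernel) p hp hodd h3
    · have hc : Nat.card G = 443520 := h.2
      rw [hc] at h3 ⊢
      exact spor_aux 443520 7 (by norm_num) (by norm_num) (by decide +kernel) (by decide +kernel) p hp hodd h3
    · have hc : Nat.card G = 10200960 := h.2
      rw [hc] at h3 ⊢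
      exact spor_aux 10200960 7 (by norm_num) (by norm_num) (by decide +kernel) (by decide +kernel) p hp hodd h3
    · have hc : Nat.card G = 244823040 := h.2
      rw [hc] at h3 ⊢
      exact spor_aux 244823040 10 (by norm_num) (by norm_num) (by decide +kernel) (by decide +kernel) p hp hodd h3
    · have hc : Nat.card G = 175560 := h.2
      rw [hc] at h3 ⊢
      exact spor_aux 175560 3 (by norm_num) (by norm_num) (by decide +kernel) (by decide +kernel) p hp hodd h3
    · have hc : Nat.card G = 604800 := h.2
      rw [hc] at h3 ⊢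
      exact spor_aux 604800 7 (by norm_num) (by norm_num) (by decide +kernel) (by decide +kernel) p hp hodd h3
    · have hc : Nat.card G = 50232960 := h.2
      rw [hc] at h3 ⊢
      exact spor_aux 50232960 7 (by norm_num) (by norm_num) (by decide +kernel) (by decide +kernel) p hp hodd h3
    · have hc : Nat.card G = 86775571046077562880 := h.2
      rw [hc] at h3 ⊢
      exact spor_aux 86775571046077562880 21 (by norm_num) (by norm_num) (by decide +kernel) (by decide +kernel) p hp hodd h3
    · have hc : Nat.card G = 4157776806543360000 := h.2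
      rw [hc] at h3 ⊢
      exact spor_aux 4157776806543360000 21 (by norm_num) (by norm_num) (by decide +kernel) (by decide +kernel) p hp hodd h3
    · have hc : Nat.card G = 42305421312000 := h.2
      rw [hc] at h3 ⊢
      exact spor_aux 42305421312000 18 (by norm_num) (by norm_num) (by decide +kernel) (by decide +kernel) p hp hodd h3
    · have hc : Nat.card G = 495766656000 := h.2
      rw [hc] at h3 ⊢
      exact spor_aux 495766656000 10 (by norm_num) (by norm_num) (by decide +kernel) (by decide +kernel) p hp hodd h3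
    · have hc : Nat.card G = 64561751654400 := h.2
      rw [hc] at h3 ⊢
      exact spor_aux 64561751654400 17 (by norm_num) (by norm_num) (by decide +kernel) (by decide +kernel) p hp hodd h3
    · have hc : Nat.card G = 4089470473293004800 := h.2
      rw [hc] at h3 ⊢
      exact spor_aux 4089470473293004800 18 (by norm_num) (by norm_num) (by decide +kernel) (by decide +kernel) p hp hodd h3
    · have hc : Nat.card G = 1255205709190661721292800 := h.2
      rw [hc] at h3 ⊢
      exact spor_aux 1255205709190661721292800 21 (by norm_num) (by norm_num) (by decide +kernel) (by decide +kernel) p hp hodd h3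
    · have hc : Nat.card G = 44352000 := h.2
      rw [hc] at h3 ⊢
      exact spor_aux 44352000 9 (by norm_num) (by norm_num) (by decide +kernel) (by decide +kernel) p hp hodd h3
    · have hc : Nat.card G = 898128000 := h.2
      rw [hc] at h3 ⊢
      exact spor_aux 898128000 7 (by norm_num) (by norm_num) (by decide +kernel) (by decide +kernel) p hp hodd h3
    · have hc : Nat.card G = 4030387200 := h.2
      rw [hc] at h3 ⊢
      exact spor_aux 4030387200 10 (by norm_num) (by norm_num) (by decide +kernel) (by decide +kernel) p hp hodd h3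
    · have hc : Nat.card G = 145926144000 := h.2
      rw [hc] at h3 ⊢
      exact spor_aux 145926144000 14 (by norm_num) (by norm_num) (by decide +kernel) (by decide +kernel) p hp hodd h3
    · have hc : Nat.card G = 448345497600 := h.2
      rw [hc] at h3 ⊢
      exact spor_aux 448345497600 13 (by norm_num) (by norm_num) (by decide +kernel) (by decide +kernel) p hp hodd h3
    · have hc : Nat.card G = 460815505920 := h.2
      rw [hc] at h3 ⊢
      exact spor_aux 460815505920 9 (by norm_num) (by norm_num) (by decide +kernel) (by decide +kernel) p hp hodd h3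
    · have hc : Nat.card G = 273030912000000 := h.2
      rw [hc] at h3 ⊢
      exact spor_aux 273030912000000 14 (by norm_num) (by norm_num) (by decide +kernel) (by decide +kernel) p hp hodd h3
    · have hc : Nat.card G = 51765179004000000 := h.2
      rw [hc] at h3 ⊢
      exact spor_aux 51765179004000000 8 (by norm_num) (by norm_num) (by decide +kernel) (by decide +kernel) p hp hodd h3
    · have hc : Nat.card G = 90745943887872000 := h.2
      rw [hc] at h3 ⊢
      exact spor_aux 90745943887872000 15 (by norm_num) (by norm_num) (by decide +kernel) (by decide +kernel) p hp hodd h3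
    · have hc : Nat.card G = 4154781481226426191177580544000000 := h.2
      rw [hc] at h3 ⊢
      exact spor_aux 4154781481226426191177580544000000 41 (by norm_num) (by norm_num) (by decide +kernel) (by decide +kernel) p hp hodd h3
    · have hc : Nat.card G = 808017424794512875886459904961710757005754368000000000 := h.2
      rw [hc] at h3 ⊢
      exact spor_aux 808017424794512875886459904961710757005754368000000000 46 (by norm_num) (by norm_num) (by decide +kernel) (by decide +kernel) p hp hodd h3

end Cfsg.Agent.S2367
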