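import Cfsg.Statements.S2368
import Mathlib

set_option autoImplicit false
open Cfsg

namespace Cfsg.Agent.S2368

theorem nilp_pow_card {F : Type*} [Field F] {d : ℕ} (N : Matrix (Fin d) (Fin d) F)
    (hN : IsNilpotent N) : N ^ d = 0 := by
  have h1 : N.charpoly = Polynomial.X ^ (Fintype.card (Fin d)) := by
    rw [← sub_eq_zero]
    exact IsNilpotent.eq_zero (Matrix.isNilpotent_charpoly_sub_pow_of_isNilpotent hN)
  have h2 := Matrix.aeval_self_charpoly N
  rw [h1] at h2
  simpa using h2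

theorem pow_ppow {F : Type*} [Field F] (p : ℕ) [Fact p.Prime] [CharP F p] {d : ℕ}
    (M : Matrix (Fin d) (Fin d) F) (j : ℕ) : M ^ (p ^ j) = (M - 1) ^ (p ^ j) + 1 := by
  cases d with
  | zero => exact Subsingleton.elim _ _
  | succ d =>
    have h := add_pow_char_pow_of_commute (p := p) (n := j) (Commute.one_right (M - 1))
    simpa using h

theorem unip_order {F : Type*} [Field F] (p : ℕ) [Fact p.Prime] [CharP F p] (d : ℕ)
    (u : GL (Fin d) F) (hu : IsNilpotent ((u : Matrix (Fin d) (Fin d) F) - 1)) :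
    orderOf u ∣ p ^ Nat.clog p d ∧
    (((u : Matrix (Fin d) (Fin d) F) - 1) ^ (d - 1) ≠ 0 → orderOf u = p ^ Nat.clog p d) := by
  have hp : p.Prime := Fact.out
  have hNd := nilp_pow_card _ hu
  have hdk : d ≤ p ^ Nat.clog p d := Nat.le_pow_clog hp.one_lt d
  have hdvd : orderOf u ∣ p ^ Nat.clog p d := by
    apply orderOf_dvd_of_pow_eq_one
    apply Units.ext
    rw [Units.val_pow_eq_pow_val, pow_ppow p, Units.val_one]
    have : ((u : Matrix (Fin d) (Fin d) F) - 1) ^ (p ^ Nat.clog p d) = 0 := by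
      rw [← Nat.sub_add_cancel hdk, pow_add, hNd, mul_zero]
    rw [this, zero_add]
  refine ⟨hdvd, ?_⟩
  intro hne
  obtain ⟨j, hjk, hj⟩ := (Nat.dvd_prime_pow hp).mp hdvd
  rcases lt_or_eq_of_le hjk with hlt | heq
  · exfalso
    have h1 : ¬ d ≤ p ^ j := by
      rw [← Nat.clog_le_iff_le_pow hp.one_lt]
      omega
    have h2 : p ^ j ≤ d - 1 := by omega
    have h3 : u ^ (p ^ j) = 1 := by rw [← hj]; exact pow_orderOf_eq_one u
    have h4 : ((u : Matrix (Fin d) (Fin d) F)) ^ (p ^ j) = 1 := by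
      rw [← Units.val_pow_eq_pow_val, h3, Units.val_one]
    rw [pow_ppow p] at h4
    have h5 : ((u : Matrix (Fin d) (Fin d) F) - 1) ^ (p ^ j) = 0 := by
      simpa using h4
    apply hne
    rw [← Nat.sub_add_cancel h2, pow_add, h5, mul_zero]
  · rw [hj, heq]
/-- the nilpotent Jordan block -/
def jblock (F : Type*) [Field F] (m : ℕ) : Matrix (Fin m) (Fin m) F :=
  Matrix.of fun i j => if (j : ℕ) = (i : ℕ) + 1 then (1 : F) else 0

theorem jblock_pow (F : Type*) [Field F] (m : ℕ) (k : ℕ) (i j : Fin m) :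
    (jblock F m ^ k) i j = if (j : ℕ) = (i : ℕ) + k then (1 : F) else 0 := by
  induction k generalizing i j with
  | zero =>
    rw [pow_zero, Matrix.one_apply]
    by_cases h : i = j
    · subst h; simp
    · have : ¬ ((j : ℕ) = (i : ℕ) + 0) := by
        intro h'; apply h; apply Fin.ext; omega
      rw [if_neg h, if_neg this]
  | succ k ih =>
    rw [pow_succ, Matrix.mul_apply]
    by_cases h : (j : ℕ) = (i : ℕ) + (k + 1)
    · rw [if_pos h]
      have hl : (i : ℕ) + k < m := by have := j.2; omega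
      rw [Finset.sum_eq_single (⟨(i : ℕ) + k, hl⟩ : Fin m)]
      · rw [ih]
        have e : jblock F m (⟨(i : ℕ) + k, hl⟩ : Fin m) j = 1 := by
          simp only [jblock, Matrix.of_apply]
          rw [if_pos]
          omega
        rw [e, if_pos rfl, mul_one]
      · intro l _ hne
        rw [ih]
        have : ¬ ((l : ℕ) = (i : ℕ) + k) := by
          intro h'; apply hne; apply Fin.ext; exact h'
        rw [if_neg this, zero_mul]
      · intro h'; exact absurd (Finset.mem_univ _) h'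
    · rw [if_neg h]
      apply Finset.sum_eq_zero
      intro l _
      rw [ih]
      simp only [jblock, Matrix.of_apply]
      by_cases h1 : (l : ℕ) = (i : ℕ) + k
      · have : ¬ ((j : ℕ) = (l : ℕ) + 1) := by omega
        rw [if_neg this, mul_zero]
      · rw [if_neg h1, zero_mul]

theorem jblock_nilp (F : Type*) [Field F] (m : ℕ) : IsNilpotent (jblock F m) := by
  refine ⟨m, ?_⟩
  ext i j
  rw [jblock_pow, Matrix.zero_apply, if_neg]
  have := j.2
  omega

theorem jblock_pow_ne (F : Type*) [Field F] (m : ℕ) (hm : 1 ≤ m) : jblock F m ^ (m - 1) ≠ 0 := by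
  intro h
  have h1 := congrFun (congrFun h (⟨0, by omega⟩ : Fin m)) (⟨m - 1, by omega⟩ : Fin m)
  rw [jblock_pow, Matrix.zero_apply, if_pos (by simp)] at h1
  exact one_ne_zero h1

theorem result {F : Type*} [Field F] [Fintype F] (p : ℕ) [Fact p.Prime] [CharP F p] (m : ℕ) (hm : 1 ≤ m) :
    (∀ g : Matrix.GeneralLinearGroup (Fin m) F, (∃ j : ℕ, orderOf g = p ^ j) → orderOf g < p * m) ∧
      ∃ g : Matrix.GeneralLinearGroup (Fin m) F, (∃ j : ℕ, orderOf g = p ^ j) ∧ m ≤ orderOf g := by
  have hp : p.Prime := Fact.out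
  have hlt : p ^ Nat.clog p m < p * m := by
    rcases Nat.lt_or_ge 1 m with h1 | h1
    · have h2 := Nat.pow_pred_clog_lt_self hp.one_lt h1
      have h3 : 0 < Nat.clog p m := Nat.clog_pos hp.one_lt h1
      obtain ⟨c, hc⟩ : ∃ c, Nat.clog p m = c + 1 := ⟨Nat.clog p m - 1, by omega⟩
      rw [hc] at h2 ⊢
      rw [Nat.pred_succ] at h2
      rw [pow_succ']
      exact Nat.mul_lt_mul_of_pos_left h2 hp.pos
    · have hm1 : m = 1 := by omega
      subst hm1
      rw [Nat.clog_one_right, pow_zero, mul_one]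
      exact hp.one_lt
  constructor
  · rintro g ⟨j, hj⟩
    have h3 : g ^ (p ^ j) = 1 := by rw [← hj]; exact pow_orderOf_eq_one g
    have h4 : ((g : Matrix (Fin m) (Fin m) F)) ^ (p ^ j) = 1 := by
      rw [← Units.val_pow_eq_pow_val, h3, Units.val_one]
    rw [pow_ppow p] at h4
    have h5 : ((g : Matrix (Fin m) (Fin m) F) - 1) ^ (p ^ j) = 0 := by
      simpa using h4
    have hnil : IsNilpotent ((g : Matrix (Fin m) (Fin m) F) - 1) := ⟨_, h5⟩
    have h6 := (unip_order p m g hnil).1
    exact lt_of_le_of_lt (Nat.le_of_dvd (pow_pos hp.pos _) h6) hlt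
  · have hunit : IsUnit (jblock F m + 1) := (jblock_nilp F m).isUnit_add_one
    have hval : ((hunit.unit : (Matrix (Fin m) (Fin m) F)ˣ) : Matrix (Fin m) (Fin m) F) - 1 = jblock F m := by
      rw [IsUnit.unit_spec, add_sub_cancel_right]
    have h1 := unip_order p m hunit.unit (by rw [hval]; exact jblock_nilp F m)
    have h2 := h1.2 (by rw [hval]; exact jblock_pow_ne F m hm)
    refine ⟨hunit.unit, ⟨_, h2⟩, ?_⟩
    rw [h2]
    exact Nat.le_pow_clog hp.one_lt m

end Cfsg.Agent.S2368
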