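import Cfsg.Statements.S2569

set_option autoImplicit false
open Cfsg

set_option maxHeartbeats 1000000
namespace Cfsg.Agent.S2569

open Polynomial

theorem aeval_restrict {F V : Type*} [Field F] [AddCommGroup V] [Module F V]
    (y : Module.End F V) (S : Submodule F V) (hS : ∀ s ∈ S, y s ∈ S) (A : F[X]) (s : S) :
    ((aeval (y.restrict hS) A) s : V) = (aeval y A) (s : V) := by
  induction A using Polynomial.induction_on generalizing s with
  | C a =>
    rw [aeval_C, aeval_C, Module.algebraMap_end_apply, Module.algebraMap_end_apply]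
    rfl
  | add p q hp hq =>
    rw [map_add, map_add, LinearMap.add_apply, LinearMap.add_apply, Submodule.coe_add, hp, hq]
  | monomial n a ih =>
    have e1 : aeval (y.restrict hS) (C a * X ^ (n + 1)) =
        aeval (y.restrict hS) (C a * X ^ n) * y.restrict hS := by
      rw [pow_succ, ← mul_assoc, map_mul, aeval_X]
    have e2 : aeval y (C a * X ^ (n + 1)) = aeval y (C a * X ^ n) * y := by
      rw [pow_succ, ← mul_assoc, map_mul, aeval_X]
    rw [e1, e2, Module.End.mul_apply, Module.End.mul_apply, ih]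
    rfl

theorem exists_comm_det {F V : Type*} [Field F] [Finite F] [AddCommGroup V] [Module F V]
    [FiniteDimensional F V] [Nontrivial V]
    (y : Module.End F V) (hss : y.IsSemisimple) (d : F) :
    ∃ c : Module.End F V, c * y = y * c ∧ LinearMap.det c = d := by
  classical
  have hint : IsIntegral F y := IsIntegral.of_finite F y
  have hμ0 : minpoly F y ≠ 0 := minpoly.ne_zero hint
  have hμu : ¬ IsUnit (minpoly F y) := minpoly.not_isUnit F y
  obtain ⟨P, hPirr, Q, hμ⟩ := WfDvdMonoid.exists_irreducible_factor hμu hμ0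
  have hP0 : P ≠ 0 := hPirr.ne_zero
  have hQ0 : Q ≠ 0 := by
    rintro rfl
    rw [mul_zero] at hμ
    exact hμ0 hμ
  have hQy : aeval y Q ≠ 0 := by
    intro h
    have h1 := minpoly.dvd F y h
    rw [hμ] at h1
    have h2 := natDegree_le_of_dvd h1 hQ0
    rw [natDegree_mul hP0 hQ0] at h2
    have h3 := hPirr.natDegree_pos
    omega
  obtain ⟨w, hw⟩ : ∃ w, aeval y Q w ≠ 0 := by
    by_contra hcon
    push_neg at hcon
    apply hQy
    ext w
    rw [hcon w, LinearMap.zero_apply]
  set v : V := aeval y Q w with hv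
  have hPv : aeval y P v = 0 := by
    rw [hv, ← Module.End.mul_apply, ← map_mul, ← hμ, minpoly.aeval, LinearMap.zero_apply]
  let S : Submodule F V :=
    { carrier := {s | ∃ A : F[X], aeval y A v = s}
      add_mem' := by
        rintro _ _ ⟨A, rfl⟩ ⟨B, rfl⟩
        exact ⟨A + B, by rw [map_add, LinearMap.add_apply]⟩
      zero_mem' := ⟨0, by rw [map_zero, LinearMap.zero_apply]⟩
      smul_mem' := by
        rintro t _ ⟨A, rfl⟩
        exact ⟨t • A, by rw [map_smul, LinearMap.smul_apply]⟩ }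
  have hSmem : ∀ s, s ∈ S ↔ ∃ A : F[X], aeval y A v = s := fun s => Iff.rfl
  have hSy : ∀ s ∈ S, y s ∈ S := by
    rintro _ ⟨A, rfl⟩
    exact ⟨X * A, by rw [map_mul, aeval_X, Module.End.mul_apply]⟩
  have hvS : v ∈ S := ⟨1, by rw [map_one, Module.End.one_apply]⟩
  have hSinv : S ∈ Module.End.invtSubmodule y := by
    intro s hs
    exact hSy s hs
  obtain ⟨T, hTinv, hST⟩ := (Module.End.isSemisimple_iff.mp hss) S hSinv
  have hTy : ∀ t ∈ T, y t ∈ T := by
    intro t ht
    exact hTinv ht
  haveI : Fact (Irreducible P) := ⟨hPirr⟩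
  haveI : Module.Finite F (AdjoinRoot P) := (AdjoinRoot.powerBasis hP0).finite
  haveI : Finite (AdjoinRoot P) := Module.finite_of_finite F
  have hPS : aeval (y.restrict hSy) P = 0 := by
    ext s
    rw [aeval_restrict, LinearMap.zero_apply, Submodule.coe_zero]
    obtain ⟨A, hA⟩ := s.2
    rw [← hA, ← Module.End.mul_apply, ← map_mul, mul_comm, map_mul, Module.End.mul_apply, hPv,
      map_zero]
  let ψ : AdjoinRoot P →ₐ[F] Module.End F S :=
    Ideal.Quotient.liftₐ (Ideal.span {P}) (aeval (y.restrict hSy)) (by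
      intro a ha
      obtain ⟨b, rfl⟩ := Ideal.mem_span_singleton.mp ha
      rw [map_mul, hPS, zero_mul])
  have hψmk : ∀ A : F[X], ψ (AdjoinRoot.mk P A) = aeval (y.restrict hSy) A := fun A => rfl
  have hψroot : ψ (AdjoinRoot.root P) = y.restrict hSy := by
    rw [← AdjoinRoot.mk_X, hψmk, aeval_X]
  obtain ⟨α, hα⟩ := FiniteField.norm_surjective F (AdjoinRoot P) d
  -- the linear equivalence `K ≃ S`
  let vS : S := ⟨v, hvS⟩
  let L₀ : AdjoinRoot P →ₗ[F] S :=
    { toFun := fun a => ψ a vS
      map_add' := by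
        intro a b
        rw [map_add, LinearMap.add_apply]
      map_smul' := by
        intro t a
        rw [map_smul, LinearMap.smul_apply]
        rfl }
  have hL₀ : ∀ a, L₀ a = ψ a vS := fun a => rfl
  have hvS0 : vS ≠ 0 := by
    intro h
    apply hw
    have h1 := congrArg Subtype.val h
    exact h1
  have hLinj : Function.Injective L₀ := by
    rw [← LinearMap.ker_eq_bot, LinearMap.ker_eq_bot']
    intro a ha
    by_contra ha0
    apply hvS0
    have h1 : ψ a⁻¹ (ψ a vS) = vS := by
      rw [← Module.End.mul_apply, ← map_mul, inv_mul_cancel₀ ha0, map_one, Module.End.one_apply]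
    rw [← h1, ← hL₀, ha, map_zero]
  have hLsurj : Function.Surjective L₀ := by
    intro s
    obtain ⟨A, hA⟩ := s.2
    refine ⟨AdjoinRoot.mk P A, ?_⟩
    apply Subtype.ext
    rw [hL₀, hψmk, aeval_restrict, hA]
  let L : AdjoinRoot P ≃ₗ[F] S := LinearEquiv.ofBijective L₀ ⟨hLinj, hLsurj⟩
  have hLapp : ∀ a, L a = ψ a vS := fun a => rfl
  have hconj : ψ α = (L : AdjoinRoot P →ₗ[F] S) ∘ₗ (Algebra.lmul F (AdjoinRoot P) α) ∘ₗ
      (L.symm : S →ₗ[F] AdjoinRoot P) := by
    ext s
    obtain ⟨a, rfl⟩ := L.surjective s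
    rw [LinearMap.comp_apply, LinearMap.comp_apply, LinearEquiv.coe_coe, LinearEquiv.coe_coe,
      LinearEquiv.symm_apply_apply, Algebra.coe_lmul_eq_mul, LinearMap.mul_apply', hLapp, hLapp,
      map_mul, Module.End.mul_apply]
  have hdetψ : LinearMap.det (ψ α) = d := by
    rw [hconj, LinearMap.det_conj, ← Algebra.norm_apply, hα]
  let e : (S × T) ≃ₗ[F] V := Submodule.prodEquivOfIsCompl S T hST
  have he : ∀ st : S × T, e st = (st.1 : V) + (st.2 : V) := by
    intro st
    exact Submodule.coe_prodEquivOfIsCompl' S T hST st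
  let c : Module.End F V := (e : (S × T) →ₗ[F] V) ∘ₗ ((ψ α).prodMap LinearMap.id) ∘ₗ
    (e.symm : V →ₗ[F] (S × T))
  have hye : ∀ st : S × T, y (e st) = e ((y.restrict hSy).prodMap (y.restrict hTy) st) := by
    intro st
    rw [he, he, map_add]
    rfl
  have hey : ∀ w : V, e.symm (y w) = (y.restrict hSy).prodMap (y.restrict hTy) (e.symm w) := by
    intro w
    apply e.injective
    rw [LinearEquiv.apply_symm_apply, ← hye, LinearEquiv.apply_symm_apply]
  have hcomm : ψ α * y.restrict hSy = y.restrict hSy * ψ α := by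
    rw [← hψroot, ← map_mul, ← map_mul, mul_comm]
  refine ⟨c, ?_, ?_⟩
  · ext w
    rw [Module.End.mul_apply, Module.End.mul_apply]
    show e (((ψ α).prodMap LinearMap.id) (e.symm (y w))) =
      y (e (((ψ α).prodMap LinearMap.id) (e.symm w)))
    rw [hey, hye]
    congr 1
    apply Prod.ext
    · show ψ α (y.restrict hSy (e.symm w).1) = y.restrict hSy (ψ α (e.symm w).1)
      rw [← Module.End.mul_apply, hcomm, Module.End.mul_apply]
    · rfl
  · show LinearMap.det ((e : (S × T) →ₗ[F] V) ∘ₗ ((ψ α).prodMap LinearMap.id) ∘ₗ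
      (e.symm : V →ₗ[F] (S × T))) = d
    rw [LinearMap.det_conj, LinearMap.det_prodMap, hdetψ, LinearMap.det_id, mul_one]

theorem result {F : Type*} [Field F] [Fintype F] {p : ℕ} [Fact p.Prime] [CharP F p] {n : ℕ} (x g : GL (Fin n) F) (hx : (orderOf x).Coprime p) : ∃ h : GL (Fin n) F, (h : Matrix (Fin n) (Fin n) F).det = 1 ∧ h * x * h⁻¹ = g * x * g⁻¹ := by
  classical
  rcases Nat.eq_zero_or_pos n with hn0 | hn
  · subst hn0
    exact ⟨g, Matrix.det_isEmpty, rfl⟩
  haveI : NeZero n := ⟨by omega⟩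
  haveI : Nonempty (Fin n) := ⟨⟨0, hn⟩⟩
  have hm0 : 0 < orderOf x := orderOf_pos x
  have hmF : ((orderOf x : ℕ) : F) ≠ 0 := by
    intro h
    have h1 := (CharP.cast_eq_zero_iff F p _).mp h
    have h2 : p ∣ Nat.gcd (orderOf x) p := Nat.dvd_gcd h1 dvd_rfl
    rw [hx] at h2
    exact (Fact.out : p.Prime).one_lt.ne' (Nat.dvd_one.mp h2)
  set y : Module.End F (Fin n → F) := Matrix.toLin' (x : Matrix (Fin n) (Fin n) F) with hy
  have hym : y ^ orderOf x = 1 := by
    rw [hy, ← Matrix.toLin'_pow, ← Units.val_pow_eq_pow_val, pow_orderOf_eq_one, Units.val_one,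
      Matrix.toLin'_one]
    rfl
  have hss : y.IsSemisimple := by
    apply Module.End.isSemisimple_of_squarefree_aeval_eq_zero
      (p := (Polynomial.X ^ orderOf x - Polynomial.C (1 : F)))
    · exact (Polynomial.separable_X_pow_sub_C (1 : F) hmF one_ne_zero).squarefree
    · rw [map_sub, map_pow, Polynomial.aeval_X, Polynomial.aeval_C, hym, map_one, sub_self]
  have hdg : (g : Matrix (Fin n) (Fin n) F).det ≠ 0 := by
    have h1 := (Matrix.isUnit_iff_isUnit_det _).mp g.isUnit
    exact h1.ne_zero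
  obtain ⟨c, hc, hdc⟩ := exists_comm_det y hss ((g : Matrix (Fin n) (Fin n) F).det)⁻¹
  set C : Matrix (Fin n) (Fin n) F := LinearMap.toMatrix' c with hC
  have hCdet : C.det = ((g : Matrix (Fin n) (Fin n) F).det)⁻¹ := by
    rw [hC, LinearMap.det_toMatrix', hdc]
  have hCX : C * (x : Matrix (Fin n) (Fin n) F) = (x : Matrix (Fin n) (Fin n) F) * C := by
    have h1 := congrArg LinearMap.toMatrix' hc
    rw [Module.End.mul_eq_comp, Module.End.mul_eq_comp, LinearMap.toMatrix'_comp,
      LinearMap.toMatrix'_comp, hy, LinearMap.toMatrix'_toLin'] at h1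
    exact h1
  have hCu : IsUnit C.det := by
    rw [hCdet]
    exact (inv_ne_zero hdg).isUnit
  let cu : GL (Fin n) F := Matrix.GeneralLinearGroup.mk'' C hCu
  have hcu : (cu : Matrix (Fin n) (Fin n) F) = C := rfl
  have hcux : cu * x = x * cu := by
    apply Units.ext
    rw [Units.val_mul, Units.val_mul, hcu, hCX]
  refine ⟨g * cu, ?_, ?_⟩
  · rw [Units.val_mul, Matrix.det_mul, hcu, hCdet, mul_inv_cancel₀ hdg]
  · rw [mul_inv_rev, mul_assoc g cu x, hcux]
    group

end Cfsg.Agent.S2569
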