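import Cfsg.Statements.S2388
import Cfsg.Agent.S2569

set_option autoImplicit false
open Cfsg

set_option maxHeartbeats 1000000
namespace Cfsg.Agent.S2388

open Polynomial

theorem charpoly_root {F : Type*} [Field F] (P : F[X]) [Fact (Irreducible P)]
    [Module.Finite F (AdjoinRoot P)] :
    (Algebra.lmul F (AdjoinRoot P) (AdjoinRoot.root P)).charpoly = P * C P.leadingCoeff⁻¹ := by
  have hP0 : P ≠ 0 := (Fact.out : Irreducible P).ne_zero
  have h1 : minpoly F (Algebra.lmul F (AdjoinRoot P) (AdjoinRoot.root P)) =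
      P * C P.leadingCoeff⁻¹ := by
    rw [minpoly.algHom_eq (Algebra.lmul F (AdjoinRoot P)) (Algebra.lmul_injective (R := F) (A := AdjoinRoot P)),
      AdjoinRoot.minpoly_root hP0]
  rw [← h1]
  apply Polynomial.eq_of_monic_of_dvd_of_natDegree_le
    (minpoly.monic (IsIntegral.of_finite F _)) (LinearMap.charpoly_monic _)
    (LinearMap.minpoly_dvd_charpoly _)
  rw [LinearMap.charpoly_natDegree, h1,
    Polynomial.natDegree_mul_C (inv_ne_zero (leadingCoeff_ne_zero.mpr hP0)),
    (AdjoinRoot.powerBasis hP0).finrank, AdjoinRoot.powerBasis_dim]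

/-- Splitting off a simple summand. -/
theorem decomp {F V : Type*} [Field F] [AddCommGroup V] [Module F V] [FiniteDimensional F V]
    (y : Module.End F V) (hss : y.IsSemisimple) (P : F[X]) [Fact (Irreducible P)] (v : V)
    (hv0 : v ≠ 0) (hPv : aeval y P v = 0) :
    ∃ (S T : Submodule F V) (hS : ∀ s ∈ S, y s ∈ S) (hT : ∀ t ∈ T, y t ∈ T) (_ : IsCompl S T)
      (L : AdjoinRoot P ≃ₗ[F] S), ∀ a, L (AdjoinRoot.root P * a) = y.restrict hS (L a) := by
  classical
  have hPirr : Irreducible P := Fact.out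
  have hP0 : P ≠ 0 := hPirr.ne_zero
  let S : Submodule F V :=
    { carrier := {s | ∃ A : F[X], aeval y A v = s}
      add_mem' := by
        rintro _ _ ⟨A, rfl⟩ ⟨B, rfl⟩
        exact ⟨A + B, by rw [map_add, LinearMap.add_apply]⟩
      zero_mem' := ⟨0, by rw [map_zero, LinearMap.zero_apply]⟩
      smul_mem' := by
        rintro t _ ⟨A, rfl⟩
        exact ⟨t • A, by rw [map_smul, LinearMap.smul_apply]⟩ }
  have hSy : ∀ s ∈ S, y s ∈ S := by
    rintro _ ⟨A, rfl⟩
    exact ⟨X * A, by rw [map_mul, aeval_X, Module.End.mul_apply]⟩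
  have hvS : v ∈ S := ⟨1, by rw [map_one, Module.End.one_apply]⟩
  have hSinv : S ∈ Module.End.invtSubmodule y := by
    intro s hs
    exact hSy s hs
  obtain ⟨T, hTinv, hST⟩ := (Module.End.isSemisimple_iff.mp hss) S hSinv
  have hTy : ∀ t ∈ T, y t ∈ T := by
    intro t ht
    exact hTinv ht
  have hPS : aeval (y.restrict hSy) P = 0 := by
    ext s
    rw [Cfsg.Agent.S2569.aeval_restrict, LinearMap.zero_apply, Submodule.coe_zero]
    obtain ⟨A, hA⟩ := s.2
    rw [← hA, ← Module.End.mul_apply, ← map_mul, mul_comm, map_mul, Module.End.mul_apply, hPv,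
      map_zero]
  let ψ : AdjoinRoot P →ₐ[F] Module.End F S :=
    Ideal.Quotient.liftₐ (Ideal.span {P}) (aeval (y.restrict hSy)) (by
      intro a ha
      obtain ⟨b, rfl⟩ := Ideal.mem_span_singleton.mp ha
      rw [map_mul, hPS, zero_mul])
  have hψmk : ∀ A : F[X], ψ (AdjoinRoot.mk P A) = aeval (y.restrict hSy) A := fun A => rfl
  have hψroot : ψ (AdjoinRoot.root P) = y.restrict hSy := by
    rw [← AdjoinRoot.mk_X, hψmk, aeval_X]
  let vS : S := ⟨v, hvS⟩
  let L₀ : AdjoinRoot P →ₗ[F] S :=
    { toFun := fun a => ψ a vS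
      map_add' := by
        intro a b
        rw [map_add, LinearMap.add_apply]
      map_smul' := by
        intro t a
        rw [map_smul, LinearMap.smul_apply]
        rfl }
  have hL₀ : ∀ a, L₀ a = ψ a vS := fun a => rfl
  have hvS0 : vS ≠ 0 := by
    intro h
    apply hv0
    have h1 := congrArg Subtype.val h
    exact h1
  have hLinj : Function.Injective L₀ := by
    rw [← LinearMap.ker_eq_bot, LinearMap.ker_eq_bot']
    intro a ha
    by_contra ha0
    apply hvS0
    have h1 : ψ a⁻¹ (ψ a vS) = vS := by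
      rw [← Module.End.mul_apply, ← map_mul, inv_mul_cancel₀ ha0, map_one, Module.End.one_apply]
    rw [← h1, ← hL₀, ha, map_zero]
  have hLsurj : Function.Surjective L₀ := by
    intro s
    obtain ⟨A, hA⟩ := s.2
    refine ⟨AdjoinRoot.mk P A, ?_⟩
    apply Subtype.ext
    rw [hL₀, hψmk, Cfsg.Agent.S2569.aeval_restrict, hA]
  refine ⟨S, T, hSy, hTy, hST, LinearEquiv.ofBijective L₀ ⟨hLinj, hLsurj⟩, ?_⟩
  intro a
  show ψ (AdjoinRoot.root P * a) vS = y.restrict hSy (ψ a vS)
  rw [map_mul, Module.End.mul_apply, hψroot]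

theorem charpoly_split {F V : Type*} [Field F] [AddCommGroup V] [Module F V]
    [FiniteDimensional F V] (y : Module.End F V) (S T : Submodule F V)
    (hS : ∀ s ∈ S, y s ∈ S) (hT : ∀ t ∈ T, y t ∈ T) (hST : IsCompl S T) :
    y.charpoly = (y.restrict hS).charpoly * (y.restrict hT).charpoly := by
  have h1 : y = (Submodule.prodEquivOfIsCompl S T hST).conj
      ((y.restrict hS).prodMap (y.restrict hT)) := by
    ext w
    obtain ⟨st, rfl⟩ := (Submodule.prodEquivOfIsCompl S T hST).surjective w
    rw [LinearEquiv.conj_apply_apply, LinearEquiv.symm_apply_apply,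
      Submodule.coe_prodEquivOfIsCompl', Submodule.coe_prodEquivOfIsCompl', map_add]
    rfl
  conv_lhs => rw [h1]
  rw [LinearEquiv.charpoly_conj, LinearMap.charpoly_prodMap]

theorem charpoly_simple {F V : Type*} [Field F] [AddCommGroup V] [Module F V]
    [FiniteDimensional F V] (y : Module.End F V) (P : F[X]) [Fact (Irreducible P)]
    (S : Submodule F V) (hS : ∀ s ∈ S, y s ∈ S) (L : AdjoinRoot P ≃ₗ[F] S)
    (hL : ∀ a, L (AdjoinRoot.root P * a) = y.restrict hS (L a)) :
    (y.restrict hS).charpoly = P * C P.leadingCoeff⁻¹ := by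
  have hP0 : P ≠ 0 := (Fact.out : Irreducible P).ne_zero
  haveI : Module.Finite F (AdjoinRoot P) := (AdjoinRoot.powerBasis hP0).finite
  have h1 : y.restrict hS = L.conj (Algebra.lmul F (AdjoinRoot P) (AdjoinRoot.root P)) := by
    ext s
    obtain ⟨a, rfl⟩ := L.surjective s
    rw [LinearEquiv.conj_apply_apply, LinearEquiv.symm_apply_apply, Algebra.coe_lmul_eq_mul,
      LinearMap.mul_apply', hL]
  rw [h1, LinearEquiv.charpoly_conj, charpoly_root]

theorem finrank_simple {F V : Type*} [Field F] [AddCommGroup V] [Module F V]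
    (P : F[X]) [Fact (Irreducible P)]
    (S : Submodule F V) (L : AdjoinRoot P ≃ₗ[F] S) :
    0 < Module.finrank F S := by
  have hP0 : P ≠ 0 := (Fact.out : Irreducible P).ne_zero
  rw [← L.finrank_eq, (AdjoinRoot.powerBasis hP0).finrank, AdjoinRoot.powerBasis_dim]
  exact (Fact.out : Irreducible P).natDegree_pos

theorem first_factor {F V : Type*} [Field F] [AddCommGroup V] [Module F V]
    [FiniteDimensional F V] [Nontrivial V] (y : Module.End F V) :
    ∃ (P : F[X]) (v : V), Irreducible P ∧ P ∣ y.charpoly ∧ v ≠ 0 ∧ aeval y P v = 0 := by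
  classical
  have hint : IsIntegral F y := IsIntegral.of_finite F y
  have hμ0 : minpoly F y ≠ 0 := minpoly.ne_zero hint
  have hμu : ¬ IsUnit (minpoly F y) := minpoly.not_isUnit F y
  obtain ⟨P, hPirr, Q, hμ⟩ := WfDvdMonoid.exists_irreducible_factor hμu hμ0
  have hP0 : P ≠ 0 := hPirr.ne_zero
  have hQ0 : Q ≠ 0 := by
    rintro rfl
    rw [mul_zero] at hμ
    exact hμ0 hμ
  have hQy : aeval y Q ≠ 0 := by
    intro h
    have h1 := minpoly.dvd F y h
    rw [hμ] at h1
    have h2 := natDegree_le_of_dvd h1 hQ0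
    rw [natDegree_mul hP0 hQ0] at h2
    have h3 := hPirr.natDegree_pos
    omega
  obtain ⟨w, hw⟩ : ∃ w, aeval y Q w ≠ 0 := by
    by_contra hcon
    push_neg at hcon
    apply hQy
    ext w
    rw [hcon w, LinearMap.zero_apply]
  refine ⟨P, aeval y Q w, hPirr, ?_, hw, ?_⟩
  · exact (Dvd.intro Q hμ.symm).trans (LinearMap.minpoly_dvd_charpoly y)
  · rw [← Module.End.mul_apply, ← map_mul, ← hμ, minpoly.aeval, LinearMap.zero_apply]

theorem exists_torsion {F : Type*} [Field F] (P : F[X]) (hPirr : Irreducible P) (k : ℕ) :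
    ∀ (V : Type*) [AddCommGroup V] [Module F V] [FiniteDimensional F V]
    (y : Module.End F V), Module.finrank F V = k → y.IsSemisimple → P ∣ y.charpoly →
    ∃ v : V, v ≠ 0 ∧ aeval y P v = 0 := by
  induction k using Nat.strong_induction_on with
  | _ k ih =>
    intro V _ _ _ y hk hss hdvd
    have hkpos : 0 < k := by
      have h1 := natDegree_le_of_dvd hdvd (LinearMap.charpoly_monic y).ne_zero
      rw [LinearMap.charpoly_natDegree, hk] at h1
      have h2 := hPirr.natDegree_pos
      omega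
    haveI : Nontrivial V := Module.nontrivial_of_finrank_pos (R := F) (by rw [hk]; exact hkpos)
    obtain ⟨P₁, v₁, hP₁irr, hP₁dvd, hv₁, hP₁v⟩ := first_factor y
    haveI : Fact (Irreducible P₁) := ⟨hP₁irr⟩
    obtain ⟨S, T, hS, hT, hST, L, hL⟩ := decomp y hss P₁ v₁ hv₁ hP₁v
    have hχ := charpoly_split y S T hS hT hST
    rw [charpoly_simple y P₁ S hS L hL] at hχ
    rw [hχ] at hdvd
    rcases hPirr.prime.dvd_or_dvd hdvd with h | h
    · -- `P ∣ P₁ * C _`
      have h1 : P ∣ P₁ := by
        have hu : IsUnit (C P₁.leadingCoeff⁻¹ : F[X]) :=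
          Polynomial.isUnit_C.mpr (inv_ne_zero (leadingCoeff_ne_zero.mpr hP₁irr.ne_zero)).isUnit
        exact (hu.dvd_mul_right).mp h
      obtain ⟨u, hu⟩ := h1
      have huu : IsUnit u := by
        rcases hP₁irr.isUnit_or_isUnit hu with h2 | h2
        · exact absurd h2 hPirr.not_isUnit
        · exact h2
      refine ⟨v₁, hv₁, ?_⟩
      obtain ⟨u', hu'⟩ := huu.exists_left_inv
      have h3 : P = u' * P₁ := by
        rw [hu, mul_comm P u, ← mul_assoc, hu', one_mul]
      rw [h3, map_mul, Module.End.mul_apply, hP₁v, map_zero]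
    · have hlt : Module.finrank F T < k := by
        have h1 := Submodule.finrank_add_eq_of_isCompl hST
        have h2 := finrank_simple P₁ S L
        omega
      have hssT : Module.End.IsSemisimple (y.restrict hT) :=
        Module.End.IsSemisimple.restrict (p := T) hT hss
      obtain ⟨t, ht0, ht⟩ := ih _ hlt T (y.restrict hT) rfl hssT h
      refine ⟨(t : V), ?_, ?_⟩
      · intro h0
        apply ht0
        exact Subtype.ext h0
      · rw [← Cfsg.Agent.S2569.aeval_restrict y T hT P t, ht, Submodule.coe_zero]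

theorem conj_of_charpoly {F : Type*} [Field F] (k : ℕ) :
    ∀ (V W : Type*) [AddCommGroup V] [Module F V] [FiniteDimensional F V]
    [AddCommGroup W] [Module F W] [FiniteDimensional F W]
    (y : Module.End F V) (z : Module.End F W), Module.finrank F V = k →
    y.IsSemisimple → z.IsSemisimple → y.charpoly = z.charpoly →
    ∃ e : V ≃ₗ[F] W, ∀ v, e (y v) = z (e v) := by
  induction k using Nat.strong_induction_on with
  | _ k ih =>
    intro V W _ _ _ _ _ _ y z hk hssy hssz hχ
    have hkW : Module.finrank F W = k := by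
      rw [← LinearMap.charpoly_natDegree z, ← hχ, LinearMap.charpoly_natDegree, hk]
    rcases Nat.eq_zero_or_pos k with hk0 | hkpos
    · rw [hk0] at hk hkW
      haveI : Subsingleton V := Module.finrank_zero_iff.mp hk
      haveI : Subsingleton W := Module.finrank_zero_iff.mp hkW
      exact ⟨LinearEquiv.ofSubsingleton V W, fun v => Subsingleton.elim _ _⟩
    haveI : Nontrivial V := Module.nontrivial_of_finrank_pos (R := F) (by rw [hk]; exact hkpos)
    obtain ⟨P, v, hPirr, hPdvd, hv, hPv⟩ := first_factor y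
    haveI : Fact (Irreducible P) := ⟨hPirr⟩
    rw [hχ] at hPdvd
    obtain ⟨v', hv', hPv'⟩ := exists_torsion P hPirr k W z hkW hssz hPdvd
    obtain ⟨S, T, hS, hT, hST, L, hL⟩ := decomp y hssy P v hv hPv
    obtain ⟨S', T', hS', hT', hST', L', hL'⟩ := decomp z hssz P v' hv' hPv'
    have h1 := charpoly_split y S T hS hT hST
    have h2 := charpoly_split z S' T' hS' hT' hST'
    rw [charpoly_simple y P S hS L hL] at h1
    rw [charpoly_simple z P S' hS' L' hL'] at h2
    have hχT : (y.restrict hT).charpoly = (z.restrict hT').charpoly := by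
      have h3 : P * C P.leadingCoeff⁻¹ ≠ 0 := by
        apply mul_ne_zero hPirr.ne_zero
        rw [Ne, Polynomial.C_eq_zero]
        exact inv_ne_zero (leadingCoeff_ne_zero.mpr hPirr.ne_zero)
      apply mul_left_cancel₀ h3
      rw [← h1, ← h2, hχ]
    have hlt : Module.finrank F T < k := by
      have h3 := Submodule.finrank_add_eq_of_isCompl hST
      have h4 := finrank_simple P S L
      omega
    have hssT : Module.End.IsSemisimple (y.restrict hT) :=
      Module.End.IsSemisimple.restrict (p := T) hT hssy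
    have hssT' : Module.End.IsSemisimple (z.restrict hT') :=
      Module.End.IsSemisimple.restrict (p := T') hT' hssz
    obtain ⟨eT, heT⟩ := ih _ hlt T T' (y.restrict hT) (z.restrict hT') rfl hssT hssT' hχT
    let eS : S ≃ₗ[F] S' := L.symm.trans L'
    have heS : ∀ s : S, eS (y.restrict hS s) = z.restrict hS' (eS s) := by
      intro s
      obtain ⟨a, rfl⟩ := L.surjective s
      show L' (L.symm (y.restrict hS (L a))) = z.restrict hS' (L' (L.symm (L a)))
      rw [← hL, LinearEquiv.symm_apply_apply, LinearEquiv.symm_apply_apply, hL']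
    refine ⟨((Submodule.prodEquivOfIsCompl S T hST).symm.trans (eS.prodCongr eT)).trans
      (Submodule.prodEquivOfIsCompl S' T' hST'), ?_⟩
    intro w
    obtain ⟨st, rfl⟩ := (Submodule.prodEquivOfIsCompl S T hST).surjective w
    have e1 : y (Submodule.prodEquivOfIsCompl S T hST st) =
        Submodule.prodEquivOfIsCompl S T hST (y.restrict hS st.1, y.restrict hT st.2) := by
      rw [Submodule.coe_prodEquivOfIsCompl', Submodule.coe_prodEquivOfIsCompl', map_add]
      rfl
    rw [e1]
    simp only [LinearEquiv.trans_apply, LinearEquiv.symm_apply_apply]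
    rw [Submodule.coe_prodEquivOfIsCompl', Submodule.coe_prodEquivOfIsCompl', map_add]
    show ((eS (y.restrict hS st.1) : S') : W) + ((eT (y.restrict hT st.2) : T') : W) =
      z ((eS st.1 : S') : W) + z ((eT st.2 : T') : W)
    rw [heS, heT]
    rfl

theorem toLin_semisimple {F : Type*} [Field F] [Fintype F] {p : ℕ} [Fact p.Prime] [CharP F p]
    {n : ℕ} (x : GL (Fin n) F) (hx : (orderOf x).Coprime p) :
    Module.End.IsSemisimple (Matrix.toLin' (x : Matrix (Fin n) (Fin n) F)) := by
  classical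
  have hmF : ((orderOf x : ℕ) : F) ≠ 0 := by
    intro h
    have h1 := (CharP.cast_eq_zero_iff F p _).mp h
    have h2 : p ∣ Nat.gcd (orderOf x) p := Nat.dvd_gcd h1 dvd_rfl
    rw [hx] at h2
    exact (Fact.out : p.Prime).one_lt.ne' (Nat.dvd_one.mp h2)
  have hym : (Matrix.toLin' (x : Matrix (Fin n) (Fin n) F)) ^ orderOf x = 1 := by
    rw [← Matrix.toLin'_pow, ← Units.val_pow_eq_pow_val, pow_orderOf_eq_one, Units.val_one,
      Matrix.toLin'_one]
    rfl
  apply Module.End.isSemisimple_of_squarefree_aeval_eq_zero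
    (p := (Polynomial.X ^ orderOf x - Polynomial.C (1 : F)))
  · exact (Polynomial.separable_X_pow_sub_C (1 : F) hmF one_ne_zero).squarefree
  · rw [map_sub, map_pow, Polynomial.aeval_X, Polynomial.aeval_C, hym, map_one, sub_self]

/-- Semisimple elements of `GL_n` with equal characteristic polynomials are conjugate. -/
theorem gl_conj_of_charpoly {F : Type*} [Field F] [Fintype F] {p : ℕ} [Fact p.Prime] [CharP F p]
    {n : ℕ} (x z : GL (Fin n) F) (hx : (orderOf x).Coprime p) (hz : (orderOf z).Coprime p)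
    (hc : (x : Matrix (Fin n) (Fin n) F).charpoly = (z : Matrix (Fin n) (Fin n) F).charpoly) :
    ∃ E : GL (Fin n) F, E * x * E⁻¹ = z := by
  classical
  have h1 := toLin_semisimple x hx
  have h2 := toLin_semisimple z hz
  obtain ⟨e, he⟩ := conj_of_charpoly (F := F) _ (Fin n → F) (Fin n → F)
    (Matrix.toLin' (x : Matrix (Fin n) (Fin n) F)) (Matrix.toLin' (z : Matrix (Fin n) (Fin n) F))
    rfl h1 h2 (by rw [Matrix.charpoly_toLin', Matrix.charpoly_toLin', hc])
  have hcomp : (e : (Fin n → F) →ₗ[F] (Fin n → F)) ∘ₗ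
      Matrix.toLin' (x : Matrix (Fin n) (Fin n) F) =
      Matrix.toLin' (z : Matrix (Fin n) (Fin n) F) ∘ₗ (e : (Fin n → F) →ₗ[F] (Fin n → F)) := by
    exact LinearMap.ext (fun w => he w)
  have hM : LinearMap.toMatrix' (e : (Fin n → F) →ₗ[F] (Fin n → F)) *
      (x : Matrix (Fin n) (Fin n) F) = (z : Matrix (Fin n) (Fin n) F) *
      LinearMap.toMatrix' (e : (Fin n → F) →ₗ[F] (Fin n → F)) := by
    have h3 := congrArg LinearMap.toMatrix' hcomp
    rw [LinearMap.toMatrix'_comp, LinearMap.toMatrix'_comp, LinearMap.toMatrix'_toLin',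
      LinearMap.toMatrix'_toLin'] at h3
    exact h3
  have hinv : LinearMap.toMatrix' (e : (Fin n → F) →ₗ[F] (Fin n → F)) *
      LinearMap.toMatrix' (e.symm : (Fin n → F) →ₗ[F] (Fin n → F)) = 1 := by
    rw [← LinearMap.toMatrix'_comp]
    have h4 : (e : (Fin n → F) →ₗ[F] (Fin n → F)) ∘ₗ (e.symm : (Fin n → F) →ₗ[F] (Fin n → F)) =
        LinearMap.id := by
      exact LinearMap.ext (fun w => e.apply_symm_apply w)
    rw [h4, LinearMap.toMatrix'_id]
  have hinv' : LinearMap.toMatrix' (e.symm : (Fin n → F) →ₗ[F] (Fin n → F)) *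
      LinearMap.toMatrix' (e : (Fin n → F) →ₗ[F] (Fin n → F)) = 1 := by
    rw [← LinearMap.toMatrix'_comp]
    have h4 : (e.symm : (Fin n → F) →ₗ[F] (Fin n → F)) ∘ₗ (e : (Fin n → F) →ₗ[F] (Fin n → F)) =
        LinearMap.id := by
      exact LinearMap.ext (fun w => e.symm_apply_apply w)
    rw [h4, LinearMap.toMatrix'_id]
  let E : GL (Fin n) F := ⟨_, _, hinv, hinv'⟩
  refine ⟨E, ?_⟩
  rw [mul_inv_eq_iff_eq_mul]
  apply Units.ext
  rw [Units.val_mul, Units.val_mul]
  exact hM

theorem result {F : Type*} [Field F] [Fintype F] (p : ℕ) [Fact p.Prime] [CharP F p] (n : ℕ)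
    (g h : Matrix.SpecialLinearGroup (Fin n) F) (hg : (orderOf g).Coprime p) (hh : (orderOf h).Coprime p)
    (hc : (g : Matrix (Fin n) (Fin n) F).charpoly = (h : Matrix (Fin n) (Fin n) F).charpoly) : IsConj g h := by
  classical
  have hinj : Function.Injective (Matrix.SpecialLinearGroup.toGL :
      Matrix.SpecialLinearGroup (Fin n) F →* GL (Fin n) F) := by
    intro a b hab
    apply Subtype.ext
    have h1 := congrArg (fun u : GL (Fin n) F => (u : Matrix (Fin n) (Fin n) F)) hab
    exact h1
  have hog : orderOf (Matrix.SpecialLinearGroup.toGL g) = orderOf g := orderOf_injective _ hinj g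
  have hoh : orderOf (Matrix.SpecialLinearGroup.toGL h) = orderOf h := orderOf_injective _ hinj h
  obtain ⟨E, hE⟩ := gl_conj_of_charpoly (p := p) (Matrix.SpecialLinearGroup.toGL g)
    (Matrix.SpecialLinearGroup.toGL h) (by rw [hog]; exact hg) (by rw [hoh]; exact hh) hc
  obtain ⟨c, hcdet, hcc⟩ := Cfsg.Agent.S2569.result (p := p) (Matrix.SpecialLinearGroup.toGL g) E
    (by rw [hog]; exact hg)
  rw [isConj_iff]
  let C' : Matrix.SpecialLinearGroup (Fin n) F := ⟨(c : Matrix (Fin n) (Fin n) F), hcdet⟩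
  have hc' : Matrix.SpecialLinearGroup.toGL C' = c := by
    apply Units.ext
    rfl
  refine ⟨C', ?_⟩
  apply hinj
  rw [map_mul, map_mul, map_inv, hc', hcc, hE]

end Cfsg.Agent.S2388
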