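import Cfsg.Statements.S2387
import Cfsg.Agent.S2388

set_option autoImplicit false
open scoped MatrixGroups
open Cfsg

set_option maxHeartbeats 1000000
namespace Cfsg.Agent.S2387

open Polynomial

theorem prodMap_pow' {F V W : Type*} [Field F] [AddCommGroup V] [Module F V] [AddCommGroup W]
    [Module F W] (a : Module.End F V) (b : Module.End F W) (k : ℕ) :
    (a.prodMap b) ^ k = (a ^ k).prodMap (b ^ k) := by
  induction k with
  | zero => rw [pow_zero, pow_zero, pow_zero, LinearMap.prodMap_one]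
  | succ k ih => rw [pow_succ, pow_succ, pow_succ, ih, LinearMap.prodMap_mul]

theorem conj_pow' {F V W : Type*} [Field F] [AddCommGroup V] [Module F V] [AddCommGroup W]
    [Module F W] (e : V ≃ₗ[F] W) (a : Module.End F V) (k : ℕ) :
    (e.conj a) ^ k = e.conj (a ^ k) := by
  induction k with
  | zero =>
    rw [pow_zero, pow_zero]
    exact (LinearEquiv.conj_id e).symm
  | succ k ih =>
    rw [pow_succ, pow_succ, ih, Module.End.mul_eq_comp, Module.End.mul_eq_comp,
      LinearEquiv.conj_comp]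

/-- Every monic polynomial of degree `n` with nonzero constant term is the characteristic
polynomial of an endomorphism of order prime to `p`. -/
theorem exists_end {F : Type*} [Field F] [Fintype F] {p : ℕ} [Fact p.Prime] [CharP F p] (n : ℕ) :
    ∀ f : F[X], f.Monic → f.natDegree = n → f.coeff 0 ≠ 0 →
    ∃ y : Module.End F (Fin n → F), y.charpoly = f ∧ ∃ m, 0 < m ∧ m.Coprime p ∧ y ^ m = 1 := by
  classical
  induction n using Nat.strong_induction_on with
  | _ n ih =>
    intro f hmon hdeg hf0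
    rcases Nat.eq_zero_or_pos n with hn0 | hnpos
    · subst hn0
      refine ⟨1, ?_, 1, Nat.one_pos, Nat.coprime_one_left p, pow_one 1⟩
      rw [Polynomial.eq_one_of_monic_natDegree_zero hmon hdeg]
      apply Polynomial.eq_one_of_monic_natDegree_zero (LinearMap.charpoly_monic _)
      rw [LinearMap.charpoly_natDegree, Module.finrank_fin_fun]
    have hfu : ¬ IsUnit f := by
      intro h
      have h1 := Polynomial.natDegree_eq_zero_of_isUnit h
      omega
    obtain ⟨P, hPmon, hPirr, Q, hfPQ⟩ := Polynomial.exists_monic_irreducible_factor f hfu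
    haveI : Fact (Irreducible P) := ⟨hPirr⟩
    have hP0 : P ≠ 0 := hPirr.ne_zero
    have hQmon : Q.Monic := by
      rw [hfPQ] at hmon
      exact hPmon.of_mul_monic_left hmon
    have hQ0 : Q ≠ 0 := hQmon.ne_zero
    have hdegsum : P.natDegree + Q.natDegree = n := by
      rw [← hdeg, hfPQ, Polynomial.natDegree_mul hP0 hQ0]
    have hPpos : 0 < P.natDegree := hPirr.natDegree_pos
    have hc0 : P.coeff 0 * Q.coeff 0 ≠ 0 := by
      rw [← Polynomial.mul_coeff_zero, ← hfPQ]
      exact hf0
    have hPc0 : P.coeff 0 ≠ 0 := left_ne_zero_of_mul hc0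
    have hQc0 : Q.coeff 0 ≠ 0 := right_ne_zero_of_mul hc0
    obtain ⟨y', hy'χ, m', hm'pos, hm'cop, hy'm⟩ :=
      ih Q.natDegree (by omega) Q hQmon rfl hQc0
    haveI : Module.Finite F (AdjoinRoot P) := (AdjoinRoot.powerBasis hP0).finite
    haveI : Finite (AdjoinRoot P) := Module.finite_of_finite F
    letI : Fintype (AdjoinRoot P) := Fintype.ofFinite _
    haveI : CharP (AdjoinRoot P) p :=
      charP_of_injective_algebraMap (algebraMap F (AdjoinRoot P)).injective p
    have hroot0 : AdjoinRoot.root P ≠ 0 := by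
      intro h
      apply hPc0
      have h1 : aeval (AdjoinRoot.root P) P = 0 := by
        rw [AdjoinRoot.aeval_eq, AdjoinRoot.mk_self]
      rw [h, ← Polynomial.coeff_zero_eq_aeval_zero'] at h1
      exact (map_eq_zero _).mp h1
    obtain ⟨k, hpk, hcardK⟩ := FiniteField.card (AdjoinRoot P) p
    have hpk1 : 1 < p ^ (k : ℕ) := Nat.one_lt_pow k.pos.ne' (Fact.out : p.Prime).one_lt
    have hm₁cop : (p ^ (k : ℕ) - 1).Coprime p := by
      apply Nat.Coprime.symm
      rw [Nat.Prime.coprime_iff_not_dvd (Fact.out : p.Prime)]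
      intro h
      have h2 : p ∣ p ^ (k : ℕ) := dvd_pow_self p k.pos.ne'
      have h3 : p ∣ p ^ (k : ℕ) - (p ^ (k : ℕ) - 1) := Nat.dvd_sub h2 h
      have h4 : p ^ (k : ℕ) - (p ^ (k : ℕ) - 1) = 1 := by omega
      rw [h4] at h3
      exact (Fact.out : p.Prime).one_lt.ne' (Nat.dvd_one.mp h3)
    have hrootpow : AdjoinRoot.root P ^ (p ^ (k : ℕ) - 1) = 1 := by
      rw [← hcardK]
      exact FiniteField.pow_card_sub_one_eq_one _ hroot0
    set y₁ : Module.End F (AdjoinRoot P) := Algebra.lmul F (AdjoinRoot P) (AdjoinRoot.root P)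
      with hy₁
    have hy₁m : y₁ ^ (p ^ (k : ℕ) - 1) = 1 := by
      rw [hy₁, ← map_pow, hrootpow, map_one]
    have hy₁χ : y₁.charpoly = P := by
      rw [hy₁, Cfsg.Agent.S2388.charpoly_root, hPmon.leadingCoeff, inv_one, map_one, mul_one]
    have hfin : Module.finrank F (AdjoinRoot P × (Fin Q.natDegree → F)) =
        Module.finrank F (Fin n → F) := by
      rw [Module.finrank_prod, Module.finrank_fin_fun, Module.finrank_fin_fun,
        (AdjoinRoot.powerBasis hP0).finrank, AdjoinRoot.powerBasis_dim, hdegsum]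
    let e : (AdjoinRoot P × (Fin Q.natDegree → F)) ≃ₗ[F] (Fin n → F) :=
      LinearEquiv.ofFinrankEq _ _ hfin
    refine ⟨e.conj (y₁.prodMap y'), ?_, (p ^ (k : ℕ) - 1) * m', ?_, ?_, ?_⟩
    · rw [LinearEquiv.charpoly_conj, LinearMap.charpoly_prodMap, hy₁χ, hy'χ, hfPQ]
    · exact Nat.mul_pos (by omega) hm'pos
    · exact Nat.Coprime.mul_left hm₁cop hm'cop
    · rw [conj_pow', prodMap_pow', pow_mul, hy₁m, one_pow, mul_comm, pow_mul, hy'm, one_pow,
        LinearMap.prodMap_one]
      exact LinearEquiv.conj_id e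

theorem exists_gl {F : Type*} [Field F] [Fintype F] {p : ℕ} [Fact p.Prime] [CharP F p] (n : ℕ)
    (f : F[X]) (hmon : f.Monic) (hdeg : f.natDegree = n) (hf0 : f.coeff 0 ≠ 0) :
    ∃ g : GL (Fin n) F, (g : Matrix (Fin n) (Fin n) F).charpoly = f ∧ (orderOf g).Coprime p := by
  classical
  obtain ⟨y, hyχ, m, hmpos, hmcop, hym⟩ := exists_end (p := p) n f hmon hdeg hf0
  set M : Matrix (Fin n) (Fin n) F := LinearMap.toMatrix' y with hM
  have hMy : Matrix.toLin' M = y := Matrix.toLin'_toMatrix' y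
  have hMm : M ^ m = 1 := by
    apply Matrix.toLin'.injective
    rw [Matrix.toLin'_pow, hMy, hym, Matrix.toLin'_one]
    rfl
  obtain ⟨m₀, rfl⟩ : ∃ m₀, m = m₀ + 1 := ⟨m - 1, by omega⟩
  let g : GL (Fin n) F := ⟨M, M ^ m₀, by rw [← pow_succ', hMm], by rw [← pow_succ, hMm]⟩
  have hgm : g ^ (m₀ + 1) = 1 := by
    apply Units.ext
    rw [Units.val_pow_eq_pow_val, Units.val_one]
    exact hMm
  refine ⟨g, ?_, ?_⟩
  · show M.charpoly = f
    rw [← Matrix.charpoly_toLin', hMy, hyχ]
  · exact Nat.Coprime.coprime_dvd_left (orderOf_dvd_of_pow_eq_one hgm) hmcop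

/-- Monic polynomials of degree `n` whose constant coefficient satisfies `a`. -/
def Pol (F : Type*) [Field F] (n : ℕ) (a : F → Prop) : Type _ :=
  {f : F[X] // f.Monic ∧ f.natDegree = n ∧ a (f.coeff 0)}

theorem card_Pol {F : Type*} [Field F] [Fintype F] (n : ℕ) (a : F → Prop) :
    Nat.card (Pol F (n + 1) a) = Nat.card {c : F // a c} * Fintype.card F ^ n := by
  classical
  let Φ : Pol F (n + 1) a → {c : F // a c} × (Fin n → F) :=
    fun f => (⟨f.1.coeff 0, f.2.2.2⟩, fun i => f.1.coeff ((i : ℕ) + 1))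
  have hinj : Function.Injective Φ := by
    intro f f' h
    have h0 : f.1.coeff 0 = f'.1.coeff 0 := congrArg (fun u => (u.1 : F)) h
    have h1 : ∀ i : Fin n, f.1.coeff ((i : ℕ) + 1) = f'.1.coeff ((i : ℕ) + 1) :=
      fun i => congrFun (congrArg Prod.snd h) i
    apply Subtype.ext
    ext k
    rcases Nat.lt_trichotomy k (n + 1) with hk | hk | hk
    · rcases Nat.eq_zero_or_pos k with hk0 | hkpos
      · rw [hk0]
        exact h0
      · obtain ⟨j, rfl⟩ : ∃ j, k = j + 1 := ⟨k - 1, by omega⟩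
        exact h1 ⟨j, by omega⟩
    · have e1 : f.1.coeff k = 1 := by
        have := f.2.1
        rw [Polynomial.Monic, Polynomial.leadingCoeff, f.2.2.1] at this
        rw [hk]
        exact this
      have e2 : f'.1.coeff k = 1 := by
        have := f'.2.1
        rw [Polynomial.Monic, Polynomial.leadingCoeff, f'.2.2.1] at this
        rw [hk]
        exact this
      rw [e1, e2]
    · rw [Polynomial.coeff_eq_zero_of_natDegree_lt (by rw [f.2.2.1]; exact hk),
        Polynomial.coeff_eq_zero_of_natDegree_lt (by rw [f'.2.2.1]; exact hk)]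
  have hsurj : Function.Surjective Φ := by
    rintro ⟨⟨c, hc⟩, t⟩
    set R : F[X] := C c + ∑ i : Fin n, C (t i) * X ^ ((i : ℕ) + 1) with hR
    have hRcoeff : ∀ k, R.coeff k = (if k = 0 then c else 0) +
        ∑ i : Fin n, (if k = (i : ℕ) + 1 then t i else 0) := by
      intro k
      rw [hR, Polynomial.coeff_add, Polynomial.coeff_C, Polynomial.finset_sum_coeff]
      congr 1
      apply Finset.sum_congr rfl
      intro i _
      rw [Polynomial.coeff_C_mul, Polynomial.coeff_X_pow]
      split_ifs <;> simp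
    have hRdeg : R.degree < ((n + 1 : ℕ) : WithBot ℕ) := by
      rw [Polynomial.degree_lt_iff_coeff_zero]
      intro k hk
      rw [hRcoeff, if_neg (by omega), zero_add]
      apply Finset.sum_eq_zero
      intro i _
      rw [if_neg]
      have := i.2
      omega
    have hmon : (X ^ (n + 1) + R).Monic := Polynomial.monic_X_pow_add hRdeg
    have hnat : (X ^ (n + 1) + R).natDegree = n + 1 := by
      have h1 : (X ^ (n + 1) + R).degree = ((n + 1 : ℕ) : WithBot ℕ) := by
        rw [add_comm]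
        rw [Polynomial.degree_add_eq_right_of_degree_lt]
        · exact Polynomial.degree_X_pow (n + 1)
        · rw [Polynomial.degree_X_pow]
          exact hRdeg
      exact Polynomial.natDegree_eq_of_degree_eq_some h1
    have hcoeff0 : (X ^ (n + 1) + R).coeff 0 = c := by
      rw [Polynomial.coeff_add, Polynomial.coeff_X_pow, if_neg (by omega), zero_add, hRcoeff,
        if_pos rfl]
      rw [Finset.sum_eq_zero, add_zero]
      intro i _
      rw [if_neg (by omega)]
    have hcoeffS : ∀ j : Fin n, (X ^ (n + 1) + R).coeff ((j : ℕ) + 1) = t j := by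
      intro j
      rw [Polynomial.coeff_add, Polynomial.coeff_X_pow, if_neg (by have := j.2; omega), zero_add,
        hRcoeff, if_neg (by omega), zero_add]
      rw [Finset.sum_eq_single j]
      · rw [if_pos rfl]
      · intro i _ hij
        rw [if_neg]
        intro h
        apply hij
        apply Fin.ext
        omega
      · intro h
        exact absurd (Finset.mem_univ j) h
    refine ⟨⟨X ^ (n + 1) + R, hmon, hnat, by rw [hcoeff0]; exact hc⟩, ?_⟩
    apply Prod.ext
    · apply Subtype.ext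
      exact hcoeff0
    · funext j
      exact hcoeffS j
  rw [Nat.card_congr (Equiv.ofBijective Φ ⟨hinj, hsurj⟩), Nat.card_prod, Nat.card_fun,
    Nat.card_eq_fintype_card (α := F), Nat.card_eq_fintype_card (α := Fin n), Fintype.card_fin]

theorem charpoly_mem {F : Type*} [Field F] [Fintype F] {n : ℕ} (g : GL (Fin n) F) :
    (g : Matrix (Fin n) (Fin n) F).charpoly.Monic ∧
    (g : Matrix (Fin n) (Fin n) F).charpoly.natDegree = n ∧
    (g : Matrix (Fin n) (Fin n) F).charpoly.coeff 0 ≠ 0 := by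
  refine ⟨Matrix.charpoly_monic _, ?_, ?_⟩
  · rw [Matrix.charpoly_natDegree_eq_dim, Fintype.card_fin]
  · intro h
    have h1 := Matrix.det_eq_sign_charpoly_coeff (g : Matrix (Fin n) (Fin n) F)
    rw [h, mul_zero] at h1
    have h2 := (Matrix.isUnit_iff_isUnit_det _).mp g.isUnit
    exact h2.ne_zero h1

theorem charpoly_conj_eq {F : Type*} [Field F] [Fintype F] {n : ℕ} (g g' : GL (Fin n) F)
    (h : ConjClasses.mk g = ConjClasses.mk g') :
    (g : Matrix (Fin n) (Fin n) F).charpoly = (g' : Matrix (Fin n) (Fin n) F).charpoly := by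
  rw [ConjClasses.mk_eq_mk_iff_isConj, isConj_iff] at h
  obtain ⟨c, hc⟩ := h
  rw [← hc, Units.val_mul, Units.val_mul, Matrix.coe_units_inv]
  exact (Matrix.charpoly_units_conj c (g : Matrix (Fin n) (Fin n) F)).symm

theorem result {F : Type*} [Field F] [Fintype F] {q : ℕ} (hq : Fintype.card F = q) (p : ℕ) [Fact p.Prime] [CharP F p] (n : ℕ) (hn : 1 ≤ n) :
    Nat.card {c : ConjClasses (GL (Fin n) F) // ∃ g : GL (Fin n) F, ConjClasses.mk g = c ∧ (orderOf g).Coprime p} = (q - 1) * q ^ (n - 1) := by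
  classical
  obtain ⟨n, rfl⟩ : ∃ n', n = n' + 1 := ⟨n - 1, by omega⟩
  let Ψ : {c : ConjClasses (GL (Fin (n + 1)) F) //
      ∃ g : GL (Fin (n + 1)) F, ConjClasses.mk g = c ∧ (orderOf g).Coprime p} →
      Pol F (n + 1) (fun c => c ≠ 0) :=
    fun c => ⟨((Classical.choose c.2 : GL (Fin (n + 1)) F) :
      Matrix (Fin (n + 1)) (Fin (n + 1)) F).charpoly, charpoly_mem _⟩
  have hΨ : ∀ c, (Ψ c).1 = ((Classical.choose c.2 : GL (Fin (n + 1)) F) :
      Matrix (Fin (n + 1)) (Fin (n + 1)) F).charpoly := fun c => rfl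
  have hinj : Function.Injective Ψ := by
    intro c c' h
    have h1 := congrArg Subtype.val h
    rw [hΨ, hΨ] at h1
    obtain ⟨hc1, hc2⟩ := Classical.choose_spec c.2
    obtain ⟨hc1', hc2'⟩ := Classical.choose_spec c'.2
    obtain ⟨E, hE⟩ := Cfsg.Agent.S2388.gl_conj_of_charpoly (p := p) _ _ hc2 hc2' h1
    apply Subtype.ext
    rw [← hc1, ← hc1', ConjClasses.mk_eq_mk_iff_isConj, isConj_iff]
    exact ⟨E, hE⟩
  have hsurj : Function.Surjective Ψ := by
    intro f
    obtain ⟨g₀, hg₀χ, hg₀⟩ := exists_gl (p := p) (n + 1) f.1 f.2.1 f.2.2.1 f.2.2.2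
    refine ⟨⟨ConjClasses.mk g₀, g₀, rfl, hg₀⟩, ?_⟩
    apply Subtype.ext
    rw [hΨ, ← hg₀χ]
    exact charpoly_conj_eq _ _ (Classical.choose_spec
      (⟨ConjClasses.mk g₀, g₀, rfl, hg₀⟩ : {c : ConjClasses (GL (Fin (n + 1)) F) //
      ∃ g : GL (Fin (n + 1)) F, ConjClasses.mk g = c ∧ (orderOf g).Coprime p}).2).1
  rw [Nat.card_congr (Equiv.ofBijective Ψ ⟨hinj, hsurj⟩), card_Pol, hq,
    Nat.card_congr (unitsEquivNeZero (G₀ := F)).symm, Nat.card_units, Nat.card_eq_fintype_card, hq,
    Nat.add_sub_cancel]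

end Cfsg.Agent.S2387
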