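import Cfsg.Statements.S2384
import Cfsg.Agent.S2387

set_option autoImplicit false
open Cfsg

set_option maxHeartbeats 1000000
namespace Cfsg.Agent.S2384

open Polynomial

theorem toGL_inj {F : Type*} [Field F] {n : ℕ} :
    Function.Injective (Matrix.SpecialLinearGroup.toGL :
    Matrix.SpecialLinearGroup (Fin n) F →* GL (Fin n) F) := by
  intro a b hab
  apply Subtype.ext
  have h1 := congrArg (fun u : GL (Fin n) F => (u : Matrix (Fin n) (Fin n) F)) hab
  exact h1

theorem charpoly_mem_sl {F : Type*} [Field F] [Fintype F] {n : ℕ}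
    (s : Matrix.SpecialLinearGroup (Fin n) F) :
    (s : Matrix (Fin n) (Fin n) F).charpoly.Monic ∧
    (s : Matrix (Fin n) (Fin n) F).charpoly.natDegree = n ∧
    (s : Matrix (Fin n) (Fin n) F).charpoly.coeff 0 = (-1) ^ n := by
  refine ⟨Matrix.charpoly_monic _, ?_, ?_⟩
  · rw [Matrix.charpoly_natDegree_eq_dim, Fintype.card_fin]
  · have h1 := Matrix.det_eq_sign_charpoly_coeff (s : Matrix (Fin n) (Fin n) F)
    rw [s.2, Fintype.card_fin] at h1
    have h2 : ((-1 : F) ^ n) * ((-1 : F) ^ n) = 1 := by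
      rw [← mul_pow]
      norm_num
    calc (s : Matrix (Fin n) (Fin n) F).charpoly.coeff 0
        = ((-1 : F) ^ n) * (((-1 : F) ^ n) * (s : Matrix (Fin n) (Fin n) F).charpoly.coeff 0) := by
          rw [← mul_assoc, h2, one_mul]
      _ = (-1) ^ n := by rw [← h1, mul_one]

theorem result {F : Type*} [Field F] [Fintype F] {q : ℕ} (hq : Fintype.card F = q) (p : ℕ) [Fact p.Prime] [CharP F p] (n : ℕ) (hn : 1 ≤ n) :
    Nat.card {c : ConjClasses (Matrix.SpecialLinearGroup (Fin n) F) //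
      ∃ g : Matrix.SpecialLinearGroup (Fin n) F, ConjClasses.mk g = c ∧ (orderOf g).Coprime p} = q ^ (n - 1) := by
  classical
  obtain ⟨n, rfl⟩ : ∃ n', n = n' + 1 := ⟨n - 1, by omega⟩
  let Ψ : {c : ConjClasses (Matrix.SpecialLinearGroup (Fin (n + 1)) F) //
      ∃ g : Matrix.SpecialLinearGroup (Fin (n + 1)) F, ConjClasses.mk g = c ∧
        (orderOf g).Coprime p} →
      Cfsg.Agent.S2387.Pol F (n + 1) (fun c => c = (-1) ^ (n + 1)) :=
    fun c => ⟨((Classical.choose c.2 : Matrix.SpecialLinearGroup (Fin (n + 1)) F) :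
      Matrix (Fin (n + 1)) (Fin (n + 1)) F).charpoly, charpoly_mem_sl _⟩
  have hΨ : ∀ c, (Ψ c).1 = ((Classical.choose c.2 : Matrix.SpecialLinearGroup (Fin (n + 1)) F) :
      Matrix (Fin (n + 1)) (Fin (n + 1)) F).charpoly := fun c => rfl
  have hinj : Function.Injective Ψ := by
    intro c c' h
    have h1 := congrArg Subtype.val h
    rw [hΨ, hΨ] at h1
    obtain ⟨hc1, hc2⟩ := Classical.choose_spec c.2
    obtain ⟨hc1', hc2'⟩ := Classical.choose_spec c'.2
    have hconj := Cfsg.Agent.S2388.result p (n + 1) _ _ hc2 hc2' h1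
    apply Subtype.ext
    rw [← hc1, ← hc1', ConjClasses.mk_eq_mk_iff_isConj]
    exact hconj
  have hsurj : Function.Surjective Ψ := by
    intro f
    have hf0 : f.1.coeff 0 ≠ 0 := by
      rw [f.2.2.2]
      exact pow_ne_zero _ (neg_ne_zero.mpr one_ne_zero)
    obtain ⟨g₀, hg₀χ, hg₀⟩ := Cfsg.Agent.S2387.exists_gl (p := p) (n + 1) f.1 f.2.1 f.2.2.1 hf0
    have hdet : (g₀ : Matrix (Fin (n + 1)) (Fin (n + 1)) F).det = 1 := by
      rw [Matrix.det_eq_sign_charpoly_coeff, hg₀χ, f.2.2.2, Fintype.card_fin, ← mul_pow]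
      norm_num
    let s₀ : Matrix.SpecialLinearGroup (Fin (n + 1)) F :=
      ⟨(g₀ : Matrix (Fin (n + 1)) (Fin (n + 1)) F), hdet⟩
    have hs₀ : Matrix.SpecialLinearGroup.toGL s₀ = g₀ := by
      apply Units.ext
      rfl
    have hos₀ : orderOf s₀ = orderOf g₀ := by
      rw [← hs₀]
      exact (orderOf_injective _ toGL_inj s₀).symm
    have hmem : ∃ g : Matrix.SpecialLinearGroup (Fin (n + 1)) F,
        ConjClasses.mk g = ConjClasses.mk s₀ ∧ (orderOf g).Coprime p :=
      ⟨s₀, rfl, by rw [hos₀]; exact hg₀⟩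
    refine ⟨⟨ConjClasses.mk s₀, hmem⟩, ?_⟩
    apply Subtype.ext
    rw [hΨ, ← hg₀χ]
    have h1 := (Classical.choose_spec hmem).1
    rw [ConjClasses.mk_eq_mk_iff_isConj] at h1
    have h2 := (Matrix.SpecialLinearGroup.toGL (n := Fin (n + 1)) (R := F)).map_isConj h1
    rw [hs₀] at h2
    have h3 := Cfsg.Agent.S2387.charpoly_conj_eq _ _ (ConjClasses.mk_eq_mk_iff_isConj.mpr h2)
    rw [Matrix.SpecialLinearGroup.coe_GL_coe_matrix] at h3
    exact h3
  rw [Nat.card_congr (Equiv.ofBijective Ψ ⟨hinj, hsurj⟩), Cfsg.Agent.S2387.card_Pol, hq,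
    Nat.card_eq_fintype_card, Fintype.card_subtype_eq, one_mul, Nat.add_sub_cancel]

end Cfsg.Agent.S2384
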