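import Cfsg.Statements.S2391
import Mathlib

set_option autoImplicit false
open Cfsg

namespace Cfsg.Agent.S2391

/-- the ascending series of the `U`-module `F^n` -/
def Wser {F : Type*} [Field F] {n : ℕ} (U : Subgroup (Matrix.SpecialLinearGroup (Fin n) F)) :
    ℕ → Submodule F (Fin n → F)
  | 0 => ⊥
  | (i + 1) =>
    { carrier := {v | ∀ u ∈ U, (u : Matrix (Fin n) (Fin n) F).mulVec v - v ∈ Wser U i}
      add_mem' := by
        intro a b ha hb u hu
        have := (Wser U i).add_mem (ha u hu) (hb u hu)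
        rw [Matrix.mulVec_add]
        convert this using 1
        abel
      zero_mem' := by
        intro u hu
        simp
      smul_mem' := by
        intro c v hv u hu
        have := (Wser U i).smul_mem c (hv u hu)
        rw [Matrix.mulVec_smul]
        convert this using 1
        rw [smul_sub] }

theorem mem_Wser_succ {F : Type*} [Field F] {n : ℕ}
    (U : Subgroup (Matrix.SpecialLinearGroup (Fin n) F)) (i : ℕ) (v : Fin n → F) :
    v ∈ Wser U (i + 1) ↔ ∀ u ∈ U, (u : Matrix (Fin n) (Fin n) F).mulVec v - v ∈ Wser U i :=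
  Iff.rfl

theorem Wser_zero {F : Type*} [Field F] {n : ℕ}
    (U : Subgroup (Matrix.SpecialLinearGroup (Fin n) F)) : Wser U 0 = ⊥ := rfl

theorem Wser_mono {F : Type*} [Field F] {n : ℕ}
    (U : Subgroup (Matrix.SpecialLinearGroup (Fin n) F)) (i : ℕ) : Wser U i ≤ Wser U (i + 1) := by
  induction i with
  | zero => rw [Wser_zero]; exact bot_le
  | succ i ih =>
    intro v hv
    rw [mem_Wser_succ] at hv ⊢
    intro u hu
    exact ih (hv u hu)

theorem Wser_inv {F : Type*} [Field F] {n : ℕ}
    (U : Subgroup (Matrix.SpecialLinearGroup (Fin n) F)) (i : ℕ)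
    (u : Matrix.SpecialLinearGroup (Fin n) F) (hu : u ∈ U) (v : Fin n → F) (hv : v ∈ Wser U i) :
    (u : Matrix (Fin n) (Fin n) F).mulVec v ∈ Wser U i := by
  cases i with
  | zero =>
    rw [Wser_zero] at hv ⊢
    have : v = 0 := (Submodule.mem_bot F).mp hv
    rw [this, Matrix.mulVec_zero]
    exact Submodule.zero_mem _
  | succ i =>
    have h1 := (mem_Wser_succ U i v).mp hv u hu
    have h2 := Wser_mono U i h1
    have := (Wser U (i + 1)).add_mem h2 hv
    rwa [sub_add_cancel] at this

/-- the action of `U` on the quotient by an invariant subspace -/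
def quotAct {F : Type*} [Field F] {n : ℕ} (U : Subgroup (Matrix.SpecialLinearGroup (Fin n) F))
    (W : Submodule F (Fin n → F))
    (hW : ∀ u ∈ U, ∀ v ∈ W, (u : Matrix (Fin n) (Fin n) F).mulVec v ∈ W) :
    MulAction ↥U ((Fin n → F) ⧸ W) where
  smul u x := W.mapQ W (Matrix.mulVecLin (u.1 : Matrix (Fin n) (Fin n) F))
    (fun v hv => hW u.1 u.2 v hv) x
  one_smul x := by
    induction x using Submodule.Quotient.induction_on with
    | _ v =>
      show (Submodule.Quotient.mk (Matrix.mulVecLin (((1 : ↥U) : Matrix.SpecialLinearGroup (Fin n) F) :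
        Matrix (Fin n) (Fin n) F) v) : (Fin n → F) ⧸ W) = Submodule.Quotient.mk v
      congr 1
      simp
  mul_smul a b x := by
    induction x using Submodule.Quotient.induction_on with
    | _ v =>
      show (Submodule.Quotient.mk (Matrix.mulVecLin (((a * b : ↥U) : Matrix.SpecialLinearGroup (Fin n) F) :
        Matrix (Fin n) (Fin n) F) v) : (Fin n → F) ⧸ W) =
        Submodule.Quotient.mk (Matrix.mulVecLin ((a : Matrix.SpecialLinearGroup (Fin n) F) :
          Matrix (Fin n) (Fin n) F) (Matrix.mulVecLin ((b : Matrix.SpecialLinearGroup (Fin n) F) :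
          Matrix (Fin n) (Fin n) F) v))
      congr 1
      simp [Matrix.mulVec_mulVec]

theorem Wser_strict {F : Type*} [Field F] [Fintype F] (p : ℕ) [Fact p.Prime] [CharP F p] {n : ℕ}
    (U : Subgroup (Matrix.SpecialLinearGroup (Fin n) F)) (hU : IsPGroup p ↥U) (i : ℕ)
    (hne : Wser U i ≠ ⊤) : Wser U i < Wser U (i + 1) := by
  classical
  letI := quotAct U (Wser U i) (fun u hu v hv => Wser_inv U i u hu v hv)
  obtain ⟨v0, hv0⟩ : ∃ v, v ∉ Wser U i := by
    by_contra h
    push Not at h
    exact hne (eq_top_iff.mpr (fun v _ => h v))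
  have hpcard : p ∣ Nat.card ((Fin n → F) ⧸ Wser U i) := by
    have hx : (Submodule.Quotient.mk v0 : (Fin n → F) ⧸ Wser U i) ≠ 0 := by
      rw [Ne, Submodule.Quotient.mk_eq_zero]; exact hv0
    have hpx : p • (Submodule.Quotient.mk v0 : (Fin n → F) ⧸ Wser U i) = 0 := by
      rw [← Nat.cast_smul_eq_nsmul F, CharP.cast_eq_zero, zero_smul]
    rw [← addOrderOf_eq_prime hpx hx]
    exact addOrderOf_dvd_natCard _
  have h0 : (0 : (Fin n → F) ⧸ Wser U i) ∈
      MulAction.fixedPoints ↥U ((Fin n → F) ⧸ Wser U i) := by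
    intro u
    show (Wser U i).mapQ (Wser U i) _ _ 0 = 0
    exact map_zero _
  obtain ⟨b, hb, hb0⟩ := hU.exists_fixed_point_of_prime_dvd_card_of_fixed_point _ hpcard h0
  induction b using Submodule.Quotient.induction_on with
  | _ v =>
    refine lt_of_le_of_ne (Wser_mono U i) ?_
    intro heq
    have hv : v ∈ Wser U (i + 1) := by
      rw [mem_Wser_succ]
      intro u hu
      have h2 : (Submodule.Quotient.mk ((u : Matrix (Fin n) (Fin n) F).mulVec v) :
          (Fin n → F) ⧸ Wser U i) = Submodule.Quotient.mk v := hb ⟨u, hu⟩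
      rwa [Submodule.Quotient.eq] at h2
    rw [← heq] at hv
    apply hb0
    rw [eq_comm, Submodule.Quotient.mk_eq_zero]
    exact hv

theorem result {F : Type*} [Field F] [Fintype F] (p : ℕ) [Fact p.Prime] [CharP F p] (n : ℕ)
    (U : Subgroup (Matrix.SpecialLinearGroup (Fin n) F)) (hU : IsPGroup p ↥U) (hne : U ≠ ⊥) :
    ∃ (k : ℕ) (V : Fin (k + 2) → Submodule F (Fin n → F)), 1 ≤ k ∧ StrictMono V ∧ V 0 = ⊥ ∧ V (Fin.last (k + 1)) = ⊤ ∧
      (∀ g ∈ Subgroup.normalizer (U : Set (Matrix.SpecialLinearGroup (Fin n) F)), ∀ i, (V i).map (Matrix.mulVecLin (g : Matrix (Fin n) (Fin n) F)) = V i) ∧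
      (∀ u ∈ U, ∀ i : Fin (k + 1), ∀ v ∈ V i.succ, (u : Matrix (Fin n) (Fin n) F).mulVec v - v ∈ V (Fin.castSucc i)) := by
  classical
  have hp : p.Prime := Fact.out
  have hN : ∀ i, ∀ g ∈ Subgroup.normalizer (U : Set (Matrix.SpecialLinearGroup (Fin n) F)),
      ∀ v ∈ Wser U i, (g : Matrix (Fin n) (Fin n) F).mulVec v ∈ Wser U i := by
    intro i
    induction i with
    | zero =>
      intro g _ v hv
      rw [Wser_zero] at hv ⊢
      have : v = 0 := (Submodule.mem_bot F).mp hv
      rw [this, Matrix.mulVec_zero]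
      exact Submodule.zero_mem _
    | succ i ih =>
      intro g hg v hv
      rw [mem_Wser_succ] at hv ⊢
      intro u hu
      have hu' : g⁻¹ * u * g ∈ U := (Subgroup.mem_set_normalizer_iff''.mp hg u).mp hu
      have h1 := ih g hg _ (hv _ hu')
      have e : g * (g⁻¹ * u * g) = u * g := by group
      have h2 : (g : Matrix (Fin n) (Fin n) F).mulVec
          (((g⁻¹ * u * g : Matrix.SpecialLinearGroup (Fin n) F) : Matrix (Fin n) (Fin n) F).mulVec v - v) =
          (u : Matrix (Fin n) (Fin n) F).mulVec ((g : Matrix (Fin n) (Fin n) F).mulVec v) -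
            (g : Matrix (Fin n) (Fin n) F).mulVec v := by
        rw [Matrix.mulVec_sub, Matrix.mulVec_mulVec, Matrix.mulVec_mulVec,
          ← Matrix.SpecialLinearGroup.coe_mul, ← Matrix.SpecialLinearGroup.coe_mul, e]
      rw [← h2]
      exact h1
  -- W 1 ≠ ⊤
  have hW1 : Wser U 1 ≠ ⊤ := by
    intro htop
    obtain ⟨⟨u, hu⟩, hu1⟩ := (Subgroup.ne_bot_iff_exists_ne_one).mp hne
    apply hu1
    apply Subtype.ext
    apply Subtype.ext
    show (u : Matrix (Fin n) (Fin n) F) = 1
    apply Matrix.mulVec_injective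
    funext v
    have hv : v ∈ Wser U 1 := by rw [htop]; trivial
    have := (mem_Wser_succ U 0 v).mp hv u hu
    rw [Wser_zero] at this
    rw [Matrix.one_mulVec]
    exact sub_eq_zero.mp ((Submodule.mem_bot F).mp this)
  have hrank : ∀ i, Wser U i = ⊤ ∨ i ≤ Module.finrank F (Wser U i) := by
    intro i
    induction i with
    | zero => right; exact Nat.zero_le _
    | succ i ih =>
      rcases ih with h | h
      · left
        exact eq_top_iff.mpr (h ▸ Wser_mono U i)
      · by_cases htop : Wser U i = ⊤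
        · left
          exact eq_top_iff.mpr (htop ▸ Wser_mono U i)
        · right
          have := Submodule.finrank_lt_finrank_of_lt (Wser_strict p U hU i htop)
          omega
  have hex : ∃ m, Wser U m = ⊤ := by
    refine ⟨n + 1, ?_⟩
    rcases hrank (n + 1) with h | h
    · exact h
    · exfalso
      have := Submodule.finrank_le (Wser U (n + 1))
      rw [Module.finrank_fin_fun] at this
      omega
  have hm0 : Nat.find hex ≠ 0 := by
    intro h
    have h0 := Nat.find_spec hex
    rw [h] at h0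
    exact hW1 (eq_top_iff.mpr (h0 ▸ Wser_mono U 0))
  have hm1 : Nat.find hex ≠ 1 := by
    intro h
    have h0 := Nat.find_spec hex
    rw [h] at h0
    exact hW1 h0
  obtain ⟨k, hk⟩ : ∃ k, Nat.find hex = k + 1 := ⟨Nat.find hex - 1, by omega⟩
  refine ⟨k, fun j => Wser U j.val, by omega, ?_, rfl, ?_, ?_, ?_⟩
  · rw [Fin.strictMono_iff_lt_succ]
    intro i
    have hi : Wser U i.val ≠ ⊤ := Nat.find_min hex (by rw [hk]; exact i.2)
    have := Wser_strict p U hU i.val hi
    simpa using this
  · have := Nat.find_spec hex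
    rw [hk] at this
    simpa using this
  · intro g hg i
    apply le_antisymm
    · rintro _ ⟨v, hv, rfl⟩
      exact hN _ g hg v hv
    · intro w hw
      refine ⟨(g⁻¹ : Matrix.SpecialLinearGroup (Fin n) F).1.mulVec w,
        hN _ g⁻¹ (Subgroup.inv_mem _ hg) w hw, ?_⟩
      rw [Matrix.mulVecLin_apply, Matrix.mulVec_mulVec, ← Matrix.SpecialLinearGroup.coe_mul,
        mul_inv_cancel, Matrix.SpecialLinearGroup.coe_one, Matrix.one_mulVec]
  · intro u hu i v hv
    have hv' : v ∈ Wser U (i.val + 1) := by simpa using hv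
    have := (mem_Wser_succ U i.val v).mp hv' u hu
    simpa using this

end Cfsg.Agent.S2391
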