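import Cfsg.Statements.S2403
import Cfsg.Agent.Lib.Helper1.SLn

set_option autoImplicit false
open Cfsg


namespace Cfsg.Agent.S2403

open Matrix
open scoped Fin.CommRing

variable {K : Type*} [Field K]

def eps (n : ℕ) (s : Fin (n + 1)) : K := if s = 0 then (-1) ^ n else 1

theorem eps_sq (n : ℕ) (s : Fin (n + 1)) : (eps n s : K) * eps n s = 1 := by
  unfold eps
  split_ifs
  · rw [← mul_pow]; simp
  · simp

theorem w_entry (n : ℕ) (r s : Fin (n + 1)) :
    (if s.val = r.val + 1 then (1 : K) else if r.val = n ∧ s.val = 0 then (-1) ^ n else 0)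
      = if s = r + 1 then eps n s else 0 := by
  have hv := Fin.val_add_one r
  by_cases h1 : s.val = r.val + 1
  · have hr : r ≠ Fin.last n := by
      intro h
      have : r.val = n := by rw [h]; rfl
      have := s.isLt
      omega
    rw [if_neg hr] at hv
    have hs : s = r + 1 := Fin.ext (by rw [hv, h1])
    have hs0 : s ≠ 0 := by
      intro h
      rw [h] at h1
      simp at h1
    rw [if_pos h1, if_pos hs, eps, if_neg hs0]
  · rw [if_neg h1]
    by_cases h2 : r.val = n ∧ s.val = 0
    · have hr : r = Fin.last n := Fin.ext h2.1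
      rw [if_pos hr] at hv
      have hs : s = r + 1 := Fin.ext (by rw [hv, h2.2])
      have hs0 : s = 0 := Fin.ext h2.2
      rw [if_pos h2, if_pos hs, eps, if_pos hs0]
    · rw [if_neg h2]
      have hs : s ≠ r + 1 := by
        intro h
        have hsv : s.val = (r + 1).val := by rw [h]
        rw [hv] at hsv
        by_cases hr : r = Fin.last n
        · rw [if_pos hr] at hsv
          exact h2 ⟨by rw [hr]; rfl, hsv⟩
        · rw [if_neg hr] at hsv
          exact h1 hsv
      rw [if_neg hs]

theorem conj_single (n : ℕ) (W : Matrix (Fin (n + 1)) (Fin (n + 1)) K)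
    (hW : ∀ r s, W r s = if s = r + 1 then eps n s else 0) (a b : Fin (n + 1)) (c : K) :
    W * Matrix.single a b c = Matrix.single (a - 1) (b - 1) (c * eps n a * eps n b) * W := by
  ext r s
  rw [Matrix.mul_apply, Matrix.mul_apply]
  rw [Finset.sum_eq_single a, Finset.sum_eq_single (b - 1)]
  · rw [hW, hW]
    simp only [Matrix.single_apply]
    by_cases hs : s = b
    · subst hs
      by_cases hr : r = a - 1
      · subst hr
        simp
        have := eps_sq (K := K) n s
        linear_combination (-(c * eps n a)) * this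
      · have hr' : ¬ a = r + 1 := fun h => hr (by rw [h]; ring)
        have hr'' : ¬ a - 1 = r := fun h => hr h.symm
        simp [hr', hr'']
    · have hs' : ¬ s = b - 1 + 1 := fun h => hs (by rw [h]; ring)
      have hs'' : ¬ b = s := fun h => hs h.symm
      simp [hs', hs'']
      intro h; exact absurd h hs
  · intro k _ hk
    simp [Matrix.single_apply, hk.symm]
  · intro h; exact absurd (Finset.mem_univ _) h
  · intro k _ hk
    have hk' : ¬ a = k := fun h => hk h.symm
    simp [Matrix.single_apply, hk']
  · intro h; exact absurd (Finset.mem_univ _) h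

theorem conj_T (n : ℕ) (w : Matrix.SpecialLinearGroup (Fin (n + 1)) K)
    (hW : ∀ r s, (w : Matrix (Fin (n + 1)) (Fin (n + 1)) K) r s = if s = r + 1 then eps n s else 0)
    {a b : Fin (n + 1)} (hab : a ≠ b) (hab' : a - 1 ≠ b - 1) (c : K) :
    w * Matrix.SpecialLinearGroup.transvection hab c * w⁻¹
      = Matrix.SpecialLinearGroup.transvection hab' (c * eps n a * eps n b) := by
  rw [mul_inv_eq_iff_eq_mul]
  apply Subtype.ext
  show (w : Matrix (Fin (n + 1)) (Fin (n + 1)) K) * (1 + Matrix.single a b c)
    = (1 + Matrix.single (a - 1) (b - 1) (c * eps n a * eps n b)) * (w : Matrix (Fin (n + 1)) (Fin (n + 1)) K)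
  rw [mul_add, add_mul, mul_one, one_mul, conj_single n _ hW]

theorem main [Fintype K] (hK : Fintype.card K ≤ 3) (n : ℕ) (hn : 1 ≤ n)
    (x w : Matrix.SpecialLinearGroup (Fin (n + 1)) K)
    (hx : (x : Matrix (Fin (n + 1)) (Fin (n + 1)) K) = Matrix.transvection (0 : Fin (n + 1)) (1 : Fin (n + 1)) 1)
    (hw : (w : Matrix (Fin (n + 1)) (Fin (n + 1)) K) =
      Matrix.of (fun i j => if j.val = i.val + 1 then 1 else if i.val = n ∧ j.val = 0 then (-1) ^ n else 0)) :
    Subgroup.closure ({x, w} : Set (Matrix.SpecialLinearGroup (Fin (n + 1)) K)) ⊔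
      Subgroup.center (Matrix.SpecialLinearGroup (Fin (n + 1)) K) = ⊤ := by
  classical
  have hW : ∀ r s, (w : Matrix (Fin (n + 1)) (Fin (n + 1)) K) r s = if s = r + 1 then eps n s else 0 := by
    intro r s
    rw [hw]
    exact w_entry n r s
  obtain ⟨H, hH⟩ : ∃ H, H = Subgroup.closure ({x, w} : Set (Matrix.SpecialLinearGroup (Fin (n + 1)) K)) := ⟨_, rfl⟩
  have hxH : x ∈ H := by rw [hH]; exact Subgroup.subset_closure (by simp)
  have hwH : w ∈ H := by rw [hH]; exact Subgroup.subset_closure (by simp)
  -- scalars
  have hK3 : ∀ c : K, c = 0 ∨ c = 1 ∨ c = -1 := by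
    intro c
    by_cases hc : c = 0
    · exact Or.inl hc
    · right
      have h1 := FiniteField.pow_card_sub_one_eq_one c hc
      have hcard : Fintype.card K = 2 ∨ Fintype.card K = 3 := by
        have := Fintype.one_lt_card (α := K)
        omega
      rcases hcard with h | h
      · rw [h] at h1
        left
        simpa using h1
      · rw [h] at h1
        have h2 : (c - 1) * (c + 1) = 0 := by
          have : c ^ 2 = 1 := h1
          linear_combination this
        rcases mul_eq_zero.mp h2 with h | h
        · left; exact sub_eq_zero.mp h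
        · right; exact eq_neg_of_add_eq_zero_left h
  have h01 : (0 : Fin (n + 1)) ≠ 1 := by
    intro h
    have := congrArg Fin.val h
    rw [Fin.val_zero, Fin.val_one'] at this
    have h2 : 1 % (n + 1) = 1 := Nat.mod_eq_of_lt (by omega)
    omega
  have hxT : x = Matrix.SpecialLinearGroup.transvection h01 1 := Subtype.ext hx
  -- the predicate
  let P : Fin (n + 1) → Fin (n + 1) → Prop := fun a b =>
    ∀ (h : a ≠ b) (c : K), Matrix.SpecialLinearGroup.transvection h c ∈ H
  have hP01 : P 0 1 := by
    intro h c
    rcases hK3 c with rfl | rfl | rfl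
    · rw [Matrix.SpecialLinearGroup.transvection_coeff_zero]; exact H.one_mem
    · rw [← hxT]; exact hxH
    · rw [← Matrix.SpecialLinearGroup.transvection_inv, ← hxT]; exact H.inv_mem hxH
  have hshift : ∀ a b, P a b → P (a - 1) (b - 1) := by
    intro a b hab h c
    have hab' : a ≠ b := fun e => h (by rw [e])
    have hc := conj_T n w hW hab' h (c * eps n a * eps n b)
    have e : c * eps n a * eps n b * eps n a * eps n b = c := by
      have h1 := eps_sq (K := K) n a
      have h2 := eps_sq (K := K) n b
      linear_combination c * eps n b * eps n b * h1 + c * h2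
    rw [e] at hc
    rw [← hc]
    exact H.mul_mem (H.mul_mem hwH (hab hab' _)) (H.inv_mem hwH)
  have hshiftm : ∀ (m : ℕ) (a b : Fin (n + 1)), P a b → P (a - (m : Fin (n + 1))) (b - (m : Fin (n + 1))) := by
    intro m
    induction m with
    | zero => intro a b hab; simpa using hab
    | succ m ih =>
      intro a b hab
      have := hshift _ _ (ih a b hab)
      have e1 : a - ((m + 1 : ℕ) : Fin (n + 1)) = a - (m : Fin (n + 1)) - 1 := by
        push_cast; ring
      have e2 : b - ((m + 1 : ℕ) : Fin (n + 1)) = b - (m : Fin (n + 1)) - 1 := by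
        push_cast; ring
      rw [e1, e2]
      exact this
  have hstep1 : ∀ i : Fin (n + 1), P i (i + 1) := by
    intro i
    have := hshiftm ((-i).val) 0 1 hP01
    rw [Fin.cast_val_eq_self] at this
    have e1 : (0 : Fin (n + 1)) - -i = i := by ring
    have e2 : (1 : Fin (n + 1)) - -i = i + 1 := by ring
    rw [e1, e2] at this
    exact this
  have hcast : ∀ d : ℕ, 1 ≤ d → d ≤ n → ((d : ℕ) : Fin (n + 1)) ≠ 0 := by
    intro d hd1 hdn h
    rw [Fin.natCast_eq_zero] at h
    have := Nat.le_of_dvd (by omega) h
    omega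
  have hstepd : ∀ d : ℕ, 1 ≤ d → d ≤ n → ∀ i : Fin (n + 1), P i (i + (d : Fin (n + 1))) := by
    intro d hd1
    induction d, hd1 using Nat.le_induction with
    | base =>
      intro _ i
      simpa using hstep1 i
    | succ d hd1 ih =>
      intro hdn i
      have h1 := ih (by omega) i
      have h2 := hstep1 (i + (d : Fin (n + 1)))
      intro h c
      have hik : i ≠ i + (d : Fin (n + 1)) := by
        intro e
        apply hcast d hd1 (by omega)
        have : i + (d : Fin (n + 1)) - i = 0 := by rw [← e]; ring
        rw [← this]; ring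
      have hkj : i + (d : Fin (n + 1)) ≠ i + ((d + 1 : ℕ) : Fin (n + 1)) := by
        intro e
        apply h01
        have : i + ((d + 1 : ℕ) : Fin (n + 1)) - (i + (d : Fin (n + 1))) = 0 := by rw [← e]; ring
        push_cast at this
        have e3 : (1 : Fin (n + 1)) = i + ((d : Fin (n + 1)) + 1) - (i + (d : Fin (n + 1))) := by ring
        rw [e3, this]
      have hkj' : i + (d : Fin (n + 1)) ≠ i + (d : Fin (n + 1)) + 1 := by
        intro e
        apply hkj
        rw [e]; push_cast; ring
      have key := Cfsg.Agent.Lib.Helper1.SLn.transvection_eq_commutator h hik hkj c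
      rw [key, commutatorElement_def]
      have m1 := h1 hik c
      have m2 : Matrix.SpecialLinearGroup.transvection hkj (1 : K) ∈ H := by
        have e : i + ((d + 1 : ℕ) : Fin (n + 1)) = i + (d : Fin (n + 1)) + 1 := by push_cast; ring
        have := h2 hkj' 1
        convert this using 2
      exact H.mul_mem (H.mul_mem (H.mul_mem m1 m2) (H.inv_mem m1)) (H.inv_mem m2)
  have hall : ∀ (i j : Fin (n + 1)) (h : i ≠ j) (c : K),
      Matrix.SpecialLinearGroup.transvection h c ∈ H := by
    intro i j h c
    have hd : ((j - i).val : Fin (n + 1)) = j - i := Fin.cast_val_eq_self _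
    have hd0 : (j - i).val ≠ 0 := by
      intro e
      apply h
      have : j - i = 0 := Fin.ext e
      have e2 : j = j - i + i := by ring
      rw [e2, this, zero_add]
    have := hstepd (j - i).val (by omega) (by have := (j - i).isLt; omega) i
    rw [hd] at this
    have e : i + (j - i) = j := by ring
    rw [e] at this
    exact this h c
  haveI : Nontrivial (Fin (n + 1)) := ⟨⟨0, 1, h01⟩⟩
  have htop : H = ⊤ := by
    rw [eq_top_iff]
    intro A _
    exact Cfsg.Agent.Lib.Helper1.SLn.transvection_induction (fun A => A ∈ H) hall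
      (fun A B hA hB => H.mul_mem hA hB) A
  rw [← hH, htop]
  simp

theorem result {K : Type*} [Field K] [Fintype K] (hK : Fintype.card K ≤ 3) (n : ℕ) (hn : 1 ≤ n)
    (x w : Matrix.SpecialLinearGroup (Fin (n + 1)) K)
    (hx : (x : Matrix (Fin (n + 1)) (Fin (n + 1)) K) = Matrix.transvection (0 : Fin (n + 1)) (1 : Fin (n + 1)) 1)
    (hw : (w : Matrix (Fin (n + 1)) (Fin (n + 1)) K) =
      Matrix.of (fun i j => if j.val = i.val + 1 then 1 else if i.val = n ∧ j.val = 0 then (-1) ^ n else 0)) :
    Subgroup.closure ({x, w} : Set (Matrix.SpecialLinearGroup (Fin (n + 1)) K)) ⊔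
      Subgroup.center (Matrix.SpecialLinearGroup (Fin (n + 1)) K) = ⊤ := by
  exact main hK n hn x w hx hw

end Cfsg.Agent.S2403
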