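import Cfsg.Statements.S2402
import Cfsg.Agent.Lib.Helper1.SLn
import Cfsg.Agent.S2403

set_option autoImplicit false
open Cfsg


namespace Cfsg.Agent.S2402

open Matrix Cfsg.Agent.S2403
open scoped Fin.CommRing

variable {K : Type*} [Field K]

theorem sum_two_sq [Fintype K] (t : K) : ∃ a b : K, a ^ 2 + b ^ 2 = t := by
  classical
  rcases Nat.even_or_odd (Fintype.card K) with h | h
  · have h2 : ringChar K = 2 := FiniteField.even_card_iff_char_two.mpr (Nat.even_iff.mp h)
    obtain ⟨a, ha⟩ := FiniteField.isSquare_of_char_two h2 t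
    exact ⟨a, 0, by rw [ha]; ring⟩
  · obtain ⟨a, b, hab⟩ := FiniteField.exists_root_sum_quadratic (R := K)
      (f := Polynomial.X ^ 2) (g := Polynomial.X ^ 2 - Polynomial.C t)
      (Polynomial.degree_X_pow 2) (Polynomial.degree_X_pow_sub_C (by decide) _) (Nat.odd_iff.mp h)
    refine ⟨a, b, ?_⟩
    simp at hab
    linear_combination hab

theorem top_of_root (n : ℕ) (w : Matrix.SpecialLinearGroup (Fin (n + 1)) K)
    (hW : ∀ r s, (w : Matrix (Fin (n + 1)) (Fin (n + 1)) K) r s = if s = r + 1 then eps n s else 0)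
    (H : Subgroup (Matrix.SpecialLinearGroup (Fin (n + 1)) K)) (hwH : w ∈ H)
    (h01 : (0 : Fin (n + 1)) ≠ 1)
    (hP01' : ∀ c : K, Matrix.SpecialLinearGroup.transvection h01 c ∈ H) : H = ⊤ := by
  classical
  have hn : 1 ≤ n := by
    by_contra hn
    have : n = 0 := by omega
    subst this
    exact h01 (by decide)
  let P : Fin (n + 1) → Fin (n + 1) → Prop := fun a b =>
    ∀ (h : a ≠ b) (c : K), Matrix.SpecialLinearGroup.transvection h c ∈ H
  have hP01 : P 0 1 := fun h c => hP01' c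
  have hshift : ∀ a b, P a b → P (a - 1) (b - 1) := by
    intro a b hab h c
    have hab' : a ≠ b := fun e => h (by rw [e])
    have hc := conj_T n w hW hab' h (c * eps n a * eps n b)
    have e : c * eps n a * eps n b * eps n a * eps n b = c := by
      have h1 := eps_sq (K := K) n a
      have h2 := eps_sq (K := K) n b
      linear_combination c * eps n b * eps n b * h1 + c * h2
    rw [e] at hc
    rw [← hc]
    exact H.mul_mem (H.mul_mem hwH (hab hab' _)) (H.inv_mem hwH)
  have hshiftm : ∀ (m : ℕ) (a b : Fin (n + 1)), P a b → P (a - (m : Fin (n + 1))) (b - (m : Fin (n + 1))) := by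
    intro m
    induction m with
    | zero => intro a b hab; simpa using hab
    | succ m ih =>
      intro a b hab
      have := hshift _ _ (ih a b hab)
      have e1 : a - ((m + 1 : ℕ) : Fin (n + 1)) = a - (m : Fin (n + 1)) - 1 := by
        push_cast; ring
      have e2 : b - ((m + 1 : ℕ) : Fin (n + 1)) = b - (m : Fin (n + 1)) - 1 := by
        push_cast; ring
      rw [e1, e2]
      exact this
  have hstep1 : ∀ i : Fin (n + 1), P i (i + 1) := by
    intro i
    have := hshiftm ((-i).val) 0 1 hP01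
    rw [Fin.cast_val_eq_self] at this
    have e1 : (0 : Fin (n + 1)) - -i = i := by ring
    have e2 : (1 : Fin (n + 1)) - -i = i + 1 := by ring
    rw [e1, e2] at this
    exact this
  have hcast : ∀ d : ℕ, 1 ≤ d → d ≤ n → ((d : ℕ) : Fin (n + 1)) ≠ 0 := by
    intro d hd1 hdn h
    rw [Fin.natCast_eq_zero] at h
    have := Nat.le_of_dvd (by omega) h
    omega
  have hstepd : ∀ d : ℕ, 1 ≤ d → d ≤ n → ∀ i : Fin (n + 1), P i (i + (d : Fin (n + 1))) := by
    intro d hd1
    induction d, hd1 using Nat.le_induction with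
    | base =>
      intro _ i
      simpa using hstep1 i
    | succ d hd1 ih =>
      intro hdn i
      have h1 := ih (by omega) i
      have h2 := hstep1 (i + (d : Fin (n + 1)))
      intro h c
      have hik : i ≠ i + (d : Fin (n + 1)) := by
        intro e
        apply hcast d hd1 (by omega)
        have : i + (d : Fin (n + 1)) - i = 0 := by rw [← e]; ring
        rw [← this]; ring
      have hkj : i + (d : Fin (n + 1)) ≠ i + ((d + 1 : ℕ) : Fin (n + 1)) := by
        intro e
        apply h01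
        have : i + ((d + 1 : ℕ) : Fin (n + 1)) - (i + (d : Fin (n + 1))) = 0 := by rw [← e]; ring
        push_cast at this
        have e3 : (1 : Fin (n + 1)) = i + ((d : Fin (n + 1)) + 1) - (i + (d : Fin (n + 1))) := by ring
        rw [e3, this]
      have hkj' : i + (d : Fin (n + 1)) ≠ i + (d : Fin (n + 1)) + 1 := by
        intro e
        apply hkj
        rw [e]; push_cast; ring
      have key := Cfsg.Agent.Lib.Helper1.SLn.transvection_eq_commutator h hik hkj c
      rw [key, commutatorElement_def]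
      have m1 := h1 hik c
      have m2 : Matrix.SpecialLinearGroup.transvection hkj (1 : K) ∈ H := by
        have e : i + ((d + 1 : ℕ) : Fin (n + 1)) = i + (d : Fin (n + 1)) + 1 := by push_cast; ring
        have := h2 hkj' 1
        convert this using 2
      exact H.mul_mem (H.mul_mem (H.mul_mem m1 m2) (H.inv_mem m1)) (H.inv_mem m2)
  have hall : ∀ (i j : Fin (n + 1)) (h : i ≠ j) (c : K),
      Matrix.SpecialLinearGroup.transvection h c ∈ H := by
    intro i j h c
    have hd : ((j - i).val : Fin (n + 1)) = j - i := Fin.cast_val_eq_self _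
    have hd0 : (j - i).val ≠ 0 := by
      intro e
      apply h
      have : j - i = 0 := Fin.ext e
      have e2 : j = j - i + i := by ring
      rw [e2, this, zero_add]
    have := hstepd (j - i).val (by omega) (by have := (j - i).isLt; omega) i
    rw [hd] at this
    have e : i + (j - i) = j := by ring
    rw [e] at this
    exact this h c
  haveI : Nontrivial (Fin (n + 1)) := ⟨⟨0, 1, h01⟩⟩
  rw [eq_top_iff]
  intro A _
  exact Cfsg.Agent.Lib.Helper1.SLn.transvection_induction (fun A => A ∈ H) hall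
    (fun A B hA hB => H.mul_mem hA hB) A

theorem diag_conj (n : ℕ) (h01 : (0 : Fin (n + 1)) ≠ 1)
    (D : Matrix.SpecialLinearGroup (Fin (n + 1)) K) (d : Fin (n + 1) → K)
    (hD : (D : Matrix (Fin (n + 1)) (Fin (n + 1)) K) = Matrix.diagonal d) (hd1 : d 1 ≠ 0) (c : K) :
    D * Matrix.SpecialLinearGroup.transvection h01 c * D⁻¹
      = Matrix.SpecialLinearGroup.transvection h01 (d 0 * c * (d 1)⁻¹) := by
  rw [mul_inv_eq_iff_eq_mul]
  apply Subtype.ext
  show (D : Matrix (Fin (n + 1)) (Fin (n + 1)) K) * (1 + Matrix.single 0 1 c)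
    = (1 + Matrix.single 0 1 (d 0 * c * (d 1)⁻¹)) * (D : Matrix (Fin (n + 1)) (Fin (n + 1)) K)
  rw [hD, mul_add, add_mul, mul_one, one_mul]
  congr 1
  ext r s
  rw [Matrix.diagonal_mul, Matrix.mul_diagonal]
  simp only [Matrix.single_apply]
  split_ifs with hrs
  · obtain ⟨rfl, rfl⟩ := hrs
    field_simp
  · simp

theorem main [Fintype K] (hK : 3 < Fintype.card K) (n : ℕ) (hn : 1 ≤ n)
    (k : Kˣ) (hk : ∀ u : Kˣ, u ∈ Subgroup.zpowers k)
    (h x w : Matrix.SpecialLinearGroup (Fin (n + 1)) K)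
    (hh : (h : Matrix (Fin (n + 1)) (Fin (n + 1)) K) =
      Matrix.diagonal (fun i => if i.val = 0 then (k : K) else if i.val = 1 then ((k⁻¹ : Kˣ) : K) else 1))
    (hx : (x : Matrix (Fin (n + 1)) (Fin (n + 1)) K) = Matrix.transvection (0 : Fin (n + 1)) (1 : Fin (n + 1)) 1)
    (hw : (w : Matrix (Fin (n + 1)) (Fin (n + 1)) K) =
      Matrix.of (fun i j => if j.val = i.val + 1 then 1 else if i.val = n ∧ j.val = 0 then (-1) ^ n else 0)) :
    Subgroup.closure ({h, x * w} : Set (Matrix.SpecialLinearGroup (Fin (n + 1)) K)) ⊔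
      Subgroup.center (Matrix.SpecialLinearGroup (Fin (n + 1)) K) = ⊤ := by
  classical
  have hW : ∀ r s, (w : Matrix (Fin (n + 1)) (Fin (n + 1)) K) r s = if s = r + 1 then eps n s else 0 := by
    intro r s
    rw [hw]
    exact w_entry n r s
  obtain ⟨H, hH⟩ : ∃ H, H = Subgroup.closure ({h, x * w} : Set (Matrix.SpecialLinearGroup (Fin (n + 1)) K)) := ⟨_, rfl⟩
  have hhH : h ∈ H := by rw [hH]; exact Subgroup.subset_closure (by simp)
  have hyH : x * w ∈ H := by rw [hH]; exact Subgroup.subset_closure (by simp)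
  have h01 : (0 : Fin (n + 1)) ≠ 1 := by
    intro h
    have := congrArg Fin.val h
    rw [Fin.val_zero, Fin.val_one'] at this
    have h2 : 1 % (n + 1) = 1 := Nat.mod_eq_of_lt (by omega)
    omega
  have hv1 : ((1 : Fin (n + 1)) : ℕ) = 1 := by
    rw [Fin.val_one']
    exact Nat.mod_eq_of_lt (by omega)
  have hxT : x = Matrix.SpecialLinearGroup.transvection h01 1 := Subtype.ext hx
  have Xadd : ∀ c c' : K, Matrix.SpecialLinearGroup.transvection h01 c *
      Matrix.SpecialLinearGroup.transvection h01 c' = Matrix.SpecialLinearGroup.transvection h01 (c + c') := by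
    intro c c'
    apply Subtype.ext
    exact Matrix.transvection_mul_transvection_same 0 1 h01 c c'
  have Xinv : ∀ c : K, (Matrix.SpecialLinearGroup.transvection h01 c)⁻¹
      = Matrix.SpecialLinearGroup.transvection h01 (-c) :=
    fun c => Matrix.SpecialLinearGroup.transvection_inv h01 c
  -- the generator k
  have hk0 : (k : K) ≠ 0 := k.ne_zero
  have hord : orderOf k = Fintype.card K - 1 := by
    rw [orderOf_eq_card_of_forall_mem_zpowers hk, Nat.card_units, Nat.card_eq_fintype_card]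
  have hk1 : (k : K) ≠ 1 := by
    intro e
    have : k = 1 := Units.ext e
    rw [this, orderOf_one] at hord
    omega
  have hk2 : (k : K) ^ 2 ≠ 1 := by
    intro e
    have : k ^ 2 = 1 := Units.ext (by rw [Units.val_pow_eq_pow_val, e]; rfl)
    have := orderOf_le_of_pow_eq_one (by norm_num) this
    omega
  -- h conjugation
  obtain ⟨dh, hdh⟩ : ∃ dh : Fin (n + 1) → K, dh = (fun i : Fin (n + 1) => if i.val = 0 then (k : K) else if i.val = 1 then ((k⁻¹ : Kˣ) : K) else 1) := ⟨_, rfl⟩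
  rw [← hdh] at hh
  have hdh0 : dh 0 = k := by rw [hdh]; simp
  have hdh1 : dh 1 = (k : K)⁻¹ := by
    rw [hdh]
    simp only [hv1]
    simp
  have F1 : ∀ c : K, h * Matrix.SpecialLinearGroup.transvection h01 c * h⁻¹
      = Matrix.SpecialLinearGroup.transvection h01 ((k : K) ^ 2 * c) := by
    intro c
    rw [diag_conj n h01 h dh hh (by rw [hdh1]; exact inv_ne_zero hk0) c, hdh0, hdh1]
    congr 1
    field_simp
  -- h₁
  obtain ⟨h₁, hh₁⟩ : ∃ h₁, h₁ = w * h * w⁻¹ := ⟨_, rfl⟩
  obtain ⟨d', hd'⟩ : ∃ d' : Fin (n + 1) → K, d' = fun r => dh (r + 1) := ⟨_, rfl⟩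
  have hh₁m : (h₁ : Matrix (Fin (n + 1)) (Fin (n + 1)) K) = Matrix.diagonal d' := by
    have e : ((h₁ * w : Matrix.SpecialLinearGroup (Fin (n + 1)) K) : Matrix (Fin (n + 1)) (Fin (n + 1)) K)
        = Matrix.diagonal d' * (w : Matrix (Fin (n + 1)) (Fin (n + 1)) K) := by
      rw [hh₁, inv_mul_cancel_right]
      show (w : Matrix (Fin (n + 1)) (Fin (n + 1)) K) * (h : Matrix (Fin (n + 1)) (Fin (n + 1)) K) = _
      rw [hh]
      ext r s
      rw [Matrix.diagonal_mul, Matrix.mul_diagonal, hW, hd']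
      split_ifs with hrs
      · rw [hrs]; ring
      · simp
    have e2 : (h₁ : Matrix (Fin (n + 1)) (Fin (n + 1)) K)
        = ((h₁ * w * w⁻¹ : Matrix.SpecialLinearGroup (Fin (n + 1)) K) : Matrix (Fin (n + 1)) (Fin (n + 1)) K) := by
      rw [mul_inv_cancel_right]
    rw [e2]
    show ((h₁ * w : Matrix.SpecialLinearGroup (Fin (n + 1)) K) : Matrix (Fin (n + 1)) (Fin (n + 1)) K)
      * ((w⁻¹ : Matrix.SpecialLinearGroup (Fin (n + 1)) K) : Matrix (Fin (n + 1)) (Fin (n + 1)) K) = _
    rw [e, mul_assoc]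
    have e3 : (w : Matrix (Fin (n + 1)) (Fin (n + 1)) K)
        * ((w⁻¹ : Matrix.SpecialLinearGroup (Fin (n + 1)) K) : Matrix (Fin (n + 1)) (Fin (n + 1)) K) = 1 := by
      have : ((w * w⁻¹ : Matrix.SpecialLinearGroup (Fin (n + 1)) K) : Matrix (Fin (n + 1)) (Fin (n + 1)) K) = 1 := by
        rw [mul_inv_cancel]; rfl
      exact this
    rw [e3, mul_one]
  have hd'0 : d' 0 = (k : K)⁻¹ := by
    rw [hd']
    show dh (0 + 1) = _
    rw [zero_add, hdh1]
  have hd'1 : d' 1 = k ∨ d' 1 = 1 := by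
    rw [hd', hdh]
    by_cases hn1 : n = 1
    · left
      subst hn1
      have : ((1 : Fin 2) + 1) = 0 := by decide
      simp [this]
    · right
      have hv2 : ((1 + 1 : Fin (n + 1)) : ℕ) = 2 := by
        rw [Fin.val_add, hv1]
        exact Nat.mod_eq_of_lt (by omega)
      simp [hv2]
  have hd'1ne : d' 1 ≠ 0 := by
    rcases hd'1 with e | e <;> rw [e]
    · exact hk0
    · exact one_ne_zero
  have F2 : ∀ c : K, h₁ * Matrix.SpecialLinearGroup.transvection h01 c * h₁⁻¹
      = Matrix.SpecialLinearGroup.transvection h01 (d' 0 * c * (d' 1)⁻¹) :=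
    fun c => diag_conj n h01 h₁ d' hh₁m hd'1ne c
  have F3 : h * h₁ = h₁ * h := by
    apply Subtype.ext
    show (h : Matrix (Fin (n + 1)) (Fin (n + 1)) K) * (h₁ : Matrix (Fin (n + 1)) (Fin (n + 1)) K)
      = (h₁ : Matrix (Fin (n + 1)) (Fin (n + 1)) K) * (h : Matrix (Fin (n + 1)) (Fin (n + 1)) K)
    rw [hh, hh₁m, Matrix.diagonal_mul_diagonal, Matrix.diagonal_mul_diagonal]
    congr 1
    funext i
    ring
  -- the element u
  have hg₁ : x * w * h * (x * w)⁻¹ = x * h₁ * x⁻¹ := by rw [hh₁]; group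
  have hg₁H : x * h₁ * x⁻¹ ∈ H := by
    rw [← hg₁]
    exact H.mul_mem (H.mul_mem hyH hhH) (H.inv_mem hyH)
  have huH : h * (x * h₁ * x⁻¹) * h⁻¹ * (x * h₁ * x⁻¹)⁻¹ ∈ H :=
    H.mul_mem (H.mul_mem (H.mul_mem hhH hg₁H) (H.inv_mem hhH)) (H.inv_mem hg₁H)
  have hu : h * (x * h₁ * x⁻¹) * h⁻¹ * (x * h₁ * x⁻¹)⁻¹
      = Matrix.SpecialLinearGroup.transvection h01
        ((k : K) ^ 2 * 1 + d' 0 * (-((k : K) ^ 2 * 1) + 1) * (d' 1)⁻¹ + -1) := by
    have e1 : h * h₁ * h⁻¹ = h₁ := by rw [F3]; group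
    calc h * (x * h₁ * x⁻¹) * h⁻¹ * (x * h₁ * x⁻¹)⁻¹
        = (h * x * h⁻¹) * (h * h₁ * h⁻¹) * (h * x * h⁻¹)⁻¹ * x * h₁⁻¹ * x⁻¹ := by group
      _ = (h * x * h⁻¹) * h₁ * (h * x * h⁻¹)⁻¹ * x * h₁⁻¹ * x⁻¹ := by rw [e1]
      _ = (h * x * h⁻¹) * (h₁ * ((h * x * h⁻¹)⁻¹ * x) * h₁⁻¹) * x⁻¹ := by group
      _ = _ := by
        rw [hxT, F1, Xinv, Xadd, F2, Xadd, Xinv, Xadd]
  rw [hu] at huH
  obtain ⟨a₀, ha₀⟩ : ∃ a₀ : K, a₀ = (k : K) ^ 2 * 1 + d' 0 * (-((k : K) ^ 2 * 1) + 1) * (d' 1)⁻¹ + -1 := ⟨_, rfl⟩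
  rw [← ha₀] at huH
  have ha₀ne : a₀ ≠ 0 := by
    have e : a₀ = ((k : K) ^ 2 - 1) * (1 - d' 0 * (d' 1)⁻¹) := by rw [ha₀]; ring
    rw [e]
    apply mul_ne_zero (sub_ne_zero.mpr hk2)
    rw [hd'0]
    rcases hd'1 with e | e <;> rw [e]
    · intro h0
      apply hk2
      have : (k : K)⁻¹ * (k : K)⁻¹ = 1 := by linear_combination -h0
      field_simp at this
      exact this.symm
    · intro h0
      apply hk1
      have : (k : K)⁻¹ = 1 := by linear_combination -h0
      exact inv_eq_one.mp this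
  -- closure properties of A
  have Amul : ∀ c : K, Matrix.SpecialLinearGroup.transvection h01 c ∈ H →
      Matrix.SpecialLinearGroup.transvection h01 ((k : K) ^ 2 * c) ∈ H := by
    intro c hc
    rw [← F1]
    exact H.mul_mem (H.mul_mem hhH hc) (H.inv_mem hhH)
  have Apow : ∀ (i : ℕ) (c : K), Matrix.SpecialLinearGroup.transvection h01 c ∈ H →
      Matrix.SpecialLinearGroup.transvection h01 (((k : K) ^ i) ^ 2 * c) ∈ H := by
    intro i
    induction i with
    | zero => intro c hc; simpa using hc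
    | succ i ih =>
      intro c hc
      have := Amul _ (ih c hc)
      have e : (k : K) ^ 2 * (((k : K) ^ i) ^ 2 * c) = ((k : K) ^ (i + 1)) ^ 2 * c := by ring
      rwa [e] at this
  have Asq : ∀ (u c : K), Matrix.SpecialLinearGroup.transvection h01 c ∈ H →
      Matrix.SpecialLinearGroup.transvection h01 (u ^ 2 * c) ∈ H := by
    intro u c hc
    by_cases hu0 : u = 0
    · rw [hu0]
      simp only [ne_eq, OfNat.ofNat_ne_zero, not_false_eq_true, zero_pow, zero_mul]
      rw [Matrix.SpecialLinearGroup.transvection_coeff_zero]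
      exact H.one_mem
    · have hmem := hk (Units.mk0 u hu0)
      rw [← mem_powers_iff_mem_zpowers] at hmem
      obtain ⟨i, hi⟩ := hmem
      have hi' : (k : K) ^ i = u := by
        have := congrArg Units.val hi
        rwa [Units.val_pow_eq_pow_val, Units.val_mk0] at this
      rw [← hi']
      exact Apow i c hc
  have Aall : ∀ c : K, Matrix.SpecialLinearGroup.transvection h01 c ∈ H := by
    intro c
    obtain ⟨a, b, hab⟩ := sum_two_sq (c / a₀)
    have e : c = a ^ 2 * a₀ + b ^ 2 * a₀ := by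
      have : c = (c / a₀) * a₀ := by field_simp
      rw [this, ← hab]; ring
    rw [e, ← Xadd]
    exact H.mul_mem (Asq a a₀ huH) (Asq b a₀ huH)
  have hxH : x ∈ H := by rw [hxT]; exact Aall 1
  have hwH : w ∈ H := by
    have : w = x⁻¹ * (x * w) := by group
    rw [this]
    exact H.mul_mem (H.inv_mem hxH) hyH
  have htop : H = ⊤ := top_of_root n w hW H hwH h01 Aall
  rw [← hH, htop]
  simp

theorem result {K : Type*} [Field K] [Fintype K] (hK : 3 < Fintype.card K) (n : ℕ) (hn : 1 ≤ n)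
    (k : Kˣ) (hk : ∀ u : Kˣ, u ∈ Subgroup.zpowers k)
    (h x w : Matrix.SpecialLinearGroup (Fin (n + 1)) K)
    (hh : (h : Matrix (Fin (n + 1)) (Fin (n + 1)) K) =
      Matrix.diagonal (fun i => if i.val = 0 then (k : K) else if i.val = 1 then ((k⁻¹ : Kˣ) : K) else 1))
    (hx : (x : Matrix (Fin (n + 1)) (Fin (n + 1)) K) = Matrix.transvection (0 : Fin (n + 1)) (1 : Fin (n + 1)) 1)
    (hw : (w : Matrix (Fin (n + 1)) (Fin (n + 1)) K) =
      Matrix.of (fun i j => if j.val = i.val + 1 then 1 else if i.val = n ∧ j.val = 0 then (-1) ^ n else 0)) :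
    Subgroup.closure ({h, x * w} : Set (Matrix.SpecialLinearGroup (Fin (n + 1)) K)) ⊔
      Subgroup.center (Matrix.SpecialLinearGroup (Fin (n + 1)) K) = ⊤ := by
  exact main hK n hn k hk h x w hh hx hw

end Cfsg.Agent.S2402
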