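import Cfsg.Statements.S2419


set_option autoImplicit false
open Cfsg


namespace Cfsg.Agent.S2419

section generic
variable {G : Type*} [Group G]

theorem peel_back (a b L R : G) (hL : a * L = L * a) (hR : b * R = R * b)
    (hbr : a * b * a = b * a * b) : a * (L * b * a * R) = (L * b * a * R) * b := by
  calc a * (L * b * a * R) = (a * L) * b * a * R := by simp only [mul_assoc]
    _ = L * (a * b * a) * R := by rw [hL]; simp only [mul_assoc]
    _ = L * (b * a * b) * R := by rw [hbr]
    _ = L * b * a * (b * R) := by simp only [mul_assoc]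
    _ = (L * b * a * R) * b := by rw [hR]; simp only [mul_assoc]

theorem mem_of_peel (H : Subgroup G) (a b c : G) (ha : a ∈ H) (hc : c ∈ H)
    (h : a * c = c * b) : b ∈ H := by
  have : b = c⁻¹ * (a * c) := by rw [h]; group
  rw [this]; exact H.mul_mem (H.inv_mem hc) (H.mul_mem ha hc)

theorem a3_mem (H : Subgroup G) (a b c : G) (haa : a * a = 1) (hbb : b * b = 1)
    (hcc : c * c = 1) (hac : a * c = c * a) (hab : (a * b) ^ 3 = 1)
    (hbc : b * c * b = c * b * c) (hx : a * b ∈ H) (hc : c ∈ H) : a ∈ H := by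
  have ha' : a⁻¹ = a := inv_eq_of_mul_eq_one_right haa
  have hb' : b⁻¹ = b := inv_eq_of_mul_eq_one_right hbb
  have hc' : c⁻¹ = c := inv_eq_of_mul_eq_one_right hcc
  have hy : b * c * b ∈ H := by
    have e : b * c * b = (a * b)⁻¹ * c * (a * b) := by
      rw [mul_inv_rev, ha', hb']
      calc b * c * b = b * (c * (a * a)) * b := by rw [haa, mul_one]
        _ = b * ((c * a) * a) * b := by simp only [mul_assoc]
        _ = b * ((a * c) * a) * b := by rw [hac]
        _ = b * a * c * (a * b) := by simp only [mul_assoc]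
    rw [e]; exact H.mul_mem (H.mul_mem (H.inv_mem hx) hc) hx
  have hu : a * (b * c * b) * a ∈ H := by
    have e : a * (b * c * b) * a = (a * b) * c * (a * b)⁻¹ := by
      rw [mul_inv_rev, ha', hb']; simp only [mul_assoc]
    rw [e]; exact H.mul_mem (H.mul_mem hx hc) (H.inv_mem hx)
  have h3 : (a * (b * c * b)) ^ 3 = 1 := by
    have e : a * (b * c * b) = c * (a * b) * c⁻¹ := by
      rw [hbc, hc']
      calc a * (c * b * c) = (a * c) * b * c := by simp only [mul_assoc]
        _ = c * (a * b) * c := by rw [hac]; simp only [mul_assoc]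
    rw [e, conj_pow, hab, mul_one, mul_inv_cancel]
  have e : a = (a * (b * c * b) * a) * (b * c * b) * (a * (b * c * b) * a) := by
    have e : (a * (b * c * b) * a) * (b * c * b) * (a * (b * c * b) * a)
        = (a * (b * c * b)) ^ 3 * a := by
      simp only [pow_succ, pow_zero, one_mul, mul_assoc]
    rw [e, h3, one_mul]
  rw [e]; exact H.mul_mem (H.mul_mem hu hy) hu

theorem cube_mid (a e b : G) (hee : e * e = 1) (hae : a * e = e * a) (hbe : b * e = e * b)
    (hab : (a * b) ^ 3 = 1) : (a * e * b) ^ 3 = e := by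
  have h1 : a * e * b = e * (a * b) := by rw [hae, mul_assoc]
  have hc : Commute e (a * b) := by
    show e * (a * b) = a * b * e
    rw [← mul_assoc, ← hae, mul_assoc, mul_assoc, hbe]
  rw [h1, hc.mul_pow, hab, mul_one, pow_succ, pow_two, hee, one_mul]

end generic

section cox
variable {B : Type*} (M : CoxeterMatrix B)

theorem sq_one (i : B) : M.simple i * M.simple i = 1 :=
  M.toCoxeterSystem.simple_mul_simple_self i

theorem cancel_r (w : M.Group) (i : B) : w * M.simple i * M.simple i = w := by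
  rw [mul_assoc, sq_one, mul_one]

theorem comm_of (i j : B) (h : M i j = 2) :
    M.simple i * M.simple j = M.simple j * M.simple i := by
  have h1 := M.toCoxeterSystem.simple_mul_simple_pow i j
  rw [h, pow_two] at h1
  have h2 : M.toCoxeterSystem.simple i * M.toCoxeterSystem.simple j
      = (M.toCoxeterSystem.simple i * M.toCoxeterSystem.simple j)⁻¹ := eq_inv_of_mul_eq_one_left h1
  rw [mul_inv_rev, M.toCoxeterSystem.inv_simple, M.toCoxeterSystem.inv_simple] at h2
  exact h2

theorem cube_of (i j : B) (h : M i j = 3) : (M.simple i * M.simple j) ^ 3 = 1 := by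
  have h1 := M.toCoxeterSystem.simple_mul_simple_pow i j
  rw [h] at h1
  exact h1

theorem braid_of (i j : B) (h : M i j = 3) :
    M.simple i * M.simple j * M.simple i = M.simple j * M.simple i * M.simple j := by
  have h1 := cube_of M i j h
  have h2 : M.simple i * M.simple j * M.simple i * (M.simple j * M.simple i * M.simple j) = 1 := by
    rw [← h1]; simp only [pow_succ, pow_zero, one_mul, mul_assoc]
  have h3 := eq_inv_of_mul_eq_one_left h2
  rw [mul_inv_rev, mul_inv_rev] at h3
  have e : ∀ k, (M.simple k)⁻¹ = M.simple k := fun k => M.toCoxeterSystem.inv_simple k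
  rw [e, e] at h3
  rw [h3, mul_assoc]

theorem peel_list (H : Subgroup M.Group) (k k' : B) (L R : List B) (hL : ∀ j ∈ L, M k j = 2)
    (hR : ∀ j ∈ R, M k' j = 2) (hbr : M k k' = 3) (c : M.Group)
    (hc : c = (L.map M.simple).prod * M.simple k' * M.simple k * (R.map M.simple).prod)
    (hcH : c ∈ H) (hk : M.simple k ∈ H) : M.simple k' ∈ H := by
  apply mem_of_peel H (M.simple k) (M.simple k') c hk hcH
  rw [hc]
  apply peel_back
  · apply Commute.list_prod_right
    intro x hx
    obtain ⟨j, hj, rfl⟩ := List.mem_map.mp hx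
    exact comm_of M k j (hL j hj)
  · apply Commute.list_prod_right
    intro x hx
    obtain ⟨j, hj, rfl⟩ := List.mem_map.mp hx
    exact comm_of M k' j (hR j hj)
  · exact braid_of M k k' hbr

theorem e_tail (H : Subgroup M.Group) (i0 i1 i2 i3 : B) (h01 : M i0 i1 = 2) (h21 : M i2 i1 = 2)
    (h02 : M i0 i2 = 3) (h03 : M i0 i3 = 2) (h23 : M i2 i3 = 3) (h3 : M.simple i3 ∈ H)
    (hd : M.simple i0 * M.simple i1 * M.simple i2 ∈ H) :
    M.simple i0 ∈ H ∧ M.simple i1 ∈ H ∧ M.simple i2 ∈ H := by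
  have h1 : M.simple i1 ∈ H := by
    rw [← cube_mid (M.simple i0) (M.simple i1) (M.simple i2) (sq_one M i1) (comm_of M i0 i1 h01)
      (comm_of M i2 i1 h21) (cube_of M i0 i2 h02)]
    exact H.pow_mem hd 3
  have hx : M.simple i0 * M.simple i2 ∈ H := by
    have e : M.simple i0 * M.simple i2 = M.simple i1 * (M.simple i0 * M.simple i1 * M.simple i2) := by
      rw [comm_of M i0 i1 h01]
      simp only [mul_assoc]
      rw [← mul_assoc (M.simple i1), sq_one, one_mul]
    rw [e]; exact H.mul_mem h1 hd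
  have h0 : M.simple i0 ∈ H :=
    a3_mem H (M.simple i0) (M.simple i2) (M.simple i3) (sq_one M i0) (sq_one M i2) (sq_one M i3)
      (comm_of M i0 i3 h03) (cube_of M i0 i2 h02) (braid_of M i2 i3 h23) hx h3
  refine ⟨h0, h1, ?_⟩
  have e : M.simple i2 = M.simple i0 * (M.simple i0 * M.simple i2) := by
    rw [← mul_assoc, sq_one, one_mul]
  rw [e]; exact H.mul_mem h0 hx

end cox

theorem top_of_all {n : ℕ} (M : CoxeterMatrix (Fin n)) (H : Subgroup M.Group)
    (h : ∀ i, M.simple i ∈ H) : H = ⊤ := by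
  rw [eq_top_iff, ← M.toCoxeterSystem.subgroup_closure_range_simple, Subgroup.closure_le]
  rintro _ ⟨i, rfl⟩
  exact h i

theorem ne_of_lift {n : ℕ} (M : CoxeterMatrix (Fin n)) (f : Fin n → Equiv.Perm (Fin 4))
    (hf : M.IsLiftable f) (i j : Fin n) (hij : f i ≠ f j) : M.simple i ≠ M.simple j := by
  intro h
  apply hij
  have h1 := M.toCoxeterSystem.lift_apply_simple hf i
  have h2 := M.toCoxeterSystem.lift_apply_simple hf j
  rw [← h1, ← h2]
  exact congrArg _ h

theorem gen2 (M : CoxeterMatrix (Fin 2)) :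
    Subgroup.closure (({((List.finRange 2).map M.simple).prod} : Set M.Group) ∪ {M.simple 0})
      = ⊤ := by
  obtain ⟨H, hH⟩ : ∃ H, H = Subgroup.closure (({((List.finRange 2).map M.simple).prod} :
    Set M.Group) ∪ {M.simple 0}) := ⟨_, rfl⟩
  rw [← hH]
  have hcH : ((List.finRange 2).map M.simple).prod ∈ H := by
    rw [hH]; exact Subgroup.subset_closure (Or.inl rfl)
  have h0 : M.simple 0 ∈ H := by
    rw [hH]; exact Subgroup.subset_closure (Or.inr rfl)
  have hcprod : ((List.finRange 2).map M.simple).prod = M.simple 0 * M.simple 1 := by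
    rw [show List.finRange 2 = [0, 1] from by decide]
    simp
  have h1 : M.simple 1 ∈ H := by
    have e : M.simple 1 = M.simple 0 * ((List.finRange 2).map M.simple).prod := by
      rw [hcprod, ← mul_assoc, sq_one, one_mul]
    rw [e]; exact H.mul_mem h0 hcH
  apply top_of_all
  intro i
  fin_cases i
  · exact h0
  · exact h1

theorem genD4 :
    Subgroup.closure (({((List.finRange 4).map Cfsg.Lie.coxeterD4.simple).prod} :
      Set Cfsg.Lie.coxeterD4.Group) ∪ {Cfsg.Lie.coxeterD4.simple 2, Cfsg.Lie.coxeterD4.simple 3})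
      = ⊤ := by
  obtain ⟨M, hM⟩ : ∃ M, M = Cfsg.Lie.coxeterD4 := ⟨_, rfl⟩
  rw [← hM]
  obtain ⟨H, hH⟩ : ∃ H, H = Subgroup.closure (({((List.finRange 4).map M.simple).prod} :
    Set M.Group) ∪ {M.simple 2, M.simple 3}) := ⟨_, rfl⟩
  rw [← hH]
  have hcH : ((List.finRange 4).map M.simple).prod ∈ H := by
    rw [hH]; exact Subgroup.subset_closure (Or.inl rfl)
  have h2 : M.simple 2 ∈ H := by
    rw [hH]; exact Subgroup.subset_closure (Or.inr (Or.inl rfl))
  have h3 : M.simple 3 ∈ H := by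
    rw [hH]; exact Subgroup.subset_closure (Or.inr (Or.inr rfl))
  have hcprod : ((List.finRange 4).map M.simple).prod
      = M.simple 0 * M.simple 1 * M.simple 2 * M.simple 3 := by
    rw [show List.finRange 4 = [0, 1, 2, 3] from by decide]
    simp [mul_assoc]
  have hx : M.simple 0 * M.simple 1 ∈ H := by
    have e : M.simple 0 * M.simple 1
        = ((List.finRange 4).map M.simple).prod * M.simple 3 * M.simple 2 := by
      rw [hcprod, cancel_r, cancel_r]
    rw [e]; exact H.mul_mem (H.mul_mem hcH h3) h2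
  have h0 : M.simple 0 ∈ H :=
    a3_mem H (M.simple 0) (M.simple 1) (M.simple 2) (sq_one M 0) (sq_one M 1) (sq_one M 2)
      (comm_of M 0 2 (by rw [hM]; decide)) (cube_of M 0 1 (by rw [hM]; decide))
      (braid_of M 1 2 (by rw [hM]; decide)) hx h2
  have h1 : M.simple 1 ∈ H := by
    have e : M.simple 1 = M.simple 0 * (M.simple 0 * M.simple 1) := by
      rw [← mul_assoc, sq_one, one_mul]
    rw [e]; exact H.mul_mem h0 hx
  apply top_of_all
  intro i
  fin_cases i
  · exact h0
  · exact h1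
  · exact h2
  · exact h3

theorem genF4 :
    Subgroup.closure (({((List.finRange 4).map CoxeterMatrix.F₄.simple).prod} :
      Set CoxeterMatrix.F₄.Group) ∪ {CoxeterMatrix.F₄.simple 0, CoxeterMatrix.F₄.simple 3})
      = ⊤ := by
  obtain ⟨M, hM⟩ : ∃ M, M = CoxeterMatrix.F₄ := ⟨_, rfl⟩
  rw [← hM]
  obtain ⟨H, hH⟩ : ∃ H, H = Subgroup.closure (({((List.finRange 4).map M.simple).prod} :
    Set M.Group) ∪ {M.simple 0, M.simple 3}) := ⟨_, rfl⟩
  rw [← hH]
  have hcH : ((List.finRange 4).map M.simple).prod ∈ H := by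
    rw [hH]; exact Subgroup.subset_closure (Or.inl rfl)
  have h0 : M.simple 0 ∈ H := by
    rw [hH]; exact Subgroup.subset_closure (Or.inr (Or.inl rfl))
  have h3 : M.simple 3 ∈ H := by
    rw [hH]; exact Subgroup.subset_closure (Or.inr (Or.inr rfl))
  have hcprod : ((List.finRange 4).map M.simple).prod
      = M.simple 0 * M.simple 1 * M.simple 2 * M.simple 3 := by
    rw [show List.finRange 4 = [0, 1, 2, 3] from by decide]
    simp [mul_assoc]
  have h2 : M.simple 2 ∈ H :=
    peel_list M H 3 2 [0, 1] [] (by rw [hM]; decide) (by rw [hM]; decide) (by rw [hM]; decide) _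
      (by rw [hcprod]; simp [mul_assoc]) hcH h3
  have h1 : M.simple 1 ∈ H := by
    have e : M.simple 1 = M.simple 0 * (((List.finRange 4).map M.simple).prod * M.simple 3
        * M.simple 2) := by
      rw [hcprod, cancel_r, cancel_r, ← mul_assoc, sq_one, one_mul]
    rw [e]; exact H.mul_mem h0 (H.mul_mem (H.mul_mem hcH h3) h2)
  apply top_of_all
  intro i
  fin_cases i
  · exact h0
  · exact h1
  · exact h2
  · exact h3

theorem genE6 :
    Subgroup.closure (({((List.finRange 6).map CoxeterMatrix.E₆.simple).prod} :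
      Set CoxeterMatrix.E₆.Group) ∪ {CoxeterMatrix.E₆.simple 5}) = ⊤ := by
  obtain ⟨M, hM⟩ : ∃ M, M = CoxeterMatrix.E₆ := ⟨_, rfl⟩
  rw [← hM]
  obtain ⟨H, hH⟩ : ∃ H, H = Subgroup.closure (({((List.finRange 6).map M.simple).prod} :
    Set M.Group) ∪ {M.simple 5}) := ⟨_, rfl⟩
  rw [← hH]
  have hcH : ((List.finRange 6).map M.simple).prod ∈ H := by
    rw [hH]; exact Subgroup.subset_closure (Or.inl rfl)
  have h5 : M.simple 5 ∈ H := by
    rw [hH]; exact Subgroup.subset_closure (Or.inr rfl)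
  have hcprod : ((List.finRange 6).map M.simple).prod
      = M.simple 0 * M.simple 1 * M.simple 2 * M.simple 3 * M.simple 4 * M.simple 5 := by
    rw [show List.finRange 6 = [0, 1, 2, 3, 4, 5] from by decide]
    simp [mul_assoc]
  have h4 : M.simple 4 ∈ H :=
    peel_list M H 5 4 [0, 1, 2, 3] [] (by rw [hM]; decide) (by rw [hM]; decide)
      (by rw [hM]; decide) _ (by rw [hcprod]; simp [mul_assoc]) hcH h5
  have h3 : M.simple 3 ∈ H :=
    peel_list M H 4 3 [0, 1, 2] [5] (by rw [hM]; decide) (by rw [hM]; decide)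
      (by rw [hM]; decide) _ (by rw [hcprod]; simp [mul_assoc]) hcH h4
  have hd : M.simple 0 * M.simple 1 * M.simple 2 ∈ H := by
    have e : M.simple 0 * M.simple 1 * M.simple 2
        = ((List.finRange 6).map M.simple).prod * M.simple 5 * M.simple 4 * M.simple 3 := by
      rw [hcprod, cancel_r, cancel_r, cancel_r]
    rw [e]; exact H.mul_mem (H.mul_mem (H.mul_mem hcH h5) h4) h3
  obtain ⟨h0, h1, h2⟩ := e_tail M H 0 1 2 3 (by rw [hM]; decide) (by rw [hM]; decide)
    (by rw [hM]; decide) (by rw [hM]; decide) (by rw [hM]; decide) h3 hd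
  apply top_of_all
  intro i
  fin_cases i
  · exact h0
  · exact h1
  · exact h2
  · exact h3
  · exact h4
  · exact h5

theorem genE7 :
    Subgroup.closure (({((List.finRange 7).map CoxeterMatrix.E₇.simple).prod} :
      Set CoxeterMatrix.E₇.Group) ∪ {CoxeterMatrix.E₇.simple 6}) = ⊤ := by
  obtain ⟨M, hM⟩ : ∃ M, M = CoxeterMatrix.E₇ := ⟨_, rfl⟩
  rw [← hM]
  obtain ⟨H, hH⟩ : ∃ H, H = Subgroup.closure (({((List.finRange 7).map M.simple).prod} :
    Set M.Group) ∪ {M.simple 6}) := ⟨_, rfl⟩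
  rw [← hH]
  have hcH : ((List.finRange 7).map M.simple).prod ∈ H := by
    rw [hH]; exact Subgroup.subset_closure (Or.inl rfl)
  have h6 : M.simple 6 ∈ H := by
    rw [hH]; exact Subgroup.subset_closure (Or.inr rfl)
  have hcprod : ((List.finRange 7).map M.simple).prod
      = M.simple 0 * M.simple 1 * M.simple 2 * M.simple 3 * M.simple 4 * M.simple 5
        * M.simple 6 := by
    rw [show List.finRange 7 = [0, 1, 2, 3, 4, 5, 6] from by decide]
    simp [mul_assoc]
  have h5 : M.simple 5 ∈ H :=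
    peel_list M H 6 5 [0, 1, 2, 3, 4] [] (by rw [hM]; decide) (by rw [hM]; decide)
      (by rw [hM]; decide) _ (by rw [hcprod]; simp [mul_assoc]) hcH h6
  have h4 : M.simple 4 ∈ H :=
    peel_list M H 5 4 [0, 1, 2, 3] [6] (by rw [hM]; decide) (by rw [hM]; decide)
      (by rw [hM]; decide) _ (by rw [hcprod]; simp [mul_assoc]) hcH h5
  have h3 : M.simple 3 ∈ H :=
    peel_list M H 4 3 [0, 1, 2] [5, 6] (by rw [hM]; decide) (by rw [hM]; decide)
      (by rw [hM]; decide) _ (by rw [hcprod]; simp [mul_assoc]) hcH h4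
  have hd : M.simple 0 * M.simple 1 * M.simple 2 ∈ H := by
    have e : M.simple 0 * M.simple 1 * M.simple 2
        = ((List.finRange 7).map M.simple).prod * M.simple 6 * M.simple 5 * M.simple 4
          * M.simple 3 := by
      rw [hcprod, cancel_r, cancel_r, cancel_r, cancel_r]
    rw [e]; exact H.mul_mem (H.mul_mem (H.mul_mem (H.mul_mem hcH h6) h5) h4) h3
  obtain ⟨h0, h1, h2⟩ := e_tail M H 0 1 2 3 (by rw [hM]; decide) (by rw [hM]; decide)
    (by rw [hM]; decide) (by rw [hM]; decide) (by rw [hM]; decide) h3 hd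
  apply top_of_all
  intro i
  fin_cases i
  · exact h0
  · exact h1
  · exact h2
  · exact h3
  · exact h4
  · exact h5
  · exact h6

theorem genE8 :
    Subgroup.closure (({((List.finRange 8).map CoxeterMatrix.E₈.simple).prod} :
      Set CoxeterMatrix.E₈.Group) ∪ {CoxeterMatrix.E₈.simple 7}) = ⊤ := by
  obtain ⟨M, hM⟩ : ∃ M, M = CoxeterMatrix.E₈ := ⟨_, rfl⟩
  rw [← hM]
  obtain ⟨H, hH⟩ : ∃ H, H = Subgroup.closure (({((List.finRange 8).map M.simple).prod} :
    Set M.Group) ∪ {M.simple 7}) := ⟨_, rfl⟩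
  rw [← hH]
  have hcH : ((List.finRange 8).map M.simple).prod ∈ H := by
    rw [hH]; exact Subgroup.subset_closure (Or.inl rfl)
  have h7 : M.simple 7 ∈ H := by
    rw [hH]; exact Subgroup.subset_closure (Or.inr rfl)
  have hcprod : ((List.finRange 8).map M.simple).prod
      = M.simple 0 * M.simple 1 * M.simple 2 * M.simple 3 * M.simple 4 * M.simple 5
        * M.simple 6 * M.simple 7 := by
    rw [show List.finRange 8 = [0, 1, 2, 3, 4, 5, 6, 7] from by decide]
    simp [mul_assoc]
  have h6 : M.simple 6 ∈ H :=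
    peel_list M H 7 6 [0, 1, 2, 3, 4, 5] [] (by rw [hM]; decide) (by rw [hM]; decide)
      (by rw [hM]; decide) _ (by rw [hcprod]; simp [mul_assoc]) hcH h7
  have h5 : M.simple 5 ∈ H :=
    peel_list M H 6 5 [0, 1, 2, 3, 4] [7] (by rw [hM]; decide) (by rw [hM]; decide)
      (by rw [hM]; decide) _ (by rw [hcprod]; simp [mul_assoc]) hcH h6
  have h4 : M.simple 4 ∈ H :=
    peel_list M H 5 4 [0, 1, 2, 3] [6, 7] (by rw [hM]; decide) (by rw [hM]; decide)
      (by rw [hM]; decide) _ (by rw [hcprod]; simp [mul_assoc]) hcH h5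
  have h3 : M.simple 3 ∈ H :=
    peel_list M H 4 3 [0, 1, 2] [5, 6, 7] (by rw [hM]; decide) (by rw [hM]; decide)
      (by rw [hM]; decide) _ (by rw [hcprod]; simp [mul_assoc]) hcH h4
  have hd : M.simple 0 * M.simple 1 * M.simple 2 ∈ H := by
    have e : M.simple 0 * M.simple 1 * M.simple 2
        = ((List.finRange 8).map M.simple).prod * M.simple 7 * M.simple 6 * M.simple 5
          * M.simple 4 * M.simple 3 := by
      rw [hcprod, cancel_r, cancel_r, cancel_r, cancel_r, cancel_r]
    rw [e]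
    exact H.mul_mem (H.mul_mem (H.mul_mem (H.mul_mem (H.mul_mem hcH h7) h6) h5) h4) h3
  obtain ⟨h0, h1, h2⟩ := e_tail M H 0 1 2 3 (by rw [hM]; decide) (by rw [hM]; decide)
    (by rw [hM]; decide) (by rw [hM]; decide) (by rw [hM]; decide) h3 hd
  apply top_of_all
  intro i
  fin_cases i
  · exact h0
  · exact h1
  · exact h2
  · exact h3
  · exact h4
  · exact h5
  · exact h6
  · exact h7

theorem main (c : (Σ n : ℕ, CoxeterMatrix (Fin n)) × ℕ)
    (hc : c ∈ [(⟨2, CoxeterMatrix.B 2⟩, 1), (⟨2, CoxeterMatrix.G₂⟩, 1), (⟨4, Cfsg.Lie.coxeterD4⟩, 2), (⟨4, CoxeterMatrix.F₄⟩, 2),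
      (⟨6, CoxeterMatrix.E₆⟩, 1), (⟨7, CoxeterMatrix.E₇⟩, 1), (⟨8, CoxeterMatrix.E₈⟩, 1)]) :
    ∃ T : Finset c.1.2.Group, T.card = c.2 ∧ (∀ t ∈ T, ∃ (g : c.1.2.Group) (i : Fin c.1.1), t = g * c.1.2.simple i * g⁻¹) ∧
      Subgroup.closure (({((List.finRange c.1.1).map c.1.2.simple).prod} : Set c.1.2.Group) ∪ ↑T) = ⊤ := by
  classical
  simp only [List.mem_cons, List.not_mem_nil, or_false] at hc
  rcases hc with rfl | rfl | rfl | rfl | rfl | rfl | rfl
  · refine ⟨({(CoxeterMatrix.B 2).simple 0} : Finset (CoxeterMatrix.B 2).Group),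
      Finset.card_singleton _, ?_, ?_⟩
    · intro t ht
      rw [Finset.mem_singleton] at ht
      exact ⟨1, 0, by rw [ht, one_mul, inv_one, mul_one]⟩
    · rw [Finset.coe_singleton]; exact gen2 _
  · refine ⟨({CoxeterMatrix.G₂.simple 0} : Finset CoxeterMatrix.G₂.Group),
      Finset.card_singleton _, ?_, ?_⟩
    · intro t ht
      rw [Finset.mem_singleton] at ht
      exact ⟨1, 0, by rw [ht, one_mul, inv_one, mul_one]⟩
    · rw [Finset.coe_singleton]; exact gen2 _
  · refine ⟨({Cfsg.Lie.coxeterD4.simple 2, Cfsg.Lie.coxeterD4.simple 3} :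
      Finset Cfsg.Lie.coxeterD4.Group), Finset.card_pair ?_, ?_, ?_⟩
    · exact ne_of_lift Cfsg.Lie.coxeterD4
        ![Equiv.swap (0 : Fin 4) 1, Equiv.swap 1 2, Equiv.swap 2 3, Equiv.swap 0 1]
        (by unfold CoxeterMatrix.IsLiftable; decide) 2 3 (by decide)
    · intro t ht
      rw [Finset.mem_insert, Finset.mem_singleton] at ht
      rcases ht with ht | ht
      · exact ⟨1, 2, by rw [ht, one_mul, inv_one, mul_one]⟩
      · exact ⟨1, 3, by rw [ht, one_mul, inv_one, mul_one]⟩
    · rw [Finset.coe_insert, Finset.coe_singleton]; exact genD4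
  · refine ⟨({CoxeterMatrix.F₄.simple 0, CoxeterMatrix.F₄.simple 3} :
      Finset CoxeterMatrix.F₄.Group), Finset.card_pair ?_, ?_, ?_⟩
    · exact ne_of_lift CoxeterMatrix.F₄
        ![Equiv.swap (0 : Fin 4) 1, Equiv.swap 0 1, Equiv.swap 2 3, Equiv.swap 2 3]
        (by unfold CoxeterMatrix.IsLiftable; decide) 0 3 (by decide)
    · intro t ht
      rw [Finset.mem_insert, Finset.mem_singleton] at ht
      rcases ht with ht | ht
      · exact ⟨1, 0, by rw [ht, one_mul, inv_one, mul_one]⟩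
      · exact ⟨1, 3, by rw [ht, one_mul, inv_one, mul_one]⟩
    · rw [Finset.coe_insert, Finset.coe_singleton]; exact genF4
  · refine ⟨({CoxeterMatrix.E₆.simple 5} : Finset CoxeterMatrix.E₆.Group),
      Finset.card_singleton _, ?_, ?_⟩
    · intro t ht
      rw [Finset.mem_singleton] at ht
      exact ⟨1, 5, by rw [ht, one_mul, inv_one, mul_one]⟩
    · rw [Finset.coe_singleton]; exact genE6
  · refine ⟨({CoxeterMatrix.E₇.simple 6} : Finset CoxeterMatrix.E₇.Group),
      Finset.card_singleton _, ?_, ?_⟩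
    · intro t ht
      rw [Finset.mem_singleton] at ht
      exact ⟨1, 6, by rw [ht, one_mul, inv_one, mul_one]⟩
    · rw [Finset.coe_singleton]; exact genE7
  · refine ⟨({CoxeterMatrix.E₈.simple 7} : Finset CoxeterMatrix.E₈.Group),
      Finset.card_singleton _, ?_, ?_⟩
    · intro t ht
      rw [Finset.mem_singleton] at ht
      exact ⟨1, 7, by rw [ht, one_mul, inv_one, mul_one]⟩
    · rw [Finset.coe_singleton]; exact genE8

theorem result (c : (Σ n : ℕ, CoxeterMatrix (Fin n)) × ℕ)
    (hc : c ∈ [(⟨2, CoxeterMatrix.B 2⟩, 1), (⟨2, CoxeterMatrix.G₂⟩, 1), (⟨4, Cfsg.Lie.coxeterD4⟩, 2), (⟨4, CoxeterMatrix.F₄⟩, 2),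
      (⟨6, CoxeterMatrix.E₆⟩, 1), (⟨7, CoxeterMatrix.E₇⟩, 1), (⟨8, CoxeterMatrix.E₈⟩, 1)]) :
    ∃ T : Finset c.1.2.Group, T.card = c.2 ∧ (∀ t ∈ T, ∃ (g : c.1.2.Group) (i : Fin c.1.1), t = g * c.1.2.simple i * g⁻¹) ∧
      Subgroup.closure (({((List.finRange c.1.1).map c.1.2.simple).prod} : Set c.1.2.Group) ∪ ↑T) = ⊤ := by
  exact main c hc

end Cfsg.Agent.S2419
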