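import Cfsg.Statements.S2420
import Cfsg.Agent.S2394

set_option autoImplicit false
open scoped MatrixGroups
open Cfsg


namespace Cfsg.Agent.S2420

open Finset

/-- extension of μ to ℕ -/
def ext' {n : ℕ} (μ : Fin n → ℕ) (k : ℕ) : ℕ := if h : k < n then μ ⟨k, h⟩ else 0

def T {n : ℕ} (μ : Fin n → ℕ) (a : ℕ) : ℕ := ∑ k ∈ range a, ext' μ k

theorem T_mono {n : ℕ} (μ : Fin n → ℕ) {a b : ℕ} (h : a ≤ b) : T μ a ≤ T μ b :=
  Finset.sum_le_sum_of_subset (Finset.range_subset_range.mpr h)

theorem T_succ {n : ℕ} (μ : Fin n → ℕ) (a : Fin n) : T μ (a.val + 1) = T μ a.val + μ a := by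
  unfold T
  rw [Finset.sum_range_succ]
  congr 1
  unfold ext'
  rw [dif_pos a.2]

theorem partial_eq {n : ℕ} (μ : Fin n → ℕ) (j : Fin n) :
    (∑ k ∈ univ.filter (fun k : Fin n => k ≤ j), μ k) = T μ (j.val + 1) := by
  unfold T
  rw [Finset.sum_filter]
  have h1 : ∀ k : Fin n, (if k ≤ j then μ k else 0)
      = (fun k : ℕ => if k ≤ j.val then ext' μ k else 0) k.val := by
    intro k
    simp only [Fin.le_def]
    unfold ext'
    rw [dif_pos k.2]
  rw [Finset.sum_congr rfl (fun k _ => h1 k),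
    Fin.sum_univ_eq_sum_range (fun k : ℕ => if k ≤ j.val then ext' μ k else 0) n,
    ← Finset.sum_filter]
  congr 1
  ext k
  simp only [Finset.mem_filter, Finset.mem_range]
  have := j.2
  omega

theorem label_eq {n : ℕ} (μ : Fin n → ℕ) (i : Fin n) (a : Fin n) (h1 : T μ a.val ≤ i.val)
    (h2 : i.val < T μ (a.val + 1)) : Cfsg.compLabel μ i = a.val := by
  unfold Cfsg.compLabel
  have e : (univ.filter fun j : Fin n =>
      (∑ k ∈ univ.filter (fun k : Fin n => k ≤ j), μ k) ≤ i.val) = Finset.Iio a := by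
    ext j
    rw [Finset.mem_filter, Finset.mem_Iio, partial_eq]
    simp only [Finset.mem_univ, true_and]
    constructor
    · intro h
      by_contra hlt
      have hle : a.val + 1 ≤ j.val + 1 := by
        have := Fin.le_def.mp (not_lt.mp hlt)
        omega
      have := T_mono μ hle
      omega
    · intro h
      have hle : j.val + 1 ≤ a.val := Fin.lt_def.mp h
      have := T_mono μ hle
      omega
  rw [e, Fin.card_Iio]

/-- the reindexing -/
noncomputable def eps {n : ℕ} (μ : Fin n → ℕ) (hμ : ∑ i, μ i = n) :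
    ((a : Fin n) × Fin (μ a)) ≃ Fin n :=
  finSigmaFinEquiv.trans (finCongr hμ)

theorem eps_val {n : ℕ} (μ : Fin n → ℕ) (hμ : ∑ i, μ i = n) (x : (a : Fin n) × Fin (μ a)) :
    (eps μ hμ x).val = T μ x.1.val + x.2.val := by
  unfold eps
  rw [Equiv.trans_apply, finCongr_apply, Fin.val_cast, finSigmaFinEquiv_apply]
  congr 1
  unfold T
  rw [← Fin.sum_univ_eq_sum_range (fun k => ext' μ k) x.1.val]
  refine Finset.sum_congr rfl (fun i _ => ?_)
  unfold ext'
  rw [dif_pos (lt_trans i.2 x.1.2)]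
  rfl

theorem label_eps {n : ℕ} (μ : Fin n → ℕ) (hμ : ∑ i, μ i = n) (x : (a : Fin n) × Fin (μ a)) :
    Cfsg.compLabel μ (eps μ hμ x) = x.1.val := by
  apply label_eq
  · rw [eps_val]; omega
  · rw [eps_val, T_succ]
    have := x.2.2
    omega

section count

variable {F : Type*} [Field F] [Fintype F]

/-- GL as matrices with nonzero determinant -/
noncomputable def glEquiv (ι : Type) [Fintype ι] [DecidableEq ι] :
    GL ι F ≃ {A : Matrix ι ι F // A.det ≠ 0} where
  toFun g := ⟨(g : Matrix ι ι F), (Matrix.isUnits_det_units g).ne_zero⟩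
  invFun A := Matrix.GeneralLinearGroup.mkOfDetNeZero A.1 A.2
  left_inv g := by
    apply Units.ext
    rfl
  right_inv A := by
    apply Subtype.ext
    rfl

/-- the parabolic as block triangular matrices with nonzero determinant -/
noncomputable def parEquiv {n : ℕ} (μ : Fin n → ℕ) :
    ↥(Cfsg.parabolicGL n F μ) ≃
      {A : Matrix (Fin n) (Fin n) F // A.BlockTriangular (Cfsg.compLabel μ) ∧ A.det ≠ 0} where
  toFun g := ⟨(g.1 : Matrix (Fin n) (Fin n) F), g.2, (Matrix.isUnits_det_units g.1).ne_zero⟩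
  invFun A := ⟨Matrix.GeneralLinearGroup.mkOfDetNeZero A.1 A.2.2, A.2.1⟩
  left_inv g := by
    apply Subtype.ext
    apply Units.ext
    rfl
  right_inv A := by
    apply Subtype.ext
    rfl

/-- reindexing to the sigma type -/
noncomputable def reEquiv {n : ℕ} (μ : Fin n → ℕ) (hμ : ∑ i, μ i = n) :
    {A : Matrix (Fin n) (Fin n) F // A.BlockTriangular (Cfsg.compLabel μ) ∧ A.det ≠ 0} ≃
      {A : Matrix ((a : Fin n) × Fin (μ a)) ((a : Fin n) × Fin (μ a)) F //
        A.BlockTriangular Sigma.fst ∧ A.det ≠ 0} :=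
  Equiv.subtypeEquiv (Matrix.reindex (eps μ hμ).symm (eps μ hμ).symm) (by
    intro A
    rw [Matrix.reindex_apply, Equiv.symm_symm, Matrix.det_submatrix_equiv_self]
    refine and_congr ?_ Iff.rfl
    constructor
    · intro h x y hxy
      rw [Matrix.submatrix_apply]
      apply h
      rw [label_eps, label_eps]
      exact hxy
    · intro h i j hij
      have h1 := @h ((eps μ hμ).symm i) ((eps μ hμ).symm j) (by
        have e1 := label_eps μ hμ ((eps μ hμ).symm i)
        have e2 := label_eps μ hμ ((eps μ hμ).symm j)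
        rw [Equiv.apply_symm_apply] at e1 e2
        rw [Fin.lt_def, ← e1, ← e2]
        exact hij)
      rw [Matrix.submatrix_apply, Equiv.apply_symm_apply, Equiv.apply_symm_apply] at h1
      exact h1)

variable {o : Type} [Fintype o] [DecidableEq o] [LinearOrder o] {m' : o → Type}
  [∀ a, Fintype (m' a)] [∀ a, DecidableEq (m' a)]

/-- strictly upper block part -/
def upper (u : {p : (Σ a, m' a) × (Σ a, m' a) // p.1.1 < p.2.1} → F) :
    Matrix (Σ a, m' a) (Σ a, m' a) F :=
  fun x y => if h : x.1 < y.1 then u ⟨(x, y), h⟩ else 0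

theorem upper_BT (u : {p : (Σ a, m' a) × (Σ a, m' a) // p.1.1 < p.2.1} → F) :
    (upper u).BlockTriangular Sigma.fst := by
  intro x y hxy
  unfold upper
  rw [dif_neg (not_lt.mpr (le_of_lt hxy))]

theorem blockDiag_upper (u : {p : (Σ a, m' a) × (Σ a, m' a) // p.1.1 < p.2.1} → F) :
    Matrix.blockDiag' (upper u) = 0 := by
  funext a
  ext i j
  rw [Matrix.blockDiag'_apply]
  unfold upper
  rw [dif_neg (lt_irrefl a)]
  rfl

theorem det_BT (A : Matrix (Σ a, m' a) (Σ a, m' a) F) (hA : A.BlockTriangular Sigma.fst) :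
    A.det = ∏ a, (Matrix.blockDiag' A a).det := by
  have h1 : ∀ a, (Matrix.blockDiag' A a).det = (A.toSquareBlock Sigma.fst a).det := by
    intro a
    have e : Matrix.blockDiag' A a = (A.toSquareBlock Sigma.fst a).submatrix
        (Equiv.sigmaSubtype a).symm (Equiv.sigmaSubtype a).symm := by
      ext i j; rfl
    rw [e, Matrix.det_submatrix_equiv_self]
  rw [hA.det, Finset.prod_congr rfl (fun a _ => h1 a)]
  exact Finset.prod_subset (Finset.subset_univ _) (fun a _ ha => by
    haveI : IsEmpty {x : Σ a, m' a // x.1 = a} :=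
      ⟨fun x => ha (Finset.mem_image.mpr ⟨x.1, Finset.mem_univ _, x.2⟩)⟩
    exact Matrix.det_isEmpty)

theorem decomp (A : Matrix (Σ a, m' a) (Σ a, m' a) F) (hA : A.BlockTriangular Sigma.fst) :
    Matrix.blockDiagonal' (Matrix.blockDiag' A) + upper (fun p => A p.1.1 p.1.2) = A := by
  ext ⟨a1, i⟩ ⟨a2, j⟩
  rw [Matrix.add_apply]
  unfold upper
  rcases lt_trichotomy a1 a2 with h | h | h
  · rw [dif_pos h, Matrix.blockDiagonal'_apply_ne _ _ _ (ne_of_lt h), zero_add]
  · subst h
    rw [dif_neg (lt_irrefl a1), Matrix.blockDiagonal'_apply_eq, Matrix.blockDiag'_apply, add_zero]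
  · rw [dif_neg (not_lt.mpr (le_of_lt h)), Matrix.blockDiagonal'_apply_ne _ _ _ (ne_of_gt h),
      zero_add]
    exact (hA h).symm

/-- block triangular invertible = diagonal blocks invertible, upper part free -/
noncomputable def btEquiv :
    {A : Matrix (Σ a, m' a) (Σ a, m' a) F // A.BlockTriangular Sigma.fst ∧ A.det ≠ 0} ≃
      ((∀ a, {D : Matrix (m' a) (m' a) F // D.det ≠ 0}) ×
        ({p : (Σ a, m' a) × (Σ a, m' a) // p.1.1 < p.2.1} → F)) where
  toFun A := (fun a => ⟨Matrix.blockDiag' A.1 a, by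
      have h := A.2.2
      rw [det_BT A.1 A.2.1] at h
      exact fun h0 => h (Finset.prod_eq_zero (Finset.mem_univ a) h0)⟩,
    fun p => A.1 p.1.1 p.1.2)
  invFun Du := ⟨Matrix.blockDiagonal' (fun a => (Du.1 a).1) + upper Du.2,
    (Matrix.blockTriangular_blockDiagonal' _).add (upper_BT _), by
      rw [det_BT _ ((Matrix.blockTriangular_blockDiagonal' _).add (upper_BT _))]
      rw [Matrix.blockDiag'_add, blockDiag_upper, add_zero, Matrix.blockDiag'_blockDiagonal']
      exact Finset.prod_ne_zero_iff.mpr (fun a _ => (Du.1 a).2)⟩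
  left_inv A := by
    apply Subtype.ext
    exact decomp A.1 A.2.1
  right_inv Du := by
    apply Prod.ext
    · funext a
      apply Subtype.ext
      show Matrix.blockDiag' (Matrix.blockDiagonal' (fun a => (Du.1 a).1) + upper Du.2) a = _
      rw [Matrix.blockDiag'_add, blockDiag_upper, add_zero, Matrix.blockDiag'_blockDiagonal']
    · funext ⟨⟨⟨a1, i⟩, ⟨a2, j⟩⟩, h⟩
      show (Matrix.blockDiagonal' (fun a => (Du.1 a).1) + upper Du.2) ⟨a1, i⟩ ⟨a2, j⟩ = _
      simp only at h
      rw [Matrix.add_apply, Matrix.blockDiagonal'_apply_ne _ _ _ (ne_of_lt h), zero_add]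
      unfold upper
      rw [dif_pos h]

end count

section final

variable {F : Type*} [Field F] [Fintype F]

theorem card_par {n : ℕ} (μ : Fin n → ℕ) (hμ : ∑ i, μ i = n) :
    Nat.card ↥(Cfsg.parabolicGL n F μ) =
      (∏ a : Fin n, Nat.card (GL (Fin (μ a)) F)) *
        Fintype.card F ^ Nat.card {p : ((a : Fin n) × Fin (μ a)) × ((a : Fin n) × Fin (μ a)) //
          p.1.1 < p.2.1} := by
  rw [Nat.card_congr ((parEquiv μ).trans ((reEquiv μ hμ).trans btEquiv)), Nat.card_prod,
    Nat.card_pi, Nat.card_fun, Nat.card_eq_fintype_card (α := F)]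
  congr 1
  exact Finset.prod_congr rfl (fun a _ => (Nat.card_congr (glEquiv (Fin (μ a)))).symm)

theorem card_lt {n : ℕ} (μ : Fin n → ℕ) (hμ : ∑ i, μ i = n) :
    2 * Nat.card {p : ((a : Fin n) × Fin (μ a)) × ((a : Fin n) × Fin (μ a)) // p.1.1 < p.2.1}
      + ∑ a, μ a * μ a = n * n := by
  classical
  have hS : Fintype.card ((a : Fin n) × Fin (μ a)) = n := by
    rw [Fintype.card_sigma]
    simp only [Fintype.card_fin]
    exact hμ
  have h0 : n * n = ∑ p : ((a : Fin n) × Fin (μ a)) × ((a : Fin n) × Fin (μ a)), 1 := by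
    rw [Finset.sum_const, Finset.card_univ, Fintype.card_prod, hS, smul_eq_mul, mul_one]
  have h1 : ∀ p : ((a : Fin n) × Fin (μ a)) × ((a : Fin n) × Fin (μ a)),
      (1 : ℕ) = (if p.1.1 < p.2.1 then 1 else 0) + (if p.1.1 = p.2.1 then 1 else 0)
        + (if p.2.1 < p.1.1 then 1 else 0) := by
    intro p
    rcases lt_trichotomy p.1.1 p.2.1 with h | h | h
    · rw [if_pos h, if_neg (ne_of_lt h), if_neg (not_lt.mpr (le_of_lt h))]
    · rw [if_neg (by rw [h]; exact lt_irrefl _), if_pos h, if_neg (by rw [h]; exact lt_irrefl _)]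
    · rw [if_neg (not_lt.mpr (le_of_lt h)), if_neg (ne_of_gt h), if_pos h]
  have hlt : Nat.card {p : ((a : Fin n) × Fin (μ a)) × ((a : Fin n) × Fin (μ a)) //
      p.1.1 < p.2.1} = ∑ p : ((a : Fin n) × Fin (μ a)) × ((a : Fin n) × Fin (μ a)),
        (if p.1.1 < p.2.1 then 1 else 0) := by
    rw [Nat.card_eq_fintype_card, Fintype.card_subtype, Finset.card_filter]
  have hgt : ∑ p : ((a : Fin n) × Fin (μ a)) × ((a : Fin n) × Fin (μ a)),
      (if p.2.1 < p.1.1 then 1 else 0) =
        ∑ p : ((a : Fin n) × Fin (μ a)) × ((a : Fin n) × Fin (μ a)),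
          (if p.1.1 < p.2.1 then 1 else 0) := by
    rw [← Equiv.sum_comp (Equiv.prodComm _ _)]
    rfl
  have hfib : ∀ a : Fin n, ∑ y : (a : Fin n) × Fin (μ a), (if a = y.1 then 1 else 0) = μ a := by
    intro a
    rw [Fintype.sum_sigma]
    have h : ∀ a' : Fin n, ∑ j : Fin (μ a'), (if a = (⟨a', j⟩ : (a : Fin n) × Fin (μ a)).1
        then 1 else 0) = if a = a' then μ a' else 0 := by
      intro a'
      show ∑ j : Fin (μ a'), (if a = a' then 1 else 0) = if a = a' then μ a' else 0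
      split_ifs <;> simp
    rw [Finset.sum_congr rfl (fun a' _ => h a'), Finset.sum_ite_eq]
    simp
  have heq : ∑ p : ((a : Fin n) × Fin (μ a)) × ((a : Fin n) × Fin (μ a)),
      (if p.1.1 = p.2.1 then 1 else 0) = ∑ a, μ a * μ a := by
    rw [Fintype.sum_prod_type]
    simp only
    rw [Finset.sum_congr rfl (fun x _ => hfib x.1), Fintype.sum_sigma]
    simp only [Finset.sum_const, Finset.card_univ, Fintype.card_fin, smul_eq_mul]
  rw [h0, Finset.sum_congr rfl (fun p _ => h1 p), Finset.sum_add_distrib, Finset.sum_add_distrib,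
    hgt, heq, hlt]
  ring

theorem geo (q k : ℕ) (hq : 1 ≤ q) : (q - 1) * ∑ l ∈ range k, q ^ l = q ^ k - 1 := by
  have h1 : 1 ≤ q ^ k := Nat.one_le_pow _ _ hq
  zify [hq, h1]
  have := geom_sum_mul (q : ℤ) k
  linarith

theorem gl_card (m : ℕ) : Nat.card (GL (Fin m) F) =
    Fintype.card F ^ (∑ i ∈ range m, i) * ((Fintype.card F - 1) ^ m *
      ∏ j ∈ range m, ∑ l ∈ range (j + 1), Fintype.card F ^ l) := by
  rw [Matrix.card_GL_field, Cfsg.Agent.S2394.gl_formula]
  congr 1
  have hq : 1 ≤ Fintype.card F := Fintype.card_pos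
  rw [Finset.prod_congr rfl (fun i _ => (geo (Fintype.card F) (i + 1) hq).symm),
    Finset.prod_mul_distrib, Finset.prod_const, Finset.card_range]

theorem tri (m : ℕ) : 2 * (∑ i ∈ range m, i) + m = m * m := by
  have := Finset.sum_range_id_mul_two m
  cases m with
  | zero => simp
  | succ k =>
    rw [Nat.add_sub_cancel] at this
    nlinarith

theorem main {F : Type*} [Field F] [Fintype F] {q : ℕ} (hq : Fintype.card F = q) {n : ℕ} (μ : Fin n → ℕ) (hμ : ∑ i, μ i = n) :
    Nat.card (GL (Fin n) F ⧸ Cfsg.parabolicGL n F μ) * ∏ i : Fin n, ∏ j ∈ Finset.range (μ i), ∑ l ∈ Finset.range (j + 1), q ^ l =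
      ∏ j ∈ Finset.range n, ∑ l ∈ Finset.range (j + 1), q ^ l := by
  subst hq
  have hL := Subgroup.card_eq_card_quotient_mul_card_subgroup (Cfsg.parabolicGL n F μ)
  rw [gl_card, card_par μ hμ] at hL
  have hq2 : 2 ≤ Fintype.card F := Fintype.one_lt_card
  have hexp : (∑ a, ∑ i ∈ range (μ a), i) + Nat.card {p : ((a : Fin n) × Fin (μ a)) ×
      ((a : Fin n) × Fin (μ a)) // p.1.1 < p.2.1} = ∑ i ∈ range n, i := by
    have h1 := card_lt μ hμ
    have h2 := tri n
    have h3 : ∑ a, (2 * (∑ i ∈ range (μ a), i) + μ a) = ∑ a, μ a * μ a :=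
      Finset.sum_congr rfl (fun a _ => tri (μ a))
    rw [Finset.sum_add_distrib, ← Finset.mul_sum, hμ] at h3
    omega
  have hP : (∏ a : Fin n, Nat.card (GL (Fin (μ a)) F)) * Fintype.card F ^ Nat.card
      {p : ((a : Fin n) × Fin (μ a)) × ((a : Fin n) × Fin (μ a)) // p.1.1 < p.2.1}
      = Fintype.card F ^ (∑ i ∈ range n, i) * ((Fintype.card F - 1) ^ n *
        ∏ a : Fin n, ∏ j ∈ range (μ a), ∑ l ∈ range (j + 1), Fintype.card F ^ l) := by
    rw [Finset.prod_congr rfl (fun a _ => gl_card (F := F) (μ a)), Finset.prod_mul_distrib,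
      Finset.prod_mul_distrib, Finset.prod_pow_eq_pow_sum, Finset.prod_pow_eq_pow_sum, hμ,
      ← hexp, pow_add]
    ring
  rw [hP] at hL
  have hpos : 0 < Fintype.card F ^ (∑ i ∈ range n, i) * (Fintype.card F - 1) ^ n := by
    apply Nat.mul_pos
    · exact Nat.pow_pos (by omega)
    · exact Nat.pow_pos (by omega)
  apply Nat.eq_of_mul_eq_mul_left hpos
  rw [show ∀ A B I PP : ℕ, A * B * (I * PP) = I * (A * (B * PP)) from fun A B I PP => by ring,
    ← hL]
  ring

end final

theorem result {F : Type*} [Field F] [Fintype F] {q : ℕ} (hq : Fintype.card F = q) {n : ℕ} (μ : Fin n → ℕ) (hμ : ∑ i, μ i = n) :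
    Nat.card (GL (Fin n) F ⧸ Cfsg.parabolicGL n F μ) * ∏ i : Fin n, ∏ j ∈ Finset.range (μ i), ∑ l ∈ Finset.range (j + 1), q ^ l =
      ∏ j ∈ Finset.range n, ∑ l ∈ Finset.range (j + 1), q ^ l := by
  exact main hq μ hμ

end Cfsg.Agent.S2420
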