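import Cfsg.Statements.S2424
import Cfsg.Agent.S2420

set_option autoImplicit false
open scoped MatrixGroups
open Cfsg


namespace Cfsg.Agent.S2424

open Finset

def Q (q r : ℕ) : ℕ := ∑ l ∈ range r, q ^ l

def Qf (q m : ℕ) : ℕ := ∏ j ∈ range m, Q q (j + 1)

theorem Q_pos (q j : ℕ) : 0 < Q q (j + 1) := by
  unfold Q
  rw [Finset.sum_range_succ']
  simp

theorem Qf_pos (q m : ℕ) : 0 < Qf q m := Finset.prod_pos (fun j _ => Q_pos q j)

theorem Q_split (q j d : ℕ) : Q q (j + d) = Q q j + q ^ j * Q q d := by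
  unfold Q
  rw [Finset.sum_range_add, Finset.mul_sum]
  congr 1
  exact Finset.sum_congr rfl (fun x _ => pow_add q j x)

theorem fix1 {G : Type*} [Group G] (H : Subgroup G) :
    Cfsg.fixedPointCharacter H 1 = (Nat.card (G ⧸ H) : ℂ) := by
  unfold Cfsg.fixedPointCharacter
  rw [MulAction.fixedBy_one_eq_univ]
  congr 1
  exact Nat.card_congr (Equiv.Set.univ _)

theorem index_eq {F : Type*} [Field F] [Fintype F] {q : ℕ} (hq : Fintype.card F = q) {n : ℕ}
    (lam : Fin n → ℕ) (κ : Equiv.Perm (Fin n))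
    (hsum : ∑ i, lam i = n + ∑ i : Fin n, i.val) (hκ : ∀ i, (κ i).val ≤ lam i) :
    (Nat.card (GL (Fin n) F ⧸ Cfsg.parabolicGL n F (fun i => lam i - (κ i).val)) : ℂ)
      = (Qf q n : ℂ) * ∏ i, ((Qf q (lam i - (κ i).val) : ℕ) : ℂ)⁻¹ := by
  have hμ : ∑ i, (lam i - (κ i).val) = n := by
    rw [Finset.sum_tsub_distrib _ (fun i _ => hκ i), hsum, Equiv.sum_comp κ (fun i => i.val)]
    omega
  have h := Cfsg.Agent.S2420.result hq (fun i => lam i - (κ i).val) hμ
  have h' : (Nat.card (GL (Fin n) F ⧸ Cfsg.parabolicGL n F (fun i => lam i - (κ i).val)) : ℂ)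
      * ∏ i, ((Qf q (lam i - (κ i).val) : ℕ) : ℂ) = (Qf q n : ℂ) := by
    unfold Qf Q
    exact_mod_cast h
  rw [← h', mul_assoc, ← Finset.prod_mul_distrib]
  rw [Finset.prod_eq_one (fun i _ => mul_inv_cancel₀
    (Nat.cast_ne_zero.mpr (Qf_pos q _).ne')), mul_one]

theorem key (q lam j : ℕ) :
    ((q : ℂ) ^ (∑ k ∈ range j, k)) * (((Qf q lam : ℕ) : ℂ) *
      (if j ≤ lam then ((Qf q (lam - j) : ℕ) : ℂ)⁻¹ else 0))
      = ∏ k ∈ range j, (((Q q lam : ℕ) : ℂ) - ((Q q k : ℕ) : ℂ)) := by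
  by_cases h : j ≤ lam
  · rw [if_pos h]
    have h2 : ((q : ℂ) ^ (∑ k ∈ range j, k)) * ((Qf q lam : ℕ) : ℂ)
        = ((Qf q (lam - j) : ℕ) : ℂ) * ∏ k ∈ range j, (((Q q lam : ℕ) : ℂ) - ((Q q k : ℕ) : ℂ)) := by
      induction j with
      | zero => simp
      | succ j ih =>
        have ih' := ih (by omega)
        rw [Finset.sum_range_succ, pow_add, Finset.prod_range_succ]
        have e1 : Qf q (lam - j) = Qf q (lam - (j + 1)) * Q q (lam - j) := by
          have e : lam - j = (lam - (j + 1)) + 1 := by omega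
          rw [e]
          unfold Qf
          rw [Finset.prod_range_succ]
        have e2 : ((q : ℂ) ^ j) * ((Q q (lam - j) : ℕ) : ℂ)
            = ((Q q lam : ℕ) : ℂ) - ((Q q j : ℕ) : ℂ) := by
          have e := Q_split q j (lam - j)
          rw [show j + (lam - j) = lam by omega] at e
          rw [e]
          push_cast
          ring
        calc (q : ℂ) ^ (∑ k ∈ range j, k) * (q : ℂ) ^ j * ((Qf q lam : ℕ) : ℂ)
            = (q : ℂ) ^ j * ((q : ℂ) ^ (∑ k ∈ range j, k) * ((Qf q lam : ℕ) : ℂ)) := by ring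
          _ = (q : ℂ) ^ j * (((Qf q (lam - j) : ℕ) : ℂ) *
                ∏ k ∈ range j, (((Q q lam : ℕ) : ℂ) - ((Q q k : ℕ) : ℂ))) := by rw [ih']
          _ = _ := by
            rw [e1]
            push_cast
            rw [← e2]
            ring
    have hne : ((Qf q (lam - j) : ℕ) : ℂ) ≠ 0 := Nat.cast_ne_zero.mpr (Qf_pos q _).ne'
    rw [← mul_assoc, h2]
    field_simp
  · rw [if_neg h, mul_zero, mul_zero]
    symm
    apply Finset.prod_eq_zero (Finset.mem_range.mpr (not_le.mp h))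
    rw [sub_self]

noncomputable def pp (q : ℕ) (j : ℕ) : Polynomial ℂ :=
  ∏ k ∈ range j, (Polynomial.X - Polynomial.C ((Q q k : ℕ) : ℂ))

theorem pp_monic (q j : ℕ) : (pp q j).Monic :=
  Polynomial.monic_prod_of_monic _ _ (fun k _ => Polynomial.monic_X_sub_C _)

theorem pp_deg (q j : ℕ) : (pp q j).natDegree = j := by
  unfold pp
  rw [Polynomial.natDegree_prod_of_monic _ _ (fun k _ => Polynomial.monic_X_sub_C _),
    Finset.sum_congr rfl (fun k _ => Polynomial.natDegree_X_sub_C _)]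
  simp

theorem pp_eval (q j : ℕ) (x : ℂ) :
    (pp q j).eval x = ∏ k ∈ range j, (x - ((Q q k : ℕ) : ℂ)) := by
  unfold pp
  rw [Polynomial.eval_prod]
  simp

theorem tet (n : ℕ) : n * (n - 1) * (n - 2) / 6 = ∑ j ∈ range n, ∑ k ∈ range j, k := by
  have h : ∀ n : ℕ, 6 * ∑ j ∈ range n, ∑ k ∈ range j, k = n * (n - 1) * (n - 2) := by
    intro n
    induction n with
    | zero => simp
    | succ m ih =>
      rw [Finset.sum_range_succ, mul_add, ih]
      have h2 := Finset.sum_range_id_mul_two m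
      rcases m with _ | _ | m
      · simp
      · simp
      · simp only [Nat.add_sub_cancel] at h2 ⊢
        have e2 : m + 1 + 1 - 2 = m := by omega
        have e3 : m + 1 + 1 + 1 - 2 = m + 1 := by omega
        rw [e2, e3]
        nlinarith
  rw [← h n]
  omega

theorem main {F : Type*} [Field F] [Fintype F] {q : ℕ} (hq : Fintype.card F = q) {n : ℕ} (ν : Fin n → ℕ) (hmono : Monotone ν) (hsum : ∑ i, ν i = n) :
    Cfsg.unipotentCharacterGL n F ν 1 * (q : ℂ) ^ (n * (n - 1) * (n - 2) / 6) *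
        ∏ i : Fin n, ∏ j ∈ Finset.range (ν i + i.val), ((∑ l ∈ Finset.range (j + 1), q ^ l : ℕ) : ℂ) =
      (∏ j ∈ Finset.range n, ((∑ l ∈ Finset.range (j + 1), q ^ l : ℕ) : ℂ)) *
        ∏ i : Fin n, ∏ j ∈ Finset.univ.filter (fun j : Fin n => i < j),
          (((∑ l ∈ Finset.range (ν j + j.val), q ^ l : ℕ) : ℂ) - ((∑ l ∈ Finset.range (ν i + i.val), q ^ l : ℕ) : ℂ)) := by
  classical
  obtain ⟨lam, hlam⟩ : ∃ lam : Fin n → ℕ, lam = fun i => ν i + i.val := ⟨_, rfl⟩
  have hlsum : ∑ i, lam i = n + ∑ i : Fin n, i.val := by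
    rw [hlam]
    simp only
    rw [Finset.sum_add_distrib, hsum]
  obtain ⟨c, hc⟩ : ∃ c : Fin n → Fin n → ℂ, c = fun i j =>
      if j.val ≤ lam i then ((Qf q (lam i - j.val) : ℕ) : ℂ)⁻¹ else 0 := ⟨_, rfl⟩
  have hγ : Cfsg.unipotentCharacterGL n F ν 1 = (Qf q n : ℂ) * (Matrix.of c).det := by
    unfold Cfsg.unipotentCharacterGL
    rw [← Matrix.det_transpose, Matrix.det_apply', Finset.mul_sum]
    refine Finset.sum_congr rfl (fun κ _ => ?_)
    by_cases hκ : ∀ i : Fin n, (κ i).val ≤ ν i + i.val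
    · rw [if_pos hκ, fix1]
      have hκ' : ∀ i, (κ i).val ≤ lam i := by rw [hlam]; exact hκ
      have h1 := index_eq (F := F) hq lam κ hlsum hκ'
      rw [hlam] at h1
      simp only at h1
      rw [h1]
      have h2 : ∏ i, (Matrix.of c).transpose (κ i) i
          = ∏ i, ((Qf q (ν i + i.val - (κ i).val) : ℕ) : ℂ)⁻¹ := by
        refine Finset.prod_congr rfl (fun i _ => ?_)
        show c i (κ i) = _
        rw [hc, hlam]
        simp only
        rw [if_pos (hκ i)]
      rw [h2]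
      ring
    · rw [if_neg hκ]
      push_neg at hκ
      obtain ⟨i, hi⟩ := hκ
      have h2 : ∏ i, (Matrix.of c).transpose (κ i) i = 0 := by
        apply Finset.prod_eq_zero (Finset.mem_univ i)
        show c i (κ i) = 0
        rw [hc, hlam]
        simp only
        rw [if_neg (by omega)]
      rw [h2]
      ring
  obtain ⟨X, hX⟩ : ∃ X : Fin n → ℂ, X = fun i => ((Q q (lam i) : ℕ) : ℂ) := ⟨_, rfl⟩
  have hV : (Matrix.of (fun i j : Fin n => ((pp q j.val).eval (X i)))).det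
      = ∏ i : Fin n, ∏ j ∈ Finset.Ioi i, (X j - X i) := by
    rw [← Matrix.det_vandermonde]
    exact (Matrix.det_eval_matrixOfPolynomials_eq_det_vandermonde X (fun j => pp q j.val)
      (fun j => pp_deg q j.val) (fun j => pp_monic q j.val)).symm
  have hB : (Matrix.of (fun i j : Fin n => ((pp q j.val).eval (X i))))
      = Matrix.of (fun i j : Fin n => ((q : ℂ) ^ (∑ k ∈ range j.val, k)) *
          (Matrix.of (fun i j : Fin n => ((Qf q (lam i) : ℕ) : ℂ) * (Matrix.of c) i j)) i j) := by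
    ext i j
    rw [Matrix.of_apply, Matrix.of_apply, Matrix.of_apply, Matrix.of_apply, pp_eval, hX, hc]
    simp only
    rw [key]
  rw [hB, Matrix.det_mul_row, Matrix.det_mul_column, Finset.prod_pow_eq_pow_sum,
    Fin.sum_univ_eq_sum_range (fun j => ∑ k ∈ range j, k) n, ← tet] at hV
  have hL : ∏ i : Fin n, ∏ j ∈ Finset.range (ν i + i.val),
      ((∑ l ∈ Finset.range (j + 1), q ^ l : ℕ) : ℂ) = ∏ i, ((Qf q (lam i) : ℕ) : ℂ) := by
    refine Finset.prod_congr rfl (fun i _ => ?_)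
    rw [hlam]
    unfold Qf Q
    push_cast
    rfl
  have hR : ∏ i : Fin n, ∏ j ∈ Finset.univ.filter (fun j : Fin n => i < j),
      (((∑ l ∈ Finset.range (ν j + j.val), q ^ l : ℕ) : ℂ)
        - ((∑ l ∈ Finset.range (ν i + i.val), q ^ l : ℕ) : ℂ))
      = ∏ i : Fin n, ∏ j ∈ Finset.Ioi i, (X j - X i) := by
    refine Finset.prod_congr rfl (fun i _ => ?_)
    have e : Finset.univ.filter (fun j : Fin n => i < j) = Finset.Ioi i := by
      ext j; simp
    rw [e, hX, hlam]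
    rfl
  have hn : ∏ j ∈ Finset.range n, ((∑ l ∈ Finset.range (j + 1), q ^ l : ℕ) : ℂ)
      = ((Qf q n : ℕ) : ℂ) := by
    unfold Qf Q
    push_cast
    rfl
  rw [hL, hR, hn, ← hV, hγ]
  ring

theorem result {F : Type*} [Field F] [Fintype F] {q : ℕ} (hq : Fintype.card F = q) {n : ℕ} (ν : Fin n → ℕ) (hmono : Monotone ν) (hsum : ∑ i, ν i = n) :
    Cfsg.unipotentCharacterGL n F ν 1 * (q : ℂ) ^ (n * (n - 1) * (n - 2) / 6) *
        ∏ i : Fin n, ∏ j ∈ Finset.range (ν i + i.val), ((∑ l ∈ Finset.range (j + 1), q ^ l : ℕ) : ℂ) =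
      (∏ j ∈ Finset.range n, ((∑ l ∈ Finset.range (j + 1), q ^ l : ℕ) : ℂ)) *
        ∏ i : Fin n, ∏ j ∈ Finset.univ.filter (fun j : Fin n => i < j),
          (((∑ l ∈ Finset.range (ν j + j.val), q ^ l : ℕ) : ℂ) - ((∑ l ∈ Finset.range (ν i + i.val), q ^ l : ℕ) : ℂ)) := by
  exact main hq ν hmono hsum

end Cfsg.Agent.S2424
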