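import Cfsg.Statements.S2428
import Mathlib

set_option autoImplicit false
open Cfsg

namespace Cfsg.Agent.S2428

open Matrix

theorem sl2_det {F : Type*} [Field F] (x : Matrix.SpecialLinearGroup (Fin 2) F) :
    (x : Matrix (Fin 2) (Fin 2) F) 0 0 * (x : Matrix (Fin 2) (Fin 2) F) 1 1 -
      (x : Matrix (Fin 2) (Fin 2) F) 0 1 * (x : Matrix (Fin 2) (Fin 2) F) 1 0 = 1 := by
  have h := x.2
  rw [Matrix.det_fin_two] at h
  exact h

theorem sl2_ext {F : Type*} [Field F] (g h : Matrix.SpecialLinearGroup (Fin 2) F)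
    (h00 : (g : Matrix (Fin 2) (Fin 2) F) 0 0 = (h : Matrix (Fin 2) (Fin 2) F) 0 0)
    (h01 : (g : Matrix (Fin 2) (Fin 2) F) 0 1 = (h : Matrix (Fin 2) (Fin 2) F) 0 1)
    (h10 : (g : Matrix (Fin 2) (Fin 2) F) 1 0 = (h : Matrix (Fin 2) (Fin 2) F) 1 0)
    (h11 : (g : Matrix (Fin 2) (Fin 2) F) 1 1 = (h : Matrix (Fin 2) (Fin 2) F) 1 1) : g = h := by
  apply Subtype.ext
  ext i j
  fin_cases i <;> fin_cases j <;> assumption

theorem ent {F : Type*} [Field F] {g h : Matrix.SpecialLinearGroup (Fin 2) F} (e : g = h)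
    (i j : Fin 2) : (g : Matrix (Fin 2) (Fin 2) F) i j = (h : Matrix (Fin 2) (Fin 2) F) i j := by
  rw [e]

/-- membership in the centralizer of `d` -/
theorem T_mem {F : Type*} [Field F] (d : Matrix.SpecialLinearGroup (Fin 2) F)
    (hd01 : (d : Matrix (Fin 2) (Fin 2) F) 0 1 = 0) (hd10 : (d : Matrix (Fin 2) (Fin 2) F) 1 0 = 0)
    (hda : (d : Matrix (Fin 2) (Fin 2) F) 0 0 ^ 2 ≠ 1) (g : Matrix.SpecialLinearGroup (Fin 2) F) :
    g ∈ Subgroup.centralizer ({d} : Set (Matrix.SpecialLinearGroup (Fin 2) F)) ↔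
      ((g : Matrix (Fin 2) (Fin 2) F) 0 1 = 0 ∧ (g : Matrix (Fin 2) (Fin 2) F) 1 0 = 0) := by
  have hdd := sl2_det d
  rw [hd01, zero_mul, sub_zero] at hdd
  have hne : (d : Matrix (Fin 2) (Fin 2) F) 0 0 - (d : Matrix (Fin 2) (Fin 2) F) 1 1 ≠ 0 := by
    intro h
    apply hda
    have : (d : Matrix (Fin 2) (Fin 2) F) 0 0 = (d : Matrix (Fin 2) (Fin 2) F) 1 1 := sub_eq_zero.1 h
    rw [← this] at hdd
    rw [sq]
    exact hdd
  rw [Subgroup.mem_centralizer_iff]
  simp only [Set.mem_singleton_iff, forall_eq]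
  constructor
  · intro h
    have e01 := ent h 0 1
    have e10 := ent h 1 0
    simp [Matrix.SpecialLinearGroup.coe_mul, Matrix.mul_apply, Fin.sum_univ_two, hd01, hd10] at e01 e10
    constructor
    · have : (g : Matrix (Fin 2) (Fin 2) F) 0 1 *
          ((d : Matrix (Fin 2) (Fin 2) F) 0 0 - (d : Matrix (Fin 2) (Fin 2) F) 1 1) = 0 := by
        linear_combination e01
      rcases mul_eq_zero.1 this with h' | h'
      · exact h'
      · exact absurd h' hne
    · have : (g : Matrix (Fin 2) (Fin 2) F) 1 0 *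
          ((d : Matrix (Fin 2) (Fin 2) F) 0 0 - (d : Matrix (Fin 2) (Fin 2) F) 1 1) = 0 := by
        linear_combination -e10
      rcases mul_eq_zero.1 this with h' | h'
      · exact h'
      · exact absurd h' hne
  · rintro ⟨h01, h10⟩
    apply sl2_ext <;>
      simp [Matrix.SpecialLinearGroup.coe_mul, Matrix.mul_apply, Fin.sum_univ_two, hd01, hd10, h01, h10,
        mul_comm]

theorem N_mem {F : Type*} [Field F] (d : Matrix.SpecialLinearGroup (Fin 2) F)
    (hd01 : (d : Matrix (Fin 2) (Fin 2) F) 0 1 = 0) (hd10 : (d : Matrix (Fin 2) (Fin 2) F) 1 0 = 0)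
    (hda : (d : Matrix (Fin 2) (Fin 2) F) 0 0 ^ 2 ≠ 1) (g : Matrix.SpecialLinearGroup (Fin 2) F) :
    g ∈ Subgroup.normalizer ((Subgroup.centralizer ({d} : Set (Matrix.SpecialLinearGroup (Fin 2) F))) :
        Set (Matrix.SpecialLinearGroup (Fin 2) F)) ↔
      (((g : Matrix (Fin 2) (Fin 2) F) 0 1 = 0 ∧ (g : Matrix (Fin 2) (Fin 2) F) 1 0 = 0) ∨
        ((g : Matrix (Fin 2) (Fin 2) F) 0 0 = 0 ∧ (g : Matrix (Fin 2) (Fin 2) F) 1 1 = 0)) := by
  have hdd := sl2_det d
  rw [hd01, zero_mul, sub_zero] at hdd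
  have hne : (d : Matrix (Fin 2) (Fin 2) F) 0 0 - (d : Matrix (Fin 2) (Fin 2) F) 1 1 ≠ 0 := by
    intro h
    apply hda
    have : (d : Matrix (Fin 2) (Fin 2) F) 0 0 = (d : Matrix (Fin 2) (Fin 2) F) 1 1 := sub_eq_zero.1 h
    rw [← this] at hdd
    rw [sq]
    exact hdd
  have hgd := sl2_det g
  rw [Subgroup.mem_set_normalizer_iff]
  constructor
  · intro h
    have h1 := (h d).1 (by
      rw [SetLike.mem_coe, T_mem d hd01 hd10 hda]
      exact ⟨hd01, hd10⟩)
    rw [SetLike.mem_coe, T_mem d hd01 hd10 hda] at h1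
    obtain ⟨d', hd'⟩ : ∃ d' : Matrix.SpecialLinearGroup (Fin 2) F, d' = g * d * g⁻¹ := ⟨_, rfl⟩
    rw [← hd'] at h1
    have hd'' : d' * g = g * d := by rw [hd']; group
    have e00 := ent hd'' 0 0
    have e01 := ent hd'' 0 1
    have e10 := ent hd'' 1 0
    have e11 := ent hd'' 1 1
    simp [Matrix.SpecialLinearGroup.coe_mul, Matrix.mul_apply, Fin.sum_univ_two, hd01, hd10, h1.1, h1.2]
      at e00 e01 e10 e11
    have p00 : (g : Matrix (Fin 2) (Fin 2) F) 0 0 *
        ((d' : Matrix (Fin 2) (Fin 2) F) 0 0 - (d : Matrix (Fin 2) (Fin 2) F) 0 0) = 0 := by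
      linear_combination e00
    have p01 : (g : Matrix (Fin 2) (Fin 2) F) 0 1 *
        ((d' : Matrix (Fin 2) (Fin 2) F) 0 0 - (d : Matrix (Fin 2) (Fin 2) F) 1 1) = 0 := by
      linear_combination e01
    have p10 : (g : Matrix (Fin 2) (Fin 2) F) 1 0 *
        ((d' : Matrix (Fin 2) (Fin 2) F) 1 1 - (d : Matrix (Fin 2) (Fin 2) F) 0 0) = 0 := by
      linear_combination e10
    have p11 : (g : Matrix (Fin 2) (Fin 2) F) 1 1 *
        ((d' : Matrix (Fin 2) (Fin 2) F) 1 1 - (d : Matrix (Fin 2) (Fin 2) F) 1 1) = 0 := by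
      linear_combination e11
    by_cases h00 : (g : Matrix (Fin 2) (Fin 2) F) 0 0 = 0
    · right
      refine ⟨h00, ?_⟩
      rw [h00, zero_mul, zero_sub] at hgd
      have h10 : (g : Matrix (Fin 2) (Fin 2) F) 1 0 ≠ 0 := by
        intro h0
        rw [h0, mul_zero, neg_zero] at hgd
        exact zero_ne_one hgd
      have e1 : (d' : Matrix (Fin 2) (Fin 2) F) 1 1 = (d : Matrix (Fin 2) (Fin 2) F) 0 0 := by
        rcases mul_eq_zero.1 p10 with h' | h'
        · exact absurd h' h10
        · exact sub_eq_zero.1 h'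
      rw [e1] at p11
      rcases mul_eq_zero.1 p11 with h' | h'
      · exact h'
      · exact absurd h' hne
    · left
      have e0 : (d' : Matrix (Fin 2) (Fin 2) F) 0 0 = (d : Matrix (Fin 2) (Fin 2) F) 0 0 := by
        rcases mul_eq_zero.1 p00 with h' | h'
        · exact absurd h' h00
        · exact sub_eq_zero.1 h'
      rw [e0] at p01
      have h01 : (g : Matrix (Fin 2) (Fin 2) F) 0 1 = 0 := by
        rcases mul_eq_zero.1 p01 with h' | h'
        · exact h'
        · exact absurd h' hne
      refine ⟨h01, ?_⟩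
      rw [h01, zero_mul, sub_zero] at hgd
      have h11 : (g : Matrix (Fin 2) (Fin 2) F) 1 1 ≠ 0 := by
        intro h0
        rw [h0, mul_zero] at hgd
        exact zero_ne_one hgd
      have e1 : (d' : Matrix (Fin 2) (Fin 2) F) 1 1 = (d : Matrix (Fin 2) (Fin 2) F) 1 1 := by
        rcases mul_eq_zero.1 p11 with h' | h'
        · exact absurd h' h11
        · exact sub_eq_zero.1 h'
      rw [e1] at p10
      rcases mul_eq_zero.1 p10 with h' | h'
      · exact h'
      · exact absurd (by linear_combination -h') hne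
  · intro h n
    rw [SetLike.mem_coe, SetLike.mem_coe, T_mem d hd01 hd10 hda, T_mem d hd01 hd10 hda]
    rcases h with ⟨h01, h10⟩ | ⟨h00, h11⟩
    · rw [h01, zero_mul, sub_zero] at hgd
      have h00 : (g : Matrix (Fin 2) (Fin 2) F) 0 0 ≠ 0 := by
        intro h0
        rw [h0, zero_mul] at hgd
        exact zero_ne_one hgd
      have h11 : (g : Matrix (Fin 2) (Fin 2) F) 1 1 ≠ 0 := by
        intro h0
        rw [h0, mul_zero] at hgd
        exact zero_ne_one hgd
      simp [Matrix.SpecialLinearGroup.coe_mul, Matrix.SpecialLinearGroup.coe_inv, Matrix.adjugate_fin_two,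
        Matrix.mul_apply, Fin.sum_univ_two, h01, h10, h00, h11]
    · rw [h00, zero_mul, zero_sub] at hgd
      have h01 : (g : Matrix (Fin 2) (Fin 2) F) 0 1 ≠ 0 := by
        intro h0
        rw [h0, zero_mul, neg_zero] at hgd
        exact zero_ne_one hgd
      have h10 : (g : Matrix (Fin 2) (Fin 2) F) 1 0 ≠ 0 := by
        intro h0
        rw [h0, mul_zero, neg_zero] at hgd
        exact zero_ne_one hgd
      simp [Matrix.SpecialLinearGroup.coe_mul, Matrix.SpecialLinearGroup.coe_inv, Matrix.adjugate_fin_two,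
        Matrix.mul_apply, Fin.sum_univ_two, h00, h11, h01, h10]
      tauto

/-- monomial matrices of determinant one -/
def MM {F : Type*} [Field F] (s : Bool) (a : Fˣ) : Matrix.SpecialLinearGroup (Fin 2) F :=
  ⟨if s then !![(a : F), 0; 0, (a : F)⁻¹] else !![0, (a : F); -(a : F)⁻¹, 0], by
    cases s <;> simp [Matrix.det_fin_two_of]⟩

theorem MM_true {F : Type*} [Field F] (a : Fˣ) :
    ((MM true a : Matrix.SpecialLinearGroup (Fin 2) F) : Matrix (Fin 2) (Fin 2) F) =
      !![(a : F), 0; 0, (a : F)⁻¹] := rfl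

theorem MM_false {F : Type*} [Field F] (a : Fˣ) :
    ((MM false a : Matrix.SpecialLinearGroup (Fin 2) F) : Matrix (Fin 2) (Fin 2) F) =
      !![0, (a : F); -(a : F)⁻¹, 0] := rfl

def cc {F : Type*} [Field F] (s : Bool) (a : Fˣ) (s' : Bool) (b : Fˣ) : Prop :=
  match s, s' with
  | true, true => True
  | true, false => (a : F) * a = 1
  | false, true => (b : F) * b = 1
  | false, false => (a : F) * a = b * b

theorem MM_comm {F : Type*} [Field F] (s : Bool) (a : Fˣ) (s' : Bool) (b : Fˣ) :
    MM s a * MM s' b = MM s' b * MM s a ↔ cc s a s' b := by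
  have ha := a.ne_zero
  have hb := b.ne_zero
  cases s <;> cases s' <;> simp only [cc]
  · constructor
    · intro h
      have e := ent h 0 0
      simp [MM_false, Matrix.SpecialLinearGroup.coe_mul, Matrix.mul_apply, Fin.sum_univ_two] at e
      field_simp at e
      linear_combination e
    · intro h
      apply sl2_ext <;>
        simp [MM_false, Matrix.SpecialLinearGroup.coe_mul, Matrix.mul_apply, Fin.sum_univ_two]
      · field_simp
        linear_combination h
      · field_simp
        linear_combination -h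
  · constructor
    · intro h
      have e := ent h 0 1
      simp [MM_false, MM_true, Matrix.SpecialLinearGroup.coe_mul, Matrix.mul_apply, Fin.sum_univ_two] at e
      field_simp at e
      linear_combination -e
    · intro h
      apply sl2_ext <;>
        simp [MM_false, MM_true, Matrix.SpecialLinearGroup.coe_mul, Matrix.mul_apply, Fin.sum_univ_two]
      · field_simp
        linear_combination -h
      · field_simp
        linear_combination h
  · constructor
    · intro h
      have e := ent h 0 1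
      simp [MM_false, MM_true, Matrix.SpecialLinearGroup.coe_mul, Matrix.mul_apply, Fin.sum_univ_two] at e
      field_simp at e
      linear_combination e
    · intro h
      apply sl2_ext <;>
        simp [MM_false, MM_true, Matrix.SpecialLinearGroup.coe_mul, Matrix.mul_apply, Fin.sum_univ_two]
      · field_simp
        linear_combination h
      · field_simp
        linear_combination -h
  · simp only [iff_true]
    apply sl2_ext <;>
      simp [MM_true, Matrix.SpecialLinearGroup.coe_mul, Matrix.mul_apply, Fin.sum_univ_two, mul_comm]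

theorem MM_inj {F : Type*} [Field F] (s : Bool) (a : Fˣ) (s' : Bool) (b : Fˣ)
    (h : MM s a = MM s' b) : s = s' ∧ a = b := by
  have ha := a.ne_zero
  have hb := b.ne_zero
  cases s <;> cases s'
  · have e := ent h 0 1
    simp [MM_false] at e
    exact ⟨rfl, Units.ext e⟩
  · have e := ent h 0 1
    simp [MM_false, MM_true] at e
  · have e := ent h 0 1
    simp [MM_false, MM_true] at e
    exact absurd e.symm hb
  · have e := ent h 0 0
    simp [MM_true] at e
    exact ⟨rfl, Units.ext e⟩

theorem count_cc {F : Type*} [Field F] [Fintype F] (h2 : (2 : F) ≠ 0) :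
    Nat.card {p : (Bool × Fˣ) × (Bool × Fˣ) // cc p.1.1 p.1.2 p.2.1 p.2.2} =
      (Fintype.card F - 1) * (Fintype.card F + 5) := by
  classical
  have hn : Fintype.card Fˣ = Fintype.card F - 1 := Fintype.card_units F
  have hq : 0 < Fintype.card F := Fintype.card_pos
  have hneg : ∀ a : Fˣ, a ≠ -a := by
    intro a h
    have h' : (a : F) = -a := by
      have := congrArg Units.val h
      simpa using this
    have h3 : (2 : F) * a = 0 := by linear_combination h'
    rcases mul_eq_zero.1 h3 with h4 | h4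
    · exact h2 h4
    · exact a.ne_zero h4
  have S3 : ∑ b : Fˣ, (if (b : F) * b = 1 then 1 else 0) = 2 := by
    rw [← Finset.card_filter]
    have : (Finset.univ.filter fun b : Fˣ => (b : F) * b = 1) = {1, -1} := by
      ext b
      simp only [Finset.mem_filter, Finset.mem_univ, true_and, Finset.mem_insert,
        Finset.mem_singleton]
      rw [mul_self_eq_one_iff]
      constructor
      · rintro (h | h)
        · left; exact Units.ext h
        · right; exact Units.ext (by simpa using h)
      · rintro (rfl | rfl) <;> simp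
    rw [this, Finset.card_pair (hneg 1)]
  have S4 : ∀ a : Fˣ, ∑ b : Fˣ, (if (a : F) * a = b * b then 1 else 0) = 2 := by
    intro a
    rw [← Finset.card_filter]
    have : (Finset.univ.filter fun b : Fˣ => (a : F) * a = b * b) = {a, -a} := by
      ext b
      simp only [Finset.mem_filter, Finset.mem_univ, true_and, Finset.mem_insert,
        Finset.mem_singleton]
      rw [mul_self_eq_mul_self_iff]
      constructor
      · rintro (h | h)
        · left; exact (Units.ext h).symm
        · right
          apply Units.ext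
          rw [Units.val_neg, h, neg_neg]
      · rintro (rfl | rfl) <;> simp
    rw [this, Finset.card_pair (hneg a)]
  rw [Nat.card_eq_fintype_card, Fintype.card_subtype, Finset.card_filter]
  have c_tt : ∀ a b : Fˣ, cc true a true b ↔ True := fun _ _ => Iff.rfl
  have c_tf : ∀ a b : Fˣ, cc true a false b ↔ (a : F) * a = 1 := fun _ _ => Iff.rfl
  have c_ft : ∀ a b : Fˣ, cc false a true b ↔ (b : F) * b = 1 := fun _ _ => Iff.rfl
  have c_ff : ∀ a b : Fˣ, cc false a false b ↔ (a : F) * a = b * b := fun _ _ => Iff.rfl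
  simp only [Fintype.sum_prod_type, Fintype.sum_bool]
  simp only [c_tt, c_tf, c_ft, c_ff]
  simp only [if_true, Finset.sum_const, Finset.card_univ, smul_eq_mul, mul_one, S3, S4,
    Finset.sum_add_distrib, hn]
  rw [← Finset.mul_sum, S3]
  obtain ⟨k, hk⟩ : ∃ k, Fintype.card F = k + 1 := ⟨Fintype.card F - 1, by omega⟩
  rw [hk]
  simp only [Nat.add_sub_cancel]
  ring

theorem result {F : Type*} [Field F] [Fintype F] (hodd : Odd (Fintype.card F))
    (d : Matrix.SpecialLinearGroup (Fin 2) F) (hd01 : (d : Matrix (Fin 2) (Fin 2) F) 0 1 = 0) (hd10 : (d : Matrix (Fin 2) (Fin 2) F) 1 0 = 0) (hda : (d : Matrix (Fin 2) (Fin 2) F) 0 0 ^ 2 ≠ 1) :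
    (∀ g : Matrix.SpecialLinearGroup (Fin 2) F, g ∈ Subgroup.centralizer ({d} : Set (Matrix.SpecialLinearGroup (Fin 2) F)) ↔ ((g : Matrix (Fin 2) (Fin 2) F) 0 1 = 0 ∧ (g : Matrix (Fin 2) (Fin 2) F) 1 0 = 0)) ∧
    Nat.card (Subgroup.normalizer ((Subgroup.centralizer ({d} : Set (Matrix.SpecialLinearGroup (Fin 2) F))) : Set (Matrix.SpecialLinearGroup (Fin 2) F))) = 2 * (Fintype.card F - 1) ∧
    Nat.card (ConjClasses (Subgroup.normalizer ((Subgroup.centralizer ({d} : Set (Matrix.SpecialLinearGroup (Fin 2) F))) : Set (Matrix.SpecialLinearGroup (Fin 2) F)))) = (Fintype.card F + 5) / 2 ∧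
    ∀ g : Matrix.SpecialLinearGroup (Fin 2) F, g ∈ Subgroup.normalizer ((Subgroup.centralizer ({d} : Set (Matrix.SpecialLinearGroup (Fin 2) F))) : Set (Matrix.SpecialLinearGroup (Fin 2) F)) →
      g ∉ Subgroup.centralizer ({d} : Set (Matrix.SpecialLinearGroup (Fin 2) F)) → ((g * g) : Matrix (Fin 2) (Fin 2) F) = -1 := by
  classical
  have hF : ringChar F ≠ 2 := by
    intro h
    have := FiniteField.even_card_iff_char_two.1 h
    rcases hodd with ⟨k, hk⟩
    omega
  have h2 : (2 : F) ≠ 0 := Ring.two_ne_zero hF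
  have hT := T_mem d hd01 hd10 hda
  have hN := N_mem d hd01 hd10 hda
  have hMN : ∀ (s : Bool) (a : Fˣ), MM s a ∈ Subgroup.normalizer
      ((Subgroup.centralizer ({d} : Set (Matrix.SpecialLinearGroup (Fin 2) F))) :
        Set (Matrix.SpecialLinearGroup (Fin 2) F)) := by
    intro s a
    rw [hN]
    cases s
    · right; simp [MM_false]
    · left; simp [MM_true]
  have hbij : Function.Bijective (fun sa : Bool × Fˣ =>
      (⟨MM sa.1 sa.2, hMN sa.1 sa.2⟩ : Subgroup.normalizer
      ((Subgroup.centralizer ({d} : Set (Matrix.SpecialLinearGroup (Fin 2) F))) :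
        Set (Matrix.SpecialLinearGroup (Fin 2) F)))) := by
    constructor
    · rintro ⟨s, a⟩ ⟨s', b⟩ h
      have h' : MM s a = MM s' b := congrArg Subtype.val h
      obtain ⟨h1, h2⟩ := MM_inj s a s' b h'
      rw [h1, h2]
    · rintro ⟨g, hg⟩
      have hgd := sl2_det g
      rcases (hN g).1 hg with ⟨h01, h10⟩ | ⟨h00, h11⟩
      · rw [h01, zero_mul, sub_zero] at hgd
        have h00 : (g : Matrix (Fin 2) (Fin 2) F) 0 0 ≠ 0 := by
          intro h0
          rw [h0, zero_mul] at hgd
          exact zero_ne_one hgd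
        refine ⟨(true, Units.mk0 _ h00), ?_⟩
        apply Subtype.ext
        apply sl2_ext <;> simp [MM_true, h01, h10]
        exact (eq_inv_of_mul_eq_one_right hgd).symm
      · rw [h00, zero_mul, zero_sub] at hgd
        have h01 : (g : Matrix (Fin 2) (Fin 2) F) 0 1 ≠ 0 := by
          intro h0
          rw [h0, zero_mul, neg_zero] at hgd
          exact zero_ne_one hgd
        refine ⟨(false, Units.mk0 _ h01), ?_⟩
        apply Subtype.ext
        apply sl2_ext <;> simp [MM_false, h00, h11]
        field_simp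
        linear_combination hgd
  have hcardN : Nat.card (Subgroup.normalizer
      ((Subgroup.centralizer ({d} : Set (Matrix.SpecialLinearGroup (Fin 2) F))) :
        Set (Matrix.SpecialLinearGroup (Fin 2) F))) = 2 * (Fintype.card F - 1) := by
    rw [← Nat.card_eq_of_bijective _ hbij, Nat.card_prod, Nat.card_units, Nat.card_eq_fintype_card,
      Nat.card_eq_fintype_card, Fintype.card_bool]
  refine ⟨hT, hcardN, ?_, ?_⟩
  · have h1 := card_comm_eq_card_conjClasses_mul_card (Subgroup.normalizer
      ((Subgroup.centralizer ({d} : Set (Matrix.SpecialLinearGroup (Fin 2) F))) :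
        Set (Matrix.SpecialLinearGroup (Fin 2) F)))
    have h3 : Nat.card {p : (Bool × Fˣ) × (Bool × Fˣ) // cc p.1.1 p.1.2 p.2.1 p.2.2} =
        Nat.card { p : (Subgroup.normalizer
      ((Subgroup.centralizer ({d} : Set (Matrix.SpecialLinearGroup (Fin 2) F))) :
        Set (Matrix.SpecialLinearGroup (Fin 2) F))) × (Subgroup.normalizer
      ((Subgroup.centralizer ({d} : Set (Matrix.SpecialLinearGroup (Fin 2) F))) :
        Set (Matrix.SpecialLinearGroup (Fin 2) F))) // Commute p.1 p.2 } := by
      apply Nat.card_congr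
      refine Equiv.subtypeEquiv (Equiv.prodCongr (Equiv.ofBijective _ hbij) (Equiv.ofBijective _ hbij)) ?_
      rintro ⟨⟨s, a⟩, ⟨s', b⟩⟩
      simp only [Equiv.prodCongr_apply, Prod.map_apply, Equiv.ofBijective_apply]
      rw [← MM_comm, commute_iff_eq, Subtype.ext_iff]
      rfl
    rw [← h3, count_cc h2, hcardN] at h1
    have hq : 1 < Fintype.card F := Fintype.one_lt_card
    have h4 : (Fintype.card F - 1) * (Nat.card (ConjClasses (Subgroup.normalizer
      ((Subgroup.centralizer ({d} : Set (Matrix.SpecialLinearGroup (Fin 2) F))) :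
        Set (Matrix.SpecialLinearGroup (Fin 2) F)))) * 2) = (Fintype.card F - 1) * (Fintype.card F + 5) := by
      rw [h1]; ring
    have h5 := Nat.eq_of_mul_eq_mul_left (by omega) h4
    omega
  · intro g hg hgT
    have hgd := sl2_det g
    rcases (hN g).1 hg with h | ⟨h00, h11⟩
    · exact absurd ((hT g).2 h) hgT
    · rw [h00, zero_mul, zero_sub] at hgd
      ext i j
      fin_cases i <;> fin_cases j <;> simp [Matrix.mul_apply, Fin.sum_univ_two, h00, h11]
      · linear_combination -hgd
      · linear_combination -hgd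

end Cfsg.Agent.S2428
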