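import Cfsg.Statements.S2433
import Mathlib

set_option autoImplicit false
open Cfsg

namespace Cfsg.Agent.S2433

open Matrix

theorem sl2_det {F : Type*} [Field F] (x : Matrix.SpecialLinearGroup (Fin 2) F) :
    (x : Matrix (Fin 2) (Fin 2) F) 0 0 * (x : Matrix (Fin 2) (Fin 2) F) 1 1 -
      (x : Matrix (Fin 2) (Fin 2) F) 0 1 * (x : Matrix (Fin 2) (Fin 2) F) 1 0 = 1 := by
  have h := x.2
  rw [Matrix.det_fin_two] at h
  exact h

abbrev BB (F : Type*) [Field F] : Subgroup (Matrix.SpecialLinearGroup (Fin 2) F) :=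
  (Cfsg.upperTriangularGL 2 F).comap Matrix.SpecialLinearGroup.toGL

theorem mem_B' {F : Type*} [Field F] (g : Matrix.SpecialLinearGroup (Fin 2) F) :
    g ∈ BB F ↔ (g : Matrix (Fin 2) (Fin 2) F) 1 0 = 0 := by
  rw [Subgroup.mem_comap]
  change (Matrix.SpecialLinearGroup.toGL g : Matrix (Fin 2) (Fin 2) F).BlockTriangular id ↔ _
  constructor
  · intro h
    exact h (by decide : id (0 : Fin 2) < id 1)
  · intro h i j hij
    fin_cases i <;> fin_cases j <;> simp_all

noncomputable def th' {F : Type*} [Field F] [DecidableEq F] (α : MulChar F ℂ)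
    (y : Matrix.SpecialLinearGroup (Fin 2) F) : ℂ :=
  if (y : Matrix (Fin 2) (Fin 2) F) 1 0 = 0 then α ((y : Matrix (Fin 2) (Fin 2) F) 0 0) else 0

theorem ext_eq {F : Type*} [Field F] [DecidableEq F] (α : MulChar F ℂ) :
    Cfsg.extendByZero (BB F) (fun b => α (((b : Matrix.SpecialLinearGroup (Fin 2) F) :
      Matrix (Fin 2) (Fin 2) F) 0 0)) = th' α := by
  funext y
  unfold Cfsg.extendByZero th'
  by_cases h : (y : Matrix (Fin 2) (Fin 2) F) 1 0 = 0
  · rw [if_pos h]
    have hy : y ∈ BB F := (mem_B' y).2 h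
    exact Function.Injective.extend_apply Subtype.val_injective
      (fun b : BB F => α (((b : Matrix.SpecialLinearGroup (Fin 2) F) :
      Matrix (Fin 2) (Fin 2) F) 0 0)) 0 ⟨y, hy⟩
  · rw [if_neg h, Function.extend_apply']
    · rfl
    · rintro ⟨b, rfl⟩
      exact h ((mem_B' _).1 b.2)

def rep {F : Type*} [Field F] : Option F → Matrix.SpecialLinearGroup (Fin 2) F
  | none => 1
  | some t => ⟨!![t, -1; 1, 0], by simp [Matrix.det_fin_two_of]⟩

theorem rep_some {F : Type*} [Field F] (t : F) :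
    ((rep (some t) : Matrix.SpecialLinearGroup (Fin 2) F) : Matrix (Fin 2) (Fin 2) F) =
      !![t, -1; 1, 0] := rfl

theorem rep_none {F : Type*} [Field F] :
    (rep (none : Option F) : Matrix.SpecialLinearGroup (Fin 2) F) = 1 := rfl

theorem inv_mul_10 {F : Type*} [Field F] (t : F) (x : Matrix.SpecialLinearGroup (Fin 2) F) :
    (((rep (some t))⁻¹ * x : Matrix.SpecialLinearGroup (Fin 2) F) : Matrix (Fin 2) (Fin 2) F) 1 0 =
      -(x : Matrix (Fin 2) (Fin 2) F) 0 0 + t * (x : Matrix (Fin 2) (Fin 2) F) 1 0 := by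
  simp [rep_some, Matrix.SpecialLinearGroup.coe_mul, Matrix.SpecialLinearGroup.coe_inv,
    Matrix.adjugate_fin_two, Matrix.mul_apply, Fin.sum_univ_two, Matrix.vecMul, dotProduct]

theorem th'_conj {F : Type*} [Field F] [DecidableEq F] (α : MulChar F ℂ)
    (b : Matrix.SpecialLinearGroup (Fin 2) F) (hb : b ∈ BB F)
    (y : Matrix.SpecialLinearGroup (Fin 2) F) : th' α (b⁻¹ * y * b) = th' α y := by
  have hb10 := (mem_B' b).1 hb
  have hbd := sl2_det b
  rw [hb10, mul_zero, sub_zero] at hbd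
  have hb00 : (b : Matrix (Fin 2) (Fin 2) F) 0 0 ≠ 0 := by
    intro h0
    rw [h0, zero_mul] at hbd
    exact zero_ne_one hbd
  have e10 : ((b⁻¹ * y * b : Matrix.SpecialLinearGroup (Fin 2) F) : Matrix (Fin 2) (Fin 2) F) 1 0 =
      (b : Matrix (Fin 2) (Fin 2) F) 0 0 * (b : Matrix (Fin 2) (Fin 2) F) 0 0 *
        (y : Matrix (Fin 2) (Fin 2) F) 1 0 := by
    simp [Matrix.SpecialLinearGroup.coe_mul, Matrix.SpecialLinearGroup.coe_inv,
      Matrix.adjugate_fin_two, Matrix.mul_apply, Fin.sum_univ_two, Matrix.vecMul, dotProduct, hb10]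
    ring
  unfold th'
  by_cases hy : (y : Matrix (Fin 2) (Fin 2) F) 1 0 = 0
  · have e00 : ((b⁻¹ * y * b : Matrix.SpecialLinearGroup (Fin 2) F) : Matrix (Fin 2) (Fin 2) F) 0 0 =
        (y : Matrix (Fin 2) (Fin 2) F) 0 0 := by
      simp [Matrix.SpecialLinearGroup.coe_mul, Matrix.SpecialLinearGroup.coe_inv,
        Matrix.adjugate_fin_two, Matrix.mul_apply, Fin.sum_univ_two, Matrix.vecMul, dotProduct, hb10, hy]
      linear_combination (y : Matrix (Fin 2) (Fin 2) F) 0 0 * hbd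
    rw [if_pos hy, if_pos (by rw [e10, hy, mul_zero]), e00]
  · rw [if_neg hy, if_neg]
    rw [e10]
    exact mul_ne_zero (mul_ne_zero hb00 hb00) hy

theorem Phi_bij {F : Type*} [Field F] :
    Function.Bijective (fun ob : Option F × BB F =>
      rep ob.1 * (ob.2 : Matrix.SpecialLinearGroup (Fin 2) F)) := by
  constructor
  · rintro ⟨o, b⟩ ⟨o', b'⟩ h
    simp only at h
    have h1 : (rep o')⁻¹ * rep o = (b' : Matrix.SpecialLinearGroup (Fin 2) F) *
        (b : Matrix.SpecialLinearGroup (Fin 2) F)⁻¹ := by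
      rw [eq_mul_inv_iff_mul_eq, mul_assoc, h, inv_mul_cancel_left]
    have h2 : (rep o')⁻¹ * rep o ∈ BB F := by
      rw [h1]
      exact (BB F).mul_mem b'.2 ((BB F).inv_mem b.2)
    rw [mem_B'] at h2
    have ho : o = o' := by
      rcases o with _ | t <;> rcases o' with _ | t'
      · rfl
      · rw [inv_mul_10] at h2
        simp [rep_none] at h2
      · simp [rep_none, rep_some] at h2
      · rw [inv_mul_10] at h2
        simp [rep_some] at h2
        have : t = t' := by linear_combination -h2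
        rw [this]
    subst ho
    have hb : (b : Matrix.SpecialLinearGroup (Fin 2) F) = b' := mul_left_cancel h
    rw [Subtype.ext hb]
  · intro x
    by_cases hx : (x : Matrix (Fin 2) (Fin 2) F) 1 0 = 0
    · exact ⟨(none, ⟨x, (mem_B' x).2 hx⟩), by simp [rep_none]⟩
    · refine ⟨(some ((x : Matrix (Fin 2) (Fin 2) F) 0 0 / (x : Matrix (Fin 2) (Fin 2) F) 1 0),
        ⟨(rep (some ((x : Matrix (Fin 2) (Fin 2) F) 0 0 / (x : Matrix (Fin 2) (Fin 2) F) 1 0)))⁻¹ * x,
          ?_⟩), ?_⟩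
      · rw [mem_B', inv_mul_10]
        field_simp
        ring
      · simp

theorem sum_eq {F : Type*} [Field F] [Fintype F] [DecidableEq F] (α : MulChar F ℂ)
    (g : Matrix.SpecialLinearGroup (Fin 2) F) :
    ∑ x : Matrix.SpecialLinearGroup (Fin 2) F, th' α (x⁻¹ * g * x) =
      (Nat.card (BB F) : ℂ) * ∑ o : Option F, th' α ((rep o)⁻¹ * g * rep o) := by
  classical
  have : Fintype (BB F) := Fintype.ofFinite _
  rw [← Fintype.sum_bijective _ Phi_bij (fun ob : Option F × BB F =>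
    th' α ((rep ob.1 * (ob.2 : Matrix.SpecialLinearGroup (Fin 2) F))⁻¹ * g *
      (rep ob.1 * (ob.2 : Matrix.SpecialLinearGroup (Fin 2) F)))) _ (fun ob => rfl)]
  rw [Fintype.sum_prod_type, Finset.mul_sum]
  apply Finset.sum_congr rfl
  intro o _
  have : ∀ b : BB F, th' α ((rep o * (b : Matrix.SpecialLinearGroup (Fin 2) F))⁻¹ * g *
      (rep o * (b : Matrix.SpecialLinearGroup (Fin 2) F))) = th' α ((rep o)⁻¹ * g * rep o) := by
    intro b
    have e : (rep o * (b : Matrix.SpecialLinearGroup (Fin 2) F))⁻¹ * g *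
        (rep o * (b : Matrix.SpecialLinearGroup (Fin 2) F)) =
        (b : Matrix.SpecialLinearGroup (Fin 2) F)⁻¹ * ((rep o)⁻¹ * g * rep o) * b := by group
    rw [e, th'_conj α _ b.2]
  simp only [this, Finset.sum_const, Finset.card_univ, nsmul_eq_mul, Nat.card_eq_fintype_card]

theorem th'_rep {F : Type*} [Field F] [DecidableEq F] (α : MulChar F ℂ)
    (g : Matrix.SpecialLinearGroup (Fin 2) F) (t : F) :
    th' α ((rep (some t))⁻¹ * g * rep (some t)) =
      if -((g : Matrix (Fin 2) (Fin 2) F) 0 0 * t + (g : Matrix (Fin 2) (Fin 2) F) 0 1) +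
          t * ((g : Matrix (Fin 2) (Fin 2) F) 1 0 * t + (g : Matrix (Fin 2) (Fin 2) F) 1 1) = 0
      then α ((g : Matrix (Fin 2) (Fin 2) F) 1 0 * t + (g : Matrix (Fin 2) (Fin 2) F) 1 1) else 0 := by
  have e10 : (((rep (some t))⁻¹ * g * rep (some t) : Matrix.SpecialLinearGroup (Fin 2) F) :
      Matrix (Fin 2) (Fin 2) F) 1 0 =
      -((g : Matrix (Fin 2) (Fin 2) F) 0 0 * t + (g : Matrix (Fin 2) (Fin 2) F) 0 1) +
          t * ((g : Matrix (Fin 2) (Fin 2) F) 1 0 * t + (g : Matrix (Fin 2) (Fin 2) F) 1 1) := by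
    simp [rep_some, Matrix.SpecialLinearGroup.coe_mul, Matrix.SpecialLinearGroup.coe_inv,
      Matrix.adjugate_fin_two, Matrix.mul_apply, Fin.sum_univ_two, Matrix.vecMul, dotProduct]
    ring
  have e00 : (((rep (some t))⁻¹ * g * rep (some t) : Matrix.SpecialLinearGroup (Fin 2) F) :
      Matrix (Fin 2) (Fin 2) F) 0 0 =
      (g : Matrix (Fin 2) (Fin 2) F) 1 0 * t + (g : Matrix (Fin 2) (Fin 2) F) 1 1 := by
    simp [rep_some, Matrix.SpecialLinearGroup.coe_mul, Matrix.SpecialLinearGroup.coe_inv,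
      Matrix.adjugate_fin_two, Matrix.mul_apply, Fin.sum_univ_two, Matrix.vecMul, dotProduct]
  unfold th'
  rw [e10, e00]

theorem ind_eq {F : Type*} [Field F] [Fintype F] [DecidableEq F] (α : MulChar F ℂ)
    (g : Matrix.SpecialLinearGroup (Fin 2) F) :
    (Cfsg.indFun (BB F) (fun b => α (((b : Matrix.SpecialLinearGroup (Fin 2) F) :
      Matrix (Fin 2) (Fin 2) F) 0 0))) g =
    th' α g + ∑ t : F,
      if -((g : Matrix (Fin 2) (Fin 2) F) 0 0 * t + (g : Matrix (Fin 2) (Fin 2) F) 0 1) +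
          t * ((g : Matrix (Fin 2) (Fin 2) F) 1 0 * t + (g : Matrix (Fin 2) (Fin 2) F) 1 1) = 0
      then α ((g : Matrix (Fin 2) (Fin 2) F) 1 0 * t + (g : Matrix (Fin 2) (Fin 2) F) 1 1) else 0 := by
  unfold Cfsg.indFun
  rw [ext_eq, sum_eq]
  have hB : (Nat.card (BB F) : ℂ) ≠ 0 := by
    have : Nat.card (BB F) ≠ 0 := Nat.card_pos.ne'
    exact_mod_cast this
  rw [← mul_assoc, inv_mul_cancel₀ hB, one_mul, Fintype.sum_option]
  congr 1
  · rw [rep_none]
    simp
  · apply Finset.sum_congr rfl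
    intro t _
    exact th'_rep α g t

theorem result {F : Type*} [Field F] [Fintype F] [DecidableEq F] (hodd : Odd (Fintype.card F)) (α : MulChar F ℂ) (g : Matrix.SpecialLinearGroup (Fin 2) F) :
    ((g : Matrix (Fin 2) (Fin 2) F) 0 1 = 0 → (g : Matrix (Fin 2) (Fin 2) F) 1 0 = 0 → (g : Matrix (Fin 2) (Fin 2) F) 0 0 ^ 2 ≠ 1 →
      (Cfsg.indFun ((Cfsg.upperTriangularGL 2 F).comap Matrix.SpecialLinearGroup.toGL) (fun b => α (((b : Matrix.SpecialLinearGroup (Fin 2) F) : Matrix (Fin 2) (Fin 2) F) 0 0))) g = α ((g : Matrix (Fin 2) (Fin 2) F) 0 0) + α ((g : Matrix (Fin 2) (Fin 2) F) 1 1)) ∧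
    ((∀ (c : F) (v : Fin 2 → F), v ≠ 0 → (g : Matrix (Fin 2) (Fin 2) F).mulVec v ≠ c • v) → (Cfsg.indFun ((Cfsg.upperTriangularGL 2 F).comap Matrix.SpecialLinearGroup.toGL) (fun b => α (((b : Matrix.SpecialLinearGroup (Fin 2) F) : Matrix (Fin 2) (Fin 2) F) 0 0))) g = 0) ∧
    ((g : Matrix (Fin 2) (Fin 2) F) 1 0 = 0 → (g : Matrix (Fin 2) (Fin 2) F) 0 0 = (g : Matrix (Fin 2) (Fin 2) F) 1 1 → (g : Matrix (Fin 2) (Fin 2) F) 0 1 ≠ 0 →
      (Cfsg.indFun ((Cfsg.upperTriangularGL 2 F).comap Matrix.SpecialLinearGroup.toGL) (fun b => α (((b : Matrix.SpecialLinearGroup (Fin 2) F) : Matrix (Fin 2) (Fin 2) F) 0 0))) g = α ((g : Matrix (Fin 2) (Fin 2) F) 0 0)) ∧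
    ((g : Matrix (Fin 2) (Fin 2) F) 0 1 = 0 → (g : Matrix (Fin 2) (Fin 2) F) 1 0 = 0 → (g : Matrix (Fin 2) (Fin 2) F) 0 0 = (g : Matrix (Fin 2) (Fin 2) F) 1 1 →
      (Cfsg.indFun ((Cfsg.upperTriangularGL 2 F).comap Matrix.SpecialLinearGroup.toGL) (fun b => α (((b : Matrix.SpecialLinearGroup (Fin 2) F) : Matrix (Fin 2) (Fin 2) F) 0 0))) g = ((Fintype.card F : ℂ) + 1) * α ((g : Matrix (Fin 2) (Fin 2) F) 0 0)) := by
  have hgd := sl2_det g
  have key := ind_eq α g
  change (Cfsg.indFun (BB F) (fun b => α (((b : Matrix.SpecialLinearGroup (Fin 2) F) :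
        Matrix (Fin 2) (Fin 2) F) 0 0))) g = _ at key
  refine ⟨?_, ?_, ?_, ?_⟩
  · intro h01 h10 hsq
    rw [h01, zero_mul, sub_zero] at hgd
    have hne : (g : Matrix (Fin 2) (Fin 2) F) 1 1 - (g : Matrix (Fin 2) (Fin 2) F) 0 0 ≠ 0 := by
      intro h
      apply hsq
      have : (g : Matrix (Fin 2) (Fin 2) F) 1 1 = (g : Matrix (Fin 2) (Fin 2) F) 0 0 := sub_eq_zero.1 h
      rw [this] at hgd
      rw [sq]
      exact hgd
    have hsum : ∀ t : F, (if -((g : Matrix (Fin 2) (Fin 2) F) 0 0 * t + (g : Matrix (Fin 2) (Fin 2) F) 0 1) +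
            t * ((g : Matrix (Fin 2) (Fin 2) F) 1 0 * t + (g : Matrix (Fin 2) (Fin 2) F) 1 1) = 0
        then α ((g : Matrix (Fin 2) (Fin 2) F) 1 0 * t + (g : Matrix (Fin 2) (Fin 2) F) 1 1) else 0) =
        if t = 0 then α ((g : Matrix (Fin 2) (Fin 2) F) 1 1) else 0 := by
      intro t
      rw [h01, h10]
      by_cases ht : t = 0
      · rw [if_pos ht, if_pos (by rw [ht]; ring)]
        simp
      · rw [if_neg ht, if_neg]
        intro h
        have : t * ((g : Matrix (Fin 2) (Fin 2) F) 1 1 - (g : Matrix (Fin 2) (Fin 2) F) 0 0) = 0 := by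
          linear_combination h
        rcases mul_eq_zero.1 this with h' | h'
        · exact ht h'
        · exact hne h'
    rw [key]
    simp only [hsum, Finset.sum_ite_eq', Finset.mem_univ, if_true]
    simp [th', h10]
  · intro hno
    have h10 : (g : Matrix (Fin 2) (Fin 2) F) 1 0 ≠ 0 := by
      intro h
      refine hno ((g : Matrix (Fin 2) (Fin 2) F) 0 0) ![1, 0] (by simp) ?_
      ext i
      fin_cases i <;> simp [Matrix.mulVec, dotProduct, Fin.sum_univ_two]
      exact h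
    have hsum : ∀ t : F, (if -((g : Matrix (Fin 2) (Fin 2) F) 0 0 * t + (g : Matrix (Fin 2) (Fin 2) F) 0 1) +
            t * ((g : Matrix (Fin 2) (Fin 2) F) 1 0 * t + (g : Matrix (Fin 2) (Fin 2) F) 1 1) = 0
        then α ((g : Matrix (Fin 2) (Fin 2) F) 1 0 * t + (g : Matrix (Fin 2) (Fin 2) F) 1 1) else 0) = 0 := by
      intro t
      rw [if_neg]
      intro h
      refine hno ((g : Matrix (Fin 2) (Fin 2) F) 1 0 * t + (g : Matrix (Fin 2) (Fin 2) F) 1 1) ![t, 1]
        (by simp) ?_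
      ext i
      fin_cases i <;> simp [Matrix.mulVec, dotProduct, Fin.sum_univ_two]
      linear_combination -h
    rw [key]
    simp only [hsum, Finset.sum_const_zero, add_zero]
    simp [th', h10]
  · intro h10 heq h01
    have hsum : ∀ t : F, (if -((g : Matrix (Fin 2) (Fin 2) F) 0 0 * t + (g : Matrix (Fin 2) (Fin 2) F) 0 1) +
            t * ((g : Matrix (Fin 2) (Fin 2) F) 1 0 * t + (g : Matrix (Fin 2) (Fin 2) F) 1 1) = 0
        then α ((g : Matrix (Fin 2) (Fin 2) F) 1 0 * t + (g : Matrix (Fin 2) (Fin 2) F) 1 1) else 0) = 0 := by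
      intro t
      rw [if_neg]
      intro h
      apply h01
      rw [h10, heq] at h
      linear_combination -h
    rw [key]
    simp only [hsum, Finset.sum_const_zero, add_zero]
    simp [th', h10]
  · intro h01 h10 heq
    have hsum : ∀ t : F, (if -((g : Matrix (Fin 2) (Fin 2) F) 0 0 * t + (g : Matrix (Fin 2) (Fin 2) F) 0 1) +
            t * ((g : Matrix (Fin 2) (Fin 2) F) 1 0 * t + (g : Matrix (Fin 2) (Fin 2) F) 1 1) = 0
        then α ((g : Matrix (Fin 2) (Fin 2) F) 1 0 * t + (g : Matrix (Fin 2) (Fin 2) F) 1 1) else 0) =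
        α ((g : Matrix (Fin 2) (Fin 2) F) 0 0) := by
      intro t
      rw [if_pos]
      · rw [h10, heq]
        simp
      · rw [h01, h10, heq]
        ring
    rw [key]
    simp only [hsum, Finset.sum_const, Finset.card_univ, nsmul_eq_mul]
    simp only [th', h10, if_true]
    ring

end Cfsg.Agent.S2433
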