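import Cfsg.Statements.S2437
import Mathlib

set_option autoImplicit false
open Cfsg

namespace Cfsg.Agent.S2437

open Matrix

abbrev BB (F : Type*) [Field F] :=
  ↥((Cfsg.upperTriangularGL 2 F).comap Matrix.SpecialLinearGroup.toGL)

theorem mem_B' {F : Type*} [Field F] (g : Matrix.SpecialLinearGroup (Fin 2) F) :
    g ∈ (Cfsg.upperTriangularGL 2 F).comap Matrix.SpecialLinearGroup.toGL ↔
      (g : Matrix (Fin 2) (Fin 2) F) 1 0 = 0 := by
  rw [Subgroup.mem_comap]
  change (Matrix.SpecialLinearGroup.toGL g : Matrix (Fin 2) (Fin 2) F).BlockTriangular id ↔ _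
  constructor
  · intro h
    exact h (by decide : id (0 : Fin 2) < id 1)
  · intro h i j hij
    fin_cases i <;> fin_cases j <;> simp_all

def mkB {F : Type*} [Field F] (a : F) (ha : a ≠ 0) (b : F) : BB F :=
  ⟨⟨!![a, b; 0, a⁻¹], by simp [Matrix.det_fin_two, ha]⟩, (mem_B' _).2 (by simp)⟩

def cA {F : Type*} [Field F] (g : BB F) : F := (g.1 : Matrix (Fin 2) (Fin 2) F) 0 0
def cB {F : Type*} [Field F] (g : BB F) : F := (g.1 : Matrix (Fin 2) (Fin 2) F) 0 1

theorem g10 {F : Type*} [Field F] (g : BB F) : (g.1 : Matrix (Fin 2) (Fin 2) F) 1 0 = 0 :=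
  (mem_B' _).1 g.2

theorem gdet {F : Type*} [Field F] (g : BB F) :
    cA g * (g.1 : Matrix (Fin 2) (Fin 2) F) 1 1 = 1 := by
  have h := g.1.2
  rw [Matrix.det_fin_two, g10 g] at h
  simpa [cA] using h

theorem cA_ne {F : Type*} [Field F] (g : BB F) : cA g ≠ 0 := by
  intro h
  have := gdet g
  rw [h] at this
  simp at this

theorem g11 {F : Type*} [Field F] (g : BB F) :
    (g.1 : Matrix (Fin 2) (Fin 2) F) 1 1 = (cA g)⁻¹ :=
  eq_inv_of_mul_eq_one_right (gdet g)

theorem B_ext {F : Type*} [Field F] (g h : BB F) (hA : cA g = cA h) (hB : cB g = cB h) : g = h := by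
  apply Subtype.ext
  apply Subtype.ext
  ext i j
  fin_cases i <;> fin_cases j
  · exact hA
  · exact hB
  · change (g.1 : Matrix (Fin 2) (Fin 2) F) 1 0 = (h.1 : Matrix (Fin 2) (Fin 2) F) 1 0
    rw [g10, g10]
  · change (g.1 : Matrix (Fin 2) (Fin 2) F) 1 1 = (h.1 : Matrix (Fin 2) (Fin 2) F) 1 1
    rw [g11, g11, hA]

theorem cA_mul {F : Type*} [Field F] (g h : BB F) : cA (g * h) = cA g * cA h := by
  have := g10 h
  simp [cA, Matrix.mul_apply, Fin.sum_univ_two, this]

theorem cB_mul {F : Type*} [Field F] (g h : BB F) :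
    cB (g * h) = cA g * cB h + cB g * (cA h)⁻¹ := by
  have := g11 h
  simp [cA, cB, Matrix.mul_apply, Fin.sum_univ_two, this]

theorem cA_mk {F : Type*} [Field F] (a : F) (ha : a ≠ 0) (b : F) : cA (mkB a ha b) = a := by
  simp [cA, mkB]

theorem cB_mk {F : Type*} [Field F] (a : F) (ha : a ≠ 0) (b : F) : cB (mkB a ha b) = b := by
  simp [cB, mkB]

theorem conj_iff' {F : Type*} [Field F] (g h : BB F) : IsConj g h ↔ ∃ x : BB F, x * g = h * x := by
  rw [isConj_iff]
  constructor
  · rintro ⟨x, hx⟩
    exact ⟨x, mul_inv_eq_iff_eq_mul.1 hx⟩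
  · rintro ⟨x, hx⟩
    exact ⟨x, mul_inv_eq_iff_eq_mul.2 hx⟩

theorem conj_A {F : Type*} [Field F] (g h : BB F) (hc : IsConj g h) : cA g = cA h := by
  obtain ⟨x, hx⟩ := (conj_iff' g h).1 hc
  have := congrArg cA hx
  rw [cA_mul, cA_mul, mul_comm] at this
  exact mul_right_cancel₀ (cA_ne x) this

theorem conj_B {F : Type*} [Field F] (g h : BB F) (hc : IsConj g h) (hA : cA g = (cA g)⁻¹) :
    ∃ c : F, c ≠ 0 ∧ cB h = c ^ 2 * cB g := by
  obtain ⟨x, hx⟩ := (conj_iff' g h).1 hc
  have hAA := conj_A g h hc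
  have := congrArg cB hx
  rw [cB_mul, cB_mul, ← hAA, ← hA] at this
  refine ⟨cA x, cA_ne x, ?_⟩
  have hx0 := cA_ne x
  field_simp at this
  linear_combination -this

theorem conj_of {F : Type*} [Field F] (g h : BB F) (c d : F) (hc : c ≠ 0) (hA : cA g = cA h)
    (hB : c * cB g + d * (cA g)⁻¹ = cA h * d + cB h * c⁻¹) : IsConj g h := by
  rw [conj_iff']
  refine ⟨mkB c hc d, ?_⟩
  apply B_ext
  · rw [cA_mul, cA_mul, cA_mk, hA, mul_comm]
  · rw [cB_mul, cB_mul, cA_mk, cB_mk]
    exact hB

def sg {F : Type*} [Field F] (s : Bool) : F := if s then 1 else -1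
def vl {F : Type*} [Field F] (ε : F) (e : Bool) : F := if e then 1 else ε

theorem sg_ne {F : Type*} [Field F] (s : Bool) : (sg s : F) ≠ 0 := by
  cases s <;> simp [sg]

theorem sg_inv {F : Type*} [Field F] (s : Bool) : (sg s : F) = (sg s)⁻¹ := by
  cases s <;> simp [sg]

def rep {F : Type*} [Field F] (ε : F) : Fˣ ⊕ (Bool × Bool) → BB F
  | Sum.inl a => mkB (a : F) a.ne_zero 0
  | Sum.inr (s, e) => mkB (sg s) (sg_ne s) (vl ε e)

theorem rep_bij {F : Type*} [Field F] [Fintype F] (hF : ringChar F ≠ 2) (ε : F) (hε : ¬ IsSquare ε) :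
    Function.Bijective (fun t : Fˣ ⊕ (Bool × Bool) => ConjClasses.mk (rep ε t)) := by
  classical
  have hε0 : ε ≠ 0 := by
    rintro rfl
    exact hε IsSquare.zero
  have h11 : (-1 : F) ≠ 1 := Ring.neg_one_ne_one_of_char_ne_two hF
  have hvl : ∀ e, vl ε e ≠ 0 := by
    intro e
    cases e <;> simp [vl, hε0]
  constructor
  · intro t t' htt
    have hc : IsConj (rep ε t) (rep ε t') := ConjClasses.mk_eq_mk_iff_isConj.1 htt
    have hA := conj_A _ _ hc
    rcases t with a | ⟨s, e⟩ <;> rcases t' with a' | ⟨s', e'⟩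
    · simp only [rep, cA_mk] at hA
      rw [Units.ext hA]
    · exfalso
      simp only [rep, cA_mk] at hA
      obtain ⟨c, hc0, hcB⟩ := conj_B _ _ hc (by
        simp only [rep, cA_mk]
        rw [hA]
        exact sg_inv s')
      simp only [rep, cB_mk] at hcB
      rw [mul_zero] at hcB
      exact hvl e' hcB
    · exfalso
      simp only [rep, cA_mk] at hA
      obtain ⟨c, hc0, hcB⟩ := conj_B _ _ hc.symm (by
        simp only [rep, cA_mk]
        rw [← hA]
        exact sg_inv s)
      simp only [rep, cB_mk] at hcB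
      rw [mul_zero] at hcB
      exact hvl e hcB
    · simp only [rep, cA_mk] at hA
      have hs : s = s' := by
        cases s <;> cases s' <;> simp [sg] at hA ⊢
        · exact h11 hA
        · exact h11 hA.symm
      obtain ⟨c, hc0, hcB⟩ := conj_B _ _ hc (by
        simp only [rep, cA_mk]
        exact sg_inv s)
      simp only [rep, cB_mk] at hcB
      have he : e = e' := by
        cases e <;> cases e' <;> simp [vl] at hcB ⊢
        · apply hε
          refine ⟨c⁻¹, ?_⟩
          field_simp
          linear_combination -hcB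
        · apply hε
          exact ⟨c, by rw [hcB]; ring⟩
      rw [hs, he]
  · intro C
    obtain ⟨g, rfl⟩ := ConjClasses.mk_surjective C
    by_cases hA : cA g = (cA g)⁻¹
    · by_cases hB : cB g = 0
      · refine ⟨Sum.inl (Units.mk0 (cA g) (cA_ne g)), ?_⟩
        apply ConjClasses.mk_eq_mk_iff_isConj.2
        have : rep ε (Sum.inl (Units.mk0 (cA g) (cA_ne g))) = g := by
          apply B_ext
          · simp [rep, cA_mk]
          · simp [rep, cB_mk, hB]
        rw [this]
      · have hsq : cA g * cA g = 1 := by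
          have := cA_ne g
          field_simp at hA
          linear_combination hA
        have hs : ∃ s : Bool, cA g = sg s := by
          rcases mul_self_eq_one_iff.1 hsq with h | h
          · exact ⟨true, by simp [sg, h]⟩
          · exact ⟨false, by simp [sg, h]⟩
        obtain ⟨s, hs⟩ := hs
        by_cases hsqB : IsSquare (cB g)
        · obtain ⟨r, hr⟩ := hsqB
          have hr0 : r ≠ 0 := by
            rintro rfl
            simp at hr
            exact hB hr
          refine ⟨Sum.inr (s, true), ?_⟩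
          apply ConjClasses.mk_eq_mk_iff_isConj.2
          refine conj_of _ _ r 0 hr0 ?_ ?_
          · simp [rep, cA_mk, hs]
          · simp only [rep, cA_mk, cB_mk, vl, if_true]
            rw [hr]
            field_simp
            ring
        · have h1 : quadraticChar F (cB g * ε) = 1 := by
            rw [map_mul, quadraticChar_neg_one_iff_not_isSquare.2 hsqB,
              quadraticChar_neg_one_iff_not_isSquare.2 hε]
            norm_num
          obtain ⟨r, hr⟩ := (quadraticChar_one_iff_isSquare (mul_ne_zero hB hε0)).1 h1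
          have hr0 : r ≠ 0 := by
            rintro rfl
            simp at hr
            rcases hr with h | h
            · exact hB h
            · exact hε0 h
          refine ⟨Sum.inr (s, false), ?_⟩
          apply ConjClasses.mk_eq_mk_iff_isConj.2
          refine conj_of _ _ (r / ε) 0 (div_ne_zero hr0 hε0) ?_ ?_
          · simp [rep, cA_mk, hs]
          · simp only [rep, cA_mk, cB_mk, vl, Bool.false_eq_true, if_false]
            rw [zero_mul, mul_zero, add_zero, zero_add, div_mul_cancel₀ r hε0, inv_div,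
              ← mul_div_assoc, hr, mul_self_div_self]
    · refine ⟨Sum.inl (Units.mk0 (cA g) (cA_ne g)), ?_⟩
      apply ConjClasses.mk_eq_mk_iff_isConj.2
      have hne : (cA g)⁻¹ - cA g ≠ 0 := fun h => hA (sub_eq_zero.1 h).symm
      refine conj_of _ _ 1 (cB g / ((cA g)⁻¹ - cA g)) one_ne_zero ?_ ?_
      · simp [rep, cA_mk]
      · simp only [rep, cA_mk, cB_mk, Units.val_mk0, inv_one, mul_one, mul_zero, zero_add]
        have hd : cB g / ((cA g)⁻¹ - cA g) * ((cA g)⁻¹ - cA g) = cB g := div_mul_cancel₀ _ hne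
        linear_combination hd

theorem result {F : Type*} [Field F] [Fintype F] (hodd : Odd (Fintype.card F)) :
    Nat.card (ConjClasses ((Cfsg.upperTriangularGL 2 F).comap Matrix.SpecialLinearGroup.toGL)) = Fintype.card F + 3 := by
  classical
  have hF : ringChar F ≠ 2 := by
    intro h
    have := FiniteField.even_card_iff_char_two.1 h
    rcases hodd with ⟨k, hk⟩
    omega
  obtain ⟨ε, hε⟩ := FiniteField.exists_nonsquare hF
  rw [← Nat.card_eq_of_bijective _ (rep_bij hF ε hε)]
  rw [Nat.card_sum, Nat.card_units, Nat.card_prod, Nat.card_eq_fintype_card, Nat.card_eq_fintype_card,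
    Fintype.card_bool]
  have := Fintype.card_pos (α := F)
  omega

end Cfsg.Agent.S2437
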