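import Cfsg.Statements.S2532

set_option autoImplicit false
open Cfsg

set_option maxHeartbeats 1000000
namespace Cfsg.Agent.S2532

theorem perm_inv_apply_self {α : Type*} (f : Equiv.Perm α) (x : α) : f⁻¹ (f x) = x := by
  rw [← Equiv.Perm.mul_apply, inv_mul_cancel, Equiv.Perm.one_apply]

theorem perm_apply_inv_self {α : Type*} (f : Equiv.Perm α) (x : α) : f (f⁻¹ x) = x := by
  rw [← Equiv.Perm.mul_apply, mul_inv_cancel, Equiv.Perm.one_apply]

theorem exists_embedding {α : Type*} [Fintype α] [DecidableEq α] (H₁ : Subgroup (Equiv.Perm α))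
    (r : ℕ) (hcard : 2 ^ Nat.card H₁ * (Nat.card H₁ * r) ≤ Fintype.card α) :
    ∃ Θ : Equiv.Perm (Fin r) →* Equiv.Perm α, Function.Injective Θ ∧
      ∀ σ, ∀ h ∈ H₁, h * Θ σ = Θ σ * h := by
  classical
  obtain ⟨Hf, hmemHf⟩ : ∃ Hf : Finset (Equiv.Perm α), ∀ h, h ∈ Hf ↔ h ∈ H₁ :=
    ⟨Finset.univ.filter (fun h => h ∈ H₁), fun h => by rw [Finset.mem_filter]; simp⟩
  have hn : Hf.card = Nat.card H₁ := by
    rw [Nat.card_eq_fintype_card, Fintype.card_subtype]
    congr 1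
    ext h
    rw [hmemHf, Finset.mem_filter]
    simp
  have hnpos : 0 < Hf.card := Finset.card_pos.mpr ⟨1, (hmemHf 1).mpr H₁.one_mem⟩
  rw [← hn] at hcard
  obtain ⟨stab, hstab⟩ : ∃ stab : α → Finset (Equiv.Perm α),
      ∀ x h, h ∈ stab x ↔ h ∈ H₁ ∧ h x = x :=
    ⟨fun x => Hf.filter (fun h => h x = x), fun x h => by rw [Finset.mem_filter, hmemHf]⟩
  have hstabsub : ∀ x, stab x ⊆ Hf := by
    intro x h hh
    rw [hmemHf]
    exact ((hstab x h).mp hh).1
  obtain ⟨orb, horb⟩ : ∃ orb : α → Finset α, (∀ x y, y ∈ orb x ↔ ∃ h ∈ H₁, h x = y) ∧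
      ∀ x, (orb x).card ≤ Hf.card :=
    ⟨fun x => Hf.image (fun h => h x), fun x y => by
      rw [Finset.mem_image]
      constructor
      · rintro ⟨h, hh, rfl⟩
        exact ⟨h, (hmemHf h).mp hh, rfl⟩
      · rintro ⟨h, hh, rfl⟩
        exact ⟨h, (hmemHf h).mpr hh, rfl⟩, fun x => Finset.card_image_le⟩
  obtain ⟨horbmem, horbcard⟩ := horb
  -- first pigeonhole: many points with the same stabiliser
  obtain ⟨S, hS, hΩ⟩ := Finset.exists_le_card_fiber_of_mul_le_card_of_maps_to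
    (s := (Finset.univ : Finset α)) (t := Hf.powerset) (f := stab) (n := Hf.card * r)
    (fun x _ => Finset.mem_powerset.mpr (hstabsub x)) ⟨∅, Finset.empty_mem_powerset _⟩
    (by rw [Finset.card_powerset, Finset.card_univ]; exact hcard)
  obtain ⟨Ω, hΩdef⟩ : ∃ Ω : Finset α, Ω = Finset.univ.filter (fun x => stab x = S) := ⟨_, rfl⟩
  rw [← hΩdef] at hΩ
  have hself : ∀ x, x ∈ orb x := fun x => (horbmem x x).mpr ⟨1, H₁.one_mem, rfl⟩
  have hfib : ∀ O ∈ Ω.image orb, (Ω.filter (fun x => orb x = O)).card ≤ Hf.card := by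
    intro O hO
    obtain ⟨x₀, hx₀, rfl⟩ := Finset.mem_image.mp hO
    refine le_trans (Finset.card_le_card ?_) (horbcard x₀)
    intro x hx
    rw [Finset.mem_filter] at hx
    rw [← hx.2]
    exact hself x
  have h1 := Finset.card_le_mul_card_image Ω Hf.card hfib
  have hT : r ≤ (Ω.image orb).card := by
    have h2 : Hf.card * r ≤ Hf.card * (Ω.image orb).card := le_trans hΩ h1
    exact Nat.le_of_mul_le_mul_left h2 hnpos
  obtain ⟨T', hT'sub, hT'card⟩ := Finset.exists_subset_card_eq hT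
  obtain ⟨e, -⟩ : ∃ e : Fin r ≃ T', True := ⟨(Finset.equivFinOfCardEq hT'card).symm, trivial⟩
  have hx_ex : ∀ j : Fin r, ∃ x ∈ Ω, orb x = (e j : Finset α) :=
    fun j => Finset.mem_image.mp (hT'sub (e j).2)
  choose x hxΩ hxorb using hx_ex
  have hxstab : ∀ j, stab (x j) = S := by
    intro j
    have h2 := hxΩ j
    rw [hΩdef, Finset.mem_filter] at h2
    exact h2.2
  have horb_sub : ∀ (a b : α) (h h' : Equiv.Perm α), h ∈ H₁ → h' ∈ H₁ → h a = h' b →
      orb a ⊆ orb b := by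
    intro a b h h' hh hh' hab y hy
    obtain ⟨g, hg, rfl⟩ := (horbmem a y).mp hy
    refine (horbmem b _).mpr ⟨g * h⁻¹ * h', H₁.mul_mem (H₁.mul_mem hg (H₁.inv_mem hh)) hh', ?_⟩
    rw [Equiv.Perm.mul_apply, Equiv.Perm.mul_apply, ← hab, perm_inv_apply_self]
  have hF1 : ∀ (j k : Fin r) (h h' : Equiv.Perm α), h ∈ H₁ → h' ∈ H₁ →
      h (x j) = h' (x k) → j = k := by
    intro j k h h' hh hh' hab
    have h2 : orb (x j) = orb (x k) := Finset.Subset.antisymm
      (horb_sub _ _ h h' hh hh' hab) (horb_sub _ _ h' h hh' hh hab.symm)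
    rw [hxorb, hxorb] at h2
    exact e.injective (Subtype.ext h2)
  have hF2 : ∀ (j k : Fin r) (h h' : Equiv.Perm α), h ∈ H₁ → h' ∈ H₁ →
      h (x j) = h' (x j) → h (x k) = h' (x k) := by
    intro j k h h' hh hh' hab
    have h2 : h'⁻¹ * h ∈ stab (x j) := by
      rw [hstab]
      refine ⟨H₁.mul_mem (H₁.inv_mem hh') hh, ?_⟩
      rw [Equiv.Perm.mul_apply, hab, perm_inv_apply_self]
    rw [hxstab j, ← hxstab k, hstab] at h2
    have h3 := h2.2
    rw [Equiv.Perm.mul_apply] at h3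
    have h4 := congrArg h' h3
    rwa [perm_apply_inv_self] at h4
  -- the action on the union of the chosen orbits
  obtain ⟨θ, hKL, hKL2⟩ : ∃ θ : Equiv.Perm (Fin r) → α → α,
      (∀ σ j h, h ∈ H₁ → θ σ (h (x j)) = h (x (σ j))) ∧
      (∀ σ y, (¬ ∃ j : Fin r, ∃ h : Equiv.Perm α, h ∈ H₁ ∧ h (x j) = y) → θ σ y = y) := by
    refine ⟨fun σ y => if hy : ∃ j : Fin r, ∃ h : Equiv.Perm α, h ∈ H₁ ∧ h (x j) = y then
      (Classical.choose (Classical.choose_spec hy)) (x (σ (Classical.choose hy))) else y, ?_, ?_⟩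
    · intro σ j h hh
      have hy : ∃ j' : Fin r, ∃ h' : Equiv.Perm α, h' ∈ H₁ ∧ h' (x j') = h (x j) :=
        ⟨j, h, hh, rfl⟩
      beta_reduce
      rw [dif_pos hy]
      obtain ⟨hc1, hc2⟩ := Classical.choose_spec (Classical.choose_spec hy)
      have key : ∀ (j' : Fin r) (h' : Equiv.Perm α), h' ∈ H₁ → h' (x j') = h (x j) →
          h' (x (σ j')) = h (x (σ j)) := by
        intro j' h' hh' hc
        have hj : j' = j := hF1 _ _ _ _ hh' hh hc
        subst hj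
        exact hF2 j' (σ j') _ _ hh' hh hc
      exact key _ _ hc1 hc2
    · intro σ y hy
      beta_reduce
      rw [dif_neg hy]
  have hθmul : ∀ σ τ y, θ (σ * τ) y = θ σ (θ τ y) := by
    intro σ τ y
    by_cases hy : ∃ j : Fin r, ∃ h : Equiv.Perm α, h ∈ H₁ ∧ h (x j) = y
    · obtain ⟨j, h, hh, rfl⟩ := hy
      rw [hKL _ _ _ hh, hKL _ _ _ hh, hKL _ _ _ hh]
      rfl
    · rw [hKL2 _ _ hy, hKL2 _ _ hy, hKL2 _ _ hy]
  have hθone : ∀ y, θ 1 y = y := by
    intro y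
    by_cases hy : ∃ j : Fin r, ∃ h : Equiv.Perm α, h ∈ H₁ ∧ h (x j) = y
    · obtain ⟨j, h, hh, rfl⟩ := hy
      rw [hKL _ _ _ hh]
      rfl
    · exact hKL2 _ _ hy
  let Θ : Equiv.Perm (Fin r) →* Equiv.Perm α :=
    { toFun := fun σ => ⟨θ σ, θ σ⁻¹, fun y => by rw [← hθmul, inv_mul_cancel, hθone],
        fun y => by rw [← hθmul, mul_inv_cancel, hθone]⟩
      map_one' := by
        ext y
        exact hθone y
      map_mul' := by
        intro σ τ
        ext y
        exact hθmul σ τ y }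
  have hΘ : ∀ σ y, Θ σ y = θ σ y := fun σ y => rfl
  refine ⟨Θ, ?_, ?_⟩
  · intro σ τ hστ
    apply Equiv.ext
    intro j
    have h2 : Θ σ (x j) = Θ τ (x j) := by rw [hστ]
    rw [hΘ, hΘ] at h2
    have h3 := hKL σ j 1 H₁.one_mem
    have h4 := hKL τ j 1 H₁.one_mem
    rw [Equiv.Perm.one_apply, Equiv.Perm.one_apply] at h3 h4
    rw [h3, h4] at h2
    exact hF1 _ _ 1 1 H₁.one_mem H₁.one_mem h2
  · intro σ h hh
    apply Equiv.ext
    intro y
    rw [Equiv.Perm.mul_apply, Equiv.Perm.mul_apply, hΘ, hΘ]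
    by_cases hy : ∃ j : Fin r, ∃ g : Equiv.Perm α, g ∈ H₁ ∧ g (x j) = y
    · obtain ⟨j, g, hg, rfl⟩ := hy
      rw [hKL _ _ _ hg]
      have h2 := hKL σ j (h * g) (H₁.mul_mem hh hg)
      rw [Equiv.Perm.mul_apply, Equiv.Perm.mul_apply] at h2
      exact h2.symm
    · rw [hKL2 _ _ hy]
      have hy' : ¬ ∃ j : Fin r, ∃ g : Equiv.Perm α, g ∈ H₁ ∧ g (x j) = h y := by
        rintro ⟨j, g, hg, hgy⟩
        apply hy
        refine ⟨j, h⁻¹ * g, H₁.mul_mem (H₁.inv_mem hh) hg, ?_⟩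
        rw [Equiv.Perm.mul_apply, hgy, perm_inv_apply_self]
      rw [hKL2 _ _ hy']

theorem result :
    ∃ f : ℕ → ℕ → ℕ, ∀ (m r : ℕ) (H : Subgroup ↥(alternatingGroup (Fin m))), f (Nat.card H) r ≤ m →
      ∃ K : Subgroup ↥(alternatingGroup (Fin m)), Nonempty (↥K ≃* ↥(alternatingGroup (Fin r))) ∧
        K ≤ Subgroup.centralizer (H : Set ↥(alternatingGroup (Fin m))) := by
  classical
  refine ⟨fun n r => 2 ^ n * (n * r), ?_⟩
  intro m r H hm
  have hcardH₁ : Nat.card (H.map (alternatingGroup (Fin m)).subtype) = Nat.card H :=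
    (Nat.card_congr (H.equivMapOfInjective _ (Subgroup.subtype_injective _)).toEquiv).symm
  obtain ⟨Θ, hΘinj, hΘcomm⟩ := exists_embedding (H.map (alternatingGroup (Fin m)).subtype) r
    (by rw [hcardH₁, Fintype.card_fin]; exact hm)
  have hsign : ∀ σ ∈ alternatingGroup (Fin r), Equiv.Perm.sign (Θ σ) = 1 := by
    intro σ hσ
    have hker : alternatingGroup (Fin r) ≤ (Equiv.Perm.sign.comp Θ).ker := by
      rw [← Equiv.Perm.closure_three_cycles_eq_alternating, Subgroup.closure_le]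
      intro c hc
      rw [SetLike.mem_coe, MonoidHom.mem_ker]
      have h3 : ((Equiv.Perm.sign.comp Θ) c) ^ 3 = 1 := by
        rw [← map_pow, ← Equiv.Perm.IsThreeCycle.orderOf hc, pow_orderOf_eq_one, map_one]
      rcases Int.units_eq_one_or ((Equiv.Perm.sign.comp Θ) c) with h | h
      · exact h
      · rw [h] at h3
        exact absurd h3 (by decide)
    exact MonoidHom.mem_ker.mp (hker hσ)
  let Θ' : ↥(alternatingGroup (Fin r)) →* ↥(alternatingGroup (Fin m)) :=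
    (Θ.comp (alternatingGroup (Fin r)).subtype).codRestrict _
      (fun σ => Equiv.Perm.mem_alternatingGroup.mpr (hsign σ.1 σ.2))
  have hΘ'inj : Function.Injective Θ' := by
    intro σ τ h
    apply Subtype.ext
    apply hΘinj
    exact congrArg Subtype.val h
  refine ⟨Θ'.range, ⟨(MonoidHom.ofInjective hΘ'inj).symm⟩, ?_⟩
  rintro k ⟨σ, rfl⟩
  rw [Subgroup.mem_centralizer_iff]
  intro h hh
  apply Subtype.ext
  exact hΘcomm σ.1 h.1 (Subgroup.mem_map.mpr ⟨h, hh, rfl⟩)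

end Cfsg.Agent.S2532
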