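import Cfsg.Statements.S2540
import Mathlib
import Cfsg.Agent.Lib.Helper1.SLn

set_option autoImplicit false
open Cfsg

set_option maxHeartbeats 1000000
namespace Cfsg.Agent.S2540

theorem exists_sq_ne_one {F : Type*} [Field F] [Fintype F] (h4 : 4 ≤ Fintype.card F) :
    ∃ a : F, a ≠ 0 ∧ a ^ 2 ≠ 1 := by
  classical
  by_contra hno
  push_neg at hno
  have hsub : (Finset.univ : Finset F) ⊆ {0, 1, -1} := by
    intro a _
    by_cases ha : a = 0
    · simp [ha]
    · have h := hno a ha
      have h' : (a - 1) * (a + 1) = 0 := by linear_combination h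
      rcases mul_eq_zero.1 h' with h | h
      · have e : a = 1 := by linear_combination h
        simp [e]
      · have e : a = -1 := by linear_combination h
        simp [e]
  have h1 := Finset.card_le_card hsub
  have h3 : ({0, 1, -1} : Finset F).card ≤ 3 := Finset.card_le_three
  rw [Finset.card_univ] at h1
  omega

theorem comm_one {A : Type*} [CommGroup A] (a b : A) : a * b * a⁻¹ * b⁻¹ = 1 := by
  rw [mul_comm a b, mul_inv_cancel_right, mul_inv_cancel]

open scoped commutatorElement in
/-- a normal subgroup of a perfect group with simple central quotient is central or everything -/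
theorem normal_sub_SL {F : Type*} [Field F] {ι : Type*} [Fintype ι] [DecidableEq ι]
    (hperf : commutator (Matrix.SpecialLinearGroup ι F) = ⊤)
    (hsimple : IsSimpleGroup (Matrix.ProjectiveSpecialLinearGroup ι F))
    (N : Subgroup (Matrix.SpecialLinearGroup ι F)) (hN : N.Normal) :
    N ≤ Subgroup.center (Matrix.SpecialLinearGroup ι F) ∨ N = ⊤ := by
  have hnorm : (N.map (QuotientGroup.mk' (Subgroup.center (Matrix.SpecialLinearGroup ι F)))).Normal :=
    Subgroup.Normal.map hN _ (QuotientGroup.mk'_surjective _)
  rcases hnorm.eq_bot_or_eq_top with h | h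
  · left
    intro s hs
    have h1 : QuotientGroup.mk' (Subgroup.center (Matrix.SpecialLinearGroup ι F)) s ∈
        N.map (QuotientGroup.mk' (Subgroup.center (Matrix.SpecialLinearGroup ι F))) :=
      Subgroup.mem_map_of_mem _ hs
    rw [h, Subgroup.mem_bot] at h1
    exact (QuotientGroup.eq_one_iff s).1 h1
  · right
    rw [eq_top_iff, ← hperf, commutator_def, Subgroup.commutator_le]
    intro x _ y _
    have hx : QuotientGroup.mk' (Subgroup.center (Matrix.SpecialLinearGroup ι F)) x ∈
        N.map (QuotientGroup.mk' (Subgroup.center (Matrix.SpecialLinearGroup ι F))) := by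
      rw [h]
      trivial
    obtain ⟨s, hs, hsx⟩ := Subgroup.mem_map.1 hx
    have hz : s⁻¹ * x ∈ Subgroup.center (Matrix.SpecialLinearGroup ι F) := QuotientGroup.eq.1 hsx
    have hcomm := Subgroup.mem_center_iff.1 hz
    have h1 : (s⁻¹ * x) * y = y * (s⁻¹ * x) := (hcomm y).symm
    have e : ⁅x, y⁆ = s * (y * s⁻¹ * y⁻¹) := by
      rw [commutatorElement_def]
      calc x * y * x⁻¹ * y⁻¹ = s * ((s⁻¹ * x) * y) * x⁻¹ * y⁻¹ := by group
        _ = s * (y * (s⁻¹ * x)) * x⁻¹ * y⁻¹ := by rw [h1]
        _ = s * (y * s⁻¹ * y⁻¹) := by group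
    rw [e]
    exact N.mul_mem hs (hN.conj_mem _ (N.inv_mem hs) y)

theorem scalar_of_central_comm {F : Type*} [Field F] {ι : Type*} [Fintype ι] [DecidableEq ι]
    (M Mi : Matrix ι ι F) (hM : M * Mi = 1) (hMi : Mi * M = 1)
    (h : ∀ (i j : ι) (_ : i ≠ j) (c : F), ∃ r : F,
      (1 + Matrix.single i j c) * M * (1 + Matrix.single i j (-c)) * Mi
        = r • (1 : Matrix ι ι F)) :
    ∃ c : F, M = c • (1 : Matrix ι ι F) := by
  have hcomm : ∀ t : Matrix.TransvectionStruct ι F, Commute t.toMatrix M := by
    rintro ⟨i, j, hij, c⟩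
    obtain ⟨r, hr⟩ := h i j hij c
    have hNN : ∀ a b : F, Matrix.single i j a * Matrix.single i j b = (0 : Matrix ι ι F) :=
      fun a b => Matrix.single_mul_single_of_ne _ _ _ _ hij.symm _
    have hTT' : (1 + Matrix.single i j (-c)) * (1 + Matrix.single i j c) = (1 : Matrix ι ι F) := by
      rw [add_mul, mul_add, mul_add, one_mul, mul_one, one_mul, hNN, add_zero,
        add_assoc, ← Matrix.single_add]
      simp
    have h1 : M * (1 + Matrix.single i j (-c)) * Mi = r • (1 + Matrix.single i j (-c)) := by
      calc M * (1 + Matrix.single i j (-c)) * Mi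
          = (1 + Matrix.single i j (-c)) * ((1 + Matrix.single i j c) * M
              * (1 + Matrix.single i j (-c)) * Mi) := by
            simp only [← mul_assoc, hTT', one_mul]
        _ = r • (1 + Matrix.single i j (-c)) := by
            rw [hr, Matrix.mul_smul, mul_one]
    have h2 : (M * (1 + Matrix.single i j (-c)) * Mi - 1)
        * (M * (1 + Matrix.single i j (-c)) * Mi - 1) = 0 := by
      have e : M * (1 + Matrix.single i j (-c)) * Mi - 1 = M * Matrix.single i j (-c) * Mi := by
        rw [mul_add, add_mul, mul_one, hM, add_sub_cancel_left]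
      rw [e]
      calc M * Matrix.single i j (-c) * Mi * (M * Matrix.single i j (-c) * Mi)
          = M * (Matrix.single i j (-c) * (Mi * M) * Matrix.single i j (-c)) * Mi := by
            simp only [mul_assoc]
        _ = 0 := by
            rw [hMi, mul_one, hNN, mul_zero, zero_mul]
    rw [h1] at h2
    have hA : r • (1 + Matrix.single i j (-c)) - 1
        = (r - 1) • (1 : Matrix ι ι F) + r • Matrix.single i j (-c) := by
      rw [smul_add, sub_smul, one_smul]
      abel
    rw [hA] at h2
    have h4 : ((r - 1) • (1 : Matrix ι ι F) + r • Matrix.single i j (-c))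
        * ((r - 1) • (1 : Matrix ι ι F) + r • Matrix.single i j (-c))
        = ((r - 1) * (r - 1)) • (1 : Matrix ι ι F)
          + (2 * r * (r - 1)) • Matrix.single i j (-c) := by
      simp only [add_mul, mul_add, smul_mul_assoc, mul_smul_comm, one_mul, mul_one,
        hNN, smul_zero, add_zero]
      module
    rw [h4] at h2
    have h5 := congrFun (congrFun h2 i) i
    simp [Matrix.single_apply, hij.symm] at h5
    have hr1 : r = 1 := by linear_combination h5
    rw [hr1, one_smul] at hr
    have h6 : (1 + Matrix.single i j c) * M * (1 + Matrix.single i j (-c)) = M := by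
      calc (1 + Matrix.single i j c) * M * (1 + Matrix.single i j (-c))
          = (1 + Matrix.single i j c) * M * (1 + Matrix.single i j (-c)) * (Mi * M) := by
            rw [hMi, mul_one]
        _ = ((1 + Matrix.single i j c) * M * (1 + Matrix.single i j (-c)) * Mi) * M := by
            simp only [mul_assoc]
        _ = M := by rw [hr, one_mul]
    change (1 + Matrix.single i j c) * M = M * (1 + Matrix.single i j c)
    calc (1 + Matrix.single i j c) * M
        = (1 + Matrix.single i j c) * M * ((1 + Matrix.single i j (-c)) * (1 + Matrix.single i j c)) := by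
          rw [hTT', mul_one]
      _ = ((1 + Matrix.single i j c) * M * (1 + Matrix.single i j (-c))) * (1 + Matrix.single i j c) := by
          simp only [mul_assoc]
      _ = M * (1 + Matrix.single i j c) := by rw [h6]
  obtain ⟨c, hc⟩ := Matrix.mem_range_scalar_of_commute_transvectionStruct hcomm
  refine ⟨c, ?_⟩
  rw [← hc]
  ext a b
  simp [Matrix.one_apply, Matrix.diagonal_apply]

theorem result {F : Type*} [Field F] [Fintype F] (n : ℕ) (hn : 1 ≤ n) (hex : ¬ (n = 2 ∧ Fintype.card F ≤ 3)) (G : Subgroup (Matrix.GeneralLinearGroup (Fin n) F)) (hG : ∀ s : Matrix.SpecialLinearGroup (Fin n) F, ∀ g ∈ G, (Matrix.SpecialLinearGroup.toGL s) * g * (Matrix.SpecialLinearGroup.toGL s)⁻¹ ∈ G) : (∀ g ∈ G, ∃ c : F, (g : Matrix (Fin n) (Fin n) F) = c • (1 : Matrix (Fin n) (Fin n) F)) ∨ (Matrix.SpecialLinearGroup.toGL : Matrix.SpecialLinearGroup (Fin n) F →* _).range ≤ G := by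
  classical
  by_cases h1 : n = 1
  · right
    subst h1
    rintro x ⟨s, rfl⟩
    have hs : s = 1 := by
      apply Subtype.ext
      ext i j
      have hd := s.2
      rw [Matrix.det_fin_one] at hd
      fin_cases i
      fin_cases j
      simpa using hd
    rw [hs, map_one]
    exact G.one_mem
  · have hps : commutator (Matrix.SpecialLinearGroup (Fin n) F) = ⊤ ∧
        IsSimpleGroup (Matrix.ProjectiveSpecialLinearGroup (Fin n) F) := by
      by_cases h2 : n = 2
      · subst h2
        have h4 : 4 ≤ Fintype.card F := by
          by_contra hc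
          exact hex ⟨rfl, by omega⟩
        obtain ⟨a, ha, hasq⟩ := exists_sq_ne_one h4
        exact ⟨Matrix.SL2.commutator_eq_top ha hasq,
          Matrix.ProjectiveSpecialLinearGroup.rank_two_simple
            (by rw [Nat.card_eq_fintype_card]; exact h4)⟩
      · have h3 : 3 ≤ Fintype.card (Fin n) := by
          rw [Fintype.card_fin]
          omega
        exact ⟨Lib.Helper1.SLn.commutator_SL_eq_top h3, Lib.Helper1.SLn.isSimpleGroup_PSL h3⟩
    obtain ⟨hperf, hsimple⟩ := hps
    have hN : (G.comap (Matrix.SpecialLinearGroup.toGL :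
        Matrix.SpecialLinearGroup (Fin n) F →* Matrix.GeneralLinearGroup (Fin n) F)).Normal :=
      ⟨fun s hs x => by
        rw [Subgroup.mem_comap] at hs ⊢
        rw [map_mul, map_mul, map_inv]
        exact hG x _ hs⟩
    rcases normal_sub_SL hperf hsimple _ hN with hcen | htop
    · left
      intro g hg
      apply scalar_of_central_comm (g : Matrix (Fin n) (Fin n) F)
        ((g⁻¹ : Matrix.GeneralLinearGroup (Fin n) F) : Matrix (Fin n) (Fin n) F)
        (by rw [← Units.val_mul, mul_inv_cancel]; rfl) (by rw [← Units.val_mul, inv_mul_cancel]; rfl)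
      intro i j hij c
      have hw : Matrix.SpecialLinearGroup.toGL (Matrix.SpecialLinearGroup.transvection hij c) * g
          * (Matrix.SpecialLinearGroup.toGL (Matrix.SpecialLinearGroup.transvection hij c))⁻¹ * g⁻¹ ∈ G :=
        G.mul_mem (hG _ g hg) (G.inv_mem hg)
      have hdet : ((Matrix.SpecialLinearGroup.toGL (Matrix.SpecialLinearGroup.transvection hij c) * g
          * (Matrix.SpecialLinearGroup.toGL (Matrix.SpecialLinearGroup.transvection hij c))⁻¹ * g⁻¹ :
            Matrix.GeneralLinearGroup (Fin n) F) : Matrix (Fin n) (Fin n) F).det = 1 := by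
        have h5 : Matrix.GeneralLinearGroup.det
            (Matrix.SpecialLinearGroup.toGL (Matrix.SpecialLinearGroup.transvection hij c) * g
              * (Matrix.SpecialLinearGroup.toGL (Matrix.SpecialLinearGroup.transvection hij c))⁻¹ * g⁻¹)
            = 1 := by
          rw [map_mul, map_mul, map_mul, map_inv, map_inv]
          exact comm_one _ _
        have h6 := congrArg Units.val h5
        rw [Matrix.GeneralLinearGroup.val_det_apply] at h6
        simpa using h6
      obtain ⟨u, hu⟩ : ∃ u : Matrix.SpecialLinearGroup (Fin n) F,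
          Matrix.SpecialLinearGroup.toGL u
            = Matrix.SpecialLinearGroup.toGL (Matrix.SpecialLinearGroup.transvection hij c) * g
          * (Matrix.SpecialLinearGroup.toGL (Matrix.SpecialLinearGroup.transvection hij c))⁻¹ * g⁻¹ :=
        ⟨⟨_, hdet⟩, Units.ext rfl⟩
      have huN : u ∈ G.comap (Matrix.SpecialLinearGroup.toGL :
          Matrix.SpecialLinearGroup (Fin n) F →* Matrix.GeneralLinearGroup (Fin n) F) := by
        rw [Subgroup.mem_comap, hu]
        exact hw
      obtain ⟨r, -, hr⟩ := Matrix.SpecialLinearGroup.mem_center_iff.1 (hcen huN)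
      refine ⟨r, ?_⟩
      have h7 : (u : Matrix (Fin n) (Fin n) F)
          = (1 + Matrix.single i j c) * (g : Matrix (Fin n) (Fin n) F) * (1 + Matrix.single i j (-c))
            * ((g⁻¹ : Matrix.GeneralLinearGroup (Fin n) F) : Matrix (Fin n) (Fin n) F) := by
        have h8 := congrArg Units.val hu
        rw [← map_inv, Matrix.SpecialLinearGroup.transvection_inv] at h8
        exact h8
      rw [← h7, ← hr]
      ext a b
      simp [Matrix.one_apply, Matrix.diagonal_apply]
    · right
      rintro x ⟨s, rfl⟩
      have hs : s ∈ G.comap (Matrix.SpecialLinearGroup.toGL :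
          Matrix.SpecialLinearGroup (Fin n) F →* Matrix.GeneralLinearGroup (Fin n) F) := by
        rw [htop]
        trivial
      exact hs

end Cfsg.Agent.S2540
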