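import Cfsg.Statements.S2541
import Mathlib

set_option autoImplicit false
open Cfsg

namespace Cfsg.Agent.S2541

theorem result {F : Type*} [Field F] [Fintype F] (hF : Fintype.card F = 9) : ¬ Nonempty (Equiv.Perm (Fin 6) ≃* Matrix.ProjGenLinGroup (Fin 2) F) := by
  classical
  rintro ⟨e⟩
  -- exponent of S6 divides 60
  have h60 : ∀ σ : Equiv.Perm (Fin 6), σ ^ 60 = 1 := by
    intro σ
    rw [← orderOf_dvd_iff_pow_eq_one, ← Equiv.Perm.lcm_cycleType, Multiset.lcm_dvd]
    intro b hb
    have h1 : b ≤ 6 := by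
      have := Equiv.Perm.le_card_support_of_mem_cycleType hb
      have h2 : σ.support.card ≤ Fintype.card (Fin 6) := Finset.card_le_univ _
      simp at h2
      omega
    have h2 : 2 ≤ b := Equiv.Perm.two_le_of_mem_cycleType hb
    interval_cases b <;> norm_num
  -- element of order 8 in Fˣ
  obtain ⟨ζ, hζ⟩ := IsCyclic.exists_generator (α := Fˣ)
  have hord : orderOf ζ = 8 := by
    rw [orderOf_eq_card_of_forall_mem_zpowers hζ, Nat.card_eq_fintype_card, Fintype.card_units, hF]
  have hζ60 : (ζ : F) ^ 60 ≠ 1 := by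
    intro h
    have h' : ζ ^ 60 = 1 := by
      apply Units.ext
      rw [Units.val_pow_eq_pow_val, h, Units.val_one]
    rw [← orderOf_dvd_iff_pow_eq_one, hord] at h'
    omega
  have hdet : (Matrix.diagonal ![(ζ : F), 1]).det ≠ 0 := by
    rw [Matrix.det_diagonal]
    simp
  let g : GL (Fin 2) F := Matrix.GeneralLinearGroup.mkOfDetNeZero (Matrix.diagonal ![(ζ : F), 1]) hdet
  have hx : (Matrix.ProjGenLinGroup.mk g) ^ 60 = 1 := by
    have := h60 (e.symm (Matrix.ProjGenLinGroup.mk g))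
    have h2 := congrArg e this
    rwa [map_pow, map_one, MulEquiv.apply_symm_apply] at h2
  rw [← map_pow, Matrix.ProjGenLinGroup.mk_eq_one,
    Matrix.GeneralLinearGroup.mem_center_iff_val_mem_range_scalar] at hx
  obtain ⟨a, ha⟩ := hx
  have hval : ((g ^ 60 : GL (Fin 2) F) : Matrix (Fin 2) (Fin 2) F) = Matrix.diagonal (![(ζ : F), 1] ^ 60) := by
    rw [Units.val_pow_eq_pow_val, ← Matrix.diagonal_pow]
    rfl
  rw [hval] at ha
  have h0 := congrFun (congrFun ha 0) 0
  have h1 := congrFun (congrFun ha 1) 1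
  simp at h0 h1
  apply hζ60
  rw [← h0, h1]

end Cfsg.Agent.S2541
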