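import Cfsg.Statements.S2739
import Cfsg.Agent.S2388

set_option autoImplicit false
open scoped Pointwise
open Cfsg

set_option maxHeartbeats 1000000
namespace Cfsg.Agent.S2739

open Polynomial in
theorem lam_eq_one {F : Type*} [Field F] [Fintype F] (hF : Fintype.card F = 4)
    (M : Matrix (Fin 3) (Fin 3) F) (hdet : M.det = 1) (l : F)
    (hM : M ^ 3 = Matrix.scalar (Fin 3) l) : l = 1 := by
  classical
  by_contra hl
  have hl3 : l ^ 3 = 1 := by
    have := congrArg Matrix.det hM
    rw [Matrix.det_pow, hdet, one_pow] at this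
    simpa using this.symm
  have hl0 : l ≠ 0 := by
    rintro rfl
    simp at hl3
  set p : F[X] := X ^ 3 - C l with hp
  have hpm : p.Monic := monic_X_pow_sub_C l (by norm_num)
  have hpd : p.natDegree = 3 := natDegree_X_pow_sub_C
  have hroots : p.roots = 0 := by
    rw [Multiset.eq_zero_iff_forall_notMem]
    intro a ha
    rw [mem_roots hpm.ne_zero, IsRoot.def, hp, eval_sub, eval_pow, eval_X, eval_C] at ha
    by_cases ha0 : a = 0
    · rw [ha0] at ha
      apply hl0
      simp at ha
      exact ha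
    · have h3 := FiniteField.pow_card_sub_one_eq_one a ha0
      rw [hF] at h3
      norm_num at h3
      rw [h3] at ha
      apply hl
      exact (sub_eq_zero.mp ha).symm
  have hirr : Irreducible p :=
    (hpm.irreducible_iff_roots_eq_zero_of_degree_le_three (by rw [hpd]; norm_num)
      (by rw [hpd])).mpr hroots
  have haev : aeval M p = 0 := by
    rw [hp, map_sub, map_pow, aeval_X, aeval_C, hM]
    simp [Matrix.algebraMap_eq_diagonal, Matrix.scalar_apply]
  have hmin : p = minpoly F M := minpoly.eq_of_irreducible_of_monic hirr haev hpm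
  have hdvd : p ∣ M.charpoly := hmin ▸ Matrix.minpoly_dvd_charpoly M
  have hch : M.charpoly = p :=
    eq_of_monic_of_dvd_of_natDegree_le hpm (Matrix.charpoly_monic M) hdvd
      (by rw [Matrix.charpoly_natDegree_eq_dim, hpd]; simp)
  have hd := Matrix.det_eq_sign_charpoly_coeff M
  rw [hch, hdet, hp] at hd
  simp at hd
  apply hl
  linear_combination -hd

open Polynomial in
theorem charpoly_eq {F : Type*} [Field F] (M : Matrix (Fin 3) (Fin 3) F) (hdet : M.det = 1)
    (hM : M ^ 3 = 1) (hns : ∀ c : F, M ≠ Matrix.scalar (Fin 3) c) : M.charpoly = X ^ 3 - 1 := by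
  classical
  have hmon : M.charpoly.Monic := Matrix.charpoly_monic M
  have hdeg : M.charpoly.natDegree = 3 := by rw [Matrix.charpoly_natDegree_eq_dim]; simp
  have h3 : M.charpoly.coeff 3 = 1 := by
    have := hmon.coeff_natDegree; rwa [hdeg] at this
  have h0 : M.charpoly.coeff 0 = -1 := by
    have hd := Matrix.det_eq_sign_charpoly_coeff M
    rw [hdet] at hd
    simp at hd
    linear_combination hd
  have hsum := M.charpoly.as_sum_range' 4 (by rw [hdeg]; norm_num)
  have hCH : aeval M M.charpoly = 0 := Matrix.aeval_self_charpoly M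
  rw [hsum] at hCH
  simp only [Finset.sum_range_succ, Finset.sum_range_zero, zero_add, map_add, aeval_monomial, h3,
    h0, ← Algebra.smul_def, pow_zero, pow_one, hM] at hCH
  have e1 : M.charpoly.coeff 1 • M + M.charpoly.coeff 2 • M ^ 2 = 0 := by
    have : (-1 : F) • (1 : Matrix (Fin 3) (Fin 3) F) + M.charpoly.coeff 1 • M
        + M.charpoly.coeff 2 • M ^ 2 + (1 : F) • (1 : Matrix (Fin 3) (Fin 3) F) = 0 := hCH
    rw [neg_one_smul, one_smul] at this
    have h' : M.charpoly.coeff 1 • M + M.charpoly.coeff 2 • M ^ 2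
        = (-1 + M.charpoly.coeff 1 • M + M.charpoly.coeff 2 • M ^ 2 + 1 : Matrix (Fin 3) (Fin 3) F) := by
      abel
    rw [h', this]
  have hM4 : M ^ 2 * M ^ 2 = M := by
    calc M ^ 2 * M ^ 2 = M ^ 3 * M := by rw [← pow_add, ← pow_succ]
    _ = M := by rw [hM, one_mul]
  have e2 : M.charpoly.coeff 1 • (1 : Matrix (Fin 3) (Fin 3) F) + M.charpoly.coeff 2 • M = 0 := by
    have := congrArg (fun A => M ^ 2 * A) e1
    simp only [mul_add, Matrix.mul_smul, mul_zero, hM4] at this
    rw [← pow_succ, hM] at this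
    exact this
  have key : ∀ s t : F, s • (1 : Matrix (Fin 3) (Fin 3) F) + t • M = 0 → t = 0 ∧ s = 0 := by
    intro s t e2
    have ht : t = 0 := by
      by_contra ht
      apply hns (-s / t)
      have e3 : t • M = (-s) • (1 : Matrix (Fin 3) (Fin 3) F) := by
        rw [neg_smul]; exact eq_neg_of_add_eq_zero_right e2
      have e4 : M = t⁻¹ • (t • M) := by
        rw [smul_smul, inv_mul_cancel₀ ht, one_smul]
      rw [e4, e3, smul_smul]
      ext i j
      simp [Matrix.scalar_apply, Matrix.diagonal_apply, Matrix.one_apply, div_eq_inv_mul]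
    refine ⟨ht, ?_⟩
    rw [ht, zero_smul, add_zero] at e2
    have := congrFun (congrFun e2 0) 0
    simpa using this
  obtain ⟨ht, hs⟩ := key _ _ e2
  rw [hsum]
  simp only [Finset.sum_range_succ, Finset.sum_range_zero, zero_add, h0, h3, hs, ht,
    monomial_zero_right, add_zero]
  rw [← C_mul_X_pow_eq_monomial, ← C_mul_X_pow_eq_monomial]
  simp
  ring

theorem lift {F : Type*} [Field F] [Fintype F] (hF : Fintype.card F = 4)
    (X : Subgroup (Matrix.ProjectiveSpecialLinearGroup (Fin 3) F)) (hX : Nat.card ↥X = 3) :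
    ∃ x : Matrix.SpecialLinearGroup (Fin 3) F, orderOf x = 3 ∧
      (x : Matrix (Fin 3) (Fin 3) F).charpoly = Polynomial.X ^ 3 - 1 ∧
      Subgroup.zpowers (QuotientGroup.mk x : Matrix.ProjectiveSpecialLinearGroup (Fin 3) F) = X := by
  classical
  haveI : Fact (Nat.Prime 3) := ⟨by norm_num⟩
  haveI : Finite X := Nat.finite_of_card_ne_zero (by rw [hX]; norm_num)
  obtain ⟨g, hg⟩ : ∃ g : X, g ≠ 1 := by
    by_contra h
    push_neg at h
    haveI : Subsingleton X := ⟨fun a b => by rw [h a, h b]⟩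
    have : Nat.card X ≤ 1 := Finite.card_le_one_iff_subsingleton.mpr inferInstance
    omega
  have hg3 : g ^ 3 = 1 := by
    have := pow_card_eq_one' (G := X) (x := g)
    rwa [hX] at this
  have hgo : orderOf g = 3 := orderOf_eq_prime hg3 hg
  obtain ⟨x, hx⟩ := QuotientGroup.mk_surjective (g : Matrix.ProjectiveSpecialLinearGroup (Fin 3) F)
  have hx3 : (QuotientGroup.mk (x ^ 3) : Matrix.ProjectiveSpecialLinearGroup (Fin 3) F) = 1 := by
    rw [QuotientGroup.mk_pow, hx, ← Subgroup.coe_pow, hg3]; rfl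
  rw [QuotientGroup.eq_one_iff, Matrix.SpecialLinearGroup.mem_center_iff] at hx3
  obtain ⟨l, hl3, hl⟩ := hx3
  have hM3 : (x : Matrix (Fin 3) (Fin 3) F) ^ 3 = Matrix.scalar (Fin 3) l := by
    rw [hl]; simp
  have hl1 := lam_eq_one hF (x : Matrix (Fin 3) (Fin 3) F) x.det_coe l hM3
  have hx31 : x ^ 3 = 1 := by
    apply Subtype.ext
    rw [Matrix.SpecialLinearGroup.coe_pow, hM3, hl1]; simp
  have hxne : x ≠ 1 := by
    rintro rfl
    apply hg; apply Subtype.ext; rw [← hx]; rfl
  have hxo : orderOf x = 3 := orderOf_eq_prime hx31 hxne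
  have hns : ∀ c : F, (x : Matrix (Fin 3) (Fin 3) F) ≠ Matrix.scalar (Fin 3) c := by
    intro c hc
    have hcen : x ∈ Subgroup.center (Matrix.SpecialLinearGroup (Fin 3) F) := by
      rw [Matrix.SpecialLinearGroup.mem_center_iff]
      refine ⟨c, ?_, hc.symm⟩
      have := congrArg Matrix.det hc
      rw [x.det_coe] at this
      simpa using this.symm
    have h1 : (QuotientGroup.mk x : Matrix.ProjectiveSpecialLinearGroup (Fin 3) F) = 1 :=
      (QuotientGroup.eq_one_iff x).mpr hcen
    apply hg; apply Subtype.ext; rw [← hx, h1]; rfl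
  refine ⟨x, hxo, charpoly_eq _ x.det_coe
    (by rw [← Matrix.SpecialLinearGroup.coe_pow, hx31]; rfl) hns, ?_⟩
  rw [hx]
  apply Subgroup.eq_of_le_of_card_ge
  · rw [Subgroup.zpowers_le]; exact g.2
  · rw [hX, Nat.card_zpowers, Subgroup.orderOf_coe, hgo]


theorem result (F : Type*) [Field F] [Fintype F] (hF : Fintype.card F = 4) (X Y : Subgroup (Matrix.ProjectiveSpecialLinearGroup (Fin 3) F)) (hX : Nat.card ↥X = 3) (hY : Nat.card ↥Y = 3) : ∃ g : Matrix.ProjectiveSpecialLinearGroup (Fin 3) F, MulAut.conj g • X = Y := by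
  classical
  obtain ⟨x, hxo, hxc, hxX⟩ := lift hF X hX
  obtain ⟨y, hyo, hyc, hyY⟩ := lift hF Y hY
  obtain ⟨p, hp⟩ := CharP.exists F
  obtain ⟨n, hpp, hn⟩ := FiniteField.card F p
  have hp2 : p = 2 := by
    have h1 : p ∣ 4 := by rw [← hF, hn]; exact dvd_pow_self p n.ne_zero
    have h2 : p ∣ 2 ^ 2 := by norm_num; exact h1
    exact (Nat.prime_dvd_prime_iff_eq hpp Nat.prime_two).mp (hpp.dvd_of_dvd_pow h2)
  subst hp2
  haveI : Fact (Nat.Prime 2) := ⟨Nat.prime_two⟩
  have hconj : IsConj x y := Cfsg.Agent.S2388.result 2 3 x y (by rw [hxo]; norm_num)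
    (by rw [hyo]; norm_num) (by rw [hxc, hyc])
  obtain ⟨c, hc⟩ := isConj_iff.mp hconj
  refine ⟨QuotientGroup.mk c, ?_⟩
  rw [← hxX, ← hyY]
  show (Subgroup.zpowers (QuotientGroup.mk x : Matrix.ProjectiveSpecialLinearGroup (Fin 3) F)).map
    (MulAut.conj (QuotientGroup.mk c : Matrix.ProjectiveSpecialLinearGroup (Fin 3) F)).toMonoidHom = _
  rw [MonoidHom.map_zpowers]
  congr 1
  show (QuotientGroup.mk c : Matrix.ProjectiveSpecialLinearGroup (Fin 3) F) * QuotientGroup.mk x
    * (QuotientGroup.mk c)⁻¹ = QuotientGroup.mk y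
  rw [← hc]
  rfl

end Cfsg.Agent.S2739
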