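import Cfsg.Statements.S2550
import Cfsg.Agent.S2739
import Cfsg.Agent.Lib.Helper1.GLn

set_option autoImplicit false
open Cfsg


namespace Cfsg.Agent.S2550

open Matrix

theorem card4 {F : Type*} [Field F] [Fintype F] (hF : Fintype.card F = 2) :
    Nat.card (Matrix.ProjectiveSpecialLinearGroup (Fin 4) F) = 20160 := by
  have h := Cfsg.Agent.Lib.Helper1.GLn.card_PSL_formula (F := F) 4 (by norm_num)
  rw [hF] at h
  simp [Fin.prod_univ_succ] at h
  omega

theorem card3 {K : Type*} [Field K] [Fintype K] (hK : Fintype.card K = 4) :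
    Nat.card (Matrix.ProjectiveSpecialLinearGroup (Fin 3) K) = 20160 := by
  have h := Cfsg.Agent.Lib.Helper1.GLn.card_PSL_formula (F := K) 3 (by norm_num)
  rw [hK] at h
  simp [Fin.prod_univ_succ] at h
  omega

def a0m : Matrix (Fin 4) (Fin 4) (ZMod 2) := !![0,1,0,0; 1,1,0,0; 0,0,1,1; 0,0,0,1]

theorem a0det : a0m.det = 1 := by
  rw [Matrix.det_succ_row_zero]
  simp [a0m, Fin.sum_univ_succ, Matrix.det_fin_three, Fin.succAbove, Matrix.submatrix]

def a0 : Matrix.SpecialLinearGroup (Fin 4) (ZMod 2) := ⟨a0m, a0det⟩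

theorem a0_pow6 : a0 ^ 6 = 1 := by
  apply Subtype.ext
  rw [Matrix.SpecialLinearGroup.coe_pow]
  show a0m ^ 6 = 1
  decide

theorem a0_pow2 : a0 ^ 2 ≠ 1 := by
  intro h
  have h' := congrArg Subtype.val h
  rw [Matrix.SpecialLinearGroup.coe_pow] at h'
  revert h'
  show a0m ^ 2 ≠ 1
  decide

theorem a0_pow3 : a0 ^ 3 ≠ 1 := by
  intro h
  have h' := congrArg Subtype.val h
  rw [Matrix.SpecialLinearGroup.coe_pow] at h'
  revert h'
  show a0m ^ 3 ≠ 1
  decide

theorem exists6 {F : Type*} [Field F] [Fintype F] (hF : Fintype.card F = 2) :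
    ∃ y : Matrix.ProjectiveSpecialLinearGroup (Fin 4) F, orderOf y = 6 := by
  classical
  have h2 : (2 : F) = 0 := by
    have h := Nat.cast_card_eq_zero F
    rw [hF] at h
    exact_mod_cast h
  haveI : CharP F 2 := CharTwo.of_one_ne_zero_of_two_eq_zero one_ne_zero h2
  let f : ZMod 2 →+* F := ZMod.castHom (dvd_refl 2) F
  let φ : Matrix.SpecialLinearGroup (Fin 4) (ZMod 2) →* Matrix.SpecialLinearGroup (Fin 4) F :=
    Matrix.SpecialLinearGroup.map f
  let ψ : Matrix.SpecialLinearGroup (Fin 4) (ZMod 2) →* Matrix.ProjectiveSpecialLinearGroup (Fin 4) F :=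
    (QuotientGroup.mk' _).comp φ
  have hinj : Function.Injective ψ := by
    rw [injective_iff_map_eq_one]
    intro x hx
    have hc : φ x ∈ Subgroup.center (Matrix.SpecialLinearGroup (Fin 4) F) :=
      (QuotientGroup.eq_one_iff _).mp hx
    rw [Matrix.SpecialLinearGroup.mem_center_iff] at hc
    obtain ⟨r, hr, hrx⟩ := hc
    have hr0 : r ≠ 0 := by
      rintro rfl
      simp at hr
    have hr1 : r = 1 := by
      have := FiniteField.pow_card_sub_one_eq_one r hr0
      rw [hF] at this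
      simpa using this
    subst hr1
    apply Subtype.ext
    ext i j
    have h3 := congrFun (congrFun hrx i) j
    have h4 : ((φ x : Matrix.SpecialLinearGroup (Fin 4) F) : Matrix (Fin 4) (Fin 4) F) i j
        = f ((x : Matrix (Fin 4) (Fin 4) (ZMod 2)) i j) := rfl
    rw [h4] at h3
    apply f.injective
    rw [← h3]
    simp [Matrix.one_apply]
  refine ⟨ψ a0, ?_⟩
  apply orderOf_eq_of_pow_and_pow_div_prime (by norm_num)
  · rw [← map_pow, a0_pow6, map_one]
  · intro p hp hp6
    have hp' : p = 2 ∨ p = 3 := by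
      have h6 : (6 : ℕ) = 2 * 3 := by norm_num
      rw [h6] at hp6
      rcases (Nat.Prime.dvd_mul hp).mp hp6 with h | h
      · exact Or.inl ((Nat.prime_dvd_prime_iff_eq hp Nat.prime_two).mp h)
      · exact Or.inr ((Nat.prime_dvd_prime_iff_eq hp Nat.prime_three).mp h)
    rcases hp' with rfl | rfl
    · norm_num
      rw [← map_pow]
      intro h
      exact a0_pow3 (hinj (by rw [h, map_one]))
    · norm_num
      rw [← map_pow]
      intro h
      exact a0_pow2 (hinj (by rw [h, map_one]))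

theorem no6 {K : Type*} [Field K] [Fintype K] (hK : Fintype.card K = 4)
    (y : Matrix.ProjectiveSpecialLinearGroup (Fin 3) K) : orderOf y ≠ 6 := by
  classical
  intro hy
  have h2 : (2 : K) = 0 := by
    have h := Nat.cast_card_eq_zero K
    rw [hK] at h
    have h4 : (2 : K) * 2 = 0 := by
      have : ((4 : ℕ) : K) = 2 * 2 := by norm_num
      rw [← this]; exact h
    rcases mul_eq_zero.mp h4 with h | h <;> exact h
  haveI : CharP K 2 := CharTwo.of_one_ne_zero_of_two_eq_zero one_ne_zero h2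
  haveI : Fact (Nat.Prime 2) := ⟨Nat.prime_two⟩
  haveI : Fact (Nat.Prime 3) := ⟨Nat.prime_three⟩
  have ho2 : orderOf (y ^ 2) = 3 := by
    rw [orderOf_pow' y (by norm_num : (2 : ℕ) ≠ 0), hy]
    norm_num
  obtain ⟨x, hxo, hxc, hxX⟩ := Cfsg.Agent.S2739.lift hK (Subgroup.zpowers (y ^ 2))
    (by rw [Nat.card_zpowers, ho2])
  obtain ⟨g, rfl⟩ := QuotientGroup.mk_surjective y
  have hxmem : (QuotientGroup.mk x : Matrix.ProjectiveSpecialLinearGroup (Fin 3) K) ∈
      Subgroup.zpowers ((QuotientGroup.mk g : Matrix.ProjectiveSpecialLinearGroup (Fin 3) K) ^ 2) := by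
    rw [← hxX]; exact Subgroup.mem_zpowers _
  obtain ⟨j, hj⟩ := Subgroup.mem_zpowers_iff.mp hxmem
  have hj' : (QuotientGroup.mk ((g ^ 2) ^ j) : Matrix.ProjectiveSpecialLinearGroup (Fin 3) K)
      = QuotientGroup.mk x := by rw [← hj]; rfl
  have hj2 : ((g ^ 2) ^ j)⁻¹ * x ∈ Subgroup.center (Matrix.SpecialLinearGroup (Fin 3) K) :=
    QuotientGroup.eq.mp hj'
  have hcomm : x * g = g * x := by
    obtain ⟨z, hz⟩ : ∃ z, z = ((g ^ 2) ^ j)⁻¹ * x := ⟨_, rfl⟩
    rw [← hz] at hj2
    have hx : x = (g ^ 2) ^ j * z := by rw [hz]; group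
    have hzc : ∀ w, w * z = z * w := fun w => Subgroup.mem_center_iff.mp hj2 w
    rw [hx]
    have h1 : (g ^ 2) ^ j * g = g * (g ^ 2) ^ j := by group
    calc (g ^ 2) ^ j * z * g = (g ^ 2) ^ j * (z * g) := by group
      _ = (g ^ 2) ^ j * (g * z) := by rw [hzc g]
      _ = ((g ^ 2) ^ j * g) * z := by group
      _ = g * (g ^ 2) ^ j * z := by rw [h1]
      _ = g * ((g ^ 2) ^ j * z) := by group
  have hs2 : (g ^ 3) ^ 2 ∈ Subgroup.center (Matrix.SpecialLinearGroup (Fin 3) K) := by
    rw [← QuotientGroup.eq_one_iff]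
    show ((QuotientGroup.mk g : Matrix.ProjectiveSpecialLinearGroup (Fin 3) K) ^ 3) ^ 2 = 1
    rw [← pow_mul]
    have h6 := pow_orderOf_eq_one (QuotientGroup.mk g : Matrix.ProjectiveSpecialLinearGroup (Fin 3) K)
    rw [hy] at h6
    exact h6
  have hs1 : g ^ 3 ∉ Subgroup.center (Matrix.SpecialLinearGroup (Fin 3) K) := by
    intro h
    have h1 : (QuotientGroup.mk g : Matrix.ProjectiveSpecialLinearGroup (Fin 3) K) ^ 3 = 1 :=
      (QuotientGroup.eq_one_iff _).mpr h
    have h3 := orderOf_dvd_of_pow_eq_one h1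
    rw [hy] at h3
    norm_num at h3
  -- the diagonal element
  obtain ⟨ω, hω0, hω1⟩ : ∃ ω : K, ω ≠ 0 ∧ ω ≠ 1 := by
    by_contra hcon
    push_neg at hcon
    have hsub : (Finset.univ : Finset K) ⊆ {0, 1} := by
      intro w _
      by_cases hw : w = 0
      · simp [hw]
      · simp [hcon w hw]
    have := Finset.card_le_card hsub
    rw [Finset.card_univ, hK] at this
    have h3 : ({0, 1} : Finset K).card ≤ 2 := Finset.card_insert_le _ _
    omega
  have hω3 : ω ^ 3 = 1 := by
    have := FiniteField.pow_card_sub_one_eq_one ω hω0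
    rwa [hK] at this
  have hω : ω ^ 2 + ω + 1 = 0 := by
    have : (ω - 1) * (ω ^ 2 + ω + 1) = 0 := by linear_combination hω3
    rcases mul_eq_zero.mp this with h | h
    · exact absurd (sub_eq_zero.mp h) hω1
    · exact h
  obtain ⟨dv, hdv⟩ : ∃ dv : Fin 3 → K, dv = ![1, ω, ω ^ 2] := ⟨_, rfl⟩
  have hdinj : ∀ i j, dv i = dv j → i = j := by
    have hω2 : ω ^ 2 ≠ 1 := by
      intro h
      apply hω1
      linear_combination hω3 - ω * h
    have hω2' : ω ^ 2 ≠ ω := by
      intro h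
      apply hω1
      have : ω * (ω - 1) = 0 := by linear_combination h
      rcases mul_eq_zero.mp this with h | h
      · exact absurd h hω0
      · exact sub_eq_zero.mp h
    intro i j hij
    rw [hdv] at hij
    fin_cases i <;> fin_cases j <;> first | rfl | exfalso
    · exact hω1 hij.symm
    · exact hω2 hij.symm
    · exact hω1 hij
    · exact hω2' hij.symm
    · exact hω2 hij
    · exact hω2' hij
  have hdet : (Matrix.diagonal dv).det = 1 := by
    rw [Matrix.det_diagonal, hdv]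
    simp [Fin.prod_univ_succ]
    linear_combination hω3
  obtain ⟨d, hd⟩ : ∃ d : Matrix.SpecialLinearGroup (Fin 3) K,
      (d : Matrix (Fin 3) (Fin 3) K) = Matrix.diagonal dv := ⟨⟨_, hdet⟩, rfl⟩
  have hd3 : d ^ 3 = 1 := by
    apply Subtype.ext
    rw [Matrix.SpecialLinearGroup.coe_pow, hd, Matrix.diagonal_pow]
    rw [show ((1 : Matrix.SpecialLinearGroup (Fin 3) K) : Matrix (Fin 3) (Fin 3) K) = 1 from rfl,
      ← Matrix.diagonal_one]
    congr 1
    ext i
    rw [hdv]
    fin_cases i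
    · simp
    · simpa using hω3
    · simp only [Pi.pow_apply]
      show (ω ^ 2) ^ 3 = 1
      rw [← pow_mul, mul_comm, pow_mul, hω3, one_pow]
  have hdne : d ≠ 1 := by
    intro h
    have := congrFun (congrFun (congrArg Subtype.val h) 1) 1
    rw [hd, hdv] at this
    simp at this
    exact hω1 this
  have hdo : orderOf d = 3 := orderOf_eq_prime hd3 hdne
  have hdc : (d : Matrix (Fin 3) (Fin 3) K).charpoly = Polynomial.X ^ 3 - 1 := by
    apply Cfsg.Agent.S2739.charpoly_eq _ d.det_coe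
    · rw [← Matrix.SpecialLinearGroup.coe_pow, hd3]; rfl
    · intro c hc
      rw [hd] at hc
      have e0 := congrFun (congrFun hc 0) 0
      have e1 := congrFun (congrFun hc 1) 1
      rw [hdv] at e0 e1
      simp at e0 e1
      exact hω1 (by rw [e1, ← e0])
  have hconj : IsConj x d := Cfsg.Agent.S2388.result 2 3 x d (by rw [hxo]; norm_num)
    (by rw [hdo]; norm_num) (by rw [hxc, hdc])
  obtain ⟨c, hc⟩ := isConj_iff.mp hconj
  -- s' = c g^3 c⁻¹ commutes with d
  obtain ⟨s, hs⟩ : ∃ s, s = c * g ^ 3 * c⁻¹ := ⟨_, rfl⟩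
  have hsd : s * d = d * s := by
    have h1 : g ^ 3 * x = x * g ^ 3 := by
      have := (Commute.pow_left (show Commute g x from hcomm.symm) 3).eq
      exact this
    rw [hs, ← hc]
    calc c * g ^ 3 * c⁻¹ * (c * x * c⁻¹) = c * (g ^ 3 * x) * c⁻¹ := by group
      _ = c * (x * g ^ 3) * c⁻¹ := by rw [h1]
      _ = c * x * c⁻¹ * (c * g ^ 3 * c⁻¹) := by group
  have hsd' : (s : Matrix (Fin 3) (Fin 3) K) * Matrix.diagonal dv
      = Matrix.diagonal dv * (s : Matrix (Fin 3) (Fin 3) K) := by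
    rw [← hd]
    exact congrArg Subtype.val hsd
  have hoff : ∀ i j, i ≠ j → (s : Matrix (Fin 3) (Fin 3) K) i j = 0 := by
    intro i j hij
    have h := congrFun (congrFun hsd' i) j
    rw [Matrix.mul_diagonal, Matrix.diagonal_mul] at h
    have h5 : (dv j - dv i) * (s : Matrix (Fin 3) (Fin 3) K) i j = 0 := by linear_combination h
    rcases mul_eq_zero.mp h5 with h | h
    · exact absurd (hdinj _ _ (sub_eq_zero.mp h)).symm hij
    · exact h
  have hsdiag : (s : Matrix (Fin 3) (Fin 3) K) = Matrix.diagonal (fun i => (s : Matrix (Fin 3) (Fin 3) K) i i) := by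
    ext i j
    by_cases hij : i = j
    · subst hij; simp
    · rw [hoff i j hij, Matrix.diagonal_apply_ne _ hij]
  have hs2' : s ^ 2 ∈ Subgroup.center (Matrix.SpecialLinearGroup (Fin 3) K) := by
    have : s ^ 2 = c * (g ^ 3) ^ 2 * c⁻¹ := by rw [hs, pow_two, pow_two]; group
    rw [this]
    have hcen := Subgroup.mem_center_iff.mp hs2 c
    have e : c * (g ^ 3) ^ 2 * c⁻¹ = (g ^ 3) ^ 2 := by rw [hcen]; group
    rw [e]
    exact hs2
  rw [Matrix.SpecialLinearGroup.mem_center_iff] at hs2'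
  obtain ⟨μ, _, hμ⟩ := hs2'
  have hsq : ∀ i, ((s : Matrix (Fin 3) (Fin 3) K) i i) ^ 2 = μ := by
    intro i
    have h := congrFun (congrFun hμ i) i
    have e1 : ((s ^ 2 : Matrix.SpecialLinearGroup (Fin 3) K) : Matrix (Fin 3) (Fin 3) K)
        = Matrix.diagonal (fun i => ((s : Matrix (Fin 3) (Fin 3) K) i i) ^ 2) := by
      rw [Matrix.SpecialLinearGroup.coe_pow]
      conv_lhs => rw [hsdiag]
      rw [Matrix.diagonal_pow]
      rfl
    rw [e1] at h
    simp at h
    exact h.symm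
  have heq : ∀ i, (s : Matrix (Fin 3) (Fin 3) K) i i = (s : Matrix (Fin 3) (Fin 3) K) 0 0 := by
    intro i
    have h : ((s : Matrix (Fin 3) (Fin 3) K) i i - (s : Matrix (Fin 3) (Fin 3) K) 0 0) ^ 2 = 0 := by
      linear_combination hsq i - hsq 0 + (((s : Matrix (Fin 3) (Fin 3) K) 0 0) ^ 2 - (s : Matrix (Fin 3) (Fin 3) K) i i * (s : Matrix (Fin 3) (Fin 3) K) 0 0) * h2
    exact sub_eq_zero.mp ((pow_eq_zero_iff (by norm_num)).mp h)
  have hscen : s ∈ Subgroup.center (Matrix.SpecialLinearGroup (Fin 3) K) := by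
    rw [Matrix.SpecialLinearGroup.mem_center_iff]
    have hsc : (Matrix.scalar (Fin 3)) ((s : Matrix (Fin 3) (Fin 3) K) 0 0) = (s : Matrix (Fin 3) (Fin 3) K) := by
      rw [hsdiag]
      ext i j
      by_cases hij : i = j
      · subst hij
        simp [heq i]
      · simp [Matrix.diagonal_apply_ne _ hij, hij]
    refine ⟨(s : Matrix (Fin 3) (Fin 3) K) 0 0, ?_, hsc⟩
    have := congrArg Matrix.det hsc
    rw [s.det_coe] at this
    simpa using this
  apply hs1
  have hg3 : g ^ 3 = c⁻¹ * s * c := by rw [hs]; group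
  rw [hg3]
  have hcen := Subgroup.mem_center_iff.mp hscen c⁻¹
  have e : c⁻¹ * s * c = s := by rw [hcen]; group
  rw [e]
  exact hscen

theorem main {F K : Type*} [Field F] [Fintype F] [Field K] [Fintype K] (hF : Fintype.card F = 2) (hK : Fintype.card K = 4) : Nat.card (Matrix.ProjectiveSpecialLinearGroup (Fin 4) F) = Nat.card (Matrix.ProjectiveSpecialLinearGroup (Fin 3) K) ∧ ¬ Nonempty (Matrix.ProjectiveSpecialLinearGroup (Fin 4) F ≃* Matrix.ProjectiveSpecialLinearGroup (Fin 3) K) := by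
  refine ⟨by rw [card4 hF, card3 hK], ?_⟩
  rintro ⟨e⟩
  obtain ⟨y, hy⟩ := exists6 hF
  exact no6 hK (e y) (by rw [MulEquiv.orderOf_eq, hy])

theorem result {F K : Type*} [Field F] [Fintype F] [Field K] [Fintype K] (hF : Fintype.card F = 2) (hK : Fintype.card K = 4) : Nat.card (Matrix.ProjectiveSpecialLinearGroup (Fin 4) F) = Nat.card (Matrix.ProjectiveSpecialLinearGroup (Fin 3) K) ∧ ¬ Nonempty (Matrix.ProjectiveSpecialLinearGroup (Fin 4) F ≃* Matrix.ProjectiveSpecialLinearGroup (Fin 3) K) := by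
  exact main hF hK

end Cfsg.Agent.S2550
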