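import Cfsg.Statements.S2552
import Mathlib

set_option autoImplicit false
open Cfsg

namespace Cfsg.Agent.S2552

theorem exists_equiv_map {F : Type*} [Field F] {n : ℕ} (U₁ U₂ : Submodule F (Fin n → F))
    (h : Module.finrank F U₁ = Module.finrank F U₂) :
    ∃ e : (Fin n → F) ≃ₗ[F] (Fin n → F), ∀ u ∈ U₁, e u ∈ U₂ := by
  obtain ⟨C₁, hC₁⟩ := Submodule.exists_isCompl U₁
  obtain ⟨C₂, hC₂⟩ := Submodule.exists_isCompl U₂
  have h1 := Submodule.finrank_add_eq_of_isCompl hC₁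
  have h2 := Submodule.finrank_add_eq_of_isCompl hC₂
  have hC : Module.finrank F C₁ = Module.finrank F C₂ := by omega
  refine ⟨(Submodule.prodEquivOfIsCompl U₁ C₁ hC₁).symm ≪≫ₗ
    ((LinearEquiv.ofFinrankEq _ _ h).prodCongr (LinearEquiv.ofFinrankEq _ _ hC)) ≪≫ₗ
    (Submodule.prodEquivOfIsCompl U₂ C₂ hC₂), ?_⟩
  intro u hu
  simp only [LinearEquiv.trans_apply]
  rw [show u = ((⟨u, hu⟩ : U₁) : Fin n → F) from rfl,
    Submodule.prodEquivOfIsCompl_symm_apply_left]
  simp [Submodule.coe_prodEquivOfIsCompl']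

theorem exists_dilation {F : Type*} [Field F] {n : ℕ} (U : Submodule F (Fin n → F)) (hU : U ≠ ⊥)
    (c : F) : ∃ S : Matrix (Fin n) (Fin n) F, S.det = c ∧ ∀ u ∈ U, S.mulVec u ∈ U := by
  obtain ⟨v, hvU, hv0⟩ := Submodule.exists_mem_ne_zero_of_ne_bot hU
  obtain ⟨i, hi⟩ := Function.ne_iff.mp hv0
  have hi' : v i ≠ 0 := hi
  refine ⟨1 + Matrix.replicateCol (Fin 1) ((c - 1) • v) *
    Matrix.replicateRow (Fin 1) (Pi.single i (v i)⁻¹), ?_, ?_⟩
  · have hdet := Matrix.det_one_add_replicateCol_mul_replicateRow (ι := Fin 1) ((c - 1) • v)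
      (Pi.single i (v i)⁻¹)
    refine hdet.trans ?_
    simp only [dotProduct, Pi.single_apply, Pi.smul_apply, smul_eq_mul, ite_mul, zero_mul,
      Finset.sum_ite_eq', Finset.mem_univ, if_true]
    field_simp
    ring
  · intro u hu
    have : (1 + Matrix.replicateCol (Fin 1) ((c - 1) • v) *
        Matrix.replicateRow (Fin 1) (Pi.single i (v i)⁻¹)).mulVec u
        = u + ((c - 1) * ((v i)⁻¹ * u i)) • v := by
      ext j
      rw [Matrix.add_mulVec, Matrix.one_mulVec]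
      simp only [Pi.add_apply, Pi.smul_apply, smul_eq_mul, Matrix.mulVec, dotProduct,
        Matrix.mul_apply, Matrix.replicateCol_apply, Matrix.replicateRow_apply,
        Finset.univ_unique, Finset.sum_singleton, Pi.single_apply, mul_ite, ite_mul, mul_zero,
        zero_mul, Finset.sum_ite_eq', Finset.mem_univ, if_true]
      ring
    rw [this]
    exact U.add_mem hu (U.smul_mem _ hvU)

theorem result {F : Type*} [Field F] [Fintype F] (n : ℕ) (hn : 1 ≤ n) (U₁ U₂ : Submodule F (Fin n → F)) (h : Module.finrank F U₁ = Module.finrank F U₂) : ∃ g : Matrix.SpecialLinearGroup (Fin n) F, U₁.map ((Matrix.SpecialLinearGroup.toLin' g : (Fin n → F) ≃ₗ[F] (Fin n → F)) : (Fin n → F) →ₗ[F] (Fin n → F)) = U₂ := by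
  classical
  by_cases hU : U₁ = ⊥
  · subst hU
    have h2 : U₂ = ⊥ := by
      rw [finrank_bot] at h
      exact Submodule.finrank_eq_zero.mp h.symm
    subst h2
    exact ⟨1, by simp⟩
  · obtain ⟨e, he⟩ := exists_equiv_map U₁ U₂ h
    have hd : (LinearMap.toMatrix' (e : (Fin n → F) →ₗ[F] (Fin n → F))).det ≠ 0 := by
      rw [LinearMap.det_toMatrix']
      exact (LinearEquiv.isUnit_det' e).ne_zero
    obtain ⟨S, hS, hSU⟩ := exists_dilation U₁ hU
      (LinearMap.toMatrix' (e : (Fin n → F) →ₗ[F] (Fin n → F))).det⁻¹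
    have hdet : (LinearMap.toMatrix' (e : (Fin n → F) →ₗ[F] (Fin n → F)) * S).det = 1 := by
      rw [Matrix.det_mul, hS, mul_inv_cancel₀ hd]
    obtain ⟨g, hg⟩ : ∃ g : Matrix.SpecialLinearGroup (Fin n) F, (g : Matrix (Fin n) (Fin n) F) =
        LinearMap.toMatrix' (e : (Fin n → F) →ₗ[F] (Fin n → F)) * S := ⟨⟨_, hdet⟩, rfl⟩
    refine ⟨g, ?_⟩
    apply Submodule.eq_of_le_of_finrank_eq
    · rintro _ ⟨u, hu, rfl⟩
      have : ((Matrix.SpecialLinearGroup.toLin' g : (Fin n → F) ≃ₗ[F] (Fin n → F)) :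
          (Fin n → F) →ₗ[F] (Fin n → F)) u = e (S.mulVec u) := by
        show (Matrix.SpecialLinearGroup.toLin' g) u = e (S.mulVec u)
        rw [Matrix.SpecialLinearGroup.toLin'_apply, hg, Matrix.toLin'_apply, ← Matrix.mulVec_mulVec,
          LinearMap.toMatrix'_mulVec]
        rfl
      rw [this]
      exact he _ (hSU u hu)
    · rw [LinearEquiv.finrank_map_eq]
      exact h

end Cfsg.Agent.S2552
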