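import Cfsg.Statements.S2564

set_option autoImplicit false
open Cfsg

set_option maxHeartbeats 1000000
namespace Cfsg.Agent.S2564

/-- polar form of the plus-type form over `ZMod 2` -/
def pol (m : ℕ) (u v : Fin m ⊕ Fin m → ZMod 2) : ZMod 2 :=
  Cfsg.quadFormPlus m (ZMod 2) (u + v) - Cfsg.quadFormPlus m (ZMod 2) u
    - Cfsg.quadFormPlus m (ZMod 2) v

theorem pol_def (m : ℕ) (u v : Fin m ⊕ Fin m → ZMod 2) :
    pol m u v = Cfsg.quadFormPlus m (ZMod 2) (u + v) - Cfsg.quadFormPlus m (ZMod 2) u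
      - Cfsg.quadFormPlus m (ZMod 2) v := rfl

theorem pol_eq (m : ℕ) (u v : Fin m ⊕ Fin m → ZMod 2) :
    pol m u v = ∑ i, (u (.inl i) * v (.inr i) + v (.inl i) * u (.inr i)) := by
  unfold pol Cfsg.quadFormPlus
  rw [← Finset.sum_sub_distrib, ← Finset.sum_sub_distrib]
  apply Finset.sum_congr rfl
  intro i _
  simp only [Pi.add_apply]
  ring

theorem pol_add_left (m : ℕ) (u u' v : Fin m ⊕ Fin m → ZMod 2) :
    pol m (u + u') v = pol m u v + pol m u' v := by
  rw [pol_eq, pol_eq, pol_eq, ← Finset.sum_add_distrib]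
  apply Finset.sum_congr rfl
  intro i _
  simp only [Pi.add_apply]
  ring

theorem pol_comm (m : ℕ) (u v : Fin m ⊕ Fin m → ZMod 2) : pol m u v = pol m v u := by
  rw [pol_eq, pol_eq]
  apply Finset.sum_congr rfl
  intro i _
  ring

theorem pol_add_right (m : ℕ) (u v v' : Fin m ⊕ Fin m → ZMod 2) :
    pol m u (v + v') = pol m u v + pol m u v' := by
  rw [pol_comm, pol_add_left, pol_comm m v, pol_comm m v']

theorem two_zero (a : ZMod 2) : a + a = 0 := by
  revert a; decide

theorem pol_self (m : ℕ) (u : Fin m ⊕ Fin m → ZMod 2) : pol m u u = 0 := by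
  rw [pol_eq]
  apply Finset.sum_eq_zero
  intro i _
  exact two_zero _

theorem pol_zero_left (m : ℕ) (v : Fin m ⊕ Fin m → ZMod 2) : pol m 0 v = 0 := by
  rw [pol_eq]
  simp

theorem pol_smul_left (m : ℕ) (c : ZMod 2) (u v : Fin m ⊕ Fin m → ZMod 2) :
    pol m (c • u) v = c * pol m u v := by
  rw [pol_eq, pol_eq, Finset.mul_sum]
  apply Finset.sum_congr rfl
  intro i _
  simp only [Pi.smul_apply, smul_eq_mul]
  ring

theorem exists_pol_one (m : ℕ) (t : Fin m ⊕ Fin m → ZMod 2) (ht : t ≠ 0) :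
    ∃ u, pol m u t = 1 := by
  classical
  obtain ⟨x, hx⟩ : ∃ x, t x ≠ 0 := by
    by_contra h
    apply ht
    funext j
    by_contra hj
    exact h ⟨j, hj⟩
  have hx1 : t x = 1 := by
    have : ∀ a : ZMod 2, a ≠ 0 → a = 1 := by decide
    exact this _ hx
  rcases x with i | i
  · refine ⟨Pi.single (Sum.inr i) 1, ?_⟩
    rw [pol_eq]
    simp [Pi.single_apply, hx1]
  · refine ⟨Pi.single (Sum.inl i) 1, ?_⟩
    rw [pol_eq]
    simp [Pi.single_apply, hx1]

def chi (a : ZMod 2) : ℤ := if a = 0 then 1 else -1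

theorem chi_add (a b : ZMod 2) : chi (a + b) = chi a * chi b := by revert a b; decide

theorem chi_zero : chi 0 = 1 := rfl

theorem chi_add_one (a : ZMod 2) : chi (a + 1) = - chi a := by revert a; decide

theorem sum_chi_pol (m : ℕ) (t : Fin m ⊕ Fin m → ZMod 2) :
    ∑ u, chi (pol m u t) = if t = 0 then 2 ^ (2 * m) else 0 := by
  classical
  split_ifs with ht
  · subst ht
    have : ∀ u, chi (pol m u 0) = 1 := by
      intro u; rw [pol_comm, pol_zero_left]; rfl
    simp only [this, Finset.sum_const, Finset.card_univ, Fintype.card_pi, Finset.prod_const,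
      Fintype.card_sum, Fintype.card_fin, ZMod.card, nsmul_eq_mul, mul_one]
    push_cast
    rw [two_mul]
  · obtain ⟨u₀, hu₀⟩ := exists_pol_one m t ht
    refine Finset.sum_involution (fun u _ => u + u₀) ?_ ?_ ?_ ?_
    · intro u _; rw [pol_add_left, hu₀, chi_add_one]; ring
    · intro u _ _ h
      have h0 : u₀ = 0 := by simpa using h
      rw [h0, pol_zero_left] at hu₀
      exact zero_ne_one hu₀
    · intro u _; exact Finset.mem_univ _
    · intro u _
      funext x
      simp [add_assoc, two_zero]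

theorem gauss (m : ℕ) (q : (Fin m ⊕ Fin m → ZMod 2) → ZMod 2)
    (hq : ∀ u v, q (u + v) = q u + q v + pol m u v) :
    (∑ v, chi (q v)) ^ 2 = 2 ^ (2 * m) := by
  classical
  have hq0 : q 0 = 0 := by
    have h := hq 0 0
    rw [pol_zero_left, add_zero, add_zero] at h
    have h2 := two_zero (q 0)
    rw [h2] at h
    exact h
  rw [sq, Finset.sum_mul_sum]
  have h1 : ∀ u, ∑ v, chi (q u) * chi (q v) = ∑ t, chi (q t) * chi (pol m u t) := by
    intro u
    rw [← Equiv.sum_comp (Equiv.addLeft u)]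
    apply Finset.sum_congr rfl
    intro t _
    simp only [Equiv.coe_addLeft]
    rw [← chi_add, ← chi_add, hq]
    congr 1
    have := two_zero (q u)
    linear_combination this
  simp_rw [h1]
  rw [Finset.sum_comm]
  simp_rw [← Finset.mul_sum, sum_chi_pol]
  simp [hq0, chi_zero]

theorem main (m : ℕ) (q : (Fin m ⊕ Fin m → ZMod 2) → ZMod 2)
    (hq : ∀ u v, q (u + v) = q u + q v + pol m u v) (w : Fin m ⊕ Fin m → ZMod 2) :
    (∀ u v, q (u + v) + pol m (u + v) w = (q u + pol m u w) + (q v + pol m v w) + pol m u v) ∧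
    ((∃ g : (Fin m ⊕ Fin m → ZMod 2) ≃ₗ[ZMod 2] (Fin m ⊕ Fin m → ZMod 2),
        ∀ v, q v + pol m v w = q (g v)) ↔ q w = 0) := by
  classical
  refine ⟨?_, ?_, ?_⟩
  · intro u v; rw [hq, pol_add_left]; ring
  · rintro ⟨g, hg⟩
    by_contra hw
    have hw1 : q w = 1 := (by decide : ∀ a : ZMod 2, a ≠ 0 → a = 1) _ hw
    have hS : ∑ v, chi (q v) = 0 := by
      have e1 : ∑ v, chi (q v) = ∑ v, chi (q (g v)) :=
        (Equiv.sum_comp g.toEquiv (fun v => chi (q v))).symm
      have e2 : ∑ v, chi (q (g v)) = ∑ v, - chi (q (v + w)) := by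
        apply Finset.sum_congr rfl; intro v _
        rw [← hg, ← chi_add_one, hq, hw1]
        congr 1
        have := two_zero (1 : ZMod 2)
        linear_combination -this
      have e3 : ∑ v, - chi (q (v + w)) = - ∑ v, chi (q v) := by
        rw [Finset.sum_neg_distrib]
        congr 1
        exact Equiv.sum_comp (Equiv.addRight w) (fun v => chi (q v))
      linarith
    have hG := gauss m q hq
    rw [hS] at hG
    have : (0:ℤ) < 2 ^ (2 * m) := by positivity
    rw [← hG] at this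
    simp at this
  · intro hw
    let lin : (Fin m ⊕ Fin m → ZMod 2) →ₗ[ZMod 2] (Fin m ⊕ Fin m → ZMod 2) :=
      { toFun := fun v => v + pol m v w • w
        map_add' := by
          intro u v
          rw [pol_add_left, add_smul]; abel
        map_smul' := by
          intro c v
          rw [pol_smul_left, smul_add, smul_smul]; rfl }
    have hlin : ∀ v, lin v = v + pol m v w • w := fun v => rfl
    have hinv : Function.Involutive lin := by
      intro v
      rw [hlin, hlin, pol_add_left, pol_smul_left, pol_self, mul_zero, add_zero, add_assoc,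
        ← add_smul, two_zero, zero_smul, add_zero]
    refine ⟨LinearEquiv.ofInvolutive lin hinv, ?_⟩
    intro v
    show q v + pol m v w = q (lin v)
    rw [hlin]
    rcases (by decide : ∀ a : ZMod 2, a = 0 ∨ a = 1) (pol m v w) with h | h
    · rw [h]; simp
    · rw [h, one_smul, hq, hw, h]; ring


theorem result (m : ℕ) (hm : 1 ≤ m) (q : (Fin m ⊕ Fin m → ZMod 2) → ZMod 2) (hq : (∀ u v : (Fin m ⊕ Fin m → ZMod 2), q (u + v) = q u + q v + (Cfsg.quadFormPlus m (ZMod 2) (u + v) - Cfsg.quadFormPlus m (ZMod 2) u - Cfsg.quadFormPlus m (ZMod 2) v))) (w : (Fin m ⊕ Fin m → ZMod 2)) :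
    (∀ u v : (Fin m ⊕ Fin m → ZMod 2), (q (u + v) + (Cfsg.quadFormPlus m (ZMod 2) (u + v + w) - Cfsg.quadFormPlus m (ZMod 2) (u + v) - Cfsg.quadFormPlus m (ZMod 2) w)) =
        (q u + (Cfsg.quadFormPlus m (ZMod 2) (u + w) - Cfsg.quadFormPlus m (ZMod 2) u - Cfsg.quadFormPlus m (ZMod 2) w)) + (q v + (Cfsg.quadFormPlus m (ZMod 2) (v + w) - Cfsg.quadFormPlus m (ZMod 2) v - Cfsg.quadFormPlus m (ZMod 2) w)) +
        (Cfsg.quadFormPlus m (ZMod 2) (u + v) - Cfsg.quadFormPlus m (ZMod 2) u - Cfsg.quadFormPlus m (ZMod 2) v)) ∧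
    ((∃ g : (Fin m ⊕ Fin m → ZMod 2) ≃ₗ[ZMod 2] (Fin m ⊕ Fin m → ZMod 2), ∀ v, q v + (Cfsg.quadFormPlus m (ZMod 2) (v + w) - Cfsg.quadFormPlus m (ZMod 2) v - Cfsg.quadFormPlus m (ZMod 2) w) = q (g v)) ↔ q w = 0) := by
  exact main m q hq w

end Cfsg.Agent.S2564
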