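import Cfsg.Statements.S2618
import Mathlib

set_option autoImplicit false
open Cfsg

set_option maxHeartbeats 800000
namespace Cfsg.Agent.S2618

universe u v

open QuadraticMap Module

theorem polar_self2 {F : Type u} [Field F] {V : Type v} [AddCommGroup V] [Module F V]
    (Q : QuadraticForm F V) (x : V) : polar Q x x = 2 * Q x := by
  rw [QuadraticMap.polar_self, two_smul, two_mul]

theorem polar_comp_lin {F : Type u} [Field F] {V : Type v} [AddCommGroup V] [Module F V]
    {T : Type*} [AddCommGroup T] [Module F T] (Q : QuadraticForm F V) (ι : T →ₗ[F] V) (a b : T) :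
    polar (Q.comp ι) a b = polar Q (ι a) (ι b) := by
  simp [polar, QuadraticMap.comp_apply]

theorem finrank_ker_ge {F : Type u} [Field F] {V : Type v} [AddCommGroup V] [Module F V]
    [FiniteDimensional F V] {U : Type*} [AddCommGroup U] [Module F U] [FiniteDimensional F U]
    (f : V →ₗ[F] U) : finrank F V ≤ finrank F (LinearMap.ker f) + finrank F U := by
  have h1 := LinearMap.finrank_range_add_finrank_ker f
  have h2 := Submodule.finrank_le (LinearMap.range f)
  omega

theorem odd_card {F : Type u} [Field F] [Fintype F] (h2 : (2 : F) ≠ 0) : Fintype.card F % 2 = 1 := by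
  apply FiniteField.odd_card_of_char_ne_two
  intro h
  apply h2
  haveI : CharP F 2 := ringChar.of_eq h
  exact CharTwo.two_eq_zero

/-- a quadratic space of dimension at least 3 over a finite field has a nonzero singular vector -/
theorem exists_singular {F : Type u} [Field F] [Finite F] {V : Type v} [AddCommGroup V] [Module F V]
    [FiniteDimensional F V] (Q : QuadraticForm F V) (h3 : 3 ≤ finrank F V) :
    ∃ u : V, u ≠ 0 ∧ Q u = 0 := by
  classical
  haveI : Fintype F := Fintype.ofFinite F
  by_contra hcon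
  push_neg at hcon
  obtain ⟨u₀, hu₀⟩ : ∃ u₀ : V, u₀ ≠ 0 :=
    (Module.finrank_pos_iff_exists_ne_zero (R := F)).1 (by omega)
  have ha : Q u₀ ≠ 0 := hcon u₀ hu₀
  have hK1 : finrank F V ≤ finrank F (LinearMap.ker (polarBilin Q u₀)) + 1 := by
    simpa using finrank_ker_ge (polarBilin Q u₀)
  by_cases h2 : (2 : F) = 0
  · haveI : CharP F 2 := CharTwo.of_one_ne_zero_of_two_eq_zero one_ne_zero h2
    have hnle : ¬ LinearMap.ker (polarBilin Q u₀) ≤ Submodule.span F {u₀} := fun hle => by
      have h1 := Submodule.finrank_mono hle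
      rw [finrank_span_singleton hu₀] at h1
      omega
    obtain ⟨v, hvK, hv⟩ := SetLike.not_le_iff_exists.1 hnle
    have hpv : polar Q u₀ v = 0 := by simpa using hvK
    obtain ⟨a, ha'⟩ := FiniteField.isSquare_of_char_two (ringChar.eq F 2) (Q v / Q u₀)
    have hne : a • u₀ + v ≠ 0 := by
      intro h0
      apply hv
      have hv' : v = (-a) • u₀ := by
        rw [neg_smul]
        exact eq_neg_of_add_eq_zero_right h0
      rw [hv']
      exact Submodule.smul_mem _ _ (Submodule.mem_span_singleton_self _)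
    apply hcon _ hne
    rw [QuadraticMap.map_add Q, QuadraticMap.map_smul, polar_smul_left, hpv, smul_eq_mul,
      smul_eq_mul, mul_zero, add_zero, ← ha', div_mul_cancel₀ _ ha, ← two_mul, h2, zero_mul]
  · have hodd : Fintype.card F % 2 = 1 := odd_card h2
    obtain ⟨⟨v₁, hv₁K⟩, hv₁⟩ : ∃ x : LinearMap.ker (polarBilin Q u₀), x ≠ 0 :=
      (Module.finrank_pos_iff_exists_ne_zero (R := F)).1 (by omega)
    have hv₁' : v₁ ≠ 0 := fun h => hv₁ (Subtype.ext h)
    have hb := hcon v₁ hv₁'
    have hp01 : polar Q u₀ v₁ = 0 := by simpa using hv₁K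
    have hK2 : finrank F V ≤
        finrank F (LinearMap.ker ((polarBilin Q u₀).prod (polarBilin Q v₁))) + 2 := by
      simpa using finrank_ker_ge ((polarBilin Q u₀).prod (polarBilin Q v₁))
    obtain ⟨⟨v₂, hv₂K⟩, hv₂⟩ :
        ∃ x : LinearMap.ker ((polarBilin Q u₀).prod (polarBilin Q v₁)), x ≠ 0 :=
      (Module.finrank_pos_iff_exists_ne_zero (R := F)).1 (by omega)
    have hv₂' : v₂ ≠ 0 := fun h => hv₂ (Subtype.ext h)
    have hc := hcon v₂ hv₂'
    have hp02 : polar Q u₀ v₂ = 0 ∧ polar Q v₁ v₂ = 0 := by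
      simpa [LinearMap.mem_ker, Prod.ext_iff] using hv₂K
    have hf : (Polynomial.C (Q u₀) * Polynomial.X ^ 2).degree = 2 :=
      Polynomial.degree_C_mul_X_pow 2 ha
    have hg : (Polynomial.C (Q v₁) * Polynomial.X ^ 2 - Polynomial.C (-Q v₂)).degree = 2 := by
      have hlt : (Polynomial.C (-Q v₂)).degree <
          (Polynomial.C (Q v₁) * Polynomial.X ^ 2).degree := by
        rw [Polynomial.degree_C_mul_X_pow 2 hb]
        exact lt_of_le_of_lt Polynomial.degree_C_le (by norm_num)
      rw [Polynomial.degree_sub_eq_left_of_degree_lt hlt]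
      exact Polynomial.degree_C_mul_X_pow 2 hb
    obtain ⟨x, y, hxy⟩ := FiniteField.exists_root_sum_quadratic hf hg hodd
    simp only [Polynomial.eval_mul, Polynomial.eval_C, Polynomial.eval_pow, Polynomial.eval_X,
      Polynomial.eval_sub] at hxy
    have hQ0 : Q (x • u₀ + y • v₁ + v₂) = 0 := by
      rw [QuadraticMap.map_add Q, QuadraticMap.map_add Q, polar_add_left]
      simp only [QuadraticMap.map_smul, polar_smul_left, polar_smul_right, hp01, hp02.1, hp02.2,
        smul_eq_mul, mul_zero, add_zero]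
      linear_combination hxy
    have hne : x • u₀ + y • v₁ + v₂ ≠ 0 := by
      intro h0
      have h4 : polar Q (x • u₀ + y • v₁ + v₂) v₂ = 0 := by
        rw [h0]
        exact polar_zero_left Q v₂
      rw [polar_add_left, polar_add_left, polar_smul_left, polar_smul_left, hp02.1, hp02.2,
        polar_self2] at h4
      simp only [smul_eq_mul, mul_zero, add_zero, zero_add, mul_eq_zero] at h4
      rcases h4 with h | h
      · exact h2 h
      · exact hc h
    exact hcon _ hne hQ0

theorem exists_partner {F : Type u} [Field F] {V : Type v} [AddCommGroup V] [Module F V]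
    (Q : QuadraticForm F V) (hQ : (polarBilin Q).Nondegenerate) {u : V} (hu : u ≠ 0)
    (hQu : Q u = 0) : ∃ w, Q w = 0 ∧ polar Q u w = 1 := by
  obtain ⟨w₀, hw₀⟩ : ∃ w₀, polar Q u w₀ ≠ 0 := by
    by_contra hcon
    push_neg at hcon
    exact hu (hQ.1 u (fun y => by simpa using hcon y))
  have h1 : polar Q u ((polar Q u w₀)⁻¹ • w₀) = 1 := by
    rw [polar_smul_right, smul_eq_mul, inv_mul_cancel₀ hw₀]
  generalize (polar Q u w₀)⁻¹ • w₀ = w₁ at h1
  refine ⟨w₁ - Q w₁ • u, ?_, ?_⟩
  · rw [sub_eq_add_neg, ← neg_smul, QuadraticMap.map_add Q, QuadraticMap.map_smul, polar_smul_right,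
      hQu, polar_comm, h1]
    simp
  · rw [sub_eq_add_neg, ← neg_smul, polar_add_right, polar_smul_right, polar_self2, hQu, h1]
    simp

/-- the orthogonal complement of a pair of vectors -/
def perp2 {F : Type u} [Field F] {V : Type v} [AddCommGroup V] [Module F V]
    (Q : QuadraticForm F V) (u w : V) : Submodule F V :=
  LinearMap.ker ((polarBilin Q u).prod (polarBilin Q w))

theorem mem_perp2 {F : Type u} [Field F] {V : Type v} [AddCommGroup V] [Module F V]
    (Q : QuadraticForm F V) {u w z : V} :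
    z ∈ perp2 Q u w ↔ polar Q u z = 0 ∧ polar Q w z = 0 := by
  simp [perp2, LinearMap.mem_ker, Prod.ext_iff]

theorem finrank_perp2 {F : Type u} [Field F] {V : Type v} [AddCommGroup V] [Module F V]
    [FiniteDimensional F V] (Q : QuadraticForm F V) {u w : V} (hu : Q u = 0) (hw : Q w = 0)
    (huw : polar Q u w = 1) : finrank F (perp2 Q u w) + 2 = finrank F V := by
  have hsurj : Function.Surjective ((polarBilin Q u).prod (polarBilin Q w)) := by
    rintro ⟨a, b⟩
    refine ⟨a • w + b • u, Prod.ext ?_ ?_⟩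
    · show polar Q u (a • w + b • u) = a
      simp only [polar_add_right, polar_smul_right, huw, polar_self2, hu, smul_eq_mul, mul_zero,
        mul_one, add_zero]
    · show polar Q w (a • w + b • u) = b
      simp only [polar_add_right, polar_smul_right, huw, polar_self2, hw, polar_comm Q w u,
        smul_eq_mul, mul_zero, mul_one, zero_add]
  have h1 := LinearMap.finrank_range_add_finrank_ker ((polarBilin Q u).prod (polarBilin Q w))
  rw [LinearMap.range_eq_top.2 hsurj, finrank_top] at h1
  have h2 : finrank F (F × F) = 2 := by simp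
  unfold perp2
  omega

theorem nondeg_perp2 {F : Type u} [Field F] {V : Type v} [AddCommGroup V] [Module F V]
    (Q : QuadraticForm F V) (hQ : (polarBilin Q).Nondegenerate) {u w : V} (hu : Q u = 0)
    (hw : Q w = 0) (huw : polar Q u w = 1) :
    (polarBilin (Q.comp (perp2 Q u w).subtype)).Nondegenerate := by
  have key : ∀ z : perp2 Q u w, (∀ z' : perp2 Q u w, polar Q (z : V) (z' : V) = 0) → z = 0 := by
    intro z hz
    have hzm := (mem_perp2 Q).1 z.2
    apply Subtype.ext
    apply hQ.1
    intro y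
    have hy' : y - polar Q u y • w - polar Q w y • u ∈ perp2 Q u w := by
      rw [mem_perp2]
      constructor
      · simp only [polar_sub_right, polar_smul_right, huw, polar_self2, hu, smul_eq_mul]
        ring
      · simp only [polar_sub_right, polar_smul_right, polar_comm Q w u, huw, polar_self2, hw,
          smul_eq_mul]
        ring
    have h5 := hz ⟨_, hy'⟩
    simp only [polar_sub_right, polar_smul_right, polar_comm Q (z : V) w, polar_comm Q (z : V) u,
      hzm.1, hzm.2, smul_eq_mul, mul_zero, sub_zero] at h5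
    simpa using h5
  constructor
  · intro z hz
    exact key z (fun z' => by
      have h6 := hz z'
      rwa [polarBilin_apply_apply, polar_comp_lin] at h6)
  · intro z hz
    exact key z (fun z' => by
      have h6 := hz z'
      rw [polarBilin_apply_apply, polar_comp_lin] at h6
      rw [polar_comm]
      exact h6)

/-- hyperbolic relations for two families -/
def Hyp {F : Type u} [Field F] {V : Type v} [AddCommGroup V] [Module F V]
    (Q : QuadraticForm F V) {k : ℕ} (e f : Fin k → V) : Prop :=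
  (∀ i, Q (e i) = 0 ∧ Q (f i) = 0) ∧
  (∀ i j, polar Q (e i) (f j) = if i = j then 1 else 0) ∧
  (∀ i j, polar Q (e i) (e j) = 0 ∧ polar Q (f i) (f j) = 0)

theorem hyp_cons {F : Type u} [Field F] {V : Type v} [AddCommGroup V] [Module F V]
    (Q : QuadraticForm F V) {k : ℕ} {e f : Fin k → V} (h : Hyp Q e f) {u w : V}
    (hu : Q u = 0) (hw : Q w = 0) (huw : polar Q u w = 1)
    (ho : ∀ i, polar Q u (e i) = 0 ∧ polar Q u (f i) = 0 ∧ polar Q w (e i) = 0 ∧
      polar Q w (f i) = 0) :
    Hyp Q (Fin.cons u e : Fin (k + 1) → V) (Fin.cons w f : Fin (k + 1) → V) := by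
  obtain ⟨h1, h2, h3⟩ := h
  refine ⟨?_, ?_, ?_⟩
  · intro i
    refine Fin.cases ?_ (fun i => ?_) i
    · simpa using ⟨hu, hw⟩
    · simpa using h1 i
  · intro i j
    refine Fin.cases ?_ (fun i => ?_) i <;> refine Fin.cases ?_ (fun j => ?_) j
    · simpa using huw
    · simp [(ho j).2.1, (Fin.succ_ne_zero j).symm]
    · simp [polar_comm Q _ w, (ho i).2.2.1, Fin.succ_ne_zero]
    · simp [h2 i j]
  · intro i j
    refine Fin.cases ?_ (fun i => ?_) i <;> refine Fin.cases ?_ (fun j => ?_) j
    · simp [polar_self2, hu, hw]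
    · simp [(ho j).1, (ho j).2.2.2]
    · simp [polar_comm Q _ u, polar_comm Q _ w, (ho i).1, (ho i).2.2.2]
    · simpa using h3 i j

/-- Witt decomposition: hyperbolic pairs plus an anisotropic kernel -/
theorem peel {F : Type u} [Field F] : ∀ (n : ℕ) {V : Type v} [AddCommGroup V] [Module F V]
    [FiniteDimensional F V] (Q : QuadraticForm F V), finrank F V = n →
    (polarBilin Q).Nondegenerate →
    ∃ (k : ℕ) (e f : Fin k → V) (T : Type v) (_ : AddCommGroup T) (_ : Module F T)
      (_ : FiniteDimensional F T) (ι : T →ₗ[F] V),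
      finrank F T + 2 * k = n ∧ (polarBilin (Q.comp ι)).Nondegenerate ∧
      (∀ z : T, Q (ι z) = 0 → z = 0) ∧ Hyp Q e f ∧
      (∀ i z, polar Q (e i) (ι z) = 0 ∧ polar Q (f i) (ι z) = 0) := by
  intro n
  induction n using Nat.strong_induction_on with
  | _ n ih =>
    intro V _ _ _ Q hV hQ
    by_cases hs : ∃ u : V, u ≠ 0 ∧ Q u = 0
    · obtain ⟨u, hu, hQu⟩ := hs
      obtain ⟨w, hQw, huw⟩ := exists_partner Q hQ hu hQu
      have hfr := finrank_perp2 Q hQu hQw huw
      have hnd := nondeg_perp2 Q hQ hQu hQw huw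
      obtain ⟨k, e, f, T, _, _, _, ι, hT, hTnd, hTan, hH, hTo⟩ :=
        ih (n - 2) (by omega) (Q.comp (perp2 Q u w).subtype) (by omega) hnd
      have hmem : ∀ z : perp2 Q u w, polar Q u (z : V) = 0 ∧ polar Q w (z : V) = 0 :=
        fun z => (mem_perp2 Q).1 z.2
      refine ⟨k + 1, Fin.cons u (fun i => (e i : V)), Fin.cons w (fun i => (f i : V)), T,
        inferInstance, inferInstance, inferInstance, (perp2 Q u w).subtype ∘ₗ ι, by omega,
        hTnd, hTan, ?_, ?_⟩
      · apply hyp_cons Q _ hQu hQw huw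
        · intro i
          exact ⟨(hmem (e i)).1, (hmem (f i)).1, (hmem (e i)).2, (hmem (f i)).2⟩
        · obtain ⟨h1, h2, h3⟩ := hH
          refine ⟨h1, fun i j => ?_, fun i j => ?_⟩
          · have h7 := h2 i j
            rwa [polar_comp_lin] at h7
          · have h7 := h3 i j
            rwa [polar_comp_lin, polar_comp_lin] at h7
      · intro i z
        refine Fin.cases ?_ (fun i => ?_) i
        · simpa using hmem (ι z)
        · have h7 := hTo i z
          simpa [polar_comp_lin] using h7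
    · push_neg at hs
      refine ⟨0, Fin.elim0, Fin.elim0, V, inferInstance, inferInstance, inferInstance,
        LinearMap.id, by omega, hQ, ?_, ?_, ?_⟩
      · intro z hz
        by_contra hne
        exact hs z hne hz
      · exact ⟨fun i => i.elim0, fun i => i.elim0, fun i => i.elim0⟩
      · exact fun i => i.elim0

theorem aniso_le_two {F : Type u} [Field F] [Finite F] {V : Type v} [AddCommGroup V] [Module F V]
    [FiniteDimensional F V] (Q : QuadraticForm F V) (han : ∀ z, Q z = 0 → z = 0) :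
    finrank F V ≤ 2 := by
  by_contra hcon
  obtain ⟨u, hu, hQu⟩ := exists_singular Q (by omega)
  exact hu (han u hQu)

theorem dim1 {F : Type u} [Field F] {V : Type v} [AddCommGroup V] [Module F V]
    [FiniteDimensional F V] (Q : QuadraticForm F V) (h1 : finrank F V = 1)
    (hQ : (polarBilin Q).Nondegenerate) : ∃ x, Q x ≠ 0 := by
  obtain ⟨x, hx⟩ : ∃ x : V, x ≠ 0 :=
    (Module.finrank_pos_iff_exists_ne_zero (R := F)).1 (by omega)
  refine ⟨x, fun h0 => hx (hQ.1 x (fun y => ?_))⟩
  obtain ⟨c, rfl⟩ := (finrank_eq_one_iff_of_nonzero' x hx).1 h1 y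
  rw [polarBilin_apply_apply, polar_smul_right, polar_self2, h0]
  simp

theorem dim2 {F : Type u} [Field F] [Finite F] {V : Type v} [AddCommGroup V] [Module F V]
    [FiniteDimensional F V] (Q : QuadraticForm F V) (h2 : finrank F V = 2)
    (hQ : (polarBilin Q).Nondegenerate) (han : ∀ z, Q z = 0 → z = 0) :
    ∃ (z₀ z₁ : V) (ζ : F), (∀ t : F, t ^ 2 + t + ζ ≠ 0) ∧ Q z₀ = 1 ∧ polar Q z₀ z₁ = 1 ∧
      Q z₁ = ζ := by
  classical
  haveI : Fintype F := Fintype.ofFinite F
  obtain ⟨z₀, hz₀⟩ : ∃ z₀, Q z₀ = 1 := by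
    obtain ⟨u₀, hu₀⟩ : ∃ u₀ : V, u₀ ≠ 0 :=
      (Module.finrank_pos_iff_exists_ne_zero (R := F)).1 (by omega)
    have ha : Q u₀ ≠ 0 := fun h => hu₀ (han _ h)
    by_cases h2' : (2 : F) = 0
    · haveI : CharP F 2 := CharTwo.of_one_ne_zero_of_two_eq_zero one_ne_zero h2'
      obtain ⟨s, hs⟩ := FiniteField.isSquare_of_char_two (ringChar.eq F 2) (Q u₀)
      have hs0 : s ≠ 0 := by
        rintro rfl
        simp at hs
        exact ha hs
      refine ⟨s⁻¹ • u₀, ?_⟩
      rw [QuadraticMap.map_smul, hs, smul_eq_mul]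
      field_simp
    · have hodd : Fintype.card F % 2 = 1 := odd_card h2'
      have hK1 : finrank F V ≤ finrank F (LinearMap.ker (polarBilin Q u₀)) + 1 := by
        simpa using finrank_ker_ge (polarBilin Q u₀)
      obtain ⟨⟨v₁, hv₁K⟩, hv₁⟩ : ∃ x : LinearMap.ker (polarBilin Q u₀), x ≠ 0 :=
        (Module.finrank_pos_iff_exists_ne_zero (R := F)).1 (by omega)
      have hv₁' : v₁ ≠ 0 := fun h => hv₁ (Subtype.ext h)
      have hb : Q v₁ ≠ 0 := fun h => hv₁' (han _ h)
      have hp01 : polar Q u₀ v₁ = 0 := by simpa using hv₁K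
      have hf : (Polynomial.C (Q u₀) * Polynomial.X ^ 2).degree = 2 :=
        Polynomial.degree_C_mul_X_pow 2 ha
      have hg : (Polynomial.C (Q v₁) * Polynomial.X ^ 2 - Polynomial.C (1 : F)).degree = 2 := by
        have hlt : (Polynomial.C (1 : F)).degree <
            (Polynomial.C (Q v₁) * Polynomial.X ^ 2).degree := by
          rw [Polynomial.degree_C_mul_X_pow 2 hb]
          exact lt_of_le_of_lt Polynomial.degree_C_le (by norm_num)
        rw [Polynomial.degree_sub_eq_left_of_degree_lt hlt]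
        exact Polynomial.degree_C_mul_X_pow 2 hb
      obtain ⟨x, y, hxy⟩ := FiniteField.exists_root_sum_quadratic hf hg hodd
      simp only [Polynomial.eval_mul, Polynomial.eval_C, Polynomial.eval_pow, Polynomial.eval_X,
        Polynomial.eval_sub] at hxy
      refine ⟨x • u₀ + y • v₁, ?_⟩
      rw [QuadraticMap.map_add Q]
      simp only [QuadraticMap.map_smul, polar_smul_left, polar_smul_right, hp01, smul_eq_mul,
        mul_zero, add_zero]
      linear_combination hxy
  have hz₀0 : z₀ ≠ 0 := by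
    rintro rfl
    simp at hz₀
  obtain ⟨a, ha⟩ : ∃ a, polar Q z₀ a ≠ 0 := by
    by_contra hcon
    push_neg at hcon
    exact hz₀0 (hQ.1 z₀ (fun y => by simpa using hcon y))
  obtain ⟨b, hb⟩ : ∃ b, b ∉ Submodule.span F {z₀} := by
    by_contra hcon
    push_neg at hcon
    have htop : Submodule.span F {z₀} = ⊤ := eq_top_iff.2 (fun x _ => hcon x)
    have h := finrank_span_singleton (K := F) hz₀0
    rw [htop, finrank_top] at h
    omega
  obtain ⟨y, hy1, hy2⟩ : ∃ y, polar Q z₀ y ≠ 0 ∧ y ∉ Submodule.span F {z₀} := by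
    by_cases h1 : a ∈ Submodule.span F {z₀}
    · by_cases h2 : polar Q z₀ b = 0
      · refine ⟨a + b, ?_, ?_⟩
        · rw [polar_add_right, h2, add_zero]
          exact ha
        · intro h
          exact hb (by simpa using Submodule.sub_mem _ h h1)
      · exact ⟨b, h2, hb⟩
    · exact ⟨a, ha, h1⟩
  have hp : polar Q z₀ ((polar Q z₀ y)⁻¹ • y) = 1 := by
    rw [polar_smul_right, smul_eq_mul, inv_mul_cancel₀ hy1]
  have hz₁n : (polar Q z₀ y)⁻¹ • y ∉ Submodule.span F {z₀} := by
    intro h
    apply hy2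
    have h8 : y = polar Q z₀ y • ((polar Q z₀ y)⁻¹ • y) := by
      rw [smul_smul, mul_inv_cancel₀ hy1, one_smul]
    rw [h8]
    exact Submodule.smul_mem _ _ h
  generalize (polar Q z₀ y)⁻¹ • y = z₁ at hp hz₁n
  refine ⟨z₀, z₁, Q z₁, ?_, hz₀, hp, rfl⟩
  intro t ht
  have hQ0 : Q (t • z₀ + z₁) = 0 := by
    rw [QuadraticMap.map_add Q, QuadraticMap.map_smul, polar_smul_left, hz₀, hp]
    simp only [smul_eq_mul, mul_one]
    linear_combination ht
  have h9 := han _ hQ0
  apply hz₁n
  have h10 : z₁ = (-t) • z₀ := by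
    rw [neg_smul]
    exact eq_neg_of_add_eq_zero_right h9
  rw [h10]
  exact Submodule.smul_mem _ _ (Submodule.mem_span_singleton_self _)

theorem li_pair {F : Type u} [Field F] {V : Type v} [AddCommGroup V] [Module F V]
    (Q : QuadraticForm F V) {z₀ z₁ : V} {ζ : F} (hζ : ∀ t : F, t ^ 2 + t + ζ ≠ 0)
    (hz₀ : Q z₀ = 1) (hp : polar Q z₀ z₁ = 1) (hz₁ : Q z₁ = ζ) :
    LinearIndependent F ![z₀, z₁] := by
  have hz₀0 : z₀ ≠ 0 := by
    rintro rfl
    simp at hz₀
  rw [LinearIndependent.pair_iff]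
  intro s t hst
  by_cases ht : t = 0
  · subst ht
    simp only [zero_smul, add_zero, smul_eq_zero] at hst
    exact ⟨hst.resolve_right hz₀0, rfl⟩
  · exfalso
    apply hζ (t⁻¹ * s)
    have h3 : (t⁻¹ * s) • z₀ + z₁ = 0 := by
      have h4 : t⁻¹ • (s • z₀ + t • z₁) = 0 := by rw [hst, smul_zero]
      rwa [smul_add, smul_smul, smul_smul, inv_mul_cancel₀ ht, one_smul] at h4
    have h5 : Q ((t⁻¹ * s) • z₀ + z₁) = 0 := by rw [h3]; simp
    rw [QuadraticMap.map_add Q, QuadraticMap.map_smul, polar_smul_left, hz₀, hp, hz₁] at h5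
    simp only [smul_eq_mul, mul_one] at h5
    linear_combination h5

theorem basis_sum {F : Type u} [Field F] {V : Type v} [AddCommGroup V] [Module F V]
    [FiniteDimensional F V] (Q : QuadraticForm F V) {k : ℕ} {e f : Fin k → V} (h : Hyp Q e f)
    {κ : Type} [Fintype κ] {t : κ → V} (ht : LinearIndependent F t)
    (ho : ∀ i j, polar Q (e i) (t j) = 0 ∧ polar Q (f i) (t j) = 0)
    (hcard : Fintype.card κ + 2 * k = finrank F V) :
    ∃ b : Basis ((Fin k ⊕ Fin k) ⊕ κ) F V, ⇑b = Sum.elim (Sum.elim e f) t := by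
  classical
  obtain ⟨h1, h2, h3⟩ := h
  have hli : LinearIndependent F (Sum.elim (Sum.elim e f) t) := by
    rw [Fintype.linearIndependent_iff]
    intro g hg
    simp only [Fintype.sum_sum_type, Sum.elim_inl, Sum.elim_inr] at hg
    have ha : ∀ l, g (Sum.inl (Sum.inl l)) = 0 := by
      intro l
      have h4 := congrArg (fun z => polarBilin Q z (f l)) hg
      simp only [map_add, map_sum, map_smul, LinearMap.add_apply, LinearMap.sum_apply,
        LinearMap.smul_apply, polarBilin_apply_apply, LinearMap.zero_apply, map_zero] at h4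
      simpa [h2, (h3 _ _).2, polar_comm Q (t _) (f l), (ho _ _).2] using h4
    have hb : ∀ l, g (Sum.inl (Sum.inr l)) = 0 := by
      intro l
      have h4 := congrArg (fun z => polarBilin Q z (e l)) hg
      simp only [map_add, map_sum, map_smul, LinearMap.add_apply, LinearMap.sum_apply,
        LinearMap.smul_apply, polarBilin_apply_apply, LinearMap.zero_apply, map_zero] at h4
      simpa [polar_comm Q (f _) (e l), h2, (h3 _ _).1, polar_comm Q (t _) (e l), (ho _ _).1,
        eq_comm] using h4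
    simp only [ha, hb, zero_smul, Finset.sum_const_zero, zero_add] at hg
    have hc := Fintype.linearIndependent_iff.1 ht _ hg
    rintro ((i | i) | j)
    · exact ha i
    · exact hb i
    · exact hc j
  have hcard' : Fintype.card ((Fin k ⊕ Fin k) ⊕ κ) = finrank F V := by
    simp only [Fintype.card_sum, Fintype.card_fin]
    omega
  exact ⟨Basis.mk hli (hli.span_eq_top_of_card_eq_finrank' hcard').ge, Basis.coe_mk _ _⟩

theorem result {F V : Type*} [Field F] [Finite F] [AddCommGroup V] [Module F V] [FiniteDimensional F V] {m : ℕ} (hV : Module.finrank F V = 2 * m + 1) (Q : QuadraticForm F V) (hQ : (QuadraticMap.polarBilin Q).Nondegenerate) : ∃ b : Module.Basis (Unit ⊕ (Fin m ⊕ Fin m)) F V, Q (b (Sum.inl ())) ≠ 0 ∧ (∀ i, QuadraticMap.polar ⇑Q (b (Sum.inl ())) (b (Sum.inr (Sum.inl i))) = 0 ∧ QuadraticMap.polar ⇑Q (b (Sum.inl ())) (b (Sum.inr (Sum.inr i))) = 0) ∧ (∀ i, Q (b (Sum.inr (Sum.inl i))) = 0 ∧ Q (b (Sum.inr (Sum.inr i))) = 0) ∧ (∀ i j, QuadraticMap.polar ⇑Q (b (Sum.inr (Sum.inl i)))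 (b (Sum.inr (Sum.inr j))) = if i = j then 1 else 0) ∧ (∀ i j, QuadraticMap.polar ⇑Q (b (Sum.inr (Sum.inl i))) (b (Sum.inr (Sum.inl j))) = 0 ∧ QuadraticMap.polar ⇑Q (b (Sum.inr (Sum.inr i))) (b (Sum.inr (Sum.inr j))) = 0) := by
  obtain ⟨k, e, f, T, _, _, _, ι, hT, hTnd, hTan, hH, hTo⟩ := peel (2 * m + 1) Q hV hQ
  have hle : Module.finrank F T ≤ 2 := aniso_le_two (Q.comp ι) hTan
  have h1 : Module.finrank F T = 1 := by omega
  obtain rfl : k = m := by omega
  obtain ⟨x₀, hx₀⟩ := dim1 (Q.comp ι) h1 hTnd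
  have hx : Q (ι x₀) ≠ 0 := hx₀
  have hli : LinearIndependent F (fun _ : Unit => ι x₀) := by
    rw [linearIndependent_unique_iff]
    intro h
    apply hx
    rw [h]
    simp
  obtain ⟨b, hb⟩ := basis_sum Q hH hli (fun i j => hTo i x₀) (by simp; omega)
  refine ⟨b.reindex (Equiv.sumComm _ _), ?_⟩
  simp only [Module.Basis.reindex_apply, Equiv.sumComm_symm, Equiv.sumComm_apply, Sum.swap_inl,
    Sum.swap_inr, hb, Sum.elim_inl, Sum.elim_inr]
  exact ⟨hx, fun i => ⟨by rw [QuadraticMap.polar_comm]; exact (hTo i x₀).1,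
    by rw [QuadraticMap.polar_comm]; exact (hTo i x₀).2⟩, hH.1, hH.2.1, hH.2.2⟩

end Cfsg.Agent.S2618
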