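import Cfsg.Statements.S2616
import Mathlib
import Cfsg.Agent.S2618

set_option autoImplicit false
open Cfsg

set_option maxHeartbeats 800000
namespace Cfsg.Agent.S2616

theorem result {F V : Type*} [Field F] [Finite F] [AddCommGroup V] [Module F V] [FiniteDimensional F V] {m : ℕ} (hm : 1 ≤ m) (hV : Module.finrank F V = 2 * m) (Q : QuadraticForm F V) (hQ : (QuadraticMap.polarBilin Q).Nondegenerate) : (∃ b : Module.Basis (Fin m ⊕ Fin m) F V, (∀ i, Q (b (Sum.inl i)) = 0 ∧ Q (b (Sum.inr i)) = 0) ∧ (∀ i j, QuadraticMap.polar ⇑Q (b (Sum.inl i)) (b (Sum.inr j)) = if i = j then 1 else 0) ∧ (∀ i j, QuadraticMap.polar ⇑Q (b (Sum.inl i)) (b (Sum.inl j)) = 0 ∧ QuadraticMap.polar ⇑Q (b (Sum.inr i)) (b (Sum.inr j)) = 0)) ∨ (∃ (b : Module.Basis ((Fin (m - 1) ⊕ Fin (m - 1)) ⊕ Fin 2) F V) (ζ : F), (∀ t : F, t ^ 2 + t + ζ ≠ 0) ∧ (∀ i, Q (b (Sum.inl (Sum.inl i))) = 0 ∧ Q (b (Sum.inl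 (Sum.inr i))) = 0) ∧ (∀ i j, QuadraticMap.polar ⇑Q (b (Sum.inl (Sum.inl i))) (b (Sum.inl (Sum.inr j))) = if i = j then 1 else 0) ∧ (∀ i j, QuadraticMap.polar ⇑Q (b (Sum.inl (Sum.inl i))) (b (Sum.inl (Sum.inl j))) = 0 ∧ QuadraticMap.polar ⇑Q (b (Sum.inl (Sum.inr i))) (b (Sum.inl (Sum.inr j))) = 0) ∧ (∀ i (k : Fin 2), QuadraticMap.polar ⇑Q (b (Sum.inl (Sum.inl i))) (b (Sum.inr k)) = 0 ∧ QuadraticMap.polar ⇑Q (b (Sum.inl (Sum.inr i))) (b (Sum.inr k)) = 0) ∧ Q (b (Sum.inr 0)) = 1 ∧ QuadraticMap.polar ⇑Q (b (Sum.inr 0)) (b (Sum.inr 1)) = 1 ∧ Q (b (Sum.inr 1)) = ζ) := by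
  obtain ⟨k, e, f, T, _, _, _, ι, hT, hTnd, hTan, hH, hTo⟩ := Cfsg.Agent.S2618.peel (2 * m) Q hV hQ
  have hle : Module.finrank F T ≤ 2 := Cfsg.Agent.S2618.aniso_le_two (Q.comp ι) hTan
  have h02 : Module.finrank F T = 0 ∨ Module.finrank F T = 2 := by omega
  rcases h02 with h0 | h2
  · left
    obtain rfl : k = m := by omega
    obtain ⟨b, hb⟩ := Cfsg.Agent.S2618.basis_sum Q hH (κ := Empty) (t := Empty.elim)
      linearIndependent_empty_type (fun i j => j.elim) (by simp; omega)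
    refine ⟨b.reindex (Equiv.sumEmpty _ _), ?_⟩
    have hbi : ∀ i, b.reindex (Equiv.sumEmpty (Fin k ⊕ Fin k) Empty) i = Sum.elim e f i := by
      intro i
      rw [Module.Basis.reindex_apply, hb]
      rfl
    simp only [hbi, Sum.elim_inl, Sum.elim_inr]
    exact hH
  · right
    obtain rfl : k = m - 1 := by omega
    obtain ⟨z₀, z₁, ζ, hζ, hz₀, hp, hz₁⟩ := Cfsg.Agent.S2618.dim2 (Q.comp ι) h2 hTnd hTan
    have hz₀' : Q (ι z₀) = 1 := hz₀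
    have hz₁' : Q (ι z₁) = ζ := hz₁
    have hp' : QuadraticMap.polar Q (ι z₀) (ι z₁) = 1 := by
      rw [← Cfsg.Agent.S2618.polar_comp_lin]
      exact hp
    have hli : LinearIndependent F ![ι z₀, ι z₁] := Cfsg.Agent.S2618.li_pair Q hζ hz₀' hp' hz₁'
    have hoT : ∀ i (j : Fin 2), QuadraticMap.polar Q (e i) (![ι z₀, ι z₁] j) = 0 ∧
        QuadraticMap.polar Q (f i) (![ι z₀, ι z₁] j) = 0 := by
      intro i j
      fin_cases j
      · exact hTo i z₀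
      · exact hTo i z₁
    obtain ⟨b, hb⟩ := Cfsg.Agent.S2618.basis_sum Q hH hli hoT (by simp; omega)
    refine ⟨b, ζ, hζ, ?_⟩
    simp only [hb, Sum.elim_inl, Sum.elim_inr, Matrix.cons_val_zero, Matrix.cons_val_one]
    exact ⟨hH.1, hH.2.1, hH.2.2, hoT, hz₀', hp', hz₁'⟩

end Cfsg.Agent.S2616
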