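import Cfsg.Statements.S2617
import Mathlib

set_option autoImplicit false
open Cfsg

namespace Cfsg.Agent.S2617

open Matrix

/-- fibers of a nonzero linear functional -/
theorem card_fiber {F : Type*} [Field F] [Fintype F] {k : ℕ} (x : Fin k → F) (hx : x ≠ 0) (c : F) :
    Nat.card {y : Fin k → F // x ⬝ᵥ y = c} * Fintype.card F = Fintype.card F ^ k := by
  classical
  obtain ⟨i, hi⟩ : ∃ i, x i ≠ 0 := by
    by_contra h
    apply hx
    funext j
    by_contra hj
    exact h ⟨j, hj⟩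
  have hcongr : ∀ c' : F, Nat.card {y : Fin k → F // x ⬝ᵥ y = c'} =
      Nat.card {y : Fin k → F // x ⬝ᵥ y = c} := by
    intro c'
    apply Nat.card_congr
    refine Equiv.subtypeEquiv (Equiv.addRight (Pi.single i ((c - c') / x i))) ?_
    intro y
    simp only [Equiv.coe_addRight, dotProduct_add, dotProduct_single]
    have e : x i * ((c - c') / x i) = c - c' := by field_simp
    rw [e]
    constructor
    · intro h; rw [h]; ring
    · intro h; linear_combination h
  have hsum : Nat.card (Σ c' : F, {y : Fin k → F // x ⬝ᵥ y = c'}) = Fintype.card F ^ k := by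
    rw [Nat.card_congr (Equiv.sigmaFiberEquiv (fun y : Fin k → F => x ⬝ᵥ y))]
    simp [Nat.card_eq_fintype_card]
  rw [Nat.card_sigma] at hsum
  simp only [hcongr, Finset.sum_const, Finset.card_univ, smul_eq_mul] at hsum
  rw [mul_comm]
  exact hsum

theorem count_zeros {F : Type*} [Field F] [Fintype F] {k : ℕ} {W : Type*} [Fintype W] (R : W → F) :
    Nat.card {p : ((Fin k → F) × (Fin k → F)) × W // p.1.1 ⬝ᵥ p.1.2 + R p.2 = 0} * Fintype.card F =
      Fintype.card F ^ (k + 1) * Nat.card {w : W // R w = 0} +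
        (Fintype.card F ^ k - 1) * Fintype.card F ^ k * Fintype.card W := by
  classical
  have e : {p : ((Fin k → F) × (Fin k → F)) × W // p.1.1 ⬝ᵥ p.1.2 + R p.2 = 0} ≃
      Σ xw : (Fin k → F) × W, {y : Fin k → F // xw.1 ⬝ᵥ y = -R xw.2} :=
    { toFun := fun p => ⟨(p.1.1.1, p.1.2), ⟨p.1.1.2, by
        have := p.2
        linear_combination this⟩⟩
      invFun := fun s => ⟨((s.1.1, s.2.1), s.1.2), by
        have := s.2.2
        simp only
        rw [this]
        ring⟩
      left_inv := fun p => rfl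
      right_inv := fun s => rfl }
  rw [Nat.card_congr e, Nat.card_sigma, Finset.sum_mul, Fintype.sum_prod_type]
  have hx : ∀ x : Fin k → F, x ≠ 0 → ∀ w : W,
      Nat.card {y : Fin k → F // x ⬝ᵥ y = -R w} * Fintype.card F = Fintype.card F ^ k :=
    fun x hx w => card_fiber x hx _
  have h0 : ∀ w : W, Nat.card {y : Fin k → F // (0 : Fin k → F) ⬝ᵥ y = -R w} * Fintype.card F =
      if R w = 0 then Fintype.card F ^ (k + 1) else 0 := by
    intro w
    by_cases hw : R w = 0
    · rw [if_pos hw]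
      have : Nat.card {y : Fin k → F // (0 : Fin k → F) ⬝ᵥ y = -R w} = Fintype.card F ^ k := by
        rw [Nat.card_congr (Equiv.subtypeUnivEquiv (fun y => by simp [hw]))]
        simp [Nat.card_eq_fintype_card]
      rw [this, pow_succ]
    · rw [if_neg hw]
      have : IsEmpty {y : Fin k → F // (0 : Fin k → F) ⬝ᵥ y = -R w} := by
        constructor
        rintro ⟨y, hy⟩
        apply hw
        simp at hy
        exact hy.symm ▸ rfl
      rw [Nat.card_of_isEmpty, zero_mul]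
  rw [← Finset.add_sum_erase Finset.univ _ (Finset.mem_univ (0 : Fin k → F))]
  congr 1
  · simp only [h0]
    rw [← Finset.sum_filter, Finset.sum_const, smul_eq_mul, mul_comm]
    congr 1
    rw [Nat.card_eq_fintype_card, Fintype.card_subtype]
  · have : ∀ x ∈ Finset.univ.erase (0 : Fin k → F), ∑ w : W,
        Nat.card {y : Fin k → F // x ⬝ᵥ y = -R w} * Fintype.card F =
        Fintype.card F ^ k * Fintype.card W := by
      intro x hx'
      rw [Finset.sum_congr rfl (fun w _ => hx x (Finset.ne_of_mem_erase hx') w)]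
      simp [mul_comm]
    rw [Finset.sum_congr rfl this, Finset.sum_const, Finset.card_erase_of_mem (Finset.mem_univ _),
      Finset.card_univ, smul_eq_mul]
    simp only [Fintype.card_pi, Finset.prod_const, Finset.card_univ, Fintype.card_fin]
    ring

theorem arith (q A : ℕ) (hq : 2 ≤ q) (hA : 1 ≤ A) :
    A * q * q + (A * q - 1) * (A * q) ≠ A * q + (A - 1) * (A * q * q) := by
  obtain ⟨a, rfl⟩ : ∃ a, A = a + 1 := ⟨A - 1, by omega⟩
  obtain ⟨r, rfl⟩ : ∃ r, q = r + 2 := ⟨q - 2, by omega⟩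
  have h1 : (a + 1) * (r + 2) = (a * r + 2 * a + r + 1) + 1 := by ring
  rw [h1, Nat.add_sub_cancel, Nat.add_sub_cancel]
  intro h
  have h2 : (a * r + 2 * a + r + 1 + 1) * (r + 2) + (a * r + 2 * a + r + 1) * (a * r + 2 * a + r + 1 + 1) =
      (a * r + 2 * a + r + 1 + 1 + a * ((a * r + 2 * a + r + 1 + 1) * (r + 2))) +
        2 * (a + 1) * (r + 2) * (r + 1) := by ring
  rw [h2] at h
  have h3 : 0 < 2 * (a + 1) * (r + 2) * (r + 1) := by positivity
  omega

theorem result {F : Type*} [Field F] [Finite F] {m : ℕ} (hm : 1 ≤ m) (ζ : F) (hζ : ∀ t : F, t ^ 2 + t + ζ ≠ 0) (g : (Fin m ⊕ Fin m → F) ≃ₗ[F] ((Fin (m - 1) ⊕ Fin (m - 1)) ⊕ Fin 2 → F)) : ¬ (∀ v : Fin m ⊕ Fin m → F, Cfsg.quadFormMinus (m - 1) F 1 ζ (g v) = Cfsg.quadFormPlus m F v) := by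
  classical
  have := Fintype.ofFinite F
  obtain ⟨k, rfl⟩ : ∃ k, m = k + 1 := ⟨m - 1, by omega⟩
  revert g
  suffices key : ∀ (g : (Fin (k + 1) ⊕ Fin (k + 1) → F) ≃ₗ[F] ((Fin k ⊕ Fin k) ⊕ Fin 2 → F)),
      ¬ ∀ v, Cfsg.quadFormMinus k F 1 ζ (g v) = Cfsg.quadFormPlus (k + 1) F v from key
  intro g hiso
  -- zero sets correspond
  have hcard : Nat.card {v : Fin (k + 1) ⊕ Fin (k + 1) → F // Cfsg.quadFormPlus (k + 1) F v = 0} =
      Nat.card {w : (Fin k ⊕ Fin k) ⊕ Fin 2 → F // Cfsg.quadFormMinus k F 1 ζ w = 0} := by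
    apply Nat.card_congr
    refine Equiv.subtypeEquiv g.toEquiv ?_
    intro v
    rw [← hiso v]
    rfl
  -- count for the plus form
  have hplus : Nat.card {v : Fin (k + 1) ⊕ Fin (k + 1) → F // Cfsg.quadFormPlus (k + 1) F v = 0} =
      Nat.card {p : ((Fin (k + 1) → F) × (Fin (k + 1) → F)) × Unit //
        p.1.1 ⬝ᵥ p.1.2 + (fun _ : Unit => (0 : F)) p.2 = 0} := by
    apply Nat.card_congr
    refine Equiv.subtypeEquiv ((Equiv.sumArrowEquivProdArrow _ _ _).trans (Equiv.prodPUnit _).symm) ?_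
    intro v
    simp only [Equiv.trans_apply, Equiv.prodPUnit_symm_apply, add_zero]
    rfl
  have hminus : Nat.card {w : (Fin k ⊕ Fin k) ⊕ Fin 2 → F // Cfsg.quadFormMinus k F 1 ζ w = 0} =
      Nat.card {p : ((Fin k → F) × (Fin k → F)) × (Fin 2 → F) //
        p.1.1 ⬝ᵥ p.1.2 + (fun z : Fin 2 → F => z 0 ^ 2 + 1 * z 0 * z 1 + ζ * z 1 ^ 2) p.2 = 0} := by
    apply Nat.card_congr
    refine Equiv.subtypeEquiv ((Equiv.sumArrowEquivProdArrow _ _ _).trans
      (Equiv.prodCongr (Equiv.sumArrowEquivProdArrow _ _ _) (Equiv.refl _))) ?_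
    intro v
    rfl
  have hZ1 : Nat.card {w : Unit // (fun _ : Unit => (0 : F)) w = 0} = 1 := by
    rw [Nat.card_eq_one_iff_unique]
    exact ⟨⟨fun a b => Subtype.ext rfl⟩, ⟨⟨(), rfl⟩⟩⟩
  have hZ2 : Nat.card {z : Fin 2 → F // (fun z : Fin 2 → F => z 0 ^ 2 + 1 * z 0 * z 1 + ζ * z 1 ^ 2) z = 0} = 1 := by
    rw [Nat.card_eq_one_iff_unique]
    refine ⟨⟨?_⟩, ⟨⟨0, by simp⟩⟩⟩
    have hz : ∀ z : Fin 2 → F, z 0 ^ 2 + 1 * z 0 * z 1 + ζ * z 1 ^ 2 = 0 → z = 0 := by
      intro z hz
      have h1 : z 1 = 0 := by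
        by_contra h1
        apply hζ (z 0 / z 1)
        field_simp
        linear_combination hz
      have h0 : z 0 = 0 := by
        rw [h1] at hz
        simpa using hz
      funext i
      fin_cases i
      · exact h0
      · exact h1
    rintro ⟨a, ha⟩ ⟨b, hb⟩
    apply Subtype.ext
    exact (hz a ha).trans (hz b hb).symm
  have c1 := count_zeros (F := F) (k := k + 1) (fun _ : Unit => (0 : F))
  have c2 := count_zeros (F := F) (k := k) (fun z : Fin 2 → F => z 0 ^ 2 + 1 * z 0 * z 1 + ζ * z 1 ^ 2)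
  rw [hZ1] at c1
  rw [hZ2] at c2
  rw [← hplus, hcard, hminus, c2] at c1
  simp only [Fintype.card_unit, mul_one, Fintype.card_pi, Finset.prod_const, Finset.card_univ,
    Fintype.card_fin] at c1
  have hq : 2 ≤ Fintype.card F := Fintype.one_lt_card
  have hA : 1 ≤ Fintype.card F ^ k := Nat.one_le_pow _ _ (by omega)
  apply arith (Fintype.card F) (Fintype.card F ^ k) hq hA
  have e3 : Fintype.card F ^ (k + 1) = Fintype.card F ^ k * Fintype.card F := pow_succ _ _
  have e1 : Fintype.card F ^ (k + 1 + 1) = Fintype.card F ^ k * Fintype.card F * Fintype.card F := by ring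
  rw [e1, e3] at c1
  rw [← c1]
  ring

end Cfsg.Agent.S2617
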