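import Cfsg.Statements.S2561
import Cfsg.Agent.S2564
import Cfsg.Agent.S2616
import Cfsg.Agent.S2617

set_option autoImplicit false
open Cfsg

set_option maxHeartbeats 1000000
namespace Cfsg.Agent.S2561

open Cfsg.Agent.S2564

theorem zero_or_one (a : ZMod 2) : a = 0 ∨ a = 1 := by revert a; decide

theorem mem_of_basis {V ι : Type*} [AddCommGroup V] [Module (ZMod 2) V] [Fintype ι]
    (b : Module.Basis ι (ZMod 2) V) (S : AddSubmonoid V) (h : ∀ x, b x ∈ S) (u : V) : u ∈ S := by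
  rw [← b.sum_repr u]
  apply S.sum_mem
  intro x _
  rcases zero_or_one (b.repr u x) with h0 | h1
  · rw [h0, zero_smul]; exact S.zero_mem
  · rw [h1, one_smul]; exact h x

theorem agree {V ι : Type*} [AddCommGroup V] [Module (ZMod 2) V] [Fintype ι]
    (b : Module.Basis ι (ZMod 2) V) (Q₁ Q₂ : V → ZMod 2) (β₁ β₂ : V → V → ZMod 2)
    (h1 : ∀ u v, Q₁ (u + v) = Q₁ u + Q₁ v + β₁ u v)
    (h2 : ∀ u v, Q₂ (u + v) = Q₂ u + Q₂ v + β₂ u v)
    (a1l : ∀ u u' v, β₁ (u + u') v = β₁ u v + β₁ u' v)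
    (a1r : ∀ u v v', β₁ u (v + v') = β₁ u v + β₁ u v')
    (a2l : ∀ u u' v, β₂ (u + u') v = β₂ u v + β₂ u' v)
    (a2r : ∀ u v v', β₂ u (v + v') = β₂ u v + β₂ u v')
    (hβ : ∀ x y, β₁ (b x) (b y) = β₂ (b x) (b y))
    (hQ : ∀ x, Q₁ (b x) = Q₂ (b x)) (v : V) : Q₁ v = Q₂ v := by
  have z : ∀ a : ZMod 2, a = a + a → a = 0 := by decide
  have hβ' : ∀ u v, β₁ u v = β₂ u v := by
    have step : ∀ x v, β₁ (b x) v = β₂ (b x) v := by
      intro x v
      let S : AddSubmonoid V :=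
        { carrier := {v | β₁ (b x) v = β₂ (b x) v}
          add_mem' := by
            intro a c ha hc
            show β₁ (b x) (a + c) = β₂ (b x) (a + c)
            rw [a1r, a2r, ha, hc]
          zero_mem' := by
            show β₁ (b x) 0 = β₂ (b x) 0
            have e1 := a1r (b x) 0 0
            have e2 := a2r (b x) 0 0
            rw [add_zero] at e1 e2
            rw [z _ e1, z _ e2] }
      exact mem_of_basis b S (fun y => hβ x y) v
    intro u v
    let S : AddSubmonoid V :=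
      { carrier := {u | β₁ u v = β₂ u v}
        add_mem' := by
          intro a c ha hc
          show β₁ (a + c) v = β₂ (a + c) v
          rw [a1l, a2l, ha, hc]
        zero_mem' := by
          show β₁ 0 v = β₂ 0 v
          have e1 := a1l 0 0 v
          have e2 := a2l 0 0 v
          rw [add_zero] at e1 e2
          rw [z _ e1, z _ e2] }
    exact mem_of_basis b S (fun x => step x v) u
  let S : AddSubmonoid V :=
    { carrier := {u | Q₁ u = Q₂ u}
      add_mem' := by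
        intro a c ha hc
        show Q₁ (a + c) = Q₂ (a + c)
        rw [h1, h2, ha, hc, hβ']
      zero_mem' := by
        show Q₁ 0 = Q₂ 0
        have e1 := h1 0 0
        have e2 := h2 0 0
        have b1 : β₁ 0 0 = 0 := by
          have := a1l 0 0 0
          rw [add_zero] at this
          exact z _ this
        have b2 : β₂ 0 0 = 0 := by
          have := a2l 0 0 0
          rw [add_zero] at this
          exact z _ this
        rw [add_zero, b1, add_zero] at e1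
        rw [add_zero, b2, add_zero] at e2
        rw [z _ e1, z _ e2] }
  exact mem_of_basis b S hQ v

def polM (k : ℕ) (u v : (Fin k ⊕ Fin k) ⊕ Fin 2 → ZMod 2) : ZMod 2 :=
  Cfsg.quadFormMinus k (ZMod 2) 1 1 (u + v) - Cfsg.quadFormMinus k (ZMod 2) 1 1 u
    - Cfsg.quadFormMinus k (ZMod 2) 1 1 v

theorem polM_eq (k : ℕ) (u v : (Fin k ⊕ Fin k) ⊕ Fin 2 → ZMod 2) :
    polM k u v = (∑ i, (u (.inl (.inl i)) * v (.inl (.inr i)) + v (.inl (.inl i)) * u (.inl (.inr i))))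
      + (u (.inr 0) * v (.inr 1) + u (.inr 1) * v (.inr 0)) := by
  unfold polM Cfsg.quadFormMinus
  simp only [Pi.add_apply]
  have hs : ∑ i, (u (.inl (.inl i)) + v (.inl (.inl i))) * (u (.inl (.inr i)) + v (.inl (.inr i)))
      = ∑ i, u (.inl (.inl i)) * u (.inl (.inr i)) + ∑ i, v (.inl (.inl i)) * v (.inl (.inr i))
        + ∑ i, (u (.inl (.inl i)) * v (.inl (.inr i)) + v (.inl (.inl i)) * u (.inl (.inr i))) := by
    rw [← Finset.sum_add_distrib, ← Finset.sum_add_distrib]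
    apply Finset.sum_congr rfl; intro i _; ring
  rw [hs]
  have h2 : (2 : ZMod 2) = 0 := by decide
  linear_combination (u (.inr 0) * v (.inr 0) + u (.inr 1) * v (.inr 1)) * h2

theorem polM_add_left (k : ℕ) (u u' v : (Fin k ⊕ Fin k) ⊕ Fin 2 → ZMod 2) :
    polM k (u + u') v = polM k u v + polM k u' v := by
  rw [polM_eq, polM_eq, polM_eq]
  have hs : ∑ i, ((u + u') (.inl (.inl i)) * v (.inl (.inr i))
        + v (.inl (.inl i)) * (u + u') (.inl (.inr i)))
      = ∑ i, (u (.inl (.inl i)) * v (.inl (.inr i)) + v (.inl (.inl i)) * u (.inl (.inr i)))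
        + ∑ i, (u' (.inl (.inl i)) * v (.inl (.inr i)) + v (.inl (.inl i)) * u' (.inl (.inr i))) := by
    rw [← Finset.sum_add_distrib]
    apply Finset.sum_congr rfl; intro i _; simp only [Pi.add_apply]; ring
  rw [hs]
  simp only [Pi.add_apply]
  ring

theorem polM_comm (k : ℕ) (u v : (Fin k ⊕ Fin k) ⊕ Fin 2 → ZMod 2) : polM k u v = polM k v u := by
  rw [polM_eq, polM_eq]
  congr 1
  · apply Finset.sum_congr rfl; intro i _; ring
  · ring

theorem polM_add_right (k : ℕ) (u v v' : (Fin k ⊕ Fin k) ⊕ Fin 2 → ZMod 2) :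
    polM k u (v + v') = polM k u v + polM k u v' := by
  rw [polM_comm, polM_add_left, polM_comm k v, polM_comm k v']

theorem equivFun_basis {V ι : Type*} [AddCommGroup V] [Module (ZMod 2) V] [Fintype ι]
    [DecidableEq ι] (b : Module.Basis ι (ZMod 2) V) (x : ι) :
    b.equivFun (b x) = Pi.single x 1 := by
  funext j
  rw [b.equivFun_self]
  simp [Pi.single_apply, eq_comm]

theorem classify (m : ℕ) (hm : 1 ≤ m) (q : (Fin m ⊕ Fin m → ZMod 2) → ZMod 2)
    (hq : ∀ u v, q (u + v) = q u + q v + pol m u v) :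
    (∃ g : (Fin m ⊕ Fin m → ZMod 2) ≃ₗ[ZMod 2] (Fin m ⊕ Fin m → ZMod 2),
        ∀ v, q v = Cfsg.quadFormPlus m (ZMod 2) (g v)) ∨
    (∃ g : (Fin m ⊕ Fin m → ZMod 2) ≃ₗ[ZMod 2] ((Fin (m - 1) ⊕ Fin (m - 1)) ⊕ Fin 2 → ZMod 2),
        ∀ v, q v = Cfsg.quadFormMinus (m - 1) (ZMod 2) 1 1 (g v)) := by
  classical
  have z : ∀ a : ZMod 2, a = a + a → a = 0 := by decide
  have hq0 : q 0 = 0 := by
    have h := hq 0 0
    rw [pol_zero_left, add_zero, add_zero] at h
    exact z _ h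
  let B : LinearMap.BilinForm (ZMod 2) (Fin m ⊕ Fin m → ZMod 2) :=
    LinearMap.mk₂ (ZMod 2) (pol m) (pol_add_left m) (fun c u v => pol_smul_left m c u v)
      (pol_add_right m) (fun c u v => by rw [pol_comm, pol_smul_left, pol_comm]; rfl)
  let Q : QuadraticForm (ZMod 2) (Fin m ⊕ Fin m → ZMod 2) :=
    { toFun := q
      toFun_smul := by
        intro a v
        rcases zero_or_one a with rfl | rfl
        · simp [hq0]
        · simp
      exists_companion' := ⟨B, fun u v => hq u v⟩ }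
  have hQq : ∀ v, Q v = q v := fun v => rfl
  have hpolar : ∀ u v, QuadraticMap.polar ⇑Q u v = pol m u v := by
    intro u v
    unfold QuadraticMap.polar
    rw [hQq, hQq, hQq, hq]; ring
  have hnd : (QuadraticMap.polarBilin Q).Nondegenerate := by
    constructor
    · intro x hx
      by_contra hx0
      obtain ⟨u, hu⟩ := exists_pol_one m x hx0
      have := hx u
      rw [QuadraticMap.polarBilin_apply_apply, hpolar, pol_comm, hu] at this
      exact one_ne_zero this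
    · intro y hy
      by_contra hy0
      obtain ⟨u, hu⟩ := exists_pol_one m y hy0
      have := hy u
      rw [QuadraticMap.polarBilin_apply_apply, hpolar, hu] at this
      exact one_ne_zero this
  have hV : Module.finrank (ZMod 2) (Fin m ⊕ Fin m → ZMod 2) = 2 * m := by simp [two_mul]
  rcases Cfsg.Agent.S2616.result hm hV Q hnd with
    ⟨b, hb1, hb2, hb3⟩ | ⟨b, ζ, hζ, hb1, hb2, hb3, hb4, hb5, hb6, hb7⟩
  · left
    refine ⟨b.equivFun, fun v => ?_⟩
    refine agree b q (fun v => Cfsg.quadFormPlus m (ZMod 2) (b.equivFun v)) (pol m)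
      (fun u v => pol m (b.equivFun u) (b.equivFun v)) hq ?_ (pol_add_left m) (pol_add_right m)
      ?_ ?_ ?_ ?_ v
    · intro u v
      show Cfsg.quadFormPlus m (ZMod 2) (b.equivFun (u + v)) = _
      rw [map_add, pol_def]; ring
    · intro u u' v
      show pol m (b.equivFun (u + u')) (b.equivFun v) = _
      rw [map_add, pol_add_left]
    · intro u v v'
      show pol m (b.equivFun u) (b.equivFun (v + v')) = _
      rw [map_add, pol_add_right]
    · intro x y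
      show pol m (b x) (b y) = pol m (b.equivFun (b x)) (b.equivFun (b y))
      rw [equivFun_basis, equivFun_basis, ← hpolar]
      rcases x with i | i <;> rcases y with j | j
      · rw [(hb3 i j).1, pol_eq]; simp [Pi.single_apply]
      · rw [hb2 i j, pol_eq]; simp [Pi.single_apply, eq_comm]
      · rw [QuadraticMap.polar_comm, hb2 j i, pol_eq]; simp [Pi.single_apply, eq_comm]
      · rw [(hb3 i j).2, pol_eq]; simp [Pi.single_apply]
    · intro x
      show q (b x) = Cfsg.quadFormPlus m (ZMod 2) (b.equivFun (b x))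
      rw [equivFun_basis]
      rcases x with i | i
      · rw [← hQq, (hb1 i).1]; simp [Cfsg.quadFormPlus, Pi.single_apply]
      · rw [← hQq, (hb1 i).2]; simp [Cfsg.quadFormPlus, Pi.single_apply]
  · right
    have hζ1 : ζ = 1 := by
      rcases zero_or_one ζ with h | h
      · exfalso; exact hζ 0 (by rw [h]; ring)
      · exact h
    refine ⟨b.equivFun, fun v => ?_⟩
    refine agree b q (fun v => Cfsg.quadFormMinus (m - 1) (ZMod 2) 1 1 (b.equivFun v)) (pol m)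
      (fun u v => polM (m - 1) (b.equivFun u) (b.equivFun v)) hq ?_ (pol_add_left m)
      (pol_add_right m) ?_ ?_ ?_ ?_ v
    · intro u v
      show Cfsg.quadFormMinus (m - 1) (ZMod 2) 1 1 (b.equivFun (u + v)) = _
      rw [map_add]; unfold polM; ring
    · intro u u' v
      show polM (m - 1) (b.equivFun (u + u')) (b.equivFun v) = _
      rw [map_add, polM_add_left]
    · intro u v v'
      show polM (m - 1) (b.equivFun u) (b.equivFun (v + v')) = _
      rw [map_add, polM_add_right]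
    · intro x y
      show pol m (b x) (b y) = polM (m - 1) (b.equivFun (b x)) (b.equivFun (b y))
      rw [equivFun_basis, equivFun_basis, ← hpolar]
      have hself : ∀ u, QuadraticMap.polar ⇑Q u u = 0 := by intro u; rw [hpolar, pol_self]
      rcases x with (i | i) | a <;> rcases y with (j | j) | c
      · rw [(hb3 i j).1, polM_eq]; simp [Pi.single_apply]
      · rw [hb2 i j, polM_eq]; simp [Pi.single_apply, eq_comm]
      · rw [(hb4 i c).1, polM_eq]; simp [Pi.single_apply]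
      · rw [QuadraticMap.polar_comm, hb2 j i, polM_eq]; simp [Pi.single_apply, eq_comm]
      · rw [(hb3 i j).2, polM_eq]; simp [Pi.single_apply]
      · rw [(hb4 i c).2, polM_eq]; simp [Pi.single_apply]
      · rw [QuadraticMap.polar_comm, (hb4 j a).1, polM_eq]; simp [Pi.single_apply]
      · rw [QuadraticMap.polar_comm, (hb4 j a).2, polM_eq]; simp [Pi.single_apply]
      · have ha : a = 0 ∨ a = 1 := by fin_cases a <;> simp
        have hc : c = 0 ∨ c = 1 := by fin_cases c <;> simp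
        rcases ha with rfl | rfl <;> rcases hc with rfl | rfl
        · rw [hself, polM_eq]; simp [Pi.single_apply]
        · rw [hb6, polM_eq]; simp [Pi.single_apply]
        · rw [QuadraticMap.polar_comm, hb6, polM_eq]; simp [Pi.single_apply]
        · rw [hself, polM_eq]; simp [Pi.single_apply]
    · intro x
      show q (b x) = Cfsg.quadFormMinus (m - 1) (ZMod 2) 1 1 (b.equivFun (b x))
      rw [equivFun_basis]
      rcases x with (i | i) | a
      · rw [← hQq, (hb1 i).1]; simp [Cfsg.quadFormMinus, Pi.single_apply]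
      · rw [← hQq, (hb1 i).2]; simp [Cfsg.quadFormMinus, Pi.single_apply]
      · have ha : a = 0 ∨ a = 1 := by fin_cases a <;> simp
        rcases ha with rfl | rfl
        · rw [← hQq, hb5]; simp [Cfsg.quadFormMinus, Pi.single_apply]
        · rw [← hQq, hb7, hζ1]; simp [Cfsg.quadFormMinus, Pi.single_apply]

def qw (m : ℕ) (w : Fin m ⊕ Fin m → ZMod 2) : (Fin m ⊕ Fin m → ZMod 2) → ZMod 2 :=
  fun v => Cfsg.quadFormPlus m (ZMod 2) v + pol m v w

theorem plus_pol (m : ℕ) (u v : Fin m ⊕ Fin m → ZMod 2) :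
    Cfsg.quadFormPlus m (ZMod 2) (u + v)
      = Cfsg.quadFormPlus m (ZMod 2) u + Cfsg.quadFormPlus m (ZMod 2) v + pol m u v := by
  rw [pol_def]; ring

theorem qw_pol (m : ℕ) (w : Fin m ⊕ Fin m → ZMod 2) (u v : Fin m ⊕ Fin m → ZMod 2) :
    qw m w (u + v) = qw m w u + qw m w v + pol m u v := by
  unfold qw
  rw [pol_add_left, plus_pol]; ring

theorem qw_inj (m : ℕ) : Function.Injective (qw m) := by
  intro w w' h
  by_contra hne
  have hd : w + w' ≠ 0 := by
    intro h0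
    apply hne
    funext x
    have h1 := congrFun h0 x
    simp only [Pi.add_apply, Pi.zero_apply] at h1
    have : ∀ a b : ZMod 2, a + b = 0 → a = b := by decide
    exact this _ _ h1
  obtain ⟨u, hu⟩ := exists_pol_one m (w + w') hd
  have h2 := congrFun h u
  unfold qw at h2
  rw [pol_add_right] at hu
  have h3 : pol m u w = pol m u w' := add_left_cancel h2
  rw [h3, two_zero] at hu
  exact zero_ne_one hu

theorem qw_surj (m : ℕ) (q : (Fin m ⊕ Fin m → ZMod 2) → ZMod 2)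
    (hq : ∀ u v, q (u + v) = q u + q v + pol m u v) : ∃ w, q = qw m w := by
  classical
  have h2 : (2 : ZMod 2) = 0 := by decide
  let ℓ : (Fin m ⊕ Fin m → ZMod 2) → ZMod 2 := fun v => q v + Cfsg.quadFormPlus m (ZMod 2) v
  have hℓ : ∀ u v, ℓ (u + v) = ℓ u + ℓ v := by
    intro u v
    simp only [ℓ]
    rw [hq, plus_pol]
    linear_combination (pol m u v) * h2
  have hℓ0 : ℓ 0 = 0 := by
    have z : ∀ a : ZMod 2, a = a + a → a = 0 := by decide
    have := hℓ 0 0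
    rw [add_zero] at this
    exact z _ this
  let w : Fin m ⊕ Fin m → ZMod 2 :=
    Sum.elim (fun i => ℓ (Pi.single (Sum.inr i) 1)) (fun i => ℓ (Pi.single (Sum.inl i) 1))
  have key : ∀ v, ℓ v = pol m v w := by
    intro v
    let S : AddSubmonoid (Fin m ⊕ Fin m → ZMod 2) :=
      { carrier := {v | ℓ v = pol m v w}
        add_mem' := by
          intro a c ha hc
          show ℓ (a + c) = pol m (a + c) w
          rw [hℓ, pol_add_left, ha, hc]
        zero_mem' := by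
          show ℓ 0 = pol m 0 w
          rw [hℓ0, pol_zero_left] }
    refine mem_of_basis (Pi.basisFun (ZMod 2) (Fin m ⊕ Fin m)) S (fun x => ?_) v
    show ℓ (Pi.basisFun (ZMod 2) (Fin m ⊕ Fin m) x) = pol m (Pi.basisFun (ZMod 2) (Fin m ⊕ Fin m) x) w
    rw [Pi.basisFun_apply, pol_eq]
    rcases x with i | i
    · simp [w, Pi.single_apply]
    · simp [w, Pi.single_apply]
  refine ⟨w, ?_⟩
  funext v
  unfold qw
  rw [← key]
  simp only [ℓ]
  linear_combination (-Cfsg.quadFormPlus m (ZMod 2) v) * h2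

theorem card_via (m : ℕ) (C : ((Fin m ⊕ Fin m → ZMod 2) → ZMod 2) → Prop)
    (D : (Fin m ⊕ Fin m → ZMod 2) → Prop)
    (hC : ∀ q, C q → ∀ u v, q (u + v) = q u + q v + pol m u v)
    (hCD : ∀ w, C (qw m w) ↔ D w) :
    Nat.card {q // C q} = Nat.card {w // D w} := by
  symm
  apply Nat.card_congr
  refine Equiv.ofBijective (fun w => ⟨qw m w.1, (hCD w.1).mpr w.2⟩) ⟨?_, ?_⟩
  · intro w w' h
    apply Subtype.ext
    exact qw_inj m (congrArg Subtype.val h)
  · rintro ⟨q, hqC⟩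
    obtain ⟨w, rfl⟩ := qw_surj m q (hC q hqC)
    exact ⟨⟨w, (hCD w).mp hqC⟩, rfl⟩

theorem plus_iff (m : ℕ) (w : Fin m ⊕ Fin m → ZMod 2) :
    (∃ g : (Fin m ⊕ Fin m → ZMod 2) ≃ₗ[ZMod 2] (Fin m ⊕ Fin m → ZMod 2),
        ∀ v, qw m w v = Cfsg.quadFormPlus m (ZMod 2) (g v)) ↔
      Cfsg.quadFormPlus m (ZMod 2) w = 0 :=
  (Cfsg.Agent.S2564.main m (Cfsg.quadFormPlus m (ZMod 2)) (plus_pol m) w).2

theorem minus_iff (m : ℕ) (hm : 1 ≤ m) (w : Fin m ⊕ Fin m → ZMod 2) :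
    (∃ g : (Fin m ⊕ Fin m → ZMod 2) ≃ₗ[ZMod 2] ((Fin (m - 1) ⊕ Fin (m - 1)) ⊕ Fin 2 → ZMod 2),
        ∀ v, qw m w v = Cfsg.quadFormMinus (m - 1) (ZMod 2) 1 1 (g v)) ↔
      Cfsg.quadFormPlus m (ZMod 2) w ≠ 0 := by
  constructor
  · rintro ⟨g₂, h₂⟩ h0
    obtain ⟨g₁, h₁⟩ := (plus_iff m w).mpr h0
    refine Cfsg.Agent.S2617.result hm (1 : ZMod 2) (by decide) (g₁.symm.trans g₂) ?_
    intro v
    rw [LinearEquiv.trans_apply, ← h₂, h₁, LinearEquiv.apply_symm_apply]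
  · intro h0
    rcases classify m hm (qw m w) (qw_pol m w) with h | h
    · exact absurd ((plus_iff m w).mp h) h0
    · exact h

theorem card_zeros (m : ℕ) (hm : 1 ≤ m) :
    Nat.card {w : Fin m ⊕ Fin m → ZMod 2 // Cfsg.quadFormPlus m (ZMod 2) w = 0}
      = 2 ^ (2 * m - 1) + 2 ^ (m - 1) := by
  have hplus : Nat.card {v : Fin m ⊕ Fin m → ZMod 2 // Cfsg.quadFormPlus m (ZMod 2) v = 0} =
      Nat.card {p : ((Fin m → ZMod 2) × (Fin m → ZMod 2)) × Unit //
        p.1.1 ⬝ᵥ p.1.2 + (fun _ : Unit => (0 : ZMod 2)) p.2 = 0} := by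
    apply Nat.card_congr
    refine Equiv.subtypeEquiv ((Equiv.sumArrowEquivProdArrow _ _ _).trans (Equiv.prodPUnit _).symm) ?_
    intro v
    simp only [Equiv.trans_apply, Equiv.prodPUnit_symm_apply, add_zero]
    rfl
  have hZ1 : Nat.card {w : Unit // (fun _ : Unit => (0 : ZMod 2)) w = 0} = 1 := by
    rw [Nat.card_eq_one_iff_unique]
    exact ⟨⟨fun a b => Subtype.ext rfl⟩, ⟨⟨(), rfl⟩⟩⟩
  have c1 := Cfsg.Agent.S2617.count_zeros (F := ZMod 2) (k := m) (fun _ : Unit => (0 : ZMod 2))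
  rw [hZ1, ← hplus] at c1
  simp only [ZMod.card, Fintype.card_unit, mul_one] at c1
  obtain ⟨k, rfl⟩ : ∃ k, m = k + 1 := ⟨m - 1, by omega⟩
  have e1 : 2 * (k + 1) - 1 = 2 * k + 1 := by omega
  rw [e1, Nat.add_sub_cancel]
  have h3 : (2 ^ (k + 1) - 1) * 2 ^ (k + 1) + 2 ^ (k + 1) = 2 ^ (k + 1) * 2 ^ (k + 1) := by
    rw [Nat.sub_mul, one_mul]; exact Nat.sub_add_cancel (Nat.le_mul_self _)
  have h4 : 2 ^ (2 * k + 1) * 2 = 2 ^ (k + 1) * 2 ^ (k + 1) := by
    rw [← pow_add, ← pow_succ]; congr 1; omega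
  have h5 : 2 ^ (k + 1 + 1) = 2 * 2 ^ (k + 1) := by rw [pow_succ]; ring
  have h6 : 2 ^ (k + 1) = 2 * 2 ^ k := by rw [pow_succ]; ring
  generalize 2 ^ (k + 1) * 2 ^ (k + 1) = X at h3 h4
  generalize (2 ^ (k + 1) - 1) * 2 ^ (k + 1) = Y at h3 c1
  omega

theorem main (m : ℕ) (hm : 1 ≤ m) :
    Nat.card {q : (Fin m ⊕ Fin m → ZMod 2) → ZMod 2 //
        (∀ u v : (Fin m ⊕ Fin m → ZMod 2), q (u + v) = q u + q v + pol m u v)} = 2 ^ (2 * m) ∧
    (∀ q : (Fin m ⊕ Fin m → ZMod 2) → ZMod 2,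
      (∀ u v : (Fin m ⊕ Fin m → ZMod 2), q (u + v) = q u + q v + pol m u v) →
      (∃ g : (Fin m ⊕ Fin m → ZMod 2) ≃ₗ[ZMod 2] (Fin m ⊕ Fin m → ZMod 2),
          ∀ v, q v = Cfsg.quadFormPlus m (ZMod 2) (g v)) ∨
      (∃ g : (Fin m ⊕ Fin m → ZMod 2) ≃ₗ[ZMod 2] ((Fin (m - 1) ⊕ Fin (m - 1)) ⊕ Fin 2 → ZMod 2),
          ∀ v, q v = Cfsg.quadFormMinus (m - 1) (ZMod 2) 1 1 (g v))) ∧
    Nat.card {q : (Fin m ⊕ Fin m → ZMod 2) → ZMod 2 //
        (∀ u v : (Fin m ⊕ Fin m → ZMod 2), q (u + v) = q u + q v + pol m u v) ∧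
        ∃ g : (Fin m ⊕ Fin m → ZMod 2) ≃ₗ[ZMod 2] (Fin m ⊕ Fin m → ZMod 2),
          ∀ v, q v = Cfsg.quadFormPlus m (ZMod 2) (g v)} = 2 ^ (2 * m - 1) + 2 ^ (m - 1) ∧
    Nat.card {q : (Fin m ⊕ Fin m → ZMod 2) → ZMod 2 //
        (∀ u v : (Fin m ⊕ Fin m → ZMod 2), q (u + v) = q u + q v + pol m u v) ∧
        ∃ g : (Fin m ⊕ Fin m → ZMod 2) ≃ₗ[ZMod 2] ((Fin (m - 1) ⊕ Fin (m - 1)) ⊕ Fin 2 → ZMod 2),
          ∀ v, q v = Cfsg.quadFormMinus (m - 1) (ZMod 2) 1 1 (g v)} = 2 ^ (2 * m - 1) - 2 ^ (m - 1) := by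
  classical
  have hcardV : Fintype.card (Fin m ⊕ Fin m → ZMod 2) = 2 ^ (2 * m) := by
    simp [two_mul]
  refine ⟨?_, fun q hq => classify m hm q hq, ?_, ?_⟩
  · rw [card_via m _ (fun _ => True) (fun q h => h) (fun w => iff_of_true (qw_pol m w) trivial)]
    rw [Nat.card_congr (Equiv.subtypeUnivEquiv (fun _ => trivial)), Nat.card_eq_fintype_card,
      hcardV]
  · rw [card_via m _ (fun w => Cfsg.quadFormPlus m (ZMod 2) w = 0) (fun q h => h.1)
      (fun w => ⟨fun h => (plus_iff m w).mp h.2, fun h => ⟨qw_pol m w, (plus_iff m w).mpr h⟩⟩)]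
    exact card_zeros m hm
  · rw [card_via m _ (fun w => Cfsg.quadFormPlus m (ZMod 2) w ≠ 0) (fun q h => h.1)
      (fun w => ⟨fun h => (minus_iff m hm w).mp h.2,
        fun h => ⟨qw_pol m w, (minus_iff m hm w).mpr h⟩⟩)]
    have hz := card_zeros m hm
    rw [Nat.card_eq_fintype_card] at hz ⊢
    have hc := Fintype.card_subtype_compl (fun w : Fin m ⊕ Fin m → ZMod 2 =>
      Cfsg.quadFormPlus m (ZMod 2) w = 0)
    rw [hcardV, hz] at hc
    rw [hc]
    obtain ⟨k, rfl⟩ : ∃ k, m = k + 1 := ⟨m - 1, by omega⟩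
    have e1 : 2 * (k + 1) - 1 = 2 * k + 1 := by omega
    have e2 : 2 ^ (2 * (k + 1)) = 2 * 2 ^ (2 * k + 1) := by
      rw [show 2 * (k + 1) = 2 * k + 1 + 1 by ring, pow_succ]; ring
    rw [e1, e2]
    omega


theorem result (m : ℕ) (hm : 1 ≤ m) :
    Nat.card {q : (Fin m ⊕ Fin m → ZMod 2) → ZMod 2 // (∀ u v : (Fin m ⊕ Fin m → ZMod 2), q (u + v) = q u + q v + (Cfsg.quadFormPlus m (ZMod 2) (u + v) - Cfsg.quadFormPlus m (ZMod 2) u - Cfsg.quadFormPlus m (ZMod 2) v))} = 2 ^ (2 * m) ∧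
    (∀ q : (Fin m ⊕ Fin m → ZMod 2) → ZMod 2, (∀ u v : (Fin m ⊕ Fin m → ZMod 2), q (u + v) = q u + q v + (Cfsg.quadFormPlus m (ZMod 2) (u + v) - Cfsg.quadFormPlus m (ZMod 2) u - Cfsg.quadFormPlus m (ZMod 2) v)) →
      (∃ g : (Fin m ⊕ Fin m → ZMod 2) ≃ₗ[ZMod 2] (Fin m ⊕ Fin m → ZMod 2), ∀ v, q v = Cfsg.quadFormPlus m (ZMod 2) (g v)) ∨
      (∃ g : (Fin m ⊕ Fin m → ZMod 2) ≃ₗ[ZMod 2] ((Fin (m - 1) ⊕ Fin (m - 1)) ⊕ Fin 2 → ZMod 2), ∀ v, q v = Cfsg.quadFormMinus (m - 1) (ZMod 2) 1 1 (g v))) ∧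
    Nat.card {q : (Fin m ⊕ Fin m → ZMod 2) → ZMod 2 // (∀ u v : (Fin m ⊕ Fin m → ZMod 2), q (u + v) = q u + q v + (Cfsg.quadFormPlus m (ZMod 2) (u + v) - Cfsg.quadFormPlus m (ZMod 2) u - Cfsg.quadFormPlus m (ZMod 2) v)) ∧ ∃ g : (Fin m ⊕ Fin m → ZMod 2) ≃ₗ[ZMod 2] (Fin m ⊕ Fin m → ZMod 2), ∀ v, q v = Cfsg.quadFormPlus m (ZMod 2) (g v)} = 2 ^ (2 * m - 1) + 2 ^ (m - 1) ∧
    Nat.card {q : (Fin m ⊕ Fin m → ZMod 2) → ZMod 2 // (∀ u v : (Fin m ⊕ Fin m → ZMod 2), q (u + v) = q u + q v + (Cfsg.quadFormPlus m (ZMod 2) (u + v) - Cfsg.quadFormPlus m (ZMod 2) u - Cfsg.quadFormPlus m (ZMod 2) v)) ∧ ∃ g : (Fin m ⊕ Fin m → ZMod 2) ≃ₗ[ZMod 2] ((Fin (m - 1) ⊕ Fin (m - 1)) ⊕ Fin 2 → ZMod 2), ∀ v, q v = Cfsg.quadFormMinus (m - 1) (ZMod 2) 1 1 (g v)} = 2 ^ (2 * m - 1) - 2 ^ (m - 1) := by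
  exact main m hm

end Cfsg.Agent.S2561
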