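import Cfsg.Statements.S2562
import Mathlib

set_option autoImplicit false
open Cfsg

namespace Cfsg.Agent.S2562

open Matrix

/-- the Gram matrix of the hyperbolic form -/
def G0 (F : Type*) [Field F] (m : ℕ) : Matrix (Fin m ⊕ Fin m) (Fin m ⊕ Fin m) F :=
  Matrix.fromBlocks (0 : Matrix (Fin m) (Fin m) F) (1 : Matrix (Fin m) (Fin m) F)
    (1 : Matrix (Fin m) (Fin m) F) (0 : Matrix (Fin m) (Fin m) F)

theorem det_G0 {F : Type*} [Field F] (m : ℕ) : (G0 F m).det = (-1) ^ m := by
  have h1 : (G0 F m) *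
      (Matrix.fromBlocks (1 : Matrix (Fin m) (Fin m) F) (1 : Matrix (Fin m) (Fin m) F)
        (0 : Matrix (Fin m) (Fin m) F) (1 : Matrix (Fin m) (Fin m) F)) =
      Matrix.fromBlocks (0 : Matrix (Fin m) (Fin m) F) (1 : Matrix (Fin m) (Fin m) F)
        (1 : Matrix (Fin m) (Fin m) F) (1 : Matrix (Fin m) (Fin m) F) := by
    unfold G0
    rw [Matrix.fromBlocks_multiply]
    simp
  have h2 : (Matrix.fromBlocks (1 : Matrix (Fin m) (Fin m) F) (1 : Matrix (Fin m) (Fin m) F)
        (0 : Matrix (Fin m) (Fin m) F) (1 : Matrix (Fin m) (Fin m) F)).det = 1 := by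
    rw [Matrix.det_fromBlocks_zero₂₁, Matrix.det_one, one_mul]
  have h3 : (Matrix.fromBlocks (0 : Matrix (Fin m) (Fin m) F) (1 : Matrix (Fin m) (Fin m) F)
        (1 : Matrix (Fin m) (Fin m) F) (1 : Matrix (Fin m) (Fin m) F)).det = (-1) ^ m := by
    rw [Matrix.det_fromBlocks_one₂₂]
    simp [Matrix.det_neg]
  have h4 := congrArg Matrix.det h1
  rw [Matrix.det_mul, h2, mul_one, h3] at h4
  exact h4

theorem polar_plus {F : Type*} [Field F] (m : ℕ) (u v : Fin m ⊕ Fin m → F) :
    QuadraticMap.polar (Cfsg.quadFormPlus m F) u v = Matrix.toBilin' (G0 F m) u v := by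
  rw [Matrix.toBilin'_apply']
  simp only [G0, QuadraticMap.polar, Cfsg.quadFormPlus, dotProduct, Fintype.sum_sum_type,
    Matrix.fromBlocks_mulVec, Sum.elim_inl, Sum.elim_inr, Matrix.zero_mulVec, Matrix.one_mulVec,
    zero_add, add_zero, Pi.add_apply, Function.comp_apply]
  rw [← Finset.sum_sub_distrib, ← Finset.sum_sub_distrib, ← Finset.sum_add_distrib]
  apply Finset.sum_congr rfl
  intro i _
  ring

/-- the Gram matrix of the elliptic form -/
def G1 (F : Type*) [Field F] (m : ℕ) (a c : F) :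
    Matrix ((Fin m ⊕ Fin m) ⊕ Fin 2) ((Fin m ⊕ Fin m) ⊕ Fin 2) F :=
  Matrix.fromBlocks (G0 F m) (0 : Matrix (Fin m ⊕ Fin m) (Fin 2) F)
    (0 : Matrix (Fin 2) (Fin m ⊕ Fin m) F) (!![2, a; a, 2 * c] : Matrix (Fin 2) (Fin 2) F)

theorem det_G1 {F : Type*} [Field F] (m : ℕ) (a c : F) :
    (G1 F m a c).det = (-1) ^ m * (4 * c - a ^ 2) := by
  unfold G1
  rw [Matrix.det_fromBlocks_zero₂₁, det_G0, Matrix.det_fin_two_of]
  ring

theorem polar_minus {F : Type*} [Field F] (m : ℕ) (a c : F)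
    (u v : (Fin m ⊕ Fin m) ⊕ Fin 2 → F) :
    QuadraticMap.polar (Cfsg.quadFormMinus m F a c) u v = Matrix.toBilin' (G1 F m a c) u v := by
  have h1 := polar_plus m (u ∘ Sum.inl) (v ∘ Sum.inl)
  rw [Matrix.toBilin'_apply'] at h1
  simp only [dotProduct] at h1
  rw [Matrix.toBilin'_apply']
  simp only [G1, dotProduct, Fintype.sum_sum_type, Matrix.fromBlocks_mulVec, Sum.elim_inl,
    Sum.elim_inr, Matrix.zero_mulVec, add_zero, zero_add, Pi.add_apply, Fin.sum_univ_two]
  have h2 : ∑ x : Fin m ⊕ Fin m, u (Sum.inl x) * (G0 F m *ᵥ (v ∘ Sum.inl)) x =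
      QuadraticMap.polar (Cfsg.quadFormPlus m F) (u ∘ Sum.inl) (v ∘ Sum.inl) := by
    rw [h1]
    rfl
  simp only [Fintype.sum_sum_type] at h2
  rw [h2]
  simp only [QuadraticMap.polar, Cfsg.quadFormMinus, Cfsg.quadFormPlus, Pi.add_apply,
    Function.comp_apply, Matrix.mulVec, dotProduct, Fin.sum_univ_two, Matrix.of_apply,
    Matrix.cons_val', Matrix.cons_val_zero, Matrix.cons_val_one, Matrix.cons_val_fin_one]
  ring

/-- fibers of a nonzero linear functional -/
theorem card_fiber {F : Type*} [Field F] [Fintype F] {k : ℕ} (x : Fin k → F) (hx : x ≠ 0) (c : F) :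
    Nat.card {y : Fin k → F // x ⬝ᵥ y = c} * Fintype.card F = Fintype.card F ^ k := by
  classical
  obtain ⟨i, hi⟩ : ∃ i, x i ≠ 0 := by
    by_contra h
    apply hx
    funext j
    by_contra hj
    exact h ⟨j, hj⟩
  have hcongr : ∀ c' : F, Nat.card {y : Fin k → F // x ⬝ᵥ y = c'} =
      Nat.card {y : Fin k → F // x ⬝ᵥ y = c} := by
    intro c'
    apply Nat.card_congr
    refine Equiv.subtypeEquiv (Equiv.addRight (Pi.single i ((c - c') / x i))) ?_
    intro y
    simp only [Equiv.coe_addRight, dotProduct_add, dotProduct_single]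
    have e : x i * ((c - c') / x i) = c - c' := by field_simp
    rw [e]
    constructor
    · intro h; rw [h]; ring
    · intro h; linear_combination h
  have hsum : Nat.card (Σ c' : F, {y : Fin k → F // x ⬝ᵥ y = c'}) = Fintype.card F ^ k := by
    rw [Nat.card_congr (Equiv.sigmaFiberEquiv (fun y : Fin k → F => x ⬝ᵥ y))]
    simp [Nat.card_eq_fintype_card]
  rw [Nat.card_sigma] at hsum
  simp only [hcongr, Finset.sum_const, Finset.card_univ, smul_eq_mul] at hsum
  rw [mul_comm]
  exact hsum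

theorem count_zeros {F : Type*} [Field F] [Fintype F] {k : ℕ} {W : Type*} [Fintype W] (R : W → F) :
    Nat.card {p : ((Fin k → F) × (Fin k → F)) × W // p.1.1 ⬝ᵥ p.1.2 + R p.2 = 0} * Fintype.card F =
      Fintype.card F ^ (k + 1) * Nat.card {w : W // R w = 0} +
        (Fintype.card F ^ k - 1) * Fintype.card F ^ k * Fintype.card W := by
  classical
  have e : {p : ((Fin k → F) × (Fin k → F)) × W // p.1.1 ⬝ᵥ p.1.2 + R p.2 = 0} ≃
      Σ xw : (Fin k → F) × W, {y : Fin k → F // xw.1 ⬝ᵥ y = -R xw.2} :=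
    { toFun := fun p => ⟨(p.1.1.1, p.1.2), ⟨p.1.1.2, by
        have := p.2
        linear_combination this⟩⟩
      invFun := fun s => ⟨((s.1.1, s.2.1), s.1.2), by
        have := s.2.2
        simp only
        rw [this]
        ring⟩
      left_inv := fun p => rfl
      right_inv := fun s => rfl }
  rw [Nat.card_congr e, Nat.card_sigma, Finset.sum_mul, Fintype.sum_prod_type]
  have hx : ∀ x : Fin k → F, x ≠ 0 → ∀ w : W,
      Nat.card {y : Fin k → F // x ⬝ᵥ y = -R w} * Fintype.card F = Fintype.card F ^ k :=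
    fun x hx w => card_fiber x hx _
  have h0 : ∀ w : W, Nat.card {y : Fin k → F // (0 : Fin k → F) ⬝ᵥ y = -R w} * Fintype.card F =
      if R w = 0 then Fintype.card F ^ (k + 1) else 0 := by
    intro w
    by_cases hw : R w = 0
    · rw [if_pos hw]
      have : Nat.card {y : Fin k → F // (0 : Fin k → F) ⬝ᵥ y = -R w} = Fintype.card F ^ k := by
        rw [Nat.card_congr (Equiv.subtypeUnivEquiv (fun y => by simp [hw]))]
        simp [Nat.card_eq_fintype_card]
      rw [this, pow_succ]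
    · rw [if_neg hw]
      have : IsEmpty {y : Fin k → F // (0 : Fin k → F) ⬝ᵥ y = -R w} := by
        constructor
        rintro ⟨y, hy⟩
        apply hw
        simp at hy
        exact hy.symm ▸ rfl
      rw [Nat.card_of_isEmpty, zero_mul]
  rw [← Finset.add_sum_erase Finset.univ _ (Finset.mem_univ (0 : Fin k → F))]
  congr 1
  · simp only [h0]
    rw [← Finset.sum_filter, Finset.sum_const, smul_eq_mul, mul_comm]
    congr 1
    rw [Nat.card_eq_fintype_card, Fintype.card_subtype]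
  · have : ∀ x ∈ Finset.univ.erase (0 : Fin k → F), ∑ w : W,
        Nat.card {y : Fin k → F // x ⬝ᵥ y = -R w} * Fintype.card F =
        Fintype.card F ^ k * Fintype.card W := by
      intro x hx'
      rw [Finset.sum_congr rfl (fun w _ => hx x (Finset.ne_of_mem_erase hx') w)]
      simp [mul_comm]
    rw [Finset.sum_congr rfl this, Finset.sum_const, Finset.card_erase_of_mem (Finset.mem_univ _),
      Finset.card_univ, smul_eq_mul]
    simp only [Fintype.card_pi, Finset.prod_const, Finset.card_univ, Fintype.card_fin]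
    ring


/-- a subspace totally isotropic for a nondegenerate form has at most half the dimension -/
theorem iso_bound {K V : Type*} [Field K] [AddCommGroup V] [Module K V] [FiniteDimensional K V]
    (B : LinearMap.BilinForm K V) (hB : B.Nondegenerate) (W : Submodule K V)
    (hW : ∀ u ∈ W, ∀ v ∈ W, B u v = 0) : 2 * Module.finrank K W ≤ Module.finrank K V := by
  have h1 : W ≤ B.orthogonal W := by
    intro v hv
    rw [LinearMap.BilinForm.mem_orthogonal_iff]
    intro u hu
    exact hW u hu v hv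
  have h2 := LinearMap.BilinForm.finrank_orthogonal hB W
  have h3 := Submodule.finrank_mono h1
  have h4 := Submodule.finrank_le W
  omega

theorem iso_max {K V : Type*} [Field K] [AddCommGroup V] [Module K V] [FiniteDimensional K V]
    (B : LinearMap.BilinForm K V) (hB : B.Nondegenerate) (W : Submodule K V)
    (hW : ∀ u ∈ W, ∀ v ∈ W, B u v = 0) (hd : 2 * Module.finrank K W = Module.finrank K V)
    (v : V) (hv : ∀ u ∈ W, B u v = 0) : v ∈ W := by
  have h1 : W ≤ B.orthogonal W := by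
    intro v hv
    rw [LinearMap.BilinForm.mem_orthogonal_iff]
    intro u hu
    exact hW u hu v hv
  have h2 := LinearMap.BilinForm.finrank_orthogonal hB W
  have h5 : W = B.orthogonal W := Submodule.eq_of_le_of_finrank_le h1 (by omega)
  rw [h5, LinearMap.BilinForm.mem_orthogonal_iff]
  exact fun u hu => hv u hu

def chi (x : ZMod 2) : ℤ := if x = 0 then 1 else -1

theorem chi_add (x y : ZMod 2) : chi (x + y) = chi x * chi y := by
  revert x y; decide

theorem charsum {V : Type*} [AddCommGroup V] [Module (ZMod 2) V] [Fintype V]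
    (Q : V → ZMod 2) (B : LinearMap.BilinForm (ZMod 2) V)
    (hpolar : ∀ u v, Q (u + v) = Q u + Q v + B u v)
    (U : Submodule (ZMod 2) V) (hU : ∀ u ∈ U, Q u = 0)
    (hmax : ∀ v, (∀ u ∈ U, B u v = 0) → v ∈ U) :
    ∑ v : V, chi (Q v) = (Nat.card U : ℤ) := by
  classical
  have : Fintype U := Fintype.ofFinite U
  have key : ∀ v : V, ∑ u : U, chi (B u v) = if v ∈ U then (Nat.card U : ℤ) else 0 := by
    intro v
    by_cases hv : v ∈ U
    · rw [if_pos hv]
      have h0 : ∀ u : U, chi (B u v) = 1 := by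
        intro u
        have h1 := hpolar u v
        rw [hU _ (U.add_mem u.2 hv), hU _ u.2, hU _ hv] at h1
        have h2 : B u v = 0 := by simpa using h1.symm
        rw [h2]; rfl
      simp [h0, Nat.card_eq_fintype_card]
    · rw [if_neg hv]
      have hex : ∃ u₀ ∈ U, B u₀ v ≠ 0 := by
        by_contra h
        push Not at h
        exact hv (hmax v h)
      obtain ⟨u₀, hu₀, hne⟩ := hex
      have h1 : B u₀ v = 1 := by
        generalize B u₀ v = x at hne
        revert x; decide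
      have h2 : ∑ u : U, chi (B u v) = ∑ u : U, chi (B ((u + ⟨u₀, hu₀⟩ : U) : V) v) :=
        (Equiv.sum_comp (Equiv.addRight (⟨u₀, hu₀⟩ : U)) (fun u : U => chi (B u v))).symm
      have h3 : ∀ u : U, chi (B ((u + ⟨u₀, hu₀⟩ : U) : V) v) = - chi (B u v) := by
        intro u
        rw [Submodule.coe_add, map_add, LinearMap.add_apply, chi_add, h1]
        simp [chi]
      rw [Finset.sum_congr rfl (fun u _ => h3 u), Finset.sum_neg_distrib] at h2
      linarith
  have hS : ∀ u : U, ∑ v : V, chi (Q v) = ∑ v : V, chi (Q v) * chi (B u v) := by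
    intro u
    rw [← Equiv.sum_comp (Equiv.addLeft (u : V)) (fun v => chi (Q v))]
    apply Finset.sum_congr rfl
    intro v _
    simp only [Equiv.coe_addLeft]
    rw [hpolar, hU _ u.2, zero_add, chi_add]
  have h4 : (Nat.card U : ℤ) * ∑ v : V, chi (Q v) = (Nat.card U : ℤ) * (Nat.card U : ℤ) := by
    calc (Nat.card U : ℤ) * ∑ v : V, chi (Q v) = ∑ u : U, ∑ v : V, chi (Q v) := by
          simp [Nat.card_eq_fintype_card]
      _ = ∑ u : U, ∑ v : V, chi (Q v) * chi (B u v) := Finset.sum_congr rfl (fun u _ => hS u)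
      _ = ∑ v : V, ∑ u : U, chi (Q v) * chi (B u v) := Finset.sum_comm
      _ = ∑ v : V, chi (Q v) * (if v ∈ U then (Nat.card U : ℤ) else 0) := by
          apply Finset.sum_congr rfl
          intro v _
          rw [← Finset.mul_sum, key]
      _ = ∑ v : V, (if v ∈ U then (Nat.card U : ℤ) else 0) := by
          apply Finset.sum_congr rfl
          intro v _
          by_cases hv : v ∈ U
          · rw [if_pos hv, hU v hv]; simp [chi]
          · rw [if_neg hv, mul_zero]
      _ = (Nat.card U : ℤ) * (Nat.card U : ℤ) := by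
          rw [← Finset.sum_filter, Finset.sum_const, nsmul_eq_mul]
          congr 1
          rw [Nat.card_eq_fintype_card, Fintype.card_subtype]
  have hpos : (Nat.card U : ℤ) ≠ 0 := by
    have := Nat.card_pos (α := U)
    exact_mod_cast this.ne'
  exact mul_left_cancel₀ hpos h4

theorem charsum_count {V : Type*} [Fintype V] (Q : V → ZMod 2) :
    ∑ v : V, chi (Q v) = 2 * (Nat.card {v : V // Q v = 0} : ℤ) - Fintype.card V := by
  classical
  have h : ∀ v : V, chi (Q v) = 2 * (if Q v = 0 then 1 else 0) - 1 := by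
    intro v; unfold chi; split_ifs <;> norm_num
  rw [Finset.sum_congr rfl (fun v _ => h v), Finset.sum_sub_distrib, ← Finset.mul_sum,
    Finset.sum_boole]
  simp [Nat.card_eq_fintype_card, Fintype.card_subtype]

def inclP (m : ℕ) : (Fin m → ZMod 2) →ₗ[ZMod 2] (Fin m ⊕ Fin m → ZMod 2) where
  toFun x := Sum.elim x 0
  map_add' x y := by ext (i | i) <;> simp
  map_smul' c x := by ext (i | i) <;> simp

def inclM (m : ℕ) : (Fin m → ZMod 2) →ₗ[ZMod 2] ((Fin m ⊕ Fin m) ⊕ Fin 2 → ZMod 2) where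
  toFun x := Sum.elim (Sum.elim x 0) 0
  map_add' x y := by ext ((i | i) | i) <;> simp
  map_smul' c x := by ext ((i | i) | i) <;> simp

theorem result (m : ℕ) (hm : 1 ≤ m) :
    (∃ U : Submodule (ZMod 2) (Fin m ⊕ Fin m → ZMod 2), (∀ u ∈ U, Cfsg.quadFormPlus m (ZMod 2) u = 0) ∧ Module.finrank (ZMod 2) ↥U = m) ∧
    (∀ U : Submodule (ZMod 2) (Fin m ⊕ Fin m → ZMod 2), (∀ u ∈ U, Cfsg.quadFormPlus m (ZMod 2) u = 0) → Module.finrank (ZMod 2) ↥U ≤ m) ∧
    (∃ U : Submodule (ZMod 2) ((Fin (m - 1) ⊕ Fin (m - 1)) ⊕ Fin 2 → ZMod 2), (∀ u ∈ U, Cfsg.quadFormMinus (m - 1) (ZMod 2) 1 1 u = 0) ∧ Module.finrank (ZMod 2) ↥U = m - 1) ∧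
    (∀ U : Submodule (ZMod 2) ((Fin (m - 1) ⊕ Fin (m - 1)) ⊕ Fin 2 → ZMod 2), (∀ u ∈ U, Cfsg.quadFormMinus (m - 1) (ZMod 2) 1 1 u = 0) → Module.finrank (ZMod 2) ↥U ≤ m - 1) := by
  classical
  refine ⟨?_, ?_, ?_, ?_⟩
  · refine ⟨LinearMap.range (inclP m), ?_, ?_⟩
    · rintro u ⟨x, rfl⟩
      simp [Cfsg.quadFormPlus, inclP]
    · rw [LinearMap.finrank_range_of_inj]
      · simp
      · intro x y h
        funext i
        have := congrFun h (Sum.inl i)
        simpa [inclP] using this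
  · intro U hU
    have hnd : (Matrix.toBilin' (G0 (ZMod 2) m)).Nondegenerate := by
      apply LinearMap.BilinForm.nondegenerate_toBilin'_of_det_ne_zero'
      rw [det_G0, show (-1 : ZMod 2) = 1 by decide, one_pow]
      exact one_ne_zero
    have hiso : ∀ u ∈ U, ∀ v ∈ U, Matrix.toBilin' (G0 (ZMod 2) m) u v = 0 := by
      intro u hu v hv
      rw [← polar_plus]
      simp [QuadraticMap.polar, hU _ (U.add_mem hu hv), hU _ hu, hU _ hv]
    have hdim : Module.finrank (ZMod 2) (Fin m ⊕ Fin m → ZMod 2) = 2 * m := by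
      simp [Module.finrank_fintype_fun_eq_card]; ring
    have hb := iso_bound _ hnd U hiso
    omega
  · refine ⟨LinearMap.range (inclM (m - 1)), ?_, ?_⟩
    · rintro u ⟨x, rfl⟩
      simp [Cfsg.quadFormMinus, inclM]
    · rw [LinearMap.finrank_range_of_inj]
      · simp
      · intro x y h
        funext i
        have := congrFun h (Sum.inl (Sum.inl i))
        simpa [inclM] using this
  · obtain ⟨k, rfl⟩ : ∃ k, m = k + 1 := ⟨m - 1, by omega⟩
    show ∀ U : Submodule (ZMod 2) ((Fin k ⊕ Fin k) ⊕ Fin 2 → ZMod 2),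
      (∀ u ∈ U, Cfsg.quadFormMinus k (ZMod 2) 1 1 u = 0) → Module.finrank (ZMod 2) ↥U ≤ k
    intro U hU
    have hnd : (Matrix.toBilin' (G1 (ZMod 2) k 1 1)).Nondegenerate := by
      apply LinearMap.BilinForm.nondegenerate_toBilin'_of_det_ne_zero'
      rw [det_G1, show (-1 : ZMod 2) = 1 by decide, one_pow]
      decide
    have hiso : ∀ u ∈ U, ∀ v ∈ U, Matrix.toBilin' (G1 (ZMod 2) k 1 1) u v = 0 := by
      intro u hu v hv
      rw [← polar_minus]
      simp [QuadraticMap.polar, hU _ (U.add_mem hu hv), hU _ hu, hU _ hv]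
    have hdim : Module.finrank (ZMod 2) ((Fin k ⊕ Fin k) ⊕ Fin 2 → ZMod 2) = 2 * k + 2 := by
      simp [Module.finrank_fintype_fun_eq_card]; ring
    have hb := iso_bound _ hnd U hiso
    by_contra hlt
    have heq : 2 * Module.finrank (ZMod 2) U =
        Module.finrank (ZMod 2) ((Fin k ⊕ Fin k) ⊕ Fin 2 → ZMod 2) := by omega
    have hmax := iso_max _ hnd U hiso heq
    have hS := charsum (Cfsg.quadFormMinus k (ZMod 2) 1 1) (Matrix.toBilin' (G1 (ZMod 2) k 1 1))
      (fun u v => by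
        rw [← polar_minus]
        simp [QuadraticMap.polar]) U hU hmax
    rw [charsum_count] at hS
    have hminus : Nat.card {w : (Fin k ⊕ Fin k) ⊕ Fin 2 → ZMod 2 //
          Cfsg.quadFormMinus k (ZMod 2) 1 1 w = 0} =
        Nat.card {p : ((Fin k → ZMod 2) × (Fin k → ZMod 2)) × (Fin 2 → ZMod 2) //
          p.1.1 ⬝ᵥ p.1.2 + (fun z : Fin 2 → ZMod 2 => z 0 ^ 2 + 1 * z 0 * z 1 + 1 * z 1 ^ 2) p.2 = 0} := by
      apply Nat.card_congr
      refine Equiv.subtypeEquiv ((Equiv.sumArrowEquivProdArrow _ _ _).trans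
        (Equiv.prodCongr (Equiv.sumArrowEquivProdArrow _ _ _) (Equiv.refl _))) ?_
      intro v
      rfl
    have hZ2 : Nat.card {z : Fin 2 → ZMod 2 //
        (fun z : Fin 2 → ZMod 2 => z 0 ^ 2 + 1 * z 0 * z 1 + 1 * z 1 ^ 2) z = 0} = 1 := by
      rw [Nat.card_eq_one_iff_unique]
      refine ⟨⟨?_⟩, ⟨⟨0, by simp⟩⟩⟩
      have hz : ∀ z : Fin 2 → ZMod 2, z 0 ^ 2 + 1 * z 0 * z 1 + 1 * z 1 ^ 2 = 0 → z = 0 := by
        intro z hz
        have h01 : z 0 = 0 ∧ z 1 = 0 := by
          generalize z 0 = a at hz ⊢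
          generalize z 1 = b at hz ⊢
          revert a b; decide
        funext i
        fin_cases i
        · exact h01.1
        · exact h01.2
      rintro ⟨a, ha⟩ ⟨b, hb⟩
      apply Subtype.ext
      exact (hz a ha).trans (hz b hb).symm
    have c2 := count_zeros (F := ZMod 2) (k := k)
      (fun z : Fin 2 → ZMod 2 => z 0 ^ 2 + 1 * z 0 * z 1 + 1 * z 1 ^ 2)
    rw [hZ2, ← hminus] at c2
    simp only [ZMod.card, mul_one, Fintype.card_pi, Finset.prod_const, Finset.card_univ,
      Fintype.card_fin] at c2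
    have hV : Fintype.card ((Fin k ⊕ Fin k) ⊕ Fin 2 → ZMod 2) = 4 * 2 ^ k * 2 ^ k := by
      simp only [Fintype.card_pi, Finset.prod_const, Finset.card_univ, Fintype.card_sum,
        Fintype.card_fin, ZMod.card]
      ring
    rw [hV] at hS
    obtain ⟨a, ha⟩ : ∃ a, 2 ^ k = a + 1 := ⟨2 ^ k - 1, by have := Nat.one_le_two_pow (n := k); omega⟩
    have e1 : 2 ^ (k + 1) = 2 * 2 ^ k := by ring
    rw [e1, ha, Nat.add_sub_cancel] at c2
    rw [ha] at hS
    have c2' : (Nat.card {w : (Fin k ⊕ Fin k) ⊕ Fin 2 → ZMod 2 //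
          Cfsg.quadFormMinus k (ZMod 2) 1 1 w = 0} : ℤ) * 2 = 2 * (a + 1) + a * (a + 1) * 2 ^ 2 := by
      exact_mod_cast c2
    have hnn : (0 : ℤ) ≤ Nat.card U := Int.natCast_nonneg _
    push_cast at hS
    nlinarith

end Cfsg.Agent.S2562
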