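import Cfsg.Statements.S2567
import Mathlib

set_option autoImplicit false
open Cfsg

namespace Cfsg.Agent.S2567

theorem result {F : Type*} [Field F] [Fintype F] {q n r : ℕ} (hF : Fintype.card F = q) (hr : r.Prime) (hdiv : ¬ r ∣ q - 1) (x : GL (Fin n) F ⧸ Subgroup.center (GL (Fin n) F)) (hx : orderOf x = r) : ∃! g : GL (Fin n) F, (QuotientGroup.mk g : GL (Fin n) F ⧸ Subgroup.center (GL (Fin n) F)) = x ∧ orderOf g = r := by
  classical
  subst hF
  have hz : ∀ z ∈ Subgroup.center (GL (Fin n) F), z ^ (Fintype.card F - 1) = 1 := by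
    intro z hz
    rw [Matrix.GeneralLinearGroup.center_eq_range_scalar] at hz
    obtain ⟨a, rfl⟩ := hz
    rw [← map_pow]
    have : a ^ (Fintype.card F - 1) = 1 := by
      rw [← Fintype.card_units]; exact pow_card_eq_one
    rw [this, map_one]
  have hcop : Nat.gcd r (Fintype.card F - 1) = 1 := (Nat.Prime.coprime_iff_not_dvd hr).mpr hdiv
  have hz1 : ∀ z ∈ Subgroup.center (GL (Fin n) F), z ^ r = 1 → z = 1 := by
    intro z hzc hzr
    have h1 : orderOf z ∣ r := orderOf_dvd_of_pow_eq_one hzr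
    have h2 : orderOf z ∣ Fintype.card F - 1 := orderOf_dvd_of_pow_eq_one (hz z hzc)
    have h3 : orderOf z ∣ 1 := by
      rw [← hcop]
      exact Nat.dvd_gcd h1 h2
    exact orderOf_eq_one_iff.mp (Nat.dvd_one.mp h3)
  have hroot : ∀ z ∈ Subgroup.center (GL (Fin n) F), ∃ w ∈ Subgroup.center (GL (Fin n) F), w ^ r = z := by
    intro z hzc
    refine ⟨z ^ (Nat.gcdA r (Fintype.card F - 1)), Subgroup.zpow_mem _ hzc _, ?_⟩
    have hb := Nat.gcd_eq_gcd_ab r (Fintype.card F - 1)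
    rw [hcop] at hb
    have h1 : z ^ (((Fintype.card F - 1 : ℕ) : ℤ) * Nat.gcdB r (Fintype.card F - 1)) = 1 := by
      rw [zpow_mul, zpow_natCast, hz z hzc, one_zpow]
    calc (z ^ (Nat.gcdA r (Fintype.card F - 1))) ^ r
        = z ^ ((r : ℤ) * Nat.gcdA r (Fintype.card F - 1)) := by
          rw [← zpow_natCast, ← zpow_mul, mul_comm]
      _ = z ^ ((r : ℤ) * Nat.gcdA r (Fintype.card F - 1)) *
            z ^ (((Fintype.card F - 1 : ℕ) : ℤ) * Nat.gcdB r (Fintype.card F - 1)) := by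
          rw [h1, mul_one]
      _ = z ^ ((1 : ℕ) : ℤ) := by rw [← zpow_add, ← hb]
      _ = z := by simp
  obtain ⟨g0, rfl⟩ := QuotientGroup.mk_surjective x
  have hg0 : g0 ^ r ∈ Subgroup.center (GL (Fin n) F) := by
    rw [← QuotientGroup.eq_one_iff, QuotientGroup.mk_pow, ← hx]; exact pow_orderOf_eq_one _
  obtain ⟨w, hwc, hw⟩ := hroot (g0 ^ r)⁻¹ (Subgroup.inv_mem _ hg0)
  have hcomm : Commute g0 w := (Subgroup.mem_center_iff.mp hwc g0)
  have hmk : (QuotientGroup.mk (g0 * w) : GL (Fin n) F ⧸ Subgroup.center (GL (Fin n) F)) = QuotientGroup.mk g0 := by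
    rw [QuotientGroup.mk_mul, (QuotientGroup.eq_one_iff w).mpr hwc, mul_one]
  have hpow : (g0 * w) ^ r = 1 := by rw [hcomm.mul_pow, hw, mul_inv_cancel]
  refine ⟨g0 * w, ⟨hmk, ?_⟩, ?_⟩
  · have hdvd := orderOf_dvd_of_pow_eq_one hpow
    rcases (Nat.dvd_prime hr).mp hdvd with h | h
    · exfalso
      have h1 : g0 * w = 1 := orderOf_eq_one_iff.mp h
      rw [h1] at hmk
      rw [← hmk, QuotientGroup.mk_one, orderOf_one] at hx
      exact hr.one_lt.ne hx
    · exact h
  · rintro g' ⟨hg'1, hg'2⟩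
    have hzc : (g0 * w)⁻¹ * g' ∈ Subgroup.center (GL (Fin n) F) := by
      rw [← QuotientGroup.eq_one_iff, QuotientGroup.mk_mul, QuotientGroup.mk_inv, hg'1, hmk,
        inv_mul_cancel]
    have hg'r : g' ^ r = 1 := by rw [← hg'2]; exact pow_orderOf_eq_one _
    have hc : Commute (g0 * w) ((g0 * w)⁻¹ * g') := (Subgroup.mem_center_iff.mp hzc (g0 * w))
    have hzr : ((g0 * w)⁻¹ * g') ^ r = 1 := by
      have h1 : ((g0 * w) * ((g0 * w)⁻¹ * g')) ^ r = 1 := by
        rw [mul_inv_cancel_left]; exact hg'r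
      rw [hc.mul_pow, hpow, one_mul] at h1
      exact h1
    have := hz1 _ hzc hzr
    exact (inv_mul_eq_one.mp this).symm

end Cfsg.Agent.S2567
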