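import Cfsg.Statements.S2568
import Cfsg.Agent.S2387

set_option autoImplicit false
open Cfsg

set_option maxHeartbeats 1000000
namespace Cfsg.Agent.S2568

open Polynomial UniqueFactorizationMonoid

theorem card_le_sum {α : Type*} [Fintype α] [DecidableEq α] (N : ℕ) :
    Nat.card {a : α → ℕ // ∑ x, a x ≤ N} = (N + Fintype.card α).choose (Fintype.card α) := by
  classical
  let e : {a : α → ℕ // ∑ x, a x ≤ N} ≃ {b : Option α → ℕ // ∑ o, b o = N} :=
    { toFun := fun a => ⟨fun o => Option.elim o (N - ∑ x, a.1 x) a.1, by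
        rw [Fintype.sum_option]
        have := a.2
        simp only [Option.elim]
        omega⟩
      invFun := fun b => ⟨fun x => b.1 (some x), by
        have := b.2
        rw [Fintype.sum_option] at this
        show ∑ x, b.1 (some x) ≤ N
        omega⟩
      left_inv := fun a => Subtype.ext (funext fun x => rfl)
      right_inv := fun b => by
        apply Subtype.ext
        funext o
        cases o with
        | none =>
          have := b.2
          rw [Fintype.sum_option] at this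
          simp only [Option.elim]
          omega
        | some x => rfl }
  rw [Nat.card_congr e, Nat.card_congr (Sym.equivNatSumOfFintype (Option α) N).symm,
    Nat.card_eq_fintype_card, Sym.card_sym_eq_choose, Fintype.card_option]
  have h1 : Fintype.card α + 1 + N - 1 = Fintype.card α + N := by omega
  rw [h1, add_comm N, Nat.choose_symm_add]

theorem card_le_sum_ne {α : Type*} [Fintype α] [DecidableEq α] (N : ℕ) :
    Nat.card {a : α → ℕ // ∑ x, a x ≤ N ∧ a ≠ 0} =
      (N + Fintype.card α).choose (Fintype.card α) - 1 := by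
  classical
  have h1 := card_le_sum (α := α) N
  have h2 : {a : α → ℕ | ∑ x, a x ≤ N ∧ a ≠ 0} = {a : α → ℕ | ∑ x, a x ≤ N} \ {0} := by
    ext a
    simp
  have h3 : (0 : α → ℕ) ∈ {a : α → ℕ | ∑ x, a x ≤ N} := by
    simp
  have h4 := Set.ncard_diff_singleton_of_mem h3
  rw [← h2] at h4
  rw [← h1]
  exact h4

theorem monic_irr_dvd_eq {F : Type*} [Field F] {P Q : F[X]} (hP : P.Monic) (hPi : Irreducible P)
    (hQ : Q.Monic) (hQi : Irreducible Q) (h : P ∣ Q) : P = Q := by
  obtain ⟨u, hu⟩ := h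
  rcases hQi.isUnit_or_isUnit hu with h1 | h1
  · exact absurd h1 hPi.not_isUnit
  · have h2 : Q.natDegree ≤ P.natDegree := by
      rw [hu, Polynomial.natDegree_mul hPi.ne_zero h1.ne_zero,
        Polynomial.natDegree_eq_zero_of_isUnit h1]
      omega
    exact (Polynomial.eq_of_monic_of_dvd_of_natDegree_le hP hQ ⟨u, hu⟩ h2).symm

theorem sq_dvd {F : Type*} [Field F] (m Q : F[X]) (hm0 : m ≠ 0) (hsq : Squarefree m)
    (h : ∀ P, Irreducible P → P.Monic → P ∣ m → P ∣ Q) : m ∣ Q := by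
  classical
  obtain ⟨e, he⟩ := EuclideanDomain.gcd_dvd_left m Q
  have he0 : e ≠ 0 := by
    rintro rfl
    rw [mul_zero] at he
    exact hm0 he
  have heu : IsUnit e := by
    by_contra hnu
    obtain ⟨P, hPmon, hPirr, hPe⟩ := Polynomial.exists_monic_irreducible_factor e hnu
    have hPm : P ∣ m := by
      rw [he]
      exact hPe.mul_left _
    have hPQ := h P hPirr hPmon hPm
    have hPd : P ∣ EuclideanDomain.gcd m Q := EuclideanDomain.dvd_gcd hPm hPQ
    have hPP : P * P ∣ m := by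
      rw [he]
      exact mul_dvd_mul hPd hPe
    exact hPirr.not_isUnit (hsq P hPP)
  obtain ⟨u, hu⟩ := heu
  have h2 : m ∣ EuclideanDomain.gcd m Q := by
    refine ⟨((u⁻¹ : F[X]ˣ) : F[X]), ?_⟩
    conv_rhs => rw [he]
    rw [← hu, mul_assoc, Units.mul_inv, mul_one]
  exact h2.trans (EuclideanDomain.gcd_dvd_right m Q)

/-- The polynomial with prescribed multiplicities. -/
noncomputable def Gp {F : Type*} [Field F] (Fac : Finset F[X]) (b : ℕ) (a : ↥Fac → ℕ) : F[X] :=
  (X - C 1) ^ b * ∏ P : ↥Fac, (P : F[X]) ^ a P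

/-- Its multiset of irreducible factors. -/
noncomputable def Mo {F : Type*} [Field F] (Fac : Finset F[X]) (b : ℕ) (a : ↥Fac → ℕ) :
    Multiset F[X] :=
  Multiset.replicate b (X - C 1) + ∑ P : ↥Fac, Multiset.replicate (a P) (P : F[X])

theorem Mo_prod {F : Type*} [Field F] (Fac : Finset F[X]) (b : ℕ) (a : ↥Fac → ℕ) :
    (Mo Fac b a).prod = Gp Fac b a := by
  rw [Mo, Gp, Multiset.prod_add, Multiset.prod_replicate, Multiset.prod_sum]
  congr 1
  apply Finset.prod_congr rfl
  intro P _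
  rw [Multiset.prod_replicate]

theorem Mo_count {F : Type*} [Field F] [DecidableEq F[X]] (Fac : Finset F[X]) (b : ℕ)
    (a : ↥Fac → ℕ) (Q : F[X]) :
    Multiset.count Q (Mo Fac b a) = (if X - C 1 = Q then b else 0) +
      ∑ P : ↥Fac, (if (P : F[X]) = Q then a P else 0) := by
  rw [Mo, Multiset.count_add, Multiset.count_replicate, Multiset.count_sum']
  congr 1
  apply Finset.sum_congr rfl
  intro P _
  rw [Multiset.count_replicate]

theorem Mo_count_fac {F : Type*} [Field F] [DecidableEq F[X]] (Fac : Finset F[X])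
    (hL : (X - C 1 : F[X]) ∉ Fac) (b : ℕ) (a : ↥Fac → ℕ) (P₀ : ↥Fac) :
    Multiset.count (P₀ : F[X]) (Mo Fac b a) = a P₀ := by
  rw [Mo_count, if_neg (by intro h; exact hL (h ▸ P₀.2)), zero_add, Finset.sum_eq_single P₀]
  · rw [if_pos rfl]
  · intro P _ hne
    rw [if_neg]
    intro h
    exact hne (Subtype.ext h)
  · intro h
    exact absurd (Finset.mem_univ _) h

theorem Mo_mem {F : Type*} [Field F] (Fac : Finset F[X])
    (hFac : ∀ P ∈ Fac, Irreducible P ∧ P.Monic) (b : ℕ) (a : ↥Fac → ℕ) (Q : F[X])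
    (hQ : Q ∈ Mo Fac b a) : Irreducible Q ∧ Q.Monic := by
  rw [Mo, Multiset.mem_add] at hQ
  rcases hQ with h | h
  · rw [Multiset.eq_of_mem_replicate h]
    exact ⟨irreducible_X_sub_C 1, monic_X_sub_C 1⟩
  · rw [Multiset.mem_sum] at h
    obtain ⟨P, _, hP⟩ := h
    rw [Multiset.eq_of_mem_replicate hP]
    exact hFac P P.2

theorem Gp_monic {F : Type*} [Field F] (Fac : Finset F[X])
    (hFac : ∀ P ∈ Fac, Irreducible P ∧ P.Monic) (b : ℕ) (a : ↥Fac → ℕ) : (Gp Fac b a).Monic := by
  rw [Gp]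
  exact ((monic_X_sub_C (1 : F)).pow b).mul
    (monic_prod_of_monic _ _ (fun P _ => ((hFac P P.2).2).pow _))

theorem Gp_natDegree {F : Type*} [Field F] (Fac : Finset F[X]) (i : ℕ)
    (hFac : ∀ P ∈ Fac, Irreducible P ∧ P.Monic) (hdeg : ∀ P ∈ Fac, P.natDegree = i)
    (b : ℕ) (a : ↥Fac → ℕ) : (Gp Fac b a).natDegree = b + i * ∑ P, a P := by
  rw [Gp, Monic.natDegree_mul ((monic_X_sub_C (1 : F)).pow b)
    (monic_prod_of_monic Finset.univ (fun P : ↥Fac => (P : F[X]) ^ a P)
      (fun P _ => ((hFac P P.2).2).pow _)),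
    (monic_X_sub_C (1 : F)).natDegree_pow, natDegree_X_sub_C, mul_one,
    natDegree_prod_of_monic Finset.univ (fun P : ↥Fac => (P : F[X]) ^ a P)
      (fun P _ => ((hFac P P.2).2).pow _), Finset.mul_sum]
  congr 1
  apply Finset.sum_congr rfl
  intro P _
  rw [((hFac P P.2).2).natDegree_pow, hdeg P P.2, mul_comm]

theorem card_admissible {F : Type*} [Field F] (Fac : Finset F[X]) (i n : ℕ)
    (hFac : ∀ P ∈ Fac, Irreducible P ∧ P.Monic) (hdeg : ∀ P ∈ Fac, P.natDegree = i)
    (hL : (X - C 1 : F[X]) ∉ Fac) :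
    Nat.card {f : F[X] // f.Monic ∧ f.natDegree = n ∧
      (∀ P, Irreducible P → P.Monic → P ∣ f → P = X - C 1 ∨ P ∈ Fac) ∧ f ≠ (X - C 1) ^ n} =
    Nat.card {a : ↥Fac → ℕ // i * ∑ P, a P ≤ n ∧ a ≠ 0} := by
  classical
  have hLmon : (X - C 1 : F[X]).Monic := monic_X_sub_C 1
  have hLirr : Irreducible (X - C 1 : F[X]) := irreducible_X_sub_C 1
  have hMnf : ∀ b a, normalizedFactors (Gp Fac b a) = Mo Fac b a := by
    intro b a
    rw [← Mo_prod, normalizedFactors_prod_eq _ (fun Q hQ => (Mo_mem Fac hFac b a Q hQ).1)]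
    conv_rhs => rw [← Multiset.map_id (Mo Fac b a)]
    apply Multiset.map_congr rfl
    intro Q hQ
    exact (Mo_mem Fac hFac b a Q hQ).2.normalize_eq_self
  have hGfac : ∀ b a P, Irreducible P → P.Monic → P ∣ Gp Fac b a → P = X - C 1 ∨ P ∈ Fac := by
    intro b a P hPirr hPmon hdvd
    rw [Gp] at hdvd
    rcases hPirr.prime.dvd_or_dvd hdvd with h | h
    · left
      exact monic_irr_dvd_eq hPmon hPirr hLmon hLirr (hPirr.prime.dvd_of_dvd_pow h)
    · right
      obtain ⟨Q, _, hQ⟩ := (Prime.dvd_finsetProd_iff hPirr.prime _).mp h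
      have h1 := monic_irr_dvd_eq hPmon hPirr (hFac Q Q.2).2 (hFac Q Q.2).1
        (hPirr.prime.dvd_of_dvd_pow hQ)
      rw [h1]
      exact Q.2
  have hGne : ∀ a : ↥Fac → ℕ, a ≠ 0 → ∀ b, Gp Fac b a ≠ (X - C 1) ^ n := by
    intro a ha b heq
    obtain ⟨Q₀, hQ₀⟩ : ∃ Q₀, a Q₀ ≠ 0 := by
      by_contra hcon
      push_neg at hcon
      exact ha (funext hcon)
    have h1 : (Q₀ : F[X]) ∣ Gp Fac b a := by
      rw [Gp]
      apply Dvd.dvd.mul_left
      exact (dvd_pow_self _ hQ₀).trans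
        (Finset.dvd_prod_of_mem (fun P : ↥Fac => (P : F[X]) ^ a P) (Finset.mem_univ Q₀))
    rw [heq] at h1
    have h2 := monic_irr_dvd_eq (hFac Q₀ Q₀.2).2 (hFac Q₀ Q₀.2).1 hLmon hLirr
      ((hFac Q₀ Q₀.2).1.prime.dvd_of_dvd_pow h1)
    exact hL (h2 ▸ Q₀.2)
  let G : {a : ↥Fac → ℕ // i * ∑ P, a P ≤ n ∧ a ≠ 0} → {f : F[X] // f.Monic ∧ f.natDegree = n ∧
      (∀ P, Irreducible P → P.Monic → P ∣ f → P = X - C 1 ∨ P ∈ Fac) ∧ f ≠ (X - C 1) ^ n} :=
    fun a => ⟨Gp Fac (n - i * ∑ P, a.1 P) a.1, Gp_monic Fac hFac _ _, by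
      rw [Gp_natDegree Fac i hFac hdeg]
      have := a.2.1
      omega, hGfac _ _, hGne a.1 a.2.2 _⟩
  have hG : ∀ a, (G a).1 = Gp Fac (n - i * ∑ P, a.1 P) a.1 := fun a => rfl
  symm
  apply Nat.card_congr
  refine Equiv.ofBijective G ⟨?_, ?_⟩
  · intro a a' h
    have h1 := congrArg Subtype.val h
    rw [hG, hG] at h1
    have h2 := congrArg normalizedFactors h1
    rw [hMnf, hMnf] at h2
    apply Subtype.ext
    funext P₀
    have h3 := congrArg (Multiset.count (P₀ : F[X])) h2
    rw [Mo_count_fac Fac hL, Mo_count_fac Fac hL] at h3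
    exact h3
  · intro f
    obtain ⟨hfmon, hfdeg, hffac, hfne⟩ := f.2
    have hf0 : f.1 ≠ 0 := hfmon.ne_zero
    have hNmem : ∀ Q ∈ normalizedFactors f.1, Irreducible Q ∧ Q.Monic ∧
        (Q = X - C 1 ∨ Q ∈ Fac) := by
      intro Q hQ
      have h1 := irreducible_of_normalized_factor Q hQ
      have h2 : Q.Monic := by
        rw [← normalize_normalized_factor Q hQ]
        exact monic_normalize h1.ne_zero
      exact ⟨h1, h2, hffac Q h1 h2 (dvd_of_mem_normalizedFactors hQ)⟩
    obtain ⟨a, ha⟩ : ∃ a : ↥Fac → ℕ, ∀ P : ↥Fac, a P =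
        Multiset.count (P : F[X]) (normalizedFactors f.1) := ⟨_, fun P => rfl⟩
    have hNeq : normalizedFactors f.1 =
        Mo Fac (Multiset.count (X - C 1) (normalizedFactors f.1)) a := by
      ext Q
      rw [Mo_count]
      by_cases hQL : X - C 1 = Q
      · subst hQL
        rw [if_pos rfl, Finset.sum_eq_zero, add_zero]
        intro P _
        rw [if_neg]
        intro h
        apply hL
        rw [← h]
        exact P.2
      · rw [if_neg hQL, zero_add]
        by_cases hQF : Q ∈ Fac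
        · rw [Finset.sum_eq_single (⟨Q, hQF⟩ : ↥Fac)]
          · rw [if_pos rfl, ha]
          · intro P _ hne
            rw [if_neg]
            intro h
            exact hne (Subtype.ext h)
          · intro h
            exact absurd (Finset.mem_univ _) h
        · rw [Finset.sum_eq_zero]
          · rw [Multiset.count_eq_zero]
            intro hQ
            rcases (hNmem Q hQ).2.2 with h | h
            · exact hQL h.symm
            · exact hQF h
          · intro P _
            rw [if_neg]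
            intro h
            apply hQF
            rw [← h]
            exact P.2
    have hfprod : f.1 = Gp Fac (Multiset.count (X - C 1) (normalizedFactors f.1)) a := by
      rw [← Mo_prod, ← hNeq]
      have h1 : (normalizedFactors f.1).prod.Monic := by
        have h2 := monic_multiset_prod_of_monic (normalizedFactors f.1) id
          (fun Q hQ => (hNmem Q hQ).2.1)
        rw [Multiset.map_id] at h2
        exact h2
      exact (eq_of_monic_of_associated h1 hfmon (prod_normalizedFactors hf0)).symm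
    have hdegf := Gp_natDegree Fac i hFac hdeg
      (Multiset.count (X - C 1) (normalizedFactors f.1)) a
    rw [← hfprod, hfdeg] at hdegf
    have ha0 : a ≠ 0 := by
      rintro rfl
      apply hfne
      rw [hfprod, Gp]
      simp only [Pi.zero_apply, pow_zero, Finset.prod_const_one, mul_one]
      congr 1
      simp only [Pi.zero_apply, Finset.sum_const_zero, mul_zero, add_zero] at hdegf
      exact hdegf.symm
    refine ⟨⟨a, by omega, ha0⟩, ?_⟩
    apply Subtype.ext
    rw [hG]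
    conv_rhs => rw [hfprod]
    congr 1
    show n - i * ∑ P, a P = _
    omega

theorem cyc_factors {F : Type*} [Field F] [Fintype F] {p q : ℕ} [Fact p.Prime] [CharP F p]
    (hF : Fintype.card F = q) (r i t : ℕ) (hr : r.Prime) (hrp : r ≠ p)
    (hi : i = orderOf (q : ZMod r)) (ht : t * i = r - 1) :
    ∃ Fac : Finset F[X], (∀ P ∈ Fac, Irreducible P ∧ P.Monic) ∧ (∀ P ∈ Fac, P.natDegree = i) ∧
      (∀ P ∈ Fac, P ∣ cyclotomic r F) ∧
      (∀ P, Irreducible P → P.Monic → P ∣ cyclotomic r F → P ∈ Fac) ∧ Fac.card = t ∧ 0 < i := by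
  letI : DecidableEq F := Classical.decEq F
  haveI : Fact r.Prime := ⟨hr⟩
  obtain ⟨k, -, hk⟩ := FiniteField.card F p
  have hcop : p.Coprime r := (Nat.coprime_primes (Fact.out) hr).mpr (Ne.symm hrp)
  have hdeg : orderOf (ZMod.unitOfCoprime (p ^ (k : ℕ)) (hcop.pow_left k)) = i := by
    rw [hi, ← orderOf_units, ZMod.coe_unitOfCoprime, ← hk, hF]
  have hipos : 0 < i := by
    rw [← hdeg]
    exact orderOf_pos _
  refine ⟨(normalizedFactors (cyclotomic r F)).toFinset, ?_, ?_, ?_, ?_, ?_, hipos⟩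
  · intro P hP
    rw [Multiset.mem_toFinset] at hP
    have h1 := irreducible_of_normalized_factor P hP
    refine ⟨h1, ?_⟩
    rw [← normalize_normalized_factor P hP]
    exact monic_normalize h1.ne_zero
  · intro P hP
    rw [Multiset.mem_toFinset] at hP
    rw [← hdeg]
    exact natDegree_of_mem_normalizedFactors_cyclotomic hk hcop hP
  · intro P hP
    rw [Multiset.mem_toFinset] at hP
    exact dvd_of_mem_normalizedFactors hP
  · intro P hPirr hPmon hPdvd
    rw [Multiset.mem_toFinset, mem_normalizedFactors_iff' (cyclotomic_ne_zero r F)]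
    exact ⟨hPirr, hPmon.normalize_eq_self, hPdvd⟩
  · rw [normalizedFactors_cyclotomic_card hk hcop, Nat.totient_prime hr, hdeg, ← ht]
    exact Nat.mul_div_cancel t hipos

theorem order_r_charpoly {F : Type*} [Field F] [Fintype F] {p : ℕ} [Fact p.Prime] [CharP F p]
    (n r : ℕ) (hr : r.Prime) (hrp : r ≠ p) (Fac : Finset F[X])
    (hFac2 : ∀ P, Irreducible P → P.Monic → P ∣ cyclotomic r F → P ∈ Fac)
    (g : GL (Fin n) F) (hg : orderOf g = r) :
    (g : Matrix (Fin n) (Fin n) F).charpoly.Monic ∧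
    (g : Matrix (Fin n) (Fin n) F).charpoly.natDegree = n ∧
    (∀ P, Irreducible P → P.Monic → P ∣ (g : Matrix (Fin n) (Fin n) F).charpoly →
      P = X - C 1 ∨ P ∈ Fac) ∧ (g : Matrix (Fin n) (Fin n) F).charpoly ≠ (X - C 1) ^ n := by
  classical
  haveI : Fact r.Prime := ⟨hr⟩
  have hcop : (orderOf g).Coprime p := by
    rw [hg]
    exact (Nat.coprime_primes hr (Fact.out)).mpr hrp
  have hss := Cfsg.Agent.S2388.toLin_semisimple g hcop
  have hyr : (Matrix.toLin' (g : Matrix (Fin n) (Fin n) F)) ^ r = 1 := by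
    rw [← Matrix.toLin'_pow, ← Units.val_pow_eq_pow_val, ← hg, pow_orderOf_eq_one, Units.val_one,
      Matrix.toLin'_one]
    rfl
  have haev : aeval (Matrix.toLin' (g : Matrix (Fin n) (Fin n) F)) (X ^ r - 1 : F[X]) = 0 := by
    rw [map_sub, map_pow, aeval_X, map_one, hyr, sub_self]
  have hcyc : cyclotomic r F * (X - C 1) = X ^ r - 1 := by
    rw [map_one]
    exact cyclotomic_prime_mul_X_sub_one F r
  refine ⟨Matrix.charpoly_monic _, ?_, ?_, ?_⟩
  · rw [Matrix.charpoly_natDegree_eq_dim, Fintype.card_fin]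
  · intro P hPirr hPmon hPdvd
    obtain ⟨v, hv0, hPv⟩ := Cfsg.Agent.S2388.exists_torsion P hPirr _ (Fin n → F)
      (Matrix.toLin' (g : Matrix (Fin n) (Fin n) F)) rfl hss
      (by rw [Matrix.charpoly_toLin']; exact hPdvd)
    have hPdvd2 : P ∣ X ^ r - 1 := by
      by_contra hnd
      obtain ⟨A, B, hAB⟩ := (hPirr.coprime_iff_not_dvd).mpr hnd
      have h1 : aeval (Matrix.toLin' (g : Matrix (Fin n) (Fin n) F))
          (A * P + B * (X ^ r - 1)) v = v := by
        rw [hAB, map_one, Module.End.one_apply]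
      rw [map_add, map_mul, map_mul, haev, mul_zero, add_zero, Module.End.mul_apply, hPv,
        map_zero] at h1
      exact hv0 h1.symm
    rw [← hcyc] at hPdvd2
    rcases hPirr.prime.dvd_or_dvd hPdvd2 with h | h
    · right
      exact hFac2 P hPirr hPmon h
    · left
      exact monic_irr_dvd_eq hPmon hPirr (monic_X_sub_C 1) (irreducible_X_sub_C 1) h
  · intro heq
    have hg1 : g = 1 := by
      rcases Nat.eq_zero_or_pos n with hn0 | hnpos
      · subst hn0
        apply Units.ext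
        exact Subsingleton.elim _ _
      · have hm := hss.minpoly_squarefree
        have h1 : minpoly F (Matrix.toLin' (g : Matrix (Fin n) (Fin n) F)) ∣ (X - C 1) ^ n := by
          rw [← heq, ← Matrix.charpoly_toLin']
          exact LinearMap.minpoly_dvd_charpoly _
        have h2 := (hm.dvd_pow_iff_dvd hnpos.ne').mp h1
        have h3 := (minpoly.dvd_iff).mp h2
        rw [map_sub, aeval_X, aeval_C, map_one, sub_eq_zero] at h3
        apply Units.ext
        apply Matrix.toLin'.injective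
        rw [h3, Units.val_one, Matrix.toLin'_one]
        rfl
    rw [hg1, orderOf_one] at hg
    exact hr.one_lt.ne hg

theorem exists_order_r {F : Type*} [Field F] [Fintype F] {p : ℕ} [Fact p.Prime] [CharP F p]
    (n r : ℕ) (hr : r.Prime) (hrp : r ≠ p) (Fac : Finset F[X])
    (hFac1 : ∀ P ∈ Fac, P ∣ cyclotomic r F) (f : F[X]) (hmon : f.Monic) (hdeg : f.natDegree = n)
    (hfac : ∀ P, Irreducible P → P.Monic → P ∣ f → P = X - C 1 ∨ P ∈ Fac)
    (hne : f ≠ (X - C 1) ^ n) :
    ∃ g : GL (Fin n) F, (g : Matrix (Fin n) (Fin n) F).charpoly = f ∧ orderOf g = r := by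
  classical
  haveI : Fact r.Prime := ⟨hr⟩
  have hcyc : cyclotomic r F * (X - C 1) = X ^ r - 1 := by
    rw [map_one]
    exact cyclotomic_prime_mul_X_sub_one F r
  have hdvdX : ∀ P, Irreducible P → P.Monic → P ∣ f → P ∣ X ^ r - 1 := by
    intro P hPirr hPmon hPf
    rcases hfac P hPirr hPmon hPf with h | h
    · rw [h, ← hcyc]
      exact Dvd.intro_left _ rfl
    · rw [← hcyc]
      exact (hFac1 P h).mul_right _
  have hf0 : f.coeff 0 ≠ 0 := by
    intro h
    have h1 : (X : F[X]) ∣ f := X_dvd_iff.mpr h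
    have h2 := hdvdX X irreducible_X monic_X h1
    rw [X_dvd_iff, coeff_sub, coeff_X_pow, if_neg hr.ne_zero.symm, coeff_one_zero] at h2
    norm_num at h2
  obtain ⟨g₀, hχ, hcop⟩ := Cfsg.Agent.S2387.exists_gl (p := p) n f hmon hdeg hf0
  have hss := Cfsg.Agent.S2388.toLin_semisimple g₀ hcop
  have hmdvd : minpoly F (Matrix.toLin' (g₀ : Matrix (Fin n) (Fin n) F)) ∣ X ^ r - 1 := by
    apply sq_dvd _ _ (minpoly.ne_zero (IsIntegral.of_finite F _)) hss.minpoly_squarefree
    intro P hPirr hPmon hPm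
    apply hdvdX P hPirr hPmon
    rw [← hχ, ← Matrix.charpoly_toLin']
    exact hPm.trans (LinearMap.minpoly_dvd_charpoly _)
  have h1 := (minpoly.dvd_iff).mp hmdvd
  rw [map_sub, map_pow, aeval_X, map_one, sub_eq_zero] at h1
  have hg₀r : g₀ ^ r = 1 := by
    apply Units.ext
    apply Matrix.toLin'.injective
    rw [Units.val_pow_eq_pow_val, Matrix.toLin'_pow, h1, Units.val_one, Matrix.toLin'_one]
    rfl
  have hg₀1 : g₀ ≠ 1 := by
    rintro rfl
    apply hne
    rw [← hχ, Units.val_one, Matrix.charpoly_one, Fintype.card_fin, map_one]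
  exact ⟨g₀, hχ, orderOf_eq_prime hg₀r hg₀1⟩

theorem classes_card {F : Type*} [Field F] [Fintype F] {p : ℕ} [Fact p.Prime] [CharP F p]
    (n r : ℕ) (hr : r.Prime) (hrp : r ≠ p) (Fac : Finset F[X])
    (hFac1 : ∀ P ∈ Fac, P ∣ cyclotomic r F)
    (hFac2 : ∀ P, Irreducible P → P.Monic → P ∣ cyclotomic r F → P ∈ Fac) :
    Nat.card {C : ConjClasses (GL (Fin n) F) // ∃ g : GL (Fin n) F, ConjClasses.mk g = C ∧
      orderOf g = r} = Nat.card {f : F[X] // f.Monic ∧ f.natDegree = n ∧
      (∀ P, Irreducible P → P.Monic → P ∣ f → P = X - C 1 ∨ P ∈ Fac) ∧ f ≠ (X - C 1) ^ n} := by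
  classical
  have hcopr : r.Coprime p := (Nat.coprime_primes hr (Fact.out)).mpr hrp
  let Ψ : {C : ConjClasses (GL (Fin n) F) // ∃ g : GL (Fin n) F, ConjClasses.mk g = C ∧
      orderOf g = r} → {f : F[X] // f.Monic ∧ f.natDegree = n ∧
      (∀ P, Irreducible P → P.Monic → P ∣ f → P = X - C 1 ∨ P ∈ Fac) ∧ f ≠ (X - C 1) ^ n} :=
    fun c => ⟨((Classical.choose c.2 : GL (Fin n) F) : Matrix (Fin n) (Fin n) F).charpoly,
      order_r_charpoly n r hr hrp Fac hFac2 _ (Classical.choose_spec c.2).2⟩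
  have hΨ : ∀ c, (Ψ c).1 = ((Classical.choose c.2 : GL (Fin n) F) :
      Matrix (Fin n) (Fin n) F).charpoly := fun c => rfl
  apply Nat.card_congr
  refine Equiv.ofBijective Ψ ⟨?_, ?_⟩
  · intro c c' h
    have h1 := congrArg Subtype.val h
    rw [hΨ, hΨ] at h1
    obtain ⟨hc1, hc2⟩ := Classical.choose_spec c.2
    obtain ⟨hc1', hc2'⟩ := Classical.choose_spec c'.2
    obtain ⟨E, hE⟩ := Cfsg.Agent.S2388.gl_conj_of_charpoly (p := p) _ _
      (by rw [hc2]; exact hcopr) (by rw [hc2']; exact hcopr) h1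
    apply Subtype.ext
    rw [← hc1, ← hc1', ConjClasses.mk_eq_mk_iff_isConj, isConj_iff]
    exact ⟨E, hE⟩
  · intro f
    obtain ⟨g₀, hg₀χ, hg₀⟩ := exists_order_r (p := p) n r hr hrp Fac hFac1 f.1 f.2.1 f.2.2.1
      f.2.2.2.1 f.2.2.2.2
    refine ⟨⟨ConjClasses.mk g₀, g₀, rfl, hg₀⟩, ?_⟩
    apply Subtype.ext
    rw [hΨ, ← hg₀χ]
    exact Cfsg.Agent.S2387.charpoly_conj_eq _ _ (Classical.choose_spec
      (⟨ConjClasses.mk g₀, g₀, rfl, hg₀⟩ : {C : ConjClasses (GL (Fin n) F) //
      ∃ g : GL (Fin n) F, ConjClasses.mk g = C ∧ orderOf g = r}).2).1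

theorem result {F : Type*} [Field F] [Fintype F] {p q : ℕ} [Fact p.Prime] [CharP F p] (hF : Fintype.card F = q) (n r i t : ℕ) (hr : r.Prime) (hrp : r ≠ p) (hi : i = orderOf (q : ZMod r)) (ht : t * i = r - 1) : Nat.card {C : ConjClasses (GL (Fin n) F) // ∃ g : GL (Fin n) F, ConjClasses.mk g = C ∧ orderOf g = r} = Nat.choose (n / i + t) t - 1 := by
  classical
  obtain ⟨Fac, hFac, hFdeg, hFac1, hFac2, hFcard, hipos⟩ := cyc_factors hF r i t hr hrp hi ht
  haveI : Fact r.Prime := ⟨hr⟩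
  have hL : (X - C 1 : F[X]) ∉ Fac := by
    intro h
    have h1 := hFac1 _ h
    have h2 : (cyclotomic r F).eval 1 = 0 := by
      obtain ⟨B, hB⟩ := h1
      rw [hB, eval_mul, eval_sub, eval_X, eval_C, sub_self, zero_mul]
    rw [eval_one_cyclotomic_prime] at h2
    have h3 := (CharP.cast_eq_zero_iff F p r).mp h2
    exact hrp ((Nat.prime_dvd_prime_iff_eq (Fact.out) hr).mp h3).symm
  rw [classes_card (p := p) n r hr hrp Fac hFac1 hFac2, card_admissible Fac i n hFac hFdeg hL]
  have h1 : Nat.card {a : ↥Fac → ℕ // i * ∑ P, a P ≤ n ∧ a ≠ 0} =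
      Nat.card {a : ↥Fac → ℕ // ∑ P, a P ≤ n / i ∧ a ≠ 0} := by
    apply Nat.card_congr
    apply Equiv.subtypeEquivRight
    intro a
    rw [Nat.le_div_iff_mul_le hipos, mul_comm]
  rw [h1, card_le_sum_ne, Fintype.card_coe, hFcard]

end Cfsg.Agent.S2568
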