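import Cfsg.Statements.S2571
import Mathlib

set_option autoImplicit false
open Cfsg

namespace Cfsg.Agent.S2571

open Matrix

theorem ker_comp_le {K : Type*} [Field K] {V : Type*} [AddCommGroup V] [Module K V]
    [FiniteDimensional K V] (f g : V →ₗ[K] V) :
    Module.finrank K (LinearMap.ker (g ∘ₗ f)) ≤
      Module.finrank K (LinearMap.ker f) + Module.finrank K (LinearMap.ker g) := by
  let φ : LinearMap.ker (g ∘ₗ f) →ₗ[K] V := f.domRestrict (LinearMap.ker (g ∘ₗ f))
  have h1 := LinearMap.finrank_range_add_finrank_ker φ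
  have h2 : LinearMap.range φ ≤ LinearMap.ker g := by
    rintro _ ⟨x, rfl⟩
    have := x.2
    rw [LinearMap.mem_ker] at this ⊢
    exact this
  have h3 : (LinearMap.ker φ).map (LinearMap.ker (g ∘ₗ f)).subtype ≤ LinearMap.ker f := by
    rintro _ ⟨x, hx, rfl⟩
    rw [SetLike.mem_coe, LinearMap.mem_ker] at hx
    rw [LinearMap.mem_ker]
    exact hx
  have h4 := Submodule.finrank_mono h2
  have h5 := Submodule.finrank_mono h3
  rw [Submodule.finrank_map_subtype_eq] at h5
  omega

theorem result {F : Type*} [Field F] [Fintype F] {q n : ℕ} (hF : Fintype.card F = q) (hn : 1 ≤ n) (u : GL (Fin n) F) (hnil : ((u : Matrix (Fin n) (Fin n) F) - 1) ^ n = 0) (hreg : ((u : Matrix (Fin n) (Fin n) F) - 1).rank = n - 1) : Nat.card ↥(Subgroup.centralizer ({u} : Set (GL (Fin n) F))) = (q - 1) * q ^ (n - 1) := by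
  classical
  subst hF
  obtain ⟨U, hUdef⟩ : ∃ U : Matrix (Fin n) (Fin n) F, U = u := ⟨_, rfl⟩
  rw [← hUdef] at hnil hreg
  obtain ⟨N, hN⟩ : ∃ N : Matrix (Fin n) (Fin n) F, N = U - 1 := ⟨_, rfl⟩
  rw [← hN] at hnil hreg
  obtain ⟨f, hf⟩ : ∃ f : (Fin n → F) →ₗ[F] (Fin n → F), f = Matrix.mulVecLin N := ⟨_, rfl⟩
  have hpow : ∀ k : ℕ, f ^ k = Matrix.mulVecLin (N ^ k) := by
    intro k
    induction k with
    | zero => rw [pow_zero, pow_zero, Matrix.mulVecLin_one]; rfl
    | succ k ih => rw [pow_succ, pow_succ, Matrix.mulVecLin_mul, ← ih, ← hf]; rfl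
  have hfn : f ^ n = 0 := by
    rw [hpow, hnil]
    simp
  have hker1 : Module.finrank F (LinearMap.ker f) ≤ 1 := by
    have h1 := LinearMap.finrank_range_add_finrank_ker f
    have h2 : Module.finrank F (LinearMap.range f) = n - 1 := by
      rw [hf]
      exact hreg
    rw [Module.finrank_fin_fun] at h1
    omega
  have hkerk : ∀ k : ℕ, Module.finrank F (LinearMap.ker (f ^ k)) ≤ k := by
    intro k
    induction k with
    | zero =>
      have : LinearMap.ker (f ^ 0) = ⊥ := by
        rw [pow_zero]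
        exact LinearMap.ker_id
      rw [this, finrank_bot]
    | succ k ih =>
      have h1 : f ^ (k + 1) = (f ^ k) ∘ₗ f := by rw [pow_succ]; rfl
      rw [h1]
      have h2 := ker_comp_le f (f ^ k)
      omega
  -- invariant subspaces
  have hinv : ∀ W : Submodule F (Fin n → F), (∀ w ∈ W, f w ∈ W) →
      W ≤ LinearMap.ker (f ^ Module.finrank F W) := by
    intro W hfW
    have hnilg : IsNilpotent (f.restrict hfW) := by
      refine ⟨n, ?_⟩
      rw [Module.End.pow_restrict]
      apply LinearMap.ext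
      intro w
      apply Subtype.ext
      rw [LinearMap.restrict_apply]
      simp only [hfn, LinearMap.zero_apply, ZeroMemClass.coe_zero]
    have hgd : (f.restrict hfW) ^ Module.finrank F W = 0 := by
      have h1 := LinearMap.aeval_self_charpoly (f.restrict hfW)
      rw [IsNilpotent.charpoly_eq_X_pow_finrank hnilg] at h1
      simpa using h1
    intro w hw
    rw [LinearMap.mem_ker]
    have h1 := congrArg (fun g : W →ₗ[F] W => ((g ⟨w, hw⟩ : W) : Fin n → F)) hgd
    rw [Module.End.pow_restrict] at h1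
    simpa [LinearMap.restrict_apply] using h1
  -- a cyclic vector
  have hne : f ^ (n - 1) ≠ 0 := by
    intro h0
    have h1 := hkerk (n - 1)
    rw [h0, LinearMap.ker_zero, finrank_top, Module.finrank_fin_fun] at h1
    omega
  obtain ⟨v, hv⟩ : ∃ v, (f ^ (n - 1)) v ≠ 0 := by
    by_contra h
    push Not at h
    exact hne (LinearMap.ext h)
  have hL : ∀ W : Submodule F (Fin n → F), (∀ w ∈ W, f w ∈ W) → v ∈ W → W = ⊤ := by
    intro W hW hvW
    have h1 := hinv W hW hvW
    rw [LinearMap.mem_ker] at h1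
    have h2 : n ≤ Module.finrank F W := by
      by_contra hlt
      apply hv
      rw [show n - 1 = (n - 1 - Module.finrank F W) + Module.finrank F W by omega, pow_add,
        Module.End.mul_apply, h1, map_zero]
    apply Submodule.eq_top_of_finrank_eq
    rw [Module.finrank_fin_fun]
    have h3 := Submodule.finrank_le W
    rw [Module.finrank_fin_fun] at h3
    omega
  have hcommk : ∀ A : Matrix (Fin n) (Fin n) F, A * N = N * A → ∀ (k : ℕ) (x : Fin n → F),
      (f ^ k) (A *ᵥ x) = A *ᵥ ((f ^ k) x) := by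
    intro A hA k x
    rw [hpow, Matrix.mulVecLin_apply, Matrix.mulVecLin_apply, Matrix.mulVec_mulVec,
      Matrix.mulVec_mulVec]
    have hc : Commute A N := hA
    rw [(hc.pow_right k).eq]
  have hkerA : ∀ A : Matrix (Fin n) (Fin n) F, A * N = N * A →
      ∀ w ∈ LinearMap.ker (Matrix.mulVecLin A), f w ∈ LinearMap.ker (Matrix.mulVecLin A) := by
    intro A hA w hw
    rw [LinearMap.mem_ker, Matrix.mulVecLin_apply] at hw ⊢
    have h1 := hcommk A hA 1 w
    rw [pow_one] at h1
    rw [← h1, hw, map_zero]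
  have hinj : ∀ A : Matrix (Fin n) (Fin n) F, A * N = N * A → A *ᵥ v = 0 → A = 0 := by
    intro A hA hAv
    have h1 := hL (LinearMap.ker (Matrix.mulVecLin A)) (hkerA A hA)
      (by rw [LinearMap.mem_ker]; exact hAv)
    ext i j
    have h2 : A *ᵥ (Pi.single j 1) = 0 := by
      have h3 : Pi.single j 1 ∈ LinearMap.ker (Matrix.mulVecLin A) := by rw [h1]; trivial
      simpa using h3
    have h4 := congrFun h2 i
    simpa using h4
  have hsurj : ∀ w : Fin n → F, ∃ A : Matrix (Fin n) (Fin n) F, A * N = N * A ∧ A *ᵥ v = w := by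
    let S : Submodule F (Fin n → F) :=
      { carrier := {w | ∃ A : Matrix (Fin n) (Fin n) F, A * N = N * A ∧ A *ᵥ v = w}
        add_mem' := by
          rintro _ _ ⟨A, hA, rfl⟩ ⟨B, hB, rfl⟩
          exact ⟨A + B, by rw [add_mul, mul_add, hA, hB], by rw [Matrix.add_mulVec]⟩
        zero_mem' := ⟨0, by simp, by simp⟩
        smul_mem' := by
          rintro c _ ⟨A, hA, rfl⟩
          exact ⟨c • A, by rw [Matrix.smul_mul, Matrix.mul_smul, hA], by rw [Matrix.smul_mulVec]⟩ }
    have hS : S = ⊤ := by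
      apply hL
      · rintro _ ⟨A, hA, rfl⟩
        refine ⟨N * A, by rw [mul_assoc, hA], ?_⟩
        rw [hf, Matrix.mulVecLin_apply, Matrix.mulVec_mulVec]
      · exact ⟨1, by simp, by simp⟩
    intro w
    have hw : w ∈ S := by rw [hS]; trivial
    exact hw
  -- the kernel of f ^ (n - 1)
  have hkdim : Module.finrank F (LinearMap.ker (f ^ (n - 1))) = n - 1 := by
    have h1 := LinearMap.finrank_range_add_finrank_ker (f ^ (n - 1))
    rw [Module.finrank_fin_fun] at h1
    have h2 : LinearMap.range (f ^ (n - 1)) ≤ LinearMap.ker f := by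
      rintro _ ⟨y, rfl⟩
      rw [LinearMap.mem_ker, ← Module.End.mul_apply, ← pow_succ', show n - 1 + 1 = n by omega, hfn]
      rfl
    have h3 := Submodule.finrank_mono h2
    have h4 := hkerk (n - 1)
    omega
  have hfnv : f ((f ^ (n - 1)) v) = 0 := by
    rw [← Module.End.mul_apply, ← pow_succ', show n - 1 + 1 = n by omega, hfn]
    rfl
  -- commuting with u
  have hcu : ∀ g : GL (Fin n) F, g ∈ Subgroup.centralizer ({u} : Set (GL (Fin n) F)) ↔
      (g : Matrix (Fin n) (Fin n) F) * N = N * (g : Matrix (Fin n) (Fin n) F) := by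
    intro g
    rw [Subgroup.mem_centralizer_iff]
    simp only [Set.mem_singleton_iff, forall_eq]
    rw [hN, hUdef, mul_sub, sub_mul, mul_one, one_mul]
    constructor
    · intro h
      have h1 := congrArg (fun x : GL (Fin n) F => (x : Matrix (Fin n) (Fin n) F)) h
      simp only [Units.val_mul] at h1
      rw [h1]
    · intro h
      apply Units.ext
      simp only [Units.val_mul]
      have h2 := sub_left_injective h
      exact h2.symm
  -- the bijection
  have hwd : ∀ g : Subgroup.centralizer ({u} : Set (GL (Fin n) F)),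
      (f ^ (n - 1)) (((g : GL (Fin n) F) : Matrix (Fin n) (Fin n) F) *ᵥ v) ≠ 0 := by
    intro g h0
    rw [hcommk _ ((hcu _).1 g.2)] at h0
    apply hv
    have h1 := congrArg (fun x => (((g : GL (Fin n) F)⁻¹ : GL (Fin n) F) : Matrix (Fin n) (Fin n) F) *ᵥ x) h0
    simp only [Matrix.mulVec_mulVec, Matrix.mulVec_zero] at h1
    rw [← Units.val_mul, inv_mul_cancel, Units.val_one, Matrix.one_mulVec] at h1
    exact h1
  have hbij : Function.Bijective (fun g : Subgroup.centralizer ({u} : Set (GL (Fin n) F)) =>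
      (⟨((g : GL (Fin n) F) : Matrix (Fin n) (Fin n) F) *ᵥ v, hwd g⟩ :
        {w : Fin n → F // (f ^ (n - 1)) w ≠ 0})) := by
    constructor
    · intro g g' h
      have h1 : ((g : GL (Fin n) F) : Matrix (Fin n) (Fin n) F) *ᵥ v =
          ((g' : GL (Fin n) F) : Matrix (Fin n) (Fin n) F) *ᵥ v := congrArg Subtype.val h
      have h2 := hinj (((g : GL (Fin n) F) : Matrix (Fin n) (Fin n) F) -
          ((g' : GL (Fin n) F) : Matrix (Fin n) (Fin n) F))
        (by rw [sub_mul, mul_sub, (hcu _).1 g.2, (hcu _).1 g'.2])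
        (by rw [Matrix.sub_mulVec, h1, sub_self])
      apply Subtype.ext
      apply Units.ext
      exact sub_eq_zero.1 h2
    · rintro ⟨w, hw⟩
      obtain ⟨A, hA, hAv⟩ := hsurj w
      have hdet : A.det ≠ 0 := by
        intro hdet
        obtain ⟨x, hx, hAx⟩ := Matrix.exists_mulVec_eq_zero_iff.2 hdet
        obtain ⟨W, hWdef⟩ : ∃ W, W = LinearMap.ker (Matrix.mulVecLin A) := ⟨_, rfl⟩
        have hxW : x ∈ W := by
          rw [hWdef, LinearMap.mem_ker]
          exact hAx
        have hWinv : ∀ w ∈ W, f w ∈ W := by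
          rw [hWdef]
          exact hkerA A hA
        have hd : 1 ≤ Module.finrank F W := by
          rw [Nat.one_le_iff_ne_zero]
          intro h0
          rw [Submodule.finrank_eq_zero] at h0
          rw [h0] at hxW
          exact hx (by simpa using hxW)
        have hWeq : W = LinearMap.ker (f ^ Module.finrank F W) :=
          Submodule.eq_of_le_of_finrank_le (hinv W hWinv) (hkerk _)
        have hmem : (f ^ (n - 1)) v ∈ W := by
          rw [hWeq, LinearMap.mem_ker,
            show Module.finrank F W = (Module.finrank F W - 1) + 1 by omega, pow_succ,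
            Module.End.mul_apply, hfnv, map_zero]
        rw [hWdef, LinearMap.mem_ker, Matrix.mulVecLin_apply, ← hcommk A hA, hAv] at hmem
        exact hw hmem
      refine ⟨⟨Matrix.GeneralLinearGroup.mkOfDetNeZero A hdet, ?_⟩, ?_⟩
      · rw [hcu]
        exact hA
      · apply Subtype.ext
        exact hAv
  rw [Nat.card_eq_of_bijective _ hbij]
  have hcardK : Nat.card (LinearMap.ker (f ^ (n - 1))) = Fintype.card F ^ (n - 1) := by
    rw [Nat.card_eq_fintype_card, Module.card_eq_pow_finrank (K := F), hkdim]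
  have hsplit : Nat.card {w : Fin n → F // (f ^ (n - 1)) w ≠ 0} +
      Nat.card (LinearMap.ker (f ^ (n - 1))) = Fintype.card F ^ n := by
    have h1 : Nat.card {w : Fin n → F // (f ^ (n - 1)) w ≠ 0} =
        Fintype.card {w : Fin n → F // ¬ (w ∈ LinearMap.ker (f ^ (n - 1)))} := by
      rw [Nat.card_eq_fintype_card]
      apply Fintype.card_congr
      exact Equiv.subtypeEquivRight (fun w => by rw [LinearMap.mem_ker])
    have h2 : Nat.card (LinearMap.ker (f ^ (n - 1))) =
        Fintype.card {w : Fin n → F // w ∈ LinearMap.ker (f ^ (n - 1))} := by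
      rw [Nat.card_eq_fintype_card]
    rw [h1, h2, Fintype.card_subtype_compl]
    have h3 := Fintype.card_subtype_le (fun w : Fin n → F => w ∈ LinearMap.ker (f ^ (n - 1)))
    have h4 : Fintype.card (Fin n → F) = Fintype.card F ^ n := by simp
    rw [h4] at h3 ⊢
    omega
  rw [hcardK] at hsplit
  have hq : 1 ≤ Fintype.card F := Fintype.card_pos
  obtain ⟨k, rfl⟩ : ∃ k, n = k + 1 := ⟨n - 1, by omega⟩
  simp only [Nat.add_sub_cancel] at hsplit ⊢
  obtain ⟨r, hr⟩ : ∃ r, Fintype.card F = r + 1 := ⟨Fintype.card F - 1, by omega⟩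
  rw [hr] at hsplit ⊢
  rw [Nat.add_sub_cancel]
  have e : (r + 1) ^ (k + 1) = r * (r + 1) ^ k + (r + 1) ^ k := by ring
  rw [e] at hsplit
  omega

end Cfsg.Agent.S2571
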