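import Cfsg.Statements.S2573
import Mathlib

set_option autoImplicit false
open Cfsg

namespace Cfsg.Agent.S2573

theorem ker_comp_le {K : Type*} [Field K] {V : Type*} [AddCommGroup V] [Module K V]
    [FiniteDimensional K V] (f g : V →ₗ[K] V) :
    Module.finrank K (LinearMap.ker (g ∘ₗ f)) ≤
      Module.finrank K (LinearMap.ker f) + Module.finrank K (LinearMap.ker g) := by
  let φ : LinearMap.ker (g ∘ₗ f) →ₗ[K] V := f.domRestrict (LinearMap.ker (g ∘ₗ f))
  have h1 := LinearMap.finrank_range_add_finrank_ker φ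
  have h2 : LinearMap.range φ ≤ LinearMap.ker g := by
    rintro _ ⟨x, rfl⟩
    have := x.2
    rw [LinearMap.mem_ker] at this ⊢
    exact this
  have h3 : (LinearMap.ker φ).map (LinearMap.ker (g ∘ₗ f)).subtype ≤ LinearMap.ker f := by
    rintro _ ⟨x, hx, rfl⟩
    rw [SetLike.mem_coe, LinearMap.mem_ker] at hx
    rw [LinearMap.mem_ker]
    exact hx
  have h4 := Submodule.finrank_mono h2
  have h5 := Submodule.finrank_mono h3
  rw [Submodule.finrank_map_subtype_eq] at h5
  omega

theorem result {F : Type*} [Field F] [Finite F] {n : ℕ} (u : Matrix (Fin n) (Fin n) F) (hnil : (u - 1) ^ n = 0) (hreg : (u - 1).rank = n - 1) (W : Submodule F (Fin n → F)) (hW : ∀ v ∈ W, u.mulVec v ∈ W) : W = LinearMap.ker (Matrix.mulVecLin ((u - 1) ^ Module.finrank F W)) := by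
  classical
  obtain ⟨N, hN⟩ : ∃ N : Matrix (Fin n) (Fin n) F, N = u - 1 := ⟨_, rfl⟩
  rw [← hN] at hnil hreg ⊢
  obtain ⟨f, hf⟩ : ∃ f : (Fin n → F) →ₗ[F] (Fin n → F), f = Matrix.mulVecLin N := ⟨_, rfl⟩
  have hfW : ∀ v ∈ W, f v ∈ W := by
    intro v hv
    have : f v = u.mulVec v - v := by
      rw [hf, Matrix.mulVecLin_apply, hN, Matrix.sub_mulVec, Matrix.one_mulVec]
    rw [this]
    exact W.sub_mem (hW v hv) hv
  have hpow : ∀ k : ℕ, f ^ k = Matrix.mulVecLin (N ^ k) := by
    intro k
    induction k with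
    | zero => rw [pow_zero, pow_zero, Matrix.mulVecLin_one]; rfl
    | succ k ih => rw [pow_succ, pow_succ, Matrix.mulVecLin_mul, ← ih, ← hf]; rfl
  -- kernel of f has dimension at most one
  have hker1 : Module.finrank F (LinearMap.ker f) ≤ 1 := by
    have h1 := LinearMap.finrank_range_add_finrank_ker f
    have h2 : Module.finrank F (LinearMap.range f) = n - 1 := by
      rw [hf]
      exact hreg
    rw [Module.finrank_fin_fun] at h1
    omega
  have hkerk : ∀ k : ℕ, Module.finrank F (LinearMap.ker (f ^ k)) ≤ k := by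
    intro k
    induction k with
    | zero =>
      have : LinearMap.ker (f ^ 0) = ⊥ := by
        rw [pow_zero]
        exact LinearMap.ker_id
      rw [this, finrank_bot]
    | succ k ih =>
      have h1 : f ^ (k + 1) = (f ^ k) ∘ₗ f := by rw [pow_succ]; rfl
      rw [h1]
      have h2 := ker_comp_le f (f ^ k)
      omega
  -- the restriction of f to W is nilpotent
  have hnilg : IsNilpotent (f.restrict hfW) := by
    refine ⟨n, ?_⟩
    rw [Module.End.pow_restrict]
    apply LinearMap.ext
    intro w
    apply Subtype.ext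
    rw [LinearMap.restrict_apply]
    simp only [hpow, hnil, LinearMap.zero_apply, ZeroMemClass.coe_zero]
    simp
  have hgd : (f.restrict hfW) ^ Module.finrank F W = 0 := by
    have h1 := LinearMap.aeval_self_charpoly (f.restrict hfW)
    rw [IsNilpotent.charpoly_eq_X_pow_finrank hnilg] at h1
    simpa using h1
  have hle : W ≤ LinearMap.ker (f ^ Module.finrank F W) := by
    intro w hw
    rw [LinearMap.mem_ker]
    have h1 := congrArg (fun g : W →ₗ[F] W => ((g ⟨w, hw⟩ : W) : Fin n → F)) hgd
    rw [Module.End.pow_restrict] at h1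
    simpa [LinearMap.restrict_apply] using h1
  rw [← hpow]
  exact Submodule.eq_of_le_of_finrank_le hle (hkerk _)

end Cfsg.Agent.S2573
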