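import Cfsg.Statements.S2574
import Mathlib

set_option autoImplicit false
open Cfsg

namespace Cfsg.Agent.S2574

open Matrix

theorem sf_add_left {F : Type*} [CommRing F] (m : ℕ) (u u' v : Fin m ⊕ Fin m → F) :
    Cfsg.sympForm m F (u + u') v = Cfsg.sympForm m F u v + Cfsg.sympForm m F u' v := by
  simp [Cfsg.sympForm, add_dotProduct]

theorem sf_add_right {F : Type*} [CommRing F] (m : ℕ) (u v v' : Fin m ⊕ Fin m → F) :
    Cfsg.sympForm m F u (v + v') = Cfsg.sympForm m F u v + Cfsg.sympForm m F u v' := by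
  simp [Cfsg.sympForm, Matrix.mulVec_add, dotProduct_add]

theorem sf_pres {F : Type*} [CommRing F] (m : ℕ) (A : Matrix (Fin m ⊕ Fin m) (Fin m ⊕ Fin m) F)
    (hA : Aᵀ * Matrix.J (Fin m) F * A = Matrix.J (Fin m) F) (u v : Fin m ⊕ Fin m → F) :
    Cfsg.sympForm m F (A *ᵥ u) (A *ᵥ v) = Cfsg.sympForm m F u v := by
  unfold Cfsg.sympForm
  have h1 : ∀ w : Fin m ⊕ Fin m → F, (A *ᵥ u) ⬝ᵥ w = u ⬝ᵥ (Aᵀ *ᵥ w) := by
    intro w
    rw [dotProduct_comm, Matrix.dotProduct_mulVec, ← Matrix.mulVec_transpose, dotProduct_comm]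
  rw [h1, Matrix.mulVec_mulVec, Matrix.mulVec_mulVec, hA]

theorem ker_comp_le {K : Type*} [Field K] {V : Type*} [AddCommGroup V] [Module K V]
    [FiniteDimensional K V] (f g : V →ₗ[K] V) :
    Module.finrank K (LinearMap.ker (g ∘ₗ f)) ≤
      Module.finrank K (LinearMap.ker f) + Module.finrank K (LinearMap.ker g) := by
  let φ : LinearMap.ker (g ∘ₗ f) →ₗ[K] V := f.domRestrict (LinearMap.ker (g ∘ₗ f))
  have h1 := LinearMap.finrank_range_add_finrank_ker φ
  have h2 : LinearMap.range φ ≤ LinearMap.ker g := by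
    rintro _ ⟨x, rfl⟩
    have := x.2
    rw [LinearMap.mem_ker] at this ⊢
    exact this
  have h3 : (LinearMap.ker φ).map (LinearMap.ker (g ∘ₗ f)).subtype ≤ LinearMap.ker f := by
    rintro _ ⟨x, hx, rfl⟩
    rw [SetLike.mem_coe, LinearMap.mem_ker] at hx
    rw [LinearMap.mem_ker]
    exact hx
  have h4 := Submodule.finrank_mono h2
  have h5 := Submodule.finrank_mono h3
  rw [Submodule.finrank_map_subtype_eq] at h5
  omega

theorem sf_neg_left {F : Type*} [CommRing F] (m : ℕ) (u v : Fin m ⊕ Fin m → F) :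
    Cfsg.sympForm m F (-u) v = - Cfsg.sympForm m F u v := by
  simp [Cfsg.sympForm]

theorem sf_neg_right {F : Type*} [CommRing F] (m : ℕ) (u v : Fin m ⊕ Fin m → F) :
    Cfsg.sympForm m F u (-v) = - Cfsg.sympForm m F u v := by
  simp [Cfsg.sympForm, Matrix.mulVec_neg]

theorem result {F : Type*} [Field F] [Finite F] {m : ℕ} (u : Matrix.symplecticGroup (Fin m) F) (hnil : ((u : Matrix (Fin m ⊕ Fin m) (Fin m ⊕ Fin m) F) - 1) ^ (2 * m) = 0) (hreg : ((u : Matrix (Fin m ⊕ Fin m) (Fin m ⊕ Fin m) F) - 1).rank = 2 * m - 1) (W : Submodule F (Fin m ⊕ Fin m → F)) (hW : ∀ v ∈ W, (u : Matrix (Fin m ⊕ Fin m) (Fin m ⊕ Fin m) F).mulVec v ∈ W) (hdim : 2 * Module.finrank F W ≤ 2 * m) : ∀ v ∈ W, ∀ w ∈ W, Cfsg.sympForm m F v w = 0 := by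
  classical
  have hu : (u : Matrix (Fin m ⊕ Fin m) (Fin m ⊕ Fin m) F)ᵀ * Matrix.J (Fin m) F *
      (u : Matrix (Fin m ⊕ Fin m) (Fin m ⊕ Fin m) F) = Matrix.J (Fin m) F :=
    SymplecticGroup.mem_iff'.1 u.2
  obtain ⟨U, hUdef⟩ : ∃ U : Matrix (Fin m ⊕ Fin m) (Fin m ⊕ Fin m) F, U = u := ⟨_, rfl⟩
  rw [← hUdef] at hnil hreg hW hu
  obtain ⟨N, hN⟩ : ∃ N : Matrix (Fin m ⊕ Fin m) (Fin m ⊕ Fin m) F, N = U - 1 := ⟨_, rfl⟩
  rw [← hN] at hnil hreg
  obtain ⟨f, hf⟩ : ∃ f : (Fin m ⊕ Fin m → F) →ₗ[F] (Fin m ⊕ Fin m → F), f = Matrix.mulVecLin N :=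
    ⟨_, rfl⟩
  have hfu : ∀ v, f v = U.mulVec v - v := by
    intro v
    rw [hf, Matrix.mulVecLin_apply, hN, Matrix.sub_mulVec, Matrix.one_mulVec]
  have hfW : ∀ v ∈ W, f v ∈ W := fun v hv => by
    rw [hfu]
    exact W.sub_mem (hW v hv) hv
  have hpow : ∀ k : ℕ, f ^ k = Matrix.mulVecLin (N ^ k) := by
    intro k
    induction k with
    | zero => rw [pow_zero, pow_zero, Matrix.mulVecLin_one]; rfl
    | succ k ih => rw [pow_succ, pow_succ, Matrix.mulVecLin_mul, ← ih, ← hf]; rfl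
  have hdimV : Module.finrank F (Fin m ⊕ Fin m → F) = 2 * m := by
    rw [Module.finrank_fintype_fun_eq_card]
    simp
    ring
  have hker1 : Module.finrank F (LinearMap.ker f) ≤ 1 := by
    have h1 := LinearMap.finrank_range_add_finrank_ker f
    have h2 : Module.finrank F (LinearMap.range f) = 2 * m - 1 := by
      rw [hf]
      exact hreg
    rw [hdimV] at h1
    omega
  have hkerk : ∀ k : ℕ, Module.finrank F (LinearMap.ker (f ^ k)) ≤ k := by
    intro k
    induction k with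
    | zero =>
      have : LinearMap.ker (f ^ 0) = ⊥ := by
        rw [pow_zero]
        exact LinearMap.ker_id
      rw [this, finrank_bot]
    | succ k ih =>
      have h1 : f ^ (k + 1) = (f ^ k) ∘ₗ f := by rw [pow_succ]; rfl
      rw [h1]
      have h2 := ker_comp_le f (f ^ k)
      omega
  have hf2m : f ^ (2 * m) = 0 := by
    rw [hpow, hnil]
    simp
  have hnilg : IsNilpotent (f.restrict hfW) := by
    refine ⟨2 * m, ?_⟩
    rw [Module.End.pow_restrict]
    apply LinearMap.ext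
    intro w
    apply Subtype.ext
    rw [LinearMap.restrict_apply]
    simp only [hf2m, LinearMap.zero_apply, ZeroMemClass.coe_zero]
  have hgd : (f.restrict hfW) ^ Module.finrank F W = 0 := by
    have h1 := LinearMap.aeval_self_charpoly (f.restrict hfW)
    rw [IsNilpotent.charpoly_eq_X_pow_finrank hnilg] at h1
    simpa using h1
  have hle : W ≤ LinearMap.ker (f ^ Module.finrank F W) := by
    intro w hw
    rw [LinearMap.mem_ker]
    have h1 := congrArg (fun g : W →ₗ[F] W => ((g ⟨w, hw⟩ : W) : Fin m ⊕ Fin m → F)) hgd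
    rw [Module.End.pow_restrict] at h1
    simpa [LinearMap.restrict_apply] using h1
  have hcomm : ∀ (j : ℕ) (a : Fin m ⊕ Fin m → F), U.mulVec ((f ^ j) a) = (f ^ j) (U.mulVec a) := by
    intro j a
    rw [hpow, Matrix.mulVecLin_apply, Matrix.mulVecLin_apply, Matrix.mulVec_mulVec,
      Matrix.mulVec_mulVec]
    have hc : Commute U N := by
      rw [hN]
      exact (Commute.refl U).sub_right (Commute.one_right U)
    rw [(hc.pow_right j).eq]
  have key : ∀ j : ℕ, ∀ a b : Fin m ⊕ Fin m → F, (f ^ j) b = 0 →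
      Cfsg.sympForm m F ((f ^ j) a) b = 0 := by
    intro j
    induction j with
    | zero =>
      intro a b hb
      simp only [pow_zero, Module.End.one_apply] at hb
      rw [hb]
      simp [Cfsg.sympForm]
    | succ j ih =>
      intro a b hb
      have h1 : (f ^ (j + 1)) a = f ((f ^ j) a) := by rw [pow_succ']; rfl
      rw [h1]
      have h2 : Cfsg.sympForm m F (f ((f ^ j) a)) b =
          - Cfsg.sympForm m F (U.mulVec ((f ^ j) a)) (f b) := by
        rw [hfu, hfu]
        have h3 := sf_pres m U hu ((f ^ j) a) b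
        rw [sub_eq_add_neg, sub_eq_add_neg, sf_add_left, sf_add_right, sf_neg_left, sf_neg_right, h3]
        ring
      rw [h2, hcomm, ih _ _ (by rw [← hb, pow_succ]; rfl), neg_zero]
  intro v hv w hw
  obtain ⟨d, hd⟩ : ∃ d, d = Module.finrank F W := ⟨_, rfl⟩
  rw [← hd] at hle hdim
  have hrange : LinearMap.range (f ^ (2 * m - d)) = LinearMap.ker (f ^ d) := by
    apply Submodule.eq_of_le_of_finrank_le
    · rintro _ ⟨y, rfl⟩
      rw [LinearMap.mem_ker, ← Module.End.mul_apply, ← pow_add,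
        show d + (2 * m - d) = 2 * m by omega, hf2m]
      rfl
    · have h1 := LinearMap.finrank_range_add_finrank_ker (f ^ (2 * m - d))
      have h2 := hkerk (2 * m - d)
      have h3 := hkerk d
      rw [hdimV] at h1
      omega
  have hv' : v ∈ LinearMap.range (f ^ (2 * m - d)) := by
    rw [hrange]
    exact hle hv
  obtain ⟨y, rfl⟩ := hv'
  apply key
  have hw' := hle hw
  rw [LinearMap.mem_ker] at hw'
  rw [show 2 * m - d = (2 * m - d - d) + d by omega, pow_add, Module.End.mul_apply, hw', map_zero]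

end Cfsg.Agent.S2574
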