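import Cfsg.Statements.S2575
import Mathlib

set_option autoImplicit false
open Cfsg

namespace Cfsg.Agent.S2575

theorem two_part (n : ℕ) (hn : n ≠ 0) : ∃ m, Odd m ∧ n = 2 ^ padicValNat 2 n * m := by
  have h1 := pow_padicValNat_dvd (p := 2) (n := n)
  have h2 := pow_succ_padicValNat_not_dvd (p := 2) hn
  generalize padicValNat 2 n = v at h1 h2 ⊢
  obtain ⟨m, hm⟩ := h1
  refine ⟨m, ?_, hm⟩
  by_contra hodd
  rw [Nat.not_odd_iff_even] at hodd
  obtain ⟨r, hr⟩ := hodd
  apply h2
  refine ⟨r, ?_⟩
  rw [hm, hr, pow_succ]; ring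

theorem result {F : Type*} [Field F] [Fintype F] {q : ℕ} (hF : Fintype.card F = q) (hq : Odd q) {n : ℕ} (hn : 1 ≤ n) (i : ℕ) (hi : i ≤ n) : (∃ c : F, c ≠ 0 ∧ (c • Matrix.diagonal (fun j : Fin n => if (j : ℕ) < i then (-1 : F) else 1)).det = 1) ↔ (Even i ∨ padicValNat 2 n < padicValNat 2 (q - 1)) := by
  classical
  subst hF
  have hchar : ringChar F ≠ 2 := by
    intro h
    have := FiniteField.even_card_of_char_two h
    rcases hq with ⟨k, hk⟩
    omega
  have hneg : (-1 : F) ≠ 1 := Ring.neg_one_ne_one_of_char_ne_two hchar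
  have hdet : ∀ c : F, (c • Matrix.diagonal (fun j : Fin n => if (j : ℕ) < i then (-1 : F) else 1)).det
      = c ^ n * (-1) ^ i := by
    intro c
    rw [Matrix.det_smul, Matrix.det_diagonal, Fintype.card_fin]
    congr 1
    rw [Fin.prod_univ_eq_prod_range (fun j => if j < i then (-1 : F) else 1) n, Finset.prod_ite,
      Finset.prod_const, Finset.prod_const_one, mul_one]
    congr 1
    have : (Finset.range n).filter (· < i) = Finset.range i := by
      ext j; simp; omega
    rw [this, Finset.card_range]
  simp only [hdet]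
  have hq1 : Fintype.card F - 1 ≠ 0 := by
    have := Fintype.one_lt_card (α := F)
    omega
  have hn0 : n ≠ 0 := by omega
  constructor
  · rintro ⟨c, hc0, hc⟩
    by_contra hcon
    push Not at hcon
    obtain ⟨hi_odd, hle⟩ := hcon
    rw [Nat.not_even_iff_odd] at hi_odd
    have hcn : c ^ n = -1 := by
      rw [hi_odd.neg_one_pow] at hc
      linear_combination -hc
    obtain ⟨r, hr_odd, hr⟩ := two_part (Fintype.card F - 1) hq1
    have hdvd : 2 ^ padicValNat 2 (Fintype.card F - 1) ∣ n := (padicValNat_dvd_iff_le hn0).mpr hle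
    generalize padicValNat 2 (Fintype.card F - 1) = e at hr hdvd
    obtain ⟨n'', hn''⟩ := hdvd
    have h1 : c ^ (n * r) = 1 := by
      have : n * r = (Fintype.card F - 1) * n'' := by rw [hn'', hr]; ring
      rw [this, pow_mul, FiniteField.pow_card_sub_one_eq_one c hc0, one_pow]
    have h2 : c ^ (n * r) = -1 := by rw [pow_mul, hcn, hr_odd.neg_one_pow]
    exact hneg (h2.symm.trans h1)
  · rintro (hev | hlt)
    · exact ⟨1, one_ne_zero, by rw [one_pow, one_mul, hev.neg_one_pow]⟩
    · by_cases hev : Even i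
      · exact ⟨1, one_ne_zero, by rw [one_pow, one_mul, hev.neg_one_pow]⟩
      · rw [Nat.not_even_iff_odd] at hev
        obtain ⟨n', hn'_odd, hn'⟩ := two_part n hn0
        have hdvd : 2 ^ (padicValNat 2 n + 1) ∣ Fintype.card F - 1 :=
          (padicValNat_dvd_iff_le hq1).mpr hlt
        generalize padicValNat 2 n = k at hn' hdvd
        obtain ⟨g, hg⟩ := IsCyclic.exists_generator (α := Fˣ)
        have hordg : orderOf g = Fintype.card F - 1 := by
          rw [orderOf_eq_card_of_forall_mem_zpowers hg, Nat.card_eq_fintype_card, Fintype.card_units]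
        obtain ⟨t, ht⟩ := hdvd
        have ht0 : t ≠ 0 := by
          rintro rfl
          rw [mul_zero] at ht
          exact hq1 ht
        have hordh : orderOf (g ^ t) = 2 ^ (k + 1) := by
          rw [orderOf_pow_of_dvd ht0 (by rw [hordg, ht]; exact dvd_mul_left _ _), hordg, ht,
            Nat.mul_div_cancel _ (Nat.pos_of_ne_zero ht0)]
        generalize g ^ t = h at hordh
        have hsq : ((h : F) ^ (2 ^ k)) ^ 2 = 1 := by
          rw [← pow_mul, ← pow_succ, ← Units.val_pow_eq_pow_val, ← hordh, pow_orderOf_eq_one,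
            Units.val_one]
        have hne1 : (h : F) ^ (2 ^ k) ≠ 1 := by
          intro h1
          have h2 : h ^ (2 ^ k) = 1 := Units.ext (by rw [Units.val_pow_eq_pow_val, h1, Units.val_one])
          have h3 := orderOf_dvd_of_pow_eq_one h2
          rw [hordh] at h3
          have h4 := Nat.le_of_dvd (pow_pos two_pos k) h3
          rw [pow_succ] at h4
          have := pow_pos (two_pos : 0 < 2) k
          omega
        have hm1 : (h : F) ^ (2 ^ k) = -1 := by
          rcases sq_eq_one_iff.mp hsq with h1 | h1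
          · exact absurd h1 hne1
          · exact h1
        refine ⟨(h : F), h.ne_zero, ?_⟩
        rw [hev.neg_one_pow, hn', pow_mul, hm1, hn'_odd.neg_one_pow]
        norm_num

end Cfsg.Agent.S2575
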