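import Cfsg.Statements.S2576
import Mathlib

set_option autoImplicit false
open Cfsg

namespace Cfsg.Agent.S2576

theorem two_part (n : ℕ) (hn : n ≠ 0) : ∃ m, Odd m ∧ n = 2 ^ padicValNat 2 n * m := by
  have h1 := pow_padicValNat_dvd (p := 2) (n := n)
  have h2 := pow_succ_padicValNat_not_dvd (p := 2) hn
  generalize padicValNat 2 n = v at h1 h2 ⊢
  obtain ⟨m, hm⟩ := h1
  refine ⟨m, ?_, hm⟩
  by_contra hodd
  rw [Nat.not_odd_iff_even] at hodd
  obtain ⟨r, hr⟩ := hodd
  apply h2
  refine ⟨r, ?_⟩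
  rw [hm, hr, pow_succ]; ring

theorem result {F : Type*} [Field F] [Fintype F] {q : ℕ} (hF : Fintype.card F = q) (hq : Odd q) {m : ℕ} (hm : 1 ≤ m) (μ : F) (hμ : orderOf μ = 2 ^ padicValNat 2 (q - 1)) : (∃ c : F, c ≠ 0 ∧ (c • Matrix.blockDiagonal (fun _ : Fin m => !![(0 : F), 1; μ, 0])).det = 1) ↔ (q % 4 = 3 ∨ padicValNat 2 (q - 1) < padicValNat 2 (2 * m)) := by
  classical
  subst hF
  have hchar : ringChar F ≠ 2 := by
    intro h
    have := FiniteField.even_card_of_char_two h
    rcases hq with ⟨k, hk⟩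
    omega
  have hneg : (-1 : F) ≠ 1 := Ring.neg_one_ne_one_of_char_ne_two hchar
  have hq1 : Fintype.card F - 1 ≠ 0 := by
    have := Fintype.one_lt_card (α := F)
    omega
  obtain ⟨r, hr_odd, hr⟩ := two_part (Fintype.card F - 1) hq1
  have hdet : ∀ c : F, (c • Matrix.blockDiagonal (fun _ : Fin m => !![(0 : F), 1; μ, 0])).det
      = c ^ (2 * m) * (-μ) ^ m := by
    intro c
    rw [Matrix.det_smul, Matrix.det_blockDiagonal]
    simp [Matrix.det_fin_two_of, Fintype.card_prod]
  simp only [hdet]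
  have he1 : 1 ≤ padicValNat 2 (Fintype.card F - 1) := by
    have : 2 ∣ Fintype.card F - 1 := by
      rcases hq with ⟨k, hk⟩
      exact ⟨k, by omega⟩
    exact one_le_padicValNat_of_dvd hq1 this
  have hm0 : m ≠ 0 := by omega
  have hv2m : padicValNat 2 (2 * m) = padicValNat 2 m + 1 := by
    rw [padicValNat.mul (by norm_num) hm0, padicValNat.self (by norm_num)]
    ring
  rw [hv2m]
  generalize padicValNat 2 (Fintype.card F - 1) = e at *
  have hq4 : Fintype.card F % 4 = 3 ↔ e = 1 := by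
    obtain ⟨s, hs⟩ := hr_odd
    constructor
    · intro h
      by_contra hne
      obtain ⟨e', rfl⟩ : ∃ e', e = e' + 2 := ⟨e - 2, by omega⟩
      have h4 : Fintype.card F - 1 = 4 * (2 ^ e' * r) := by rw [hr]; ring
      generalize 2 ^ e' * r = x at h4
      omega
    · intro h
      rw [h, hs] at hr
      omega
  have hμpow : μ ^ (2 ^ e) = 1 := by rw [← hμ]; exact pow_orderOf_eq_one μ
  have hμhalf : μ ^ (2 ^ (e - 1)) = -1 := by
    have hsq : (μ ^ (2 ^ (e - 1))) ^ 2 = 1 := by
      rw [← pow_mul, ← pow_succ, Nat.sub_add_cancel he1, hμpow]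
    rcases sq_eq_one_iff.mp hsq with h1 | h1
    · exfalso
      have h3 := orderOf_dvd_of_pow_eq_one h1
      rw [hμ] at h3
      have h4 := Nat.le_of_dvd (pow_pos two_pos _) h3
      have h5 : 2 ^ e = 2 * 2 ^ (e - 1) := by rw [← pow_succ', Nat.sub_add_cancel he1]
      have := pow_pos (two_pos : 0 < 2) (e - 1)
      omega
    · exact h1
  constructor
  · rintro ⟨c, hc0, hc⟩
    by_contra hcon
    push Not at hcon
    obtain ⟨hq3, hle⟩ := hcon
    have he2 : 2 ≤ e := by
      rcases Nat.lt_or_ge e 2 with h | h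
      · exfalso; apply hq3; rw [hq4]; omega
      · exact h
    obtain ⟨m', hm'_odd, hm'⟩ := two_part m hm0
    generalize padicValNat 2 m = k at hm' hle
    have key := congrArg (fun x => x ^ (2 ^ (e - 1 - k) * r)) hc
    simp only [one_pow, mul_pow] at key
    have h1 : (c ^ (2 * m)) ^ (2 ^ (e - 1 - k) * r) = 1 := by
      have h3 : 2 * m * (2 ^ (e - 1 - k) * r) = (Fintype.card F - 1) * m' := by
        rw [hm', hr]
        have h4 : 2 * 2 ^ k * 2 ^ (e - 1 - k) = 2 ^ e := by
          rw [← pow_succ', ← pow_add]; congr 1; omega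
        calc 2 * (2 ^ k * m') * (2 ^ (e - 1 - k) * r)
            = (2 * 2 ^ k * 2 ^ (e - 1 - k)) * r * m' := by ring
          _ = 2 ^ e * r * m' := by rw [h4]
      rw [← pow_mul, h3, pow_mul, FiniteField.pow_card_sub_one_eq_one c hc0, one_pow]
    have h2 : ((-μ) ^ m) ^ (2 ^ (e - 1 - k) * r) = -1 := by
      have h3 : m * (2 ^ (e - 1 - k) * r) = 2 ^ (e - 1) * (m' * r) := by
        rw [hm']
        have h4 : 2 ^ k * 2 ^ (e - 1 - k) = 2 ^ (e - 1) := by
          rw [← pow_add]; congr 1; omega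
        calc 2 ^ k * m' * (2 ^ (e - 1 - k) * r) = (2 ^ k * 2 ^ (e - 1 - k)) * (m' * r) := by ring
          _ = _ := by rw [h4]
      have hev : Even (2 ^ (e - 1)) := (Nat.even_pow.mpr ⟨even_two, by omega⟩)
      rw [← pow_mul, h3, pow_mul, neg_pow, hμhalf, hev.neg_one_pow, one_mul,
        (hm'_odd.mul hr_odd).neg_one_pow]
    rw [h1, h2, one_mul] at key
    exact hneg key
  · rintro (h3 | hlt)
    · have he : e = 1 := hq4.mp h3
      rw [he] at hμhalf
      have hμ' : μ = -1 := by simpa using hμhalf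
      exact ⟨1, one_ne_zero, by rw [hμ']; simp⟩
    · have hdvd : 2 ^ e ∣ m := (padicValNat_dvd_iff_le hm0).mpr (by omega)
      obtain ⟨m'', hm''⟩ := hdvd
      refine ⟨1, one_ne_zero, ?_⟩
      have hev : Even m := by
        rw [hm'']
        exact (Nat.even_pow.mpr ⟨even_two, by omega⟩).mul_right _
      rw [one_pow, one_mul, neg_pow, hev.neg_one_pow, one_mul, hm'', pow_mul, hμpow, one_pow]

end Cfsg.Agent.S2576
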