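import Cfsg.Statements.S2577
import Cfsg.Agent.S2388

set_option autoImplicit false
open Cfsg

set_option maxHeartbeats 1000000
namespace Cfsg.Agent.S2577

open Polynomial

theorem lin_to_gl {F : Type*} [Field F] {n : ℕ} (X Z : Matrix (Fin n) (Fin n) F)
    (e : (Fin n → F) ≃ₗ[F] (Fin n → F))
    (he : ∀ v, e (X.mulVecLin v) = Z.mulVecLin (e v)) :
    ∃ E : GL (Fin n) F, (E : Matrix (Fin n) (Fin n) F) * X = Z * E := by
  classical
  have hcomp : (e : (Fin n → F) →ₗ[F] (Fin n → F)) ∘ₗ Matrix.toLin' X =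
      Matrix.toLin' Z ∘ₗ (e : (Fin n → F) →ₗ[F] (Fin n → F)) := by
    apply LinearMap.ext
    intro w
    have := he w
    rw [← Matrix.toLin'_apply', ← Matrix.toLin'_apply'] at this
    exact this
  have hM : LinearMap.toMatrix' (e : (Fin n → F) →ₗ[F] (Fin n → F)) * X =
      Z * LinearMap.toMatrix' (e : (Fin n → F) →ₗ[F] (Fin n → F)) := by
    have h3 := congrArg LinearMap.toMatrix' hcomp
    rw [LinearMap.toMatrix'_comp, LinearMap.toMatrix'_comp, LinearMap.toMatrix'_toLin',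
      LinearMap.toMatrix'_toLin'] at h3
    exact h3
  have hinv : LinearMap.toMatrix' (e : (Fin n → F) →ₗ[F] (Fin n → F)) *
      LinearMap.toMatrix' (e.symm : (Fin n → F) →ₗ[F] (Fin n → F)) = 1 := by
    rw [← LinearMap.toMatrix'_comp]
    have h4 : (e : (Fin n → F) →ₗ[F] (Fin n → F)) ∘ₗ (e.symm : (Fin n → F) →ₗ[F] (Fin n → F)) =
        LinearMap.id := by
      exact LinearMap.ext (fun w => e.apply_symm_apply w)
    rw [h4, LinearMap.toMatrix'_id]
  have hinv' : LinearMap.toMatrix' (e.symm : (Fin n → F) →ₗ[F] (Fin n → F)) *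
      LinearMap.toMatrix' (e : (Fin n → F) →ₗ[F] (Fin n → F)) = 1 := by
    rw [← LinearMap.toMatrix'_comp]
    have h4 : (e.symm : (Fin n → F) →ₗ[F] (Fin n → F)) ∘ₗ (e : (Fin n → F) →ₗ[F] (Fin n → F)) =
        LinearMap.id := by
      exact LinearMap.ext (fun w => e.symm_apply_apply w)
    rw [h4, LinearMap.toMatrix'_id]
  exact ⟨⟨_, _, hinv, hinv'⟩, hM⟩

theorem invol_compl {F : Type*} [Field F] {n : ℕ} (h2 : (2 : F) ≠ 0)
    (Y : Matrix (Fin n) (Fin n) F) (hY : Y * Y = 1) :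
    IsCompl (LinearMap.ker (Y - 1).mulVecLin) (LinearMap.ker (Y + 1).mulVecLin) := by
  constructor
  · rw [Submodule.disjoint_def]
    intro v hv1 hv2
    rw [LinearMap.mem_ker, Matrix.mulVecLin_apply, Matrix.sub_mulVec, Matrix.one_mulVec,
      sub_eq_zero] at hv1
    rw [LinearMap.mem_ker, Matrix.mulVecLin_apply, Matrix.add_mulVec, Matrix.one_mulVec,
      hv1] at hv2
    have h3 : (2 : F) • v = 0 := by rw [two_smul]; exact hv2
    exact (smul_eq_zero.mp h3).resolve_left h2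
  · rw [codisjoint_iff, eq_top_iff]
    intro v _
    have e1 : v = (2 : F)⁻¹ • (Y + 1).mulVec v + (-(2 : F)⁻¹) • (Y - 1).mulVec v := by
      rw [Matrix.add_mulVec, Matrix.sub_mulVec, Matrix.one_mulVec, smul_add, smul_sub, neg_smul,
        neg_smul]
      have : (2 : F)⁻¹ • v + (2 : F)⁻¹ • v = v := by
        rw [← add_smul, ← two_mul, mul_inv_cancel₀ h2, one_smul]
      calc v = (2 : F)⁻¹ • v + (2 : F)⁻¹ • v := this.symm
        _ = _ := by abel
    rw [e1]
    apply Submodule.add_mem_sup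
    · apply Submodule.smul_mem
      rw [LinearMap.mem_ker, Matrix.mulVecLin_apply, Matrix.mulVec_mulVec]
      have : (Y - 1) * (Y + 1) = 0 := by
        rw [sub_mul, mul_add, mul_one, one_mul, hY]; abel
      rw [this, Matrix.zero_mulVec]
    · apply Submodule.smul_mem
      rw [LinearMap.mem_ker, Matrix.mulVecLin_apply, Matrix.mulVec_mulVec]
      have : (Y + 1) * (Y - 1) = 0 := by
        rw [add_mul, mul_sub, mul_one, one_mul, hY]; abel
      rw [this, Matrix.zero_mulVec]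

theorem rank_add_ker {F : Type*} [Field F] {n : ℕ} (A : Matrix (Fin n) (Fin n) F) :
    A.rank + Module.finrank F (LinearMap.ker A.mulVecLin) = n := by
  have h := LinearMap.finrank_range_add_finrank_ker A.mulVecLin
  rw [Module.finrank_fin_fun] at h
  exact h

theorem invol_rank {F : Type*} [Field F] {n : ℕ} (h2 : (2 : F) ≠ 0)
    (Y : Matrix (Fin n) (Fin n) F) (hY : Y * Y = 1) :
    (Y - 1).rank + (Y + 1).rank = n := by
  have h1 := Submodule.finrank_add_eq_of_isCompl (invol_compl h2 Y hY)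
  rw [Module.finrank_fin_fun] at h1
  have h3 := rank_add_ker (Y - 1)
  have h4 := rank_add_ker (Y + 1)
  omega

theorem invol_conj {F : Type*} [Field F] {n : ℕ} (h2 : (2 : F) ≠ 0)
    (Y Y' : Matrix (Fin n) (Fin n) F) (hY : Y * Y = 1) (hY' : Y' * Y' = 1)
    (hr : (Y - 1).rank = (Y' - 1).rank) :
    ∃ E : GL (Fin n) F, (E : Matrix (Fin n) (Fin n) F) * Y = Y' * E := by
  have hc := invol_compl h2 Y hY
  have hc' := invol_compl h2 Y' hY'
  have h1 := Submodule.finrank_add_eq_of_isCompl hc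
  have h1' := Submodule.finrank_add_eq_of_isCompl hc'
  rw [Module.finrank_fin_fun] at h1 h1'
  have h3 := rank_add_ker (Y - 1)
  have h3' := rank_add_ker (Y' - 1)
  have hp : Module.finrank F (LinearMap.ker (Y - 1).mulVecLin) =
      Module.finrank F (LinearMap.ker (Y' - 1).mulVecLin) := by omega
  have hm : Module.finrank F (LinearMap.ker (Y + 1).mulVecLin) =
      Module.finrank F (LinearMap.ker (Y' + 1).mulVecLin) := by omega
  let ep := LinearEquiv.ofFinrankEq _ _ hp
  let em := LinearEquiv.ofFinrankEq _ _ hm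
  let e : (Fin n → F) ≃ₗ[F] (Fin n → F) :=
    ((Submodule.prodEquivOfIsCompl _ _ hc).symm.trans (ep.prodCongr em)).trans
      (Submodule.prodEquivOfIsCompl _ _ hc')
  apply lin_to_gl Y Y' e
  intro v
  obtain ⟨⟨a, b⟩, rfl⟩ := (Submodule.prodEquivOfIsCompl _ _ hc).surjective v
  have ha : Y.mulVec (a : Fin n → F) = a := by
    have := a.2
    rw [LinearMap.mem_ker, Matrix.mulVecLin_apply, Matrix.sub_mulVec, Matrix.one_mulVec,
      sub_eq_zero] at this
    exact this
  have hb : Y.mulVec (b : Fin n → F) = -b := by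
    have := b.2
    rw [LinearMap.mem_ker, Matrix.mulVecLin_apply, Matrix.add_mulVec, Matrix.one_mulVec] at this
    exact eq_neg_of_add_eq_zero_left this
  have ha' : Y'.mulVec ((ep a : _) : Fin n → F) = ep a := by
    have := (ep a).2
    rw [LinearMap.mem_ker, Matrix.mulVecLin_apply, Matrix.sub_mulVec, Matrix.one_mulVec,
      sub_eq_zero] at this
    exact this
  have hb' : Y'.mulVec ((em b : _) : Fin n → F) = -(em b) := by
    have := (em b).2
    rw [LinearMap.mem_ker, Matrix.mulVecLin_apply, Matrix.add_mulVec, Matrix.one_mulVec] at this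
    exact eq_neg_of_add_eq_zero_left this
  have e1 : Y.mulVecLin (Submodule.prodEquivOfIsCompl _ _ hc (a, b)) =
      Submodule.prodEquivOfIsCompl _ _ hc (a, -b) := by
    rw [Submodule.coe_prodEquivOfIsCompl', Submodule.coe_prodEquivOfIsCompl',
      Matrix.mulVecLin_apply, Matrix.mulVec_add, ha, hb]
    rfl
  rw [e1]
  have e2 : ∀ a b, e (Submodule.prodEquivOfIsCompl _ _ hc (a, b)) =
      (ep a : Fin n → F) + (em b : Fin n → F) := by
    intro a b
    show Submodule.prodEquivOfIsCompl _ _ hc' ((ep.prodCongr em)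
      ((Submodule.prodEquivOfIsCompl _ _ hc).symm (Submodule.prodEquivOfIsCompl _ _ hc (a, b)))) = _
    rw [LinearEquiv.symm_apply_apply, Submodule.coe_prodEquivOfIsCompl']
    rfl
  rw [e2, e2, Matrix.mulVecLin_apply, Matrix.mulVec_add, ha', hb', map_neg]
  rfl

theorem irr_sq_sub {F : Type*} [Field F] (l : F) (hl : ¬ IsSquare l) :
    Irreducible (X ^ 2 - C l : F[X]) := by
  apply Polynomial.irreducible_of_degree_le_three_of_not_isRoot
  · rw [natDegree_X_pow_sub_C]; simp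
  · intro x hx
    rw [IsRoot.def, eval_sub, eval_pow, eval_X, eval_C, sub_eq_zero] at hx
    exact hl ⟨x, by rw [← hx, pow_two]⟩

theorem charpoly_of_sq {F : Type*} [Field F] {n : ℕ} (M : Matrix (Fin n) (Fin n) F) (l : F)
    (hl : ¬ IsSquare l) (hM : M * M = l • 1) :
    ∃ j, n = 2 * j ∧ M.charpoly = (X ^ 2 - C l) ^ j := by
  have hirr := irr_sq_sub l hl
  have hN : (C : F →+* F[X]).mapMatrix M * (C : F →+* F[X]).mapMatrix M =
      Matrix.scalar (Fin n) (C l : F[X]) := by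
    rw [← map_mul, hM]
    ext i j
    simp [Matrix.scalar_apply, Matrix.diagonal_apply, Matrix.one_apply]
    split_ifs <;> simp
  have hcomm : Matrix.scalar (Fin n) (X : F[X]) * (C : F →+* F[X]).mapMatrix M =
      (C : F →+* F[X]).mapMatrix M * Matrix.scalar (Fin n) (X : F[X]) :=
    (Matrix.scalar_commute (X : F[X]) (fun r => Commute.all _ _) _).eq
  have hAB : M.charmatrix * (Matrix.scalar (Fin n) (X : F[X]) + (C : F →+* F[X]).mapMatrix M) =
      Matrix.scalar (Fin n) (X ^ 2 - C l : F[X]) := by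
    unfold Matrix.charmatrix
    rw [sub_mul, mul_add, mul_add, hN, hcomm, map_sub, pow_two, map_mul]
    abel
  have hdet := congrArg Matrix.det hAB
  have hs : (Matrix.scalar (Fin n) (X ^ 2 - C l : F[X])).det = (X ^ 2 - C l) ^ n := by
    rw [Matrix.scalar_apply, Matrix.det_diagonal, Finset.prod_const, Finset.card_univ,
      Fintype.card_fin]
  rw [Matrix.det_mul, hs] at hdet
  have hdvd : M.charpoly ∣ (X ^ 2 - C l : F[X]) ^ n := ⟨_, hdet.symm⟩
  obtain ⟨i, _, hi⟩ := (dvd_prime_pow hirr.prime n).mp hdvd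
  have hmon : ((X ^ 2 - C l : F[X]) ^ i).Monic := (monic_X_pow_sub_C l (by norm_num)).pow i
  have heq : M.charpoly = (X ^ 2 - C l) ^ i :=
    eq_of_monic_of_associated (Matrix.charpoly_monic M) hmon hi
  refine ⟨i, ?_, heq⟩
  have h1 := Matrix.charpoly_natDegree_eq_dim M
  rw [heq, natDegree_pow, natDegree_X_pow_sub_C, Fintype.card_fin] at h1
  omega

theorem coprime_of_sq {F : Type*} [Field F] [Fintype F] {p : ℕ} [Fact p.Prime] [CharP F p]
    (hp2 : p ≠ 2) {n : ℕ} (x : GL (Fin n) F) (l : F) (hl : l ≠ 0)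
    (hx : (x : Matrix (Fin n) (Fin n) F) * x = l • 1) : (orderOf x).Coprime p := by
  have h1 : x ^ (2 * (Fintype.card F - 1)) = 1 := by
    apply Units.ext
    rw [Units.val_pow_eq_pow_val, pow_mul, pow_two, hx, _root_.smul_pow, one_pow,
      FiniteField.pow_card_sub_one_eq_one l hl, one_smul]
    rfl
  have h2 := orderOf_dvd_of_pow_eq_one h1
  rw [Nat.coprime_comm, Nat.Prime.coprime_iff_not_dvd Fact.out]
  intro h3
  have h4 := h3.trans h2
  rcases (Nat.Prime.dvd_mul Fact.out).mp h4 with h5 | h5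
  · exact hp2 ((Nat.prime_dvd_prime_iff_eq Fact.out Nat.prime_two).mp h5)
  · obtain ⟨k, hk, hq⟩ := FiniteField.card F p
    have h6 : p ∣ Fintype.card F := by rw [hq]; exact dvd_pow_self p k.ne_zero
    have h7 : p ∣ 1 := by
      have e : Fintype.card F - 1 + 1 = Fintype.card F := Nat.sub_add_cancel Fintype.card_pos
      rw [← e] at h6
      exact (Nat.dvd_add_right h5).mp h6
    exact (Fact.out : p.Prime).one_lt.ne' (Nat.dvd_one.mp h7)

def scal {F : Type*} [Field F] (n : ℕ) (d : F) (hd : d ≠ 0) : GL (Fin n) F :=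
  ⟨d • 1, d⁻¹ • 1, by rw [smul_mul_smul_comm, mul_one, mul_inv_cancel₀ hd, one_smul],
    by rw [smul_mul_smul_comm, mul_one, inv_mul_cancel₀ hd, one_smul]⟩

theorem mem_center_iff' {F : Type*} [Field F] {n : ℕ} (g : GL (Fin n) F) :
    g ∈ Subgroup.center (GL (Fin n) F) ↔ ∃ d : F, (g : Matrix (Fin n) (Fin n) F) = d • 1 := by
  rw [Matrix.GeneralLinearGroup.mem_center_iff_val_mem_range_scalar]
  have e : ∀ d : F, Matrix.scalar (Fin n) d = d • (1 : Matrix (Fin n) (Fin n) F) := by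
    intro d
    rw [Matrix.scalar_apply, Matrix.smul_one_eq_diagonal]
  constructor
  · rintro ⟨d, hd⟩; exact ⟨d, by rw [← hd, e]⟩
  · rintro ⟨d, hd⟩; exact ⟨d, by rw [hd, e]⟩

theorem scal_mem {F : Type*} [Field F] (n : ℕ) (d : F) (hd : d ≠ 0) :
    scal n d hd ∈ Subgroup.center (GL (Fin n) F) :=
  (mem_center_iff' _).mpr ⟨d, rfl⟩

theorem pconj_of {F : Type*} [Field F] {n : ℕ} (x y E : GL (Fin n) F) (d : F) (hd : d ≠ 0)
    (h : (y : Matrix (Fin n) (Fin n) F) * E = d • ((E : Matrix (Fin n) (Fin n) F) * x)) :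
    ConjClasses.mk (QuotientGroup.mk x : GL (Fin n) F ⧸ Subgroup.center (GL (Fin n) F)) =
      ConjClasses.mk (QuotientGroup.mk y) := by
  rw [ConjClasses.mk_eq_mk_iff_isConj, isConj_iff]
  refine ⟨QuotientGroup.mk E, ?_⟩
  have h1 : y * E = scal n d hd * E * x := by
    apply Units.ext
    rw [Units.val_mul, Units.val_mul, Units.val_mul, h]
    show d • ((E : Matrix (Fin n) (Fin n) F) * x) = d • (1 : Matrix (Fin n) (Fin n) F) * E * x
    rw [Matrix.smul_mul, Matrix.smul_mul, one_mul]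
  have hy : y = scal n d hd * E * x * E⁻¹ := by rw [← h1]; group
  rw [hy, QuotientGroup.mk_mul, QuotientGroup.mk_mul, QuotientGroup.mk_mul, QuotientGroup.mk_inv,
    (QuotientGroup.eq_one_iff _).mpr (scal_mem n d hd), one_mul]

theorem of_pconj {F : Type*} [Field F] {n : ℕ} (hn : 0 < n) (x y : GL (Fin n) F)
    (h : ConjClasses.mk (QuotientGroup.mk x : GL (Fin n) F ⧸ Subgroup.center (GL (Fin n) F)) =
      ConjClasses.mk (QuotientGroup.mk y)) :
    ∃ (E : GL (Fin n) F) (d : F), d ≠ 0 ∧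
      (y : Matrix (Fin n) (Fin n) F) * E = d • ((E : Matrix (Fin n) (Fin n) F) * x) := by
  rw [ConjClasses.mk_eq_mk_iff_isConj, isConj_iff] at h
  obtain ⟨c, hc⟩ := h
  obtain ⟨E, rfl⟩ := QuotientGroup.mk_surjective c
  rw [← QuotientGroup.mk_inv, ← QuotientGroup.mk_mul, ← QuotientGroup.mk_mul,
    QuotientGroup.eq] at hc
  obtain ⟨d, hd⟩ := (mem_center_iff' _).mp hc
  have hd0 : d ≠ 0 := by
    rintro rfl
    rw [zero_smul] at hd
    have h1 : (1 : Matrix (Fin n) (Fin n) F) = 0 := by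
      rw [← Units.mul_inv ((E * x * E⁻¹)⁻¹ * y), hd, zero_mul]
    have h2 := congrFun (congrFun h1 ⟨0, hn⟩) ⟨0, hn⟩
    simp at h2
  refine ⟨E, d, hd0, ?_⟩
  have hy : y = E * x * E⁻¹ * ((E * x * E⁻¹)⁻¹ * y) := by group
  have hy' : (y : Matrix (Fin n) (Fin n) F) =
      (E : Matrix (Fin n) (Fin n) F) * x * (E⁻¹ : GL (Fin n) F) * (d • 1) := by
    conv_lhs => rw [hy]
    rw [Units.val_mul, hd, Units.val_mul, Units.val_mul]
  rw [hy', Matrix.mul_smul, mul_one, Matrix.smul_mul, mul_assoc, mul_assoc]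
  congr 2
  rw [← Units.val_mul, inv_mul_cancel, Units.val_one, mul_one]

theorem order_two_iff {F : Type*} [Field F] {n : ℕ} (x : GL (Fin n) F) :
    orderOf (QuotientGroup.mk x : GL (Fin n) F ⧸ Subgroup.center (GL (Fin n) F)) = 2 ↔
      x ∉ Subgroup.center (GL (Fin n) F) ∧ x * x ∈ Subgroup.center (GL (Fin n) F) := by
  haveI : Fact (Nat.Prime 2) := ⟨Nat.prime_two⟩
  rw [orderOf_eq_prime_iff, ← QuotientGroup.mk_pow, QuotientGroup.eq_one_iff, pow_two,
    Ne, QuotientGroup.eq_one_iff, and_comm]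

def Dm {F : Type*} [Field F] (n k : ℕ) : Matrix (Fin n) (Fin n) F :=
  Matrix.diagonal (fun i : Fin n => if i.val < k then (-1 : F) else 1)

theorem Dm_sq {F : Type*} [Field F] (n k : ℕ) : (Dm n k : Matrix (Fin n) (Fin n) F) * Dm n k = 1 := by
  unfold Dm
  rw [Matrix.diagonal_mul_diagonal, ← Matrix.diagonal_one]
  congr 1
  funext i
  split_ifs <;> simp

def DG {F : Type*} [Field F] (n k : ℕ) : GL (Fin n) F := ⟨Dm n k, Dm n k, Dm_sq n k, Dm_sq n k⟩

theorem Dm_rank {F : Type*} [Field F] (h2 : (2 : F) ≠ 0) (n k : ℕ) (hk : k ≤ n) :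
    (Dm n k - 1 : Matrix (Fin n) (Fin n) F).rank = k := by
  classical
  have e1 : (Dm n k - 1 : Matrix (Fin n) (Fin n) F) =
      Matrix.diagonal (fun i : Fin n => if i.val < k then (-2 : F) else 0) := by
    unfold Dm
    rw [← Matrix.diagonal_one, Matrix.diagonal_sub]
    congr 1
    funext i
    split_ifs <;> norm_num
  rw [e1, Matrix.rank_diagonal, Fintype.card_subtype]
  have e2 : (Finset.univ.filter (fun i : Fin n => (if i.val < k then (-2 : F) else 0) ≠ 0)) =
      Finset.univ.filter (fun i : Fin n => i.val < k) := by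
    apply Finset.filter_congr
    intro i _
    split_ifs with h <;> simp [h, h2]
  rw [e2, Fin.card_filter_val_lt, min_eq_right hk]

theorem DG_not_center {F : Type*} [Field F] (h2 : (2 : F) ≠ 0) (n k : ℕ) (hk1 : 1 ≤ k)
    (hk : k < n) : (DG n k : GL (Fin n) F) ∉ Subgroup.center (GL (Fin n) F) := by
  rw [mem_center_iff']
  rintro ⟨d, hd⟩
  have h0 := congrFun (congrFun hd ⟨0, by omega⟩) ⟨0, by omega⟩
  have h1 := congrFun (congrFun hd ⟨n - 1, by omega⟩) ⟨n - 1, by omega⟩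
  simp only [DG, Dm, Matrix.diagonal_apply_eq, Matrix.smul_apply, Matrix.one_apply_eq,
    smul_eq_mul, mul_one] at h0 h1
  rw [if_pos (by omega)] at h0
  rw [if_neg (by omega)] at h1
  apply h2
  have : (1 : F) = -1 := by rw [h0, h1]
  linear_combination this

theorem exists_sq {F : Type*} [Field F] (j : ℕ) (μ : F) :
    ∃ N : Matrix (Fin (2 * j)) (Fin (2 * j)) F, N * N = μ • 1 := by
  let B : Matrix (Fin 2 × Fin j) (Fin 2 × Fin j) F :=
    Matrix.blockDiagonal (fun _ : Fin j => !![0, 1; μ, 0])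
  have hB : B * B = μ • 1 := by
    rw [← Matrix.blockDiagonal_mul]
    have e : (fun k : Fin j => (!![0, 1; μ, 0] : Matrix (Fin 2) (Fin 2) F) * !![0, 1; μ, 0]) =
        μ • (1 : Fin j → Matrix (Fin 2) (Fin 2) F) := by
      funext k
      ext a b
      fin_cases a <;> fin_cases b <;> simp [Matrix.mul_apply, Fin.sum_univ_two, Matrix.one_apply]
    rw [e, Matrix.blockDiagonal_smul, Matrix.blockDiagonal_one]
  refine ⟨Matrix.reindexAlgEquiv F F finProdFinEquiv B, ?_⟩
  rw [← map_mul, hB, map_smul, map_one]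

theorem rank_neg' {F : Type*} [Field F] {n : ℕ} (A : Matrix (Fin n) (Fin n) F) :
    (-A).rank = A.rank := by
  have h : IsUnit (-1 : Matrix (Fin n) (Fin n) F).det := by
    rw [Matrix.det_neg, Matrix.det_one, mul_one]
    exact (isUnit_one.neg).pow _
  rw [← Matrix.rank_mul_eq_right_of_isUnit_det (-1) A h, neg_one_mul]

theorem unit_det {F : Type*} [Field F] {n : ℕ} (E : GL (Fin n) F) :
    IsUnit (E : Matrix (Fin n) (Fin n) F).det :=
  (Matrix.isUnit_iff_isUnit_det _).mp E.isUnit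

theorem eq_zero_of_rank {F : Type*} [Field F] {n : ℕ} (A : Matrix (Fin n) (Fin n) F)
    (h : A.rank = 0) : A = 0 := by
  unfold Matrix.rank at h
  rw [Submodule.finrank_eq_zero, LinearMap.range_eq_bot] at h
  have h2 : Matrix.toLin' A = 0 := by rw [Matrix.toLin'_apply', h]
  exact (LinearEquiv.map_eq_zero_iff _).mp h2

theorem sq_rel {F : Type*} [Field F] {n : ℕ} (hn : 0 < n) (A B : Matrix (Fin n) (Fin n) F)
    (E : GL (Fin n) F) (a b d : F) (hA : A * A = a • 1) (hB : B * B = b • 1)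
    (h : A * (E : Matrix (Fin n) (Fin n) F) = d • ((E : Matrix (Fin n) (Fin n) F) * B)) :
    a = d * d * b := by
  have h1 : a • (E : Matrix (Fin n) (Fin n) F) = (d * d * b) • (E : Matrix (Fin n) (Fin n) F) := by
    calc a • (E : Matrix (Fin n) (Fin n) F) = (a • 1) * E := by rw [Matrix.smul_mul, one_mul]
      _ = A * (A * E) := by rw [← hA, mul_assoc]
      _ = d • ((A * E) * B) := by rw [h, Matrix.mul_smul, ← mul_assoc, h, Matrix.smul_mul]
      _ = d • (d • ((E : Matrix (Fin n) (Fin n) F) * (B * B))) := by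
          rw [h, Matrix.smul_mul, mul_assoc]
      _ = (d * d * b) • (E : Matrix (Fin n) (Fin n) F) := by
          rw [hB, Matrix.mul_smul, mul_one, smul_smul, smul_smul]
  have h2 : a • (1 : Matrix (Fin n) (Fin n) F) = (d * d * b) • 1 := by
    have e : ∀ c : F, c • (1 : Matrix (Fin n) (Fin n) F) =
        (c • (E : Matrix (Fin n) (Fin n) F)) * (E⁻¹ : GL (Fin n) F) := by
      intro c
      rw [Matrix.smul_mul, ← Units.val_mul, mul_inv_cancel, Units.val_one]
    rw [e a, e (d * d * b), h1]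
  have h3 := congrFun (congrFun h2 ⟨0, hn⟩) ⟨0, hn⟩
  simpa using h3

theorem unit_ne_zero {F : Type*} [Field F] {n : ℕ} (hn : 0 < n) (g : GL (Fin n) F) :
    (g : Matrix (Fin n) (Fin n) F) ≠ 0 := by
  intro h
  have h1 : (1 : Matrix (Fin n) (Fin n) F) = 0 := by
    rw [← Units.mul_inv g, h, zero_mul]
  have h2 := congrFun (congrFun h1 ⟨0, hn⟩) ⟨0, hn⟩
  simp at h2

theorem inj_DD {F : Type*} [Field F] (h2 : (2 : F) ≠ 0) {n : ℕ} (hn : 0 < n) (k j : ℕ)
    (hk : k ≤ n / 2) (hj : j ≤ n / 2)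
    (h : ConjClasses.mk (QuotientGroup.mk (DG n k) :
        GL (Fin n) F ⧸ Subgroup.center (GL (Fin n) F)) =
      ConjClasses.mk (QuotientGroup.mk (DG n j))) : k = j := by
  obtain ⟨E, d, hd, hE⟩ := of_pconj hn _ _ h
  have hE' : (Dm n j : Matrix (Fin n) (Fin n) F) * (E : Matrix (Fin n) (Fin n) F) =
      d • ((E : Matrix (Fin n) (Fin n) F) * Dm n k) := hE
  have hDj : (Dm n j : Matrix (Fin n) (Fin n) F) * Dm n j = (1 : F) • 1 := by
    rw [Dm_sq, one_smul]
  have hDk : (Dm n k : Matrix (Fin n) (Fin n) F) * Dm n k = (1 : F) • 1 := by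
    rw [Dm_sq, one_smul]
  have hdd := sq_rel hn (Dm n j) (Dm n k) E 1 1 d hDj hDk hE'
  rw [mul_one] at hdd
  have hrk := Dm_rank h2 n k (by omega)
  have hrj := Dm_rank h2 n j (by omega)
  rcases mul_self_eq_one_iff.mp hdd.symm with h1 | h1
  · subst h1
    rw [one_smul] at hE'
    have e1 : (Dm n j - 1 : Matrix (Fin n) (Fin n) F) * (E : Matrix (Fin n) (Fin n) F) =
        (E : Matrix (Fin n) (Fin n) F) * (Dm n k - 1) := by
      rw [sub_mul, mul_sub, hE', one_mul, mul_one]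
    have e2 := congrArg Matrix.rank e1
    rw [Matrix.rank_mul_eq_left_of_isUnit_det _ _ (unit_det E),
      Matrix.rank_mul_eq_right_of_isUnit_det _ _ (unit_det E), hrk, hrj] at e2
    exact e2.symm
  · subst h1
    rw [neg_one_smul] at hE'
    have e1 : (Dm n j - 1 : Matrix (Fin n) (Fin n) F) * (E : Matrix (Fin n) (Fin n) F) =
        -((E : Matrix (Fin n) (Fin n) F) * (Dm n k + 1)) := by
      rw [sub_mul, mul_add, hE', one_mul, mul_one]; abel
    have e2 := congrArg Matrix.rank e1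
    rw [Matrix.rank_mul_eq_left_of_isUnit_det _ _ (unit_det E), rank_neg',
      Matrix.rank_mul_eq_right_of_isUnit_det _ _ (unit_det E), hrj] at e2
    have e3 := invol_rank h2 (Dm n k) (Dm_sq n k)
    rw [hrk] at e3
    omega

theorem inj_DN {F : Type*} [Field F] {n : ℕ} (hn : 0 < n) (k : ℕ) (N : GL (Fin n) F) (μ : F)
    (hμ : ¬ IsSquare μ) (hN : (N : Matrix (Fin n) (Fin n) F) * N = μ • 1)
    (h : ConjClasses.mk (QuotientGroup.mk (DG n k) :
        GL (Fin n) F ⧸ Subgroup.center (GL (Fin n) F)) =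
      ConjClasses.mk (QuotientGroup.mk N)) : False := by
  obtain ⟨E, d, hd, hE⟩ := of_pconj hn _ _ h
  have hDk : (Dm n k : Matrix (Fin n) (Fin n) F) * Dm n k = (1 : F) • 1 := by
    rw [Dm_sq, one_smul]
  have hdd := sq_rel hn (N : Matrix (Fin n) (Fin n) F) (Dm n k) E μ 1 d hN hDk hE
  rw [mul_one] at hdd
  exact hμ ⟨d, hdd⟩

theorem classify {F : Type*} [Field F] (h2 : (2 : F) ≠ 0) {n : ℕ} (hn : 2 ≤ n)
    (x : GL (Fin n) F)
    (hx : orderOf (QuotientGroup.mk x : GL (Fin n) F ⧸ Subgroup.center (GL (Fin n) F)) = 2) :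
    (∃ k, 1 ≤ k ∧ k ≤ n / 2 ∧ ConjClasses.mk (QuotientGroup.mk x :
        GL (Fin n) F ⧸ Subgroup.center (GL (Fin n) F)) =
      ConjClasses.mk (QuotientGroup.mk (DG n k))) ∨
    (∃ l : F, ¬ IsSquare l ∧ (x : Matrix (Fin n) (Fin n) F) * x = l • 1) := by
  obtain ⟨hxZ, hxx⟩ := (order_two_iff x).mp hx
  obtain ⟨l, hl⟩ := (mem_center_iff' _).mp hxx
  rw [Units.val_mul] at hl
  by_cases hsq : IsSquare l
  · left
    obtain ⟨c, hc⟩ := hsq
    have hc0 : c ≠ 0 := by
      rintro rfl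
      rw [hc, mul_zero, zero_smul, ← Units.val_mul] at hl
      exact unit_ne_zero (by omega) _ hl
    have hY : (c⁻¹ • (x : Matrix (Fin n) (Fin n) F)) * (c⁻¹ • (x : Matrix (Fin n) (Fin n) F)) = 1 := by
      rw [smul_mul_smul_comm, hl, smul_smul, hc]
      have : c⁻¹ * c⁻¹ * (c * c) = 1 := by field_simp
      rw [this, one_smul]
    have hr0 : (c⁻¹ • (x : Matrix (Fin n) (Fin n) F) - 1).rank ≠ 0 := by
      intro h
      have h1 := eq_zero_of_rank _ h
      apply hxZ
      rw [mem_center_iff']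
      refine ⟨c, ?_⟩
      have h3 : c⁻¹ • (x : Matrix (Fin n) (Fin n) F) = 1 := sub_eq_zero.mp h1
      calc (x : Matrix (Fin n) (Fin n) F) = c • (c⁻¹ • (x : Matrix (Fin n) (Fin n) F)) := by
            rw [smul_smul, mul_inv_cancel₀ hc0, one_smul]
        _ = c • 1 := by rw [h3]
    have hr1 : (c⁻¹ • (x : Matrix (Fin n) (Fin n) F) + 1).rank ≠ 0 := by
      intro h
      have h1 := eq_zero_of_rank _ h
      apply hxZ
      rw [mem_center_iff']
      refine ⟨-c, ?_⟩
      have h3 : c⁻¹ • (x : Matrix (Fin n) (Fin n) F) = -1 := eq_neg_of_add_eq_zero_left h1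
      calc (x : Matrix (Fin n) (Fin n) F) = c • (c⁻¹ • (x : Matrix (Fin n) (Fin n) F)) := by
            rw [smul_smul, mul_inv_cancel₀ hc0, one_smul]
        _ = (-c) • 1 := by rw [h3, smul_neg, neg_smul]
    have hsum := invol_rank h2 _ hY
    by_cases hr : (c⁻¹ • (x : Matrix (Fin n) (Fin n) F) - 1).rank ≤ n / 2
    · refine ⟨_, Nat.one_le_iff_ne_zero.mpr hr0, hr, ?_⟩
      obtain ⟨E, hE⟩ := invol_conj h2 _ (Dm n (c⁻¹ • (x : Matrix (Fin n) (Fin n) F) - 1).rank) hY
        (Dm_sq n _) (by rw [Dm_rank h2 n _ (by omega)])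
      apply pconj_of x _ E c⁻¹ (inv_ne_zero hc0)
      show (Dm n _ : Matrix (Fin n) (Fin n) F) * E = _
      rw [← hE, Matrix.mul_smul]
    · refine ⟨(c⁻¹ • (x : Matrix (Fin n) (Fin n) F) + 1).rank, Nat.one_le_iff_ne_zero.mpr hr1,
        by omega, ?_⟩
      have hY' : (-(c⁻¹ • (x : Matrix (Fin n) (Fin n) F))) * (-(c⁻¹ • (x : Matrix (Fin n) (Fin n) F))) = 1 := by
        rw [neg_mul_neg, hY]
      have hrank : (-(c⁻¹ • (x : Matrix (Fin n) (Fin n) F)) - 1).rank =
          (c⁻¹ • (x : Matrix (Fin n) (Fin n) F) + 1).rank := by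
        rw [← rank_neg']
        congr 1
        abel
      obtain ⟨E, hE⟩ := invol_conj h2 _ (Dm n (c⁻¹ • (x : Matrix (Fin n) (Fin n) F) + 1).rank) hY'
        (Dm_sq n _) (by rw [Dm_rank h2 n _ (by omega), hrank])
      apply pconj_of x _ E (-c⁻¹) (neg_ne_zero.mpr (inv_ne_zero hc0))
      show (Dm n _ : Matrix (Fin n) (Fin n) F) * E = _
      rw [← hE, Matrix.mul_neg, Matrix.mul_smul, neg_smul]
  · right
    exact ⟨l, hsq, hl⟩

theorem typeB_conj {F : Type*} [Field F] [Fintype F] {p : ℕ} [Fact p.Prime] [CharP F p]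
    (hp2 : p ≠ 2) {n : ℕ} (x N : GL (Fin n) F) (l μ : F) (hl : ¬ IsSquare l) (hμ : ¬ IsSquare μ)
    (hx : (x : Matrix (Fin n) (Fin n) F) * x = l • 1)
    (hN : (N : Matrix (Fin n) (Fin n) F) * N = μ • 1) :
    ConjClasses.mk (QuotientGroup.mk x : GL (Fin n) F ⧸ Subgroup.center (GL (Fin n) F)) =
      ConjClasses.mk (QuotientGroup.mk N) := by
  classical
  have hl0 : l ≠ 0 := by rintro rfl; exact hl ⟨0, by simp⟩
  have hμ0 : μ ≠ 0 := by rintro rfl; exact hμ ⟨0, by simp⟩
  have hF2 : ringChar F ≠ 2 := by rw [ringChar.eq F p]; exact hp2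
  have hχ : quadraticChar F (l * μ) = 1 := by
    rw [map_mul, quadraticChar_neg_one_iff_not_isSquare.mpr hl,
      quadraticChar_neg_one_iff_not_isSquare.mpr hμ]
    norm_num
  obtain ⟨e, he⟩ := (quadraticChar_one_iff_isSquare (mul_ne_zero hl0 hμ0)).mp hχ
  have he0 : e ≠ 0 := by
    rintro rfl
    rw [mul_zero] at he
    exact mul_ne_zero hl0 hμ0 he
  -- d = e / μ, l = d^2 μ
  have hd0 : e / μ ≠ 0 := div_ne_zero he0 hμ0
  have hld : (e / μ)⁻¹ * (e / μ)⁻¹ * l = μ := by
    field_simp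
    rw [pow_two, ← he]; ring
  let x' : GL (Fin n) F := x * scal n (e / μ)⁻¹ (inv_ne_zero hd0)
  have hx'v : (x' : Matrix (Fin n) (Fin n) F) = (e / μ)⁻¹ • (x : Matrix (Fin n) (Fin n) F) := by
    show (x : Matrix (Fin n) (Fin n) F) * ((e / μ)⁻¹ • 1) = _
    rw [Matrix.mul_smul, mul_one]
  have hx' : (x' : Matrix (Fin n) (Fin n) F) * x' = μ • 1 := by
    rw [hx'v, smul_mul_smul_comm, hx, smul_smul, hld]
  obtain ⟨j, hj, hcx⟩ := charpoly_of_sq _ μ hμ hx'
  obtain ⟨j', hj', hcN⟩ := charpoly_of_sq _ μ hμ hN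
  have hjj : j = j' := by omega
  subst hjj
  obtain ⟨E, hE⟩ := Cfsg.Agent.S2388.gl_conj_of_charpoly x' N (coprime_of_sq hp2 x' μ hμ0 hx')
    (coprime_of_sq hp2 N μ hμ0 hN) (by rw [hcx, hcN])
  apply pconj_of x N E (e / μ)⁻¹ (inv_ne_zero hd0)
  have h1 : N * E = E * x' := by rw [← hE]; group
  have h2 := congrArg Units.val h1
  rw [Units.val_mul, Units.val_mul, hx'v, Matrix.mul_smul] at h2
  exact h2

theorem card_of_reps {S : Type*} (m : ℕ) (f : Fin m → S) (hinj : Function.Injective f)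
    (hsurj : Function.Surjective f) : Nat.card S = m := by
  rw [← Nat.card_congr (Equiv.ofBijective f ⟨hinj, hsurj⟩), Nat.card_eq_fintype_card,
    Fintype.card_fin]

theorem main {F : Type*} [Field F] [Fintype F] {q : ℕ} (hF : Fintype.card F = q) (hq : Odd q)
    {n : ℕ} (hn : 2 ≤ n) :
    Nat.card {C : ConjClasses (GL (Fin n) F ⧸ Subgroup.center (GL (Fin n) F)) //
      ∃ g : GL (Fin n) F ⧸ Subgroup.center (GL (Fin n) F), ConjClasses.mk g = C ∧ orderOf g = 2} =
      n / 2 + (if Even n then 1 else 0) := by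
  classical
  obtain ⟨p, hchar⟩ := CharP.exists F
  haveI := hchar
  haveI : Fact p.Prime := ⟨CharP.char_is_prime F p⟩
  obtain ⟨k, _, hqk⟩ := FiniteField.card F p
  have hp2 : p ≠ 2 := by
    rintro rfl
    rw [hF] at hqk
    rw [hqk] at hq
    exact (Nat.not_even_iff_odd.mpr hq) (Nat.even_pow.mpr ⟨even_two, k.ne_zero⟩)
  have h2 : (2 : F) ≠ 0 := by
    intro h
    have h' : ((2 : ℕ) : F) = 0 := by exact_mod_cast h
    have := (CharP.cast_eq_zero_iff F p 2).mp h'
    exact hp2 ((Nat.prime_dvd_prime_iff_eq Fact.out Nat.prime_two).mp this)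
  have hF2 : ringChar F ≠ 2 := by rw [ringChar.eq F p]; exact hp2
  have hDord : ∀ k, 1 ≤ k → k ≤ n / 2 →
      orderOf (QuotientGroup.mk (DG n k) : GL (Fin n) F ⧸ Subgroup.center (GL (Fin n) F)) = 2 := by
    intro k hk1 hk
    rw [order_two_iff]
    refine ⟨DG_not_center h2 n k hk1 (by omega), ?_⟩
    have : (DG n k : GL (Fin n) F) * DG n k = 1 := Units.ext (Dm_sq n k)
    rw [this]
    exact one_mem _
  obtain ⟨A, hA⟩ : ∃ A : (k : ℕ) → 1 ≤ k → k ≤ n / 2 →
      {C : ConjClasses (GL (Fin n) F ⧸ Subgroup.center (GL (Fin n) F)) //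
        ∃ g : GL (Fin n) F ⧸ Subgroup.center (GL (Fin n) F), ConjClasses.mk g = C ∧ orderOf g = 2},
      ∀ k h1 h2, (A k h1 h2).val = ConjClasses.mk (QuotientGroup.mk (DG n k)) :=
    ⟨fun k hk1 hk => ⟨ConjClasses.mk (QuotientGroup.mk (DG n k)), _, rfl, hDord k hk1 hk⟩,
      fun _ _ _ => rfl⟩
  have hAinj : ∀ k j hk1 hk hj1 hj, A k hk1 hk = A j hj1 hj → k = j := by
    intro k j hk1 hk hj1 hj h
    have h' := congrArg Subtype.val h
    rw [hA, hA] at h'
    exact inj_DD h2 (by omega) k j hk hj h'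
  by_cases hev : Even n
  · rw [if_pos hev]
    obtain ⟨j, hj⟩ := hev
    have hj2 : n = 2 * j := by omega
    obtain ⟨μ, hμ⟩ := FiniteField.exists_nonsquare hF2
    have hμ0 : μ ≠ 0 := by rintro rfl; exact hμ ⟨0, by simp⟩
    obtain ⟨N, hN⟩ : ∃ N : Matrix (Fin n) (Fin n) F, N * N = μ • 1 := by
      rw [hj2]; exact exists_sq j μ
    let NG : GL (Fin n) F := ⟨N, μ⁻¹ • N,
      by rw [Matrix.mul_smul, hN, smul_smul, inv_mul_cancel₀ hμ0, one_smul],
      by rw [Matrix.smul_mul, hN, smul_smul, inv_mul_cancel₀ hμ0, one_smul]⟩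
    have hNG : (NG : Matrix (Fin n) (Fin n) F) * NG = μ • 1 := hN
    have hNord : orderOf (QuotientGroup.mk NG :
        GL (Fin n) F ⧸ Subgroup.center (GL (Fin n) F)) = 2 := by
      rw [order_two_iff]
      constructor
      · rw [mem_center_iff']
        rintro ⟨d, hd⟩
        have hd' : N = d • 1 := hd
        rw [hd', smul_mul_smul_comm, mul_one] at hN
        have h3 := congrFun (congrFun hN ⟨0, by omega⟩) ⟨0, by omega⟩
        simp only [Matrix.smul_apply, Matrix.one_apply_eq, smul_eq_mul, mul_one] at h3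
        exact hμ ⟨d, h3.symm⟩
      · rw [mem_center_iff']
        exact ⟨μ, hNG⟩
    let f : Fin (n / 2 + 1) →
        {C : ConjClasses (GL (Fin n) F ⧸ Subgroup.center (GL (Fin n) F)) //
          ∃ g : GL (Fin n) F ⧸ Subgroup.center (GL (Fin n) F), ConjClasses.mk g = C ∧ orderOf g = 2} :=
      fun i => if h : i.val < n / 2 then A (i.val + 1) (by omega) (by omega)
        else ⟨ConjClasses.mk (QuotientGroup.mk NG), _, rfl, hNord⟩
    have hf1 : ∀ (i : Fin (n / 2 + 1)) (h : i.val < n / 2),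
        f i = A (i.val + 1) (by omega) (by omega) := fun i h => dif_pos h
    have hf2 : ∀ (i : Fin (n / 2 + 1)) (h : ¬ i.val < n / 2),
        f i = ⟨ConjClasses.mk (QuotientGroup.mk NG), _, rfl, hNord⟩ := fun i h => dif_neg h
    apply card_of_reps (n / 2 + 1) f
    · intro a b hab
      by_cases ha : a.val < n / 2 <;> by_cases hb : b.val < n / 2
      · rw [hf1 a ha, hf1 b hb] at hab
        have := hAinj (a.val + 1) (b.val + 1) _ _ _ _ hab
        exact Fin.ext (by omega)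
      · rw [hf1 a ha, hf2 b hb] at hab
        have h' := congrArg Subtype.val hab
        rw [hA] at h'
        exact (inj_DN (by omega) _ NG μ hμ hNG h').elim
      · rw [hf2 a ha, hf1 b hb] at hab
        have h' := congrArg Subtype.val hab
        rw [hA] at h'
        exact (inj_DN (by omega) _ NG μ hμ hNG h'.symm).elim
      · exact Fin.ext (by have := a.2; have := b.2; omega)
    · rintro ⟨C, g, rfl, hg⟩
      obtain ⟨x, rfl⟩ := QuotientGroup.mk_surjective g
      rcases classify h2 hn x hg with ⟨k, hk1, hk, hc⟩ | ⟨l, hl, hxl⟩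
      · refine ⟨⟨k - 1, by omega⟩, ?_⟩
        have hlt : k - 1 < n / 2 := by omega
        rw [hf1 ⟨k - 1, by omega⟩ hlt]
        apply Subtype.ext
        rw [hA]
        show ConjClasses.mk (QuotientGroup.mk (DG n (k - 1 + 1))) = _
        rw [Nat.sub_add_cancel hk1]
        exact hc.symm
      · refine ⟨⟨n / 2, by omega⟩, ?_⟩
        have hlt : ¬ (n / 2 < n / 2) := lt_irrefl _
        rw [hf2 ⟨n / 2, by omega⟩ hlt]
        apply Subtype.ext
        exact (typeB_conj hp2 x NG l μ hl hμ hxl hNG).symm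
  · rw [if_neg hev, add_zero]
    let f : Fin (n / 2) →
        {C : ConjClasses (GL (Fin n) F ⧸ Subgroup.center (GL (Fin n) F)) //
          ∃ g : GL (Fin n) F ⧸ Subgroup.center (GL (Fin n) F), ConjClasses.mk g = C ∧ orderOf g = 2} :=
      fun i => A (i.val + 1) (by omega) (by have := i.2; omega)
    apply card_of_reps (n / 2) f
    · intro a b hab
      have := hAinj (a.val + 1) (b.val + 1) _ _ _ _ hab
      exact Fin.ext (by omega)
    · rintro ⟨C, g, rfl, hg⟩
      obtain ⟨x, rfl⟩ := QuotientGroup.mk_surjective g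
      rcases classify h2 hn x hg with ⟨k, hk1, hk, hc⟩ | ⟨l, hl, hxl⟩
      · refine ⟨⟨k - 1, by omega⟩, ?_⟩
        apply Subtype.ext
        show (A (k - 1 + 1) _ _).val = _
        rw [hA, Nat.sub_add_cancel hk1]
        exact hc.symm
      · exfalso
        obtain ⟨j, hj, _⟩ := charpoly_of_sq _ l hl hxl
        exact hev ⟨j, by omega⟩


theorem result {F : Type*} [Field F] [Fintype F] {q : ℕ} (hF : Fintype.card F = q) (hq : Odd q) {n : ℕ} (hn : 2 ≤ n) : Nat.card {C : ConjClasses (GL (Fin n) F ⧸ Subgroup.center (GL (Fin n) F)) // ∃ g : GL (Fin n) F ⧸ Subgroup.center (GL (Fin n) F), ConjClasses.mk g = C ∧ orderOf g = 2} = n / 2 + (if Even n then 1 else 0) := by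
  exact main hF hq hn

end Cfsg.Agent.S2577
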