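import Cfsg.Statements.S2578
import Mathlib
import Cfsg.Agent.S2571

set_option autoImplicit false
open Cfsg

set_option maxHeartbeats 1000000
namespace Cfsg.Agent.S2578

open Matrix

/-- determinant of scalar plus nilpotent -/
theorem det_scalar_add_nilpotent {F : Type*} [Field F] {n : ℕ} (B : Matrix (Fin n) (Fin n) F)
    (hB : IsNilpotent B) (c : F) : (Matrix.scalar (Fin n) c + B).det = c ^ n := by
  have h1 : IsNilpotent (-B) := hB.neg
  have h2 := Matrix.isNilpotent_charpoly_sub_pow_of_isNilpotent h1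
  have h3 : (-B).charpoly = Polynomial.X ^ n := by
    have h := h2.eq_zero
    rw [Fintype.card_fin] at h
    exact sub_eq_zero.1 h
  have h4 := Matrix.eval_charpoly (-B) c
  rw [h3, Polynomial.eval_pow, Polynomial.eval_X, sub_neg_eq_add] at h4
  exact h4.symm

theorem cyc_li {K V : Type*} [Field K] [AddCommGroup V] [Module K V] (f : V →ₗ[K] V) (n : ℕ)
    (hfn : f ^ n = 0) (v : V) (hv : (f ^ (n - 1)) v ≠ 0) :
    LinearIndependent K (fun i : Fin n => (f ^ (i : ℕ)) v) := by
  classical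
  rw [Fintype.linearIndependent_iff]
  intro a ha
  have key : ∀ j : ℕ, ∀ hj : j < n, a ⟨j, hj⟩ = 0 := by
    intro j
    induction j using Nat.strong_induction_on with
    | _ j ih =>
      intro hj
      have h1 := congrArg (f ^ (n - 1 - j)) ha
      rw [map_sum, map_zero] at h1
      have h2 : ∀ i : Fin n, (f ^ (n - 1 - j)) (a i • (f ^ (i : ℕ)) v) =
          if i = ⟨j, hj⟩ then a i • (f ^ (n - 1)) v else 0 := by
        intro i
        rw [map_smul, ← Module.End.mul_apply, ← pow_add]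
        rcases lt_trichotomy (i : ℕ) j with h | h | h
        · rw [if_neg (fun he => by rw [he] at h; simp at h)]
          have h3 := ih i h i.2
          rw [Fin.eta] at h3
          rw [h3, zero_smul]
        · rw [if_pos (Fin.ext h), h, show n - 1 - j + j = n - 1 by omega]
        · rw [if_neg (fun he => by rw [he] at h; simp at h)]
          have h3 : f ^ (n - 1 - j + i) = 0 := by
            rw [show n - 1 - j + (i : ℕ) = n + ((i : ℕ) - j - 1) by omega, pow_add, hfn, zero_mul]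
          rw [h3, LinearMap.zero_apply, smul_zero]
      rw [Finset.sum_congr rfl (fun i _ => h2 i), Finset.sum_ite_eq' Finset.univ,
        if_pos (Finset.mem_univ _)] at h1
      rcases smul_eq_zero.1 h1 with h | h
      · exact h
      · exact absurd h hv
  intro i
  exact key i i.2

theorem mulVecLin_pow {F : Type*} [Field F] {n : ℕ} (N : Matrix (Fin n) (Fin n) F) (k : ℕ) :
    (Matrix.mulVecLin N) ^ k = Matrix.mulVecLin (N ^ k) := by
  induction k with
  | zero => rw [pow_zero, pow_zero, Matrix.mulVecLin_one]; rfl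
  | succ k ih => rw [pow_succ, pow_succ, Matrix.mulVecLin_mul, ← ih]; rfl

theorem ker_le_one {F : Type*} [Field F] {n : ℕ} (hn : 1 ≤ n)
    (f : (Fin n → F) →ₗ[F] (Fin n → F)) (hrank : Module.finrank F (LinearMap.range f) = n - 1) :
    Module.finrank F (LinearMap.ker f) ≤ 1 := by
  have h1 := LinearMap.finrank_range_add_finrank_ker f
  rw [Module.finrank_fin_fun] at h1
  omega

theorem exists_cyc {F : Type*} [Field F] {n : ℕ} (hn : 1 ≤ n)
    (f : (Fin n → F) →ₗ[F] (Fin n → F)) (hrank : Module.finrank F (LinearMap.range f) = n - 1) :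
    ∃ v, (f ^ (n - 1)) v ≠ 0 := by
  have hker1 := ker_le_one hn f hrank
  have hkerk : ∀ k : ℕ, Module.finrank F (LinearMap.ker (f ^ k)) ≤ k := by
    intro k
    induction k with
    | zero =>
      have : LinearMap.ker (f ^ 0) = ⊥ := by
        rw [pow_zero]
        exact LinearMap.ker_id
      rw [this, finrank_bot]
    | succ k ih =>
      have h1 : f ^ (k + 1) = (f ^ k) ∘ₗ f := by rw [pow_succ]; rfl
      rw [h1]
      have h2 := Cfsg.Agent.S2571.ker_comp_le f (f ^ k)
      omega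
  have hne : f ^ (n - 1) ≠ 0 := by
    intro h0
    have h1 := hkerk (n - 1)
    rw [h0, LinearMap.ker_zero, finrank_top, Module.finrank_fin_fun] at h1
    omega
  by_contra h
  push Not at h
  exact hne (LinearMap.ext h)

theorem reg_conj {F : Type*} [Field F] {n : ℕ} (hn : 1 ≤ n) (U U' : Matrix (Fin n) (Fin n) F)
    (hU : (U - 1) ^ n = 0) (hr : (U - 1).rank = n - 1) (hU' : (U' - 1) ^ n = 0)
    (hr' : (U' - 1).rank = n - 1) :
    ∃ G : Matrix (Fin n) (Fin n) F, G.det ≠ 0 ∧ G * U = U' * G := by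
  classical
  obtain ⟨f, hf⟩ : ∃ f : (Fin n → F) →ₗ[F] (Fin n → F), f = Matrix.mulVecLin (U - 1) := ⟨_, rfl⟩
  obtain ⟨f', hf'⟩ : ∃ f' : (Fin n → F) →ₗ[F] (Fin n → F), f' = Matrix.mulVecLin (U' - 1) :=
    ⟨_, rfl⟩
  have hfn : f ^ n = 0 := by
    rw [hf, mulVecLin_pow, hU]
    simp
  have hfn' : f' ^ n = 0 := by
    rw [hf', mulVecLin_pow, hU']
    simp
  obtain ⟨v, hv⟩ := exists_cyc hn f (by rw [hf]; exact hr)
  obtain ⟨v', hv'⟩ := exists_cyc hn f' (by rw [hf']; exact hr')
  have hcard : Fintype.card (Fin n) = Module.finrank F (Fin n → F) := by simp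
  have hli := cyc_li f n hfn v hv
  have hli' := cyc_li f' n hfn' v' hv'
  obtain ⟨b, hb⟩ : ∃ b : Module.Basis (Fin n) F (Fin n → F), ∀ i, b i = (f ^ (i : ℕ)) v :=
    ⟨Module.Basis.mk hli (hli.span_eq_top_of_card_eq_finrank' hcard).ge,
      fun i => by rw [Module.Basis.mk_apply]⟩
  obtain ⟨b', hb'⟩ : ∃ b' : Module.Basis (Fin n) F (Fin n → F), ∀ i, b' i = (f' ^ (i : ℕ)) v' :=
    ⟨Module.Basis.mk hli' (hli'.span_eq_top_of_card_eq_finrank' hcard).ge,
      fun i => by rw [Module.Basis.mk_apply]⟩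
  obtain ⟨g, hg⟩ : ∃ g : (Fin n → F) ≃ₗ[F] (Fin n → F), ∀ i, g (b i) = b' i :=
    ⟨b.equiv b' (Equiv.refl _), fun i => by simp⟩
  have hcomm : (g : (Fin n → F) →ₗ[F] (Fin n → F)) ∘ₗ f =
      f' ∘ₗ (g : (Fin n → F) →ₗ[F] (Fin n → F)) := by
    apply b.ext
    intro i
    simp only [LinearMap.comp_apply, LinearEquiv.coe_coe, hg]
    rw [hb, hb', ← Module.End.mul_apply, ← Module.End.mul_apply, ← pow_succ', ← pow_succ']
    by_cases hi : (i : ℕ) + 1 < n
    · have h1 := hg ⟨(i : ℕ) + 1, hi⟩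
      rw [hb, hb'] at h1
      exact h1
    · have hi' : (i : ℕ) + 1 = n := by
        have := i.2
        omega
      rw [hi', hfn, hfn']
      simp
  have h2 := congrArg LinearMap.toMatrix' hcomm
  rw [hf, hf', LinearMap.toMatrix'_comp, LinearMap.toMatrix'_comp, ← Matrix.toLin'_apply',
    ← Matrix.toLin'_apply', LinearMap.toMatrix'_toLin', LinearMap.toMatrix'_toLin'] at h2
  rw [mul_sub, sub_mul, mul_one, one_mul] at h2
  refine ⟨LinearMap.toMatrix' (g : (Fin n → F) →ₗ[F] (Fin n → F)), ?_, sub_left_injective h2⟩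
  rw [LinearMap.det_toMatrix']
  exact (LinearEquiv.isUnit_det' g).ne_zero

theorem det_centralizer {F : Type*} [Field F] {n : ℕ} (hn : 1 ≤ n)
    (U A : Matrix (Fin n) (Fin n) F) (hU : (U - 1) ^ n = 0) (hr : (U - 1).rank = n - 1)
    (hA : A * U = U * A) : ∃ c : F, A.det = c ^ n := by
  classical
  obtain ⟨N, hN⟩ : ∃ N : Matrix (Fin n) (Fin n) F, N = U - 1 := ⟨_, rfl⟩
  rw [← hN] at hU hr
  have hAN : A * N = N * A := by rw [hN, mul_sub, sub_mul, hA, mul_one, one_mul]
  obtain ⟨f, hf⟩ : ∃ f : (Fin n → F) →ₗ[F] (Fin n → F), f = Matrix.mulVecLin N := ⟨_, rfl⟩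
  have hfn : f ^ n = 0 := by
    rw [hf, mulVecLin_pow, hU]
    simp
  have hrf : Module.finrank F (LinearMap.range f) = n - 1 := by rw [hf]; exact hr
  obtain ⟨v, hv⟩ := exists_cyc hn f hrf
  obtain ⟨w, hw⟩ : ∃ w, w = (f ^ (n - 1)) v := ⟨_, rfl⟩
  rw [← hw] at hv
  have hfw : f w = 0 := by
    rw [hw, ← Module.End.mul_apply, ← pow_succ', show n - 1 + 1 = n by omega, hfn]
    rfl
  have hker1 := ker_le_one hn f hrf
  have hkw : ∀ x, f x = 0 → ∃ a : F, x = a • w := by
    intro x hx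
    have hwne : (⟨w, hfw⟩ : LinearMap.ker f) ≠ 0 := fun h => hv (congrArg Subtype.val h)
    have h1 : Module.finrank F (LinearMap.ker f) = 1 := by
      apply le_antisymm hker1
      exact (Module.finrank_pos_iff_exists_ne_zero (R := F)).2 ⟨_, hwne⟩
    obtain ⟨a, ha⟩ := (finrank_eq_one_iff_of_nonzero' (⟨w, hfw⟩ : LinearMap.ker f) hwne).1 h1
      ⟨x, hx⟩
    exact ⟨a, (congrArg Subtype.val ha).symm⟩
  have hAf : ∀ x, f (A *ᵥ x) = A *ᵥ (f x) := by
    intro x
    rw [hf, Matrix.mulVecLin_apply, Matrix.mulVecLin_apply, Matrix.mulVec_mulVec,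
      Matrix.mulVec_mulVec, hAN]
  obtain ⟨c, hc⟩ := hkw (A *ᵥ w) (by rw [hAf, hfw, Matrix.mulVec_zero])
  obtain ⟨B, hB⟩ : ∃ B : Matrix (Fin n) (Fin n) F, B = A - c • (1 : Matrix (Fin n) (Fin n) F) :=
    ⟨_, rfl⟩
  have hBN : B * N = N * B := by
    rw [hB, sub_mul, mul_sub, hAN, smul_mul_assoc, mul_smul_comm, one_mul, mul_one]
  have hBw : B *ᵥ w = 0 := by
    rw [hB, Matrix.sub_mulVec, hc, Matrix.smul_mulVec, Matrix.one_mulVec, sub_self]
  have hBf : ∀ (k : ℕ) (x : Fin n → F), (f ^ k) (B *ᵥ x) = B *ᵥ ((f ^ k) x) := by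
    intro k x
    rw [hf, mulVecLin_pow, Matrix.mulVecLin_apply, Matrix.mulVecLin_apply, Matrix.mulVec_mulVec,
      Matrix.mulVec_mulVec]
    have hc' : Commute B N := hBN
    rw [(hc'.pow_right k).eq]
  have hstep : ∀ (k : ℕ) (x : Fin n → F), (f ^ (k + 1)) x = 0 → (f ^ k) (B *ᵥ x) = 0 := by
    intro k x hx
    have h1 : f ((f ^ k) x) = 0 := by
      rw [← Module.End.mul_apply, ← pow_succ']
      exact hx
    obtain ⟨a, ha⟩ := hkw _ h1
    rw [hBf, ha, Matrix.mulVec_smul, hBw, smul_zero]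
  have hnil : ∀ (k : ℕ) (x : Fin n → F), (f ^ k) x = 0 → (B ^ k) *ᵥ x = 0 := by
    intro k
    induction k with
    | zero =>
      intro x hx
      simpa using hx
    | succ k ih =>
      intro x hx
      rw [pow_succ, ← Matrix.mulVec_mulVec]
      exact ih _ (hstep k x hx)
  have hBn : B ^ n = 0 := by
    have h1 : ∀ x, (B ^ n) *ᵥ x = 0 := fun x => hnil n x (by rw [hfn]; rfl)
    ext i j
    have h2 := congrFun (h1 (Pi.single j 1)) i
    simpa using h2
  refine ⟨c, ?_⟩
  have h3 := det_scalar_add_nilpotent B ⟨n, hBn⟩ c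
  have h4 : Matrix.scalar (Fin n) c + B = A := by
    rw [hB]
    ext i j
    simp [Matrix.scalar_apply, Matrix.diagonal_apply, Matrix.one_apply]
  rwa [h4] at h3

theorem exists_reg {F : Type*} [Field F] (n : ℕ) (hn : 1 ≤ n) :
    ∃ U : Matrix (Fin n) (Fin n) F, (U - 1) ^ n = 0 ∧ (U - 1).rank = n - 1 := by
  classical
  obtain ⟨N, hN⟩ : ∃ N : Matrix (Fin n) (Fin n) F,
      N = Matrix.of (fun i j : Fin n => if (i : ℕ) = (j : ℕ) + 1 then (1 : F) else 0) := ⟨_, rfl⟩
  have hpow : ∀ (k : ℕ) (i j : Fin n), (N ^ k) i j = if (i : ℕ) = (j : ℕ) + k then 1 else 0 := by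
    intro k
    induction k with
    | zero =>
      intro i j
      rw [pow_zero, Matrix.one_apply]
      simp [Fin.ext_iff]
    | succ k ih =>
      intro i j
      rw [pow_succ, Matrix.mul_apply]
      by_cases hj : (j : ℕ) + 1 < n
      · rw [Finset.sum_eq_single (⟨(j : ℕ) + 1, hj⟩ : Fin n)]
        · rw [ih, hN]
          simp only [Matrix.of_apply, if_true, mul_one]
          congr 1
          apply propext
          constructor <;> intro h <;> omega
        · intro l _ hl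
          rw [hN]
          simp only [Matrix.of_apply]
          rw [if_neg (fun h => hl (Fin.ext h)), mul_zero]
        · intro h
          exact absurd (Finset.mem_univ _) h
      · rw [Finset.sum_eq_zero]
        · rw [if_neg]
          have := i.2
          omega
        · intro l _
          rw [hN]
          simp only [Matrix.of_apply]
          rw [if_neg (fun h => by have := l.2; omega), mul_zero]
  obtain ⟨il, hil⟩ : ∃ il : Fin n, (il : ℕ) = n - 1 := ⟨⟨n - 1, by omega⟩, rfl⟩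
  refine ⟨1 + N, ?_, ?_⟩
  · rw [add_sub_cancel_left]
    ext i j
    rw [hpow, if_neg (by have := i.2; omega)]
    rfl
  · rw [add_sub_cancel_left]
    have hlast : Matrix.mulVecLin N (Pi.single il 1) = 0 := by
      rw [Matrix.mulVecLin_apply, Matrix.mulVec_single_one]
      funext i
      simp only [hN, Matrix.col_apply, Matrix.of_apply, Pi.zero_apply]
      rw [if_neg]
      have := i.2
      omega
    have hsne : (Pi.single il (1 : F) : Fin n → F) ≠ 0 := by
      intro h
      have h2 := congrFun h il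
      simp at h2
    have hge : 1 ≤ Module.finrank F (LinearMap.ker (Matrix.mulVecLin N)) := by
      apply (Module.finrank_pos_iff_exists_ne_zero (R := F)).2
      exact ⟨⟨_, hlast⟩, fun h => hsne (congrArg Subtype.val h)⟩
    have hle : Module.finrank F (LinearMap.ker (Matrix.mulVecLin N)) ≤ 1 := by
      have hsub : LinearMap.ker (Matrix.mulVecLin N) ≤
          Submodule.span F {(Pi.single il (1 : F) : Fin n → F)} := by
        intro x hx
        rw [LinearMap.mem_ker, Matrix.mulVecLin_apply] at hx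
        have hx0 : ∀ j : Fin n, (j : ℕ) + 1 < n → x j = 0 := by
          intro j hj
          have h3 := congrFun hx (⟨(j : ℕ) + 1, hj⟩ : Fin n)
          rw [Matrix.mulVec, dotProduct, Finset.sum_eq_single j] at h3
          · simpa [hN] using h3
          · intro l _ hl
            simp only [hN, Matrix.of_apply]
            rw [if_neg (fun h => hl (Fin.ext (by simpa using h.symm))), zero_mul]
          · intro h
            exact absurd (Finset.mem_univ _) h
        rw [Submodule.mem_span_singleton]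
        refine ⟨x il, ?_⟩
        funext i
        by_cases hi : (i : ℕ) + 1 < n
        · rw [hx0 i hi]
          simp only [Pi.smul_apply, smul_eq_mul]
          rw [Pi.single_eq_of_ne (fun h => by rw [h] at hi; omega), mul_zero]
        · have hi' : i = il := Fin.ext (by have := i.2; omega)
          rw [hi']
          simp
      have h4 := Submodule.finrank_mono hsub
      rw [finrank_span_singleton hsne] at h4
      exact h4
    have h1 := LinearMap.finrank_range_add_finrank_ker (Matrix.mulVecLin N)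
    rw [Module.finrank_fin_fun] at h1
    show Module.finrank F (LinearMap.range (Matrix.mulVecLin N)) = n - 1
    omega

theorem gl_det_surj {F : Type*} [Field F] {n : ℕ} (hn : 1 ≤ n) (d : Fˣ) :
    ∃ g : GL (Fin n) F, Matrix.GeneralLinearGroup.det g = d := by
  classical
  have hdet : (Matrix.diagonal (Function.update (fun _ : Fin n => (1 : F)) ⟨0, hn⟩
      (d : F))).det = d := by
    rw [Matrix.det_diagonal, Finset.prod_update_of_mem (Finset.mem_univ _)]
    simp
  refine ⟨Matrix.GeneralLinearGroup.mkOfDetNeZero _ (by rw [hdet]; exact d.ne_zero), ?_⟩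
  apply Units.ext
  rw [Matrix.GeneralLinearGroup.val_det_apply]
  exact hdet

theorem sl_isConj_iff {F : Type*} [Field F] {n : ℕ}
    (u u' : Matrix.SpecialLinearGroup (Fin n) F) :
    IsConj u u' ↔ ∃ h : GL (Fin n) F, Matrix.GeneralLinearGroup.det h = 1 ∧
      h * Matrix.SpecialLinearGroup.toGL u = Matrix.SpecialLinearGroup.toGL u' * h := by
  rw [isConj_iff]
  constructor
  · rintro ⟨c, hc⟩
    refine ⟨Matrix.SpecialLinearGroup.toGL c, ?_, ?_⟩
    · apply Units.ext
      rw [Matrix.GeneralLinearGroup.val_det_apply]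
      exact c.2
    · rw [← map_mul, ← map_mul, ← hc]
      congr 1
      group
  · rintro ⟨h, hh, he⟩
    have hdet : (h : Matrix (Fin n) (Fin n) F).det = 1 := by
      rw [← Matrix.GeneralLinearGroup.val_det_apply, hh]
      rfl
    obtain ⟨c, hc⟩ : ∃ c : Matrix.SpecialLinearGroup (Fin n) F,
        (c : Matrix (Fin n) (Fin n) F) = (h : Matrix (Fin n) (Fin n) F) := ⟨⟨_, hdet⟩, rfl⟩
    refine ⟨c, ?_⟩
    rw [mul_inv_eq_iff_eq_mul]
    apply Subtype.ext
    have he' := congrArg Units.val he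
    rw [Units.val_mul, Units.val_mul, ← hc] at he'
    exact he'

theorem result {F : Type*} [Field F] [Fintype F] {q : ℕ} (hF : Fintype.card F = q) {n : ℕ} (hn : 2 ≤ n) : Nat.card {C : ConjClasses (Matrix.SpecialLinearGroup (Fin n) F) // ∃ u : Matrix.SpecialLinearGroup (Fin n) F, ConjClasses.mk u = C ∧ ((u : Matrix (Fin n) (Fin n) F) - 1) ^ n = 0 ∧ ((u : Matrix (Fin n) (Fin n) F) - 1).rank = n - 1} = Nat.gcd n (q - 1) := by
  classical
  subst hF
  have hn1 : 1 ≤ n := by omega
  obtain ⟨U₀, hU₀, hr₀⟩ := exists_reg (F := F) n hn1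
  have hdet₀ : U₀.det = 1 := by
    have h := det_scalar_add_nilpotent (U₀ - 1) ⟨n, hU₀⟩ 1
    simpa using h
  obtain ⟨u₀, hu₀⟩ : ∃ u₀ : GL (Fin n) F, (u₀ : Matrix (Fin n) (Fin n) F) = U₀ :=
    ⟨Matrix.GeneralLinearGroup.mkOfDetNeZero U₀ (by rw [hdet₀]; exact one_ne_zero), rfl⟩
  rw [← hu₀] at hU₀ hr₀ hdet₀
  have hg : ∀ d : Fˣ, ∃ g : GL (Fin n) F, Matrix.GeneralLinearGroup.det g = d := gl_det_surj hn1
  choose g hg using hg
  have hdetu₀ : Matrix.GeneralLinearGroup.det u₀ = 1 := by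
    apply Units.ext
    rw [Matrix.GeneralLinearGroup.val_det_apply, hdet₀]
    rfl
  have hud : ∀ d : Fˣ, ((g d * u₀ * (g d)⁻¹ : GL (Fin n) F) : Matrix (Fin n) (Fin n) F).det = 1 := by
    intro d
    rw [← Matrix.GeneralLinearGroup.val_det_apply, map_mul, map_mul, map_inv, hdetu₀, mul_one,
      mul_inv_cancel]
    rfl
  have hconjreg : ∀ (a x : GL (Fin n) F), ((x : Matrix (Fin n) (Fin n) F) - 1) ^ n = 0 →
      ((x : Matrix (Fin n) (Fin n) F) - 1).rank = n - 1 →
      (((a * x * a⁻¹ : GL (Fin n) F) : Matrix (Fin n) (Fin n) F) - 1) ^ n = 0 ∧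
      (((a * x * a⁻¹ : GL (Fin n) F) : Matrix (Fin n) (Fin n) F) - 1).rank = n - 1 := by
    intro a x hx1 hx2
    have hc : IsUnit (a : Matrix (Fin n) (Fin n) F).det :=
      (Matrix.isUnit_iff_isUnit_det _).1 a.isUnit
    have hc' : IsUnit ((a⁻¹ : GL (Fin n) F) : Matrix (Fin n) (Fin n) F).det :=
      (Matrix.isUnit_iff_isUnit_det _).1 (a⁻¹).isUnit
    have he : ((a * x * a⁻¹ : GL (Fin n) F) : Matrix (Fin n) (Fin n) F) - 1 =
        (a : Matrix (Fin n) (Fin n) F) * ((x : Matrix (Fin n) (Fin n) F) - 1) *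
          ((a⁻¹ : GL (Fin n) F) : Matrix (Fin n) (Fin n) F) := by
      rw [Units.val_mul, Units.val_mul, mul_sub, sub_mul, mul_one, Units.mul_inv]
    constructor
    · rw [he, Units.conj_pow, hx1, mul_zero, zero_mul]
    · rw [he, Matrix.rank_mul_eq_left_of_isUnit_det _ _ hc',
        Matrix.rank_mul_eq_right_of_isUnit_det _ _ hc]
      exact hx2
  obtain ⟨us, hus⟩ : ∃ us : Fˣ → Matrix.SpecialLinearGroup (Fin n) F,
      ∀ d, Matrix.SpecialLinearGroup.toGL (us d) = g d * u₀ * (g d)⁻¹ :=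
    ⟨fun d => ⟨((g d * u₀ * (g d)⁻¹ : GL (Fin n) F) : Matrix (Fin n) (Fin n) F), hud d⟩,
      fun d => Units.ext rfl⟩
  have hreg : ∀ d, ((us d : Matrix (Fin n) (Fin n) F) - 1) ^ n = 0 ∧
      ((us d : Matrix (Fin n) (Fin n) F) - 1).rank = n - 1 := by
    intro d
    have h := hconjreg (g d) u₀ hU₀ hr₀
    rw [← hus d] at h
    exact h
  obtain ⟨Ψ, hΨ⟩ : ∃ Ψ : Fˣ → {C : ConjClasses (Matrix.SpecialLinearGroup (Fin n) F) //
      ∃ u : Matrix.SpecialLinearGroup (Fin n) F, ConjClasses.mk u = C ∧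
        ((u : Matrix (Fin n) (Fin n) F) - 1) ^ n = 0 ∧
        ((u : Matrix (Fin n) (Fin n) F) - 1).rank = n - 1},
      ∀ d, (Ψ d).1 = ConjClasses.mk (us d) :=
    ⟨fun d => ⟨ConjClasses.mk (us d), us d, rfl, hreg d⟩, fun d => rfl⟩
  have hsurj : Function.Surjective Ψ := by
    rintro ⟨C, u, rfl, hu1, hu2⟩
    obtain ⟨G, hG0, hG⟩ := reg_conj hn1 (u₀ : Matrix (Fin n) (Fin n) F)
      (u : Matrix (Fin n) (Fin n) F) hU₀ hr₀ hu1 hu2
    obtain ⟨gG, hgG⟩ : ∃ gG : GL (Fin n) F, (gG : Matrix (Fin n) (Fin n) F) = G :=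
      ⟨Matrix.GeneralLinearGroup.mkOfDetNeZero G hG0, rfl⟩
    have hGL : gG * u₀ = Matrix.SpecialLinearGroup.toGL u * gG := by
      apply Units.ext
      rw [Units.val_mul, Units.val_mul, hgG]
      exact hG
    refine ⟨Matrix.GeneralLinearGroup.det gG, ?_⟩
    apply Subtype.ext
    rw [hΨ]
    show ConjClasses.mk _ = ConjClasses.mk u
    rw [ConjClasses.mk_eq_mk_iff_isConj, sl_isConj_iff]
    refine ⟨gG * (g (Matrix.GeneralLinearGroup.det gG))⁻¹, ?_, ?_⟩
    · rw [map_mul, map_inv, hg, mul_inv_cancel]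
    · rw [hus]
      calc gG * (g (Matrix.GeneralLinearGroup.det gG))⁻¹ *
            (g (Matrix.GeneralLinearGroup.det gG) * u₀ * (g (Matrix.GeneralLinearGroup.det gG))⁻¹)
          = (gG * u₀) * (g (Matrix.GeneralLinearGroup.det gG))⁻¹ := by group
        _ = Matrix.SpecialLinearGroup.toGL u * (gG * (g (Matrix.GeneralLinearGroup.det gG))⁻¹) := by
          rw [hGL, mul_assoc]
  have hker : ∀ d d' : Fˣ, Ψ d = Ψ d' ↔ d⁻¹ * d' ∈ (powMonoidHom n : Fˣ →* Fˣ).range := by
    intro d d'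
    rw [Subtype.ext_iff, hΨ, hΨ, ConjClasses.mk_eq_mk_iff_isConj, sl_isConj_iff, hus, hus]
    constructor
    · rintro ⟨h, hh1, hh⟩
      obtain ⟨a, ha⟩ : ∃ a : GL (Fin n) F, a = (g d')⁻¹ * h * g d := ⟨_, rfl⟩
      have hau : a * u₀ = u₀ * a := by
        calc a * u₀ = (g d')⁻¹ * (h * (g d * u₀ * (g d)⁻¹)) * g d := by rw [ha]; group
          _ = (g d')⁻¹ * ((g d' * u₀ * (g d')⁻¹) * h) * g d := by rw [hh]
          _ = u₀ * a := by rw [ha]; group
      have hau' : (a : Matrix (Fin n) (Fin n) F) * (u₀ : Matrix (Fin n) (Fin n) F) =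
          (u₀ : Matrix (Fin n) (Fin n) F) * (a : Matrix (Fin n) (Fin n) F) := by
        rw [← Units.val_mul, ← Units.val_mul, hau]
      obtain ⟨c, hc⟩ := det_centralizer hn1 _ _ hU₀ hr₀ hau'
      have hdeta : Matrix.GeneralLinearGroup.det a = d'⁻¹ * d := by
        rw [ha, map_mul, map_mul, map_inv, hh1, hg, hg, mul_one]
      rw [← Matrix.GeneralLinearGroup.val_det_apply, hdeta] at hc
      have hc0 : c ≠ 0 := by
        rintro rfl
        rw [zero_pow (by omega)] at hc
        exact (d'⁻¹ * d).ne_zero hc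
      refine ⟨(Units.mk0 c hc0)⁻¹, ?_⟩
      rw [powMonoidHom_apply, inv_pow]
      have h5 : (Units.mk0 c hc0) ^ n = d'⁻¹ * d := by
        apply Units.ext
        rw [Units.val_pow_eq_pow_val, Units.val_mk0]
        exact hc.symm
      rw [h5, _root_.mul_inv_rev, inv_inv]
    · rintro ⟨c, hc⟩
      rw [powMonoidHom_apply] at hc
      have hz0 : ((c⁻¹ : Fˣ) : F) • (1 : Matrix (Fin n) (Fin n) F) ≠ 0 ∨ True := Or.inr trivial
      have hzdet : (((c⁻¹ : Fˣ) : F) • (1 : Matrix (Fin n) (Fin n) F)).det = ((c⁻¹ : Fˣ) : F) ^ n := by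
        rw [Matrix.det_smul, Matrix.det_one, mul_one, Fintype.card_fin]
      obtain ⟨z, hz⟩ : ∃ z : GL (Fin n) F,
          (z : Matrix (Fin n) (Fin n) F) = ((c⁻¹ : Fˣ) : F) • (1 : Matrix (Fin n) (Fin n) F) :=
        ⟨Matrix.GeneralLinearGroup.mkOfDetNeZero _
          (by rw [hzdet]; exact pow_ne_zero _ (c⁻¹).ne_zero), rfl⟩
      have hzc : ∀ x : GL (Fin n) F, z * x = x * z := by
        intro x
        apply Units.ext
        rw [Units.val_mul, Units.val_mul, hz, smul_mul_assoc, mul_smul_comm, one_mul, mul_one]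
      have hzd : Matrix.GeneralLinearGroup.det z = (c⁻¹) ^ n := by
        apply Units.ext
        rw [Matrix.GeneralLinearGroup.val_det_apply, hz, hzdet, Units.val_pow_eq_pow_val]
      refine ⟨g d' * z * (g d)⁻¹, ?_, ?_⟩
      · rw [map_mul, map_mul, map_inv, hg, hg, hzd, inv_pow, hc]
        rw [_root_.mul_inv_rev, inv_inv]
        group
      · calc g d' * z * (g d)⁻¹ * (g d * u₀ * (g d)⁻¹) = g d' * (z * u₀) * (g d)⁻¹ := by group
          _ = g d' * (u₀ * z) * (g d)⁻¹ := by rw [hzc]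
          _ = g d' * u₀ * (g d')⁻¹ * (g d' * z * (g d)⁻¹) := by group
  have e1 := Setoid.quotientKerEquivOfSurjective Ψ hsurj
  have e2 : Quotient (Setoid.ker Ψ) ≃ Fˣ ⧸ (powMonoidHom n : Fˣ →* Fˣ).range :=
    Quotient.congr (Equiv.refl _) (fun a b => by
      show Ψ a = Ψ b ↔ QuotientGroup.leftRel _ a b
      rw [QuotientGroup.leftRel_apply]
      exact hker a b)
  rw [← Nat.card_congr e1, Nat.card_congr e2, ← Subgroup.index_eq_card,
    IsCyclic.index_powMonoidHom_range, Nat.card_eq_fintype_card, Fintype.card_units, Nat.gcd_comm]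

end Cfsg.Agent.S2578
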