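import Cfsg.Statements.S2580
import Mathlib

set_option autoImplicit false
open Cfsg

namespace Cfsg.Agent.S2580

open Polynomial

/-- a chosen representative -/
noncomputable def rep {F : Type*} [Field F] (g : F[X]) (a : F[X] ⧸ F[X] ∙ g) : F[X] :=
  Function.surjInv (Submodule.Quotient.mk_surjective (F[X] ∙ g)) a

theorem mk_rep {F : Type*} [Field F] (g : F[X]) (a : F[X] ⧸ F[X] ∙ g) :
    Submodule.Quotient.mk (rep g a) = a :=
  Function.surjInv_eq _ a

theorem rep_mk_dvd {F : Type*} [Field F] (g r : F[X]) :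
    g ∣ rep g (Submodule.Quotient.mk r) - r := by
  have h := mk_rep g (Submodule.Quotient.mk r)
  rw [Submodule.Quotient.eq] at h
  exact Ideal.mem_span_singleton.1 h

/-- the pairing on a cyclic torsion module -/
noncomputable def pair {F : Type*} [Field F] (g : F[X]) (a b : F[X] ⧸ F[X] ∙ g) : F :=
  ((rep g a * rep g b) % g).coeff (g.natDegree - 1)

theorem pair_mk {F : Type*} [Field F] (g r s : F[X]) :
    pair g (Submodule.Quotient.mk r) (Submodule.Quotient.mk s) =
      ((r * s) % g).coeff (g.natDegree - 1) := by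
  unfold pair
  congr 1
  apply Polynomial.mod_eq_of_dvd_sub
  have h1 := rep_mk_dvd g r
  have h2 := rep_mk_dvd g s
  have e : rep g (Submodule.Quotient.mk r) * rep g (Submodule.Quotient.mk s) - r * s =
      (rep g (Submodule.Quotient.mk r) - r) * rep g (Submodule.Quotient.mk s) +
        r * (rep g (Submodule.Quotient.mk s) - s) := by ring
  rw [e]
  exact dvd_add (Dvd.dvd.mul_right h1 _) (Dvd.dvd.mul_left h2 _)

theorem pair_add_left {F : Type*} [Field F] (g : F[X]) (a a' b : F[X] ⧸ F[X] ∙ g) :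
    pair g (a + a') b = pair g a b + pair g a' b := by
  obtain ⟨r, rfl⟩ := Submodule.Quotient.mk_surjective _ a
  obtain ⟨r', rfl⟩ := Submodule.Quotient.mk_surjective _ a'
  obtain ⟨s, rfl⟩ := Submodule.Quotient.mk_surjective _ b
  rw [← Submodule.Quotient.mk_add, pair_mk, pair_mk, pair_mk, add_mul, Polynomial.add_mod,
    Polynomial.coeff_add]

theorem pair_add_right {F : Type*} [Field F] (g : F[X]) (a b b' : F[X] ⧸ F[X] ∙ g) :
    pair g a (b + b') = pair g a b + pair g a b' := by
  obtain ⟨r, rfl⟩ := Submodule.Quotient.mk_surjective _ a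
  obtain ⟨s, rfl⟩ := Submodule.Quotient.mk_surjective _ b
  obtain ⟨s', rfl⟩ := Submodule.Quotient.mk_surjective _ b'
  rw [← Submodule.Quotient.mk_add, pair_mk, pair_mk, pair_mk, mul_add, Polynomial.add_mod,
    Polynomial.coeff_add]

theorem C_mul_mod {F : Type*} [Field F] (c : F) (r g : F[X]) :
    (C c * r) % g = C c * (r % g) := by
  rw [Polynomial.mod_def, Polynomial.mod_def, ← Polynomial.smul_eq_C_mul, ← Polynomial.smul_eq_C_mul,
    Polynomial.smul_modByMonic]

theorem pair_C_left {F : Type*} [Field F] (g : F[X]) (c : F) (a b : F[X] ⧸ F[X] ∙ g) :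
    pair g ((C c : F[X]) • a) b = c * pair g a b := by
  obtain ⟨r, rfl⟩ := Submodule.Quotient.mk_surjective _ a
  obtain ⟨s, rfl⟩ := Submodule.Quotient.mk_surjective _ b
  rw [← Submodule.Quotient.mk_smul, pair_mk, pair_mk, smul_eq_mul, mul_assoc, C_mul_mod,
    Polynomial.coeff_C_mul]

theorem pair_C_right {F : Type*} [Field F] (g : F[X]) (c : F) (a b : F[X] ⧸ F[X] ∙ g) :
    pair g a ((C c : F[X]) • b) = c * pair g a b := by
  obtain ⟨r, rfl⟩ := Submodule.Quotient.mk_surjective _ a
  obtain ⟨s, rfl⟩ := Submodule.Quotient.mk_surjective _ b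
  rw [← Submodule.Quotient.mk_smul, pair_mk, pair_mk, smul_eq_mul, mul_left_comm, C_mul_mod,
    Polynomial.coeff_C_mul]

theorem pair_X {F : Type*} [Field F] (g : F[X]) (a b : F[X] ⧸ F[X] ∙ g) :
    pair g ((X : F[X]) • a) b = pair g a ((X : F[X]) • b) := by
  obtain ⟨r, rfl⟩ := Submodule.Quotient.mk_surjective _ a
  obtain ⟨s, rfl⟩ := Submodule.Quotient.mk_surjective _ b
  rw [← Submodule.Quotient.mk_smul, ← Submodule.Quotient.mk_smul, pair_mk, pair_mk, smul_eq_mul,
    smul_eq_mul]
  congr 2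
  ring

theorem pair_zero_right {F : Type*} [Field F] (g : F[X]) (a : F[X] ⧸ F[X] ∙ g) :
    pair g a 0 = 0 := by
  have h := pair_add_right g a 0 0
  rw [add_zero] at h
  linear_combination -h

theorem pair_nondeg {F : Type*} [Field F] (g : F[X]) (hg : g ≠ 0) (a : F[X] ⧸ F[X] ∙ g)
    (h : ∀ b, pair g a b = 0) : a = 0 := by
  obtain ⟨r, rfl⟩ := Submodule.Quotient.mk_surjective _ a
  by_contra ha
  have hr0 : r % g ≠ 0 := by
    intro h0
    apply ha
    rw [Submodule.Quotient.mk_eq_zero]
    exact Ideal.mem_span_singleton.2 ((EuclideanDomain.mod_eq_zero).1 h0)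
  have hdeg : (r % g).natDegree < g.natDegree :=
    Polynomial.natDegree_lt_natDegree hr0 (Polynomial.degree_mod_lt r hg)
  have h1 := h (Submodule.Quotient.mk (X ^ (g.natDegree - 1 - (r % g).natDegree)))
  rw [pair_mk] at h1
  have h2 : (r * X ^ (g.natDegree - 1 - (r % g).natDegree)) % g =
      (r % g) * X ^ (g.natDegree - 1 - (r % g).natDegree) := by
    have h3 : (r * X ^ (g.natDegree - 1 - (r % g).natDegree)) % g =
        ((r % g) * X ^ (g.natDegree - 1 - (r % g).natDegree)) % g := by
      apply Polynomial.mod_eq_of_dvd_sub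
      rw [← sub_mul]
      apply Dvd.dvd.mul_right
      have h4 := EuclideanDomain.div_add_mod r g
      exact ⟨r / g, by linear_combination -h4⟩
    rw [h3, Polynomial.mod_eq_self_iff hg]
    apply Polynomial.degree_lt_degree
    rw [Polynomial.natDegree_mul_X_pow _ hr0]
    omega
  rw [h2, Polynomial.coeff_mul_X_pow', if_pos (by omega),
    show g.natDegree - 1 - (g.natDegree - 1 - (r % g).natDegree) = (r % g).natDegree by omega] at h1
  exact hr0 (Polynomial.leadingCoeff_eq_zero.1 h1)

theorem exists_selfadjoint_form {F : Type*} [Field F] {V : Type*} [AddCommGroup V] [Module F V]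
    [FiniteDimensional F V] (φ : V →ₗ[F] V) :
    ∃ B : V →ₗ[F] V →ₗ[F] F, (∀ x y, B (φ x) y = B x (φ y)) ∧
      (∀ x, (∀ y, B x y = 0) → x = 0) := by
  classical
  have htors : Module.IsTorsion F[X] (Module.AEval' φ) :=
    Module.AEval.isTorsion_of_finiteDimensional F V φ
  obtain ⟨ι, _, p, hp, e, ⟨Φ⟩⟩ := Module.equiv_directSum_of_isTorsion htors
  have hg : ∀ i, p i ^ e i ≠ 0 := fun i => pow_ne_zero _ (hp i).ne_zero
  let ψ : V → ∀ i, F[X] ⧸ F[X] ∙ (p i ^ e i) := fun x i => Φ (Module.AEval'.of φ x) i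
  have ψ_add : ∀ x y i, ψ (x + y) i = ψ x i + ψ y i := by
    intro x y i
    show Φ (Module.AEval'.of φ (x + y)) i = Φ (Module.AEval'.of φ x) i + Φ (Module.AEval'.of φ y) i
    rw [map_add, map_add]
    rfl
  have ψ_smul : ∀ (c : F) x i, ψ (c • x) i = (C c : F[X]) • ψ x i := by
    intro c x i
    show Φ (Module.AEval'.of φ (c • x)) i = (C c : F[X]) • Φ (Module.AEval'.of φ x) i
    rw [map_smul (Module.AEval'.of φ) c x, ← Module.AEval.C_smul, map_smul Φ]
    rfl
  have ψ_φ : ∀ x i, ψ (φ x) i = (X : F[X]) • ψ x i := by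
    intro x i
    show Φ (Module.AEval'.of φ (φ x)) i = (X : F[X]) • Φ (Module.AEval'.of φ x) i
    have h1 : Module.AEval'.of φ (φ x) = (X : F[X]) • Module.AEval'.of φ x :=
      (Module.AEval.X_smul_of φ x).symm
    rw [h1, map_smul]
    rfl
  let B : V →ₗ[F] V →ₗ[F] F :=
    LinearMap.mk₂ F (fun x y => ∑ i, pair (p i ^ e i) (ψ x i) (ψ y i))
      (by intro x x' y; simp only [ψ_add, pair_add_left, Finset.sum_add_distrib])
      (by intro c x y; simp only [ψ_smul, pair_C_left, Finset.mul_sum, smul_eq_mul])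
      (by intro x y y'; simp only [ψ_add, pair_add_right, Finset.sum_add_distrib])
      (by intro c x y; simp only [ψ_smul, pair_C_right, Finset.mul_sum, smul_eq_mul])
  have hBdef : ∀ x y, B x y = ∑ i, pair (p i ^ e i) (ψ x i) (ψ y i) := fun x y => rfl
  refine ⟨B, ?_, ?_⟩
  · intro x y
    rw [hBdef, hBdef]
    simp only [ψ_φ, pair_X]
  · intro x hx
    have h1 : ∀ j, ψ x j = 0 := by
      intro j
      apply pair_nondeg _ (hg j)
      intro t
      have h2 := hx ((Module.AEval'.of φ).symm
        (Φ.symm (DirectSum.of (fun i => F[X] ⧸ F[X] ∙ (p i ^ e i)) j t)))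
      have h3 : ∀ i, ψ ((Module.AEval'.of φ).symm
          (Φ.symm (DirectSum.of (fun i => F[X] ⧸ F[X] ∙ (p i ^ e i)) j t))) i =
          (DirectSum.of (fun i => F[X] ⧸ F[X] ∙ (p i ^ e i)) j t) i := by
        intro i
        show Φ (Module.AEval'.of φ ((Module.AEval'.of φ).symm
          (Φ.symm (DirectSum.of (fun i => F[X] ⧸ F[X] ∙ (p i ^ e i)) j t)))) i = _
        rw [LinearEquiv.apply_symm_apply, LinearEquiv.apply_symm_apply]
      rw [hBdef] at h2
      simp only [h3] at h2
      rw [Finset.sum_eq_single j] at h2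
      · rw [DirectSum.of_eq_same] at h2
        exact h2
      · intro i _ hij
        rw [DirectSum.of_eq_of_ne _ _ _ hij]
        exact pair_zero_right _ _
      · intro hj
        exact absurd (Finset.mem_univ j) hj
    have h4 : Φ (Module.AEval'.of φ x) = 0 := by
      apply DFinsupp.ext
      intro j
      exact h1 j
    have h5 := Φ.injective (h4.trans (map_zero Φ).symm)
    exact (Module.AEval'.of φ).injective (h5.trans (map_zero _).symm)

theorem conj_transpose {F : Type*} [Field F] {n : Type*} [Fintype n] [DecidableEq n]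
    (A : Matrix n n F) : IsConj A A.transpose := by
  obtain ⟨B, hB1, hB2⟩ := exists_selfadjoint_form (Matrix.mulVecLin A)
  obtain ⟨S, hS⟩ : ∃ S : Matrix n n F, S = LinearMap.BilinForm.toMatrix' B := ⟨_, rfl⟩
  have hBS : ∀ x y, B x y = x ⬝ᵥ (S.mulVec y) := by
    intro x y
    have h1 : Matrix.toBilin' S = B := by rw [hS]; exact Matrix.toBilin'_toMatrix' B
    rw [← h1]
    exact Matrix.toBilin'_apply' _ _ _
  have hSA : S * A = A.transpose * S := by
    have h1 : ∀ x y : n → F, x ⬝ᵥ ((A.transpose * S).mulVec y) = x ⬝ᵥ ((S * A).mulVec y) := by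
      intro x y
      have h2 := hB1 x y
      rw [hBS, hBS, Matrix.mulVecLin_apply, Matrix.mulVecLin_apply] at h2
      rw [← Matrix.mulVec_mulVec, ← Matrix.mulVec_mulVec, ← h2]
      rw [Matrix.dotProduct_mulVec, Matrix.vecMul_transpose]
    ext i j
    have h3 := h1 (Pi.single i 1) (Pi.single j 1)
    simp only [Matrix.mulVec_single_one, single_one_dotProduct] at h3
    exact h3.symm
  have hdet : S.det ≠ 0 := by
    intro hdet
    obtain ⟨v, hv, hvS⟩ := Matrix.exists_vecMul_eq_zero_iff.2 hdet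
    apply hv
    apply hB2
    intro y
    rw [hBS, Matrix.dotProduct_mulVec, hvS, zero_dotProduct]
  exact ⟨Matrix.GeneralLinearGroup.mkOfDetNeZero S hdet, hSA⟩

theorem result {F : Type*} [Field F] [Finite F] {n : ℕ} (A : Matrix (Fin n) (Fin n) F) : IsConj A A.transpose := by
  classical
  exact conj_transpose A

end Cfsg.Agent.S2580
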