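import Cfsg.Statements.S2585
import Mathlib

set_option autoImplicit false
open Cfsg

namespace Cfsg.Agent.S2585


open Matrix

theorem sf_add_left {F : Type*} [CommRing F] (m : ℕ) (u u' v : Fin m ⊕ Fin m → F) :
    Cfsg.sympForm m F (u + u') v = Cfsg.sympForm m F u v + Cfsg.sympForm m F u' v := by
  simp [Cfsg.sympForm, add_dotProduct]

theorem sf_add_right {F : Type*} [CommRing F] (m : ℕ) (u v v' : Fin m ⊕ Fin m → F) :
    Cfsg.sympForm m F u (v + v') = Cfsg.sympForm m F u v + Cfsg.sympForm m F u v' := by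
  simp [Cfsg.sympForm, Matrix.mulVec_add, dotProduct_add]

theorem sf_smul_left {F : Type*} [CommRing F] (m : ℕ) (c : F) (u v : Fin m ⊕ Fin m → F) :
    Cfsg.sympForm m F (c • u) v = c * Cfsg.sympForm m F u v := by
  simp [Cfsg.sympForm, smul_dotProduct]

theorem sf_smul_right {F : Type*} [CommRing F] (m : ℕ) (c : F) (u v : Fin m ⊕ Fin m → F) :
    Cfsg.sympForm m F u (c • v) = c * Cfsg.sympForm m F u v := by
  simp [Cfsg.sympForm, Matrix.mulVec_smul, dotProduct_smul]

theorem sf_self {F : Type*} [CommRing F] (m : ℕ) (v : Fin m ⊕ Fin m → F) :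
    Cfsg.sympForm m F v v = 0 := by
  simp only [Cfsg.sympForm, Matrix.J, dotProduct, Fintype.sum_sum_type, Matrix.fromBlocks_mulVec,
    Sum.elim_inl, Sum.elim_inr, Matrix.zero_mulVec, Matrix.one_mulVec, Matrix.neg_mulVec, zero_add,
    add_zero, Pi.neg_apply, Function.comp_apply]
  rw [← Finset.sum_add_distrib]
  apply Finset.sum_eq_zero
  intro i _
  ring

theorem sf_skew {F : Type*} [CommRing F] (m : ℕ) (u v : Fin m ⊕ Fin m → F) :
    Cfsg.sympForm m F u v = - Cfsg.sympForm m F v u := by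
  have h := sf_self m (u + v)
  rw [sf_add_left, sf_add_right, sf_add_right, sf_self, sf_self] at h
  linear_combination h

theorem sf_pres {F : Type*} [CommRing F] (m : ℕ) (A : Matrix (Fin m ⊕ Fin m) (Fin m ⊕ Fin m) F)
    (hA : Aᵀ * Matrix.J (Fin m) F * A = Matrix.J (Fin m) F) (u v : Fin m ⊕ Fin m → F) :
    Cfsg.sympForm m F (A *ᵥ u) (A *ᵥ v) = Cfsg.sympForm m F u v := by
  unfold Cfsg.sympForm
  have h1 : ∀ w : Fin m ⊕ Fin m → F, (A *ᵥ u) ⬝ᵥ w = u ⬝ᵥ (Aᵀ *ᵥ w) := by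
    intro w
    rw [dotProduct_comm, Matrix.dotProduct_mulVec, ← Matrix.mulVec_transpose, dotProduct_comm]
  rw [h1, Matrix.mulVec_mulVec, Matrix.mulVec_mulVec, hA]

/-- the hyperbolic quadratic function -/
def q0 {F : Type*} [CommRing F] (m : ℕ) (v : Fin m ⊕ Fin m → F) : F :=
  ∑ i : Fin m, v (Sum.inl i) * v (Sum.inr i)

theorem sf_coord {F : Type*} [CommRing F] (m : ℕ) (u v : Fin m ⊕ Fin m → F) :
    Cfsg.sympForm m F u v = ∑ i : Fin m, (u (Sum.inr i) * v (Sum.inl i) - u (Sum.inl i) * v (Sum.inr i)) := by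
  simp only [Cfsg.sympForm, Matrix.J, dotProduct, Fintype.sum_sum_type, Matrix.fromBlocks_mulVec,
    Sum.elim_inl, Sum.elim_inr, Matrix.zero_mulVec, Matrix.one_mulVec, Matrix.neg_mulVec, zero_add,
    add_zero, Pi.neg_apply, Function.comp_apply]
  rw [← Finset.sum_add_distrib]
  apply Finset.sum_congr rfl
  intro i _
  ring

theorem q0_add {F : Type*} [CommRing F] [CharP F 2] (m : ℕ) (u v : Fin m ⊕ Fin m → F) :
    q0 m (u + v) = q0 m u + q0 m v + Cfsg.sympForm m F u v := by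
  have h20 : (2 : F) = 0 := CharTwo.two_eq_zero
  rw [sf_coord]
  simp only [q0, Pi.add_apply]
  rw [← Finset.sum_add_distrib, ← Finset.sum_add_distrib]
  apply Finset.sum_congr rfl
  intro i _
  linear_combination (u (Sum.inl i) * v (Sum.inr i)) * h20

theorem q0_smul {F : Type*} [CommRing F] (m : ℕ) (c : F) (v : Fin m ⊕ Fin m → F) :
    q0 m (c • v) = c * c * q0 m v := by
  simp only [q0, Pi.smul_apply, smul_eq_mul]
  rw [Finset.mul_sum]
  apply Finset.sum_congr rfl
  intro i _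
  ring

theorem result {F : Type*} [Field F] [Fintype F] [CharP F 2] {m : ℕ} (A : Matrix.symplecticGroup (Fin m) F) : ∃ Q : QuadraticForm F (Fin m ⊕ Fin m → F), (∀ u v : Fin m ⊕ Fin m → F, QuadraticMap.polar ⇑Q u v = Cfsg.sympForm m F u v) ∧ ∀ v : Fin m ⊕ Fin m → F, Q ((A : Matrix (Fin m ⊕ Fin m) (Fin m ⊕ Fin m) F).mulVec v) = Q v := by
  classical
  have h20 : (2 : F) = 0 := CharTwo.two_eq_zero
  have : ExpChar F 2 := ExpChar.prime Nat.prime_two
  obtain ⟨M, hMdef⟩ : ∃ M : Matrix (Fin m ⊕ Fin m) (Fin m ⊕ Fin m) F,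
      M = ((A : ↥(Matrix.symplecticGroup (Fin m) F)) : Matrix (Fin m ⊕ Fin m) (Fin m ⊕ Fin m) F) :=
    ⟨_, rfl⟩
  rw [← hMdef]
  have hM : Mᵀ * Matrix.J (Fin m) F * M = Matrix.J (Fin m) F := by
    rw [hMdef]
    exact SymplecticGroup.mem_iff'.1 A.2
  -- the defect D(v) = q0 (M v) + q0 v is additive and quadratic
  have hDadd : ∀ u v : Fin m ⊕ Fin m → F,
      q0 m (M *ᵥ (u + v)) + q0 m (u + v) = (q0 m (M *ᵥ u) + q0 m u) + (q0 m (M *ᵥ v) + q0 m v) := by
    intro u v
    rw [Matrix.mulVec_add, q0_add, q0_add, sf_pres m M hM]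
    linear_combination (Cfsg.sympForm m F u v) * h20
  have hDsmul : ∀ (c : F) (v : Fin m ⊕ Fin m → F),
      q0 m (M *ᵥ (c • v)) + q0 m (c • v) = c * c * (q0 m (M *ᵥ v) + q0 m v) := by
    intro c v
    rw [Matrix.mulVec_smul, q0_smul, q0_smul]
    ring
  let σ : F ≃+* F := (frobeniusEquiv F 2).symm
  have hσsq : ∀ x : F, σ x * σ x = x := by
    intro x
    have := frobeniusEquiv_symm_pow_p F 2 x
    rw [sq] at this
    exact this
  have hσmul : ∀ c : F, σ (c * c) = c := by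
    intro c
    have := frobeniusEquiv_symm_pow F 2 c
    rw [sq] at this
    exact this
  let ℓ₀ : (Fin m ⊕ Fin m → F) →ₗ[F] F :=
    { toFun := fun v => σ (q0 m (M *ᵥ v) + q0 m v)
      map_add' := by
        intro u v
        rw [hDadd, map_add]
      map_smul' := by
        intro c v
        rw [hDsmul, map_mul, hσmul]
        rfl }
  have hℓ₀ : ∀ v, ℓ₀ v = σ (q0 m (M *ᵥ v) + q0 m v) := fun v => rfl
  -- ℓ₀ vanishes on the kernel of 1 + M
  have hann : ℓ₀ ∈ (LinearMap.ker (Matrix.mulVecLin (1 + M))).dualAnnihilator := by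
    rw [Submodule.mem_dualAnnihilator]
    intro w hw
    rw [LinearMap.mem_ker, Matrix.mulVecLin_apply, Matrix.add_mulVec, Matrix.one_mulVec] at hw
    have hMw : M *ᵥ w = w := by
      have : M *ᵥ w = -w := by
        rw [eq_neg_iff_add_eq_zero, add_comm]
        exact hw
      rw [this]
      funext i
      simp only [Pi.neg_apply]
      exact CharTwo.neg_eq _
    rw [hℓ₀, hMw, CharTwo.add_self_eq_zero, map_zero]
  rw [← LinearMap.range_dualMap_eq_dualAnnihilator_ker] at hann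
  obtain ⟨ℓ, hℓ⟩ := hann
  have hℓ' : ∀ v : Fin m ⊕ Fin m → F, ℓ (v + M *ᵥ v) = ℓ₀ v := by
    intro v
    have := congrArg (fun φ : Module.Dual F (Fin m ⊕ Fin m → F) => φ v) hℓ
    simp only [LinearMap.dualMap_apply, Matrix.mulVecLin_apply, Matrix.add_mulVec,
      Matrix.one_mulVec] at this
    exact this
  -- the quadratic form
  let B₀ : LinearMap.BilinForm F (Fin m ⊕ Fin m → F) :=
    Matrix.toBilin' (Matrix.fromBlocks (0 : Matrix (Fin m) (Fin m) F) (1 : Matrix (Fin m) (Fin m) F)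
      (0 : Matrix (Fin m) (Fin m) F) (0 : Matrix (Fin m) (Fin m) F))
  have hB₀ : ∀ v : Fin m ⊕ Fin m → F, B₀ v v = q0 m v := by
    intro v
    simp only [B₀, Matrix.toBilin'_apply', q0, dotProduct, Fintype.sum_sum_type,
      Matrix.fromBlocks_mulVec, Sum.elim_inl, Sum.elim_inr, Matrix.zero_mulVec, Matrix.one_mulVec,
      zero_add, add_zero, Pi.zero_apply, mul_zero, Finset.sum_const_zero, Function.comp_apply]
  refine ⟨LinearMap.BilinMap.toQuadraticMap B₀ + QuadraticMap.linMulLin ℓ ℓ, ?_, ?_⟩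
  · intro u v
    have hQ : ∀ w : Fin m ⊕ Fin m → F,
        (LinearMap.BilinMap.toQuadraticMap B₀ + QuadraticMap.linMulLin ℓ ℓ) w = q0 m w + ℓ w * ℓ w := by
      intro w
      rw [QuadraticMap.add_apply, LinearMap.BilinMap.toQuadraticMap_apply, hB₀,
        QuadraticMap.linMulLin_apply]
    simp only [QuadraticMap.polar, hQ, q0_add, map_add]
    linear_combination (ℓ u * ℓ v) * h20
  · intro v
    rw [QuadraticMap.add_apply, QuadraticMap.add_apply, LinearMap.BilinMap.toQuadraticMap_apply,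
      LinearMap.BilinMap.toQuadraticMap_apply, hB₀, hB₀, QuadraticMap.linMulLin_apply,
      QuadraticMap.linMulLin_apply]
    have h1 := hℓ' v
    rw [hℓ₀, map_add] at h1
    have h2 := hσsq (q0 m (M *ᵥ v) + q0 m v)
    rw [← h1] at h2
    linear_combination (-1 : F) * h2 + (ℓ (M *ᵥ v) * ℓ (M *ᵥ v) + ℓ v * ℓ (M *ᵥ v) - q0 m v) * h20

end Cfsg.Agent.S2585
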