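import Cfsg.Statements.S2586
import Mathlib
import Cfsg.Agent.S2580

set_option autoImplicit false
open Cfsg

namespace Cfsg.Agent.S2586

open Matrix

theorem result {F : Type*} [Field F] [Finite F] {m : ℕ} (A : Matrix.symplecticGroup (Fin m) F) : IsConj (A : Matrix (Fin m ⊕ Fin m) (Fin m ⊕ Fin m) F) ((A⁻¹ : Matrix.symplecticGroup (Fin m) F) : Matrix (Fin m ⊕ Fin m) (Fin m ⊕ Fin m) F) := by
  classical
  have h1 := Cfsg.Agent.S2580.conj_transpose (A : Matrix (Fin m ⊕ Fin m) (Fin m ⊕ Fin m) F)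
  refine h1.trans ?_
  obtain ⟨c, hc⟩ := (Matrix.isUnit_iff_isUnit_det _).2 (Matrix.isUnit_det_J (Fin m) F)
  refine ⟨c, ?_⟩
  show (c : Matrix (Fin m ⊕ Fin m) (Fin m ⊕ Fin m) F) * _ = _ * (c : Matrix (Fin m ⊕ Fin m) (Fin m ⊕ Fin m) F)
  rw [hc, SymplecticGroup.coe_inv, Matrix.mul_assoc, Matrix.mul_assoc, Matrix.J_squared]
  simp

end Cfsg.Agent.S2586
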