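import Cfsg.Statements.S2594
import Cfsg.Agent.Lib.Helper1.SympO

set_option autoImplicit false
open Cfsg

set_option maxHeartbeats 1000000
namespace Cfsg.Agent.S2594

open Matrix Cfsg.Agent.Lib.Helper1.Symp

theorem rank_one_form {F : Type*} [Field F] {m : ℕ}
    (A : Matrix (Fin m ⊕ Fin m) (Fin m ⊕ Fin m) F) (hA : A.rank = 1) :
    ∃ u : Fin m ⊕ Fin m → F, u ≠ 0 ∧ (∀ x, ∃ c : F, A *ᵥ x = c • u) ∧ ∃ x₀, A *ᵥ x₀ ≠ 0 := by
  unfold Matrix.rank at hA
  obtain ⟨⟨u, hu⟩, hu0, hspan⟩ := finrank_eq_one_iff'.mp hA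
  have hu0' : u ≠ 0 := fun h => hu0 (Subtype.ext h)
  refine ⟨u, hu0', ?_, ?_⟩
  · intro x
    obtain ⟨c, hc⟩ := hspan ⟨A *ᵥ x, ⟨x, rfl⟩⟩
    exact ⟨c, (congrArg Subtype.val hc).symm⟩
  · obtain ⟨x₀, hx₀⟩ := hu
    refine ⟨x₀, ?_⟩
    rw [Matrix.mulVecLin_apply] at hx₀
    rw [hx₀]
    exact hu0'

theorem transv_form {F : Type*} [Field F] {m : ℕ}
    (T : Matrix (Fin m ⊕ Fin m) (Fin m ⊕ Fin m) F) (hT : IsSp T) (hr : (T - 1).rank = 1) :
    ∃ (u : Fin m ⊕ Fin m → F) (a : F), u ≠ 0 ∧ a ≠ 0 ∧ ∀ x, T *ᵥ x = x + (a * om u x) • u := by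
  obtain ⟨u, hu0, hc, x₀, hx₀⟩ := rank_one_form (T - 1) hr
  choose c hc using hc
  have hTx : ∀ x, T *ᵥ x = x + c x • u := by
    intro x
    have := hc x
    rw [Matrix.sub_mulVec, Matrix.one_mulVec] at this
    rw [← this]; abel
  have hc0 : c x₀ ≠ 0 := by
    intro h
    apply hx₀
    rw [hc x₀, h, zero_smul]
  have hrel : ∀ x y, c y * om x u + c x * om u y = 0 := by
    intro x y
    have h := hT x y
    rw [hTx x, hTx y, om_add_left, om_add_right, om_add_right, om_smul_left, om_smul_right,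
      om_smul_left, om_smul_right, om_self] at h
    linear_combination h
  obtain ⟨e, he⟩ := exists_nondeg u hu0
  have hκ : ∀ y, om u y = (om u x₀ / c x₀) * c y := by
    intro y
    have h := hrel x₀ y
    rw [om_swap x₀ u] at h
    field_simp
    linear_combination h
  have hκ0 : om u x₀ / c x₀ ≠ 0 := by
    intro h
    apply he
    rw [hκ e, h, zero_mul]
  refine ⟨u, (om u x₀ / c x₀)⁻¹, hu0, inv_ne_zero hκ0, ?_⟩
  intro x
  rw [hTx x, hκ x, ← mul_assoc, inv_mul_cancel₀ hκ0, one_mul]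

theorem smul_cancel {F : Type*} [Field F] {ι : Type*} (u : ι → F) (hu : u ≠ 0) (a b : F)
    (h : a • u = b • u) : a = b := by
  have h1 : (a - b) • u = 0 := by rw [sub_smul, h, sub_self]
  exact sub_eq_zero.mp ((smul_eq_zero.mp h1).resolve_right hu)

theorem comm_iff_fix {F : Type*} [Field F] [CharP F 2] {m : ℕ}
    (T G : Matrix (Fin m ⊕ Fin m) (Fin m ⊕ Fin m) F) (hG : IsSp G)
    (u : Fin m ⊕ Fin m → F) (a : F) (hu : u ≠ 0) (ha : a ≠ 0)
    (hT : ∀ x, T *ᵥ x = x + (a * om u x) • u) :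
    T * G = G * T ↔ G *ᵥ u = u := by
  constructor
  · intro h
    have hx : ∀ x, om u (G *ᵥ x) • u = om u x • (G *ᵥ u) := by
      intro x
      have h1 := congrArg (fun M => M *ᵥ x) h
      simp only [← Matrix.mulVec_mulVec] at h1
      rw [hT, hT, Matrix.mulVec_add, Matrix.mulVec_smul] at h1
      have h2 : (a * om u (G *ᵥ x)) • u = (a * om u x) • (G *ᵥ u) := add_left_cancel h1
      have h3 : a • (om u (G *ᵥ x) • u) = a • (om u x • (G *ᵥ u)) := by
        rw [smul_smul, smul_smul]; exact h2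
      exact smul_right_injective _ ha h3
    obtain ⟨x₁, hx₁⟩ := exists_nondeg u hu
    have hGu : G *ᵥ u = ((om u x₁)⁻¹ * om u (G *ᵥ x₁)) • u := by
      have := hx x₁
      rw [← smul_smul, this, smul_smul, inv_mul_cancel₀ hx₁, one_smul]
    set lam := (om u x₁)⁻¹ * om u (G *ᵥ x₁) with hlam
    have h4 : ∀ x, om u (G *ᵥ x) = lam * om u x := by
      intro x
      have := hx x
      rw [hGu, smul_smul] at this
      rw [smul_cancel u hu _ _ this]; ring
    have h5 := hG u x₁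
    rw [hGu, om_smul_left, h4] at h5
    have h6 : lam * lam = 1 := by
      have : (lam * lam - 1) * om u x₁ = 0 := by linear_combination h5
      rcases mul_eq_zero.mp this with h | h
      · exact sub_eq_zero.mp h
      · exact absurd h hx₁
    have h2 : (2 : F) = 0 := CharTwo.two_eq_zero
    have h7 : (lam - 1) * (lam - 1) = 0 := by linear_combination h6 + (1 - lam) * h2
    have h8 : lam = 1 := sub_eq_zero.mp (mul_self_eq_zero.mp h7)
    rw [hGu, h8, one_smul]
  · intro h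
    rw [Matrix.ext_iff_mulVec]
    intro x
    rw [← Matrix.mulVec_mulVec, ← Matrix.mulVec_mulVec, hT, hT, Matrix.mulVec_add,
      Matrix.mulVec_smul, h]
    have := hG u x
    rw [h] at this
    rw [this]

theorem card_stab {F : Type*} [Field F] [Fintype F] {m : ℕ} (u : Fin m ⊕ Fin m → F) (hu : u ≠ 0) :
    Nat.card (MulAction.stabilizer (symplecticGroup (Fin m) F) u) *
      (Fintype.card F ^ (2 * m) - 1) = Nat.card (symplecticGroup (Fin m) F) := by
  have h1 := Subgroup.card_mul_index (MulAction.stabilizer (symplecticGroup (Fin m) F) u)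
  have horb : MulAction.orbit (symplecticGroup (Fin m) F) u = {v | v ≠ 0} := by
    ext v
    constructor
    · rintro ⟨g, rfl⟩
      intro h0
      obtain ⟨e, he⟩ := exists_nondeg u hu
      have hg := (mem_sp_iff _).1 g.2
      have h1 := hg u e
      change g.1 *ᵥ u = 0 at h0
      rw [h0, om_zero_left] at h1
      exact he h1.symm
    · intro hv
      obtain ⟨M, hM, hMv⟩ := trans_vec u v hu hv
      exact ⟨⟨M, (mem_sp_iff M).2 hM⟩, hMv⟩
  rw [MulAction.index_stabilizer, horb, ← Nat.card_coe_set_eq] at h1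
  have c1 : Nat.card ↥{v : Fin m ⊕ Fin m → F | v ≠ 0} = Fintype.card F ^ (2 * m) - 1 := by
    have := card_ne_zero_vec (F := F) (ι := Fin m ⊕ Fin m)
    rw [Fintype.card_sum, Fintype.card_fin, ← two_mul] at this
    exact this
  rw [c1] at h1
  exact h1


theorem result {F : Type*} [Field F] [Fintype F] [CharP F 2] {q : ℕ} (hF : Fintype.card F = q) {m : ℕ} (hm : 1 ≤ m) (t : Matrix.symplecticGroup (Fin m) F) (ht : ((t : Matrix (Fin m ⊕ Fin m) (Fin m ⊕ Fin m) F) - 1).rank = 1) : Nat.card ↥(Subgroup.centralizer ({t} : Set ↥(Matrix.symplecticGroup (Fin m) F))) = q ^ (2 * m - 1) * (q ^ ((m - 1) ^ 2) * ∏ i : Fin (m - 1), (q ^ (2 * ((i : ℕ) + 1)) - 1)) := by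
  classical
  have hT : IsSp (t : Matrix (Fin m ⊕ Fin m) (Fin m ⊕ Fin m) F) := (mem_sp_iff _).1 t.2
  obtain ⟨u, a, hu, ha, hTx⟩ := transv_form _ hT ht
  have hcs := card_stab u hu
  have hsp := card_sp (F := F) m
  rw [hF] at hcs hsp
  have hset : (Subgroup.centralizer ({t} : Set ↥(Matrix.symplecticGroup (Fin m) F))) =
      MulAction.stabilizer (symplecticGroup (Fin m) F) u := by
    ext g
    rw [Subgroup.mem_centralizer_singleton_iff, MulAction.mem_stabilizer_iff]
    have hg : IsSp (g : Matrix (Fin m ⊕ Fin m) (Fin m ⊕ Fin m) F) := (mem_sp_iff _).1 g.2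
    have key := comm_iff_fix (t : Matrix (Fin m ⊕ Fin m) (Fin m ⊕ Fin m) F) g hg u a hu ha hTx
    constructor
    · intro h
      have h' := congrArg Subtype.val h
      exact key.mp h'.symm
    · intro h
      exact Subtype.ext (key.mpr h).symm
  rw [hset]
  have hq2 : 2 ≤ q := by rw [← hF]; exact Fintype.one_lt_card
  have hpos : 0 < q ^ (2 * m) - 1 := by
    have : 2 ^ (2 * m) ≤ q ^ (2 * m) := Nat.pow_le_pow_left hq2 _
    have h4 : 2 ^ 2 ≤ 2 ^ (2 * m) := Nat.pow_le_pow_right (by norm_num) (by omega)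
    omega
  obtain ⟨m', rfl⟩ : ∃ m', m = m' + 1 := ⟨m - 1, by omega⟩
  rw [hsp, Finset.prod_range_succ] at hcs
  rw [Fin.prod_univ_eq_prod_range (fun i => q ^ (2 * (i + 1)) - 1) (m' + 1 - 1)]
  simp only [Nat.add_sub_cancel] at hcs ⊢
  have e1 : q ^ ((m' + 1) ^ 2) = q ^ (2 * (m' + 1) - 1) * q ^ (m' ^ 2) := by
    rw [← pow_add]; congr 1
    have : 2 * (m' + 1) - 1 = 2 * m' + 1 := by omega
    rw [this]; ring
  rw [e1] at hcs
  apply Nat.eq_of_mul_eq_mul_right hpos
  rw [hcs]; ring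

end Cfsg.Agent.S2594
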