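import Cfsg.Statements.S2599
import Mathlib

set_option autoImplicit false
open Cfsg

namespace Cfsg.Agent.S2599

theorem result {F : Type*} [Field F] [Fintype F] {p : ℕ} [Fact p.Prime] [CharP F p] {n : ℕ} (Q : QuadraticForm F (Fin n → F)) (hQ : (QuadraticMap.polarBilin Q).Nondegenerate) (x : ↥(Cfsg.isometryGroup F ⇑Q)) (hx : (orderOf x).Coprime p) (U : Submodule F (Fin n → F)) (hU0 : U ≠ ⊥) (hUx : ∀ u ∈ U, ((x : Matrix.GeneralLinearGroup (Fin n) F) : Matrix (Fin n) (Fin n) F).mulVec u ∈ U) (hirr : ∀ W : Submodule F (Fin n → F), W ≤ U → (∀ w ∈ W, ((x : Matrix.GeneralLinearGroup (Fin n) F) : Matrix (Fin n) (Fin n) F).mulVec w ∈ W) → W = ⊥ ∨ W = U) : U ⊓ LinearMap.BilinForm.orthogonal (QuadraticMap.polarBilin Q) U = ⊥ ∨ (∀ u ∈ U, Q u = 0) ∨ (p = 2 ∧ Module.finrank F U = 1 ∧ (∃ u ∈ U, Q u ≠ 0) ∧ ∀ u ∈ U, ((x : Matrix.GeneralLinearGroup (Fin n) F) : Matrix (Fin n) (Fin n) F).mulVec u = u) := by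
  classical
  have hpp : p.Prime := Fact.out
  obtain ⟨X, hX⟩ : ∃ X : Matrix (Fin n) (Fin n) F,
      X = ((x : Matrix.GeneralLinearGroup (Fin n) F) : Matrix (Fin n) (Fin n) F) := ⟨_, rfl⟩
  rw [← hX] at hUx hirr ⊢
  have hxQ : ∀ u : Fin n → F, Q (X.mulVec u) = Q u := by
    intro u
    have := x.2 u u
    rw [hX]
    exact this
  -- X is surjective on U
  have hsurj : ∀ u ∈ U, ∃ u' ∈ U, X.mulVec u' = u := by
    intro u hu
    let φ : U →ₗ[F] U := (Matrix.toLin' X).restrict (fun v hv => by
      rw [Matrix.toLin'_apply]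
      exact hUx v hv)
    have hinj : Function.Injective φ := by
      intro a b hab
      have h1 : X.mulVec (a : Fin n → F) = X.mulVec (b : Fin n → F) := by
        have := congrArg Subtype.val hab
        simpa [φ, LinearMap.restrict_apply] using this
      have h2 : (((x⁻¹ : ↥(Cfsg.isometryGroup F ⇑Q)) : Matrix.GeneralLinearGroup (Fin n) F) :
          Matrix (Fin n) (Fin n) F) * X = 1 := by
        rw [hX]
        simp
      have h3 := congrArg (fun w => ((((x⁻¹ : ↥(Cfsg.isometryGroup F ⇑Q)) :
          Matrix.GeneralLinearGroup (Fin n) F) : Matrix (Fin n) (Fin n) F)).mulVec w) h1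
      simp only [Matrix.mulVec_mulVec, h2, Matrix.one_mulVec] at h3
      exact Subtype.ext h3
    obtain ⟨u', hu'⟩ := (LinearMap.injective_iff_surjective.1 hinj) ⟨u, hu⟩
    refine ⟨u', u'.2, ?_⟩
    have := congrArg Subtype.val hu'
    simpa [φ, LinearMap.restrict_apply] using this
  have hpolar : ∀ u v : Fin n → F, QuadraticMap.polar Q (X.mulVec u) (X.mulVec v) =
      QuadraticMap.polar Q u v := by
    intro u v
    simp only [QuadraticMap.polar, ← Matrix.mulVec_add, hxQ]
  -- the radical
  have hW : ∀ w ∈ U ⊓ LinearMap.BilinForm.orthogonal (QuadraticMap.polarBilin Q) U,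
      X.mulVec w ∈ U ⊓ LinearMap.BilinForm.orthogonal (QuadraticMap.polarBilin Q) U := by
    intro w hw
    rw [Submodule.mem_inf] at hw ⊢
    refine ⟨hUx w hw.1, ?_⟩
    rw [LinearMap.BilinForm.mem_orthogonal_iff]
    intro m hm
    obtain ⟨m', hm', rfl⟩ := hsurj m hm
    have h1 := (LinearMap.BilinForm.mem_orthogonal_iff.1 hw.2) m' hm'
    change QuadraticMap.polarBilin Q m' w = 0 at h1
    change QuadraticMap.polarBilin Q (X.mulVec m') (X.mulVec w) = 0
    rw [QuadraticMap.polarBilin_apply_apply] at h1 ⊢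
    rw [hpolar]
    exact h1
  rcases hirr _ inf_le_left hW with h | h
  · left
    exact h
  · right
    have hortho : ∀ u ∈ U, ∀ v ∈ U, QuadraticMap.polar Q u v = 0 := by
      intro u hu v hv
      have hv' : v ∈ U ⊓ LinearMap.BilinForm.orthogonal (QuadraticMap.polarBilin Q) U := by
        rw [h]; exact hv
      have h1 := (LinearMap.BilinForm.mem_orthogonal_iff.1 (Submodule.mem_inf.1 hv').2) u hu
      change QuadraticMap.polarBilin Q u v = 0 at h1
      rwa [QuadraticMap.polarBilin_apply_apply] at h1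
    have hadd : ∀ u ∈ U, ∀ v ∈ U, Q (u + v) = Q u + Q v := by
      intro u hu v hv
      have := hortho u hu v hv
      simp only [QuadraticMap.polar] at this
      linear_combination this
    let W' : Submodule F (Fin n → F) :=
      { carrier := {u | u ∈ U ∧ Q u = 0}
        add_mem' := by
          rintro a b ⟨ha, ha0⟩ ⟨hb, hb0⟩
          exact ⟨U.add_mem ha hb, by rw [hadd a ha b hb, ha0, hb0, add_zero]⟩
        zero_mem' := ⟨U.zero_mem, by simp⟩
        smul_mem' := by
          rintro c a ⟨ha, ha0⟩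
          exact ⟨U.smul_mem c ha, by rw [QuadraticMap.map_smul, ha0, smul_zero]⟩ }
    have hW'U : W' ≤ U := fun u hu => hu.1
    have hW'x : ∀ w ∈ W', X.mulVec w ∈ W' := by
      rintro w ⟨hw, hw0⟩
      exact ⟨hUx w hw, by rw [hxQ, hw0]⟩
    rcases hirr W' hW'U hW'x with h' | h'
    · right
      have hinj0 : ∀ u ∈ U, Q u = 0 → u = 0 := by
        intro u hu hu0
        have : u ∈ W' := ⟨hu, hu0⟩
        rw [h'] at this
        exact (Submodule.mem_bot F).1 this
      have hp2 : p = 2 := by
        by_contra hp2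
        have h2 : (2 : F) ≠ 0 := by
          intro h2
          have : ((2 : ℕ) : F) = 0 := by exact_mod_cast h2
          have := (CharP.cast_eq_zero_iff F p 2).1 this
          exact hp2 ((Nat.prime_dvd_prime_iff_eq hpp Nat.prime_two).1 this)
        apply hU0
        rw [Submodule.eq_bot_iff]
        intro u hu
        apply hinj0 u hu
        have h3 := hortho u hu u hu
        simp only [QuadraticMap.polar] at h3
        have h4 : Q (u + u) = 4 * Q u := by
          have : u + u = (2 : F) • u := by rw [two_smul]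
          rw [this, QuadraticMap.map_smul]
          simp only [smul_eq_mul]
          ring
        rw [h4] at h3
        have h5 : (2 : F) * Q u = 0 := by linear_combination h3
        rcases mul_eq_zero.1 h5 with h6 | h6
        · exact absurd h6 h2
        · exact h6
      subst hp2
      have hinj : ∀ u ∈ U, ∀ v ∈ U, Q u = Q v → u = v := by
        intro u hu v hv huv
        have h1 : u - v ∈ U := U.sub_mem hu hv
        have h2 : Q (u - v) = 0 := by
          have : u - v = u + (-v) := sub_eq_add_neg u v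
          rw [this, hadd u hu (-v) (U.neg_mem hv), QuadraticMap.map_neg, huv]
          exact CharTwo.add_self_eq_zero _
        exact sub_eq_zero.1 (hinj0 _ h1 h2)
      obtain ⟨u, hu, hu0⟩ := Submodule.exists_mem_ne_zero_of_ne_bot hU0
      have hQu : Q u ≠ 0 := fun h0 => hu0 (hinj0 u hu h0)
      refine ⟨rfl, ?_, ⟨u, hu, hQu⟩, ?_⟩
      · rw [finrank_eq_one_iff']
        refine ⟨⟨u, hu⟩, ?_, ?_⟩
        · intro h0
          exact hu0 (congrArg Subtype.val h0)
        · rintro ⟨w, hw⟩
          obtain ⟨c, hc⟩ := FiniteField.isSquare_of_char_two (ringChar.eq F 2) (Q w / Q u)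
          refine ⟨c, ?_⟩
          apply Subtype.ext
          change c • u = w
          apply hinj _ (U.smul_mem c hu) _ hw
          rw [QuadraticMap.map_smul, smul_eq_mul, ← hc]
          field_simp
      · intro v hv
        exact hinj _ (hUx v hv) _ hv (hxQ v)
    · left
      intro u hu
      have : u ∈ W' := by rw [h']; exact hu
      exact this.2

end Cfsg.Agent.S2599
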