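import Cfsg.Statements.S2631
import Cfsg.Agent.S2609
import Cfsg.Agent.S0788
import Cfsg.Agent.S2630
import Cfsg.Agent.S0832

set_option autoImplicit false
open Cfsg


namespace Cfsg.Agent.S2631

open Matrix
open Cfsg.Agent.S0750 (pl pl_add_left pl_add_right pl_sub_left pl_sub_right pl_smul_left
  pl_smul_right pl_comm pl_self Q_add Q_smul Q_sub pl_zero_right)
open Cfsg.Agent.S0786 (mat mat_mul mat_one mat_iso mat_pl mat_inj mat_ext RQ exists_unit
  refl_mulVec refl_iso gen_refl wittR exists_partner)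
open Cfsg.Agent.S2635 (SR K2 SS_mem S_sq S_inv K_norm K_par comm_mem_K)
open Cfsg.Agent.S0789 (omega_eq_K2)
open Cfsg.Agent.S2629 (K2_det mem_K2_iff_det)
open Cfsg.Agent.S2630 (IsLag parity_K2 pc pc_one pc_flip)
open Cfsg.Agent.S2609 (sq_mul sq_refl mem_comm_iff_sq isSquare_mul_iff)

section
variable {F : Type*} [Field F] {ι : Type} [Fintype ι] [DecidableEq ι]

theorem pair_scale (Q : QuadraticForm F (ι → F)) (e f : ι → F) (he : Q e = 0) (hf : Q f = 0)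
    (hef : pl Q e f = 1) (μ : F) (hμ : μ ≠ 0) (x : ι → F) :
    (Cfsg.reflectionMatrix (⇑Q) (e - μ • f) * Cfsg.reflectionMatrix (⇑Q) (e - f)) *ᵥ x =
      x + ((μ⁻¹ - 1) * pl Q f x) • e + ((μ - 1) * pl Q e x) • f := by
  have hQa : Q (e - μ • f) = -μ := by
    rw [Q_sub, Q_smul, pl_smul_right, he, hf, hef]
    ring
  have hQb : Q (e - f) = -1 := by
    rw [Q_sub, he, hf, hef]
    ring
  rw [← Matrix.mulVec_mulVec, refl_mulVec, refl_mulVec, hQa, hQb]
  simp only [inv_neg_one, inv_neg, pl_add_right, pl_sub_left, pl_sub_right, pl_smul_left,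
    pl_smul_right, pl_self, he, hf, hef, pl_comm Q f e]
  funext k
  simp only [Pi.sub_apply, Pi.add_apply, Pi.smul_apply, smul_eq_mul]
  field_simp
  ring

theorem pair_scale_mem (Q : QuadraticForm F (ι → F)) (e f : ι → F) (he : Q e = 0)
    (hf : Q f = 0) (hef : pl Q e f = 1) (μ : F) (hμ : μ ≠ 0) (W : Submodule F (ι → F))
    (heW : e ∈ W) (hW : ∀ x ∈ W, pl Q e x = 0) (x : ι → F) (hx : x ∈ W) :
    (Cfsg.reflectionMatrix (⇑Q) (e - μ • f) * Cfsg.reflectionMatrix (⇑Q) (e - f)) *ᵥ x ∈ W := by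
  rw [pair_scale Q e f he hf hef μ hμ x, hW x hx, mul_zero, zero_smul, add_zero]
  exact W.add_mem hx (W.smul_mem _ heW)

end

theorem exists_fam {F V : Type*} [Field F] [AddCommGroup V] [Module F V]
    [FiniteDimensional F V] (U : Submodule F V) {m : ℕ} (hU : Module.finrank F U = m) :
    ∃ f : Fin m → V, LinearIndependent F f ∧ (∀ i, f i ∈ U) ∧
      Submodule.span F (Set.range f) = U := by
  let b := Module.finBasisOfFinrankEq F U hU
  refine ⟨fun i => (b i : V), ?_, fun i => (b i).2, ?_⟩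
  · exact b.linearIndependent.map' (Submodule.subtype _) (Submodule.ker_subtype _)
  · have h2 := congrArg (Submodule.map U.subtype) b.span_eq
    rw [Submodule.map_span, ← Set.range_comp, Submodule.map_top, Submodule.range_subtype] at h2
    exact h2

section
variable {F : Type*} [Field F] [Fintype F] {ι : Type} [Fintype ι] [DecidableEq ι]

/-- a stabiliser element of `W` with non-square spinor norm and determinant one -/
theorem exists_stab (h2 : (2 : F) ≠ 0) (hFn : Fintype.card F ≠ 2 ∨ Fintype.card ι ≠ 4)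
    (Q : QuadraticForm F (ι → F)) (hQ : (QuadraticMap.polarBilin Q).Nondegenerate)
    (W : Submodule F (ι → F)) (hW0 : ∀ w ∈ W, Q w = 0) (w : ι → F) (hwW : w ∈ W)
    (hw0 : w ≠ 0) :
    ∃ h : ↥(Cfsg.isometryGroup F ⇑Q), h ∈ K2 Q ∧ ¬ Cfsg.Agent.S2609.sq Q h ∧
      W.map (Matrix.mulVecLin (mat Q h)) = W := by
  have hR := gen_refl hFn Q hQ
  have hWpl : ∀ x ∈ W, ∀ y ∈ W, pl Q x y = 0 := by
    intro x hx y hy
    have h := Q_add Q x y
    rw [hW0 x hx, hW0 y hy, hW0 (x + y) (W.add_mem hx hy)] at h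
    linear_combination -h
  obtain ⟨w', -, hw'w, hw'Q⟩ := exists_partner Q hQ 0 w (hW0 w hwW)
    (by rw [pl_comm, pl_zero_right])
    (by
      intro hmem
      rw [Submodule.mem_span_singleton] at hmem
      obtain ⟨c, hc⟩ := hmem
      rw [smul_zero] at hc
      exact hw0 hc.symm)
  have hww' : pl Q w w' = 1 := by rw [pl_comm]; exact hw'w
  obtain ⟨μ, hμ⟩ := Cfsg.Agent.S0788.exists_nonsq (F := F) h2
  have hμ0 : μ ≠ 0 := by
    rintro rfl
    exact hμ IsSquare.zero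
  have hQa : Q (w - μ • w') = -μ := by
    rw [Q_sub, Q_smul, pl_smul_right, hW0 w hwW, hw'Q, hww']
    ring
  have hQb : Q (w - w') = -1 := by
    rw [Q_sub, hW0 w hwW, hw'Q, hww']
    ring
  have hQa0 : Q (w - μ • w') ≠ 0 := by rw [hQa]; exact neg_ne_zero.2 hμ0
  have hQb0 : Q (w - w') ≠ 0 := by rw [hQb]; exact neg_ne_zero.2 one_ne_zero
  obtain ⟨ra, hra⟩ := exists_unit Q hQ (Cfsg.reflectionMatrix (⇑Q) (w - μ • w'))
    (refl_iso Q _ hQa0)
  obtain ⟨rb, hrb⟩ := exists_unit Q hQ (Cfsg.reflectionMatrix (⇑Q) (w - w'))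
    (refl_iso Q _ hQb0)
  have hsh : ¬ Cfsg.Agent.S2609.sq Q (ra * rb) := by
    rw [sq_mul Q hQ hR, sq_refl Q hQ ra _ hQa0 hra, sq_refl Q hQ rb _ hQb0 hrb, hQa, hQb]
    have h5 : IsSquare (-μ) ↔ (IsSquare (-1 : F) ↔ IsSquare μ) := by
      rw [← isSquare_mul_iff _ _ (neg_ne_zero.2 one_ne_zero) hμ0, neg_one_mul]
    tauto
  refine ⟨ra * rb, SS_mem Q ra rb ⟨_, hQa0, hra⟩ ⟨_, hQb0, hrb⟩, hsh, ?_⟩
  have hle : W.map (Matrix.mulVecLin (mat Q (ra * rb))) ≤ W := by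
    rintro _ ⟨x, hx, rfl⟩
    show mat Q (ra * rb) *ᵥ x ∈ W
    rw [mat_mul, hra, hrb]
    exact pair_scale_mem Q w w' (hW0 w hwW) hw'Q hww' μ hμ0 W hwW (hWpl w hwW) x hx
  exact Submodule.eq_of_le_of_finrank_eq hle
    (Submodule.equivMapOfInjective _ (mat_inj Q (ra * rb)) W).finrank_eq.symm

end

theorem main {F : Type*} [Field F] [Fintype F] {m : ℕ} (hm : 1 ≤ m) (h : Fintype.card F ≠ 2 ∨ m ≠ 2) (U W : Submodule F (Fin m ⊕ Fin m → F)) (hU : Module.finrank F U = m) (hW : Module.finrank F W = m) (hU0 : ∀ u ∈ U, Cfsg.quadFormPlus m F u = 0) (hW0 : ∀ w ∈ W, Cfsg.quadFormPlus m F w = 0) (he : Even (m - Module.finrank F ↥(U ⊓ W))) : ∃ g : ↥(Cfsg.isometryGroup F (Cfsg.quadFormPlus m F)), g ∈ Cfsg.Omega F (Cfsg.quadFormPlus m F) ∧ U.map (Matrix.mulVecLin ((g : Matrix.GeneralLinearGroup (Fin m ⊕ Fin m) F) : Matrix (Fin m ⊕ Fin m) (Fin m ⊕ Fin m) F)) = W := by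
  have hFn : Fintype.card F ≠ 2 ∨ Fintype.card (Fin m ⊕ Fin m) ≠ 4 := by
    rw [Fintype.card_sum, Fintype.card_fin]
    rcases h with h | h
    · exact Or.inl h
    · exact Or.inr (by omega)
  have hQ := Cfsg.Agent.S1629.Qp_nondeg m F
  have hR := gen_refl hFn (Cfsg.Agent.S1629.Qp m F) hQ
  have hpl : ∀ x y : Fin m ⊕ Fin m → F, pl (Cfsg.Agent.S1629.Qp m F) x y =
      Cfsg.Agent.S0832.pol m x y := fun x y => Cfsg.Agent.S1629.polar_plus m x y
  have hU0' : ∀ u ∈ U, Cfsg.Agent.S1629.Qp m F u = 0 := hU0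
  have hW0' : ∀ w ∈ W, Cfsg.Agent.S1629.Qp m F w = 0 := hW0
  have hUpl : ∀ x ∈ U, ∀ y ∈ U, pl (Cfsg.Agent.S1629.Qp m F) x y = 0 := by
    intro x hx y hy
    have h := Q_add (Cfsg.Agent.S1629.Qp m F) x y
    rw [hU0' x hx, hU0' y hy, hU0' (x + y) (U.add_mem hx hy)] at h
    linear_combination -h
  have hWpl : ∀ x ∈ W, ∀ y ∈ W, pl (Cfsg.Agent.S1629.Qp m F) x y = 0 := by
    intro x hx y hy
    have h := Q_add (Cfsg.Agent.S1629.Qp m F) x y
    rw [hW0' x hx, hW0' y hy, hW0' (x + y) (W.add_mem hx hy)] at h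
    linear_combination -h
  obtain ⟨f, hfLI, hfU, hfspan⟩ := exists_fam U hU
  obtain ⟨f', hfLI', hfW, hfspan'⟩ := exists_fam W hW
  obtain ⟨g, -, hg⟩ := wittR hFn (Cfsg.Agent.S1629.Qp m F) hQ m f f' hfLI hfLI'
    (fun i => by rw [hU0' _ (hfU i), hW0' _ (hfW i)])
    (fun i j => by rw [hUpl _ (hfU i) _ (hfU j), hWpl _ (hfW i) _ (hfW j)])
  have hgU : U.map (Matrix.mulVecLin (mat (Cfsg.Agent.S1629.Qp m F) g)) = W := by
    rw [← hfspan, Submodule.map_span, ← Set.range_comp, ← hfspan']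
    congr 1
    exact congrArg Set.range (funext hg)
  have hLagU : IsLag (Cfsg.Agent.S1629.Qp m F) U := by
    refine ⟨hU0', ?_⟩
    intro t ht
    have hle : U ≤ (Cfsg.Agent.S0832.polB m).orthogonal U := Cfsg.Agent.S0832.ts_le_orth U hU0
    have hfr : Module.finrank F U =
        Module.finrank F ((Cfsg.Agent.S0832.polB m (F := F)).orthogonal U) := by
      rw [Cfsg.Agent.S0832.finrank_orth, hU]
      omega
    have heq := Submodule.eq_of_le_of_finrank_eq hle hfr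
    rw [heq]
    intro n hn
    show Cfsg.Agent.S0832.pol m n t = 0
    have h5 := ht n hn
    rw [hpl, Cfsg.Agent.S0832.pol_comm] at h5
    exact h5
  have hK : g ∈ K2 (Cfsg.Agent.S1629.Qp m F) := by
    rw [parity_K2 (Cfsg.Agent.S1629.Qp m F) hQ hR (pc (Cfsg.Agent.S1629.Qp m F) U m)
      (pc_one (Cfsg.Agent.S1629.Qp m F) U m hU)
      (fun r hr g' => pc_flip (Cfsg.Agent.S1629.Qp m F) hQ U hLagU m hU r hr g') g]
    show Even (m - Module.finrank F
      ↥(U ⊓ U.map (Matrix.mulVecLin (mat (Cfsg.Agent.S1629.Qp m F) g))))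
    rw [hgU]
    exact he
  by_cases h2 : (2 : F) = 0
  · haveI : CharP F 2 := CharTwo.of_one_ne_zero_of_two_eq_zero one_ne_zero h2
    refine ⟨g, ?_, hgU⟩
    show g ∈ commutator ↥(Cfsg.isometryGroup F ⇑(Cfsg.Agent.S1629.Qp m F))
    rw [omega_eq_K2 hFn (Cfsg.Agent.S1629.Qp m F) hQ]
    exact hK
  · by_cases hs : Cfsg.Agent.S2609.sq (Cfsg.Agent.S1629.Qp m F) g
    · refine ⟨g, ?_, hgU⟩
      show g ∈ commutator ↥(Cfsg.isometryGroup F ⇑(Cfsg.Agent.S1629.Qp m F))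
      rw [mem_comm_iff_sq h2 hFn (Cfsg.Agent.S1629.Qp m F) hQ]
      exact ⟨hs, K2_det _ g hK⟩
    · have hWne : W ≠ ⊥ := by
        intro hbot
        rw [hbot, finrank_bot] at hW
        omega
      obtain ⟨w, hwW, hw0⟩ := Submodule.exists_mem_ne_zero_of_ne_bot hWne
      obtain ⟨hh, hhK, hhs, hhW⟩ := exists_stab h2 hFn (Cfsg.Agent.S1629.Qp m F) hQ W hW0'
        w hwW hw0
      refine ⟨hh * g, ?_, ?_⟩
      · show hh * g ∈ commutator ↥(Cfsg.isometryGroup F ⇑(Cfsg.Agent.S1629.Qp m F))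
        rw [mem_comm_iff_sq h2 hFn (Cfsg.Agent.S1629.Qp m F) hQ]
        refine ⟨?_, K2_det _ _ ((K2 _).mul_mem hhK hK)⟩
        rw [sq_mul _ hQ hR]
        exact ⟨fun h => absurd h hhs, fun h => absurd h hs⟩
      · show U.map (Matrix.mulVecLin (mat (Cfsg.Agent.S1629.Qp m F) (hh * g))) = W
        rw [mat_mul, Matrix.mulVecLin_mul, Submodule.map_comp, hgU, hhW]

theorem result {F : Type*} [Field F] [Fintype F] {m : ℕ} (hm : 1 ≤ m) (h : Fintype.card F ≠ 2 ∨ m ≠ 2) (U W : Submodule F (Fin m ⊕ Fin m → F)) (hU : Module.finrank F U = m) (hW : Module.finrank F W = m) (hU0 : ∀ u ∈ U, Cfsg.quadFormPlus m F u = 0) (hW0 : ∀ w ∈ W, Cfsg.quadFormPlus m F w = 0) (he : Even (m - Module.finrank F ↥(U ⊓ W))) : ∃ g : ↥(Cfsg.isometryGroup F (Cfsg.quadFormPlus m F)), g ∈ Cfsg.Omega F (Cfsg.quadFormPlus m F) ∧ U.map (Matrix.mulVecLin ((g : Matrix.GeneralLinearGroup (Fin m ⊕ Fin m) F) : Matrix (Fin m ⊕ Fin m) (Fin m ⊕ Fin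 m) F)) = W := by
  exact main hm h U W hU hW hU0 hW0 he

end Cfsg.Agent.S2631
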