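import Cfsg.Statements.S2611
import Cfsg.Agent.S2631
import Cfsg.Agent.S2613

set_option autoImplicit false
open Cfsg


namespace Cfsg.Agent.S2611

open Matrix
open Cfsg.Agent.S0750 (pl pl_add_left pl_add_right pl_sub_left pl_sub_right pl_smul_left
  pl_smul_right pl_comm pl_self Q_add Q_smul Q_sub pl_zero_right)
open Cfsg.Agent.S0786 (mat mat_mul mat_one mat_iso mat_pl mat_inj mat_ext RQ exists_unit
  refl_mulVec refl_iso gen_refl wittR)
open Cfsg.Agent.S2635 (SR K2 SS_mem S_sq S_inv K_norm K_par comm_mem_K)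
open Cfsg.Agent.S0789 (omega_eq_K2)
open Cfsg.Agent.S2629 (K2_det mem_K2_iff_det)
open Cfsg.Agent.S2630 (IsLag parity_K2 pc pc_one pc_flip Estd mem_Estd Estd_finrank Estd_lag
  K2_iff_class)
open Cfsg.Agent.S2609 (sqM sq_mul sq_refl mem_comm_iff_sq isSquare_mul_iff IsoM list_sq)
open Cfsg.Agent.S2631 (pair_scale)
open Cfsg.Agent.S1629 (Qp Qp_nondeg polar_plus)

section
variable {F : Type*} [Field F] [Fintype F] {ι : Type} [Fintype ι] [DecidableEq ι]

theorem sqM_mul (Q : QuadraticForm F (ι → F)) (hQ : (QuadraticMap.polarBilin Q).Nondegenerate)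
    (hR : RQ Q = ⊤) (M N : Matrix ι ι F) (hM : IsoM Q M) (hN : IsoM Q N) :
    sqM Q (M * N) ↔ (sqM Q M ↔ sqM Q N) := by
  obtain ⟨g, hg⟩ := exists_unit Q hQ M hM
  obtain ⟨h, hh⟩ := exists_unit Q hQ N hN
  have h5 := sq_mul Q hQ hR g h
  unfold Cfsg.Agent.S2609.sq at h5
  rw [mat_mul, hg, hh] at h5
  exact h5

end

section
variable {F : Type*} [Field F] {ι : Type} [Fintype ι] [DecidableEq ι]

theorem pair_scale_diag (Q : QuadraticForm F (ι → F)) (p p' : ι) (hpp : p ≠ p')
    (h1 : ∀ x, pl Q (Pi.single p 1) x = x p') (h2 : ∀ x, pl Q (Pi.single p' 1) x = x p)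
    (he : Q (Pi.single p 1) = 0) (hf : Q (Pi.single p' 1) = 0) (μ : F) (hμ : μ ≠ 0) :
    Cfsg.reflectionMatrix (⇑Q) (Pi.single p 1 - μ⁻¹ • Pi.single p' 1) *
      Cfsg.reflectionMatrix (⇑Q) (Pi.single p 1 - Pi.single p' 1) =
      Matrix.diagonal (fun k => if k = p then μ else if k = p' then μ⁻¹ else 1) := by
  rw [Matrix.ext_iff_mulVec]
  intro x
  have hef : pl Q (Pi.single p (1 : F)) (Pi.single p' 1) = 1 := by
    rw [h1, Pi.single_eq_same]
  rw [pair_scale Q _ _ he hf hef μ⁻¹ (inv_ne_zero hμ) x, h1, h2, inv_inv]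
  funext k
  rw [Matrix.mulVec_diagonal]
  simp only [Pi.add_apply, Pi.smul_apply, Pi.single_apply, smul_eq_mul]
  by_cases hk : k = p
  · subst hk
    simp only [if_true, if_neg hpp]
    ring
  · by_cases hk' : k = p'
    · subst hk'
      simp only [if_true, if_neg hk]
      ring
    · simp only [if_neg hk, if_neg hk']
      ring

end

section
variable {F : Type*} [Field F] {m : ℕ}

/-- the embedding `A ↦ diag(A, A⁻ᵀ)` -/
noncomputable def emb (A : Matrix (Fin m) (Fin m) F) :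
    Matrix (Fin m ⊕ Fin m) (Fin m ⊕ Fin m) F :=
  Matrix.fromBlocks A 0 0 (A⁻¹)ᵀ

theorem emb_iso (A : Matrix (Fin m) (Fin m) F) (hA : IsUnit A.det) :
    IsoM (Qp m F) (emb A) := by
  intro v
  show Cfsg.quadFormPlus m F (emb A *ᵥ v) = Cfsg.quadFormPlus m F v
  have e : ∀ w : Fin m ⊕ Fin m → F,
      Cfsg.quadFormPlus m F w = (w ∘ Sum.inl) ⬝ᵥ (w ∘ Sum.inr) := fun w => rfl
  rw [e, e]
  unfold emb
  rw [Matrix.fromBlocks_mulVec, Sum.elim_comp_inl, Sum.elim_comp_inr, Matrix.zero_mulVec,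
    Matrix.zero_mulVec, add_zero, zero_add, Matrix.dotProduct_mulVec, Matrix.vecMul_transpose,
    Matrix.mulVec_mulVec, Matrix.nonsing_inv_mul _ hA, Matrix.one_mulVec]

theorem emb_mul (A B : Matrix (Fin m) (Fin m) F) : emb (A * B) = emb A * emb B := by
  unfold emb
  rw [Matrix.fromBlocks_multiply, Matrix.mul_inv_rev, Matrix.transpose_mul]
  simp

theorem emb_diag (D : Fin m → F) (hD : ∀ j, D j ≠ 0) :
    emb (Matrix.diagonal D) = Matrix.diagonal (Sum.elim D (fun j => (D j)⁻¹)) := by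
  have hinv : (Matrix.diagonal D)⁻¹ = Matrix.diagonal (fun j => (D j)⁻¹) := by
    apply Matrix.inv_eq_right_inv
    rw [Matrix.diagonal_mul_diagonal]
    have e : (fun i => D i * (D i)⁻¹) = fun _ => (1 : F) :=
      funext (fun i => mul_inv_cancel₀ (hD i))
    rw [e, Matrix.diagonal_one]
  unfold emb
  rw [hinv, Matrix.diagonal_transpose, Matrix.fromBlocks_diagonal]

theorem D_exists (D : Fin m → F) (hD : ∀ j, D j ≠ 0) : ∀ i, i ≤ m →
    ∃ vs : List (Fin m ⊕ Fin m → F), (∀ v ∈ vs, Qp m F v ≠ 0) ∧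
      (vs.map (fun v => Qp m F v)).prod = ∏ j : Fin m, (if (j : ℕ) < i then (D j)⁻¹ else 1) ∧
      (vs.map (fun v => Cfsg.reflectionMatrix (⇑(Qp m F)) v)).prod =
        Matrix.diagonal (fun k => if Sum.elim (fun j : Fin m => (j : ℕ))
          (fun j : Fin m => (j : ℕ)) k < i then Sum.elim D (fun j => (D j)⁻¹) k else 1) := by
  have hpl : ∀ x y : Fin m ⊕ Fin m → F, pl (Qp m F) x y =
      Cfsg.Agent.S0832.pol m x y := fun x y => polar_plus m x y
  intro i
  induction i with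
  | zero =>
    intro _
    refine ⟨[], by simp, by simp, ?_⟩
    simp only [List.map_nil, List.prod_nil, Nat.not_lt_zero, if_false]
    exact Matrix.diagonal_one.symm
  | succ i ih =>
    intro hi
    obtain ⟨vs, hvs, hprod, hmat⟩ := ih (by omega)
    obtain ⟨j₀, hj₀⟩ : ∃ j₀ : Fin m, (j₀ : ℕ) = i := ⟨⟨i, by omega⟩, rfl⟩
    have hiff : ∀ j : Fin m, j = j₀ ↔ (j : ℕ) = i := by
      intro j
      rw [← hj₀]
      exact Fin.ext_iff
    have h1 : ∀ x : Fin m ⊕ Fin m → F,
        pl (Qp m F) (Pi.single (Sum.inl j₀) 1) x = x (Sum.inr j₀) := fun x => by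
      rw [hpl, Cfsg.Agent.S0832.pol_comm, Cfsg.Agent.S0832.pol_single_inl]
    have h2 : ∀ x : Fin m ⊕ Fin m → F,
        pl (Qp m F) (Pi.single (Sum.inr j₀) 1) x = x (Sum.inl j₀) := fun x => by
      rw [hpl, Cfsg.Agent.S0832.pol_comm, Cfsg.Agent.S0832.pol_single_inr]
    have he : Qp m F (Pi.single (Sum.inl j₀) 1) = 0 := by
      show Cfsg.quadFormPlus m F _ = 0
      unfold Cfsg.quadFormPlus
      simp
    have hf : Qp m F (Pi.single (Sum.inr j₀) 1) = 0 := by
      show Cfsg.quadFormPlus m F _ = 0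
      unfold Cfsg.quadFormPlus
      simp
    have hef : pl (Qp m F) (Pi.single (Sum.inl j₀) (1 : F)) (Pi.single (Sum.inr j₀) 1) = 1 := by
      rw [h1, Pi.single_eq_same]
    have hQa : Qp m F (Pi.single (Sum.inl j₀) 1 - (D j₀)⁻¹ • Pi.single (Sum.inr j₀) 1) =
        -(D j₀)⁻¹ := by
      rw [Q_sub, Q_smul, pl_smul_right, he, hf, hef]
      ring
    have hQb : Qp m F (Pi.single (Sum.inl j₀) 1 - Pi.single (Sum.inr j₀) 1) = -1 := by
      rw [Q_sub, he, hf, hef]
      ring
    refine ⟨(Pi.single (Sum.inl j₀) 1 - (D j₀)⁻¹ • Pi.single (Sum.inr j₀) 1) ::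
      (Pi.single (Sum.inl j₀) 1 - Pi.single (Sum.inr j₀) 1) :: vs, ?_, ?_, ?_⟩
    · intro v hv
      rw [List.mem_cons, List.mem_cons] at hv
      rcases hv with rfl | rfl | hv
      · rw [hQa]
        exact neg_ne_zero.2 (inv_ne_zero (hD j₀))
      · rw [hQb]
        exact neg_ne_zero.2 one_ne_zero
      · exact hvs v hv
    · simp only [List.map_cons, List.prod_cons, hQa, hQb, hprod]
      have h5 : ∀ j : Fin m, (if (j : ℕ) < i + 1 then (D j)⁻¹ else 1) =
          (if j = j₀ then (D j)⁻¹ else 1) * (if (j : ℕ) < i then (D j)⁻¹ else 1) := by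
        intro j
        by_cases hj : j = j₀
        · rw [hj, if_pos rfl, if_pos (by omega), if_neg (by omega), mul_one]
        · have hne : (j : ℕ) ≠ i := fun h => hj ((hiff j).2 h)
          rw [if_neg hj, one_mul]
          by_cases h6 : (j : ℕ) < i
          · rw [if_pos h6, if_pos (by omega)]
          · rw [if_neg h6, if_neg (by omega)]
      rw [Finset.prod_congr rfl (fun j _ => h5 j), Finset.prod_mul_distrib,
        Finset.prod_ite_eq' Finset.univ j₀ (fun j => (D j)⁻¹), if_pos (Finset.mem_univ _)]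
      ring
    · simp only [List.map_cons, List.prod_cons]
      rw [hmat, ← Matrix.mul_assoc, pair_scale_diag (Qp m F) (Sum.inl j₀) (Sum.inr j₀) (by simp)
        h1 h2 he hf (D j₀) (hD j₀), Matrix.diagonal_mul_diagonal]
      congr 1
      funext k
      rcases k with j | j
      · by_cases hj : j = j₀
        · have c1 : ¬ ((j₀ : ℕ) < i) := by omega
          have c2 : (j₀ : ℕ) < i + 1 := by omega
          simp [hj, c1, c2]
        · have hne : (j : ℕ) ≠ i := fun h => hj ((hiff j).2 h)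
          by_cases h6 : (j : ℕ) < i
          · have c2 : (j : ℕ) < i + 1 := by omega
            simp [hj, h6, c2]
          · have c2 : ¬ ((j : ℕ) < i + 1) := by omega
            simp [hj, h6, c2]
      · by_cases hj : j = j₀
        · have c1 : ¬ ((j₀ : ℕ) < i) := by omega
          have c2 : (j₀ : ℕ) < i + 1 := by omega
          simp [hj, c1, c2]
        · have hne : (j : ℕ) ≠ i := fun h => hj ((hiff j).2 h)
          by_cases h6 : (j : ℕ) < i
          · have c2 : (j : ℕ) < i + 1 := by omega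
            simp [hj, h6, c2]
          · have c2 : ¬ ((j : ℕ) < i + 1) := by omega
            simp [hj, h6, c2]

end

section
variable {F : Type*} [Field F] [Fintype F] {m : ℕ}

theorem sq_emb_diag (D : Fin m → F) (hD : ∀ j, D j ≠ 0) :
    sqM (Qp m F) (emb (Matrix.diagonal D)) ↔ IsSquare (∏ j, D j) := by
  obtain ⟨vs, hvs, hprod, hmat⟩ := D_exists D hD m le_rfl
  obtain ⟨i1, i2, i3, i4⟩ := list_sq (Qp m F) (Qp_nondeg m F) vs hvs
  have e1 : Matrix.diagonal (fun k => if Sum.elim (fun j : Fin m => (j : ℕ))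
      (fun j : Fin m => (j : ℕ)) k < m then Sum.elim D (fun j => (D j)⁻¹) k else 1) =
      emb (Matrix.diagonal D) := by
    rw [emb_diag D hD]
    congr 1
    funext k
    rcases k with j | j <;> simp [j.2]
  have e2 : ∏ j : Fin m, (if (j : ℕ) < m then (D j)⁻¹ else 1) = (∏ j, D j)⁻¹ := by
    rw [← Finset.prod_inv_distrib]
    exact Finset.prod_congr rfl (fun j _ => if_pos j.2)
  rw [← e1, ← hmat, i3, hprod, e2, isSquare_inv]

theorem sq_emb_transvection (h2 : (2 : F) ≠ 0)
    (hFn : Fintype.card F ≠ 2 ∨ Fintype.card (Fin m ⊕ Fin m) ≠ 4) (i j : Fin m) (hij : i ≠ j)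
    (c : F) : sqM (Qp m F) (emb (Matrix.transvection i j c)) := by
  have hR := gen_refl hFn (Qp m F) (Qp_nondeg m F)
  have hc : c / 2 + c / 2 = c := by
    have h4 : (2 : F) * 2⁻¹ = 1 := mul_inv_cancel₀ h2
    rw [div_eq_mul_inv]
    linear_combination c * h4
  have e : Matrix.transvection i j c =
      Matrix.transvection i j (c / 2) * Matrix.transvection i j (c / 2) := by
    rw [Matrix.transvection_mul_transvection_same i j hij, hc]
  have hu : IsUnit (Matrix.transvection i j (c / 2)).det := by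
    rw [Matrix.det_transvection_of_ne i j hij]
    exact isUnit_one
  rw [e, emb_mul, sqM_mul _ (Qp_nondeg m F) hR _ _ (emb_iso _ hu) (emb_iso _ hu)]

theorem sq_left (h2 : (2 : F) ≠ 0)
    (hFn : Fintype.card F ≠ 2 ∨ Fintype.card (Fin m ⊕ Fin m) ≠ 4) :
    ∀ (L : List (Matrix.TransvectionStruct (Fin m) F)) (X : Matrix (Fin m) (Fin m) F),
      IsUnit X.det →
      (sqM (Qp m F) (emb ((L.map Matrix.TransvectionStruct.toMatrix).prod * X)) ↔
        sqM (Qp m F) (emb X)) := by
  have hR := gen_refl hFn (Qp m F) (Qp_nondeg m F)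
  intro L
  induction L with
  | nil =>
    intro X _
    simp
  | cons t L ih =>
    intro X hX
    simp only [List.map_cons, List.prod_cons]
    have hY : IsUnit ((L.map Matrix.TransvectionStruct.toMatrix).prod * X).det := by
      rw [Matrix.det_mul, Matrix.TransvectionStruct.det_toMatrix_prod, one_mul]
      exact hX
    have ht : IsUnit t.toMatrix.det := by
      rw [Matrix.TransvectionStruct.det]
      exact isUnit_one
    rw [Matrix.mul_assoc, emb_mul,
      sqM_mul _ (Qp_nondeg m F) hR _ _ (emb_iso _ ht) (emb_iso _ hY), ih X hX]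
    have h5 : sqM (Qp m F) (emb t.toMatrix) := sq_emb_transvection h2 hFn t.i t.j t.hij t.c
    exact ⟨fun h => h.1 h5, fun h => ⟨fun _ => h, fun _ => h5⟩⟩

theorem sq_right (h2 : (2 : F) ≠ 0)
    (hFn : Fintype.card F ≠ 2 ∨ Fintype.card (Fin m ⊕ Fin m) ≠ 4) :
    ∀ (L : List (Matrix.TransvectionStruct (Fin m) F)) (X : Matrix (Fin m) (Fin m) F),
      IsUnit X.det →
      (sqM (Qp m F) (emb (X * (L.map Matrix.TransvectionStruct.toMatrix).prod)) ↔
        sqM (Qp m F) (emb X)) := by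
  have hR := gen_refl hFn (Qp m F) (Qp_nondeg m F)
  intro L
  induction L with
  | nil =>
    intro X _
    simp
  | cons t L ih =>
    intro X hX
    simp only [List.map_cons, List.prod_cons]
    have ht : IsUnit t.toMatrix.det := by
      rw [Matrix.TransvectionStruct.det]
      exact isUnit_one
    have hXt : IsUnit (X * t.toMatrix).det := by
      rw [Matrix.det_mul, Matrix.TransvectionStruct.det, mul_one]
      exact hX
    rw [← Matrix.mul_assoc, ih (X * t.toMatrix) hXt, emb_mul,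
      sqM_mul _ (Qp_nondeg m F) hR _ _ (emb_iso _ hX) (emb_iso _ ht)]
    have h5 : sqM (Qp m F) (emb t.toMatrix) := sq_emb_transvection h2 hFn t.i t.j t.hij t.c
    exact ⟨fun h => h.2 h5, fun h => ⟨fun _ => h5, fun _ => h⟩⟩

theorem sq_emb (h2 : (2 : F) ≠ 0)
    (hFn : Fintype.card F ≠ 2 ∨ Fintype.card (Fin m ⊕ Fin m) ≠ 4)
    (A : Matrix (Fin m) (Fin m) F) (hA : IsUnit A.det) :
    sqM (Qp m F) (emb A) ↔ IsSquare A.det := by
  obtain ⟨L, L', D, hLD⟩ := Matrix.Pivot.exists_list_transvec_mul_diagonal_mul_list_transvec A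
  have hdet : A.det = ∏ j, D j := by
    rw [hLD, Matrix.det_mul, Matrix.det_mul, Matrix.TransvectionStruct.det_toMatrix_prod,
      Matrix.TransvectionStruct.det_toMatrix_prod, Matrix.det_diagonal, one_mul, mul_one]
  have hD : ∀ j, D j ≠ 0 := by
    intro j hj
    have h5 : A.det = 0 := by
      rw [hdet]
      exact Finset.prod_eq_zero (Finset.mem_univ j) hj
    rw [h5] at hA
    exact not_isUnit_zero hA
  have hDu : IsUnit (Matrix.diagonal D).det := by
    rw [Matrix.det_diagonal, ← hdet]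
    exact hA
  have hX : IsUnit ((L.map Matrix.TransvectionStruct.toMatrix).prod * Matrix.diagonal D).det := by
    rw [Matrix.det_mul, Matrix.TransvectionStruct.det_toMatrix_prod, one_mul]
    exact hDu
  rw [hdet]
  conv_lhs => rw [hLD]
  rw [sq_right h2 hFn L' _ hX, sq_left h2 hFn L _ hDu, sq_emb_diag D hD]

end

theorem main {F : Type*} [Field F] [Fintype F] {m : ℕ} (hm : 1 ≤ m) (h : Fintype.card F ≠ 2 ∨ m ≠ 2) (A : GL (Fin m) F) : (∃ g : ↥(Cfsg.isometryGroup F (Cfsg.quadFormPlus m F)), g ∈ Cfsg.Omega F (Cfsg.quadFormPlus m F) ∧ ((g : Matrix.GeneralLinearGroup (Fin m ⊕ Fin m) F) : Matrix (Fin m ⊕ Fin m) (Fin m ⊕ Fin m) F) = Matrix.fromBlocks (A : Matrix (Fin m) (Fin m) F) 0 0 ((A : Matrix (Fin m) (Fin m) F)⁻¹).transpose) ↔ IsSquare (A : Matrix (Fin m) (Fin m) F).det := by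
  have hFn : Fintype.card F ≠ 2 ∨ Fintype.card (Fin m ⊕ Fin m) ≠ 4 := by
    rw [Fintype.card_sum, Fintype.card_fin]
    rcases h with h | h
    · exact Or.inl h
    · exact Or.inr (by omega)
  have hQ := Qp_nondeg m F
  have hR := gen_refl hFn (Qp m F) hQ
  have hA : IsUnit (A : Matrix (Fin m) (Fin m) F).det :=
    (Matrix.isUnit_iff_isUnit_det _).1 A.isUnit
  obtain ⟨g₀, hg₀⟩ := exists_unit (Qp m F) hQ (emb (A : Matrix (Fin m) (Fin m) F))
    (emb_iso _ hA)
  have hdet1 : (emb (A : Matrix (Fin m) (Fin m) F)).det = 1 := by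
    unfold emb
    rw [Matrix.det_fromBlocks_zero₂₁, Matrix.det_transpose, Matrix.det_nonsing_inv,
      Ring.mul_inverse_cancel _ hA]
  have key : ∀ g : ↥(Cfsg.isometryGroup F ⇑(Qp m F)),
      mat (Qp m F) g = emb (A : Matrix (Fin m) (Fin m) F) →
      (g ∈ commutator ↥(Cfsg.isometryGroup F ⇑(Qp m F)) ↔
        IsSquare (A : Matrix (Fin m) (Fin m) F).det) := by
    intro g hg
    by_cases h2 : (2 : F) = 0
    · haveI : CharP F 2 := CharTwo.of_one_ne_zero_of_two_eq_zero one_ne_zero h2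
      have hsq : IsSquare (A : Matrix (Fin m) (Fin m) F).det := by
        obtain ⟨l, hl⟩ := Cfsg.Agent.S2635.exists_sqrt2 (A : Matrix (Fin m) (Fin m) F).det
        exact ⟨l, hl.symm⟩
      refine iff_of_true ?_ hsq
      rw [omega_eq_K2 hFn (Qp m F) hQ, K2_iff_class hFn g]
      unfold pc
      have hE : (Estd m F).map (Matrix.mulVecLin (mat (Qp m F) g)) = Estd m F := by
        have hle : (Estd m F).map (Matrix.mulVecLin (mat (Qp m F) g)) ≤ Estd m F := by
          rintro _ ⟨x, hx, rfl⟩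
          have hx' : x ∈ Estd m F := hx
          rw [mem_Estd] at hx' ⊢
          intro i
          show (mat (Qp m F) g *ᵥ x) (Sum.inr i) = 0
          rw [hg]
          unfold emb
          rw [Matrix.fromBlocks_mulVec, Sum.elim_inr, Matrix.zero_mulVec, zero_add]
          have hx0 : x ∘ Sum.inr = 0 := funext hx'
          rw [hx0, Matrix.mulVec_zero]
          rfl
        exact Submodule.eq_of_le_of_finrank_eq hle
          (Submodule.equivMapOfInjective _ (mat_inj (Qp m F) g) (Estd m F)).finrank_eq.symm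
      rw [hE, inf_idem, Estd_finrank, Nat.sub_self]
      exact ⟨0, rfl⟩
    · rw [mem_comm_iff_sq h2 hFn (Qp m F) hQ g]
      unfold Cfsg.Agent.S2609.sq
      rw [hg, hdet1, sq_emb h2 hFn _ hA]
      exact ⟨fun h => h.1, fun h => ⟨h, rfl⟩⟩
  show (∃ g : ↥(Cfsg.isometryGroup F ⇑(Qp m F)),
    g ∈ commutator ↥(Cfsg.isometryGroup F ⇑(Qp m F)) ∧
      mat (Qp m F) g = emb (A : Matrix (Fin m) (Fin m) F)) ↔ _
  constructor
  · rintro ⟨g, hgm, hg⟩
    exact (key g hg).1 hgm
  · intro hh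
    exact ⟨g₀, (key g₀ hg₀).2 hh, hg₀⟩

theorem result {F : Type*} [Field F] [Fintype F] {m : ℕ} (hm : 1 ≤ m) (h : Fintype.card F ≠ 2 ∨ m ≠ 2) (A : GL (Fin m) F) : (∃ g : ↥(Cfsg.isometryGroup F (Cfsg.quadFormPlus m F)), g ∈ Cfsg.Omega F (Cfsg.quadFormPlus m F) ∧ ((g : Matrix.GeneralLinearGroup (Fin m ⊕ Fin m) F) : Matrix (Fin m ⊕ Fin m) (Fin m ⊕ Fin m) F) = Matrix.fromBlocks (A : Matrix (Fin m) (Fin m) F) 0 0 ((A : Matrix (Fin m) (Fin m) F)⁻¹).transpose) ↔ IsSquare (A : Matrix (Fin m) (Fin m) F).det := by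
  exact main hm h A

end Cfsg.Agent.S2611
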