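import Cfsg.Statements.S2612
import Cfsg.Agent.S0750
import Cfsg.Agent.S0786
import Cfsg.Agent.S0789
import Cfsg.Agent.S0792
import Cfsg.Agent.S0832
import Cfsg.Agent.S1629
import Cfsg.Agent.S2635
import Cfsg.Agent.S2630
import Cfsg.Agent.S2628

set_option autoImplicit false
open Cfsg


namespace Cfsg.Agent.S2612

open Matrix
open Cfsg.Agent.S0786 (mat mat_mul mat_one mat_iso mat_pl mat_inj mat_ext RQ exists_unit
  refl_mulVec refl_iso gen_refl wittR)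
open Cfsg.Agent.S2635 (SR K2 SS_mem S_sq S_inv K_norm K_par K_le_comm comm_mem_K)
open Cfsg.Agent.S2630 (pc Estd mem_Estd K2_iff_class)

/-- the quarter-turn permutation of the index set -/
def θ (k : ℕ) : Fin (k + k) ⊕ Fin (k + k) → Fin (k + k) ⊕ Fin (k + k) :=
  Sum.elim
    (fun i => Sum.elim (fun a => Sum.inl (finSumFinEquiv (Sum.inr a)))
      (fun a => Sum.inr (finSumFinEquiv (Sum.inl a))) (finSumFinEquiv.symm i))
    (fun i => Sum.elim (fun a => Sum.inr (finSumFinEquiv (Sum.inr a)))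
      (fun a => Sum.inl (finSumFinEquiv (Sum.inl a))) (finSumFinEquiv.symm i))

theorem θ1 (k : ℕ) (a : Fin k) :
    θ k (Sum.inl (finSumFinEquiv (Sum.inl a))) = Sum.inl (finSumFinEquiv (Sum.inr a)) := by
  unfold θ
  rw [Sum.elim_inl, Equiv.symm_apply_apply, Sum.elim_inl]

theorem θ2 (k : ℕ) (a : Fin k) :
    θ k (Sum.inl (finSumFinEquiv (Sum.inr a))) = Sum.inr (finSumFinEquiv (Sum.inl a)) := by
  unfold θ
  rw [Sum.elim_inl, Equiv.symm_apply_apply, Sum.elim_inr]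

theorem θ3 (k : ℕ) (a : Fin k) :
    θ k (Sum.inr (finSumFinEquiv (Sum.inl a))) = Sum.inr (finSumFinEquiv (Sum.inr a)) := by
  unfold θ
  rw [Sum.elim_inr, Equiv.symm_apply_apply, Sum.elim_inl]

theorem θ4 (k : ℕ) (a : Fin k) :
    θ k (Sum.inr (finSumFinEquiv (Sum.inr a))) = Sum.inl (finSumFinEquiv (Sum.inl a)) := by
  unfold θ
  rw [Sum.elim_inr, Equiv.symm_apply_apply, Sum.elim_inr]

theorem θθ_inl (k : ℕ) (i : Fin (k + k)) : θ k (θ k (Sum.inl i)) = Sum.inr i := by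
  obtain ⟨s, rfl⟩ := finSumFinEquiv.surjective i
  rcases s with a | a
  · rw [θ1, θ2]
  · rw [θ2, θ3]

theorem θθ_inr (k : ℕ) (i : Fin (k + k)) : θ k (θ k (Sum.inr i)) = Sum.inl i := by
  obtain ⟨s, rfl⟩ := finSumFinEquiv.surjective i
  rcases s with a | a
  · rw [θ3, θ4]
  · rw [θ4, θ1]

/-- the quarter-turn matrix -/
def Y (F : Type*) [Field F] (k : ℕ) :
    Matrix (Fin (k + k) ⊕ Fin (k + k)) (Fin (k + k) ⊕ Fin (k + k)) F :=
  Matrix.of (fun i j => if θ k i = j then (1 : F) else 0)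

theorem Y_mulVec {F : Type*} [Field F] (k : ℕ) (v : Fin (k + k) ⊕ Fin (k + k) → F)
    (i : Fin (k + k) ⊕ Fin (k + k)) : (Y F k *ᵥ v) i = v (θ k i) := by
  simp [Y, Matrix.mulVec, dotProduct]

theorem Y_iso {F : Type*} [Field F] (k : ℕ) (v : Fin (k + k) ⊕ Fin (k + k) → F) :
    Cfsg.quadFormPlus (k + k) F (Y F k *ᵥ v) = Cfsg.quadFormPlus (k + k) F v := by
  unfold Cfsg.quadFormPlus
  rw [← Equiv.sum_comp finSumFinEquiv, Fintype.sum_sum_type,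
    ← Equiv.sum_comp finSumFinEquiv (fun i => v (Sum.inl i) * v (Sum.inr i)),
    Fintype.sum_sum_type]
  simp only [Y_mulVec, θ1, θ2, θ3, θ4]
  rw [add_comm]
  congr 1
  exact Finset.sum_congr rfl (fun a _ => mul_comm _ _)

theorem main {F : Type*} [Field F] [Fintype F] {m : ℕ} (hm : 1 ≤ m) (h : Fintype.card F ≠ 2 ∨ m ≠ 2) : (∃ g : ↥(Cfsg.isometryGroup F (Cfsg.quadFormPlus m F)), g ∈ Cfsg.Omega F (Cfsg.quadFormPlus m F) ∧ (∀ v : Fin m ⊕ Fin m → F, (∀ i, v (Sum.inr i) = 0) → ∀ i, (((g : Matrix.GeneralLinearGroup (Fin m ⊕ Fin m) F) : Matrix (Fin m ⊕ Fin m) (Fin m ⊕ Fin m) F).mulVec v) (Sum.inl i) = 0) ∧ (∀ v : Fin m ⊕ Fin m → F, (∀ i, v (Sum.inl i) = 0) → ∀ i, (((g : Matrix.GeneralLinearGroup (Fin m ⊕ Fin m) F) : Matrix (Fin m ⊕ Fin m) (Fin m ⊕ Fin m) F).mulVec v) (Sum.inr i) = 0)) ↔ Even m := by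
  have hFn : Fintype.card F ≠ 2 ∨ Fintype.card (Fin m ⊕ Fin m) ≠ 4 := by
    rw [Fintype.card_sum, Fintype.card_fin]
    rcases h with h | h
    · exact Or.inl h
    · exact Or.inr (by omega)
  have hnd := Cfsg.Agent.S1629.Qp_nondeg m F
  have hR := gen_refl hFn (Cfsg.Agent.S1629.Qp m F) hnd
  constructor
  · rintro ⟨g, hgΩ, hg1, hg2⟩
    have hgK : g ∈ K2 (Cfsg.Agent.S1629.Qp m F) := by
      have hle : commutator ↥(Cfsg.isometryGroup F ⇑(Cfsg.Agent.S1629.Qp m F)) ≤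
          K2 (Cfsg.Agent.S1629.Qp m F) := by
        rw [commutator_def, Subgroup.commutator_le]
        intro a _ b _
        exact comm_mem_K _ hnd hR a b
      exact hle hgΩ
    have h1 := (K2_iff_class hFn g).1 hgK
    have h2 : Estd m F ⊓ (Estd m F).map
        (Matrix.mulVecLin (mat (Cfsg.Agent.S1629.Qp m F) g)) = ⊥ := by
      rw [eq_bot_iff]
      rintro x ⟨hxE, y, hyE, rfl⟩
      have hx1 : ∀ i, (mat (Cfsg.Agent.S1629.Qp m F) g *ᵥ y) (Sum.inl i) = 0 :=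
        hg1 y ((mem_Estd y).1 hyE)
      have hx2 : ∀ i, (mat (Cfsg.Agent.S1629.Qp m F) g *ᵥ y) (Sum.inr i) = 0 :=
        (mem_Estd _).1 hxE
      show (mat (Cfsg.Agent.S1629.Qp m F) g *ᵥ y) = 0
      funext i
      rcases i with i | i
      · exact hx1 i
      · exact hx2 i
    unfold pc at h1
    rw [h2, finrank_bot, Nat.sub_zero] at h1
    exact h1
  · rintro ⟨k, rfl⟩
    obtain ⟨y, hy⟩ := exists_unit (Cfsg.Agent.S1629.Qp (k + k) F) hnd (Y F k) (Y_iso k)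
    refine ⟨y * y, Cfsg.Agent.S2628.sq_mem_comm _ hR y, ?_, ?_⟩
    · intro v hv i
      show (mat (Cfsg.Agent.S1629.Qp (k + k) F) (y * y) *ᵥ v) (Sum.inl i) = 0
      rw [mat_mul, hy, ← Matrix.mulVec_mulVec, Y_mulVec, Y_mulVec, θθ_inl]
      exact hv i
    · intro v hv i
      show (mat (Cfsg.Agent.S1629.Qp (k + k) F) (y * y) *ᵥ v) (Sum.inr i) = 0
      rw [mat_mul, hy, ← Matrix.mulVec_mulVec, Y_mulVec, Y_mulVec, θθ_inr]
      exact hv i

theorem result {F : Type*} [Field F] [Fintype F] {m : ℕ} (hm : 1 ≤ m) (h : Fintype.card F ≠ 2 ∨ m ≠ 2) : (∃ g : ↥(Cfsg.isometryGroup F (Cfsg.quadFormPlus m F)), g ∈ Cfsg.Omega F (Cfsg.quadFormPlus m F) ∧ (∀ v : Fin m ⊕ Fin m → F, (∀ i, v (Sum.inr i) = 0) → ∀ i, (((g : Matrix.GeneralLinearGroup (Fin m ⊕ Fin m) F) : Matrix (Fin m ⊕ Fin m) (Fin m ⊕ Fin m) F).mulVec v) (Sum.inl i) = 0) ∧ (∀ v : Fin m ⊕ Fin m → F, (∀ i, v (Sum.inl i) = 0) → ∀ i, (((g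 : Matrix.GeneralLinearGroup (Fin m ⊕ Fin m) F) : Matrix (Fin m ⊕ Fin m) (Fin m ⊕ Fin m) F).mulVec v) (Sum.inr i) = 0)) ↔ Even m := by
  exact main hm h

end Cfsg.Agent.S2612
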