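import Cfsg.Statements.S2619
import Mathlib

set_option autoImplicit false
open Cfsg

namespace Cfsg.Agent.S2619

theorem result {F V ι : Type*} [Field F] [Finite F] [CharP F 2] [AddCommGroup V] [Module F V] [Fintype ι] (b : Module.Basis ι F V) (B : LinearMap.BilinForm F V) (hB : B.IsAlt) (c : ι → F) : ∃! Q : QuadraticForm F V, QuadraticMap.polarBilin Q = B ∧ ∀ i, Q (b i) = c i := by
  classical
  have huniq : ∀ Q1 Q2 : QuadraticForm F V, QuadraticMap.polarBilin Q1 = QuadraticMap.polarBilin Q2 →
      (∀ i, Q1 (b i) = Q2 (b i)) → Q1 = Q2 := by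
    intro Q1 Q2 hpol hb
    have hpol' : ∀ x y, QuadraticMap.polar Q1 x y = QuadraticMap.polar Q2 x y := by
      intro x y
      rw [← QuadraticMap.polarBilin_apply_apply, hpol, QuadraticMap.polarBilin_apply_apply]
    have key : ∀ (s : Finset ι) (a : ι → F), Q1 (∑ i ∈ s, a i • b i) = Q2 (∑ i ∈ s, a i • b i) := by
      intro s a
      induction s using Finset.induction_on with
      | empty => simp
      | insert i s hi ih =>
        rw [Finset.sum_insert hi, QuadraticMap.map_add (⇑Q1), QuadraticMap.map_add (⇑Q2), ih, hpol',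
          QuadraticMap.map_smul, QuadraticMap.map_smul, hb]
    ext v
    have := key Finset.univ (fun i => b.repr v i)
    rwa [b.sum_repr] at this
  let _ : LinearOrder ι := LinearOrder.lift' (Fintype.equivFin ι) (Fintype.equivFin ι).injective
  let M : Matrix ι ι F := fun i j => if i < j then B (b i) (b j) else if i = j then c i else 0
  have hB' : ∀ i j, (Matrix.toBilin b M) (b i) (b j) = M i j := by
    intro i j
    rw [← LinearMap.BilinForm.toMatrix_apply b (Matrix.toBilin b M) i j,
      LinearMap.BilinForm.toMatrix_toBilin]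
  have h1 : QuadraticMap.polarBilin (Matrix.toBilin b M).toQuadraticMap = B := by
    apply LinearMap.BilinForm.ext_basis b
    intro i j
    rw [QuadraticMap.polarBilin_apply_apply, LinearMap.BilinMap.polar_toQuadraticMap, hB', hB']
    simp only [M]
    rcases lt_trichotomy i j with h | h | h
    · rw [if_pos h, if_neg (not_lt_of_gt h), if_neg (ne_of_gt h), add_zero]
    · subst h
      rw [if_neg (lt_irrefl i), if_pos rfl, CharTwo.add_self_eq_zero, hB.self_eq_zero]
    · rw [if_neg (not_lt_of_gt h), if_neg (ne_of_gt h), if_pos h, zero_add, ← hB.neg_eq,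
        CharTwo.neg_eq]
  have h2 : ∀ i, (Matrix.toBilin b M).toQuadraticMap (b i) = c i := by
    intro i
    rw [LinearMap.BilinMap.toQuadraticMap_apply, hB']
    simp only [M]
    rw [if_neg (lt_irrefl i), if_pos trivial]
  exact ⟨(Matrix.toBilin b M).toQuadraticMap, ⟨h1, h2⟩, fun Q' hQ' =>
    huniq Q' _ (hQ'.1.trans h1.symm) (fun i => (hQ'.2 i).trans (h2 i).symm)⟩

end Cfsg.Agent.S2619
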