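import Cfsg.Statements.S2621
import Mathlib

set_option autoImplicit false
open Cfsg

namespace Cfsg.Agent.S2621

open Matrix

/-- change of basis for Gram determinants -/
theorem gram_det {F : Type*} [Field F] {n : Type*} [Fintype n] [DecidableEq n]
    (G₀ : Matrix n n F) {ι : Type*} [Fintype ι] [DecidableEq ι]
    (b : Module.Basis ι F (n → F)) :
    ∃ c : F, c ≠ 0 ∧
      (Matrix.of (fun i j : ι => Matrix.toBilin' G₀ (b i) (b j))).det = c ^ 2 * G₀.det := by
  let e : ι ≃ n := b.indexEquiv (Pi.basisFun F n)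
  let std' : Module.Basis ι F (n → F) := (Pi.basisFun F n).reindex e.symm
  have hmul := LinearMap.BilinForm.toMatrix_mul_basis_toMatrix std' b (Matrix.toBilin' G₀)
  have h1 : Matrix.of (fun i j : ι => Matrix.toBilin' G₀ (b i) (b j)) =
      LinearMap.BilinForm.toMatrix b (Matrix.toBilin' G₀) := by
    ext i j
    rw [LinearMap.BilinForm.toMatrix_apply]
    rfl
  have h2 : LinearMap.BilinForm.toMatrix std' (Matrix.toBilin' G₀) = G₀.submatrix e e := by
    ext i j
    rw [LinearMap.BilinForm.toMatrix_apply]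
    simp only [std', Module.Basis.reindex_apply, Equiv.symm_symm, Pi.basisFun_apply,
      Matrix.submatrix_apply]
    exact Matrix.toBilin'_single G₀ (e i) (e j)
  have h3 : (std'.toMatrix b).det * (b.toMatrix std').det = 1 := by
    rw [← Matrix.det_mul, Module.Basis.toMatrix_mul_toMatrix_flip, Matrix.det_one]
  refine ⟨(std'.toMatrix b).det, ?_, ?_⟩
  · intro h0
    rw [h0, zero_mul] at h3
    exact zero_ne_one h3
  · rw [h1, ← hmul, Matrix.det_mul, Matrix.det_mul, Matrix.det_transpose, h2,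
      Matrix.det_submatrix_equiv_self]
    ring

theorem isSquare_sq_mul {F : Type*} [Field F] (c x : F) (hc : c ≠ 0) :
    IsSquare (c ^ 2 * x) ↔ IsSquare x := by
  constructor
  · rintro ⟨r, hr⟩
    refine ⟨r / c, ?_⟩
    field_simp
    linear_combination hr
  · rintro ⟨r, hr⟩
    exact ⟨c * r, by rw [hr]; ring⟩

/-- the Gram matrix of the hyperbolic form -/
def G0 (F : Type*) [Field F] (m : ℕ) : Matrix (Fin m ⊕ Fin m) (Fin m ⊕ Fin m) F :=
  Matrix.fromBlocks (0 : Matrix (Fin m) (Fin m) F) (1 : Matrix (Fin m) (Fin m) F)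
    (1 : Matrix (Fin m) (Fin m) F) (0 : Matrix (Fin m) (Fin m) F)

theorem det_G0 {F : Type*} [Field F] (m : ℕ) : (G0 F m).det = (-1) ^ m := by
  have h1 : (G0 F m) *
      (Matrix.fromBlocks (1 : Matrix (Fin m) (Fin m) F) (1 : Matrix (Fin m) (Fin m) F)
        (0 : Matrix (Fin m) (Fin m) F) (1 : Matrix (Fin m) (Fin m) F)) =
      Matrix.fromBlocks (0 : Matrix (Fin m) (Fin m) F) (1 : Matrix (Fin m) (Fin m) F)
        (1 : Matrix (Fin m) (Fin m) F) (1 : Matrix (Fin m) (Fin m) F) := by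
    unfold G0
    rw [Matrix.fromBlocks_multiply]
    simp
  have h2 : (Matrix.fromBlocks (1 : Matrix (Fin m) (Fin m) F) (1 : Matrix (Fin m) (Fin m) F)
        (0 : Matrix (Fin m) (Fin m) F) (1 : Matrix (Fin m) (Fin m) F)).det = 1 := by
    rw [Matrix.det_fromBlocks_zero₂₁, Matrix.det_one, one_mul]
  have h3 : (Matrix.fromBlocks (0 : Matrix (Fin m) (Fin m) F) (1 : Matrix (Fin m) (Fin m) F)
        (1 : Matrix (Fin m) (Fin m) F) (1 : Matrix (Fin m) (Fin m) F)).det = (-1) ^ m := by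
    rw [Matrix.det_fromBlocks_one₂₂]
    simp [Matrix.det_neg]
  have h4 := congrArg Matrix.det h1
  rw [Matrix.det_mul, h2, mul_one, h3] at h4
  exact h4

theorem polar_plus {F : Type*} [Field F] (m : ℕ) (u v : Fin m ⊕ Fin m → F) :
    QuadraticMap.polar (Cfsg.quadFormPlus m F) u v = Matrix.toBilin' (G0 F m) u v := by
  rw [Matrix.toBilin'_apply']
  simp only [G0, QuadraticMap.polar, Cfsg.quadFormPlus, dotProduct, Fintype.sum_sum_type,
    Matrix.fromBlocks_mulVec, Sum.elim_inl, Sum.elim_inr, Matrix.zero_mulVec, Matrix.one_mulVec,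
    zero_add, add_zero, Pi.add_apply, Function.comp_apply]
  rw [← Finset.sum_sub_distrib, ← Finset.sum_sub_distrib, ← Finset.sum_add_distrib]
  apply Finset.sum_congr rfl
  intro i _
  ring

theorem isSquare_neg_one_pow {F : Type*} [Field F] [Fintype F] {q : ℕ}
    (hF : Fintype.card F = q) (hq : Odd q) (m : ℕ) :
    IsSquare ((-1 : F) ^ m) ↔ Even (m * (q - 1) / 2) := by
  have hsq := FiniteField.isSquare_neg_one_iff (F := F)
  rw [hF] at hsq
  obtain ⟨k, hk⟩ := hq
  have e1 : m * (q - 1) / 2 = m * k := by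
    rw [hk, Nat.add_sub_cancel, ← mul_assoc, mul_comm m 2, mul_assoc, Nat.mul_div_cancel_left _ (by norm_num)]
  rw [e1, Nat.even_mul]
  constructor
  · intro h
    by_cases hm : Even m
    · left; exact hm
    · right
      have hm' : Odd m := Nat.not_even_iff_odd.1 hm
      rw [hm'.neg_one_pow] at h
      have := hsq.1 h
      rw [Nat.even_iff]
      omega
  · rintro (hm | hk')
    · rw [hm.neg_one_pow]
      exact IsSquare.one
    · have h1 : IsSquare (-1 : F) := by
        rw [hsq]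
        rw [Nat.even_iff] at hk'
        omega
      exact h1.pow m

/-- the Gram matrix of the elliptic form -/
def G1 (F : Type*) [Field F] (m : ℕ) (a c : F) :
    Matrix ((Fin m ⊕ Fin m) ⊕ Fin 2) ((Fin m ⊕ Fin m) ⊕ Fin 2) F :=
  Matrix.fromBlocks (G0 F m) (0 : Matrix (Fin m ⊕ Fin m) (Fin 2) F)
    (0 : Matrix (Fin 2) (Fin m ⊕ Fin m) F) (!![2, a; a, 2 * c] : Matrix (Fin 2) (Fin 2) F)

theorem det_G1 {F : Type*} [Field F] (m : ℕ) (a c : F) :
    (G1 F m a c).det = (-1) ^ m * (4 * c - a ^ 2) := by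
  unfold G1
  rw [Matrix.det_fromBlocks_zero₂₁, det_G0, Matrix.det_fin_two_of]
  ring

theorem polar_minus {F : Type*} [Field F] (m : ℕ) (a c : F)
    (u v : (Fin m ⊕ Fin m) ⊕ Fin 2 → F) :
    QuadraticMap.polar (Cfsg.quadFormMinus m F a c) u v = Matrix.toBilin' (G1 F m a c) u v := by
  have h1 := polar_plus m (u ∘ Sum.inl) (v ∘ Sum.inl)
  rw [Matrix.toBilin'_apply'] at h1
  simp only [dotProduct] at h1
  rw [Matrix.toBilin'_apply']
  simp only [G1, dotProduct, Fintype.sum_sum_type, Matrix.fromBlocks_mulVec, Sum.elim_inl,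
    Sum.elim_inr, Matrix.zero_mulVec, add_zero, zero_add, Pi.add_apply, Fin.sum_univ_two]
  have h2 : ∑ x : Fin m ⊕ Fin m, u (Sum.inl x) * (G0 F m *ᵥ (v ∘ Sum.inl)) x =
      QuadraticMap.polar (Cfsg.quadFormPlus m F) (u ∘ Sum.inl) (v ∘ Sum.inl) := by
    rw [h1]
    rfl
  simp only [Fintype.sum_sum_type] at h2
  rw [h2]
  simp only [QuadraticMap.polar, Cfsg.quadFormMinus, Cfsg.quadFormPlus, Pi.add_apply,
    Function.comp_apply, Matrix.mulVec, dotProduct, Fin.sum_univ_two, Matrix.of_apply,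
    Matrix.cons_val', Matrix.cons_val_zero, Matrix.cons_val_one, Matrix.cons_val_fin_one]
  ring

theorem aniso_nonsquare {F : Type*} [Field F] (h2 : (2 : F) ≠ 0) (a c : F)
    (hac : ∀ z₁ z₂ : F, z₁ ^ 2 + a * z₁ * z₂ + c * z₂ ^ 2 = 0 → z₁ = 0 ∧ z₂ = 0) :
    ¬ IsSquare (a ^ 2 - 4 * c) := by
  rintro ⟨s, hs⟩
  have := hac ((-a + s) / 2) 1 (by
    field_simp
    linear_combination -hs)
  exact one_ne_zero this.2

theorem isSquare_mul_nonsquare {F : Type*} [Field F] [Fintype F] (x D : F) (hx : x ≠ 0)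
    (hD : ¬ IsSquare D) : IsSquare (x * D) ↔ ¬ IsSquare x := by
  classical
  have hD0 : D ≠ 0 := by
    rintro rfl
    exact hD IsSquare.zero
  rw [← quadraticChar_one_iff_isSquare (mul_ne_zero hx hD0), map_mul,
    quadraticChar_neg_one_iff_not_isSquare.2 hD, ← quadraticChar_neg_one_iff_not_isSquare]
  constructor
  · intro h
    linear_combination -h
  · intro h
    rw [h]
    norm_num


theorem result {F : Type*} [Field F] [Fintype F] {q : ℕ} (hF : Fintype.card F = q) (hq : Odd q) {m : ℕ} (hm : 1 ≤ m) (a c : F) (hac : ∀ z₁ z₂ : F, z₁ ^ 2 + a * z₁ * z₂ + c * z₂ ^ 2 = 0 → z₁ = 0 ∧ z₂ = 0) {ι : Type*} [Fintype ι] [DecidableEq ι] (b : Module.Basis ι F ((Fin (m - 1) ⊕ Fin (m - 1)) ⊕ Fin 2 → F)) : IsSquare (Matrix.of (fun i j : ι => QuadraticMap.polar (Cfsg.quadFormMinus (m - 1) F a c) (b i) (b j))).det ↔ ¬ Even (m * (q - 1) / 2) := by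
  have hF2 : ringChar F ≠ 2 := by
    intro h
    have := FiniteField.even_card_iff_char_two.1 h
    rw [hF] at this
    rcases hq with ⟨k, hk⟩
    omega
  have h2 : (2 : F) ≠ 0 := Ring.two_ne_zero hF2
  obtain ⟨c₀, hc, hdet⟩ := gram_det (G1 F (m - 1) a c) b
  have h1 : Matrix.of (fun i j : ι => QuadraticMap.polar (Cfsg.quadFormMinus (m - 1) F a c) (b i) (b j)) =
      Matrix.of (fun i j : ι => Matrix.toBilin' (G1 F (m - 1) a c) (b i) (b j)) := by
    ext i j
    exact polar_minus (m - 1) a c (b i) (b j)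
  rw [h1, hdet, det_G1, isSquare_sq_mul _ _ hc]
  have e : (-1 : F) ^ (m - 1) * (4 * c - a ^ 2) = (-1) ^ m * (a ^ 2 - 4 * c) := by
    obtain ⟨k, rfl⟩ : ∃ k, m = k + 1 := ⟨m - 1, by omega⟩
    rw [Nat.add_sub_cancel, pow_succ]
    ring
  rw [e, isSquare_mul_nonsquare _ _ (pow_ne_zero m (by norm_num)) (aniso_nonsquare h2 a c hac),
    isSquare_neg_one_pow hF hq m]

end Cfsg.Agent.S2621
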