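import Cfsg.Statements.S2622
import Mathlib

set_option autoImplicit false
open Cfsg

namespace Cfsg.Agent.S2622

open Module

theorem mem_orth_singleton {F V : Type*} [Field F] [AddCommGroup V] [Module F V]
    (B : LinearMap.BilinForm F V) (x y : V) :
    y ∈ B.orthogonal (F ∙ x) ↔ B x y = 0 := by
  rw [LinearMap.BilinForm.mem_orthogonal_iff]
  constructor
  · intro h
    exact h x (Submodule.mem_span_singleton_self x)
  · intro h z hz
    obtain ⟨c, rfl⟩ := Submodule.mem_span_singleton.1 hz
    show B (c • x) y = 0
    rw [map_smul, LinearMap.smul_apply, h, smul_zero]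

theorem orthonormal_aux {F : Type*} [Field F] [Finite F] [CharP F 2] (n : ℕ) :
    ∀ {V : Type*} [AddCommGroup V] [Module F V] [FiniteDimensional F V]
      (B : LinearMap.BilinForm F V), B.IsSymm → B.Nondegenerate → (∃ v : V, B v v ≠ 0) →
      Module.finrank F V = n →
      ∃ b : Module.Basis (Fin n) F V, ∀ i j, B (b i) (b j) = if i = j then 1 else 0 := by
  classical
  have h2 : (2 : F) = 0 := CharTwo.two_eq_zero
  have hsqrt : ∀ c : F, ∃ e : F, c = e * e := fun c =>
    FiniteField.isSquare_of_char_two (ringChar.eq F 2) c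
  induction n with
  | zero =>
    intro V _ _ _ B hS hB hna hd
    exact ⟨_root_.basisOfFinrankZero hd, fun i => i.elim0⟩
  | succ d ih =>
    intro V _ _ _ B hS hB hna hd
    -- a vector of norm one
    obtain ⟨v₀, hv₀⟩ := hna
    obtain ⟨e, he⟩ := hsqrt (B v₀ v₀)
    have he0 : e ≠ 0 := by
      rintro rfl
      apply hv₀
      rw [he]
      ring
    obtain ⟨v, hv⟩ : ∃ v : V, B v v = 1 := by
      refine ⟨e⁻¹ • v₀, ?_⟩
      simp only [map_smul, LinearMap.smul_apply, smul_eq_mul, he]
      field_simp
    -- improve the choice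
    have hchoice : ∃ v' : V, B v' v' = 1 ∧ (1 ≤ d → ∃ u : V, B v' u = 0 ∧ B u u ≠ 0) := by
      by_cases hex : ∃ u : V, B v u = 0 ∧ B u u ≠ 0
      · exact ⟨v, hv, fun _ => hex⟩
      · push Not at hex
        by_cases hd1 : 1 ≤ d
        · have hx : B v v ≠ 0 := by rw [hv]; exact one_ne_zero
          have hv0 : v ≠ 0 := by
            rintro rfl
            apply hx
            simp
          have hcompl := LinearMap.BilinForm.isCompl_span_singleton_orthogonal hx
          have hdW : Module.finrank F (B.orthogonal (F ∙ v)) = d := by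
            have h1 := Submodule.finrank_add_eq_of_isCompl hcompl
            rw [finrank_span_singleton hv0, hd] at h1
            omega
          have hBW := LinearMap.BilinForm.restrict_nondegenerate_orthogonal_spanSingleton B hB
            hS.isRefl hx
          have hWne : (B.orthogonal (F ∙ v)) ≠ ⊥ := by
            intro h
            rw [h, finrank_bot] at hdW
            omega
          obtain ⟨w₁, hw₁, hw₁0⟩ := Submodule.exists_mem_ne_zero_of_ne_bot hWne
          have hex2 : ∃ w₂ : B.orthogonal (F ∙ v), B w₁ (w₂ : V) ≠ 0 := by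
            by_contra hcon
            push Not at hcon
            have h3 := hBW.1 ⟨w₁, hw₁⟩ (fun y => hcon y)
            exact hw₁0 (congrArg Subtype.val h3)
          obtain ⟨w₂, hw₂⟩ := hex2
          have hvw₁ : B v w₁ = 0 := (mem_orth_singleton B v w₁).1 hw₁
          have hvw₂ : B v (w₂ : V) = 0 := (mem_orth_singleton B v w₂).1 w₂.2
          have hw₁v : B w₁ v = 0 := by rw [hS.eq]; exact hvw₁
          have hw₂v : B (w₂ : V) v = 0 := by rw [hS.eq]; exact hvw₂
          have hw₁w₁ : B w₁ w₁ = 0 := hex w₁ hvw₁
          have hw₂w₂ : B (w₂ : V) (w₂ : V) = 0 := hex w₂ hvw₂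
          refine ⟨v + w₁, ?_, fun _ => ⟨v + (B w₁ (w₂ : V))⁻¹ • (w₂ : V), ?_, ?_⟩⟩
          · simp only [map_add, LinearMap.add_apply, hv, hvw₁, hw₁v, hw₁w₁]
            ring
          · simp only [map_add, LinearMap.add_apply, map_smul, smul_eq_mul, hv, hvw₂, hw₁v, mul_zero,
              add_zero, zero_add]
            rw [inv_mul_cancel₀ hw₂]
            linear_combination h2
          · simp only [map_add, LinearMap.add_apply, map_smul, LinearMap.smul_apply, smul_eq_mul,
              hv, hvw₂, hw₂v, hw₂w₂]
            simp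
        · exact ⟨v, hv, fun h => absurd h hd1⟩
    obtain ⟨x, hx1, hxu⟩ := hchoice
    have hx : B x x ≠ 0 := by rw [hx1]; exact one_ne_zero
    have hx0 : x ≠ 0 := by
      rintro rfl
      apply hx
      simp
    have hcompl := LinearMap.BilinForm.isCompl_span_singleton_orthogonal hx
    have hdW : Module.finrank F (B.orthogonal (F ∙ x)) = d := by
      have h1 := Submodule.finrank_add_eq_of_isCompl hcompl
      rw [finrank_span_singleton hx0, hd] at h1
      omega
    have hBW := LinearMap.BilinForm.restrict_nondegenerate_orthogonal_spanSingleton B hB hS.isRefl hx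
    have hbasis : ∃ v' : Module.Basis (Fin d) F (B.orthogonal (F ∙ x)),
        ∀ i j, B (v' i : V) (v' j : V) = if i = j then 1 else 0 := by
      rcases Nat.eq_zero_or_pos d with hd0 | hdpos
      · subst hd0
        exact ⟨_root_.basisOfFinrankZero hdW, fun i => i.elim0⟩
      · obtain ⟨u, hu1, hu2⟩ := hxu hdpos
        exact ih (B.restrict (B.orthogonal (F ∙ x))) (hS.restrict _) hBW
          ⟨⟨u, (mem_orth_singleton B x u).2 hu1⟩, hu2⟩ hdW
    obtain ⟨v', hv'⟩ := hbasis
    let b := Module.Basis.mkFinCons x v'
      (by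
        rintro c y hy hc
        rw [add_eq_zero_iff_neg_eq] at hc
        rw [← hc, Submodule.neg_mem_iff] at hy
        have h3 := hcompl.disjoint
        rw [Submodule.disjoint_def] at h3
        have h4 := h3 (c • x) (Submodule.smul_mem _ _ <| Submodule.mem_span_singleton_self _) hy
        exact (smul_eq_zero.1 h4).resolve_right hx0)
      (by
        intro y
        refine ⟨-B x y / B x x, fun z hz => ?_⟩
        obtain ⟨c, rfl⟩ := Submodule.mem_span_singleton.1 hz
        show B (c • x) (y + (-B x y / B x x) • x) = 0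
        rw [map_smul, LinearMap.smul_apply, map_add, map_smul, smul_eq_mul, smul_eq_mul,
          div_mul_cancel₀ _ hx, add_neg_cancel, mul_zero])
    have hb : (b : Fin (d + 1) → V) = Fin.cons x ((↑) ∘ v') := Module.Basis.coe_mkFinCons _ _ _ _
    have hxv : ∀ j : Fin d, B x (v' j : V) = 0 := fun j =>
      (v' j).prop _ (Submodule.mem_span_singleton_self x)
    refine ⟨b, ?_⟩
    rw [hb]
    intro i j
    refine Fin.cases ?_ (fun i => ?_) i <;> refine Fin.cases ?_ (fun j => ?_) j <;>
      simp only [Fin.cons_zero, Fin.cons_succ, Function.comp_apply]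
    · simpa using hx1
    · rw [hxv j, if_neg (Fin.succ_ne_zero j).symm]
    · rw [hS.eq, hxv i, if_neg (Fin.succ_ne_zero i)]
    · rw [hv' i j]
      simp only [Fin.succ_inj]

theorem result {F V : Type*} [Field F] [Finite F] [CharP F 2] [AddCommGroup V] [Module F V] [FiniteDimensional F V] {n : ℕ} (hV : Module.finrank F V = n) (B : LinearMap.BilinForm F V) (hS : B.IsSymm) (hB : B.Nondegenerate) (hna : ∃ v : V, B v v ≠ 0) : ∃ b : Module.Basis (Fin n) F V, ∀ i j, B (b i) (b j) = if i = j then 1 else 0 := by
  exact orthonormal_aux n B hS hB hna hV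

end Cfsg.Agent.S2622
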