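import Cfsg.Statements.S2623
import Mathlib

set_option autoImplicit false
open Cfsg

namespace Cfsg.Agent.S2623

open Matrix Module

/-- change of basis for Gram determinants -/
theorem gram_det {F : Type*} [Field F] {n : Type*} [Fintype n] [DecidableEq n]
    (G₀ : Matrix n n F) {ι : Type*} [Fintype ι] [DecidableEq ι]
    (b : Module.Basis ι F (n → F)) :
    ∃ c : F, c ≠ 0 ∧
      (Matrix.of (fun i j : ι => Matrix.toBilin' G₀ (b i) (b j))).det = c ^ 2 * G₀.det := by
  let e : ι ≃ n := b.indexEquiv (Pi.basisFun F n)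
  let std' : Module.Basis ι F (n → F) := (Pi.basisFun F n).reindex e.symm
  have hmul := LinearMap.BilinForm.toMatrix_mul_basis_toMatrix std' b (Matrix.toBilin' G₀)
  have h1 : Matrix.of (fun i j : ι => Matrix.toBilin' G₀ (b i) (b j)) =
      LinearMap.BilinForm.toMatrix b (Matrix.toBilin' G₀) := by
    ext i j
    rw [LinearMap.BilinForm.toMatrix_apply]
    rfl
  have h2 : LinearMap.BilinForm.toMatrix std' (Matrix.toBilin' G₀) = G₀.submatrix e e := by
    ext i j
    rw [LinearMap.BilinForm.toMatrix_apply]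
    simp only [std', Module.Basis.reindex_apply, Equiv.symm_symm, Pi.basisFun_apply,
      Matrix.submatrix_apply]
    exact Matrix.toBilin'_single G₀ (e i) (e j)
  have h3 : (std'.toMatrix b).det * (b.toMatrix std').det = 1 := by
    rw [← Matrix.det_mul, Module.Basis.toMatrix_mul_toMatrix_flip, Matrix.det_one]
  refine ⟨(std'.toMatrix b).det, ?_, ?_⟩
  · intro h0
    rw [h0, zero_mul] at h3
    exact zero_ne_one h3
  · rw [h1, ← hmul, Matrix.det_mul, Matrix.det_mul, Matrix.det_transpose, h2,
      Matrix.det_submatrix_equiv_self]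
    ring

/-- a nondegenerate symmetric form in dimension at least two over a finite field of odd order
takes the value 2 -/
theorem exists_self_eq_two {K V : Type*} [Field K] [Fintype K] [AddCommGroup V] [Module K V]
    [FiniteDimensional K V] (hK : Fintype.card K % 2 = 1) (h2 : (2 : K) ≠ 0)
    (B : LinearMap.BilinForm K V) (hS : B.IsSymm) (hB : B.Nondegenerate)
    (hd : 2 ≤ Module.finrank K V) : ∃ x : V, B x x = 2 := by
  classical
  haveI : Invertible (2 : K) := invertibleOfNonzero h2
  obtain ⟨v, hv⟩ := LinearMap.BilinForm.exists_orthogonal_basis (LinearMap.BilinForm.isSymm_iff.1 hS)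
  obtain ⟨i0, hi0⟩ : ∃ i : Fin (Module.finrank K V), (i : ℕ) = 0 := ⟨⟨0, by omega⟩, rfl⟩
  obtain ⟨i1, hi1⟩ : ∃ i : Fin (Module.finrank K V), (i : ℕ) = 1 := ⟨⟨1, by omega⟩, rfl⟩
  have h01 : i0 ≠ i1 := by
    intro h
    rw [h] at hi0
    omega
  have ha : B (v i0) (v i0) ≠ 0 := hv.not_isOrtho_basis_self_of_separatingLeft hB.1 i0
  have hb : B (v i1) (v i1) ≠ 0 := hv.not_isOrtho_basis_self_of_separatingLeft hB.1 i1
  have hf : (Polynomial.C (B (v i0) (v i0)) * Polynomial.X ^ 2).degree = 2 :=
    Polynomial.degree_C_mul_X_pow 2 ha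
  have hg : (Polynomial.C (B (v i1) (v i1)) * Polynomial.X ^ 2 - Polynomial.C (2 : K)).degree = 2 := by
    have hlt : (Polynomial.C (2 : K)).degree <
        (Polynomial.C (B (v i1) (v i1)) * Polynomial.X ^ 2).degree := by
      rw [Polynomial.degree_C_mul_X_pow 2 hb]
      exact lt_of_le_of_lt Polynomial.degree_C_le (by norm_num)
    rw [Polynomial.degree_sub_eq_left_of_degree_lt hlt]
    exact Polynomial.degree_C_mul_X_pow 2 hb
  obtain ⟨s, t, hst⟩ := FiniteField.exists_root_sum_quadratic hf hg hK
  simp only [Polynomial.eval_mul, Polynomial.eval_C, Polynomial.eval_pow, Polynomial.eval_X,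
    Polynomial.eval_sub] at hst
  refine ⟨s • v i0 + t • v i1, ?_⟩
  have h1 : B (v i0) (v i1) = 0 := hv h01
  have h2' : B (v i1) (v i0) = 0 := hv h01.symm
  simp only [map_add, map_smul, LinearMap.add_apply, LinearMap.smul_apply, smul_eq_mul, h1, h2']
  linear_combination hst

/-- orthogonal bases normalised except at the last vector -/
theorem exists_normalized_basis {K : Type*} [Field K] [Fintype K]
    (hK : Fintype.card K % 2 = 1) (h2 : (2 : K) ≠ 0) (n : ℕ) :
    ∀ {V : Type*} [AddCommGroup V] [Module K V] [FiniteDimensional K V]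
      (B : LinearMap.BilinForm K V), B.IsSymm → B.Nondegenerate → Module.finrank K V = n →
      ∃ v : Module.Basis (Fin n) K V, (∀ i j, i ≠ j → B (v i) (v j) = 0) ∧
        (∀ i : Fin n, (i : ℕ) + 1 < n → B (v i) (v i) = 2) := by
  classical
  induction n with
  | zero =>
    intro V _ _ _ B hS hB hd
    exact ⟨_root_.basisOfFinrankZero hd, fun i => i.elim0, fun i => i.elim0⟩
  | succ d ih =>
    intro V _ _ _ B hS hB hd
    rcases Nat.eq_zero_or_pos d with hd0 | hdpos
    · subst hd0
      refine ⟨Module.finBasisOfFinrankEq K V hd, ?_, ?_⟩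
      · intro i j hij
        exact absurd (Fin.ext (by have := i.isLt; have := j.isLt; omega)) hij
      · intro i hi
        omega
    · obtain ⟨x, hx2⟩ := exists_self_eq_two hK h2 B hS hB (by omega)
      have hx : B x x ≠ 0 := by rw [hx2]; exact h2
      have hx0 : x ≠ 0 := by
        rintro rfl
        apply hx
        simp
      have hcompl := LinearMap.BilinForm.isCompl_span_singleton_orthogonal hx
      have hdW : Module.finrank K (B.orthogonal (K ∙ x)) = d := by
        have h1 := Submodule.finrank_add_eq_of_isCompl hcompl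
        rw [finrank_span_singleton hx0, hd] at h1
        omega
      have hBW := LinearMap.BilinForm.restrict_nondegenerate_orthogonal_spanSingleton B hB hS.isRefl hx
      obtain ⟨v', hv1, hv2⟩ := ih (B.restrict (B.orthogonal (K ∙ x))) (hS.restrict _) hBW hdW
      let b := Module.Basis.mkFinCons x v'
        (by
          rintro c y hy hc
          rw [add_eq_zero_iff_neg_eq] at hc
          rw [← hc, Submodule.neg_mem_iff] at hy
          have h3 := hcompl.disjoint
          rw [Submodule.disjoint_def] at h3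
          have h4 := h3 (c • x) (Submodule.smul_mem _ _ <| Submodule.mem_span_singleton_self _) hy
          exact (smul_eq_zero.1 h4).resolve_right hx0)
        (by
          intro y
          refine ⟨-B x y / B x x, fun z hz => ?_⟩
          obtain ⟨c, rfl⟩ := Submodule.mem_span_singleton.1 hz
          show B (c • x) (y + (-B x y / B x x) • x) = 0
          rw [map_smul, LinearMap.smul_apply, map_add, map_smul, smul_eq_mul, smul_eq_mul,
            div_mul_cancel₀ _ hx, add_neg_cancel, mul_zero])
      have hb : (b : Fin (d + 1) → V) = Fin.cons x ((↑) ∘ v') := Module.Basis.coe_mkFinCons _ _ _ _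
      have hxv : ∀ j : Fin d, B x (v' j : V) = 0 := fun j =>
        (v' j).prop _ (Submodule.mem_span_singleton_self x)
      refine ⟨b, ?_, ?_⟩
      · rw [hb]
        intro i j
        refine Fin.cases ?_ (fun i => ?_) i <;> refine Fin.cases ?_ (fun j => ?_) j <;> intro hij <;>
          simp only [Fin.cons_zero, Fin.cons_succ, Function.comp_apply]
        · exact (hij rfl).elim
        · exact hxv j
        · rw [hS.eq]
          exact hxv i
        · exact hv1 i j (fun h => hij (by rw [h]))
      · rw [hb]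
        intro i
        refine Fin.cases ?_ (fun i => ?_) i
        · intro _
          simp only [Fin.cons_zero]
          exact hx2
        · intro hi
          simp only [Fin.cons_succ, Function.comp_apply]
          exact hv2 i (by simp only [Fin.val_succ] at hi; omega)

theorem ortho_expand {K V : Type*} [Field K] [AddCommGroup V] [Module K V] {ι : Type*} [Fintype ι]
    [DecidableEq ι] (B : LinearMap.BilinForm K V) (v : Module.Basis ι K V)
    (hv : ∀ i j, i ≠ j → B (v i) (v j) = 0) (x : V) :
    B x x = ∑ i, (v.repr x i) ^ 2 * B (v i) (v i) := by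
  have hx := v.sum_repr x
  have h1 : B x x = B (∑ i, v.repr x i • v i) (∑ j, v.repr x j • v j) := by rw [hx]
  rw [h1]
  simp only [map_sum, LinearMap.sum_apply, map_smul, LinearMap.smul_apply, smul_eq_mul]
  apply Finset.sum_congr rfl
  intro i _
  rw [Finset.sum_eq_single i]
  · ring
  · intro j _ hji
    rw [hv j i hji, mul_zero]
  · intro h
    exact absurd (Finset.mem_univ i) h

theorem gram_eq {F : Type*} [Field F] {n : ℕ} (Q : QuadraticForm F (Fin n → F)) :
    Matrix.of (fun i j : Fin n => QuadraticMap.polar ⇑Q (Pi.single i 1) (Pi.single j 1)) =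
      LinearMap.BilinForm.toMatrix' (QuadraticMap.polarBilin Q) := by
  ext i j
  rw [LinearMap.BilinForm.toMatrix'_apply]
  rfl

theorem polarBilin_symm {F V : Type*} [Field F] [AddCommGroup V] [Module F V]
    (Q : QuadraticForm F V) : LinearMap.BilinForm.IsSymm (QuadraticMap.polarBilin Q) :=
  ⟨fun x y => QuadraticMap.polar_comm _ x y⟩

theorem gram_det' {F : Type*} [Field F] {n : ℕ} (Q : QuadraticForm F (Fin n → F))
    (b : Module.Basis (Fin n) F (Fin n → F)) :
    ∃ c : F, c ≠ 0 ∧
      (Matrix.of (fun i j : Fin n => QuadraticMap.polarBilin Q (b i) (b j))).det = c ^ 2 *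
        (Matrix.of (fun i j : Fin n =>
          QuadraticMap.polar ⇑Q (Pi.single i 1) (Pi.single j 1))).det := by
  obtain ⟨c, hc, h⟩ := gram_det (LinearMap.BilinForm.toMatrix' (QuadraticMap.polarBilin Q)) b
  refine ⟨c, hc, ?_⟩
  rw [gram_eq, ← h, Matrix.toBilin'_toMatrix']

/-- the general statement -/
theorem isometric_iff {F : Type*} [Field F] [Fintype F] (h2 : (2 : F) ≠ 0) {n : ℕ}
    (Q₁ Q₂ : QuadraticForm F (Fin n → F)) (h₁ : (QuadraticMap.polarBilin Q₁).Nondegenerate)
    (h₂ : (QuadraticMap.polarBilin Q₂).Nondegenerate) :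
    (∃ g : (Fin n → F) ≃ₗ[F] (Fin n → F), ∀ v, Q₂ (g v) = Q₁ v) ↔
      IsSquare ((Matrix.of (fun i j : Fin n =>
          QuadraticMap.polar ⇑Q₁ (Pi.single i 1) (Pi.single j 1))).det *
        (Matrix.of (fun i j : Fin n =>
          QuadraticMap.polar ⇑Q₂ (Pi.single i 1) (Pi.single j 1))).det) := by
  classical
  have hK : Fintype.card F % 2 = 1 := by
    apply FiniteField.odd_card_of_char_ne_two
    intro h
    apply h2
    haveI : CharP F 2 := ringChar.of_eq h
    exact CharTwo.two_eq_zero
  constructor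
  · rintro ⟨g, hg⟩
    obtain ⟨c, hc, h⟩ := gram_det' Q₂ ((Pi.basisFun F (Fin n)).map g)
    have h3 : Matrix.of (fun i j : Fin n => QuadraticMap.polarBilin Q₂
        (((Pi.basisFun F (Fin n)).map g) i) (((Pi.basisFun F (Fin n)).map g) j)) =
        Matrix.of (fun i j : Fin n => QuadraticMap.polar ⇑Q₁ (Pi.single i 1) (Pi.single j 1)) := by
      ext i j
      simp only [Matrix.of_apply, Module.Basis.map_apply, Pi.basisFun_apply,
        QuadraticMap.polarBilin_apply_apply]
      unfold QuadraticMap.polar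
      rw [← map_add, hg, hg, hg]
    rw [h3] at h
    rw [h]
    exact ⟨c * (Matrix.of (fun i j : Fin n =>
      QuadraticMap.polar ⇑Q₂ (Pi.single i 1) (Pi.single j 1))).det, by ring⟩
  · rintro ⟨s, hs⟩
    rcases Nat.eq_zero_or_pos n with hn0 | hnpos
    · subst hn0
      refine ⟨LinearEquiv.refl F _, fun v => ?_⟩
      have hv : v = 0 := Subsingleton.elim _ _
      show Q₂ v = Q₁ v
      rw [hv, QuadraticMap.map_zero, QuadraticMap.map_zero]
    obtain ⟨m, rfl⟩ : ∃ m, n = m + 1 := ⟨n - 1, by omega⟩
    obtain ⟨v1, hv1o, hv1d⟩ := exists_normalized_basis hK h2 (m + 1)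
      (QuadraticMap.polarBilin Q₁) (polarBilin_symm Q₁) h₁ (by simp)
    obtain ⟨v2, hv2o, hv2d⟩ := exists_normalized_basis hK h2 (m + 1)
      (QuadraticMap.polarBilin Q₂) (polarBilin_symm Q₂) h₂ (by simp)
    obtain ⟨c1, hc1, e1⟩ := gram_det' Q₁ v1
    obtain ⟨c2, hc2, e2⟩ := gram_det' Q₂ v2
    have hdiag : ∀ (Q : QuadraticForm F (Fin (m + 1) → F))
        (v : Module.Basis (Fin (m + 1)) F (Fin (m + 1) → F)),
        (∀ i j, i ≠ j → QuadraticMap.polarBilin Q (v i) (v j) = 0) →
        (∀ i : Fin (m + 1), (i : ℕ) + 1 < m + 1 → QuadraticMap.polarBilin Q (v i) (v i) = 2) →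
        (Matrix.of (fun i j : Fin (m + 1) => QuadraticMap.polarBilin Q (v i) (v j))).det =
          2 ^ m * QuadraticMap.polarBilin Q (v (Fin.last m)) (v (Fin.last m)) := by
      intro Q v ho hd
      have hM : Matrix.of (fun i j : Fin (m + 1) => QuadraticMap.polarBilin Q (v i) (v j)) =
          Matrix.diagonal (fun i => QuadraticMap.polarBilin Q (v i) (v i)) := by
        ext i j
        by_cases hij : i = j
        · subst hij
          simp
        · rw [Matrix.diagonal_apply_ne _ hij, Matrix.of_apply, ho i j hij]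
      rw [hM, Matrix.det_diagonal, Fin.prod_univ_castSucc]
      congr 1
      rw [Finset.prod_congr rfl (fun i _ => hd (Fin.castSucc i) (by simp))]
      simp
    rw [hdiag Q₁ v1 hv1o hv1d] at e1
    rw [hdiag Q₂ v2 hv2o hv2d] at e2
    obtain ⟨d1, hd1⟩ : ∃ d1, d1 = QuadraticMap.polarBilin Q₁ (v1 (Fin.last m)) (v1 (Fin.last m)) :=
      ⟨_, rfl⟩
    obtain ⟨d2, hd2⟩ : ∃ d2, d2 = QuadraticMap.polarBilin Q₂ (v2 (Fin.last m)) (v2 (Fin.last m)) :=
      ⟨_, rfl⟩
    rw [← hd1] at e1
    rw [← hd2] at e2
    have hd1ne : d1 ≠ 0 := by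
      rw [hd1]
      exact LinearMap.IsOrthoᵢ.not_isOrtho_basis_self_of_separatingLeft (fun i j hij => hv1o i j hij)
        h₁.1 _
    have hd2ne : d2 ≠ 0 := by
      rw [hd2]
      exact LinearMap.IsOrthoᵢ.not_isOrtho_basis_self_of_separatingLeft (fun i j hij => hv2o i j hij)
        h₂.1 _
    have h2m : (2 : F) ^ m ≠ 0 := pow_ne_zero _ h2
    obtain ⟨t, ht⟩ : ∃ t : F, t ^ 2 * d2 = d1 := by
      refine ⟨c1 * c2 * s / (2 ^ m * d2), ?_⟩
      have e3 : (c1 * c2 * s) ^ 2 = (2 ^ m * d1) * (2 ^ m * d2) := by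
        rw [e1, e2]
        linear_combination (c1 ^ 2 * c2 ^ 2) * hs.symm
      field_simp
      linear_combination e3
    have ht0 : t ≠ 0 := by
      rintro rfl
      apply hd1ne
      rw [← ht]
      ring
    let w : Fin (m + 1) → Fˣ := fun i => if i = Fin.last m then Units.mk0 t ht0 else 1
    let v2' := v2.unitsSMul w
    have hv2' : ∀ i, v2' i = (w i : F) • v2 i := fun i => by
      show v2.unitsSMul w i = _
      rw [Module.Basis.unitsSMul_apply]
      rfl
    have hv2'o : ∀ i j, i ≠ j → QuadraticMap.polarBilin Q₂ (v2' i) (v2' j) = 0 := by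
      intro i j hij
      simp only [hv2', map_smul, LinearMap.smul_apply, smul_eq_mul, hv2o i j hij, mul_zero]
    have hdiag2 : ∀ i, QuadraticMap.polarBilin Q₂ (v2' i) (v2' i) =
        QuadraticMap.polarBilin Q₁ (v1 i) (v1 i) := by
      intro i
      simp only [hv2', map_smul, LinearMap.smul_apply, smul_eq_mul]
      by_cases hi : i = Fin.last m
      · subst hi
        have hw : (w (Fin.last m) : F) = t := by simp [w]
        rw [hw, ← hd2, ← hd1]
        linear_combination ht
      · have hw : (w i : F) = 1 := by simp [w, hi]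
        have hlt : (i : ℕ) + 1 < m + 1 := by
          have h1 := i.isLt
          have h3 : (i : ℕ) ≠ m := fun h => hi (Fin.ext (by simp [h]))
          omega
        rw [hw, hv2d i hlt, hv1d i hlt]
        ring
    let g : (Fin (m + 1) → F) ≃ₗ[F] (Fin (m + 1) → F) := v1.repr.trans v2'.repr.symm
    have hgrepr : ∀ x, v2'.repr (g x) = v1.repr x := fun x => by
      show v2'.repr (v2'.repr.symm (v1.repr x)) = v1.repr x
      rw [LinearEquiv.apply_symm_apply]
    refine ⟨g, fun x => ?_⟩
    have hB : QuadraticMap.polarBilin Q₂ (g x) (g x) = QuadraticMap.polarBilin Q₁ x x := by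
      rw [ortho_expand _ v2' hv2'o, ortho_expand _ v1 hv1o]
      apply Finset.sum_congr rfl
      intro i _
      rw [hgrepr, hdiag2]
    simp only [QuadraticMap.polarBilin_apply_apply, QuadraticMap.polar_self] at hB
    have hB' : (2 : F) * Q₂ (g x) = 2 * Q₁ x := by
      simpa [two_smul, two_mul] using hB
    exact mul_left_cancel₀ h2 hB'

theorem result {F : Type*} [Field F] [Fintype F] (h2 : (2 : F) ≠ 0) {n : ℕ} (Q₁ Q₂ : QuadraticForm F (Fin n → F)) (h₁ : (QuadraticMap.polarBilin Q₁).Nondegenerate) (h₂ : (QuadraticMap.polarBilin Q₂).Nondegenerate) : (∃ g : (Fin n → F) ≃ₗ[F] (Fin n → F), ∀ v, Q₂ (g v) = Q₁ v) ↔ IsSquare ((Matrix.of (fun i j : Fin n => QuadraticMap.polar ⇑Q₁ (Pi.single i 1) (Pi.single j 1))).det * (Matrix.of (fun i j : Fin n => QuadraticMap.polar ⇑Q₂ (Pi.single i 1) (Pi.single j 1))).det) := by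
  exact isometric_iff h2 Q₁ Q₂ h₁ h₂

end Cfsg.Agent.S2623
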