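import Cfsg.Statements.S2624
import Mathlib
import Cfsg.Agent.S2623

set_option autoImplicit false
open Cfsg

namespace Cfsg.Agent.S2624

open Matrix

theorem result {F : Type*} [Field F] [Fintype F] {n : ℕ} (hn : 2 ≤ n) (he : Even n) (Q : QuadraticForm F (Fin n → F)) (hQ : (QuadraticMap.polarBilin Q).Nondegenerate) (c : F) (hc : c ≠ 0) : ∃ g : (Fin n → F) ≃ₗ[F] (Fin n → F), ∀ v, Q (g v) = c * Q v := by
  classical
  by_cases h2 : (2 : F) = 0
  · -- characteristic two: every element is a square
    have hchar : ringChar F = 2 := by
      have h3 : ((2 : ℕ) : F) = 0 := by exact_mod_cast h2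
      have h4 := (ringChar.spec F 2).1 h3
      have h5 : ringChar F ≠ 1 := by
        intro h1
        have := CharP.ringChar_ne_one (R := F)
        exact this h1
      exact (Nat.dvd_prime Nat.prime_two).1 h4 |>.resolve_left h5
    obtain ⟨e, he⟩ := FiniteField.isSquare_of_char_two hchar c
    have he0 : e ≠ 0 := by
      rintro rfl
      apply hc
      rw [he]
      ring
    refine ⟨LinearEquiv.smulOfNeZero F _ e he0, fun v => ?_⟩
    rw [LinearEquiv.smulOfNeZero_apply, QuadraticMap.map_smul, he, smul_eq_mul]
  · -- odd characteristic: compare discriminants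
    have hnd : (QuadraticMap.polarBilin (c • Q)).Nondegenerate := by
      constructor
      · intro x hx
        apply hQ.1 x
        intro y
        have h := hx y
        simp only [QuadraticMap.polarBilin_apply_apply, QuadraticMap.polar, QuadraticMap.smul_apply,
          smul_eq_mul] at h ⊢
        have h' : c * (Q (x + y) - Q x - Q y) = 0 := by linear_combination h
        exact (mul_eq_zero.1 h').resolve_left hc
      · intro y hy
        apply hQ.2 y
        intro x
        have h := hy x
        simp only [QuadraticMap.polarBilin_apply_apply, QuadraticMap.polar, QuadraticMap.smul_apply,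
          smul_eq_mul] at h ⊢
        have h' : c * (Q (x + y) - Q x - Q y) = 0 := by linear_combination h
        exact (mul_eq_zero.1 h').resolve_left hc
    have key := (Cfsg.Agent.S2623.isometric_iff h2 (c • Q) Q hnd hQ).2 (by
      have hM : Matrix.of (fun i j : Fin n =>
          QuadraticMap.polar ⇑(c • Q) (Pi.single i 1) (Pi.single j 1)) =
          c • Matrix.of (fun i j : Fin n => QuadraticMap.polar ⇑Q (Pi.single i 1) (Pi.single j 1)) := by
        ext i j
        simp only [Matrix.of_apply, Matrix.smul_apply, QuadraticMap.polar, QuadraticMap.smul_apply,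
          smul_eq_mul]
        ring
      rw [hM, Matrix.det_smul, Fintype.card_fin]
      obtain ⟨k, hk⟩ := he
      refine ⟨c ^ k * (Matrix.of (fun i j : Fin n =>
        QuadraticMap.polar ⇑Q (Pi.single i 1) (Pi.single j 1))).det, ?_⟩
      have e : c ^ n = c ^ k * c ^ k := by rw [hk, pow_add]
      rw [e]
      ring)
    obtain ⟨g, hg⟩ := key
    refine ⟨g, fun v => ?_⟩
    rw [hg v]
    rfl

end Cfsg.Agent.S2624
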