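import Cfsg.Statements.S2625
import Mathlib

set_option autoImplicit false
open Cfsg

namespace Cfsg.Agent.S2625

theorem result {F : Type*} [Field F] [Fintype F] {n : ℕ} (hn : Odd n) (Q : QuadraticForm F (Fin n → F)) (hQ : (QuadraticMap.polarBilin Q).Nondegenerate) (g : (Fin n → F) ≃ₗ[F] (Fin n → F)) (c : F) (hg : ∀ v, Q (g v) = c * Q v) : IsSquare c := by
  classical
  have hpol : ∀ x y, QuadraticMap.polarBilin Q (g x) (g y) = c * QuadraticMap.polarBilin Q x y := by
    intro x y
    simp only [QuadraticMap.polarBilin_apply_apply, QuadraticMap.polar]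
    rw [← map_add, hg, hg, hg]
    ring
  have hcomp : LinearMap.BilinForm.comp (QuadraticMap.polarBilin Q) (g : (Fin n → F) →ₗ[F] (Fin n → F)) (g : (Fin n → F) →ₗ[F] (Fin n → F))
      = c • QuadraticMap.polarBilin Q := by
    ext x y
    simp [hpol]
  have hdet : (LinearMap.BilinForm.toMatrix' (QuadraticMap.polarBilin Q)).det ≠ 0 := by
    rw [← Matrix.nondegenerate_iff_det_ne_zero]
    exact LinearMap.BilinForm.nondegenerate_toMatrix'_iff.mpr hQ
  have hmat := congrArg (fun B => (LinearMap.BilinForm.toMatrix' B).det) hcomp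
  simp only [LinearMap.BilinForm.toMatrix'_comp, map_smul, Matrix.det_mul, Matrix.det_transpose,
    Matrix.det_smul, Fintype.card_fin] at hmat
  have hsq : (LinearMap.toMatrix' (g : (Fin n → F) →ₗ[F] (Fin n → F))).det ^ 2 = c ^ n := by
    apply mul_right_cancel₀ hdet
    rw [← hmat]; ring
  obtain ⟨d, hd⟩ : ∃ d : F, d ^ 2 = c ^ n := ⟨_, hsq⟩
  obtain ⟨k, hk⟩ := hn
  have hd' : d ^ 2 = c ^ (2 * k + 1) := by rw [← hk]; exact hd
  by_cases hc : c = 0
  · exact ⟨0, by simp [hc]⟩
  · refine ⟨d / c ^ k, ?_⟩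
    field_simp
    rw [hd']; ring

end Cfsg.Agent.S2625
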