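import Cfsg.Statements.S2626
import Mathlib

set_option autoImplicit false
open Cfsg

namespace Cfsg.Agent.S2626

theorem map_mem_commutator {A B : Type*} [Group A] [Group B] (f : A →* B) {x : A}
    (hx : x ∈ commutator A) : f x ∈ commutator B := by
  rw [commutator_def] at hx ⊢
  have h1 : f x ∈ Subgroup.map f ⁅(⊤ : Subgroup A), (⊤ : Subgroup A)⁆ := Subgroup.mem_map_of_mem f hx
  rw [Subgroup.map_commutator] at h1
  exact Subgroup.commutator_mono le_top le_top h1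

/-- block diagonal embedding of `GL_k × GL_l` into `GL_{k+l}` -/
def blockHom (F : Type*) [Field F] (k l : ℕ) :
    Matrix.GeneralLinearGroup (Fin k) F × Matrix.GeneralLinearGroup (Fin l) F →*
      Matrix.GeneralLinearGroup (Fin k ⊕ Fin l) F where
  toFun g := ⟨Matrix.fromBlocks (g.1 : Matrix (Fin k) (Fin k) F) 0 0 (g.2 : Matrix (Fin l) (Fin l) F),
    Matrix.fromBlocks ((g.1⁻¹ : Matrix.GeneralLinearGroup (Fin k) F) : Matrix (Fin k) (Fin k) F) 0 0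
      ((g.2⁻¹ : Matrix.GeneralLinearGroup (Fin l) F) : Matrix (Fin l) (Fin l) F),
    by simp [Matrix.fromBlocks_multiply, Matrix.fromBlocks_one],
    by simp [Matrix.fromBlocks_multiply, Matrix.fromBlocks_one]⟩
  map_one' := by
    apply Units.ext
    simp [Matrix.fromBlocks_one]
  map_mul' a b := by
    apply Units.ext
    simp [Matrix.fromBlocks_multiply]

theorem blockHom_val (F : Type*) [Field F] (k l : ℕ)
    (g : Matrix.GeneralLinearGroup (Fin k) F × Matrix.GeneralLinearGroup (Fin l) F) :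
    ((blockHom F k l g : Matrix.GeneralLinearGroup (Fin k ⊕ Fin l) F) :
      Matrix (Fin k ⊕ Fin l) (Fin k ⊕ Fin l) F) =
    Matrix.fromBlocks (g.1 : Matrix (Fin k) (Fin k) F) 0 0 (g.2 : Matrix (Fin l) (Fin l) F) := rfl

theorem block_mem {F : Type*} [Field F] {k l : ℕ} (Q₁ : (Fin k → F) → F) (Q₂ : (Fin l → F) → F)
    (g₁ : ↥(Cfsg.isometryGroup F Q₁)) (g₂ : ↥(Cfsg.isometryGroup F Q₂)) :
    blockHom F k l (g₁.1, g₂.1) ∈
      Cfsg.isometryGroup F (fun v : Fin k ⊕ Fin l → F => Q₁ (v ∘ Sum.inl) + Q₂ (v ∘ Sum.inr)) := by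
  intro u v
  show Q₁ ((Matrix.mulVec ((blockHom F k l (g₁.1, g₂.1) : Matrix.GeneralLinearGroup (Fin k ⊕ Fin l) F) :
      Matrix (Fin k ⊕ Fin l) (Fin k ⊕ Fin l) F) u) ∘ Sum.inl) +
    Q₂ ((Matrix.mulVec ((blockHom F k l (g₁.1, g₂.1) : Matrix.GeneralLinearGroup (Fin k ⊕ Fin l) F) :
      Matrix (Fin k ⊕ Fin l) (Fin k ⊕ Fin l) F) u) ∘ Sum.inr) = Q₁ (u ∘ Sum.inl) + Q₂ (u ∘ Sum.inr)
  rw [blockHom_val, Matrix.fromBlocks_mulVec]
  simp only [Sum.elim_comp_inl, Sum.elim_comp_inr, Matrix.zero_mulVec, add_zero, zero_add]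
  have h1 := g₁.2 (u ∘ Sum.inl) (u ∘ Sum.inl)
  have h2 := g₂.2 (u ∘ Sum.inr) (u ∘ Sum.inr)
  have h1' : Q₁ (Matrix.mulVec ((g₁.1 : Matrix.GeneralLinearGroup (Fin k) F) : Matrix (Fin k) (Fin k) F) (u ∘ Sum.inl)) = Q₁ (u ∘ Sum.inl) := h1
  have h2' : Q₂ (Matrix.mulVec ((g₂.1 : Matrix.GeneralLinearGroup (Fin l) F) : Matrix (Fin l) (Fin l) F) (u ∘ Sum.inr)) = Q₂ (u ∘ Sum.inr) := h2
  rw [h1', h2']

/-- the block embedding on isometry groups -/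
def Phi {F : Type*} [Field F] {k l : ℕ} (Q₁ : (Fin k → F) → F) (Q₂ : (Fin l → F) → F) :
    ↥(Cfsg.isometryGroup F Q₁) × ↥(Cfsg.isometryGroup F Q₂) →*
      ↥(Cfsg.isometryGroup F (fun v : Fin k ⊕ Fin l → F => Q₁ (v ∘ Sum.inl) + Q₂ (v ∘ Sum.inr))) where
  toFun g := ⟨blockHom F k l (g.1.1, g.2.1), block_mem Q₁ Q₂ g.1 g.2⟩
  map_one' := Subtype.ext (map_one (blockHom F k l))
  map_mul' a b := Subtype.ext (map_mul (blockHom F k l) (a.1.1, a.2.1) (b.1.1, b.2.1))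

theorem result {F : Type*} [Field F] [Fintype F] {k l : ℕ} (Q₁ : QuadraticForm F (Fin k → F)) (Q₂ : QuadraticForm F (Fin l → F)) (h₁ : (QuadraticMap.polarBilin Q₁).Nondegenerate) (h₂ : (QuadraticMap.polarBilin Q₂).Nondegenerate) (g₁ : ↥(Cfsg.isometryGroup F ⇑Q₁)) (g₂ : ↥(Cfsg.isometryGroup F ⇑Q₂)) (hg₁ : g₁ ∈ Cfsg.Omega F ⇑Q₁) (hg₂ : g₂ ∈ Cfsg.Omega F ⇑Q₂) : ∃ g : ↥(Cfsg.isometryGroup F (fun v : Fin k ⊕ Fin l → F => Q₁ (v ∘ Sum.inl) + Q₂ (v ∘ Sum.inr))), g ∈ Cfsg.Omega F (fun v : Fin k ⊕ Fin l → F => Q₁ (v ∘ Sum.inl) + Q₂ (v ∘ Sum.inr)) ∧ ((g : Matrix.GeneralLinearGroup (Fin k ⊕ Fin l) F) : Matrix (Fin k ⊕ Fin l) (Fin k ⊕ Fin l) F) = Matrix.fromBlocks ((g₁ : Matrix.GeneralLinearGroup (Fin k) F) : Matrix (Fin k) (Fin k) F) 0 0 ((g₂ : Matrix.GeneralLinearGroup (Fin l) F) : Matrix (Fin l) (Fin l) F) := by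
  refine ⟨Phi (⇑Q₁) (⇑Q₂) (g₁, g₂), ?_, rfl⟩
  have h1 := map_mem_commutator (MonoidHom.inl ↥(Cfsg.isometryGroup F ⇑Q₁) ↥(Cfsg.isometryGroup F ⇑Q₂)) hg₁
  have h2 := map_mem_commutator (MonoidHom.inr ↥(Cfsg.isometryGroup F ⇑Q₁) ↥(Cfsg.isometryGroup F ⇑Q₂)) hg₂
  rw [MonoidHom.inl_apply] at h1
  rw [MonoidHom.inr_apply] at h2
  have h3 := Subgroup.mul_mem _ h1 h2
  rw [Prod.mk_mul_mk, mul_one, one_mul] at h3
  exact map_mem_commutator (Phi (⇑Q₁) (⇑Q₂)) h3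

end Cfsg.Agent.S2626
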