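import Cfsg.Statements.S2632
import Cfsg.Agent.S2631
import Cfsg.Agent.S2627
import Cfsg.Agent.S2610

set_option autoImplicit false
open Cfsg


namespace Cfsg.Agent.S2632

open Matrix
open Cfsg.Agent.S0750 (pl pl_add_left pl_add_right pl_sub_left pl_sub_right pl_smul_left
  pl_smul_right pl_comm pl_self Q_add Q_smul Q_sub pl_zero_right)
open Cfsg.Agent.S0786 (mat mat_mul mat_one mat_iso mat_pl mat_inj mat_ext RQ exists_unit
  refl_mulVec refl_iso gen_refl wittR exists_partner)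
open Cfsg.Agent.S2635 (SR K2 SS_mem S_sq S_inv K_norm K_par comm_mem_K)
open Cfsg.Agent.S0789 (omega_eq_K2)
open Cfsg.Agent.S2629 (K2_det mem_K2_iff_det)
open Cfsg.Agent.S2609 (sq_mul sq_refl mem_comm_iff_sq isSquare_mul_iff)
open Cfsg.Agent.S2627 (K2_flip)
open Cfsg.Agent.S2610 (refl_fix)
open Cfsg.Agent.S0788 (exists_nonsq sum_two_sq)

section
variable {F : Type*} [Field F] [Fintype F] {V : Type*} [AddCommGroup V] [Module F V]
  [FiniteDimensional F V]

theorem exists_both_gen (h2 : (2 : F) ≠ 0) (Q : QuadraticForm F V)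
    (hQ : (QuadraticMap.polarBilin Q).Nondegenerate) (hdim : 2 ≤ Module.finrank F V) :
    ∃ u v : V, Q u ≠ 0 ∧ Q v ≠ 0 ∧ IsSquare (Q u) ∧ ¬ IsSquare (Q v) := by
  obtain ⟨u₀, -, hu₀⟩ := Cfsg.Agent.S5357.exists_ns Q hQ h2 (k := 0) (fun i => Fin.elim0 i)
    (fun i => Fin.elim0 i) (fun i => Fin.elim0 i) (by omega)
  obtain ⟨v₀, hv₀p, hv₀⟩ := Cfsg.Agent.S5357.exists_ns Q hQ h2 (k := 1) (fun _ => u₀)
    (fun i j hij => absurd (Subsingleton.elim i j) hij) (fun _ => hu₀) (by omega)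
  have hp : pl Q v₀ u₀ = 0 := hv₀p 0
  have key : ∃ w, Q w ≠ 0 ∧ (IsSquare (Q w) ↔ ¬ IsSquare (Q u₀)) := by
    by_cases hcl : (IsSquare (Q u₀) ↔ IsSquare (Q v₀))
    · obtain ⟨c, hc⟩ := exists_nonsq (F := F) h2
      have hc0 : c ≠ 0 := by
        rintro rfl
        exact hc IsSquare.zero
      obtain ⟨a, b, hab⟩ := sum_two_sq h2 c
      obtain ⟨m, hm⟩ := (isSquare_mul_iff _ _ hv₀ hu₀).2 hcl.symm
      have hm0 : m ≠ 0 := by
        rintro rfl
        rw [mul_zero] at hm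
        exact (mul_ne_zero hv₀ hu₀) hm
      have hQw : Q (a • u₀ + (b * Q u₀ / m) • v₀) = c * Q u₀ := by
        have e : (b * Q u₀ / m) * (b * Q u₀ / m) * Q v₀ = b * b * Q u₀ := by
          have e1 : (b * Q u₀ / m) * (b * Q u₀ / m) * Q v₀ =
              b * b * Q u₀ * (Q v₀ * Q u₀) / (m * m) := by
            field_simp
          rw [e1, hm, mul_div_assoc, div_self (mul_ne_zero hm0 hm0), mul_one]
        rw [Q_add, Q_smul, Q_smul, pl_smul_left, pl_smul_right, pl_comm Q u₀ v₀, hp, ← hab, e]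
        ring
      refine ⟨a • u₀ + (b * Q u₀ / m) • v₀, ?_, ?_⟩
      · rw [hQw]
        exact mul_ne_zero hc0 hu₀
      · rw [hQw, isSquare_mul_iff _ _ hc0 hu₀]
        tauto
    · exact ⟨v₀, hv₀, by tauto⟩
  obtain ⟨w, hw, hwc⟩ := key
  by_cases hs : IsSquare (Q u₀)
  · exact ⟨u₀, w, hu₀, hw, hs, fun h => (hwc.1 h) hs⟩
  · exact ⟨w, u₀, hw, hu₀, hwc.2 hs, hs⟩

end

theorem fam_of_basis {F V : Type*} [Field F] [AddCommGroup V] [Module F V]
    (U : Submodule F V) {k : ℕ} (b : Module.Basis (Fin k) F U) :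
    LinearIndependent F (fun i => (b i : V)) ∧
      Submodule.span F (Set.range (fun i => (b i : V))) = U := by
  constructor
  · exact b.linearIndependent.map' (Submodule.subtype _) (Submodule.ker_subtype _)
  · have h2 := congrArg (Submodule.map U.subtype) b.span_eq
    rw [Submodule.map_span, ← Set.range_comp, Submodule.map_top, Submodule.range_subtype] at h2
    exact h2

section
variable {F : Type*} [Field F] {ι : Type} [Fintype ι] [DecidableEq ι]

/-- restriction of `Q` to a submodule -/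
noncomputable def QN (Q : QuadraticForm F (ι → F)) (N : Submodule F (ι → F)) :
    QuadraticForm F ↥N := Q.comp N.subtype

theorem QN_apply (Q : QuadraticForm F (ι → F)) (N : Submodule F (ι → F)) (x : N) :
    QN Q N x = Q (x : ι → F) := rfl

theorem QN_pl (Q : QuadraticForm F (ι → F)) (N : Submodule F (ι → F)) (x y : N) :
    pl (QN Q N) x y = pl Q (x : ι → F) (y : ι → F) := rfl

theorem QN_nondeg (Q : QuadraticForm F (ι → F)) (N : Submodule F (ι → F))
    (hN : N ⊓ LinearMap.BilinForm.orthogonal (QuadraticMap.polarBilin Q) N = ⊥) :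
    (QuadraticMap.polarBilin (QN Q N)).Nondegenerate := by
  have key : ∀ x : N, (∀ y : N, pl (QN Q N) x y = 0) → x = 0 := by
    intro x hx
    have hmem : (x : ι → F) ∈
        N ⊓ LinearMap.BilinForm.orthogonal (QuadraticMap.polarBilin Q) N := by
      refine ⟨x.2, ?_⟩
      intro y hy
      have h5 := hx ⟨y, hy⟩
      rw [QN_pl, pl_comm] at h5
      exact h5
    rw [hN] at hmem
    exact Subtype.ext ((Submodule.mem_bot F).1 hmem)
  exact ⟨fun x hx => key x hx, fun y hy => key y (fun x => by rw [pl_comm]; exact hy x)⟩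

theorem exists_ns_in (Q : QuadraticForm F (ι → F)) (N : Submodule F (ι → F))
    (hN : N ⊓ LinearMap.BilinForm.orthogonal (QuadraticMap.polarBilin Q) N = ⊥)
    (hN0 : N ≠ ⊥) : ∃ v ∈ N, Q v ≠ 0 := by
  by_contra hcon
  push_neg at hcon
  obtain ⟨x, hxN, hx0⟩ := Submodule.exists_mem_ne_zero_of_ne_bot hN0
  have hmem : x ∈ N ⊓ LinearMap.BilinForm.orthogonal (QuadraticMap.polarBilin Q) N := by
    refine ⟨hxN, ?_⟩
    intro y hy
    show pl Q y x = 0
    have h := Q_add Q y x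
    rw [hcon y hy, hcon x hxN, hcon (y + x) (N.add_mem hy hxN)] at h
    linear_combination -h
  rw [hN] at hmem
  exact hx0 ((Submodule.mem_bot F).1 hmem)

theorem refl_stab_in (Q : QuadraticForm F (ι → F)) (W : Submodule F (ι → F)) (v : ι → F)
    (hvW : v ∈ W) (r : ↥(Cfsg.isometryGroup F ⇑Q))
    (hr : mat Q r = Cfsg.reflectionMatrix (⇑Q) v) :
    W.map (Matrix.mulVecLin (mat Q r)) = W := by
  have hle : W.map (Matrix.mulVecLin (mat Q r)) ≤ W := by
    rintro _ ⟨x, hx, rfl⟩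
    show mat Q r *ᵥ x ∈ W
    rw [hr, refl_mulVec]
    exact W.sub_mem hx (W.smul_mem _ hvW)
  exact Submodule.eq_of_le_of_finrank_eq hle
    (Submodule.equivMapOfInjective _ (mat_inj Q r) W).finrank_eq.symm

theorem refl_stab_perp (Q : QuadraticForm F (ι → F)) (W : Submodule F (ι → F)) (v : ι → F)
    (hvW : ∀ w ∈ W, pl Q v w = 0) (r : ↥(Cfsg.isometryGroup F ⇑Q))
    (hr : mat Q r = Cfsg.reflectionMatrix (⇑Q) v) :
    W.map (Matrix.mulVecLin (mat Q r)) = W := by
  apply le_antisymm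
  · rintro _ ⟨x, hx, rfl⟩
    show mat Q r *ᵥ x ∈ W
    rw [hr, refl_fix Q v x (hvW x hx)]
    exact hx
  · intro x hx
    refine ⟨x, hx, ?_⟩
    show mat Q r *ᵥ x = x
    rw [hr, refl_fix Q v x (hvW x hx)]

end

theorem main {F : Type*} [Field F] [Fintype F] {n : ℕ} (hn : 3 ≤ n) (h : Fintype.card F ≠ 2 ∨ n ≠ 4) (Q : QuadraticForm F (Fin n → F)) (hQ : (QuadraticMap.polarBilin Q).Nondegenerate) (U W : Submodule F (Fin n → F)) (hU : U ⊓ LinearMap.BilinForm.orthogonal (QuadraticMap.polarBilin Q) U = ⊥) (hW : W ⊓ LinearMap.BilinForm.orthogonal (QuadraticMap.polarBilin Q) W = ⊥) (e : U ≃ₗ[F] W) (he : ∀ u : U, Q (e u : Fin n → F) = Q (u : Fin n → F)) : ∃ g : ↥(Cfsg.isometryGroup F ⇑Q), g ∈ Cfsg.Omega F ⇑Q ∧ U.map (Matrix.mulVecLin ((g : Matrix.GeneralLinearGroup (Fin n) F) : Matrix (Fin n) (Fin n) F)) = W := by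
  have hFn : Fintype.card F ≠ 2 ∨ Fintype.card (Fin n) ≠ 4 := by
    rw [Fintype.card_fin]
    exact h
  have hR := gen_refl hFn Q hQ
  have hrefl : (QuadraticMap.polarBilin Q).IsRefl := by
    intro x y hxy
    show pl Q y x = 0
    rw [pl_comm]
    exact hxy
  obtain ⟨b⟩ : Nonempty (Module.Basis (Fin (Module.finrank F U)) F U) :=
    ⟨Module.finBasis F U⟩
  obtain ⟨hLI, hspan⟩ := fam_of_basis U b
  obtain ⟨hLI', hspan'⟩ := fam_of_basis W (b.map e)
  have hpl : ∀ x y : U, pl Q (e x : Fin n → F) (e y : Fin n → F) =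
      pl Q (x : Fin n → F) (y : Fin n → F) := by
    intro x y
    have h1 := he (x + y)
    rw [map_add, Submodule.coe_add, Submodule.coe_add] at h1
    have h2 := Q_add Q (e x : Fin n → F) (e y : Fin n → F)
    have h3 := Q_add Q (x : Fin n → F) (y : Fin n → F)
    rw [he x, he y] at h2
    linear_combination h1 - h2 + h3
  obtain ⟨g, -, hg⟩ := wittR hFn Q hQ _ (fun i => (b i : Fin n → F))
    (fun i => ((b.map e) i : Fin n → F)) hLI hLI'
    (fun i => by rw [Module.Basis.map_apply]; exact (he (b i)).symm)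
    (fun i j => by
      rw [Module.Basis.map_apply, Module.Basis.map_apply]
      exact (hpl (b i) (b j)).symm)
  have hgU : U.map (Matrix.mulVecLin (mat Q g)) = W := by
    rw [← hspan, Submodule.map_span, ← Set.range_comp, ← hspan']
    congr 1
    exact congrArg Set.range (funext hg)
  have hdimW := LinearMap.BilinForm.finrank_orthogonal hQ W
  rw [Module.finrank_fintype_fun_eq_card, Fintype.card_fin] at hdimW
  obtain ⟨N, hNnd, hNdim, hNstab⟩ : ∃ N : Submodule F (Fin n → F),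
      N ⊓ LinearMap.BilinForm.orthogonal (QuadraticMap.polarBilin Q) N = ⊥ ∧
      2 ≤ Module.finrank F N ∧
      (∀ v ∈ N, ∀ r : ↥(Cfsg.isometryGroup F ⇑Q), mat Q r = Cfsg.reflectionMatrix (⇑Q) v →
        W.map (Matrix.mulVecLin (mat Q r)) = W) := by
    by_cases hW2 : 2 ≤ Module.finrank F W
    · exact ⟨W, hW, hW2, fun v hv r hr => refl_stab_in Q W v hv r hr⟩
    · refine ⟨LinearMap.BilinForm.orthogonal (QuadraticMap.polarBilin Q) W, ?_, by omega,
        fun v hv r hr => refl_stab_perp Q W v (fun w hw => ?_) r hr⟩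
      · rw [LinearMap.BilinForm.orthogonal_orthogonal hQ hrefl W, inf_comm]
        exact hW
      · have h5 : pl Q w v = 0 := hv w hw
        rw [pl_comm]
        exact h5
  have hN0 : N ≠ ⊥ := by
    intro h0
    rw [h0, finrank_bot] at hNdim
    omega
  by_cases h2 : (2 : F) = 0
  · haveI : CharP F 2 := CharTwo.of_one_ne_zero_of_two_eq_zero one_ne_zero h2
    obtain ⟨v, hvN, hvQ⟩ := exists_ns_in Q N hNnd hN0
    obtain ⟨r, hr⟩ := exists_unit Q hQ (Cfsg.reflectionMatrix (⇑Q) v) (refl_iso Q v hvQ)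
    have hrW := hNstab v hvN r hr
    by_cases hgK : g ∈ K2 Q
    · refine ⟨g, ?_, hgU⟩
      show g ∈ commutator ↥(Cfsg.isometryGroup F ⇑Q)
      rw [omega_eq_K2 hFn Q hQ]
      exact hgK
    · refine ⟨r * g, ?_, ?_⟩
      · show r * g ∈ commutator ↥(Cfsg.isometryGroup F ⇑Q)
        rw [omega_eq_K2 hFn Q hQ]
        exact (K2_flip Q hQ hR r ⟨v, hvQ, hr⟩ g).2 hgK
      · show U.map (Matrix.mulVecLin (mat Q (r * g))) = W
        rw [mat_mul, Matrix.mulVecLin_mul, Submodule.map_comp, hgU, hrW]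
  · obtain ⟨u', v', hu', hv', hsu, hsv⟩ := exists_both_gen h2 (QN Q N) (QN_nondeg Q N hNnd)
      hNdim
    have hu0 : Q (u' : Fin n → F) ≠ 0 := hu'
    have hv0 : Q (v' : Fin n → F) ≠ 0 := hv'
    have hsu' : IsSquare (Q (u' : Fin n → F)) := hsu
    have hsv' : ¬ IsSquare (Q (v' : Fin n → F)) := hsv
    obtain ⟨ru, hru⟩ := exists_unit Q hQ (Cfsg.reflectionMatrix (⇑Q) (u' : Fin n → F))
      (refl_iso Q _ hu0)
    obtain ⟨rv, hrv⟩ := exists_unit Q hQ (Cfsg.reflectionMatrix (⇑Q) (v' : Fin n → F))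
      (refl_iso Q _ hv0)
    have hruW := hNstab _ u'.2 ru hru
    have hrvW := hNstab _ v'.2 rv hrv
    have hsru : Cfsg.Agent.S2609.sq Q ru := (sq_refl Q hQ ru _ hu0 hru).2 hsu'
    have hsrv : ¬ Cfsg.Agent.S2609.sq Q rv := fun h => hsv' ((sq_refl Q hQ rv _ hv0 hrv).1 h)
    have hruS : ru ∈ SR Q := ⟨_, hu0, hru⟩
    have hrvS : rv ∈ SR Q := ⟨_, hv0, hrv⟩
    by_cases hgK : g ∈ K2 Q
    · by_cases hs : Cfsg.Agent.S2609.sq Q g
      · refine ⟨g, ?_, hgU⟩
        show g ∈ commutator ↥(Cfsg.isometryGroup F ⇑Q)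
        rw [mem_comm_iff_sq h2 hFn Q hQ]
        exact ⟨hs, K2_det _ g hgK⟩
      · refine ⟨ru * rv * g, ?_, ?_⟩
        · show ru * rv * g ∈ commutator ↥(Cfsg.isometryGroup F ⇑Q)
          rw [mem_comm_iff_sq h2 hFn Q hQ]
          refine ⟨?_, K2_det _ _ ((K2 Q).mul_mem (SS_mem Q ru rv hruS hrvS) hgK)⟩
          rw [sq_mul Q hQ hR, sq_mul Q hQ hR]
          exact ⟨fun h => absurd (h.1 hsru) hsrv, fun h => absurd h hs⟩
        · show U.map (Matrix.mulVecLin (mat Q (ru * rv * g))) = W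
          rw [mat_mul, mat_mul, Matrix.mulVecLin_mul, Matrix.mulVecLin_mul, Submodule.map_comp,
            Submodule.map_comp, hgU, hrvW, hruW]
    · by_cases hs : Cfsg.Agent.S2609.sq Q g
      · refine ⟨ru * g, ?_, ?_⟩
        · show ru * g ∈ commutator ↥(Cfsg.isometryGroup F ⇑Q)
          rw [mem_comm_iff_sq h2 hFn Q hQ]
          refine ⟨?_, K2_det _ _ ((K2_flip Q hQ hR ru hruS g).2 hgK)⟩
          rw [sq_mul Q hQ hR]
          exact ⟨fun _ => hs, fun _ => hsru⟩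
        · show U.map (Matrix.mulVecLin (mat Q (ru * g))) = W
          rw [mat_mul, Matrix.mulVecLin_mul, Submodule.map_comp, hgU, hruW]
      · refine ⟨rv * g, ?_, ?_⟩
        · show rv * g ∈ commutator ↥(Cfsg.isometryGroup F ⇑Q)
          rw [mem_comm_iff_sq h2 hFn Q hQ]
          refine ⟨?_, K2_det _ _ ((K2_flip Q hQ hR rv hrvS g).2 hgK)⟩
          rw [sq_mul Q hQ hR]
          exact ⟨fun h => absurd h hsrv, fun h => absurd h hs⟩
        · show U.map (Matrix.mulVecLin (mat Q (rv * g))) = W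
          rw [mat_mul, Matrix.mulVecLin_mul, Submodule.map_comp, hgU, hrvW]

theorem result {F : Type*} [Field F] [Fintype F] {n : ℕ} (hn : 3 ≤ n) (h : Fintype.card F ≠ 2 ∨ n ≠ 4) (Q : QuadraticForm F (Fin n → F)) (hQ : (QuadraticMap.polarBilin Q).Nondegenerate) (U W : Submodule F (Fin n → F)) (hU : U ⊓ LinearMap.BilinForm.orthogonal (QuadraticMap.polarBilin Q) U = ⊥) (hW : W ⊓ LinearMap.BilinForm.orthogonal (QuadraticMap.polarBilin Q) W = ⊥) (e : U ≃ₗ[F] W) (he : ∀ u : U, Q (e u : Fin n → F) = Q (u : Fin n → F)) : ∃ g : ↥(Cfsg.isometryGroup F ⇑Q), g ∈ Cfsg.Omega F ⇑Q ∧ U.map (Matrix.mulVecLin ((g : Matrix.GeneralLinearGroup (Fin n) F) : Matrix (Fin n) (Fin n) F)) = W := by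
  exact main hn h Q hQ U W hU hW e he

end Cfsg.Agent.S2632
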