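import Cfsg.Statements.S2633
import Cfsg.Agent.S2631
import Cfsg.Agent.S2627
import Cfsg.Agent.S2610

set_option autoImplicit false
open Cfsg


namespace Cfsg.Agent.S2633

open Matrix
open Cfsg.Agent.S0750 (pl pl_add_left pl_add_right pl_sub_left pl_sub_right pl_smul_left
  pl_smul_right pl_comm pl_self Q_add Q_smul Q_sub pl_zero_right)
open Cfsg.Agent.S0786 (mat mat_mul mat_one mat_iso mat_pl mat_inj mat_ext RQ exists_unit
  refl_mulVec refl_iso gen_refl wittR exists_partner)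
open Cfsg.Agent.S2635 (SR K2 SS_mem S_sq S_inv K_norm K_par comm_mem_K)
open Cfsg.Agent.S0789 (omega_eq_K2)
open Cfsg.Agent.S2629 (K2_det mem_K2_iff_det)
open Cfsg.Agent.S2609 (sq_mul sq_refl mem_comm_iff_sq isSquare_mul_iff)
open Cfsg.Agent.S2631 (exists_fam exists_stab)
open Cfsg.Agent.S2627 (K2_flip)
open Cfsg.Agent.S2610 (refl_fix)

section
variable {F : Type*} [Field F] {ι : Type} [Fintype ι] [DecidableEq ι]

theorem exists_ns_perp (Q : QuadraticForm F (ι → F))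
    (hQ : (QuadraticMap.polarBilin Q).Nondegenerate) (W : Submodule F (ι → F))
    (hdim : 2 * Module.finrank F W < Fintype.card ι) :
    ∃ v, (∀ w ∈ W, pl Q v w = 0) ∧ Q v ≠ 0 := by
  by_contra hcon
  push_neg at hcon
  have hT : ∀ v ∈ LinearMap.BilinForm.orthogonal (QuadraticMap.polarBilin Q) W, Q v = 0 := by
    intro v hv
    apply hcon v
    intro w hw
    have h5 : pl Q w v = 0 := hv w hw
    rw [pl_comm]
    exact h5
  have hTT : LinearMap.BilinForm.orthogonal (QuadraticMap.polarBilin Q) W ≤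
      LinearMap.BilinForm.orthogonal (QuadraticMap.polarBilin Q) (LinearMap.BilinForm.orthogonal (QuadraticMap.polarBilin Q) W) := by
    intro x hx y hy
    show pl Q y x = 0
    have h := Q_add Q y x
    rw [hT y hy, hT x hx, hT (y + x) (Submodule.add_mem _ hy hx)] at h
    linear_combination -h
  have h1 := LinearMap.BilinForm.finrank_orthogonal hQ W
  have h2 := LinearMap.BilinForm.finrank_orthogonal hQ
    (LinearMap.BilinForm.orthogonal (QuadraticMap.polarBilin Q) W)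
  have h3 := Submodule.finrank_mono hTT
  rw [Module.finrank_fintype_fun_eq_card] at h1 h2
  omega

end

theorem main {F : Type*} [Field F] [Fintype F] {n : ℕ} (h : Fintype.card F ≠ 2 ∨ n ≠ 4) (Q : QuadraticForm F (Fin n → F)) (hQ : (QuadraticMap.polarBilin Q).Nondegenerate) (U W : Submodule F (Fin n → F)) {k : ℕ} (hk : 2 * k < n) (hU : Module.finrank F U = k) (hW : Module.finrank F W = k) (hU0 : ∀ u ∈ U, Q u = 0) (hW0 : ∀ w ∈ W, Q w = 0) : ∃ g : ↥(Cfsg.isometryGroup F ⇑Q), g ∈ Cfsg.Omega F ⇑Q ∧ U.map (Matrix.mulVecLin ((g : Matrix.GeneralLinearGroup (Fin n) F) : Matrix (Fin n) (Fin n) F)) = W := by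
  have hFn : Fintype.card F ≠ 2 ∨ Fintype.card (Fin n) ≠ 4 := by
    rw [Fintype.card_fin]
    exact h
  have hR := gen_refl hFn Q hQ
  have hUpl : ∀ x ∈ U, ∀ y ∈ U, pl Q x y = 0 := by
    intro x hx y hy
    have h := Q_add Q x y
    rw [hU0 x hx, hU0 y hy, hU0 (x + y) (U.add_mem hx hy)] at h
    linear_combination -h
  have hWpl : ∀ x ∈ W, ∀ y ∈ W, pl Q x y = 0 := by
    intro x hx y hy
    have h := Q_add Q x y
    rw [hW0 x hx, hW0 y hy, hW0 (x + y) (W.add_mem hx hy)] at h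
    linear_combination -h
  obtain ⟨f, hfLI, hfU, hfspan⟩ := exists_fam U hU
  obtain ⟨f', hfLI', hfW, hfspan'⟩ := exists_fam W hW
  obtain ⟨g, -, hg⟩ := wittR hFn Q hQ k f f' hfLI hfLI'
    (fun i => by rw [hU0 _ (hfU i), hW0 _ (hfW i)])
    (fun i j => by rw [hUpl _ (hfU i) _ (hfU j), hWpl _ (hfW i) _ (hfW j)])
  have hgU : U.map (Matrix.mulVecLin (mat Q g)) = W := by
    rw [← hfspan, Submodule.map_span, ← Set.range_comp, ← hfspan']
    congr 1
    exact congrArg Set.range (funext hg)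
  obtain ⟨v, hvW, hvQ⟩ := exists_ns_perp Q hQ W (by rw [hW, Fintype.card_fin]; exact hk)
  obtain ⟨r, hr⟩ := exists_unit Q hQ (Cfsg.reflectionMatrix (⇑Q) v) (refl_iso Q v hvQ)
  have hrW : W.map (Matrix.mulVecLin (mat Q r)) = W := by
    apply le_antisymm
    · rintro _ ⟨x, hx, rfl⟩
      show mat Q r *ᵥ x ∈ W
      rw [hr, refl_fix Q v x (hvW x hx)]
      exact hx
    · intro x hx
      refine ⟨x, hx, ?_⟩
      show mat Q r *ᵥ x = x
      rw [hr, refl_fix Q v x (hvW x hx)]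
  obtain ⟨g', hg'K, hg'U⟩ : ∃ g', g' ∈ K2 Q ∧ U.map (Matrix.mulVecLin (mat Q g')) = W := by
    by_cases hgK : g ∈ K2 Q
    · exact ⟨g, hgK, hgU⟩
    · refine ⟨r * g, (K2_flip Q hQ hR r ⟨v, hvQ, hr⟩ g).2 hgK, ?_⟩
      rw [mat_mul, Matrix.mulVecLin_mul, Submodule.map_comp, hgU, hrW]
  by_cases h2 : (2 : F) = 0
  · haveI : CharP F 2 := CharTwo.of_one_ne_zero_of_two_eq_zero one_ne_zero h2
    refine ⟨g', ?_, hg'U⟩
    show g' ∈ commutator ↥(Cfsg.isometryGroup F ⇑Q)
    rw [omega_eq_K2 hFn Q hQ]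
    exact hg'K
  · by_cases hs : Cfsg.Agent.S2609.sq Q g'
    · refine ⟨g', ?_, hg'U⟩
      show g' ∈ commutator ↥(Cfsg.isometryGroup F ⇑Q)
      rw [mem_comm_iff_sq h2 hFn Q hQ]
      exact ⟨hs, K2_det _ g' hg'K⟩
    · by_cases hWbot : W = ⊥
      · have hk0 : k = 0 := by
          rw [hWbot, finrank_bot] at hW
          exact hW.symm
        have hUbot : U = ⊥ := by
          rw [hk0] at hU
          exact Submodule.finrank_eq_zero.1 hU
        refine ⟨1, Subgroup.one_mem _, ?_⟩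
        rw [hUbot, hWbot, Submodule.map_bot]
      · obtain ⟨w, hwW, hw0⟩ := Submodule.exists_mem_ne_zero_of_ne_bot hWbot
        obtain ⟨hh, hhK, hhs, hhW⟩ := exists_stab h2 hFn Q hQ W hW0 w hwW hw0
        refine ⟨hh * g', ?_, ?_⟩
        · show hh * g' ∈ commutator ↥(Cfsg.isometryGroup F ⇑Q)
          rw [mem_comm_iff_sq h2 hFn Q hQ]
          refine ⟨?_, K2_det _ _ ((K2 _).mul_mem hhK hg'K)⟩
          rw [sq_mul _ hQ hR]
          exact ⟨fun h => absurd h hhs, fun h => absurd h hs⟩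
        · show U.map (Matrix.mulVecLin (mat Q (hh * g'))) = W
          rw [mat_mul, Matrix.mulVecLin_mul, Submodule.map_comp, hg'U, hhW]

theorem result {F : Type*} [Field F] [Fintype F] {n : ℕ} (h : Fintype.card F ≠ 2 ∨ n ≠ 4) (Q : QuadraticForm F (Fin n → F)) (hQ : (QuadraticMap.polarBilin Q).Nondegenerate) (U W : Submodule F (Fin n → F)) {k : ℕ} (hk : 2 * k < n) (hU : Module.finrank F U = k) (hW : Module.finrank F W = k) (hU0 : ∀ u ∈ U, Q u = 0) (hW0 : ∀ w ∈ W, Q w = 0) : ∃ g : ↥(Cfsg.isometryGroup F ⇑Q), g ∈ Cfsg.Omega F ⇑Q ∧ U.map (Matrix.mulVecLin ((g : Matrix.GeneralLinearGroup (Fin n) F) : Matrix (Fin n) (Fin n) F)) = W := by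
  exact main h Q hQ U W hk hU hW hU0 hW0

end Cfsg.Agent.S2633
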