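import Cfsg.Statements.S2634
import Cfsg.Agent.S0750
import Cfsg.Agent.S0786
import Cfsg.Agent.S0792
import Cfsg.Agent.S2635

set_option autoImplicit false
open Cfsg


namespace Cfsg.Agent.S2634

open Matrix
open Cfsg.Agent.S0750 (pl pl_add_left pl_add_right pl_sub_left pl_sub_right pl_smul_left
  pl_smul_right pl_comm pl_self Q_add Q_smul Q_sub pl_zero_right)
open Cfsg.Agent.S0786 (mat mat_mul mat_one mat_iso mat_pl mat_inj mat_ext RQ exists_unit
  refl_mulVec refl_iso gen_refl wittR)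
open Cfsg.Agent.S2635 (SR K2 SS_mem S_sq S_inv K_norm K_par K_le_comm exists_move)

theorem main {F : Type*} [Field F] [Fintype F] [CharP F 2] {n : ℕ} (h : Fintype.card F ≠ 2 ∨ n ≠ 4) (Q : QuadraticForm F (Fin n → F)) (hQ : (QuadraticMap.polarBilin Q).Nondegenerate) (u v : Fin n → F) (hu : Q u ≠ 0) (hv : Q v ≠ 0) : ∃ g : ↥(Cfsg.isometryGroup F ⇑Q), g ∈ Cfsg.Omega F ⇑Q ∧ (F ∙ ((g : Matrix.GeneralLinearGroup (Fin n) F) : Matrix (Fin n) (Fin n) F).mulVec u) = F ∙ v := by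
  have hFn : Fintype.card F ≠ 2 ∨ Fintype.card (Fin n) ≠ 4 := by
    rw [Fintype.card_fin]; exact h
  have h2 : (2 : F) = 0 := by
    have := CharP.cast_eq_zero F 2
    exact_mod_cast this
  obtain ⟨l, w, hl0, hwu⟩ := exists_move hFn Q hQ u v hu hv
  have hspan : (F ∙ (l • v)) = F ∙ v :=
    Submodule.span_singleton_smul_eq (IsUnit.mk0 l hl0) v
  rcases K_par Q hQ w (by rw [gen_refl hFn Q hQ]; exact Subgroup.mem_top w) with hw | ⟨r, hr, hwr⟩
  · refine ⟨w, K_le_comm hFn Q hQ hw, ?_⟩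
    show (F ∙ (mat Q w *ᵥ u)) = F ∙ v
    rw [hwu, hspan]
  · obtain ⟨a, ha⟩ := exists_unit Q hQ (Cfsg.reflectionMatrix (⇑Q) u) (refl_iso Q u hu)
    have haS : a ∈ SR Q := ⟨u, hu, ha⟩
    have hwa : w * a ∈ K2 Q := by
      have e : w * a = (w * r) * (r⁻¹ * a) := by group
      rw [S_inv Q r hr] at e
      rw [e]
      exact (K2 Q).mul_mem hwr (SS_mem Q r a hr haS)
    refine ⟨w * a, K_le_comm hFn Q hQ hwa, ?_⟩
    show (F ∙ (mat Q (w * a) *ᵥ u)) = F ∙ v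
    have hau : mat Q a *ᵥ u = u := by
      rw [ha, refl_mulVec, pl_self]
      have : (Q u)⁻¹ * (Q u + Q u) = 0 := by
        have : Q u + Q u = 0 := by linear_combination (Q u) * h2
        rw [this, mul_zero]
      rw [this, zero_smul, sub_zero]
    rw [mat_mul, ← Matrix.mulVec_mulVec, hau, hwu, hspan]

theorem result {F : Type*} [Field F] [Fintype F] [CharP F 2] {n : ℕ} (h : Fintype.card F ≠ 2 ∨ n ≠ 4) (Q : QuadraticForm F (Fin n → F)) (hQ : (QuadraticMap.polarBilin Q).Nondegenerate) (u v : Fin n → F) (hu : Q u ≠ 0) (hv : Q v ≠ 0) : ∃ g : ↥(Cfsg.isometryGroup F ⇑Q), g ∈ Cfsg.Omega F ⇑Q ∧ (F ∙ ((g : Matrix.GeneralLinearGroup (Fin n) F) : Matrix (Fin n) (Fin n) F).mulVec u) = F ∙ v := by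
  exact main h Q hQ u v hu hv

end Cfsg.Agent.S2634
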