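import Cfsg.Statements.S2636

set_option autoImplicit false
open Cfsg

set_option maxHeartbeats 1000000
namespace Cfsg.Agent.S2636

theorem exists_fixed_subfield {F : Type*} [Field F] [Fintype F] {q₀ r : ℕ} (hr : r.Prime)
    (hF : Fintype.card F = q₀ ^ r) (σ : F ≃+* F) (hσ : orderOf σ = r) :
    ∃ F₀ : Subfield F, (∀ x, x ∈ F₀ ↔ σ x = x) ∧ Nat.card F₀ = q₀ := by
  classical
  haveI : Finite (F ≃+* F) := Finite.of_injective (fun e : F ≃+* F => (e : F → F))
    DFunLike.coe_injective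
  let G : Subgroup (F ≃+* F) := Subgroup.zpowers σ
  letI : Fintype G := Fintype.ofFinite G
  have h1 := FixedPoints.finrank_eq_card G F
  have h2 : Fintype.card G = r := by
    rw [Fintype.card_eq_nat_card, Nat.card_zpowers, hσ]
  have h3 := Module.natCard_eq_pow_finrank (K := ↥(FixedPoints.subfield G F)) (V := F)
  rw [h1, h2, Nat.card_eq_fintype_card (α := F), hF] at h3
  have h4 : Nat.card ↥(FixedPoints.subfield G F) = q₀ :=
    (Nat.pow_left_injective hr.ne_zero h3).symm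
  refine ⟨FixedPoints.subfield G F, ?_, h4⟩
  intro x
  constructor
  · intro hx
    exact hx ⟨σ, Subgroup.mem_zpowers σ⟩
  · intro hx g
    have h5 : Subgroup.zpowers σ ≤ MulAction.stabilizer (F ≃+* F) x := by
      rw [Subgroup.zpowers_le, MulAction.mem_stabilizer_iff]
      exact hx
    exact MulAction.mem_stabilizer_iff.mp (h5 g.2)

/-- Scalar multiple of an invertible matrix. -/
def sm {F : Type*} [Field F] {n : ℕ} (c : F) (hc : c ≠ 0) (g : GL (Fin n) F) : GL (Fin n) F :=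
  ⟨c • (g : Matrix (Fin n) (Fin n) F), c⁻¹ • ((g⁻¹ : GL (Fin n) F) : Matrix (Fin n) (Fin n) F),
    by rw [Matrix.smul_mul, Matrix.mul_smul, smul_smul, mul_inv_cancel₀ hc, one_smul,
      ← Units.val_mul, mul_inv_cancel, Units.val_one],
    by rw [Matrix.smul_mul, Matrix.mul_smul, smul_smul, inv_mul_cancel₀ hc, one_smul,
      ← Units.val_mul, inv_mul_cancel, Units.val_one]⟩

theorem sm_val {F : Type*} [Field F] {n : ℕ} (c : F) (hc : c ≠ 0) (g : GL (Fin n) F) :
    ((sm c hc g : GL (Fin n) F) : Matrix (Fin n) (Fin n) F) =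
      c • (g : Matrix (Fin n) (Fin n) F) := rfl

theorem exists_entry {F : Type*} [Field F] {n : ℕ} (hn : 1 ≤ n) (g : GL (Fin n) F) :
    ∃ ij : Fin n × Fin n, (g : Matrix (Fin n) (Fin n) F) ij.1 ij.2 ≠ 0 := by
  by_contra hcon
  push_neg at hcon
  have h0 : (g : Matrix (Fin n) (Fin n) F) = 0 := by
    ext i j
    exact hcon (i, j)
  have h1 : (g : Matrix (Fin n) (Fin n) F) * ((g⁻¹ : GL (Fin n) F) : Matrix (Fin n) (Fin n) F)
      = 1 := by
    rw [← Units.val_mul, mul_inv_cancel, Units.val_one]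
  rw [h0, zero_mul] at h1
  have h2 := congrFun (congrFun h1 ⟨0, hn⟩) ⟨0, hn⟩
  rw [Matrix.zero_apply, Matrix.one_apply_eq] at h2
  exact zero_ne_one h2

/-- A chosen nonzero entry. -/
noncomputable def ent {F : Type*} [Field F] {n : ℕ} (hn : 1 ≤ n) (g : GL (Fin n) F) : F :=
  (g : Matrix (Fin n) (Fin n) F) (Classical.choose (exists_entry hn g)).1
    (Classical.choose (exists_entry hn g)).2

theorem ent_ne {F : Type*} [Field F] {n : ℕ} (hn : 1 ≤ n) (g : GL (Fin n) F) : ent hn g ≠ 0 :=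
  Classical.choose_spec (exists_entry hn g)

theorem ent_def {F : Type*} [Field F] {n : ℕ} (hn : 1 ≤ n) (g : GL (Fin n) F) :
    ent hn g = (g : Matrix (Fin n) (Fin n) F) (Classical.choose (exists_entry hn g)).1
    (Classical.choose (exists_entry hn g)).2 := rfl

theorem card_B {F : Type*} [Field F] [Fintype F] {q₀ n : ℕ} (σ : F ≃+* F) (F₀ : Subfield F)
    (hF₀ : ∀ x, x ∈ F₀ ↔ σ x = x) (hcard : Nat.card F₀ = q₀) :
    Nat.card {g : GL (Fin n) F // (g : Matrix (Fin n) (Fin n) F).map σ =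
      (g : Matrix (Fin n) (Fin n) F)} = ∏ i : Fin n, (q₀ ^ n - q₀ ^ (i : ℕ)) := by
  classical
  letI : Fintype F₀ := Fintype.ofFinite F₀
  have hc : Fintype.card F₀ = q₀ := by rw [Fintype.card_eq_nat_card, hcard]
  rw [← hc, ← Matrix.card_GL_field (𝔽 := F₀) n]
  symm
  let ι : GL (Fin n) F₀ → {g : GL (Fin n) F // (g : Matrix (Fin n) (Fin n) F).map σ =
      (g : Matrix (Fin n) (Fin n) F)} := fun g =>
    ⟨Matrix.GeneralLinearGroup.map F₀.subtype g, by
      ext i j
      rw [Matrix.map_apply, Matrix.GeneralLinearGroup.map_apply]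
      exact (hF₀ _).mp (g i j).2⟩
  have hι : ∀ g i j, ((ι g).1 : Matrix (Fin n) (Fin n) F) i j =
      ((g : Matrix (Fin n) (Fin n) F₀) i j : F) := by
    intro g i j
    exact Matrix.GeneralLinearGroup.map_apply F₀.subtype i j g
  apply Nat.card_congr
  refine Equiv.ofBijective ι ⟨?_, ?_⟩
  · intro g g' h
    apply Units.ext
    ext i j
    have h1 := congrArg (fun b : {g : GL (Fin n) F // (g : Matrix (Fin n) (Fin n) F).map σ =
      (g : Matrix (Fin n) (Fin n) F)} => (b.1 : Matrix (Fin n) (Fin n) F) i j) h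
    simp only [hι] at h1
    exact h1
  · intro b
    have hb : ∀ i j, (b.1 : Matrix (Fin n) (Fin n) F) i j ∈ F₀ := by
      intro i j
      rw [hF₀]
      have h1 := congrFun (congrFun b.2 i) j
      rw [Matrix.map_apply] at h1
      exact h1
    let M : Matrix (Fin n) (Fin n) F₀ := Matrix.of (fun i j => ⟨_, hb i j⟩)
    have hMmap : (F₀.subtype.mapMatrix M) = (b.1 : Matrix (Fin n) (Fin n) F) := by
      ext i j
      rfl
    have hMdet : IsUnit M.det := by
      rw [isUnit_iff_ne_zero]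
      intro h0
      have h1 := RingHom.map_det F₀.subtype M
      rw [h0, map_zero, hMmap] at h1
      have h2 := (Matrix.isUnit_iff_isUnit_det _).mp b.1.isUnit
      exact h2.ne_zero h1.symm
    refine ⟨Matrix.GeneralLinearGroup.mk'' M hMdet, ?_⟩
    apply Subtype.ext
    apply Units.ext
    ext i j
    rw [hι]
    rfl

theorem card_M₀ {F : Type*} [Field F] [Fintype F] {q₀ : ℕ} (σ : F ≃+* F) (F₀ : Subfield F)
    (hF₀ : ∀ x, x ∈ F₀ ↔ σ x = x) (hcard : Nat.card F₀ = q₀) :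
    Nat.card {μ : F // μ ≠ 0 ∧ σ μ = μ} = q₀ - 1 := by
  classical
  rw [← hcard, ← Nat.card_units (α := F₀)]
  symm
  apply Nat.card_congr
  refine Equiv.ofBijective (fun u : (↥F₀)ˣ => (⟨((u : F₀) : F), ?_, (hF₀ _).mp (u : F₀).2⟩ :
    {μ : F // μ ≠ 0 ∧ σ μ = μ})) ⟨?_, ?_⟩
  · intro h
    exact u.ne_zero (Subtype.ext h)
  · intro u u' h
    apply Units.ext
    apply Subtype.ext
    exact congrArg (fun z : {μ : F // μ ≠ 0 ∧ σ μ = μ} => z.1) h
  · intro μ
    have hmem : μ.1 ∈ F₀ := (hF₀ _).mpr μ.2.2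
    refine ⟨Units.mk0 ⟨μ.1, hmem⟩ ?_, ?_⟩
    · intro h
      exact μ.2.1 (congrArg Subtype.val h)
    · apply Subtype.ext
      rfl

theorem result {F : Type*} [Field F] [Fintype F] {q₀ r n : ℕ} (hr : r.Prime) (hn : 1 ≤ n) (hF : Fintype.card F = q₀ ^ r) (σ : F ≃+* F) (hσ : orderOf σ = r) : Nat.card {g : GL (Fin n) F // ∃ c : F, c ≠ 0 ∧ (g : Matrix (Fin n) (Fin n) F).map σ = c • (g : Matrix (Fin n) (Fin n) F)} = (q₀ ^ r - 1) / (q₀ - 1) * ∏ i : Fin n, (q₀ ^ n - q₀ ^ (i : ℕ)) := by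
  classical
  obtain ⟨F₀, hF₀, hcard⟩ := exists_fixed_subfield hr hF σ hσ
  have hq₀ : 2 ≤ q₀ := by
    by_contra hlt
    have h1 : q₀ ^ r ≤ 1 := by
      interval_cases q₀
      · rw [zero_pow hr.ne_zero]
        exact Nat.zero_le 1
      · rw [one_pow]
    have h2 := Fintype.one_lt_card (α := F)
    omega
  have hB := card_B (n := n) σ F₀ hF₀ hcard
  have hM := card_M₀ σ F₀ hF₀ hcard
  have hFnz : Nat.card {c : F // c ≠ 0} = q₀ ^ r - 1 := by
    rw [Nat.card_congr (unitsEquivNeZero (G₀ := F)).symm, Nat.card_units, Nat.card_eq_fintype_card,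
      hF]
  -- the bijection
  have hfixA : ∀ a : {g : GL (Fin n) F // ∃ c : F, c ≠ 0 ∧
      (g : Matrix (Fin n) (Fin n) F).map σ = c • (g : Matrix (Fin n) (Fin n) F)},
      ∀ μ : {μ : F // μ ≠ 0 ∧ σ μ = μ},
      ((μ.1⁻¹ * (ent hn a.1)⁻¹) • (a.1 : Matrix (Fin n) (Fin n) F)).map σ =
        (μ.1⁻¹ * (ent hn a.1)⁻¹) • (a.1 : Matrix (Fin n) (Fin n) F) := by
    intro a μ
    obtain ⟨c, hc0, hc⟩ := a.2
    have hent : σ (ent hn a.1) = c * ent hn a.1 := by
      have h1 := congrFun (congrFun hc (Classical.choose (exists_entry hn a.1)).1)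
        (Classical.choose (exists_entry hn a.1)).2
      rw [Matrix.map_apply, Matrix.smul_apply, smul_eq_mul, ← ent_def] at h1
      exact h1
    ext i j
    have h2 := congrFun (congrFun hc i) j
    rw [Matrix.map_apply, Matrix.smul_apply, smul_eq_mul] at h2
    rw [Matrix.map_apply, Matrix.smul_apply, smul_eq_mul, map_mul, map_mul, map_inv₀, map_inv₀,
      μ.2.2, hent, h2]
    have he := ent_ne hn a.1
    field_simp
  let Ψ : {g : GL (Fin n) F // ∃ c : F, c ≠ 0 ∧
      (g : Matrix (Fin n) (Fin n) F).map σ = c • (g : Matrix (Fin n) (Fin n) F)} ×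
      {μ : F // μ ≠ 0 ∧ σ μ = μ} → {c : F // c ≠ 0} × {g : GL (Fin n) F //
        (g : Matrix (Fin n) (Fin n) F).map σ = (g : Matrix (Fin n) (Fin n) F)} :=
    fun x => (⟨ent hn x.1.1 * x.2.1, mul_ne_zero (ent_ne hn x.1.1) x.2.2.1⟩,
      ⟨sm (x.2.1⁻¹ * (ent hn x.1.1)⁻¹)
        (mul_ne_zero (inv_ne_zero x.2.2.1) (inv_ne_zero (ent_ne hn x.1.1))) x.1.1,
        hfixA x.1 x.2⟩)
  have hΨ1 : ∀ x, ((Ψ x).1 : F) = ent hn x.1.1 * x.2.1 := fun x => rfl
  have hΨ2 : ∀ x, (((Ψ x).2 : GL (Fin n) F) : Matrix (Fin n) (Fin n) F) =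
      (x.2.1⁻¹ * (ent hn x.1.1)⁻¹) • (x.1.1 : Matrix (Fin n) (Fin n) F) := fun x => rfl
  have hrecover : ∀ x, (x.1.1 : Matrix (Fin n) (Fin n) F) =
      ((Ψ x).1 : F) • (((Ψ x).2 : GL (Fin n) F) : Matrix (Fin n) (Fin n) F) := by
    intro x
    rw [hΨ1, hΨ2, smul_smul]
    have h1 : ent hn x.1.1 * x.2.1 * (x.2.1⁻¹ * (ent hn x.1.1)⁻¹) = 1 := by
      have he := ent_ne hn x.1.1
      have hm := x.2.2.1
      field_simp
    rw [h1, one_smul]
  have hΨinj : Function.Injective Ψ := by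
    intro x y h
    have hxy : x.1 = y.1 := by
      apply Subtype.ext
      apply Units.ext
      rw [hrecover x, hrecover y, h]
    have h1 : ((Ψ x).1 : F) = ((Ψ y).1 : F) := by rw [h]
    rw [hΨ1, hΨ1, hxy] at h1
    have h2 : x.2.1 = y.2.1 := mul_left_cancel₀ (ent_ne hn y.1.1) h1
    exact Prod.ext hxy (Subtype.ext h2)
  have hΨsurj : Function.Surjective Ψ := by
    rintro ⟨⟨c, hc⟩, ⟨b, hb⟩⟩
    have haA : ∃ c' : F, c' ≠ 0 ∧ ((sm c hc b : GL (Fin n) F) : Matrix (Fin n) (Fin n) F).map σ =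
        c' • ((sm c hc b : GL (Fin n) F) : Matrix (Fin n) (Fin n) F) := by
      refine ⟨σ c * c⁻¹, mul_ne_zero ((map_ne_zero σ).mpr hc) (inv_ne_zero hc), ?_⟩
      rw [sm_val]
      ext i j
      have h1 := congrFun (congrFun hb i) j
      rw [Matrix.map_apply] at h1
      rw [Matrix.map_apply, Matrix.smul_apply, smul_eq_mul, Matrix.smul_apply, Matrix.smul_apply,
        smul_eq_mul, smul_eq_mul, map_mul, h1]
      field_simp
    have hent : ent hn (sm c hc b) = c * (b : Matrix (Fin n) (Fin n) F)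
        (Classical.choose (exists_entry hn (sm c hc b))).1
        (Classical.choose (exists_entry hn (sm c hc b))).2 := rfl
    have hbe : (b : Matrix (Fin n) (Fin n) F)
        (Classical.choose (exists_entry hn (sm c hc b))).1
        (Classical.choose (exists_entry hn (sm c hc b))).2 ≠ 0 := by
      intro h0
      have h1 := ent_ne hn (sm c hc b)
      rw [hent, h0, mul_zero] at h1
      exact h1 rfl
    have hbfix : σ ((b : Matrix (Fin n) (Fin n) F)
        (Classical.choose (exists_entry hn (sm c hc b))).1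
        (Classical.choose (exists_entry hn (sm c hc b))).2) = (b : Matrix (Fin n) (Fin n) F)
        (Classical.choose (exists_entry hn (sm c hc b))).1
        (Classical.choose (exists_entry hn (sm c hc b))).2 := by
      have h1 := congrFun (congrFun hb (Classical.choose (exists_entry hn (sm c hc b))).1)
        (Classical.choose (exists_entry hn (sm c hc b))).2
      rw [Matrix.map_apply] at h1
      exact h1
    have hμ : c * (ent hn (sm c hc b))⁻¹ ≠ 0 ∧
        σ (c * (ent hn (sm c hc b))⁻¹) = c * (ent hn (sm c hc b))⁻¹ := by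
      refine ⟨mul_ne_zero hc (inv_ne_zero (ent_ne hn _)), ?_⟩
      have h1 : c * (ent hn (sm c hc b))⁻¹ = ((b : Matrix (Fin n) (Fin n) F)
        (Classical.choose (exists_entry hn (sm c hc b))).1
        (Classical.choose (exists_entry hn (sm c hc b))).2)⁻¹ := by
        rw [hent]
        field_simp
      rw [h1, map_inv₀, hbfix]
    refine ⟨(⟨sm c hc b, haA⟩, ⟨c * (ent hn (sm c hc b))⁻¹, hμ⟩), ?_⟩
    have he := ent_ne hn (sm c hc b)
    apply Prod.ext
    · apply Subtype.ext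
      rw [hΨ1]
      show ent hn (sm c hc b) * (c * (ent hn (sm c hc b))⁻¹) = c
      field_simp
    · apply Subtype.ext
      apply Units.ext
      rw [hΨ2]
      show ((c * (ent hn (sm c hc b))⁻¹)⁻¹ * (ent hn (sm c hc b))⁻¹) •
        ((sm c hc b : GL (Fin n) F) : Matrix (Fin n) (Fin n) F) = (b : Matrix (Fin n) (Fin n) F)
      rw [sm_val, smul_smul]
      have h1 : (c * (ent hn (sm c hc b))⁻¹)⁻¹ * (ent hn (sm c hc b))⁻¹ * c = 1 := by
        field_simp
      rw [h1, one_smul]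
  have hcount := Nat.card_congr (Equiv.ofBijective Ψ ⟨hΨinj, hΨsurj⟩)
  rw [Nat.card_prod, Nat.card_prod, hM, hFnz, hB] at hcount
  obtain ⟨k, hk⟩ : q₀ - 1 ∣ q₀ ^ r - 1 := Nat.sub_one_dvd_pow_sub_one q₀ r
  rw [hk, Nat.mul_div_cancel_left k (by omega : 0 < q₀ - 1)]
  rw [hk, mul_comm, mul_assoc] at hcount
  exact Nat.eq_of_mul_eq_mul_left (by omega : 0 < q₀ - 1) hcount

end Cfsg.Agent.S2636
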