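import Cfsg.Statements.S2638

set_option autoImplicit false
open Cfsg

set_option maxHeartbeats 1000000
namespace Cfsg.Agent.S2638

open Polynomial

/-- The algebra hom from `F[X]/(m)` to matrices sending the root to `X`. -/
noncomputable def phi {F : Type*} [Field F] {n : ℕ} (X : Matrix (Fin n) (Fin n) F) :
    AdjoinRoot (minpoly F X) →ₐ[F] Matrix (Fin n) (Fin n) F :=
  Ideal.Quotient.liftₐ (Ideal.span {minpoly F X}) (Polynomial.aeval X) (by
    intro a ha
    obtain ⟨b, rfl⟩ := Ideal.mem_span_singleton.mp ha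
    rw [map_mul, minpoly.aeval, zero_mul])

theorem phi_mk {F : Type*} [Field F] {n : ℕ} (X : Matrix (Fin n) (Fin n) F) (Q : F[X]) :
    phi X (AdjoinRoot.mk (minpoly F X) Q) = Polynomial.aeval X Q := rfl

theorem minpoly_irr {F : Type*} [Field F] [Fintype F] {p q : ℕ} [Fact p.Prime] [CharP F p]
    (hF : Fintype.card F = q) {n r : ℕ} (hr : r.Prime) (hrp : r ≠ p)
    (hi : orderOf (q : ZMod r) = n) (X : Matrix (Fin n) (Fin n) F) (hXr : X ^ r = 1)
    (hX1 : X ≠ 1) :
    Irreducible (minpoly F X) ∧ (minpoly F X).natDegree = n := by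
  classical
  have hint : IsIntegral F X := Matrix.isIntegral X
  have hm0 : minpoly F X ≠ 0 := minpoly.ne_zero hint
  have hmon : (minpoly F X).Monic := minpoly.monic hint
  have hdeg_le : (minpoly F X).natDegree ≤ n := by
    have h1 := natDegree_le_of_dvd (Matrix.minpoly_dvd_charpoly X) (Matrix.charpoly_monic X).ne_zero
    rw [Matrix.charpoly_natDegree_eq_dim, Fintype.card_fin] at h1
    exact h1
  have hgeom : (∑ i ∈ Finset.range r, (Polynomial.X : F[X]) ^ i) * (Polynomial.X - 1) =
      Polynomial.X ^ r - 1 := geom_sum_mul Polynomial.X r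
  have hmdvd : minpoly F X ∣ (∑ i ∈ Finset.range r, (Polynomial.X : F[X]) ^ i) *
      (Polynomial.X - 1) := by
    rw [hgeom]
    apply minpoly.dvd
    simp [hXr]
  have hr0 : (r : F) ≠ 0 := by
    intro h
    have h1 := (CharP.cast_eq_zero_iff F p r).mp h
    exact hrp ((Nat.prime_dvd_prime_iff_eq (Fact.out) hr).mp h1).symm
  have hnc : ¬ IsCoprime (minpoly F X) (∑ i ∈ Finset.range r, (Polynomial.X : F[X]) ^ i) := by
    intro hc
    have h1 : minpoly F X ∣ Polynomial.X - 1 := hc.dvd_of_dvd_mul_left hmdvd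
    obtain ⟨b, hb⟩ := h1
    have h2 : Polynomial.aeval X (Polynomial.X - 1 : F[X]) = 0 := by
      rw [hb, map_mul, minpoly.aeval, zero_mul]
    simp at h2
    exact hX1 (sub_eq_zero.mp h2)
  have hg : ¬ IsUnit (EuclideanDomain.gcd (minpoly F X)
      (∑ i ∈ Finset.range r, (Polynomial.X : F[X]) ^ i)) := by
    rw [EuclideanDomain.gcd_isUnit_iff]
    exact hnc
  have hg0 : EuclideanDomain.gcd (minpoly F X)
      (∑ i ∈ Finset.range r, (Polynomial.X : F[X]) ^ i) ≠ 0 := by
    intro h
    rw [EuclideanDomain.gcd_eq_zero_iff] at h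
    exact hm0 h.1
  obtain ⟨P, hPirr, hPdvd⟩ := WfDvdMonoid.exists_irreducible_factor hg hg0
  have hPm : P ∣ minpoly F X := hPdvd.trans (EuclideanDomain.gcd_dvd_left _ _)
  have hPΦ : P ∣ ∑ i ∈ Finset.range r, (Polynomial.X : F[X]) ^ i :=
    hPdvd.trans (EuclideanDomain.gcd_dvd_right _ _)
  haveI : Fact (Irreducible P) := ⟨hPirr⟩
  have hP0 : P ≠ 0 := hPirr.ne_zero
  have hζΦ : ∑ i ∈ Finset.range r, (AdjoinRoot.root P) ^ i = 0 := by
    have h1 : AdjoinRoot.mk P (∑ i ∈ Finset.range r, (Polynomial.X : F[X]) ^ i) = 0 :=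
      AdjoinRoot.mk_eq_zero.mpr hPΦ
    rw [map_sum] at h1
    simp only [map_pow, AdjoinRoot.mk_X] at h1
    exact h1
  have hζr : (AdjoinRoot.root P) ^ r = 1 := by
    have h1 := geom_sum_mul (AdjoinRoot.root P) r
    rw [hζΦ, zero_mul] at h1
    exact (sub_eq_zero.mp h1.symm)
  have hζ1 : AdjoinRoot.root P ≠ 1 := by
    intro h
    rw [h] at hζΦ
    simp only [one_pow, Finset.sum_const, Finset.card_range, nsmul_eq_mul, mul_one] at hζΦ
    have h2 : algebraMap F (AdjoinRoot P) (r : F) = 0 := by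
      rw [map_natCast]
      exact hζΦ
    exact hr0 ((map_eq_zero _).mp h2)
  have hζ0 : AdjoinRoot.root P ≠ 0 := by
    intro h
    rw [h, zero_pow hr.ne_zero] at hζr
    exact zero_ne_one hζr
  haveI : Fact r.Prime := ⟨hr⟩
  haveI : Module.Finite F (AdjoinRoot P) := (AdjoinRoot.powerBasis hP0).finite
  haveI : Finite (AdjoinRoot P) := Module.finite_of_finite F
  have hord : orderOf (Units.mk0 (AdjoinRoot.root P) hζ0) = r := by
    apply orderOf_eq_prime
    · apply Units.ext
      rw [Units.val_pow_eq_pow_val, Units.val_mk0, hζr, Units.val_one]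
    · intro h
      apply hζ1
      have h2 := congrArg Units.val h
      rw [Units.val_mk0, Units.val_one] at h2
      exact h2
  have hcardK : Nat.card (AdjoinRoot P) = q ^ P.natDegree := by
    rw [Module.natCard_eq_pow_finrank (K := F), (AdjoinRoot.powerBasis hP0).finrank,
      AdjoinRoot.powerBasis_dim, Nat.card_eq_fintype_card, hF]
  have hdiv : r ∣ q ^ P.natDegree - 1 := by
    have h1 := orderOf_dvd_natCard (Units.mk0 (AdjoinRoot.root P) hζ0)
    rw [hord, Nat.card_units, hcardK] at h1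
    exact h1
  have hq0 : 0 < q := by
    rw [← hF]
    exact Fintype.card_pos
  have hpow : (q : ZMod r) ^ P.natDegree = 1 := by
    have h1 : ((q ^ P.natDegree - 1 : ℕ) : ZMod r) = 0 := (ZMod.natCast_eq_zero_iff _ _).mpr hdiv
    rw [Nat.cast_sub (Nat.one_le_pow _ _ hq0), Nat.cast_pow, Nat.cast_one, sub_eq_zero] at h1
    exact h1
  have hnd : n ∣ P.natDegree := by
    rw [← hi]
    exact orderOf_dvd_of_pow_eq_one hpow
  have hPpos : 0 < P.natDegree := hPirr.natDegree_pos
  have hPle : P.natDegree ≤ (minpoly F X).natDegree := natDegree_le_of_dvd hPm hm0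
  have hnle : n ≤ P.natDegree := Nat.le_of_dvd hPpos hnd
  have hdegeq : (minpoly F X).natDegree = n := by omega
  refine ⟨?_, hdegeq⟩
  obtain ⟨b, hb⟩ := hPm
  have hb0 : b ≠ 0 := by
    rintro rfl
    rw [mul_zero] at hb
    exact hm0 hb
  have hbdeg : b.natDegree = 0 := by
    have h1 := congrArg Polynomial.natDegree hb
    rw [Polynomial.natDegree_mul hP0 hb0] at h1
    omega
  have hbu : IsUnit b := by
    rw [Polynomial.eq_C_of_natDegree_eq_zero hbdeg]
    apply Polynomial.isUnit_C.mpr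
    rw [isUnit_iff_ne_zero]
    intro h
    apply hb0
    rw [Polynomial.eq_C_of_natDegree_eq_zero hbdeg, h, map_zero]
  rw [hb]
  exact (associated_mul_unit_right P b hbu).irreducible hPirr

theorem comm_mem_range {F : Type*} [Field F] [Fintype F] {n : ℕ} (hn : 1 ≤ n)
    (X : Matrix (Fin n) (Fin n) F) (hirr : Irreducible (minpoly F X))
    (hdeg : (minpoly F X).natDegree = n) (c : Matrix (Fin n) (Fin n) F) (hc : c * X = X * c) :
    ∃ a : AdjoinRoot (minpoly F X), phi X a = c := by
  classical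
  haveI : Fact (Irreducible (minpoly F X)) := ⟨hirr⟩
  have hm0 : minpoly F X ≠ 0 := hirr.ne_zero
  have hcomm : ∀ a : AdjoinRoot (minpoly F X), c * phi X a = phi X a * c := by
    intro a
    obtain ⟨Q, rfl⟩ := AdjoinRoot.mk_surjective a
    rw [phi_mk]
    have h1 : X ∈ Subalgebra.centralizer F ({c} : Set (Matrix (Fin n) (Fin n) F)) := by
      rw [Subalgebra.mem_centralizer_iff]
      intro g hg
      rw [Set.mem_singleton_iff] at hg
      rw [hg]
      exact hc
    have h2 : Algebra.adjoin F {X} ≤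
        Subalgebra.centralizer F ({c} : Set (Matrix (Fin n) (Fin n) F)) := by
      apply Algebra.adjoin_le
      intro y hy
      rw [Set.mem_singleton_iff] at hy
      rw [hy]
      exact h1
    have h3 := h2 (Polynomial.aeval_mem_adjoin_singleton F X (p := Q))
    rw [Subalgebra.mem_centralizer_iff] at h3
    exact h3 c rfl
  obtain ⟨v, hv⟩ : ∃ v : Fin n → F, v ≠ 0 := by
    refine ⟨Pi.single ⟨0, hn⟩ 1, ?_⟩
    intro h
    have h1 := congrFun h ⟨0, hn⟩
    simp at h1
  let L : AdjoinRoot (minpoly F X) →ₗ[F] (Fin n → F) :=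
    { toFun := fun a => (phi X a).mulVec v
      map_add' := by
        intro a b
        rw [map_add, Matrix.add_mulVec]
      map_smul' := by
        intro t a
        rw [map_smul, Matrix.smul_mulVec]
        rfl }
  have hLapp : ∀ a, L a = (phi X a).mulVec v := fun a => rfl
  have hLinj : Function.Injective L := by
    rw [← LinearMap.ker_eq_bot, LinearMap.ker_eq_bot']
    intro a ha
    by_contra ha0
    apply hv
    have h1 : phi X a⁻¹ * phi X a = 1 := by
      rw [← map_mul, inv_mul_cancel₀ ha0, map_one]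
    have h2 : (phi X a⁻¹).mulVec ((phi X a).mulVec v) = v := by
      rw [Matrix.mulVec_mulVec, h1, Matrix.one_mulVec]
    rw [← h2, ← hLapp, ha, Matrix.mulVec_zero]
  haveI : FiniteDimensional F (AdjoinRoot (minpoly F X)) := (AdjoinRoot.powerBasis hm0).finite
  have hfin : Module.finrank F (AdjoinRoot (minpoly F X)) = Module.finrank F (Fin n → F) := by
    rw [(AdjoinRoot.powerBasis hm0).finrank, AdjoinRoot.powerBasis_dim, hdeg,
      Module.finrank_fin_fun]
  have hLsurj : Function.Surjective L :=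
    (LinearMap.injective_iff_surjective_of_finrank_eq_finrank hfin).mp hLinj
  obtain ⟨a₀, ha₀⟩ := hLsurj (c.mulVec v)
  refine ⟨a₀, ?_⟩
  apply Matrix.mulVec_injective
  funext w
  obtain ⟨a, rfl⟩ := hLsurj w
  rw [hLapp] at ha₀ ⊢
  calc (phi X a₀).mulVec ((phi X a).mulVec v)
      = (phi X (a₀ * a)).mulVec v := by rw [Matrix.mulVec_mulVec, map_mul]
    _ = (phi X (a * a₀)).mulVec v := by rw [mul_comm]
    _ = (phi X a).mulVec ((phi X a₀).mulVec v) := by rw [map_mul, Matrix.mulVec_mulVec]
    _ = (phi X a).mulVec (c.mulVec v) := by rw [ha₀]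
    _ = (phi X a * c).mulVec v := by rw [Matrix.mulVec_mulVec]
    _ = (c * phi X a).mulVec v := by rw [hcomm a]
    _ = c.mulVec ((phi X a).mulVec v) := by rw [Matrix.mulVec_mulVec]

theorem result {F : Type*} [Field F] [Fintype F] {p q : ℕ} [Fact p.Prime] [CharP F p] (hF : Fintype.card F = q) {n r : ℕ} (hn : 1 ≤ n) (hr : r.Prime) (hrp : r ≠ p) (hi : orderOf (q : ZMod r) = n) (x : GL (Fin n) F) (hx : orderOf x = r) : IsCyclic ↥(Subgroup.centralizer ({x} : Set (GL (Fin n) F))) ∧ Nat.card ↥(Subgroup.centralizer ({x} : Set (GL (Fin n) F))) = q ^ n - 1 := by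
  classical
  haveI : NeZero n := ⟨by omega⟩
  have hxr : x ^ r = 1 := by
    rw [← hx]
    exact pow_orderOf_eq_one x
  have hx1 : x ≠ 1 := by
    rintro rfl
    rw [orderOf_one] at hx
    exact hr.one_lt.ne hx
  have hXr : (x : Matrix (Fin n) (Fin n) F) ^ r = 1 := by
    rw [← Units.val_pow_eq_pow_val, hxr, Units.val_one]
  have hX1 : (x : Matrix (Fin n) (Fin n) F) ≠ 1 := by
    intro h
    apply hx1
    exact Units.ext h
  obtain ⟨hirr, hdeg⟩ := minpoly_irr hF hr hrp hi (x : Matrix (Fin n) (Fin n) F) hXr hX1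
  haveI : Fact (Irreducible (minpoly F (x : Matrix (Fin n) (Fin n) F))) := ⟨hirr⟩
  have hm0 : minpoly F (x : Matrix (Fin n) (Fin n) F) ≠ 0 := hirr.ne_zero
  haveI : Module.Finite F (AdjoinRoot (minpoly F (x : Matrix (Fin n) (Fin n) F))) :=
    (AdjoinRoot.powerBasis hm0).finite
  haveI : Finite (AdjoinRoot (minpoly F (x : Matrix (Fin n) (Fin n) F))) := Module.finite_of_finite F
  have hroot : phi (x : Matrix (Fin n) (Fin n) F) (AdjoinRoot.root _) =
      (x : Matrix (Fin n) (Fin n) F) := by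
    rw [← AdjoinRoot.mk_X, phi_mk, Polynomial.aeval_X]
  have hinj : Function.Injective (phi (x : Matrix (Fin n) (Fin n) F)) :=
    (phi (x : Matrix (Fin n) (Fin n) F)).toRingHom.injective
  have hmem : ∀ u : (AdjoinRoot (minpoly F (x : Matrix (Fin n) (Fin n) F)))ˣ,
      Units.map (phi (x : Matrix (Fin n) (Fin n) F)).toMonoidHom u ∈
        Subgroup.centralizer ({x} : Set (GL (Fin n) F)) := by
    intro u
    rw [Subgroup.mem_centralizer_iff]
    intro h hh
    rw [Set.mem_singleton_iff] at hh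
    rw [hh]
    apply Units.ext
    rw [Units.val_mul, Units.val_mul]
    show (x : Matrix (Fin n) (Fin n) F) * phi (x : Matrix (Fin n) (Fin n) F) (u : AdjoinRoot _) =
      phi (x : Matrix (Fin n) (Fin n) F) (u : AdjoinRoot _) * (x : Matrix (Fin n) (Fin n) F)
    have e1 := congrArg (fun Y => Y * phi (x : Matrix (Fin n) (Fin n) F) (u : AdjoinRoot _)) hroot
    have e2 := congrArg (fun Y => phi (x : Matrix (Fin n) (Fin n) F) (u : AdjoinRoot _) * Y) hroot
    have e3 : phi (x : Matrix (Fin n) (Fin n) F) (AdjoinRoot.root _) *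
        phi (x : Matrix (Fin n) (Fin n) F) (u : AdjoinRoot _) =
        phi (x : Matrix (Fin n) (Fin n) F) (u : AdjoinRoot _) *
        phi (x : Matrix (Fin n) (Fin n) F) (AdjoinRoot.root _) := by
      rw [← map_mul, ← map_mul, mul_comm]
    exact e1.symm.trans (e3.trans e2)
  let f : (AdjoinRoot (minpoly F (x : Matrix (Fin n) (Fin n) F)))ˣ →*
      ↥(Subgroup.centralizer ({x} : Set (GL (Fin n) F))) :=
    (Units.map (phi (x : Matrix (Fin n) (Fin n) F)).toMonoidHom).codRestrict _ hmem
  have hfinj : Function.Injective f := by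
    intro u u' h
    have h1 := congrArg (fun g : ↥(Subgroup.centralizer ({x} : Set (GL (Fin n) F))) =>
      ((g : GL (Fin n) F) : Matrix (Fin n) (Fin n) F)) h
    apply Units.ext
    exact hinj h1
  have hfsurj : Function.Surjective f := by
    intro g
    have hg := Subgroup.mem_centralizer_iff.mp g.2 x rfl
    have hg' : ((g : GL (Fin n) F) : Matrix (Fin n) (Fin n) F) * (x : Matrix (Fin n) (Fin n) F) =
        (x : Matrix (Fin n) (Fin n) F) * ((g : GL (Fin n) F) : Matrix (Fin n) (Fin n) F) := by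
      rw [← Units.val_mul, ← Units.val_mul, hg]
    obtain ⟨a, ha⟩ := comm_mem_range hn _ hirr hdeg _ hg'
    have ha0 : a ≠ 0 := by
      rintro rfl
      rw [map_zero] at ha
      have h1 : ((g : GL (Fin n) F) : Matrix (Fin n) (Fin n) F) *
          (((g : GL (Fin n) F)⁻¹ : GL (Fin n) F) : Matrix (Fin n) (Fin n) F) = 1 := by
        rw [← Units.val_mul, mul_inv_cancel, Units.val_one]
      rw [← ha, zero_mul] at h1
      exact zero_ne_one h1
    refine ⟨Units.mk0 a ha0, ?_⟩
    apply Subtype.ext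
    apply Units.ext
    exact ha
  constructor
  · exact isCyclic_of_surjective f hfsurj
  · rw [← Nat.card_congr (Equiv.ofBijective f ⟨hfinj, hfsurj⟩), Nat.card_units,
      Module.natCard_eq_pow_finrank (K := F), (AdjoinRoot.powerBasis hm0).finrank,
      AdjoinRoot.powerBasis_dim, hdeg, Nat.card_eq_fintype_card, hF]

end Cfsg.Agent.S2638
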