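import Cfsg.Statements.S2678

set_option autoImplicit false
open Cfsg

set_option maxHeartbeats 1000000
namespace Cfsg.Agent.S2678

open Matrix in
theorem embed_sp {F : Type*} [Field F] {V : Type*} [AddCommGroup V] [Module F V]
    {ι n : Type*} [Fintype ι] [DecidableEq ι] [Fintype n] [DecidableEq n]
    (𝔟 : Module.Basis ι F V) (e : ι ≃ n ⊕ n) (g : LinearMap.BilinForm F V)
    (hg : ∀ x y, g (𝔟 x) (𝔟 y) = Matrix.J n F (e x) (e y))
    {G : Type*} [Group G] (ρ : G →* (V →ₗ[F] V)) (hρ : Function.Injective ρ)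
    (hinv : ∀ a u v, g (ρ a u) (ρ a v) = g u v) :
    ∃ φ : G →* ↥(Matrix.symplecticGroup n F), Function.Injective φ := by
  classical
  let 𝔟' : Module.Basis (n ⊕ n) F V := 𝔟.reindex e
  have hG : LinearMap.BilinForm.toMatrix 𝔟' g = Matrix.J n F := by
    ext x y
    rw [LinearMap.BilinForm.toMatrix_apply]
    simp only [𝔟', Module.Basis.reindex_apply]
    rw [hg]; simp
  have hmem : ∀ a, LinearMap.toMatrix 𝔟' 𝔟' (ρ a) ∈ Matrix.symplecticGroup n F := by
    intro a
    rw [SymplecticGroup.mem_iff']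
    have hc : g.comp (ρ a) (ρ a) = g := by
      ext u v; simp [hinv]
    have h := LinearMap.BilinForm.toMatrix_comp 𝔟' 𝔟' g (ρ a) (ρ a)
    rw [hc, hG] at h
    exact h.symm
  refine ⟨{ toFun := fun a => ⟨LinearMap.toMatrix 𝔟' 𝔟' (ρ a), hmem a⟩
            map_one' := ?_
            map_mul' := ?_ }, ?_⟩
  · apply Subtype.ext
    simp only [map_one]
    exact LinearMap.toMatrix_one 𝔟'
  · intro x y
    apply Subtype.ext
    simp only [map_mul]
    exact LinearMap.toMatrix_mul 𝔟' _ _
  · intro x y hxy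
    apply hρ
    have h := congrArg Subtype.val hxy
    exact (LinearMap.toMatrix 𝔟' 𝔟').injective h

theorem exists_hom {K F : Type*} [Field K] [Fintype K] [Field F] [Fintype F] {q : ℕ}
    (hK : Fintype.card K = q ^ 2) (hF : Fintype.card F = q) : Nonempty (F →+* K) := by
  obtain ⟨p, hpc⟩ := CharP.exists F
  obtain ⟨p', hpc'⟩ := CharP.exists K
  obtain ⟨n, hp, hn⟩ := FiniteField.card F p
  obtain ⟨n', hp', hn'⟩ := FiniteField.card K p'
  have hpp : p = p' := by
    have : p ∣ p' ^ (n' : ℕ) := by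
      rw [← hn', hK, ← hF, hn]
      exact Dvd.dvd.pow (dvd_pow_self p n.ne_zero) (by norm_num)
    exact (Nat.prime_dvd_prime_iff_eq hp hp').mp (hp.dvd_of_dvd_pow this)
  subst hpp
  haveI := Fact.mk hp
  letI : Algebra (ZMod p) F := ZMod.algebra _ _
  letI : Algebra (ZMod p) K := ZMod.algebra _ _
  have h1 := FiniteField.pow_finrank_eq_card p F
  have h2 := FiniteField.pow_finrank_eq_card p K
  have h3 : Module.finrank (ZMod p) K = 2 * Module.finrank (ZMod p) F := by
    apply Nat.pow_right_injective hp.two_le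
    show p ^ _ = p ^ _
    rw [h2, hK, ← hF, ← h1, ← pow_mul, mul_comm]
  obtain ⟨f⟩ := FiniteField.nonempty_algHom_of_finrank_dvd (F := ZMod p) (K := F) (L := K)
    (h3 ▸ dvd_mul_left _ _)
  exact ⟨f.toRingHom⟩

theorem finrank_two {K F : Type*} [Field K] [Fintype K] [Field F] [Fintype F] [Algebra F K] {q : ℕ}
    (hK : Fintype.card K = q ^ 2) (hF : Fintype.card F = q) : Module.finrank F K = 2 := by
  have h := Module.card_eq_pow_finrank (K := F) (V := K)
  rw [hK, hF] at h
  have hq : 2 ≤ q := hF ▸ Fintype.one_lt_card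
  exact (Nat.pow_right_injective hq h).symm

open Matrix in
theorem main {K F : Type*} [Field K] [Fintype K] [Field F] [Fintype F] {q : ℕ} (hK : Fintype.card K = q ^ 2) (hF : Fintype.card F = q) (a : ℕ) : ∃ φ : ↥(Matrix.symplecticGroup (Fin a) K) →* ↥(Matrix.symplecticGroup (Fin (2 * a)) F), Function.Injective φ := by
  classical
  obtain ⟨ι⟩ := exists_hom hK hF
  letI : Algebra F K := ι.toAlgebra
  have h2 : Module.finrank F K = 2 := finrank_two hK hF
  let b : Module.Basis (Fin 2) F K := Module.finBasisOfFinrankEq F K h2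
  have hnd := traceForm_nondegenerate F K
  let b' := (Algebra.traceForm F K).dualBasis hnd b
  let N := Fin a ⊕ Fin a
  let 𝔟 : Module.Basis (Σ _ : N, Fin 2) F (N → K) :=
    Pi.basis (fun s => Sum.elim (fun _ => b) (fun _ => b') s)
  let g : LinearMap.BilinForm F (N → K) :=
    LinearMap.mk₂ F (fun u v => Algebra.trace F K (u ⬝ᵥ (Matrix.J (Fin a) K *ᵥ v)))
      (by intro u u' v; simp [add_dotProduct])
      (by intro c u v; simp [smul_dotProduct])
      (by intro u v v'; simp [Matrix.mulVec_add, dotProduct_add])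
      (by intro c u v; simp [Matrix.mulVec_smul, dotProduct_smul])
  let e₀ : Fin a × Fin 2 ≃ Fin (2 * a) := finProdFinEquiv.trans (finCongr (mul_comm a 2))
  let e : (Σ _ : N, Fin 2) ≃ Fin (2 * a) ⊕ Fin (2 * a) :=
    ((Equiv.sigmaEquivProd N (Fin 2)).trans (Equiv.sumProdDistrib (Fin a) (Fin a) (Fin 2))).trans
      (Equiv.sumCongr e₀ e₀)
  let ρ : ↥(Matrix.symplecticGroup (Fin a) K) →* ((N → K) →ₗ[F] (N → K)) :=
    { toFun := fun A => (Matrix.toLin' A.1).restrictScalars F
      map_one' := by ext; simp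
      map_mul' := by intro A B; ext; simp [Matrix.toLin'_mul] }
  refine embed_sp 𝔟 e g ?_ ρ ?_ ?_
  · rintro ⟨s, k⟩ ⟨t, l⟩
    have h𝔟 : ∀ (s : N) (k : Fin 2), 𝔟 ⟨s, k⟩ = Pi.single s (Sum.elim (fun _ => b) (fun _ => b') s k) := by
      intro s k
      exact Pi.basis_apply _ _
    have hgv : ∀ u v, g u v = Algebra.trace F K (u ⬝ᵥ (Matrix.J (Fin a) K *ᵥ v)) := fun u v => rfl
    rw [hgv, h𝔟, h𝔟]
    have he1 : ∀ (i : Fin a) (k : Fin 2), e ⟨Sum.inl i, k⟩ = Sum.inl (e₀ (i, k)) := fun i k => rfl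
    have he2 : ∀ (i : Fin a) (k : Fin 2), e ⟨Sum.inr i, k⟩ = Sum.inr (e₀ (i, k)) := fun i k => rfl
    have hJ : ∀ (s t : N) (c d : K), (Pi.single s c : N → K) ⬝ᵥ (Matrix.J (Fin a) K *ᵥ Pi.single t d)
        = c * (Matrix.J (Fin a) K s t * d) := by
      intro s t c d
      rw [single_dotProduct]
      congr 1
      exact dotProduct_single _ _ _
    have hT1 : ∀ k l, Algebra.trace F K (b k * b' l) = if k = l then 1 else 0 := by
      intro k l
      have := LinearMap.BilinForm.apply_dualBasis_right hnd (Algebra.traceForm_isSymm F) b k l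
      rwa [Algebra.traceForm_apply] at this
    have hT2 : ∀ k l, Algebra.trace F K (b' k * b l) = if l = k then 1 else 0 := by
      intro k l
      have := LinearMap.BilinForm.apply_dualBasis_left hnd b k l
      rwa [Algebra.traceForm_apply] at this
    rw [hJ]
    rcases s with i | i <;> rcases t with j | j
    · rw [he1, he1]
      simp [Matrix.J]
    · rw [he1, he2]
      simp only [Matrix.J, Matrix.fromBlocks_apply₁₂, Sum.elim_inl, Sum.elim_inr, Matrix.neg_apply,
        Matrix.one_apply, e₀.injective.eq_iff, Prod.mk.injEq]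
      by_cases hij : i = j
      · simp [hij, hT1]
      · simp [hij]
    · rw [he2, he1]
      simp only [Matrix.J, Matrix.fromBlocks_apply₂₁, Sum.elim_inl, Sum.elim_inr,
        Matrix.one_apply, e₀.injective.eq_iff, Prod.mk.injEq]
      by_cases hij : i = j
      · simp [hij, hT2, eq_comm]
      · simp [hij]
    · rw [he2, he2]
      simp [Matrix.J]
  · intro A B hAB
    apply Subtype.ext
    have h1 : (Matrix.toLin' A.1).restrictScalars F = (Matrix.toLin' B.1).restrictScalars F := hAB
    exact Matrix.toLin'.injective (LinearMap.restrictScalars_injective F h1)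
  · intro A u v
    have hgv : ∀ u v, g u v = Algebra.trace F K (u ⬝ᵥ (Matrix.J (Fin a) K *ᵥ v)) := fun u v => rfl
    have hρ : ∀ u, ρ A u = A.1 *ᵥ u := fun u => rfl
    rw [hgv, hgv, hρ, hρ]
    congr 1
    have hA := (SymplecticGroup.mem_iff' (A := A.1)).mp A.2
    rw [Matrix.mulVec_mulVec, ← Matrix.vecMul_transpose, ← Matrix.dotProduct_mulVec,
      Matrix.mulVec_mulVec, ← Matrix.mul_assoc, hA]


theorem result {K F : Type*} [Field K] [Fintype K] [Field F] [Fintype F] {q : ℕ} (hK : Fintype.card K = q ^ 2) (hF : Fintype.card F = q) (a : ℕ) : ∃ φ : ↥(Matrix.symplecticGroup (Fin a) K) →* ↥(Matrix.symplecticGroup (Fin (2 * a)) F), Function.Injective φ := by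
  exact main hK hF a

end Cfsg.Agent.S2678
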