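import Cfsg.Statements.S2639
import Cfsg.Agent.S2678

set_option autoImplicit false
open Cfsg

set_option maxHeartbeats 1000000
namespace Cfsg.Agent.S2639

theorem exists_frob {K F : Type*} [Field K] [Fintype K] [Field F] [Fintype F] [Algebra F K] {q : ℕ}
    (hK : Fintype.card K = q ^ 2) (hF : Fintype.card F = q) :
    ∃ (σ : K ≃ₐ[F] K) (x : K), (∀ y, σ y = y ^ q) ∧ (∀ y, σ (σ y) = y) ∧ σ x ≠ x ∧
      (∀ y, algebraMap F K (Algebra.trace F K y) = y + σ y) := by
  have h2 : Module.finrank F K = 2 := Cfsg.Agent.S2678.finrank_two hK hF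
  let σ : K ≃ₐ[F] K := FiniteField.frobeniusAlgEquivOfAlgebraic F K
  have hσ : ∀ y, σ y = y ^ q := by
    intro y
    show (FiniteField.frobeniusAlgEquivOfAlgebraic F K) y = y ^ q
    rw [FiniteField.coe_frobeniusAlgEquivOfAlgebraic]
    simp only [hF]
  have hσσ : ∀ y, σ (σ y) = y := by
    intro y
    rw [hσ, hσ, ← pow_mul, ← sq, ← hK, FiniteField.pow_card]
  have hord : orderOf σ = 2 := by
    rw [FiniteField.orderOf_frobeniusAlgEquivOfAlgebraic, h2]
  have hx : ∃ x, σ x ≠ x := by
    by_contra hcon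
    push_neg at hcon
    have h1 : σ = 1 := AlgEquiv.ext hcon
    rw [h1, orderOf_one] at hord
    omega
  obtain ⟨x, hx⟩ := hx
  refine ⟨σ, x, hσ, hσσ, hx, ?_⟩
  intro y
  rw [FiniteField.algebraMap_trace_eq_sum_pow, h2, Nat.card_eq_fintype_card, hF, hσ]
  simp [Finset.sum_range_succ]

open Matrix in
theorem main {K F : Type*} [Field K] [Fintype K] [Field F] [Fintype F] {q : ℕ} (hK : Fintype.card K = q ^ 2) (hF : Fintype.card F = q) (m : ℕ) : ∃ φ : ↥(Cfsg.GU m K q) →* ↥(Matrix.symplecticGroup (Fin m) F), Function.Injective φ := by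
  classical
  obtain ⟨ι⟩ := Cfsg.Agent.S2678.exists_hom hK hF
  letI : Algebra F K := ι.toAlgebra
  have h2 : Module.finrank F K = 2 := Cfsg.Agent.S2678.finrank_two hK hF
  obtain ⟨σ, x, hσ, hσσ, hx, htr⟩ := exists_frob (K := K) (F := F) hK hF
  have hinj : Function.Injective (algebraMap F K) := (algebraMap F K).injective
  set δ : K := x - σ x with hδ
  have hδ0 : δ ≠ 0 := by
    intro h; apply hx; rw [hδ, sub_eq_zero] at h; exact h.symm
  have hσδ : σ δ = -δ := by rw [hδ, map_sub, hσσ]; ring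
  set α : K := δ⁻¹ with hα
  have hσα : σ α = -α := by rw [hα, map_inv₀, hσδ, inv_neg]
  have hαδ : α * δ = 1 := inv_mul_cancel₀ hδ0
  -- the four values
  have t11 : Algebra.trace F K (α * (1 * σ 1)) = 0 := by
    apply hinj; simp only [htr, map_zero, map_mul, map_one, hσα]; ring
  have t22 : Algebra.trace F K (α * (x * σ x)) = 0 := by
    apply hinj; simp only [htr, map_zero, map_mul, hσσ, hσα]; ring
  have t12 : Algebra.trace F K (α * (1 * σ x)) = -1 := by
    apply hinj; simp only [htr, map_neg, map_one, map_mul, hσσ, hσα]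
    have : α * (1 * σ x) + -α * (1 * x) = -(α * δ) := by rw [hδ]; ring
    rw [this, hαδ]
  have t21 : Algebra.trace F K (α * (x * σ 1)) = 1 := by
    apply hinj; simp only [htr, map_one, map_mul, hσα]
    have : α * (x * 1) + -α * (σ x * 1) = α * δ := by rw [hδ]; ring
    rw [this, hαδ]
  -- basis of K over F
  have hli : LinearIndependent F ![(1:K), x] := by
    rw [LinearIndependent.pair_iff]
    intro s t hst
    by_cases ht : t = 0
    · subst ht
      simp only [zero_smul, add_zero] at hst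
      have : s = 0 := by
        have h1 : algebraMap F K s = 0 := by rw [Algebra.algebraMap_eq_smul_one]; exact hst
        exact hinj (by rw [h1, map_zero])
      exact ⟨this, rfl⟩
    · exfalso; apply hx
      have h1 : x = algebraMap F K (-s / t) := by
        rw [Algebra.smul_def, Algebra.smul_def, mul_one] at hst
        have ht' : algebraMap F K t ≠ 0 := fun h => ht (hinj (by rw [h, map_zero]))
        rw [map_div₀, map_neg, eq_div_iff ht']
        linear_combination hst
      rw [h1, AlgEquiv.commutes]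
  let b₀ : Module.Basis (Fin 2) F K := basisOfLinearIndependentOfCardEqFinrank hli (by simp [h2])
  have hb0 : b₀ 0 = 1 := by simp [b₀]
  have hb1 : b₀ 1 = x := by simp [b₀]
  let 𝔟 : Module.Basis (Σ _ : Fin m, Fin 2) F (Fin m → K) := Pi.basis (fun _ => b₀)
  have hσadd : ∀ v v' : Fin m → K, (fun t => σ ((v + v') t)) = (fun t => σ (v t)) + (fun t => σ (v' t)) := by
    intro v v'; funext t; simp
  have hσsmul : ∀ (c : F) (v : Fin m → K), (fun t => σ ((c • v) t)) = c • (fun t => σ (v t)) := by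
    intro c v; funext t; simp
  let g : LinearMap.BilinForm F (Fin m → K) :=
    LinearMap.mk₂ F (fun u v => Algebra.trace F K (α * (u ⬝ᵥ (fun t => σ (v t)))))
      (by intro u u' v; simp [add_dotProduct, mul_add])
      (by intro c u v; simp [smul_dotProduct, mul_smul_comm])
      (by intro u v v'; simp only [hσadd, dotProduct_add, mul_add, map_add])
      (by intro c u v; simp only [hσsmul, dotProduct_smul, mul_smul_comm, map_smul])
  let e : (Σ _ : Fin m, Fin 2) ≃ Fin m ⊕ Fin m :=
    { toFun := fun p => if p.2 = 0 then Sum.inl p.1 else Sum.inr p.1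
      invFun := Sum.elim (fun i => ⟨i, 0⟩) (fun i => ⟨i, 1⟩)
      left_inv := by rintro ⟨i, k⟩; fin_cases k <;> simp
      right_inv := by rintro (i | i) <;> simp }
  let ρ : ↥(Cfsg.GU m K q) →* ((Fin m → K) →ₗ[F] (Fin m → K)) :=
    { toFun := fun A => (Matrix.toLin' (A.1 : Matrix (Fin m) (Fin m) K)).restrictScalars F
      map_one' := by ext; simp
      map_mul' := by intro A B; ext; simp [Matrix.toLin'_mul] }
  have hgv : ∀ u v, g u v = Algebra.trace F K (α * (u ⬝ᵥ (fun t => σ (v t)))) := fun u v => rfl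
  refine Cfsg.Agent.S2678.embed_sp 𝔟 e g ?_ ρ ?_ ?_
  · rintro ⟨i, k⟩ ⟨j, l⟩
    have h𝔟 : ∀ (i : Fin m) (k : Fin 2), 𝔟 ⟨i, k⟩ = Pi.single i (b₀ k) := fun i k => Pi.basis_apply _ _
    rw [hgv, h𝔟, h𝔟, single_dotProduct]
    have he0 : ∀ i, e ⟨i, 0⟩ = Sum.inl i := fun i => rfl
    have he1 : ∀ i, e ⟨i, 1⟩ = Sum.inr i := fun i => rfl
    have hk : k = 0 ∨ k = 1 := by fin_cases k <;> simp
    have hl : l = 0 ∨ l = 1 := by fin_cases l <;> simp
    by_cases hij : i = j
    · subst hij
      rw [Pi.single_eq_same]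
      rcases hk with rfl | rfl <;> rcases hl with rfl | rfl
      · rw [he0, hb0, t11]; simp [Matrix.J]
      · rw [he0, he1, hb0, hb1, t12]; simp [Matrix.J]
      · rw [he0, he1, hb0, hb1, t21]; simp [Matrix.J]
      · rw [he1, hb1, t22]; simp [Matrix.J]
    · rw [Pi.single_eq_of_ne hij, map_zero, mul_zero, mul_zero, map_zero]
      rcases hk with rfl | rfl <;> rcases hl with rfl | rfl <;>
        simp [he0, he1, Matrix.J, hij, Matrix.one_apply]
  · intro A B hAB
    apply Subtype.ext
    apply Units.ext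
    have h1 : (Matrix.toLin' (A.1 : Matrix (Fin m) (Fin m) K)).restrictScalars F
        = (Matrix.toLin' (B.1 : Matrix (Fin m) (Fin m) K)).restrictScalars F := hAB
    exact Matrix.toLin'.injective (LinearMap.restrictScalars_injective F h1)
  · intro A u v
    have hρ : ∀ u, ρ A u = (A.1 : Matrix (Fin m) (Fin m) K) *ᵥ u := fun u => rfl
    have hherm : ∀ u v : Fin m → K, Cfsg.hermForm m K q u v = u ⬝ᵥ (fun t => σ (v t)) := by
      intro u v; simp [Cfsg.hermForm, dotProduct, hσ]
    have h : Cfsg.hermForm m K q ((A.1 : Matrix (Fin m) (Fin m) K) *ᵥ u)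
        ((A.1 : Matrix (Fin m) (Fin m) K) *ᵥ v) = Cfsg.hermForm m K q u v := A.2 u v
    rw [hherm, hherm] at h
    rw [hgv, hgv, hρ, hρ, h]


theorem result {K F : Type*} [Field K] [Fintype K] [Field F] [Fintype F] {q : ℕ} (hK : Fintype.card K = q ^ 2) (hF : Fintype.card F = q) (m : ℕ) : ∃ φ : ↥(Cfsg.GU m K q) →* ↥(Matrix.symplecticGroup (Fin m) F), Function.Injective φ := by
  exact main hK hF m

end Cfsg.Agent.S2639
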