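import Cfsg.Statements.S2665

set_option autoImplicit false
open scoped MatrixGroups
open Cfsg

set_option maxHeartbeats 1000000
namespace Cfsg.Agent.S2665

open Polynomial

theorem exists_AS {K : Type*} [Field K] [IsAlgClosed K] (q : ℕ) (hq : 2 ≤ q) (b : K) :
    ∃ d : K, d - d ^ q = b := by
  have hdeg : (X ^ q + (C (-1 : K) * X + C b)).natDegree = q := by
    rw [natDegree_add_eq_left_of_natDegree_lt]
    · exact natDegree_X_pow q
    · rw [natDegree_X_pow]
      exact lt_of_le_of_lt natDegree_linear_le (by omega)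
  obtain ⟨d, hd⟩ := IsAlgClosed.exists_root (X ^ q + (C (-1 : K) * X + C b)) (by
    intro h
    have h1 := natDegree_eq_zero_iff_degree_le_zero.mpr h.le
    omega)
  refine ⟨d, ?_⟩
  rw [IsRoot.def, eval_add, eval_add, eval_pow, eval_X, eval_mul, eval_C, eval_X, eval_C] at hd
  linear_combination (-1 : K) * hd

/-- The polynomials whose common root gives the coefficients of a fixed vector. -/
noncomputable def Cp {K : Type*} [Field K] (q : ℕ) (a : ℕ → K) : ℕ → K[X]
  | 0 => C (a 0) * X ^ q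
  | (i + 1) => (Cp q a i) ^ q + C (a (i + 1)) * X ^ q

theorem Cp_zero {K : Type*} [Field K] (q : ℕ) (a : ℕ → K) : Cp q a 0 = C (a 0) * X ^ q := rfl

theorem Cp_succ {K : Type*} [Field K] (q : ℕ) (a : ℕ → K) (i : ℕ) :
    Cp q a (i + 1) = (Cp q a i) ^ q + C (a (i + 1)) * X ^ q := rfl

theorem exists_coeffs {K : Type*} [Field K] [IsAlgClosed K] (q : ℕ) (hq : 2 ≤ q) (a : ℕ → K)
    (m : ℕ) (ha : ∃ i ≤ m, a i ≠ 0) :
    ∃ c : ℕ → K, c m ≠ 0 ∧ c 0 = a 0 * (c m) ^ q ∧
      ∀ i < m, c (i + 1) = (c i) ^ q + a (i + 1) * (c m) ^ q := by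
  have hdvd : ∀ i, (X : K[X]) ^ q ∣ Cp q a i := by
    intro i
    induction i with
    | zero =>
      rw [Cp_zero]
      exact Dvd.intro_left _ rfl
    | succ i ih =>
      rw [Cp_succ]
      exact dvd_add (ih.trans (dvd_pow_self _ (by omega))) (Dvd.intro_left _ rfl)
  have hzero : ∀ i, (∀ j ≤ i, a j = 0) → Cp q a i = 0 := by
    intro i
    induction i with
    | zero =>
      intro h
      rw [Cp_zero, h 0 le_rfl, map_zero, zero_mul]
    | succ i ih =>
      intro h
      rw [Cp_succ, ih (fun j hj => h j (by omega)), h (i + 1) le_rfl, map_zero, zero_mul, add_zero,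
        zero_pow (by omega)]
  have hne : ∀ i, (∃ j ≤ i, a j ≠ 0) → Cp q a i ≠ 0 := by
    intro i
    induction i with
    | zero =>
      rintro ⟨j, hj, hja⟩
      obtain rfl : j = 0 := by omega
      rw [Cp_zero]
      exact mul_ne_zero (C_ne_zero.mpr hja) (pow_ne_zero _ X_ne_zero)
    | succ i ih =>
      intro h
      by_cases h' : ∃ j ≤ i, a j ≠ 0
      · have h1 := ih h'
        have h2 : q ≤ (Cp q a i).natDegree := by
          have := natDegree_le_of_dvd (hdvd i) h1
          rwa [natDegree_X_pow] at this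
        intro h0
        rw [Cp_succ] at h0
        have h3 : (Cp q a i) ^ q = -(C (a (i + 1)) * X ^ q) := eq_neg_of_add_eq_zero_left h0
        have h4 := congrArg natDegree h3
        rw [natDegree_pow, natDegree_neg] at h4
        have h5 : (C (a (i + 1)) * (X : K[X]) ^ q).natDegree ≤ q := natDegree_C_mul_X_pow_le _ _
        have h6 : q * q ≤ q * (Cp q a i).natDegree := Nat.mul_le_mul_left q h2
        nlinarith
      · push_neg at h'
        obtain ⟨j, hj, hja⟩ := h
        have hj' : j = i + 1 := by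
          by_contra hne'
          exact hja (h' j (by omega))
        subst hj'
        rw [Cp_succ, hzero i h', zero_pow (by omega), zero_add]
        exact mul_ne_zero (C_ne_zero.mpr hja) (pow_ne_zero _ X_ne_zero)
  obtain ⟨H, hH⟩ := hdvd m
  have hH0 : H ≠ 0 := by
    rintro rfl
    rw [mul_zero] at hH
    exact hne m ha hH
  have hXH : (X : K[X]) ^ (q - 1) * H ≠ 0 := mul_ne_zero (pow_ne_zero _ X_ne_zero) hH0
  have hXHdeg : ((X : K[X]) ^ (q - 1) * H).natDegree = q - 1 + H.natDegree := by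
    rw [natDegree_mul (pow_ne_zero _ X_ne_zero) hH0, natDegree_X_pow]
  have hGdeg : ((X : K[X]) ^ (q - 1) * H - 1).natDegree = q - 1 + H.natDegree := by
    rw [natDegree_sub_eq_left_of_natDegree_lt, hXHdeg]
    rw [natDegree_one, hXHdeg]
    omega
  obtain ⟨t, ht⟩ := IsAlgClosed.exists_root ((X : K[X]) ^ (q - 1) * H - 1) (by
    intro h
    have h1 := natDegree_eq_zero_iff_degree_le_zero.mpr h.le
    omega)
  rw [IsRoot.def, eval_sub, eval_mul, eval_pow, eval_X, eval_one, sub_eq_zero] at ht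
  have ht0 : t ≠ 0 := by
    rintro rfl
    rw [zero_pow (by omega), zero_mul] at ht
    exact zero_ne_one ht
  have hevm : (Cp q a m).eval t = t := by
    rw [hH, eval_mul, eval_pow, eval_X]
    have hq1 : q = (q - 1) + 1 := by omega
    calc t ^ q * H.eval t = t * (t ^ (q - 1) * H.eval t) := by
          conv_lhs => rw [hq1, pow_succ']
          rw [mul_assoc]
      _ = t := by rw [ht, mul_one]
  refine ⟨fun i => (Cp q a i).eval t, ?_, ?_, ?_⟩
  · show (Cp q a m).eval t ≠ 0
    rw [hevm]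
    exact ht0
  · show (Cp q a 0).eval t = a 0 * ((Cp q a m).eval t) ^ q
    rw [hevm, Cp_zero, eval_mul, eval_C, eval_pow, eval_X]
  · intro i _
    show (Cp q a (i + 1)).eval t = ((Cp q a i).eval t) ^ q + a (i + 1) * ((Cp q a m).eval t) ^ q
    rw [hevm, Cp_succ, eval_add, eval_pow, eval_mul, eval_C, eval_pow, eval_X]

theorem core {K V : Type*} [Field K] [IsAlgClosed K] [AddCommGroup V] [Module K V]
    [FiniteDimensional K V] (q : ℕ) (hq : 2 ≤ q) (φ : V → V)
    (hadd : ∀ v w, φ (v + w) = φ v + φ w) (hsmul : ∀ (c : K) v, φ (c • v) = c ^ q • φ v)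
    (W : Submodule K V) (hB : ∀ w₀ ∈ W, ∃ w' ∈ W, w' - φ w' = w₀)
    (hC : ∀ v, φ v ∈ W → v ∈ W) (u : V) (hu : u ∉ W) : ∃ w, φ w = w ∧ w ∉ W := by
  classical
  have hφ0 : φ 0 = 0 := by
    have := hsmul 0 0
    rw [zero_smul, zero_pow (by omega), zero_smul] at this
    exact this
  let φa : V →+ V := { toFun := φ, map_zero' := hφ0, map_add' := hadd }
  have hφa : ∀ v, φa v = φ v := fun v => rfl
  obtain ⟨it, hit0, hitS⟩ : ∃ it : ℕ → V, it 0 = u ∧ ∀ i, it (i + 1) = φ (it i) :=
    ⟨fun i => φ^[i] u, rfl, fun i => Function.iterate_succ_apply' φ i u⟩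
  obtain ⟨U, hUdef⟩ : ∃ U : ℕ → Submodule K V,
      ∀ j, U j = W ⊔ Submodule.span K (it '' (↑(Finset.range j) : Set ℕ)) := ⟨_, fun j => rfl⟩
  have hWU : ∀ j, W ≤ U j := by
    intro j
    rw [hUdef]
    exact le_sup_left
  have hitU : ∀ i j, i < j → it i ∈ U j := by
    intro i j hij
    rw [hUdef]
    exact Submodule.mem_sup_right (Submodule.subset_span
      ⟨i, Finset.mem_coe.mpr (Finset.mem_range.mpr hij), rfl⟩)
  have hUmono : ∀ j, U j ≤ U (j + 1) := by
    intro j
    rw [hUdef, hUdef]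
    apply sup_le_sup_left
    apply Submodule.span_mono
    apply Set.image_mono
    intro i hi
    rw [Finset.mem_coe, Finset.mem_range] at hi ⊢
    omega
  have hex : ∃ m, it m ∈ U m := by
    by_contra hcon
    push_neg at hcon
    have hrank : ∀ j, j ≤ Module.finrank K (U j) := by
      intro j
      induction j with
      | zero => exact Nat.zero_le _
      | succ j ih =>
        have hlt : U j < U (j + 1) := by
          refine lt_of_le_of_ne (hUmono j) ?_
          intro heq
          apply hcon j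
          rw [heq]
          exact hitU j (j + 1) (Nat.lt_succ_self j)
        have := Submodule.finrank_lt_finrank_of_lt hlt
        omega
    have h1 := hrank (Module.finrank K V + 1)
    have h2 := Submodule.finrank_le (U (Module.finrank K V + 1))
    omega
  obtain ⟨m, hm, hmin⟩ : ∃ m, it m ∈ U m ∧ ∀ j < m, it j ∉ U j :=
    ⟨Nat.find hex, Nat.find_spec hex, fun j hj => Nat.find_min hex hj⟩
  have hU0 : U 0 = W := by
    rw [hUdef, Finset.range_zero, Finset.coe_empty, Set.image_empty, Submodule.span_empty,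
      sup_bot_eq]
  have hm0 : m ≠ 0 := by
    rintro rfl
    rw [hU0, hit0] at hm
    exact hu hm
  obtain ⟨m, rfl⟩ : ∃ m', m = m' + 1 := ⟨m - 1, by omega⟩
  rw [hUdef] at hm
  obtain ⟨w₀, hw₀, z, hz, hsum⟩ := Submodule.mem_sup.mp hm
  obtain ⟨l, hl, hlz⟩ := (Finsupp.mem_span_image_iff_linearCombination K).mp hz
  rw [Finsupp.linearCombination_apply_of_mem_supported K hl] at hlz
  obtain ⟨a, ha⟩ : ∃ a : ℕ → K, ∀ i, a i = l i := ⟨fun i => l i, fun i => rfl⟩
  have hrep : it (m + 1) = w₀ + ∑ i ∈ Finset.range (m + 1), a i • it i := by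
    rw [← hsum, ← hlz]
    congr 1
    apply Finset.sum_congr rfl
    intro i _
    rw [ha]
  have hane : ∃ i ≤ m, a i ≠ 0 := by
    by_contra hcon
    push_neg at hcon
    have hz0 : ∑ i ∈ Finset.range (m + 1), a i • it i = 0 := by
      apply Finset.sum_eq_zero
      intro i hi
      rw [hcon i (by rw [Finset.mem_range] at hi; omega), zero_smul]
    rw [hz0, add_zero, hitS] at hrep
    apply hmin m (Nat.lt_succ_self m)
    apply hWU
    apply hC
    rw [hrep]
    exact hw₀
  obtain ⟨c, hcm, hc0, hcS⟩ := exists_coeffs q hq a m hane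
  obtain ⟨s, hs⟩ : ∃ s : V, s = ∑ i ∈ Finset.range (m + 1), c i • it i := ⟨_, rfl⟩
  have e1 : φ s = ∑ i ∈ Finset.range (m + 1), (c i) ^ q • it (i + 1) := by
    rw [hs, ← hφa, map_sum]
    apply Finset.sum_congr rfl
    intro i _
    rw [hφa, hsmul, hitS]
  have e2 : s = ∑ i ∈ Finset.range m, ((c i) ^ q • it (i + 1) +
      ((c m) ^ q * a (i + 1)) • it (i + 1)) + ((c m) ^ q * a 0) • u := by
    rw [hs, Finset.sum_range_succ', hit0, hc0]
    congr 1
    · apply Finset.sum_congr rfl
      intro i hi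
      rw [hcS i (Finset.mem_range.mp hi), add_smul, mul_comm (a (i + 1))]
    · rw [mul_comm]
  have e3 : φ s = ∑ i ∈ Finset.range m, (c i) ^ q • it (i + 1) + ((c m) ^ q • w₀ +
      (∑ i ∈ Finset.range m, ((c m) ^ q * a (i + 1)) • it (i + 1) +
        ((c m) ^ q * a 0) • u)) := by
    rw [e1, Finset.sum_range_succ, hrep, smul_add, Finset.smul_sum,
      Finset.sum_range_succ' (fun i => (c m) ^ q • a i • it i), hit0]
    simp only [smul_smul]
  have hφs : φ s = (c m) ^ q • w₀ + s := by
    rw [e3]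
    conv_rhs => rw [e2]
    rw [Finset.sum_add_distrib]
    abel
  obtain ⟨w', hw', hw'eq⟩ := hB ((c m) ^ q • w₀) (W.smul_mem _ hw₀)
  refine ⟨s + w', ?_, ?_⟩
  · have h1 : φ w' = w' - (c m) ^ q • w₀ := by
      rw [← hw'eq]
      abel
    rw [hadd, hφs, h1]
    abel
  · intro hmem
    have hsW : s ∈ W := by
      have := W.sub_mem hmem hw'
      rwa [add_sub_cancel_right] at this
    apply hmin m (Nat.lt_succ_self m)
    have h1 : c m • it m = s - ∑ i ∈ Finset.range m, c i • it i := by
      rw [hs, Finset.sum_range_succ]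
      abel
    have h2 : c m • it m ∈ U m := by
      rw [h1]
      apply (U m).sub_mem (hWU m hsW)
      apply (U m).sum_mem
      intro i hi
      exact (U m).smul_mem _ (hitU i m (Finset.mem_range.mp hi))
    have h3 := (U m).smul_mem (c m)⁻¹ h2
    rwa [smul_smul, inv_mul_cancel₀ hcm, one_smul] at h3

theorem exists_fixed_not_mem {K V : Type*} [Field K] [IsAlgClosed K] [AddCommGroup V]
    [Module K V] [FiniteDimensional K V] (q : ℕ) (hq : 2 ≤ q) (φ : V → V)
    (hadd : ∀ v w, φ (v + w) = φ v + φ w) (hsmul : ∀ (c : K) v, φ (c • v) = c ^ q • φ v)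
    (hinj : Function.Injective φ) (S : Set V) (hS : ∀ v ∈ S, φ v = v)
    (hne : Submodule.span K S ≠ ⊤) : ∃ w, φ w = w ∧ w ∉ Submodule.span K S := by
  have hφ0 : φ 0 = 0 := by
    have := hsmul 0 0
    rw [zero_smul, zero_pow (by omega), zero_smul] at this
    exact this
  have hB : ∀ w₀ ∈ Submodule.span K S, ∃ w' ∈ Submodule.span K S, w' - φ w' = w₀ := by
    intro w₀ hw₀
    have key : ∀ c : K, ∃ w' ∈ Submodule.span K S, w' - φ w' = c • w₀ := by
      induction hw₀ using Submodule.span_induction with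
      | mem v hv =>
        intro c
        obtain ⟨d, hd⟩ := exists_AS q hq c
        refine ⟨d • v, Submodule.smul_mem _ _ (Submodule.subset_span hv), ?_⟩
        rw [hsmul, hS v hv, ← sub_smul, hd]
      | zero =>
        intro c
        exact ⟨0, Submodule.zero_mem _, by rw [hφ0, sub_zero, smul_zero]⟩
      | add x y _ _ hx hy =>
        intro c
        obtain ⟨x', hx', hxe⟩ := hx c
        obtain ⟨y', hy', hye⟩ := hy c
        refine ⟨x' + y', Submodule.add_mem _ hx' hy', ?_⟩
        rw [hadd, smul_add, ← hxe, ← hye]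
        abel
      | smul c' x _ hx =>
        intro c
        obtain ⟨x', hx', hxe⟩ := hx (c * c')
        exact ⟨x', hx', by rw [hxe, mul_smul]⟩
    obtain ⟨w', hw', he⟩ := key 1
    exact ⟨w', hw', by rw [he, one_smul]⟩
  have hC : ∀ v, φ v ∈ Submodule.span K S → v ∈ Submodule.span K S := by
    intro v hv
    have key : ∀ w ∈ Submodule.span K S, ∃ w' ∈ Submodule.span K S, φ w' = w := by
      intro w hw
      induction hw using Submodule.span_induction with
      | mem x hx => exact ⟨x, Submodule.subset_span hx, hS x hx⟩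
      | zero => exact ⟨0, Submodule.zero_mem _, hφ0⟩
      | add x y _ _ hx hy =>
        obtain ⟨x', hx', hxe⟩ := hx
        obtain ⟨y', hy', hye⟩ := hy
        exact ⟨x' + y', Submodule.add_mem _ hx' hy', by rw [hadd, hxe, hye]⟩
      | smul c x _ hx =>
        obtain ⟨x', hx', hxe⟩ := hx
        obtain ⟨d, hd⟩ := IsAlgClosed.exists_pow_nat_eq c (by omega : 0 < q)
        exact ⟨d • x', Submodule.smul_mem _ _ hx', by rw [hsmul, hd, hxe]⟩
    obtain ⟨w', hw', he⟩ := key (φ v) hv
    rw [← hinj he]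
    exact hw'
  obtain ⟨u, hu⟩ : ∃ u, u ∉ Submodule.span K S := by
    by_contra hcon
    push_neg at hcon
    exact hne (Submodule.eq_top_iff'.mpr hcon)
  exact core q hq φ hadd hsmul _ hB hC u hu

theorem exists_fixed_family {K V : Type*} [Field K] [IsAlgClosed K] [AddCommGroup V]
    [Module K V] [FiniteDimensional K V] (q : ℕ) (hq : 2 ≤ q) (φ : V → V)
    (hadd : ∀ v w, φ (v + w) = φ v + φ w) (hsmul : ∀ (c : K) v, φ (c • v) = c ^ q • φ v)
    (hinj : Function.Injective φ) :
    ∀ k ≤ Module.finrank K V, ∃ v : Fin k → V, LinearIndependent K v ∧ ∀ i, φ (v i) = v i := by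
  intro k
  induction k with
  | zero =>
    intro _
    exact ⟨Fin.elim0, linearIndependent_empty_type, fun i => i.elim0⟩
  | succ k ih =>
    intro hk
    obtain ⟨v, hv, hfix⟩ := ih (by omega)
    have hne : Submodule.span K (Set.range v) ≠ ⊤ := by
      intro h
      have h1 := finrank_span_eq_card hv
      rw [h, finrank_top, Fintype.card_fin] at h1
      omega
    obtain ⟨w, hw, hwn⟩ := exists_fixed_not_mem q hq φ hadd hsmul hinj (Set.range v)
      (by rintro _ ⟨i, rfl⟩; exact hfix i) hne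
    refine ⟨Fin.snoc v w, linearIndependent_finSnoc.mpr ⟨hv, hwn⟩, ?_⟩
    intro i
    refine Fin.lastCases ?_ (fun j => ?_) i
    · rw [Fin.snoc_last]
      exact hw
    · rw [Fin.snoc_castSucc]
      exact hfix j

theorem result {K : Type*} [Field K] [IsAlgClosed K] (p : ℕ) [Fact p.Prime] [CharP K p]
    (f : ℕ) (hf : 1 ≤ f) (n : ℕ) (g : GL (Fin n) K) :
    ∃ x : GL (Fin n) K, g = x * (Matrix.GeneralLinearGroup.map (iterateFrobenius K p f) x)⁻¹ := by
  classical
  obtain ⟨q, hq⟩ : ∃ q, q = p ^ f := ⟨_, rfl⟩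
  have hq2 : 2 ≤ q := by
    have hp := (Fact.out : p.Prime).two_le
    rw [hq]
    calc 2 ≤ p := hp
      _ = p ^ 1 := (pow_one p).symm
      _ ≤ p ^ f := Nat.pow_le_pow_right (by omega) hf
  obtain ⟨σ, hσ⟩ : ∃ σ : K →+* K, σ = iterateFrobenius K p f := ⟨_, rfl⟩
  have hσq : ∀ c : K, σ c = c ^ q := by
    intro c
    rw [hσ, hq, iterateFrobenius_def]
  obtain ⟨φ, hφ⟩ : ∃ φ : (Fin n → K) → (Fin n → K), ∀ v, φ v =
      (g : Matrix (Fin n) (Fin n) K).mulVec (fun i => σ (v i)) := ⟨_, fun v => rfl⟩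
  have hadd : ∀ v w, φ (v + w) = φ v + φ w := by
    intro v w
    rw [hφ, hφ, hφ, ← Matrix.mulVec_add]
    congr 1
    funext i
    exact map_add σ _ _
  have hsmul : ∀ (c : K) v, φ (c • v) = c ^ q • φ v := by
    intro c v
    rw [hφ, hφ, ← Matrix.mulVec_smul]
    congr 1
    funext i
    show σ (c * v i) = c ^ q * σ (v i)
    rw [map_mul, hσq]
  have hinj : Function.Injective φ := by
    intro v w h
    rw [hφ, hφ] at h
    have h1 : (fun i => σ (v i)) = fun i => σ (w i) := by
      have h2 := congrArg ((g⁻¹ : GL (Fin n) K) : Matrix (Fin n) (Fin n) K).mulVec h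
      rw [Matrix.mulVec_mulVec, Matrix.mulVec_mulVec, ← Units.val_mul, inv_mul_cancel,
        Units.val_one, Matrix.one_mulVec, Matrix.one_mulVec] at h2
      exact h2
    funext i
    exact σ.injective (congrFun h1 i)
  obtain ⟨v, hv, hfix⟩ := exists_fixed_family q hq2 φ hadd hsmul hinj n
    (by rw [Module.finrank_fin_fun])
  obtain ⟨X, hX⟩ : ∃ X : Matrix (Fin n) (Fin n) K, ∀ i j, X i j = v j i :=
    ⟨Matrix.of (fun i j => v j i), fun i j => rfl⟩
  have hXcol : X.col = v := by
    funext j i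
    exact hX i j
  have hXu : IsUnit X := by
    rw [← Matrix.linearIndependent_cols_iff_isUnit, hXcol]
    exact hv
  obtain ⟨x, hx⟩ := hXu
  refine ⟨x, ?_⟩
  rw [eq_mul_inv_iff_mul_eq]
  apply Units.ext
  rw [Units.val_mul]
  ext i j
  have h1 := congrFun (hfix j) i
  rw [hφ] at h1
  rw [Matrix.mul_apply, hx, hX, ← h1]
  show ∑ k, (g : Matrix (Fin n) (Fin n) K) i k *
      (Matrix.GeneralLinearGroup.map (iterateFrobenius K p f) x : Matrix (Fin n) (Fin n) K) k j =
    ∑ k, (g : Matrix (Fin n) (Fin n) K) i k * σ (v j k)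
  apply Finset.sum_congr rfl
  intro k _
  rw [Matrix.GeneralLinearGroup.map_apply, hx, hX, hσ]

end Cfsg.Agent.S2665
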