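import Cfsg.Statements.S2666

set_option autoImplicit false
open Cfsg

namespace Cfsg.Agent.S2666

theorem pow_succ_apply {X : Type*} [Group X] (σ : MulAut X) (n : ℕ) (a : X) :
    (σ ^ (n+1)) a = (σ ^ n) (σ a) := by
  rw [pow_succ]; rfl

theorem pow_succ_apply' {X : Type*} [Group X] (σ : MulAut X) (n : ℕ) (a : X) :
    (σ ^ (n+1)) a = σ ((σ ^ n) a) := by
  rw [pow_succ']; rfl

theorem pow_comm_apply {X : Type*} [Group X] (σ : MulAut X) (n : ℕ) (a : X) :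
    (σ ^ n) (σ a) = σ ((σ ^ n) a) := by
  rw [← pow_succ_apply, pow_succ_apply']

theorem telescope {X : Type*} [Group X] (σ : MulAut X) (a : X) (d : ℕ) :
    ((List.range d).map (fun i => (σ ^ i) (a * (σ a)⁻¹))).prod = a * ((σ ^ d) a)⁻¹ := by
  induction d with
  | zero => simp
  | succ n ih =>
    rw [List.range_succ, List.map_append, List.prod_append, ih]
    simp [pow_succ_apply, map_mul, map_inv]

theorem fixX {X : Type*} [Group X] (σ : MulAut X) (e : ℕ) (a : X)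
    (hg : (σ ^ e) (a * (σ a)⁻¹) = a * (σ a)⁻¹) :
    σ (((σ ^ e) a)⁻¹ * a) = ((σ ^ e) a)⁻¹ * a := by
  rw [map_mul, map_inv] at hg ⊢
  rw [pow_comm_apply] at hg
  have : (σ ((σ ^ e) a))⁻¹ = ((σ ^ e) a)⁻¹ * (a * (σ a)⁻¹) := by
    rw [← hg]; group
  rw [this]; group

theorem fix_pow {X : Type*} [Group X] (σ : MulAut X) (x : X) (hx : σ x = x) (k : ℕ) :
    (σ ^ k) x = x := by
  induction k with
  | zero => simp
  | succ n ih => rw [pow_succ_apply, hx, ih]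

theorem pow_e_k {X : Type*} [Group X] (τ : MulAut X) (a x : X) (hx : τ x = x)
    (h : τ a = a * x⁻¹) (k : ℕ) : (τ ^ k) a = a * (x ^ k)⁻¹ := by
  induction k with
  | zero => simp
  | succ n ih =>
    rw [pow_succ_apply, h, map_mul, map_inv, ih, fix_pow τ x hx, pow_succ]
    group

theorem result {X : Type*} [Group X] (σ : MulAut X) (e : ℕ) (he : 1 ≤ e)
    (hL : ∀ g : X, ∃ a : X, g = a * (σ a)⁻¹) (hLe : ∀ g : X, ∃ a : X, g = a * ((σ ^ e) a)⁻¹) :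
    (∀ g ∈ (MulEquiv.toMonoidHom (σ ^ e)).eqLocus (MonoidHom.id X), ∀ a : X, g = a * (σ a)⁻¹ →
        ((σ ^ e) a)⁻¹ * a ∈ (MulEquiv.toMonoidHom σ).eqLocus (MonoidHom.id X) ∧
          a⁻¹ * ((List.range e).map (fun i => (σ ^ i) g)).prod * a = ((σ ^ e) a)⁻¹ * a) ∧
    (∀ g ∈ (MulEquiv.toMonoidHom (σ ^ e)).eqLocus (MonoidHom.id X), ∀ g' ∈ (MulEquiv.toMonoidHom (σ ^ e)).eqLocus (MonoidHom.id X), ∀ a b : X,
        g = a * (σ a)⁻¹ → g' = b * (σ b)⁻¹ →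
          ((∃ k ∈ (MulEquiv.toMonoidHom (σ ^ e)).eqLocus (MonoidHom.id X), g' = k * g * (σ k)⁻¹) ↔
            (∃ h ∈ (MulEquiv.toMonoidHom σ).eqLocus (MonoidHom.id X), ((σ ^ e) b)⁻¹ * b = h * (((σ ^ e) a)⁻¹ * a) * h⁻¹))) ∧
    (∀ x ∈ (MulEquiv.toMonoidHom σ).eqLocus (MonoidHom.id X), ∃ g ∈ (MulEquiv.toMonoidHom (σ ^ e)).eqLocus (MonoidHom.id X), ∃ a : X,
        g = a * (σ a)⁻¹ ∧ ((σ ^ e) a)⁻¹ * a = x) := by
  refine ⟨?_, ?_, ?_⟩
  · intro g hg a ha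
    have hg' : (σ ^ e) g = g := hg
    subst ha
    refine ⟨fixX σ e a hg', ?_⟩
    rw [telescope]; group
  · intro g hg g' hg' a b ha hb
    have hge : (σ ^ e) g = g := hg
    have hge' : (σ ^ e) g' = g' := hg'
    subst ha
    subst hb
    have hxa := fixX σ e a hge
    have hxb := fixX σ e b hge'
    constructor
    · rintro ⟨k, hk, hkg⟩
      have hk' : (σ ^ e) k = k := hk
      have hsk : σ k = σ b * b⁻¹ * k * a * (σ a)⁻¹ := by
        have h0 := eq_mul_inv_iff_mul_eq.mp hkg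
        have : σ k = (b * (σ b)⁻¹)⁻¹ * (b * (σ b)⁻¹ * σ k) := by group
        rw [this, h0]; group
      have hh : σ (b⁻¹ * k * a) = b⁻¹ * k * a := by
        rw [map_mul, map_mul, map_inv, hsk]; group
      refine ⟨b⁻¹ * k * a, hh, ?_⟩
      have hhe : (σ ^ e) (b⁻¹ * k * a) = b⁻¹ * k * a := fix_pow σ _ hh e
      rw [map_mul, map_mul, map_inv, hk'] at hhe
      have : ((σ ^ e) b)⁻¹ = b⁻¹ * k * a * ((σ ^ e) a)⁻¹ * k⁻¹ := by
        rw [← hhe]; group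
      rw [this]; group
    · rintro ⟨h, hh, hxx⟩
      have hh' : σ h = h := hh
      have hhe : (σ ^ e) h = h := fix_pow σ _ hh' e
      refine ⟨b * h * a⁻¹, ?_, ?_⟩
      · show (σ ^ e) (b * h * a⁻¹) = b * h * a⁻¹
        rw [map_mul, map_mul, map_inv, hhe]
        have : (σ ^ e) b = b * h * a⁻¹ * (σ ^ e) a * h⁻¹ := by
          have h1 : ((σ ^ e) b)⁻¹ = h * (((σ ^ e) a)⁻¹ * a) * h⁻¹ * b⁻¹ := by
            rw [← hxx]; group
          rw [← inv_inv ((σ ^ e) b), h1]; group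
        rw [this]; group
      · rw [map_mul, map_mul, map_inv, hh']; group
  · intro x hx
    have hx' : σ x = x := hx
    obtain ⟨c, hc⟩ := hLe x⁻¹
    have hxc : ((σ ^ e) c⁻¹)⁻¹ * c⁻¹ = x := by
      rw [map_inv, ← inv_inv x, hc]; group
    have key : ∀ a : X, ((σ ^ e) a)⁻¹ * a = x → (σ ^ e) (a * (σ a)⁻¹) = a * (σ a)⁻¹ := by
      intro a ha
      have hae : (σ ^ e) a = a * x⁻¹ := by rw [← ha]; group
      rw [map_mul, map_inv, pow_comm_apply, hae, map_mul, map_inv, hx']; group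
    exact ⟨c⁻¹ * (σ c⁻¹)⁻¹, key _ hxc, c⁻¹, rfl, hxc⟩

end Cfsg.Agent.S2666
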