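import Cfsg.Statements.S2667

set_option autoImplicit false
open Cfsg

namespace Cfsg.Agent.S2667

theorem pow_succ_apply {X : Type*} [Group X] (σ : MulAut X) (n : ℕ) (a : X) :
    (σ ^ (n+1)) a = (σ ^ n) (σ a) := by
  rw [pow_succ]; rfl

theorem pow_succ_apply' {X : Type*} [Group X] (σ : MulAut X) (n : ℕ) (a : X) :
    (σ ^ (n+1)) a = σ ((σ ^ n) a) := by
  rw [pow_succ']; rfl

theorem pow_comm_apply {X : Type*} [Group X] (σ : MulAut X) (n : ℕ) (a : X) :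
    (σ ^ n) (σ a) = σ ((σ ^ n) a) := by
  rw [← pow_succ_apply, pow_succ_apply']

theorem telescope {X : Type*} [Group X] (σ : MulAut X) (a : X) (d : ℕ) :
    ((List.range d).map (fun i => (σ ^ i) (a * (σ a)⁻¹))).prod = a * ((σ ^ d) a)⁻¹ := by
  induction d with
  | zero => simp
  | succ n ih =>
    rw [List.range_succ, List.map_append, List.prod_append, ih]
    simp [pow_succ_apply, map_mul, map_inv]

theorem fixX {X : Type*} [Group X] (σ : MulAut X) (e : ℕ) (a : X)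
    (hg : (σ ^ e) (a * (σ a)⁻¹) = a * (σ a)⁻¹) :
    σ (((σ ^ e) a)⁻¹ * a) = ((σ ^ e) a)⁻¹ * a := by
  rw [map_mul, map_inv] at hg ⊢
  rw [pow_comm_apply] at hg
  have : (σ ((σ ^ e) a))⁻¹ = ((σ ^ e) a)⁻¹ * (a * (σ a)⁻¹) := by
    rw [← hg]; group
  rw [this]; group

theorem fix_pow {X : Type*} [Group X] (σ : MulAut X) (x : X) (hx : σ x = x) (k : ℕ) :
    (σ ^ k) x = x := by
  induction k with
  | zero => simp
  | succ n ih => rw [pow_succ_apply, hx, ih]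

theorem pow_e_k {X : Type*} [Group X] (τ : MulAut X) (a x : X) (hx : τ x = x)
    (h : τ a = a * x⁻¹) (k : ℕ) : (τ ^ k) a = a * (x ^ k)⁻¹ := by
  induction k with
  | zero => simp
  | succ n ih =>
    rw [pow_succ_apply, h, map_mul, map_inv, ih, fix_pow τ x hx, pow_succ]
    group

theorem result {X : Type*} [Group X] (σ : MulAut X) (e : ℕ) (he : 1 ≤ e)
    (g : X) (hg : g ∈ (MulEquiv.toMonoidHom (σ ^ e)).eqLocus (MonoidHom.id X)) (a : X) (ha : g = a * (σ a)⁻¹) (k : X) :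
    (k ∈ (MulEquiv.toMonoidHom (σ ^ e)).eqLocus (MonoidHom.id X) ∧ k * g * (σ k)⁻¹ = g) ↔
      (a⁻¹ * k * a ∈ (MulEquiv.toMonoidHom σ).eqLocus (MonoidHom.id X) ∧
        (a⁻¹ * k * a) * (((σ ^ e) a)⁻¹ * a) = (((σ ^ e) a)⁻¹ * a) * (a⁻¹ * k * a)) := by
  have hg' : (σ ^ e) g = g := hg
  subst ha
  have hx := fixX σ e a hg'
  constructor
  · rintro ⟨hk, hkg⟩
    have hk' : (σ ^ e) k = k := hk
    have hsk : σ k = (a * (σ a)⁻¹)⁻¹ * k * (a * (σ a)⁻¹) := by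
      have h0 := mul_inv_eq_iff_eq_mul.mp hkg
      rw [mul_assoc, h0]; group
    have hh : σ (a⁻¹ * k * a) = a⁻¹ * k * a := by
      rw [map_mul, map_mul, map_inv, hsk]; group
    refine ⟨hh, ?_⟩
    have hhe : (σ ^ e) (a⁻¹ * k * a) = a⁻¹ * k * a := fix_pow σ _ hh e
    rw [map_mul, map_mul, map_inv, hk'] at hhe
    have : k = (σ ^ e) a * (a⁻¹ * k * a) * ((σ ^ e) a)⁻¹ := by
      rw [← hhe]; group
    calc a⁻¹ * k * a * (((σ ^ e) a)⁻¹ * a) = (a⁻¹ * k * a) * ((σ ^ e) a)⁻¹ * a := by group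
      _ = ((σ ^ e) a)⁻¹ * ((σ ^ e) a * (a⁻¹ * k * a) * ((σ ^ e) a)⁻¹) * a := by group
      _ = ((σ ^ e) a)⁻¹ * k * a := by rw [← this]
      _ = ((σ ^ e) a)⁻¹ * a * (a⁻¹ * k * a) := by group
  · rintro ⟨hh, hcomm⟩
    have hh' : σ (a⁻¹ * k * a) = a⁻¹ * k * a := hh
    have hhe : (σ ^ e) (a⁻¹ * k * a) = a⁻¹ * k * a := fix_pow σ _ hh' e
    constructor
    · show (σ ^ e) k = k
      rw [map_mul, map_mul, map_inv] at hhe
      have h1 : (σ ^ e) k = (σ ^ e) a * (a⁻¹ * k * a) * ((σ ^ e) a)⁻¹ := by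
        rw [← hhe]; group
      have h2 : a⁻¹ * k * a = ((σ ^ e) a)⁻¹ * k * (σ ^ e) a := by
        have : a⁻¹ * k * a = ((σ ^ e) a)⁻¹ * a * (a⁻¹ * k * a) * (((σ ^ e) a)⁻¹ * a)⁻¹ := by
          rw [← hcomm]; group
        rw [this]; group
      rw [h1, h2]; group
    · rw [map_mul, map_mul, map_inv] at hh'
      have h1 : σ k = σ a * (a⁻¹ * k * a) * (σ a)⁻¹ := by
        rw [← hh']; group
      rw [h1]; group

end Cfsg.Agent.S2667
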