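import Cfsg.Statements.S2668

set_option autoImplicit false
open Cfsg

namespace Cfsg.Agent.S2668

theorem pow_succ_apply {X : Type*} [Group X] (σ : MulAut X) (n : ℕ) (a : X) :
    (σ ^ (n+1)) a = (σ ^ n) (σ a) := by
  rw [pow_succ]; rfl

theorem pow_succ_apply' {X : Type*} [Group X] (σ : MulAut X) (n : ℕ) (a : X) :
    (σ ^ (n+1)) a = σ ((σ ^ n) a) := by
  rw [pow_succ']; rfl

theorem pow_comm_apply {X : Type*} [Group X] (σ : MulAut X) (n : ℕ) (a : X) :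
    (σ ^ n) (σ a) = σ ((σ ^ n) a) := by
  rw [← pow_succ_apply, pow_succ_apply']

theorem telescope {X : Type*} [Group X] (σ : MulAut X) (a : X) (d : ℕ) :
    ((List.range d).map (fun i => (σ ^ i) (a * (σ a)⁻¹))).prod = a * ((σ ^ d) a)⁻¹ := by
  induction d with
  | zero => simp
  | succ n ih =>
    rw [List.range_succ, List.map_append, List.prod_append, ih]
    simp [pow_succ_apply, map_mul, map_inv]

theorem fixX {X : Type*} [Group X] (σ : MulAut X) (e : ℕ) (a : X)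
    (hg : (σ ^ e) (a * (σ a)⁻¹) = a * (σ a)⁻¹) :
    σ (((σ ^ e) a)⁻¹ * a) = ((σ ^ e) a)⁻¹ * a := by
  rw [map_mul, map_inv] at hg ⊢
  rw [pow_comm_apply] at hg
  have : (σ ((σ ^ e) a))⁻¹ = ((σ ^ e) a)⁻¹ * (a * (σ a)⁻¹) := by
    rw [← hg]; group
  rw [this]; group

theorem fix_pow {X : Type*} [Group X] (σ : MulAut X) (x : X) (hx : σ x = x) (k : ℕ) :
    (σ ^ k) x = x := by
  induction k with
  | zero => simp
  | succ n ih => rw [pow_succ_apply, hx, ih]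

theorem pow_e_k {X : Type*} [Group X] (τ : MulAut X) (a x : X) (hx : τ x = x)
    (h : τ a = a * x⁻¹) (k : ℕ) : (τ ^ k) a = a * (x ^ k)⁻¹ := by
  induction k with
  | zero => simp
  | succ n ih =>
    rw [pow_succ_apply, h, map_mul, map_inv, ih, fix_pow τ x hx, pow_succ]
    group

theorem result {X : Type*} [Group X] (σ : MulAut X) (e d : ℕ) (he : 1 ≤ e) (hd : 1 ≤ d)
    (g : X) (hg : g ∈ (MulEquiv.toMonoidHom (σ ^ e)).eqLocus (MonoidHom.id X)) (a : X) (ha : g = a * (σ a)⁻¹) :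
    ((List.range d).map (fun i => (σ ^ i) g)).prod = a * ((σ ^ d) a)⁻¹ ∧
      ((List.range d).map (fun i => (σ ^ i) g)).prod ∈ (MulEquiv.toMonoidHom ((σ ^ d) ^ e)).eqLocus (MonoidHom.id X) ∧
      (((σ ^ d) ^ e) a)⁻¹ * a = (((σ ^ e) a)⁻¹ * a) ^ d := by
  have hg' : (σ ^ e) g = g := hg
  subst ha
  have h1 := telescope σ a d
  have hx := fixX σ e a hg'
  set x := ((σ ^ e) a)⁻¹ * a with hxdef
  have hxe : (σ ^ e) x = x := fix_pow σ x hx e
  have hae : (σ ^ e) a = a * x⁻¹ := by rw [hxdef]; group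
  have hk := pow_e_k (σ ^ e) a x hxe hae d
  have hde : (σ ^ d) ^ e = (σ ^ e) ^ d := by rw [← pow_mul, ← pow_mul, mul_comm]
  refine ⟨h1, ?_, ?_⟩
  · show ((σ ^ d) ^ e) _ = _
    rw [h1, hde, map_mul, map_inv, hk]
    have : ((σ ^ e) ^ d) ((σ ^ d) a) = (σ ^ d) (((σ ^ e) ^ d) a) := by
      rw [← pow_mul, ← MulAut.mul_apply, ← MulAut.mul_apply, ← pow_add, ← pow_add, add_comm]
    have hxd : (σ ^ d) (x ^ d) = x ^ d := fix_pow σ (x ^ d) (by rw [map_pow, hx]) d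
    rw [this, hk, map_mul, map_inv, hxd]
    show _ = a * ((σ ^ d) a)⁻¹
    group
  · rw [hde, hk]; group

end Cfsg.Agent.S2668
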