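import Cfsg.Statements.S2669

set_option autoImplicit false
open Cfsg

namespace Cfsg.Agent.S2669

theorem pow_succ_apply {X : Type*} [Group X] (σ : MulAut X) (n : ℕ) (a : X) :
    (σ ^ (n+1)) a = (σ ^ n) (σ a) := by
  rw [pow_succ]; rfl

theorem pow_succ_apply' {X : Type*} [Group X] (σ : MulAut X) (n : ℕ) (a : X) :
    (σ ^ (n+1)) a = σ ((σ ^ n) a) := by
  rw [pow_succ']; rfl

theorem pow_comm_apply {X : Type*} [Group X] (σ : MulAut X) (n : ℕ) (a : X) :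
    (σ ^ n) (σ a) = σ ((σ ^ n) a) := by
  rw [← pow_succ_apply, pow_succ_apply']

theorem telescope {X : Type*} [Group X] (σ : MulAut X) (a : X) (d : ℕ) :
    ((List.range d).map (fun i => (σ ^ i) (a * (σ a)⁻¹))).prod = a * ((σ ^ d) a)⁻¹ := by
  induction d with
  | zero => simp
  | succ n ih =>
    rw [List.range_succ, List.map_append, List.prod_append, ih]
    simp [pow_succ_apply, map_mul, map_inv]

theorem fixX {X : Type*} [Group X] (σ : MulAut X) (e : ℕ) (a : X)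
    (hg : (σ ^ e) (a * (σ a)⁻¹) = a * (σ a)⁻¹) :
    σ (((σ ^ e) a)⁻¹ * a) = ((σ ^ e) a)⁻¹ * a := by
  rw [map_mul, map_inv] at hg ⊢
  rw [pow_comm_apply] at hg
  have : (σ ((σ ^ e) a))⁻¹ = ((σ ^ e) a)⁻¹ * (a * (σ a)⁻¹) := by
    rw [← hg]; group
  rw [this]; group

theorem fix_pow {X : Type*} [Group X] (σ : MulAut X) (x : X) (hx : σ x = x) (k : ℕ) :
    (σ ^ k) x = x := by
  induction k with
  | zero => simp
  | succ n ih => rw [pow_succ_apply, hx, ih]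

theorem pow_e_k {X : Type*} [Group X] (τ : MulAut X) (a x : X) (hx : τ x = x)
    (h : τ a = a * x⁻¹) (k : ℕ) : (τ ^ k) a = a * (x ^ k)⁻¹ := by
  induction k with
  | zero => simp
  | succ n ih =>
    rw [pow_succ_apply, h, map_mul, map_inv, ih, fix_pow τ x hx, pow_succ]
    group

theorem card_fiber {X : Type*} [Group X] (G H Y : Subgroup X) (a : X)
    (P : G → Prop) (hP : ∀ k : G, P k ↔ ∃ h : H, (k : X)⁻¹ * a * (h : X) ∈ Y) :
    Nat.card {p : G × H // (p.1 : X)⁻¹ * a * (p.2 : X) ∈ Y} =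
      Nat.card {k : G // P k} * Nat.card ↥(Y ⊓ H) := by
  classical
  rw [← Nat.card_prod]
  apply Nat.card_congr
  have hch : ∀ k : {k : G // P k}, ∃ h : H, ((k : G) : X)⁻¹ * a * (h : X) ∈ Y := fun k => (hP k.1).mp k.2
  choose h0 hh0 using hch
  refine
    { toFun := fun p => (⟨p.1.1, (hP p.1.1).mpr ⟨p.1.2, p.2⟩⟩,
        ⟨((h0 ⟨p.1.1, (hP p.1.1).mpr ⟨p.1.2, p.2⟩⟩ : H) : X)⁻¹ * (p.1.2 : X), ?_⟩)
      invFun := fun q => ⟨(q.1.1, ⟨((h0 q.1 : H) : X) * (q.2 : X), ?_⟩), ?_⟩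
      left_inv := ?_
      right_inv := ?_ }
  · refine Subgroup.mem_inf.mpr ⟨?_, ?_⟩
    · have h1 := hh0 ⟨p.1.1, (hP p.1.1).mpr ⟨p.1.2, p.2⟩⟩
      have h2 := p.2
      have := Y.mul_mem (Y.inv_mem h1) h2
      convert this using 1
      group
    · exact H.mul_mem (H.inv_mem (h0 _).2) p.1.2.2
  · exact H.mul_mem (h0 q.1).2 (Subgroup.mem_inf.mp q.2.2).2
  · have h1 := hh0 q.1
    have := Y.mul_mem h1 (Subgroup.mem_inf.mp q.2.2).1
    convert this using 1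
    simp only [mul_assoc]
  · rintro ⟨⟨k, h⟩, hp⟩
    apply Subtype.ext
    apply Prod.ext
    · rfl
    · apply Subtype.ext
      simp
  · rintro ⟨⟨k, hk⟩, ⟨z, hz⟩⟩
    apply Prod.ext
    · rfl
    · apply Subtype.ext
      simp

theorem card_fiber' {X : Type*} [Group X] (G H Y : Subgroup X) (a : X)
    (P : H → Prop) (hP : ∀ h : H, P h ↔ ∃ k : G, (k : X)⁻¹ * a * (h : X) ∈ Y) :
    Nat.card {p : G × H // (p.1 : X)⁻¹ * a * (p.2 : X) ∈ Y} =
      Nat.card {h : H // P h} * Nat.card ↥(Y ⊓ G) := by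
  classical
  rw [← Nat.card_prod]
  apply Nat.card_congr
  have hch : ∀ h : {h : H // P h}, ∃ k : G, (k : X)⁻¹ * a * ((h : H) : X) ∈ Y := fun h => (hP h.1).mp h.2
  choose k0 hk0 using hch
  refine
    { toFun := fun p => (⟨p.1.2, (hP p.1.2).mpr ⟨p.1.1, p.2⟩⟩,
        ⟨(p.1.1 : X)⁻¹ * ((k0 ⟨p.1.2, (hP p.1.2).mpr ⟨p.1.1, p.2⟩⟩ : G) : X), ?_⟩)
      invFun := fun q => ⟨(⟨((k0 q.1 : G) : X) * (q.2 : X)⁻¹, ?_⟩, q.1.1), ?_⟩
      left_inv := ?_
      right_inv := ?_ }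
  · refine Subgroup.mem_inf.mpr ⟨?_, ?_⟩
    · have h1 := hk0 ⟨p.1.2, (hP p.1.2).mpr ⟨p.1.1, p.2⟩⟩
      have h2 := p.2
      have := Y.mul_mem h2 (Y.inv_mem h1)
      convert this using 1
      group
    · exact G.mul_mem (G.inv_mem p.1.1.2) (k0 _).2
  · exact G.mul_mem (k0 q.1).2 (G.inv_mem (Subgroup.mem_inf.mp q.2.2).2)
  · have h1 := hk0 q.1
    have := Y.mul_mem (Subgroup.mem_inf.mp q.2.2).1 h1
    convert this using 1
    simp only [mul_assoc, mul_inv_rev, inv_inv]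
  · rintro ⟨⟨k, h⟩, hp⟩
    apply Subtype.ext
    apply Prod.ext
    · apply Subtype.ext
      simp
    · rfl
  · rintro ⟨⟨h, hh⟩, ⟨z, hz⟩⟩
    apply Prod.ext
    · rfl
    · apply Subtype.ext
      simp

theorem result {X : Type*} [Group X] (σ : MulAut X) (e : ℕ) (he : 1 ≤ e)
    [Finite ↥((MulEquiv.toMonoidHom (σ ^ e)).eqLocus (MonoidHom.id X))]
    (Y : Subgroup X) (hY : ∀ y : X, y ∈ Y ↔ σ y ∈ Y)
    (hYL : ∀ y ∈ Y, ∃ a ∈ Y, y = a * (σ a)⁻¹) (hYLe : ∀ y ∈ Y, ∃ a ∈ Y, y = a * ((σ ^ e) a)⁻¹)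
    (g : X) (hg : g ∈ (MulEquiv.toMonoidHom (σ ^ e)).eqLocus (MonoidHom.id X)) (a : X) (ha : g = a * (σ a)⁻¹) :
    Nat.card {k : ↥((MulEquiv.toMonoidHom (σ ^ e)).eqLocus (MonoidHom.id X)) // (k : X)⁻¹ * g * σ k ∈ Y} *
        Nat.card ↥(Y ⊓ (MulEquiv.toMonoidHom σ).eqLocus (MonoidHom.id X)) =
      Nat.card {h : ↥((MulEquiv.toMonoidHom σ).eqLocus (MonoidHom.id X)) // (h : X)⁻¹ * (((σ ^ e) a)⁻¹ * a) * h ∈ Y} *
        Nat.card ↥(Y ⊓ (MulEquiv.toMonoidHom (σ ^ e)).eqLocus (MonoidHom.id X)) := by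
  have hg' : (σ ^ e) g = g := hg
  subst ha
  have hYe : ∀ n : ℕ, ∀ y : X, y ∈ Y → (σ ^ n) y ∈ Y := by
    intro n
    induction n with
    | zero => intro y hy; simpa using hy
    | succ n ih => intro y hy; rw [pow_succ_apply']; exact (hY _).mp (ih y hy)
  have hA := card_fiber ((MulEquiv.toMonoidHom (σ ^ e)).eqLocus (MonoidHom.id X))
    ((MulEquiv.toMonoidHom σ).eqLocus (MonoidHom.id X)) Y a
    (fun k => (k : X)⁻¹ * (a * (σ a)⁻¹) * σ k ∈ Y) (by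
      intro k
      constructor
      · intro hw
        obtain ⟨y, hy, hwy⟩ := hYL _ hw
        have hh : σ (((k : X)⁻¹ * a)⁻¹ * y) = ((k : X)⁻¹ * a)⁻¹ * y := by
          have h1 : σ (((k : X)⁻¹ * a)⁻¹) = ((k : X)⁻¹ * a)⁻¹ * (y * (σ y)⁻¹) := by
            rw [← hwy, map_inv, map_mul, map_inv]; group
          rw [map_mul, h1]; group
        refine ⟨⟨((k : X)⁻¹ * a)⁻¹ * y, hh⟩, ?_⟩
        show (k : X)⁻¹ * a * (((k : X)⁻¹ * a)⁻¹ * y) ∈ Y
        convert hy using 1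
        group
      · rintro ⟨h, hy⟩
        have hh : σ (h : X) = h := h.2
        have h1 : (k : X)⁻¹ * (a * (σ a)⁻¹) * σ k
            = ((k : X)⁻¹ * a * (h : X)) * (σ ((k : X)⁻¹ * a * (h : X)))⁻¹ := by
          rw [map_mul, map_mul, map_inv, hh]; group
        rw [h1]
        exact Y.mul_mem hy (Y.inv_mem ((hY _).mp hy)))
  have hB := card_fiber' ((MulEquiv.toMonoidHom (σ ^ e)).eqLocus (MonoidHom.id X))
    ((MulEquiv.toMonoidHom σ).eqLocus (MonoidHom.id X)) Y a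
    (fun h => (h : X)⁻¹ * (((σ ^ e) a)⁻¹ * a) * h ∈ Y) (by
      intro h
      have hh : σ (h : X) = h := h.2
      have hhe : (σ ^ e) (h : X) = h := fix_pow σ _ hh e
      constructor
      · intro hv
        obtain ⟨c, hc, hvc⟩ := hYLe _ (Y.inv_mem hv)
        have hk : (σ ^ e) (a * (h : X) * c) = a * (h : X) * c := by
          have h1 : (σ ^ e) a = a * (h : X) * c * ((σ ^ e) c)⁻¹ * (h : X)⁻¹ := by
            have h2 : ((σ ^ e) a)⁻¹ = (h : X) * (c * ((σ ^ e) c)⁻¹)⁻¹ * (h : X)⁻¹ * a⁻¹ := by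
              rw [← hvc]; group
            rw [← inv_inv ((σ ^ e) a), h2]; group
          rw [map_mul, map_mul, hhe, h1]; group
        refine ⟨⟨a * (h : X) * c, hk⟩, ?_⟩
        show (a * (h : X) * c)⁻¹ * a * (h : X) ∈ Y
        convert Y.inv_mem hc using 1
        group
      · rintro ⟨k, hy⟩
        have hk : (σ ^ e) (k : X) = k := k.2
        have h1 : (h : X)⁻¹ * (((σ ^ e) a)⁻¹ * a) * h
            = ((σ ^ e) ((k : X)⁻¹ * a * (h : X)))⁻¹ * ((k : X)⁻¹ * a * (h : X)) := by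
          rw [map_mul, map_mul, map_inv, hhe, hk]; group
        rw [h1]
        exact Y.mul_mem (Y.inv_mem (hYe e _ hy)) hy)
  rw [← hA, ← hB]

end Cfsg.Agent.S2669
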