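import Cfsg.Statements.S2738
import Mathlib

set_option autoImplicit false
open Cfsg

namespace Cfsg.Agent.S2738

theorem result (F : Type*) [Field F] [Fintype F] (hF : Fintype.card F = 4) : Nat.card ↥(Subgroup.center (Matrix.SpecialLinearGroup (Fin 3) F)) = 3 ∧ ¬ ∃ K : Subgroup (Matrix.SpecialLinearGroup (Fin 3) F), Subgroup.IsComplement' (Subgroup.center (Matrix.SpecialLinearGroup (Fin 3) F)) K := by
  classical
  have hcardU : Fintype.card Fˣ = 3 := by rw [Fintype.card_units, hF]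
  have hpow3 : ∀ x : Fˣ, x ^ 3 = 1 := by
    intro x; rw [← hcardU]; exact pow_card_eq_one
  constructor
  · have e := Matrix.SpecialLinearGroup.center_equiv_rootsOfUnity' (n := Fin 3) (R := F) 0
    rw [Nat.card_congr e.toEquiv]
    simp only [Fintype.card_fin]
    have htop : rootsOfUnity 3 F = ⊤ := by
      ext x; simp [mem_rootsOfUnity, hpow3 x]
    rw [htop, Subgroup.card_top, Nat.card_eq_fintype_card, hcardU]
  · rintro ⟨K, hK⟩
    obtain ⟨ω, hω⟩ : ∃ ω : Fˣ, ω ≠ 1 := by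
      by_contra h
      push Not at h
      have : Fintype.card Fˣ ≤ 1 := Fintype.card_le_one_iff.mpr (fun a b => by rw [h a, h b])
      omega
    have hω3 : (ω : F) ^ 3 = 1 := by
      have := hpow3 ω
      rw [← Units.val_pow_eq_pow_val, this, Units.val_one]
    have hω1 : (ω : F) ≠ 1 := by
      intro h; apply hω; exact Units.ext h
    have hω0 : (ω : F) ≠ 0 := ω.ne_zero
    have hdeta : (!![1, 0, 0; 0, (ω : F), 0; 0, 0, (ω : F) ^ 2] : Matrix (Fin 3) (Fin 3) F).det = 1 := by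
      rw [Matrix.det_fin_three]; simp; linear_combination hω3
    have hdetb : (!![0, 1, 0; 0, 0, 1; 1, 0, 0] : Matrix (Fin 3) (Fin 3) F).det = 1 := by
      rw [Matrix.det_fin_three]; simp
    have hdetc : (!![(ω : F) ^ 2, 0, 0; 0, (ω : F) ^ 2, 0; 0, 0, (ω : F) ^ 2] : Matrix (Fin 3) (Fin 3) F).det = 1 := by
      rw [Matrix.det_fin_three]; simp; linear_combination ((ω : F) ^ 3 + 1) * hω3
    obtain ⟨a, ha⟩ : ∃ a : Matrix.SpecialLinearGroup (Fin 3) F,
        (a : Matrix (Fin 3) (Fin 3) F) = !![1, 0, 0; 0, (ω : F), 0; 0, 0, (ω : F) ^ 2] := ⟨⟨_, hdeta⟩, rfl⟩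
    obtain ⟨b, hb⟩ : ∃ b : Matrix.SpecialLinearGroup (Fin 3) F,
        (b : Matrix (Fin 3) (Fin 3) F) = !![0, 1, 0; 0, 0, 1; 1, 0, 0] := ⟨⟨_, hdetb⟩, rfl⟩
    obtain ⟨c, hcm⟩ : ∃ c : Matrix.SpecialLinearGroup (Fin 3) F,
        (c : Matrix (Fin 3) (Fin 3) F) = !![(ω : F) ^ 2, 0, 0; 0, (ω : F) ^ 2, 0; 0, 0, (ω : F) ^ 2] := ⟨⟨_, hdetc⟩, rfl⟩
    have hab : a * b = c * (b * a) := by
      apply Subtype.ext
      simp only [Matrix.SpecialLinearGroup.coe_mul, ha, hb, hcm]
      ext i j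
      fin_cases i <;> fin_cases j <;> simp [Matrix.mul_apply, Fin.sum_univ_three]
      · linear_combination (-1 : F) * hω3
      · linear_combination (-(ω : F)) * hω3
    have hc : c ∈ Subgroup.center (Matrix.SpecialLinearGroup (Fin 3) F) := by
      rw [Matrix.SpecialLinearGroup.mem_center_iff]
      refine ⟨(ω : F) ^ 2, ?_, ?_⟩
      · simp only [Fintype.card_fin]; linear_combination ((ω : F) ^ 3 + 1) * hω3
      · rw [hcm]
        ext i j
        fin_cases i <;> fin_cases j <;> simp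
    obtain ⟨⟨z1, k1⟩, h1⟩ := hK.2 a
    obtain ⟨⟨z2, k2⟩, h2⟩ := hK.2 b
    simp only at h1 h2
    have hz1 := Subgroup.mem_center_iff.mp z1.2
    have hz2 := Subgroup.mem_center_iff.mp z2.2
    have hcz := Subgroup.mem_center_iff.mp hc
    rw [← h1, ← h2] at hab
    have e1 : (z1 : Matrix.SpecialLinearGroup (Fin 3) F) * k1 * (z2 * k2) = (z1 * z2) * (k1 * k2) := by
      simp only [mul_assoc]
      rw [← mul_assoc (k1 : Matrix.SpecialLinearGroup (Fin 3) F), hz2 k1, mul_assoc]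
    have e2 : (z2 : Matrix.SpecialLinearGroup (Fin 3) F) * k2 * (z1 * k1) = (z1 * z2) * (k2 * k1) := by
      simp only [mul_assoc]
      rw [← mul_assoc (k2 : Matrix.SpecialLinearGroup (Fin 3) F), hz1 k2, mul_assoc, ← mul_assoc, hz1 z2, mul_assoc]
    rw [e1, e2] at hab
    have e3 : c * ((z1 : Matrix.SpecialLinearGroup (Fin 3) F) * z2 * (k2 * k1)) = (z1 * z2) * (c * (k2 * k1)) := by
      rw [← mul_assoc c, ← hcz, mul_assoc]
    rw [e3] at hab
    have hk := mul_left_cancel hab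
    have hcK : c ∈ K := by
      have : c = k1 * k2 * ((k2 : Matrix.SpecialLinearGroup (Fin 3) F) * k1)⁻¹ := by
        rw [hk]; group
      rw [this]
      exact K.mul_mem (K.mul_mem k1.2 k2.2) (K.inv_mem (K.mul_mem k2.2 k1.2))
    have hc1 := Subgroup.disjoint_def.mp hK.disjoint hc hcK
    have h00 : (c : Matrix (Fin 3) (Fin 3) F) 0 0 = (1 : Matrix (Fin 3) (Fin 3) F) 0 0 := by
      rw [hc1]; rfl
    rw [hcm] at h00
    have h2 : (ω : F) ^ 2 = 1 := by simpa using h00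
    apply hω1
    have h3 : (ω : F) * (ω : F) ^ 2 = 1 := by linear_combination hω3
    rw [h2, mul_one] at h3
    exact h3

end Cfsg.Agent.S2738
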