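import Cfsg.Statements.S2760
import Mathlib
import Cfsg.Agent.Lib.Helper5.CharP

set_option autoImplicit false
open Cfsg

namespace Cfsg.Agent.S2760

open Cfsg.Agent.Lib.Helper5.PCore Cfsg.Agent.Lib.Helper5.Coprime Cfsg.Agent.Lib.Helper5.CharP in
theorem aux {G : Type*} [Group G] [Finite G] [Fact (Nat.Prime 2)]
    (hchar : Subgroup.centralizer (Cfsg.pCore 2 G : Set G) ≤ Cfsg.pCore 2 G) (H : Subgroup G)
    (hH : H.Normal ∨ ((Cfsg.pResidual 2 ↥H).map H.subtype).Normal) :
    Subgroup.centralizer (Cfsg.pCore 2 ↥H : Set ↥H) ≤ Cfsg.pCore 2 ↥H := by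
  rcases hH with hH | hK
  · apply charp_of_normalized hchar H
    rw [Subgroup.normalizer_eq_top_iff.mpr hH]
    exact le_top
  · have hKc := charp_of_normalized hchar ((Cfsg.pResidual 2 ↥H).map H.subtype)
      (by rw [Subgroup.normalizer_eq_top_iff.mpr hK]; exact le_top)
    have hKH : (Cfsg.pResidual 2 ↥H).map H.subtype ≤ H := Subgroup.map_subtype_le _
    have hgenK : ∀ y : ↥H, Nat.Coprime (orderOf y) 2 →
        (y : G) ∈ (Cfsg.pResidual 2 ↥H).map H.subtype := by
      intro y hy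
      exact ⟨y, Subgroup.subset_closure hy, rfl⟩
    generalize (Cfsg.pResidual 2 ↥H).map H.subtype = K at hK hKc hKH hgenK
    have hHn : (Cfsg.pCore 2 ↥H).Normal := pCore_normal_thm 2 ↥H
    have hCn : (Subgroup.centralizer (Cfsg.pCore 2 ↥H : Set ↥H)).Normal :=
      Subgroup.normal_centralizer
    apply le_pCore _ hCn
    apply isPGroup_of_pprime_trivial
    intro y hy m hm hym
    have hyK : (y : G) ∈ K :=
      hgenK y (Nat.Coprime.coprime_dvd_left (orderOf_dvd_of_pow_eq_one hym) hm)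
    have hNle : ((Cfsg.pCore 2 ↥K).map K.subtype).subgroupOf H ≤ Cfsg.pCore 2 ↥H := by
      apply le_pCore
      · constructor
        intro n hn h
        rw [Subgroup.mem_subgroupOf] at hn ⊢
        obtain ⟨z, hz, hzn⟩ := hn
        have h1 := pCore_map_le (p := 2) (MulAut.conjNormal (h : G) : ↥K ≃* ↥K) ⟨z, hz, rfl⟩
        refine ⟨_, h1, ?_⟩
        simp [← hzn]
      · exact ((pCore_isPGroup 2 ↥K).map _).comap_subtype
    have hyKc : (⟨(y : G), hyK⟩ : K) ∈ Subgroup.centralizer (Cfsg.pCore 2 ↥K : Set ↥K) := by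
      rw [Subgroup.mem_centralizer_iff]
      intro z hz
      have hzH : (⟨(z : G), hKH z.2⟩ : H) ∈ Cfsg.pCore 2 ↥H :=
        hNle (Subgroup.mem_subgroupOf.mpr ⟨z, hz, rfl⟩)
      have h5 := (Subgroup.mem_centralizer_iff.mp hy) _ hzH
      have h6 := congrArg Subtype.val h5
      ext
      simpa using h6
    obtain ⟨a, ha⟩ := pelem_of_mem_pCore _ (hKc hyKc)
    have ha' : (y : G) ^ 2 ^ a = 1 := by simpa using congrArg Subtype.val ha
    have hym' : (y : G) ^ m = 1 := by simpa using congrArg Subtype.val hym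
    have h7 := eq_one_of_pow_of_pow (y : G) a m hm ha' hym'
    ext
    simpa using h7

theorem result {G : Type*} [Group G] [Finite G] (hchar : Subgroup.centralizer (Cfsg.pCore 2 G : Set G) ≤ Cfsg.pCore 2 G) (H : Subgroup G) (hH : H.Normal ∨ ((Cfsg.pResidual 2 ↥H).map H.subtype).Normal) : Subgroup.centralizer (Cfsg.pCore 2 ↥H : Set ↥H) ≤ Cfsg.pCore 2 ↥H := by
  have hfact : Fact (Nat.Prime 2) := ⟨Nat.prime_two⟩
  exact aux hchar H hH

end Cfsg.Agent.S2760
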