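import Cfsg.Statements.S2762


set_option autoImplicit false
open Cfsg


namespace Cfsg.Agent.S2762

open Matrix

variable {F : Type*} [Field F]

theorem mem_qd (M : Matrix.SpecialLinearGroup (Fin 3) F) :
    M ∈ Cfsg.qdOver F ↔ ((M : Matrix (Fin 3) (Fin 3) F) 2 0 = 0 ∧
      (M : Matrix (Fin 3) (Fin 3) F) 2 1 = 0 ∧ (M : Matrix (Fin 3) (Fin 3) F) 2 2 = 1) := by
  constructor
  · intro h
    unfold Cfsg.qdOver at h
    induction h using Subgroup.closure_induction with
    | mem x hx => exact hx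
    | one => simp
    | mul x y _ _ hx hy =>
      obtain ⟨h0, h1, h2⟩ := hx
      obtain ⟨k0, k1, k2⟩ := hy
      simp [Matrix.SpecialLinearGroup.coe_mul, Matrix.mul_apply, Fin.sum_univ_three, h0, h1, h2, k0, k1, k2]
    | inv x _ hx =>
      obtain ⟨h0, h1, h2⟩ := hx
      have h : (x : Matrix (Fin 3) (Fin 3) F) *
          ((x⁻¹ : Matrix.SpecialLinearGroup (Fin 3) F) : Matrix (Fin 3) (Fin 3) F) = 1 := by
        rw [← Matrix.SpecialLinearGroup.coe_mul, mul_inv_cancel, Matrix.SpecialLinearGroup.coe_one]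
      have e : ∀ j, ((x⁻¹ : Matrix.SpecialLinearGroup (Fin 3) F) : Matrix (Fin 3) (Fin 3) F) 2 j
          = (1 : Matrix (Fin 3) (Fin 3) F) 2 j := by
        intro j
        have := congrFun (congrFun h 2) j
        simpa [Matrix.mul_apply, Fin.sum_univ_three, h0, h1, h2] using this
      exact ⟨by simpa using e 0, by simpa using e 1, by simpa using e 2⟩
  · intro h
    exact Subgroup.subset_closure h

/-- the underlying matrix -/
def mat (g : ↥(Cfsg.qdOver F)) : Matrix (Fin 3) (Fin 3) F :=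
  ((g : Matrix.SpecialLinearGroup (Fin 3) F) : Matrix (Fin 3) (Fin 3) F)

theorem mat_mul (g h : ↥(Cfsg.qdOver F)) : mat (g * h) = mat g * mat h := by
  simp [mat]

theorem mat_one : mat (1 : ↥(Cfsg.qdOver F)) = 1 := by simp [mat]

theorem mat_row (g : ↥(Cfsg.qdOver F)) : mat g 2 0 = 0 ∧ mat g 2 1 = 0 ∧ mat g 2 2 = 1 :=
  (mem_qd _).1 g.2

def blk (g : ↥(Cfsg.qdOver F)) : Matrix (Fin 2) (Fin 2) F :=
  !![mat g 0 0, mat g 0 1; mat g 1 0, mat g 1 1]

def col (g : ↥(Cfsg.qdOver F)) : Fin 2 → F := ![mat g 0 2, mat g 1 2]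

theorem blk_mul (g h : ↥(Cfsg.qdOver F)) : blk (g * h) = blk g * blk h := by
  obtain ⟨h0, h1, h2⟩ := mat_row h
  ext i j
  fin_cases i <;> fin_cases j <;>
    simp [blk, mat_mul, Matrix.mul_apply, Fin.sum_univ_three, Fin.sum_univ_two, h0, h1, h2]

theorem col_mul (g h : ↥(Cfsg.qdOver F)) : col (g * h) = (blk g) *ᵥ (col h) + col g := by
  obtain ⟨h0, h1, h2⟩ := mat_row h
  ext i
  fin_cases i <;>
    simp [blk, col, mat_mul, Matrix.mul_apply, Matrix.mulVec, dotProduct, Fin.sum_univ_three,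
      Fin.sum_univ_two, h0, h1, h2] <;> ring

theorem blk_one : blk (1 : ↥(Cfsg.qdOver F)) = 1 := by
  ext i j
  fin_cases i <;> fin_cases j <;> simp [blk, mat_one]

theorem col_one : col (1 : ↥(Cfsg.qdOver F)) = 0 := by
  ext i
  fin_cases i <;> simp [col, mat_one]

theorem ext' (g h : ↥(Cfsg.qdOver F)) (hb : blk g = blk h) (hc : col g = col h) : g = h := by
  obtain ⟨g0, g1, g2⟩ := mat_row g
  obtain ⟨h0, h1, h2⟩ := mat_row h
  have b00 := congrFun (congrFun hb 0) 0
  have b01 := congrFun (congrFun hb 0) 1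
  have b10 := congrFun (congrFun hb 1) 0
  have b11 := congrFun (congrFun hb 1) 1
  have c0 := congrFun hc 0
  have c1 := congrFun hc 1
  simp [blk, col] at b00 b01 b10 b11 c0 c1
  have hm : mat g = mat h := by
    rw [Matrix.eta_fin_three (mat g), Matrix.eta_fin_three (mat h), b00, b01, b10, b11, c0, c1,
      g0, g1, g2, h0, h1, h2]
  apply Subtype.ext
  apply Subtype.ext
  exact hm

theorem det_blk (g : ↥(Cfsg.qdOver F)) : (blk g).det = 1 := by
  obtain ⟨g0, g1, g2⟩ := mat_row g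
  have h : (mat g).det = 1 := g.1.2
  rw [Matrix.det_fin_three] at h
  rw [blk, Matrix.det_fin_two_of]
  rw [g0, g1, g2] at h
  linear_combination h

def affM (A : Matrix (Fin 2) (Fin 2) F) (x : Fin 2 → F) : Matrix (Fin 3) (Fin 3) F :=
  !![A 0 0, A 0 1, x 0; A 1 0, A 1 1, x 1; 0, 0, 1]

theorem affM_det (A : Matrix (Fin 2) (Fin 2) F) (x : Fin 2 → F) : (affM A x).det = A.det := by
  rw [Matrix.det_fin_three, Matrix.det_fin_two]
  simp [affM]

def aff (A : Matrix.SpecialLinearGroup (Fin 2) F) (x : Fin 2 → F) : ↥(Cfsg.qdOver F) :=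
  ⟨⟨affM A.1 x, by rw [affM_det]; exact A.2⟩,
    (mem_qd _).2 ⟨by simp [affM], by simp [affM], by simp [affM]⟩⟩

theorem mat_aff (A : Matrix.SpecialLinearGroup (Fin 2) F) (x : Fin 2 → F) :
    mat (aff A x) = affM A.1 x := rfl

theorem blk_aff (A : Matrix.SpecialLinearGroup (Fin 2) F) (x : Fin 2 → F) :
    blk (aff A x) = A.1 := by
  ext i j
  fin_cases i <;> fin_cases j <;> simp [blk, mat_aff, affM]

theorem col_aff (A : Matrix.SpecialLinearGroup (Fin 2) F) (x : Fin 2 → F) :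
    col (aff A x) = x := by
  ext i
  fin_cases i <;> simp [col, mat_aff, affM]

def blkHom : ↥(Cfsg.qdOver F) →* Matrix.SpecialLinearGroup (Fin 2) F where
  toFun g := ⟨blk g, det_blk g⟩
  map_one' := Subtype.ext blk_one
  map_mul' g h := Subtype.ext (blk_mul g h)

theorem blkHom_surj : Function.Surjective (blkHom (F := F)) :=
  fun A => ⟨aff A 0, Subtype.ext (blk_aff A 0)⟩

theorem mem_ker (g : ↥(Cfsg.qdOver F)) : g ∈ (blkHom (F := F)).ker ↔ blk g = 1 := by
  rw [MonoidHom.mem_ker]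
  constructor
  · intro h
    exact congrArg Subtype.val h
  · intro h
    exact Subtype.ext h

theorem conj_val (W A : Matrix.SpecialLinearGroup (Fin 2) F) :
    (W * A * W⁻¹).1 = W.1 * A.1 * Matrix.adjugate W.1 := by
  show ((W * A * W⁻¹ : Matrix.SpecialLinearGroup (Fin 2) F) : Matrix (Fin 2) (Fin 2) F) = _
  rw [Matrix.SpecialLinearGroup.coe_mul, Matrix.SpecialLinearGroup.coe_mul,
    Matrix.SpecialLinearGroup.coe_inv]

theorem sl2_core {p : ℕ} [Fact p.Prime] [CharP F p]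
    (N : Subgroup (Matrix.SpecialLinearGroup (Fin 2) F))
    (hN : N.Normal) (hp : IsPGroup p N) : N = ⊥ := by
  have hdet : ∀ A : Matrix.SpecialLinearGroup (Fin 2) F,
      A.1 0 0 * A.1 1 1 - A.1 0 1 * A.1 1 0 = 1 := by
    intro A
    have := A.2
    rw [Matrix.det_fin_two] at this
    exact this
  have htr : ∀ A ∈ N, (A.1 0 0 + A.1 1 1 = 2) := by
    intro A hA
    obtain ⟨k, hk⟩ := hp ⟨A, hA⟩
    have hk' : (A.1) ^ (p ^ k) = 1 := by
      have := congrArg (fun x : N => ((x : Matrix.SpecialLinearGroup (Fin 2) F) :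
        Matrix (Fin 2) (Fin 2) F)) hk
      simpa using this
    haveI : ExpChar (Matrix (Fin 2) (Fin 2) F) p := ExpChar.prime Fact.out
    have hnil : IsNilpotent (A.1 - 1) := ⟨p ^ k, by
      rw [sub_pow_expChar_pow_of_commute p k (Commute.one_right _), hk', one_pow, sub_self]⟩
    have h0 := (Matrix.isNilpotent_trace_of_isNilpotent hnil).eq_zero
    rw [Matrix.trace_fin_two] at h0
    simp at h0
    linear_combination h0
  have hoff : ∀ A ∈ N, A.1 0 1 = A.1 1 0 := by
    intro A hA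
    let w : Matrix.SpecialLinearGroup (Fin 2) F := ⟨!![0, 1; -1, 0], by simp [Matrix.det_fin_two_of]⟩
    have h1 : A * (w * A * w⁻¹) ∈ N := N.mul_mem hA (hN.conj_mem A hA w)
    have h2 := htr _ h1
    have h3 := htr A hA
    have hd := hdet A
    have hc : (A * (w * A * w⁻¹)).1 = A.1 * (w * A * w⁻¹).1 := rfl
    have hw : w.1 = !![0, 1; -1, 0] := rfl
    rw [hc, conj_val, hw] at h2
    simp only [Matrix.mul_apply, Fin.sum_univ_two, Matrix.adjugate_fin_two_of] at h2
    simp at h2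
    have h4 : (A.1 0 1 - A.1 1 0) ^ 2 = 0 := by
      linear_combination (-1 : F) * h2 + 2 * hd
    have h5 := pow_eq_zero_iff (n := 2) (by norm_num) |>.1 h4
    exact sub_eq_zero.1 h5
  have hmain : ∀ A ∈ N, A = 1 := by
    intro A hA
    let u : Matrix.SpecialLinearGroup (Fin 2) F := ⟨!![1, 1; 0, 1], by simp [Matrix.det_fin_two_of]⟩
    let l : Matrix.SpecialLinearGroup (Fin 2) F := ⟨!![1, 0; 1, 1], by simp [Matrix.det_fin_two_of]⟩
    have e1 := hoff A hA
    have e2 := hoff _ (hN.conj_mem A hA u)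
    have e3 := hoff _ (hN.conj_mem A hA l)
    have h3 := htr A hA
    have hd := hdet A
    have hu : u.1 = !![1, 1; 0, 1] := rfl
    have hl : l.1 = !![1, 0; 1, 1] := rfl
    rw [conj_val, hu] at e2
    rw [conj_val, hl] at e3
    simp only [Matrix.mul_apply, Fin.sum_univ_two, Matrix.adjugate_fin_two_of] at e2 e3
    simp at e2 e3
    have hc1 : A.1 1 0 = A.1 1 1 - A.1 0 0 := by linear_combination (-1 : F) * e2 + e1
    have hc2 : A.1 1 0 = A.1 0 0 - A.1 1 1 := by linear_combination e3 - 2 * e1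
    have hc : A.1 1 0 = 0 := by
      by_cases h2 : (2 : F) = 0
      · linear_combination hc1 + h3 + (1 - A.1 0 0) * h2
      · have h5 : (2 : F) * A.1 1 0 = 0 := by linear_combination hc1 + hc2
        rcases mul_eq_zero.1 h5 with h | h
        · exact absurd h h2
        · exact h
    have hb : A.1 0 1 = 0 := e1.trans hc
    have had : A.1 0 0 = A.1 1 1 := by linear_combination hc1 - hc
    have ha : A.1 0 0 = 1 := by
      have h4 : (A.1 0 0 - 1) ^ 2 = 0 := by
        linear_combination hd + (A.1 0 0) * had - h3 - had + (A.1 0 1) * hc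
      have h5 := pow_eq_zero_iff (n := 2) (by norm_num) |>.1 h4
      exact sub_eq_zero.1 h5
    have hdd : A.1 1 1 = 1 := by rw [← had]; exact ha
    apply Subtype.ext
    show A.1 = 1
    rw [Matrix.eta_fin_two A.1, ha, hb, hc, hdd, Matrix.one_fin_two]
  rw [Subgroup.eq_bot_iff_forall]
  exact hmain

theorem core_eq {p : ℕ} [Fact p.Prime] [CharP F p] :
    Cfsg.pCore p ↥(Cfsg.qdOver F) = (blkHom (F := F)).ker := by
  apply le_antisymm
  · apply sSup_le
    rintro N ⟨hN, hp⟩ g hg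
    have h1 : (N.map blkHom) = ⊥ :=
      sl2_core (p := p) _ (hN.map blkHom blkHom_surj) (hp.map blkHom)
    have h2 : blkHom g ∈ N.map blkHom := Subgroup.mem_map_of_mem _ hg
    rw [h1, Subgroup.mem_bot] at h2
    exact h2
  · apply le_sSup
    refine ⟨inferInstance, ?_⟩
    rintro ⟨g, hg⟩
    refine ⟨1, ?_⟩
    apply Subtype.ext
    rw [pow_one]
    show g ^ p = 1
    have hb : blk g = 1 := (mem_ker g).1 hg
    have hpow : ∀ n : ℕ, blk (g ^ n) = 1 ∧ col (g ^ n) = n • col g := by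
      intro n
      induction n with
      | zero => simp [blk_one, col_one]
      | succ n ih =>
        rw [pow_succ, blk_mul, col_mul, ih.1, ih.2, hb]
        refine ⟨by simp, ?_⟩
        rw [Matrix.one_mulVec, succ_nsmul]
        abel
    apply ext'
    · rw [(hpow p).1, blk_one]
    · rw [(hpow p).2, col_one]
      ext i
      simp [CharP.cast_eq_zero F p]

def Kgrp : Subgroup ↥(Cfsg.qdOver F) where
  carrier := {g | col g = 0}
  mul_mem' := by
    intro a b ha hb
    simp only [Set.mem_setOf_eq] at *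
    rw [col_mul, ha, hb]
    simp
  one_mem' := col_one
  inv_mem' := by
    intro a ha
    simp only [Set.mem_setOf_eq] at *
    have h := col_mul a⁻¹ a
    rw [inv_mul_cancel, col_one, ha] at h
    simpa using h.symm

theorem mem_K (g : ↥(Cfsg.qdOver F)) : g ∈ Kgrp (F := F) ↔ col g = 0 := Iff.rfl

def rho : ↥(Kgrp (F := F)) →* Matrix.SpecialLinearGroup (Fin 2) F :=
  blkHom.comp (Kgrp (F := F)).subtype

theorem rho_inj : Function.Injective (rho (F := F)) := by
  intro a b h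
  apply Subtype.ext
  apply ext'
  · exact congrArg Subtype.val h
  · rw [(mem_K a.1).1 a.2, (mem_K b.1).1 b.2]

theorem rho_surj : Function.Surjective (rho (F := F)) := by
  intro A
  exact ⟨⟨aff A 0, col_aff A 0⟩, Subtype.ext (blk_aff A 0)⟩

def psi : Additive ↥((blkHom (F := F)).ker) ≃+ (Fin 2 → F) where
  toFun v := col (Additive.toMul v).1
  invFun x := Additive.ofMul ⟨aff 1 x, (mem_ker _).2 (blk_aff 1 x)⟩
  left_inv v := by
    apply Additive.toMul.injective
    apply Subtype.ext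
    apply ext'
    · show blk (aff 1 (col (Additive.toMul v).1)) = blk (Additive.toMul v).1
      rw [blk_aff, (mem_ker _).1 (Additive.toMul v).2]
      rfl
    · show col (aff 1 (col (Additive.toMul v).1)) = col (Additive.toMul v).1
      rw [col_aff]
  right_inv x := col_aff 1 x
  map_add' v w := by
    show col ((Additive.toMul v).1 * (Additive.toMul w).1) = _
    rw [col_mul, (mem_ker _).1 (Additive.toMul v).2, Matrix.one_mulVec, add_comm]

theorem main {F : Type*} [Field F] [Fintype F] {p : ℕ} [Fact p.Prime] [CharP F p] : (∀ M : ↥(Cfsg.qdOver F), M ∈ Cfsg.pCore p ↥(Cfsg.qdOver F) ↔ ((M : Matrix.SpecialLinearGroup (Fin 3) F) : Matrix (Fin 3) (Fin 3) F) 0 0 = 1 ∧ ((M : Matrix.SpecialLinearGroup (Fin 3) F) : Matrix (Fin 3) (Fin 3) F) 0 1 = 0 ∧ ((M : Matrix.SpecialLinearGroup (Fin 3) F) : Matrix (Fin 3) (Fin 3) F) 1 0 = 0 ∧ ((M : Matrix.SpecialLinearGroup (Fin 3) F) : Matrix (Fin 3) (Fin 3) F) 1 1 = 1) ∧ ∃ K : Subgroup ↥(Cfsg.qdOver F), (∀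 M : ↥(Cfsg.qdOver F), M ∈ K ↔ ((M : Matrix.SpecialLinearGroup (Fin 3) F) : Matrix (Fin 3) (Fin 3) F) 0 2 = 0 ∧ ((M : Matrix.SpecialLinearGroup (Fin 3) F) : Matrix (Fin 3) (Fin 3) F) 1 2 = 0) ∧ K ⊓ Cfsg.pCore p ↥(Cfsg.qdOver F) = ⊥ ∧ K ⊔ Cfsg.pCore p ↥(Cfsg.qdOver F) = ⊤ ∧ Nonempty (↥K ≃* Matrix.SpecialLinearGroup (Fin 2) F) ∧ Cfsg.IsNaturalSL2Module F (Cfsg.pCore p ↥(Cfsg.qdOver F)) K := by
  rw [core_eq (p := p)]
  refine ⟨?_, Kgrp, ?_, ?_, ?_, ?_, ?_⟩
  · intro M
    rw [mem_ker]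
    show blk M = 1 ↔ mat M 0 0 = 1 ∧ mat M 0 1 = 0 ∧ mat M 1 0 = 0 ∧ mat M 1 1 = 1
    constructor
    · intro h
      have b00 := congrFun (congrFun h 0) 0
      have b01 := congrFun (congrFun h 0) 1
      have b10 := congrFun (congrFun h 1) 0
      have b11 := congrFun (congrFun h 1) 1
      simp [blk] at b00 b01 b10 b11
      exact ⟨b00, b01, b10, b11⟩
    · rintro ⟨h0, h1, h2, h3⟩
      ext i j
      fin_cases i <;> fin_cases j <;> simp [blk, h0, h1, h2, h3]
  · intro M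
    show col M = 0 ↔ mat M 0 2 = 0 ∧ mat M 1 2 = 0
    constructor
    · intro h
      exact ⟨by simpa [col] using congrFun h 0, by simpa [col] using congrFun h 1⟩
    · rintro ⟨h0, h1⟩
      ext i
      fin_cases i <;> simp [col, h0, h1]
  · rw [Subgroup.eq_bot_iff_forall]
    rintro g ⟨hgK, hgT⟩
    apply ext' g 1
    · rw [(mem_ker g).1 hgT, blk_one]
    · rw [(mem_K g).1 hgK, col_one]
  · rw [eq_top_iff]
    intro g _
    have hk : aff (blkHom g) 0 ∈ Kgrp (F := F) := col_aff _ _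
    have hbk : blkHom (aff (blkHom g) 0) = blkHom g := Subtype.ext (blk_aff _ _)
    have ht : (aff (blkHom g) 0)⁻¹ * g ∈ (blkHom (F := F)).ker := by
      rw [MonoidHom.mem_ker, map_mul, map_inv, hbk, inv_mul_cancel]
    have hg : g = aff (blkHom g) 0 * ((aff (blkHom g) 0)⁻¹ * g) := by group
    rw [hg]
    exact Subgroup.mul_mem_sup hk ht
  · exact ⟨MulEquiv.ofBijective rho ⟨rho_inj, rho_surj⟩⟩
  · refine ⟨?_, rho, psi, rho_surj, ?_, ?_⟩
    · rw [Subgroup.normalizer_eq_top]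
      exact le_top
    · ext l
      rw [MonoidHom.mem_ker, Subgroup.mem_subgroupOf, Subgroup.mem_centralizer_iff]
      constructor
      · intro h
        have hl : (l : ↥(Cfsg.qdOver F)) = 1 := by
          apply ext'
          · rw [blk_one]
            exact congrArg Subtype.val h
          · rw [col_one]
            exact l.2
        intro v _
        rw [hl]
        simp
      · intro h
        apply Subtype.ext
        show blk l.1 = 1
        have key : ∀ x : Fin 2 → F, blk l.1 *ᵥ x = x := by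
          intro x
          have hv := h (aff 1 x) ((mem_ker _).2 (blk_aff 1 x))
          have h6 := congrArg col hv
          rw [col_mul, col_mul, blk_aff, col_aff, (mem_K l.1).1 l.2] at h6
          simpa using h6.symm
        ext i j
        have hj := congrFun (key (Pi.single j 1)) i
        simpa [Matrix.mulVec_single_one, Matrix.one_apply, Pi.single_apply] using hj
    · intro l v
      refine ⟨⟨l.1 * v.1 * l.1⁻¹, (inferInstance : ((blkHom (F := F)).ker).Normal).conj_mem v.1 v.2 l.1⟩, rfl, ?_⟩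
      show col (l.1 * v.1 * l.1⁻¹) = (blk l.1) *ᵥ col v.1
      rw [col_mul, col_mul, (mem_K _).1 ((Kgrp (F := F)).inv_mem l.2), (mem_K _).1 l.2]
      simp

theorem result {F : Type*} [Field F] [Fintype F] {p : ℕ} [Fact p.Prime] [CharP F p] : (∀ M : ↥(Cfsg.qdOver F), M ∈ Cfsg.pCore p ↥(Cfsg.qdOver F) ↔ ((M : Matrix.SpecialLinearGroup (Fin 3) F) : Matrix (Fin 3) (Fin 3) F) 0 0 = 1 ∧ ((M : Matrix.SpecialLinearGroup (Fin 3) F) : Matrix (Fin 3) (Fin 3) F) 0 1 = 0 ∧ ((M : Matrix.SpecialLinearGroup (Fin 3) F) : Matrix (Fin 3) (Fin 3) F) 1 0 = 0 ∧ ((M : Matrix.SpecialLinearGroup (Fin 3) F) : Matrix (Fin 3) (Fin 3) F) 1 1 = 1) ∧ ∃ K : Subgroup ↥(Cfsg.qdOver F), (∀ M : ↥(Cfsg.qdOver F), M ∈ K ↔ ((M : Matrix.SpecialLinearGroup (Fin 3) F) : Matrix (Fin 3) (Fin 3) F) 0 2 = 0 ∧ ((M : Matrix.SpecialLinearGroup (Fin 3) F) : Matrix (Fin 3) (Fin 3) F) 1 2 = 0) ∧ K ⊓ Cfsg.pCore p ↥(Cfsg.qdOver F) = ⊥ ∧ K ⊔ Cfsg.pCore p ↥(Cfsg.qdOver F) = ⊤ ∧ Nonempty (↥K ≃*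 Matrix.SpecialLinearGroup (Fin 2) F) ∧ Cfsg.IsNaturalSL2Module F (Cfsg.pCore p ↥(Cfsg.qdOver F)) K := by
  exact main

end Cfsg.Agent.S2762
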