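import Cfsg.Statements.S2779


set_option autoImplicit false
open Cfsg


namespace Cfsg.Agent.S2779

open Matrix
open scoped commutatorElement

variable {F : Type*} [Field F]

def om (e x : Fin 2 → F) : F := e 0 * x 1 - e 1 * x 0

theorem om_sub (e x y : Fin 2 → F) : om e (x - y) = om e x - om e y := by
  simp only [om, Pi.sub_apply]
  ring

theorem om_smul (e : Fin 2 → F) (c : F) (x : Fin 2 → F) : om e (c • x) = c * om e x := by
  simp only [om, Pi.smul_apply, smul_eq_mul]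
  ring

theorem om_self (e : Fin 2 → F) : om e e = 0 := by
  simp only [om]
  ring

theorem F1 (g : Matrix.SpecialLinearGroup (Fin 2) F) (e x : Fin 2 → F) (he : g.1 *ᵥ e = e) :
    om e (g.1 *ᵥ x) = om e x := by
  have h0 := congrFun he 0
  have h1 := congrFun he 1
  have hd := g.2
  rw [Matrix.det_fin_two] at hd
  simp only [Matrix.mulVec, dotProduct, Fin.sum_univ_two] at h0 h1
  simp only [om, Matrix.mulVec, dotProduct, Fin.sum_univ_two]
  linear_combination (-(g.1 1 0 * x 0 + g.1 1 1 * x 1)) * h0 + (g.1 0 0 * x 0 + g.1 0 1 * x 1) * h1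
    + (e 0 * x 1 - e 1 * x 0) * hd

theorem F2 (g : Matrix.SpecialLinearGroup (Fin 2) F) (e x : Fin 2 → F) (he : g.1 *ᵥ e = e)
    (hx : g.1 *ᵥ x = x) (hom : om e x ≠ 0) : g = 1 := by
  have h0 := congrFun he 0
  have h1 := congrFun he 1
  have k0 := congrFun hx 0
  have k1 := congrFun hx 1
  simp only [Matrix.mulVec, dotProduct, Fin.sum_univ_two] at h0 h1 k0 k1
  have a1 : (g.1 0 0 - 1) * om e x = 0 := by
    simp only [om]
    linear_combination x 1 * h0 - e 1 * k0
  have a2 : (g.1 0 1) * om e x = 0 := by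
    simp only [om]
    linear_combination e 0 * k0 - x 0 * h0
  have a3 : (g.1 1 0) * om e x = 0 := by
    simp only [om]
    linear_combination x 1 * h1 - e 1 * k1
  have a4 : (g.1 1 1 - 1) * om e x = 0 := by
    simp only [om]
    linear_combination e 0 * k1 - x 0 * h1
  have b1 : g.1 0 0 = 1 := sub_eq_zero.1 ((mul_eq_zero.1 a1).resolve_right hom)
  have b2 : g.1 0 1 = 0 := (mul_eq_zero.1 a2).resolve_right hom
  have b3 : g.1 1 0 = 0 := (mul_eq_zero.1 a3).resolve_right hom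
  have b4 : g.1 1 1 = 1 := sub_eq_zero.1 ((mul_eq_zero.1 a4).resolve_right hom)
  apply Subtype.ext
  show g.1 = 1
  rw [Matrix.eta_fin_two g.1, b1, b2, b3, b4, Matrix.one_fin_two]

def tau (e : Fin 2 → F) (b : F) : Matrix.SpecialLinearGroup (Fin 2) F :=
  ⟨!![1 - b * e 0 * e 1, b * e 0 * e 0; -(b * e 1 * e 1), 1 + b * e 0 * e 1], by
    rw [Matrix.det_fin_two_of]; ring⟩

theorem tau_e (e : Fin 2 → F) (b : F) : (tau e b).1 *ᵥ e = e := by
  ext i
  fin_cases i <;> simp [tau, Matrix.mulVec, dotProduct, Fin.sum_univ_two] <;> ring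

theorem tau_x (e : Fin 2 → F) (b : F) (x : Fin 2 → F) :
    (tau e b).1 *ᵥ x = x + (b * om e x) • e := by
  ext i
  fin_cases i <;> simp [tau, om, Matrix.mulVec, dotProduct, Fin.sum_univ_two] <;> ring

theorem F4 (e y : Fin 2 → F) (he : e ≠ 0) (h : om e y = 0) : ∃ c : F, y = c • e := by
  simp only [om] at h
  by_cases h0 : e 0 = 0
  · have h1 : e 1 ≠ 0 := by
      intro h1
      apply he
      ext i
      fin_cases i
      · exact h0
      · exact h1
    refine ⟨y 1 / e 1, ?_⟩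
    have hy0 : y 0 = 0 := by
      have : e 1 * y 0 = 0 := by linear_combination (-1 : F) * h + y 1 * h0
      exact (mul_eq_zero.1 this).resolve_left h1
    ext i
    fin_cases i
    · simp [hy0, h0]
    · simp [h1]
  · refine ⟨y 0 / e 0, ?_⟩
    ext i
    fin_cases i
    · simp [h0]
    · simp only [Fin.mk_one, Fin.isValue, Pi.smul_apply, smul_eq_mul]
      field_simp
      linear_combination h

theorem exists_x (e : Fin 2 → F) (he : e ≠ 0) : ∃ x : Fin 2 → F, om e x ≠ 0 := by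
  by_cases h0 : e 0 = 0
  · have h1 : e 1 ≠ 0 := by
      intro h1
      apply he
      ext i
      fin_cases i
      · exact h0
      · exact h1
    exact ⟨![1, 0], by simp [om, h1]⟩
  · exact ⟨![0, 1], by simp [om, h0]⟩

theorem eq_one_of_mulVec (M : Matrix (Fin 2) (Fin 2) F) (h : ∀ x, M *ᵥ x = x) : M = 1 := by
  ext i j
  have hj := congrFun (h (Pi.single j 1)) i
  simpa [Matrix.mulVec_single_one, Matrix.one_apply, Pi.single_apply] using hj

theorem pow_fix {p : ℕ} [Fact p.Prime] [CharP F p] (g : Matrix.SpecialLinearGroup (Fin 2) F)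
    (e : Fin 2 → F) (he0 : e ≠ 0) (he : g.1 *ᵥ e = e) : g ^ p = 1 := by
  have key : ∀ (k : ℕ) (x : Fin 2 → F), (g ^ k).1 *ᵥ x = x + k • (g.1 *ᵥ x - x) := by
    intro k
    induction k with
    | zero =>
      intro x
      simp
    | succ k ih =>
      intro x
      have h1 : (g ^ (k + 1)).1 = g.1 * (g ^ k).1 := by
        rw [pow_succ']
        rfl
      have h2 : om e (g.1 *ᵥ x - x) = 0 := by rw [om_sub, F1 g e x he, sub_self]
      obtain ⟨c, hc⟩ := F4 e _ he0 h2
      have h3 : g.1 *ᵥ (g.1 *ᵥ x - x) = g.1 *ᵥ x - x := by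
        rw [hc, Matrix.mulVec_smul, he]
      rw [h1, ← Matrix.mulVec_mulVec, ih, Matrix.mulVec_add, Matrix.mulVec_smul, h3, succ_nsmul]
      abel
  apply Subtype.ext
  show (g ^ p).1 = 1
  apply eq_one_of_mulVec
  intro x
  rw [key p x]
  have : (p : ℕ) • (g.1 *ᵥ x - x) = 0 := by
    ext i
    simp [CharP.cast_eq_zero F p]
  rw [this, add_zero]

def stab (e : Fin 2 → F) : Subgroup (Matrix.SpecialLinearGroup (Fin 2) F) where
  carrier := {g | g.1 *ᵥ e = e}
  mul_mem' := by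
    intro a b ha hb
    simp only [Set.mem_setOf_eq] at *
    have h1 : (a * b).1 = a.1 * b.1 := rfl
    rw [h1, ← Matrix.mulVec_mulVec, hb, ha]
  one_mem' := by
    show (1 : Matrix (Fin 2) (Fin 2) F) *ᵥ e = e
    exact Matrix.one_mulVec e
  inv_mem' := by
    intro a ha
    simp only [Set.mem_setOf_eq] at *
    have h1 : (a⁻¹ * a).1 = (a⁻¹).1 * a.1 := rfl
    have h2 : (a⁻¹ * a).1 *ᵥ e = e := by
      rw [inv_mul_cancel]
      exact Matrix.one_mulVec e
    rw [h1, ← Matrix.mulVec_mulVec, ha] at h2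
    exact h2

theorem mem_stab (e : Fin 2 → F) (g : Matrix.SpecialLinearGroup (Fin 2) F) :
    g ∈ stab e ↔ g.1 *ᵥ e = e := Iff.rfl

theorem stab_pgroup {p : ℕ} [Fact p.Prime] [CharP F p] (e : Fin 2 → F) (he0 : e ≠ 0) :
    IsPGroup p (stab e) := by
  rintro ⟨g, hg⟩
  refine ⟨1, ?_⟩
  apply Subtype.ext
  rw [pow_one]
  exact pow_fix g e he0 hg

theorem main {G : Type*} [Group G] [Finite G] {p : ℕ} [Fact p.Prime] {F : Type*} [Field F] [Fintype F] (n : ℕ) (hF : Fintype.card F = p ^ n) (V L : Subgroup G) (hnat : Cfsg.IsNaturalSL2Module F V L) (hf : L ⊓ Subgroup.centralizer (V : Set G) = ⊥) (S : Sylow p ↥L) (T : Subgroup G) (hT : T = ((S : Subgroup ↥L).map L.subtype)) : ⁅⁅V, T⁆, T⁆ = ⊥ ∧ Nat.card V = p ^ (2 * n) ∧ Nat.card ↥(V ⊓ Subgroup.centralizer ((T : Subgroup G) : Set G)) = p ^ n ∧ ∀ s ∈ T, s ≠ 1 → (V ⊓ Subgroup.centralizer ({s} : Set G)) = (V ⊓ Subgroup.centralizer ((T : Subgroup G) : Set G)) ∧ ⁅V, T⁆ = (V ⊓ Subgroup.centralizer ((T : Subgroup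 G) : Set G)) ∧ ⁅V, Subgroup.zpowers s⁆ = (V ⊓ Subgroup.centralizer ((T : Subgroup G) : Set G)) ∧ ∀ v ∈ V, v ∉ Subgroup.centralizer (T : Set G) → Subgroup.closure {x : G | ∃ t ∈ T, x = v * t * v⁻¹ * t⁻¹} = (V ⊓ Subgroup.centralizer ((T : Subgroup G) : Set G)) := by
  obtain ⟨hLV, ρ, ψ, hsurj, hker, hact⟩ := hnat
  have hp : p.Prime := Fact.out
  -- characteristic
  haveI hch : CharP F p := by
    obtain ⟨r, hr⟩ := CharP.exists F
    haveI := hr
    have hrp : r.Prime := CharP.char_is_prime F r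
    have h0 : ((Fintype.card F : ℕ) : F) = 0 := Nat.cast_card_eq_zero F
    have h1 : r ∣ Fintype.card F := (CharP.cast_eq_zero_iff F r _).1 h0
    rw [hF] at h1
    have h2 : r = p := (Nat.prime_dvd_prime_iff_eq hrp hp).1 (hrp.dvd_of_dvd_pow h1)
    rw [← h2]
    exact hr
  have hn0 : n ≠ 0 := by
    rintro rfl
    have := Fintype.one_lt_card (α := F)
    rw [hF] at this
    simp at this
  -- ρ injective
  have hinj : Function.Injective ρ := by
    rw [injective_iff_map_eq_one]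
    intro l hl
    have h1 : l ∈ ρ.ker := hl
    rw [hker, Subgroup.mem_subgroupOf] at h1
    have h2 : (l : G) ∈ L ⊓ Subgroup.centralizer (V : Set G) := ⟨l.2, h1⟩
    rw [hf, Subgroup.mem_bot] at h2
    exact Subtype.ext h2
  let φ : V → (Fin 2 → F) := fun v => ψ (Additive.ofMul v)
  have φ_mul : ∀ a b : V, φ (a * b) = φ a + φ b :=
    fun a b => map_add ψ (Additive.ofMul a) (Additive.ofMul b)
  have φ_inv : ∀ a : V, φ a⁻¹ = - φ a := fun a => map_neg ψ (Additive.ofMul a)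
  have φ_inj : Function.Injective φ := fun a b h => Additive.ofMul.injective (ψ.injective h)
  have φ_surj : ∀ x, ∃ v : V, φ v = x := fun x => ⟨Additive.toMul (ψ.symm x), by simp [φ]⟩
  have hconj : ∀ (l : L) (v : V), ∃ w : V, (w : G) = (l : G) * v * (l : G)⁻¹ ∧
      φ w = (ρ l).1 *ᵥ φ v := hact
  -- Sylow structure
  obtain ⟨e, he0, hS⟩ : ∃ e : Fin 2 → F, e ≠ 0 ∧
      ∀ l : L, l ∈ (S : Subgroup L) ↔ (ρ l).1 *ᵥ e = e := by
    have hP : IsPGroup p ((S : Subgroup L).map ρ) := S.isPGroup'.map ρ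
    letI : MulAction ((S : Subgroup L).map ρ) (Fin 2 → F) :=
      { smul := fun g x => g.1.1 *ᵥ x
        one_smul := fun x => Matrix.one_mulVec x
        mul_smul := fun a b x => (Matrix.mulVec_mulVec x a.1.1 b.1.1).symm }
    have hdiv : p ∣ Nat.card (Fin 2 → F) := by
      rw [Nat.card_eq_fintype_card, Fintype.card_fun, Fintype.card_fin, hF]
      exact dvd_pow (dvd_pow_self p hn0) two_ne_zero
    have h0 : (0 : Fin 2 → F) ∈ MulAction.fixedPoints ((S : Subgroup L).map ρ) (Fin 2 → F) :=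
      fun g => Matrix.mulVec_zero _
    obtain ⟨e, he, hne⟩ := hP.exists_fixed_point_of_prime_dvd_card_of_fixed_point (Fin 2 → F) hdiv h0
    refine ⟨e, hne.symm, ?_⟩
    have hfix : ∀ l ∈ (S : Subgroup L), (ρ l).1 *ᵥ e = e :=
      fun l hl => he ⟨ρ l, Subgroup.mem_map_of_mem ρ hl⟩
    have hQp : IsPGroup p ((stab e).comap ρ) :=
      (stab_pgroup (p := p) e hne.symm).comap_of_injective ρ hinj
    have hSQ : (S : Subgroup L) ≤ (stab e).comap ρ := fun l hl => hfix l hl
    have hQS := S.is_maximal' hQp hSQ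
    intro l
    rw [← hQS]
    rfl
  have hTmem : ∀ t : G, t ∈ T ↔ ∃ ht : t ∈ L, (ρ ⟨t, ht⟩).1 *ᵥ e = e := by
    intro t
    rw [hT, Subgroup.mem_map]
    constructor
    · rintro ⟨l, hl, rfl⟩
      exact ⟨l.2, (hS l).1 hl⟩
    · rintro ⟨ht, h⟩
      exact ⟨⟨t, ht⟩, (hS _).2 h, rfl⟩
  have hcomm : ∀ (v : V) (l : L), ∃ w : V, (w : G) = (v : G) * l * (v : G)⁻¹ * (l : G)⁻¹ ∧
      φ w = φ v - (ρ l).1 *ᵥ φ v := by
    intro v l
    obtain ⟨w, hw, hφ⟩ := hconj l v⁻¹
    refine ⟨v * w, ?_, ?_⟩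
    · rw [Subgroup.coe_mul, hw]
      simp [mul_assoc]
    · rw [φ_mul, hφ, φ_inv, Matrix.mulVec_neg]
      abel
  have hZ : ∀ g : G, g ∈ V ⊓ Subgroup.centralizer (T : Set G) ↔
      ∃ h : g ∈ V, om e (φ ⟨g, h⟩) = 0 := by
    intro g
    constructor
    · rintro ⟨hgV, hgC⟩
      refine ⟨hgV, ?_⟩
      by_contra hne
      obtain ⟨l, hl⟩ := hsurj (tau e 1)
      have hle : (ρ l).1 *ᵥ e = e := by
        rw [hl]
        exact tau_e e 1
      have hlT : (l : G) ∈ T := (hTmem _).2 ⟨l.2, hle⟩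
      have hc := (Subgroup.mem_centralizer_iff.1 hgC) l hlT
      obtain ⟨w, hw, hφ⟩ := hconj l ⟨g, hgV⟩
      have hwg : w = ⟨g, hgV⟩ := by
        apply Subtype.ext
        rw [hw]
        show (l : G) * g * (l : G)⁻¹ = g
        rw [hc]
        group
      rw [hwg, hl, tau_x] at hφ
      have h3 : (1 * om e (φ ⟨g, hgV⟩)) • e = 0 := by
        have := hφ
        rwa [left_eq_add] at this
      rcases smul_eq_zero.1 h3 with h | h
      · exact hne (by simpa using h)
      · exact he0 h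
    · rintro ⟨hgV, hom⟩
      refine ⟨hgV, Subgroup.mem_centralizer_iff.2 ?_⟩
      intro t ht
      obtain ⟨htL, hte⟩ := (hTmem t).1 ht
      obtain ⟨c, hc⟩ := F4 e _ he0 hom
      obtain ⟨w, hw, hφ⟩ := hconj ⟨t, htL⟩ ⟨g, hgV⟩
      have hwg : w = ⟨g, hgV⟩ := by
        apply φ_inj
        rw [hφ, hc, Matrix.mulVec_smul, hte]
      have h5 : t * g * t⁻¹ = g := by
        have := congrArg Subtype.val hwg
        rw [hw] at this
        exact this
      calc t * g = t * g * t⁻¹ * t := by group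
        _ = g * t := by rw [h5]
  have hVT : ⁅V, T⁆ ≤ V ⊓ Subgroup.centralizer (T : Set G) := by
    rw [Subgroup.commutator_le]
    intro v hv t ht
    obtain ⟨htL, hte⟩ := (hTmem t).1 ht
    obtain ⟨w, hw, hφ⟩ := hcomm ⟨v, hv⟩ ⟨t, htL⟩
    have h1 : ⁅v, t⁆ = (w : G) := by
      rw [hw, commutatorElement_def]
    rw [h1, hZ]
    exact ⟨w.2, by rw [hφ, om_sub, F1 _ _ _ hte, sub_self]⟩
  refine ⟨?_, ?_, ?_, ?_⟩
  · exact Subgroup.commutator_eq_bot_iff_le_centralizer.2 (hVT.trans inf_le_right)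
  · rw [Nat.card_congr (Additive.ofMul.trans ψ.toEquiv), Nat.card_eq_fintype_card,
      Fintype.card_fun, Fintype.card_fin, hF, ← pow_mul, mul_comm]
  · have hmemf : ∀ c : F, ((Additive.toMul (ψ.symm (c • e)) : V) : G) ∈
        V ⊓ Subgroup.centralizer (T : Set G) := by
      intro c
      rw [hZ]
      refine ⟨(Additive.toMul (ψ.symm (c • e)) : V).2, ?_⟩
      have : φ ⟨((Additive.toMul (ψ.symm (c • e)) : V) : G),
          (Additive.toMul (ψ.symm (c • e)) : V).2⟩ = c • e := by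
        simp [φ]
      rw [this, om_smul, om_self, mul_zero]
    let f : F → ↥(V ⊓ Subgroup.centralizer (T : Set G)) := fun c => ⟨_, hmemf c⟩
    have hfinj : Function.Injective f := by
      intro c c' h
      have h1 : ((Additive.toMul (ψ.symm (c • e)) : V) : G) =
          ((Additive.toMul (ψ.symm (c' • e)) : V) : G) := by
        have h0 := congrArg (fun z : ↥(V ⊓ Subgroup.centralizer (T : Set G)) => (z : G)) h
        exact h0
      have h2 : ψ.symm (c • e) = ψ.symm (c' • e) := Additive.toMul.injective (Subtype.ext h1)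
      have h3 : c • e = c' • e := ψ.symm.injective h2
      have h4 : (c - c') • e = 0 := by rw [sub_smul, h3, sub_self]
      rcases smul_eq_zero.1 h4 with h | h
      · exact sub_eq_zero.1 h
      · exact absurd h he0
    have hfsurj : Function.Surjective f := by
      rintro ⟨z, hz⟩
      obtain ⟨hzV, hom⟩ := (hZ z).1 hz
      obtain ⟨c, hc⟩ := F4 e _ he0 hom
      refine ⟨c, ?_⟩
      apply Subtype.ext
      show ((Additive.toMul (ψ.symm (c • e)) : V) : G) = z
      rw [← hc]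
      simp [φ]
    rw [← Nat.card_congr (Equiv.ofBijective f ⟨hfinj, hfsurj⟩), Nat.card_eq_fintype_card, hF]
  · intro s hs hs1
    obtain ⟨hsL, hse⟩ := (hTmem s).1 hs
    have hρs : ρ ⟨s, hsL⟩ ≠ 1 := by
      intro h
      apply hs1
      have := hinj (h.trans (map_one ρ).symm)
      exact congrArg Subtype.val this
    have hZs : V ⊓ Subgroup.centralizer (T : Set G) ≤ ⁅V, Subgroup.zpowers s⁆ := by
      intro g hg
      obtain ⟨hgV, hom⟩ := (hZ g).1 hg
      obtain ⟨c, hc⟩ := F4 e _ he0 hom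
      obtain ⟨x₀, hx₀⟩ := exists_x e he0
      have h1 : om e ((ρ ⟨s, hsL⟩).1 *ᵥ x₀ - x₀) = 0 := by
        rw [om_sub, F1 _ _ _ hse, sub_self]
      obtain ⟨c₀, hc₀⟩ := F4 e _ he0 h1
      have hc₀0 : c₀ ≠ 0 := by
        rintro rfl
        rw [zero_smul, sub_eq_zero] at hc₀
        exact hρs (F2 _ e x₀ hse hc₀ hx₀)
      obtain ⟨v, hv⟩ := φ_surj ((-(c / c₀)) • x₀)
      obtain ⟨w, hw, hφ⟩ := hcomm v ⟨s, hsL⟩
      have hwg : w = ⟨g, hgV⟩ := by
        apply φ_inj
        rw [hφ, hv, hc, Matrix.mulVec_smul, ← smul_sub]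
        have h6 : x₀ - (ρ ⟨s, hsL⟩).1 *ᵥ x₀ = (-c₀) • e := by
          rw [neg_smul, ← hc₀]
          abel
        rw [h6, smul_smul]
        congr 1
        field_simp
      have h7 : g = ⁅(v : G), s⁆ := by
        rw [commutatorElement_def, ← hw, hwg]
      rw [h7]
      exact Subgroup.commutator_mem_commutator v.2 (Subgroup.mem_zpowers s)
    have hzT : Subgroup.zpowers s ≤ T := Subgroup.zpowers_le.2 hs
    refine ⟨?_, ?_, ?_, ?_⟩
    · apply le_antisymm
      · rintro g ⟨hgV, hgC⟩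
        rw [hZ]
        refine ⟨hgV, ?_⟩
        by_contra hne
        have hc := Subgroup.mem_centralizer_iff.1 hgC s (Set.mem_singleton s)
        obtain ⟨w, hw, hφ⟩ := hconj ⟨s, hsL⟩ ⟨g, hgV⟩
        have hwg : w = ⟨g, hgV⟩ := by
          apply Subtype.ext
          rw [hw]
          show s * g * s⁻¹ = g
          rw [hc]
          group
        rw [hwg] at hφ
        exact hρs (F2 _ e _ hse hφ.symm hne)
      · exact inf_le_inf_left V (Subgroup.centralizer_le (Set.singleton_subset_iff.2 hs))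
    · exact le_antisymm hVT (hZs.trans (Subgroup.commutator_mono le_rfl hzT))
    · exact le_antisymm ((Subgroup.commutator_mono le_rfl hzT).trans hVT) hZs
    · intro v hvV hvC
      apply le_antisymm
      · rw [Subgroup.closure_le]
        rintro x ⟨t, ht, rfl⟩
        have := Subgroup.commutator_mem_commutator hvV ht
        rw [commutatorElement_def] at this
        exact hVT this
      · intro g hg
        obtain ⟨hgV, hom⟩ := (hZ g).1 hg
        obtain ⟨c, hc⟩ := F4 e _ he0 hom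
        have hvZ : om e (φ ⟨v, hvV⟩) ≠ 0 := fun h => hvC ((hZ v).2 ⟨hvV, h⟩).2
        obtain ⟨l, hl⟩ := hsurj (tau e (-(c / om e (φ ⟨v, hvV⟩))))
        have hle : (ρ l).1 *ᵥ e = e := by
          rw [hl]
          exact tau_e _ _
        have hlT : (l : G) ∈ T := (hTmem _).2 ⟨l.2, hle⟩
        obtain ⟨w, hw, hφ⟩ := hcomm ⟨v, hvV⟩ l
        have hwg : w = ⟨g, hgV⟩ := by
          apply φ_inj
          rw [hφ, hl, tau_x, hc, sub_add_cancel_left, ← neg_smul]
          congr 1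
          field_simp
        apply Subgroup.subset_closure
        exact ⟨l, hlT, by rw [← hw, hwg]⟩

theorem result {G : Type*} [Group G] [Finite G] {p : ℕ} [Fact p.Prime] {F : Type*} [Field F] [Fintype F] (n : ℕ) (hF : Fintype.card F = p ^ n) (V L : Subgroup G) (hnat : Cfsg.IsNaturalSL2Module F V L) (hf : L ⊓ Subgroup.centralizer (V : Set G) = ⊥) (S : Sylow p ↥L) (T : Subgroup G) (hT : T = ((S : Subgroup ↥L).map L.subtype)) : ⁅⁅V, T⁆, T⁆ = ⊥ ∧ Nat.card V = p ^ (2 * n) ∧ Nat.card ↥(V ⊓ Subgroup.centralizer ((T : Subgroup G) : Set G)) = p ^ n ∧ ∀ s ∈ T, s ≠ 1 → (V ⊓ Subgroup.centralizer ({s} : Set G)) = (V ⊓ Subgroup.centralizer ((T : Subgroup G) : Set G)) ∧ ⁅V, T⁆ = (V ⊓ Subgroup.centralizer ((T : Subgroup G) : Set G)) ∧ ⁅V, Subgroup.zpowers s⁆ = (V ⊓ Subgroup.centralizer ((T : Subgroup G) : Set G)) ∧ ∀ v ∈ V, v ∉ Subgroup.centralizer (T : Set G) → Subgroup.closure {x : G | ∃ t ∈ T, x = v * t * v⁻¹ * t⁻¹} = (V ⊓ Subgroup.centralizer ((T :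 Subgroup G) : Set G)) := by
  exact main n hF V L hnat hf S T hT

end Cfsg.Agent.S2779
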