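import Cfsg.Statements.S2780
import Cfsg.Agent.S2779

set_option autoImplicit false
open Cfsg


namespace Cfsg.Agent.S2780

open Matrix
open Cfsg.Agent.S2779 (om om_sub om_smul om_self F1 F2 tau tau_e tau_x F4 exists_x
  eq_one_of_mulVec pow_fix stab mem_stab stab_pgroup)

variable {F : Type*} [Field F]

theorem om_swap (a b : Fin 2 → F) : om a b = - om b a := by
  simp only [om]
  ring

theorem om_add (e x y : Fin 2 → F) : om e (x + y) = om e x + om e y := by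
  simp only [om, Pi.add_apply]
  ring

theorem cramer (e x y : Fin 2 → F) (h : om e x ≠ 0) :
    y = (om y x / om e x) • e + (om e y / om e x) • x := by
  ext i
  have key : y i = (om y x * e i + om e y * x i) / om e x := by
    rw [eq_div_iff h]
    fin_cases i <;> simp [om] <;> ring
  simp only [Pi.add_apply, Pi.smul_apply, smul_eq_mul]
  rw [div_mul_eq_mul_div, div_mul_eq_mul_div, ← add_div]
  exact key

theorem sl_mul (A B : Matrix.SpecialLinearGroup (Fin 2) F) (v : Fin 2 → F) :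
    (A * B).1 *ᵥ v = A.1 *ᵥ (B.1 *ᵥ v) := by
  rw [show (A * B).1 = A.1 * B.1 from rfl, Matrix.mulVec_mulVec]

theorem sl_inv_cancel (A : Matrix.SpecialLinearGroup (Fin 2) F) (v : Fin 2 → F) :
    (A⁻¹).1 *ᵥ (A.1 *ᵥ v) = v := by
  rw [← sl_mul, inv_mul_cancel]
  exact Matrix.one_mulVec v

theorem sl_cancel_inv (A : Matrix.SpecialLinearGroup (Fin 2) F) (v : Fin 2 → F) :
    A.1 *ᵥ ((A⁻¹).1 *ᵥ v) = v := by
  rw [← sl_mul, mul_inv_cancel]
  exact Matrix.one_mulVec v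

theorem eig_ne_zero (A : Matrix.SpecialLinearGroup (Fin 2) F) (e : Fin 2 → F) (he : e ≠ 0)
    (c : F) (hA : A.1 *ᵥ e = c • e) : c ≠ 0 := by
  rintro rfl
  rw [zero_smul] at hA
  apply he
  have := sl_inv_cancel A e
  rw [hA, Matrix.mulVec_zero] at this
  exact this.symm

theorem inv_eig (A : Matrix.SpecialLinearGroup (Fin 2) F) (e : Fin 2 → F)
    (c : F) (hc : c ≠ 0) (hA : A.1 *ᵥ e = c • e) : (A⁻¹).1 *ᵥ e = c⁻¹ • e := by
  have h := sl_inv_cancel A e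
  rw [hA, Matrix.mulVec_smul] at h
  calc (A⁻¹).1 *ᵥ e = c⁻¹ • (c • ((A⁻¹).1 *ᵥ e)) := by
        rw [smul_smul, inv_mul_cancel₀ hc, one_smul]
    _ = c⁻¹ • e := by rw [h]

theorem conj_fix (A B : Matrix.SpecialLinearGroup (Fin 2) F) (e : Fin 2 → F) (c : F) (hc : c ≠ 0)
    (hA : A.1 *ᵥ e = c • e) (hB : B.1 *ᵥ e = e) : (A * B * A⁻¹).1 *ᵥ e = e := by
  rw [sl_mul, sl_mul, inv_eig A e c hc hA, Matrix.mulVec_smul, hB, Matrix.mulVec_smul, hA,
    smul_smul, inv_mul_cancel₀ hc, one_smul]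

theorem conj_fix' (A B : Matrix.SpecialLinearGroup (Fin 2) F) (e : Fin 2 → F) (c : F) (hc : c ≠ 0)
    (hA : A.1 *ᵥ e = c • e) (hB : B.1 *ᵥ e = e) : (A⁻¹ * B * A).1 *ᵥ e = e := by
  rw [sl_mul, sl_mul, hA, Matrix.mulVec_smul, hB, Matrix.mulVec_smul, inv_eig A e c hc hA,
    smul_smul, mul_inv_cancel₀ hc, one_smul]

def tor (e x : Fin 2 → F) (a : F) : Matrix (Fin 2) (Fin 2) F :=
  !![(om e x)⁻¹ * (a * e 0 * x 1 - a⁻¹ * x 0 * e 1), (om e x)⁻¹ * (-(a * e 0 * x 0) + a⁻¹ * x 0 * e 0);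
     (om e x)⁻¹ * (a * e 1 * x 1 - a⁻¹ * x 1 * e 1), (om e x)⁻¹ * (-(a * e 1 * x 0) + a⁻¹ * x 1 * e 0)]

theorem tor_det (e x : Fin 2 → F) (a : F) (h : om e x ≠ 0) (ha : a ≠ 0) : (tor e x a).det = 1 := by
  have h' : e 0 * x 1 - e 1 * x 0 ≠ 0 := h
  rw [tor, Matrix.det_fin_two_of]
  simp only [om]
  field_simp
  ring

theorem tor_e (e x : Fin 2 → F) (a : F) (h : om e x ≠ 0) (ha : a ≠ 0) :
    tor e x a *ᵥ e = a • e := by
  have h' : e 0 * x 1 - e 1 * x 0 ≠ 0 := h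
  ext i
  fin_cases i
  · simp [tor, om, Matrix.mulVec, dotProduct, Fin.sum_univ_two]
    field_simp
    ring
  · simp [tor, om, Matrix.mulVec, dotProduct, Fin.sum_univ_two]
    field_simp
    ring

theorem tor_x (e x : Fin 2 → F) (a : F) (h : om e x ≠ 0) (ha : a ≠ 0) :
    tor e x a *ᵥ x = a⁻¹ • x := by
  have h' : e 0 * x 1 - e 1 * x 0 ≠ 0 := h
  ext i
  fin_cases i
  · simp [tor, om, Matrix.mulVec, dotProduct, Fin.sum_univ_two]
    field_simp
    ring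
  · simp [tor, om, Matrix.mulVec, dotProduct, Fin.sum_univ_two]
    field_simp
    ring

theorem main {G : Type*} [Group G] [Finite G] {p : ℕ} [Fact p.Prime] {F : Type*} [Field F] [Fintype F] (n : ℕ) (hF : Fintype.card F = p ^ n) (V L : Subgroup G) (hnat : Cfsg.IsNaturalSL2Module F V L) (hf : L ⊓ Subgroup.centralizer (V : Set G) = ⊥) (S : Sylow p ↥L) (T : Subgroup G) (hT : T = ((S : Subgroup ↥L).map L.subtype)) : (∀ g ∈ L, g ∉ Subgroup.normalizer (T : Set G) → Cfsg.IsInternalDirectProduct (V ⊓ Subgroup.centralizer ((T : Subgroup G) : Set G)) (V ⊓ Subgroup.centralizer ((T.map (MulAut.conj g).toMonoidHom : Subgroup G) : Set G)) V) ∧ (∀ x ∈ L, x ≠ 1 → (orderOf x).Coprime p → (V ⊓ Subgroup.centralizer ({x} : Set G)) = ⊥) ∧ (∀ U : Subgroup G, U ≤ (V ⊓ Subgroup.centralizer ((T : Subgroup G) : Set G)) → L ⊓ Subgroup.normalizer (T : Set G) ≤ Subgroup.normalizer (U : Set G) → U = ⊥ ∨ U = (V ⊓ Subgroup.centralizer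 ((T : Subgroup G) : Set G))) ∧ (∀ U : Subgroup G, (V ⊓ Subgroup.centralizer ((T : Subgroup G) : Set G)) ≤ U → U ≤ V → L ⊓ Subgroup.normalizer (T : Set G) ≤ Subgroup.normalizer (U : Set G) → U = (V ⊓ Subgroup.centralizer ((T : Subgroup G) : Set G)) ∨ U = V) := by
  obtain ⟨hLV, ρ, ψ, hsurj, hker, hact⟩ := hnat
  have hp : p.Prime := Fact.out
  haveI hch : CharP F p := by
    obtain ⟨r, hr⟩ := CharP.exists F
    haveI := hr
    have hrp : r.Prime := CharP.char_is_prime F r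
    have h0 : ((Fintype.card F : ℕ) : F) = 0 := Nat.cast_card_eq_zero F
    have h1 : r ∣ Fintype.card F := (CharP.cast_eq_zero_iff F r _).1 h0
    rw [hF] at h1
    have h2 : r = p := (Nat.prime_dvd_prime_iff_eq hrp hp).1 (hrp.dvd_of_dvd_pow h1)
    rw [← h2]
    exact hr
  have hn0 : n ≠ 0 := by
    rintro rfl
    have := Fintype.one_lt_card (α := F)
    rw [hF] at this
    simp at this
  have hinj : Function.Injective ρ := by
    rw [injective_iff_map_eq_one]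
    intro l hl
    have h1 : l ∈ ρ.ker := hl
    rw [hker, Subgroup.mem_subgroupOf] at h1
    have h2 : (l : G) ∈ L ⊓ Subgroup.centralizer (V : Set G) := ⟨l.2, h1⟩
    rw [hf, Subgroup.mem_bot] at h2
    exact Subtype.ext h2
  let φ : V → (Fin 2 → F) := fun v => ψ (Additive.ofMul v)
  have φ_mul : ∀ a b : V, φ (a * b) = φ a + φ b :=
    fun a b => map_add ψ (Additive.ofMul a) (Additive.ofMul b)
  have φ_one : φ 1 = 0 := map_zero ψ
  have φ_inj : Function.Injective φ := fun a b h => Additive.ofMul.injective (ψ.injective h)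
  have φ_surj : ∀ x, ∃ v : V, φ v = x := fun x => ⟨Additive.toMul (ψ.symm x), by simp [φ]⟩
  have φ_eq_zero : ∀ v : V, φ v = 0 → v = 1 := fun v h => φ_inj (h.trans φ_one.symm)
  have hVcomm : ∀ a b : V, a * b = b * a := fun a b => φ_inj (by rw [φ_mul, φ_mul, add_comm])
  have hconj : ∀ (l : L) (v : V), ∃ w : V, (w : G) = (l : G) * v * (l : G)⁻¹ ∧
      φ w = (ρ l).1 *ᵥ φ v := hact
  have hcjmem : ∀ (l : L) (g : G) (hg : g ∈ V), (l : G) * g * (l : G)⁻¹ ∈ V := by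
    intro l g hg
    obtain ⟨w, hw, _⟩ := hconj l ⟨g, hg⟩
    have : (w : G) = (l : G) * g * (l : G)⁻¹ := hw
    rw [← this]
    exact w.2
  have hkey : ∀ (l : L) (g : G) (hg : g ∈ V) (g' : G) (hg' : g' ∈ V),
      (l : G) * g * (l : G)⁻¹ = g' → φ ⟨g', hg'⟩ = (ρ l).1 *ᵥ φ ⟨g, hg⟩ := by
    intro l g hg g' hg' h
    obtain ⟨w, hw, hφ⟩ := hconj l ⟨g, hg⟩
    have : w = ⟨g', hg'⟩ := Subtype.ext (hw.trans h)
    rw [← this]
    exact hφ
  have hkey2 : ∀ (l : L) (g : G) (hg : g ∈ V) (g' : G) (hg' : g' ∈ V),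
      φ ⟨g', hg'⟩ = (ρ l).1 *ᵥ φ ⟨g, hg⟩ → (l : G) * g * (l : G)⁻¹ = g' := by
    intro l g hg g' hg' h
    obtain ⟨w, hw, hφ⟩ := hconj l ⟨g, hg⟩
    have h1 : w = ⟨g', hg'⟩ := φ_inj (hφ.trans h.symm)
    have h2 : (w : G) = g' := congrArg Subtype.val h1
    rw [← h2]
    exact hw.symm
  -- Sylow structure
  obtain ⟨e, he0, hS⟩ : ∃ e : Fin 2 → F, e ≠ 0 ∧
      ∀ l : L, l ∈ (S : Subgroup L) ↔ (ρ l).1 *ᵥ e = e := by
    have hP : IsPGroup p ((S : Subgroup L).map ρ) := S.isPGroup'.map ρ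
    letI : MulAction ((S : Subgroup L).map ρ) (Fin 2 → F) :=
      { smul := fun g x => g.1.1 *ᵥ x
        one_smul := fun x => Matrix.one_mulVec x
        mul_smul := fun a b x => (Matrix.mulVec_mulVec x a.1.1 b.1.1).symm }
    have hdiv : p ∣ Nat.card (Fin 2 → F) := by
      rw [Nat.card_eq_fintype_card, Fintype.card_fun, Fintype.card_fin, hF]
      exact dvd_pow (dvd_pow_self p hn0) two_ne_zero
    have h0 : (0 : Fin 2 → F) ∈ MulAction.fixedPoints ((S : Subgroup L).map ρ) (Fin 2 → F) :=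
      fun g => Matrix.mulVec_zero _
    obtain ⟨e, he, hne⟩ := hP.exists_fixed_point_of_prime_dvd_card_of_fixed_point (Fin 2 → F) hdiv h0
    refine ⟨e, hne.symm, ?_⟩
    have hfix : ∀ l ∈ (S : Subgroup L), (ρ l).1 *ᵥ e = e :=
      fun l hl => he ⟨ρ l, Subgroup.mem_map_of_mem ρ hl⟩
    have hQp : IsPGroup p ((stab e).comap ρ) :=
      (stab_pgroup (p := p) e hne.symm).comap_of_injective ρ hinj
    have hSQ : (S : Subgroup L) ≤ (stab e).comap ρ := fun l hl => hfix l hl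
    have hQS := S.is_maximal' hQp hSQ
    intro l
    rw [← hQS]
    rfl
  have hTmem : ∀ t : G, t ∈ T ↔ ∃ ht : t ∈ L, (ρ ⟨t, ht⟩).1 *ᵥ e = e := by
    intro t
    rw [hT, Subgroup.mem_map]
    constructor
    · rintro ⟨l, hl, rfl⟩
      exact ⟨l.2, (hS l).1 hl⟩
    · rintro ⟨ht, h⟩
      exact ⟨⟨t, ht⟩, (hS _).2 h, rfl⟩
  have hZgen : ∀ (e₁ : Fin 2 → F), e₁ ≠ 0 → ∀ T₁ : Subgroup G,
      (∀ t : G, t ∈ T₁ ↔ ∃ ht : t ∈ L, (ρ ⟨t, ht⟩).1 *ᵥ e₁ = e₁) →
      ∀ g : G, g ∈ V ⊓ Subgroup.centralizer (T₁ : Set G) ↔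
        ∃ h : g ∈ V, om e₁ (φ ⟨g, h⟩) = 0 := by
    intro e₁ he₁ T₁ hT₁ g
    constructor
    · rintro ⟨hgV, hgC⟩
      refine ⟨hgV, ?_⟩
      by_contra hne
      obtain ⟨l, hl⟩ := hsurj (tau e₁ 1)
      have hle : (ρ l).1 *ᵥ e₁ = e₁ := by
        rw [hl]
        exact tau_e e₁ 1
      have hlT : (l : G) ∈ T₁ := (hT₁ _).2 ⟨l.2, hle⟩
      have hc := (Subgroup.mem_centralizer_iff.1 hgC) l hlT
      have h5 : (l : G) * g * (l : G)⁻¹ = g := by
        rw [hc]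
        group
      have hφ := hkey l g hgV g hgV h5
      rw [hl, tau_x] at hφ
      have h3 : (1 * om e₁ (φ ⟨g, hgV⟩)) • e₁ = 0 := by
        have := hφ
        rwa [left_eq_add] at this
      rcases smul_eq_zero.1 h3 with h | h
      · exact hne (by simpa using h)
      · exact he₁ h
    · rintro ⟨hgV, hom⟩
      refine ⟨hgV, Subgroup.mem_centralizer_iff.2 ?_⟩
      intro t ht
      obtain ⟨htL, hte⟩ := (hT₁ t).1 ht
      obtain ⟨c, hc⟩ := F4 e₁ _ he₁ hom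
      have h5 : t * g * t⁻¹ = g := by
        apply hkey2 ⟨t, htL⟩ g hgV g hgV
        rw [hc, Matrix.mulVec_smul, hte]
      calc t * g = t * g * t⁻¹ * t := by group
        _ = g * t := by rw [h5]
  have hZ := hZgen e he0 T hTmem
  have hnorm : ∀ (l : L) (c : F), (ρ l).1 *ᵥ e = c • e →
      (l : G) ∈ Subgroup.normalizer (T : Set G) := by
    intro l c hc
    have hc0 : c ≠ 0 := eig_ne_zero _ e he0 c hc
    rw [Subgroup.mem_normalizer_iff]
    intro m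
    constructor
    · intro hm
      obtain ⟨hmL, hme⟩ := (hTmem m).1 hm
      rw [hTmem]
      have h1 : (l : G) * m * (l : G)⁻¹ ∈ L := L.mul_mem (L.mul_mem l.2 hmL) (L.inv_mem l.2)
      refine ⟨h1, ?_⟩
      have h2 : (⟨(l : G) * m * (l : G)⁻¹, h1⟩ : L) = l * ⟨m, hmL⟩ * l⁻¹ := rfl
      rw [h2, map_mul, map_mul, map_inv]
      exact conj_fix _ _ e c hc0 hc hme
    · intro hm
      obtain ⟨h1, h2⟩ := (hTmem _).1 hm
      rw [hTmem]
      have hmL : m ∈ L := by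
        have : m = (l : G)⁻¹ * ((l : G) * m * (l : G)⁻¹) * (l : G) := by group
        rw [this]
        exact L.mul_mem (L.mul_mem (L.inv_mem l.2) h1) l.2
      refine ⟨hmL, ?_⟩
      have h3 : (⟨m, hmL⟩ : L) = l⁻¹ * ⟨(l : G) * m * (l : G)⁻¹, h1⟩ * l := by
        apply Subtype.ext
        show m = (l : G)⁻¹ * ((l : G) * m * (l : G)⁻¹) * (l : G)
        group
      rw [h3, map_mul, map_mul, map_inv]
      exact conj_fix' _ _ e c hc0 hc h2
  refine ⟨?_, ?_, ?_, ?_⟩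
  · intro g hgL hgN
    obtain ⟨e', he'⟩ : ∃ e' : Fin 2 → F, e' = (ρ ⟨g, hgL⟩).1 *ᵥ e := ⟨_, rfl⟩
    have he'0 : e' ≠ 0 := by
      intro h
      apply he0
      have := sl_inv_cancel (ρ ⟨g, hgL⟩) e
      rw [← he', h, Matrix.mulVec_zero] at this
      exact this.symm
    have hω : om e e' ≠ 0 := by
      intro h
      obtain ⟨c, hc⟩ := F4 e e' he0 h
      exact hgN (hnorm ⟨g, hgL⟩ c (he' ▸ hc))
    have hT' : ∀ t : G, t ∈ T.map (MulAut.conj g).toMonoidHom ↔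
        ∃ ht : t ∈ L, (ρ ⟨t, ht⟩).1 *ᵥ e' = e' := by
      intro t
      rw [Subgroup.mem_map]
      constructor
      · rintro ⟨m, hm, hmt⟩
        have hmt' : g * m * g⁻¹ = t := hmt
        subst hmt'
        obtain ⟨hmL, hme⟩ := (hTmem m).1 hm
        have h1 : g * m * g⁻¹ ∈ L := L.mul_mem (L.mul_mem hgL hmL) (L.inv_mem hgL)
        refine ⟨h1, ?_⟩
        have h2 : (⟨g * m * g⁻¹, h1⟩ : L) = ⟨g, hgL⟩ * ⟨m, hmL⟩ * ⟨g, hgL⟩⁻¹ := rfl
        rw [h2, map_mul, map_mul, map_inv, he', sl_mul, sl_mul, sl_inv_cancel, hme]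
      · rintro ⟨htL, hte⟩
        refine ⟨g⁻¹ * t * g, ?_, ?_⟩
        · rw [hTmem]
          have h1 : g⁻¹ * t * g ∈ L := L.mul_mem (L.mul_mem (L.inv_mem hgL) htL) hgL
          refine ⟨h1, ?_⟩
          have h2 : (⟨g⁻¹ * t * g, h1⟩ : L) = ⟨g, hgL⟩⁻¹ * ⟨t, htL⟩ * ⟨g, hgL⟩ := rfl
          rw [h2, map_mul, map_mul, map_inv, sl_mul, sl_mul, ← he', hte, he', sl_inv_cancel]
        · show g * (g⁻¹ * t * g) * g⁻¹ = t
          group
    have hZ' := hZgen e' he'0 _ hT'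
    refine ⟨inf_le_left, inf_le_left, ?_, ?_, ?_⟩
    · intro a ha b hb
      have := hVcomm ⟨a, ha.1⟩ ⟨b, hb.1⟩
      exact congrArg Subtype.val this
    · rw [Subgroup.eq_bot_iff_forall]
      rintro x ⟨hx1, hx2⟩
      obtain ⟨hxV, h1⟩ := (hZ x).1 hx1
      obtain ⟨hxV', h2⟩ := (hZ' x).1 hx2
      have h3 := cramer e e' (φ ⟨x, hxV⟩) hω
      rw [h1, om_swap (φ ⟨x, hxV⟩) e', h2] at h3
      have h4 : φ ⟨x, hxV⟩ = 0 := by
        rw [h3]
        simp
      exact congrArg Subtype.val (φ_eq_zero _ h4)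
    · apply le_antisymm (sup_le inf_le_left inf_le_left)
      intro v hv
      have h3 := cramer e e' (φ ⟨v, hv⟩) hω
      obtain ⟨z, hz⟩ := φ_surj ((om (φ ⟨v, hv⟩) e' / om e e') • e)
      obtain ⟨z', hz'⟩ := φ_surj ((om e (φ ⟨v, hv⟩) / om e e') • e')
      have hv' : (⟨v, hv⟩ : V) = z * z' := by
        apply φ_inj
        rw [φ_mul, hz, hz']
        exact h3
      have h5 : v = (z : G) * (z' : G) := congrArg Subtype.val hv'
      rw [h5]
      apply Subgroup.mul_mem_sup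
      · rw [hZ]
        exact ⟨z.2, by rw [hz, om_smul, om_self, mul_zero]⟩
      · rw [hZ']
        exact ⟨z'.2, by rw [hz', om_smul, om_self, mul_zero]⟩
  · intro x hxL hx1 hcop
    rw [Subgroup.eq_bot_iff_forall]
    rintro v ⟨hvV, hvC⟩
    by_contra hv1
    have hc := Subgroup.mem_centralizer_iff.1 hvC x (Set.mem_singleton x)
    have h5 : x * v * x⁻¹ = v := by
      rw [hc]
      group
    have hφ := hkey ⟨x, hxL⟩ v hvV v hvV h5
    have hφ0 : φ ⟨v, hvV⟩ ≠ 0 := fun h => hv1 (congrArg Subtype.val (φ_eq_zero _ h))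
    have h6 : (ρ ⟨x, hxL⟩) ^ p = 1 := pow_fix _ _ hφ0 hφ.symm
    have h7 : (⟨x, hxL⟩ : L) ^ p = 1 := hinj (by rw [map_pow, h6, map_one])
    have h8 : x ^ p = 1 := by
      have := congrArg Subtype.val h7
      simpa using this
    have h9 : orderOf x ∣ p := orderOf_dvd_of_pow_eq_one h8
    have h10 : orderOf x = 1 := Nat.Coprime.eq_one_of_dvd hcop h9
    exact hx1 (orderOf_eq_one_iff.1 h10)
  · intro U hUZ hN
    by_cases hU : U = ⊥
    · exact Or.inl hU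
    · right
      apply le_antisymm hUZ
      obtain ⟨u₀, hu₀U, hu₀1⟩ : ∃ u₀ ∈ U, u₀ ≠ 1 := by
        by_contra hcon
        push_neg at hcon
        exact hU ((Subgroup.eq_bot_iff_forall U).2 hcon)
      obtain ⟨hu₀V, hom₀⟩ := (hZ u₀).1 (hUZ hu₀U)
      obtain ⟨c₀, hc₀⟩ := F4 e _ he0 hom₀
      have hc₀0 : c₀ ≠ 0 := by
        rintro rfl
        rw [zero_smul] at hc₀
        exact hu₀1 (congrArg Subtype.val (φ_eq_zero _ hc₀))
      intro z hz
      obtain ⟨hzV, homz⟩ := (hZ z).1 hz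
      obtain ⟨c, hc⟩ := F4 e _ he0 homz
      by_cases hc0 : c = 0
      · rw [hc0, zero_smul] at hc
        have h1 : z = 1 := congrArg Subtype.val (φ_eq_zero _ hc)
        rw [h1]
        exact U.one_mem
      · obtain ⟨x, hx⟩ := exists_x e he0
        have ha : c / c₀ ≠ 0 := div_ne_zero hc0 hc₀0
        obtain ⟨l, hl⟩ := hsurj ⟨tor e x (c / c₀), tor_det e x _ hx ha⟩
        have hle : (ρ l).1 *ᵥ e = (c / c₀) • e := by
          rw [hl]
          exact tor_e e x _ hx ha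
        have hlN : (l : G) ∈ L ⊓ Subgroup.normalizer (T : Set G) := ⟨l.2, hnorm l _ hle⟩
        have h1 := (Subgroup.mem_normalizer_iff.1 (hN hlN) u₀).1 hu₀U
        have h2 : (l : G) * u₀ * (l : G)⁻¹ = z := by
          apply hkey2 l u₀ hu₀V z hzV
          rw [hc, hc₀, Matrix.mulVec_smul, hle, smul_smul]
          congr 1
          field_simp
        rw [← h2]
        exact h1
  · intro U hZU hUV hN
    by_cases hU : U ≤ V ⊓ Subgroup.centralizer (T : Set G)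
    · exact Or.inl (le_antisymm hU hZU)
    · right
      apply le_antisymm hUV
      obtain ⟨u, huU, huZ⟩ := SetLike.not_le_iff_exists.1 hU
      have huV : u ∈ V := hUV huU
      have hy : om e (φ ⟨u, huV⟩) ≠ 0 := fun h => huZ ((hZ u).2 ⟨huV, h⟩)
      intro v hv
      by_cases hβ : om e (φ ⟨v, hv⟩) = 0
      · exact hZU ((hZ v).2 ⟨hv, hβ⟩)
      · have hβ' : om e (φ ⟨v, hv⟩) / om e (φ ⟨u, huV⟩) ≠ 0 := div_ne_zero hβ hy
        have ha : (om e (φ ⟨v, hv⟩) / om e (φ ⟨u, huV⟩))⁻¹ ≠ 0 := inv_ne_zero hβ'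
        obtain ⟨l, hl⟩ := hsurj ⟨tor e (φ ⟨u, huV⟩) (om e (φ ⟨v, hv⟩) / om e (φ ⟨u, huV⟩))⁻¹,
          tor_det e _ _ hy ha⟩
        have hle : (ρ l).1 *ᵥ e = (om e (φ ⟨v, hv⟩) / om e (φ ⟨u, huV⟩))⁻¹ • e := by
          rw [hl]
          exact tor_e e _ _ hy ha
        have hly : (ρ l).1 *ᵥ (φ ⟨u, huV⟩) =
            (om e (φ ⟨v, hv⟩) / om e (φ ⟨u, huV⟩)) • (φ ⟨u, huV⟩) := by
          rw [hl]
          have := tor_x e (φ ⟨u, huV⟩) _ hy ha
          rw [inv_inv] at this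
          exact this
        have hlN : (l : G) ∈ L ⊓ Subgroup.normalizer (T : Set G) := ⟨l.2, hnorm l _ hle⟩
        have h1 := (Subgroup.mem_normalizer_iff.1 (hN hlN) u).1 huU
        have h1V := hcjmem l u huV
        have h1φ : φ ⟨(l : G) * u * (l : G)⁻¹, h1V⟩ =
            (om e (φ ⟨v, hv⟩) / om e (φ ⟨u, huV⟩)) • (φ ⟨u, huV⟩) := by
          rw [hkey l u huV _ h1V rfl, hly]
        obtain ⟨z, hz⟩ := φ_surj ((om (φ ⟨v, hv⟩) (φ ⟨u, huV⟩) / om e (φ ⟨u, huV⟩)) • e)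
        have hzU : (z : G) ∈ U :=
          hZU ((hZ _).2 ⟨z.2, by rw [hz, om_smul, om_self, mul_zero]⟩)
        have h3 := cramer e (φ ⟨u, huV⟩) (φ ⟨v, hv⟩) hy
        have hv' : (⟨v, hv⟩ : V) = z * ⟨(l : G) * u * (l : G)⁻¹, h1V⟩ := by
          apply φ_inj
          rw [φ_mul, hz, h1φ]
          exact h3
        have h5 : v = (z : G) * ((l : G) * u * (l : G)⁻¹) := congrArg Subtype.val hv'
        rw [h5]
        exact U.mul_mem hzU h1

theorem result {G : Type*} [Group G] [Finite G] {p : ℕ} [Fact p.Prime] {F : Type*} [Field F] [Fintype F] (n : ℕ) (hF : Fintype.card F = p ^ n) (V L : Subgroup G) (hnat : Cfsg.IsNaturalSL2Module F V L) (hf : L ⊓ Subgroup.centralizer (V : Set G) = ⊥) (S : Sylow p ↥L) (T : Subgroup G) (hT : T = ((S : Subgroup ↥L).map L.subtype)) : (∀ g ∈ L, g ∉ Subgroup.normalizer (T : Set G) → Cfsg.IsInternalDirectProduct (V ⊓ Subgroup.centralizer ((T : Subgroup G) : Set G)) (V ⊓ Subgroup.centralizer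 ((T.map (MulAut.conj g).toMonoidHom : Subgroup G) : Set G)) V) ∧ (∀ x ∈ L, x ≠ 1 → (orderOf x).Coprime p → (V ⊓ Subgroup.centralizer ({x} : Set G)) = ⊥) ∧ (∀ U : Subgroup G, U ≤ (V ⊓ Subgroup.centralizer ((T : Subgroup G) : Set G)) → L ⊓ Subgroup.normalizer (T : Set G) ≤ Subgroup.normalizer (U : Set G) → U = ⊥ ∨ U = (V ⊓ Subgroup.centralizer ((T : Subgroup G) : Set G))) ∧ (∀ U : Subgroup G, (V ⊓ Subgroup.centralizer ((T : Subgroup G) : Set G)) ≤ U → U ≤ V → L ⊓ Subgroup.normalizer (T : Set G) ≤ Subgroup.normalizer (U : Set G) → U = (V ⊓ Subgroup.centralizer ((T : Subgroup G) : Set G)) ∨ U = V) := by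
  exact main n hF V L hnat hf S T hT

end Cfsg.Agent.S2780
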