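import Cfsg.Statements.S2781
import Mathlib
import Cfsg.Agent.Lib.Helper1.Coprime

set_option autoImplicit false
open Cfsg

namespace Cfsg.Agent.S2781

open scoped IsMulCommutative commutatorElement
open Cfsg.Agent.Lib.Helper1

theorem pRes_normal (p : ℕ) (G : Type*) [Group G] : (Cfsg.pResidual p G).Normal := by
  constructor
  intro n hn g
  have h1 : (Cfsg.pResidual p G).map (MulAut.conj g).toMonoidHom ≤ Cfsg.pResidual p G := by
    unfold Cfsg.pResidual
    rw [MonoidHom.map_closure, Subgroup.closure_le]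
    rintro _ ⟨x, hx, rfl⟩
    apply Subgroup.subset_closure
    show Nat.Coprime (orderOf ((MulAut.conj g) x)) p
    rw [MulEquiv.orderOf_eq]
    exact hx
  exact h1 ⟨n, hn, rfl⟩

theorem nsup {G : Type*} [Group G] {X T : Subgroup G} {k : G}
    (hX : k ∈ Subgroup.normalizer (X : Set G)) (hT : k ∈ Subgroup.normalizer (T : Set G)) :
    k ∈ Subgroup.normalizer ((X ⊔ T : Subgroup G) : Set G) := by
  rw [Subgroup.mem_normalizer_iff_map_conj_eq] at *
  rw [Subgroup.map_sup, hX, hT]

theorem ncomm {G : Type*} [Group G] {A B : Subgroup G} {g : G}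
    (hA : g ∈ Subgroup.normalizer (A : Set G)) (hB : g ∈ Subgroup.normalizer (B : Set G)) :
    g ∈ Subgroup.normalizer ((⁅A, B⁆ : Subgroup G) : Set G) := by
  rw [Subgroup.mem_normalizer_iff_map_conj_eq] at *
  rw [Subgroup.map_commutator, hA, hB]

theorem ninf {G : Type*} [Group G] {A B : Subgroup G} {g : G}
    (hA : g ∈ Subgroup.normalizer (A : Set G)) (hB : g ∈ Subgroup.normalizer (B : Set G)) :
    g ∈ Subgroup.normalizer ((A ⊓ B : Subgroup G) : Set G) := by
  rw [Subgroup.mem_normalizer_iff_map_conj_eq] at *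
  rw [Subgroup.map_inf _ _ _ (MulAut.conj g).injective, hA, hB]

theorem ncent {G : Type*} [Group G] {A : Subgroup G} {g : G}
    (hA : g ∈ Subgroup.normalizer (A : Set G)) :
    g ∈ Subgroup.normalizer ((Subgroup.centralizer (A : Set G) : Subgroup G) : Set G) := by
  have hinv : g⁻¹ ∈ Subgroup.normalizer (A : Set G) := Subgroup.inv_mem _ hA
  rw [Subgroup.mem_normalizer_iff] at hA hinv ⊢
  intro x
  constructor
  · intro hx
    rw [Subgroup.mem_centralizer_iff] at hx ⊢
    intro a ha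
    have h1 := (hinv a).1 ha
    have h2 := hx _ h1
    have h3 : a * (g * x * g⁻¹) = g * ((g⁻¹ * a * g⁻¹⁻¹) * x) * g⁻¹ := by group
    have h4 : g * x * g⁻¹ * a = g * (x * (g⁻¹ * a * g⁻¹⁻¹)) * g⁻¹ := by group
    rw [h3, h4, h2]
  · intro hx
    rw [Subgroup.mem_centralizer_iff] at hx ⊢
    intro a ha
    have h1 := (hA a).1 ha
    have h2 := hx _ h1
    have h3 : a * x = g⁻¹ * ((g * a * g⁻¹) * (g * x * g⁻¹)) * g := by group
    have h4 : x * a = g⁻¹ * ((g * x * g⁻¹) * (g * a * g⁻¹)) * g := by group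
    rw [h3, h4, h2]

theorem result {G : Type*} [Group G] [Finite G] {p : ℕ} [Fact p.Prime] (V H : Subgroup G) (hV : Cfsg.IsElementaryAbelian p V) (hHV : H ≤ Subgroup.normalizer (V : Set G)) (hf : H ⊓ Subgroup.centralizer (V : Set G) = ⊥) (R : Subgroup G) (hR : R = (Cfsg.pResidual p ↥H).map H.subtype) (S : Sylow p ↥R) (T : Subgroup G) (hT : T = ((S : Subgroup ↥R).map R.subtype)) (hgen : ∀ W : Subgroup G, H ≤ Subgroup.normalizer (W : Set G) → (V ⊓ Subgroup.centralizer ((T : Subgroup G) : Set G)) ≤ W → V ≤ W) : ⁅V, R⁆ ⊔ (V ⊓ Subgroup.centralizer ((R : Subgroup G) : Set G)) = V := by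
  classical
  haveI : IsMulCommutative V := hV.1
  have hRH : R ≤ H := by rw [hR]; exact Subgroup.map_subtype_le _
  have hRV : R ≤ Subgroup.normalizer (V : Set G) := le_trans hRH hHV
  have hcomV : ⁅V, R⁆ ≤ V := by
    rw [Subgroup.commutator_le]
    intro v hv a ha
    rw [commutatorElement_def]
    have h1 : v * a * v⁻¹ * a⁻¹ = v * (a * v⁻¹ * a⁻¹) := by group
    rw [h1]
    exact V.mul_mem hv ((Subgroup.mem_normalizer_iff.mp (hRV ha) v⁻¹).mp (V.inv_mem hv))
  apply le_antisymm (sup_le hcomV inf_le_left)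
  have hRn : (R.subgroupOf H).Normal := by
    have h1 : R.subgroupOf H = Cfsg.pResidual p ↥H := by
      rw [hR]
      exact Subgroup.comap_map_eq_self_of_injective H.subtype_injective _
    rw [h1]; exact pRes_normal p ↥H
  have hHR : H ≤ Subgroup.normalizer (R : Set G) :=
    (Subgroup.normal_subgroupOf_iff_le_normalizer hRH).1 hRn
  apply hgen
  · intro h hh
    exact nsup (ncomm (hHV hh) (hHR hh)) (ninf (hHV hh) (ncent (hHR hh)))
  · intro v hv
    obtain ⟨hvV, hvT⟩ := Subgroup.mem_inf.1 hv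
    obtain ⟨v', hv'⟩ : ∃ v' : V, v' = ⟨v, hvV⟩ := ⟨_, rfl⟩
    haveI : Fintype (↥R ⧸ (S : Subgroup ↥R)) := Fintype.ofFinite _
    have hfixT : ∀ t : ↥R, t ∈ (S : Subgroup ↥R) → conjHom R V hRV t v' = v' := by
      intro t ht
      apply Subtype.ext
      rw [conjHom_val, hv']
      have h1 : (t : G) ∈ T := by rw [hT]; exact Subgroup.mem_map_of_mem _ ht
      have h2 := Subgroup.mem_centralizer_iff.1 hvT _ h1
      show (t : G) * v * (t : G)⁻¹ = v
      rw [h2, mul_inv_cancel_right]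
    have hcoset : ∀ r₁ r₂ : ↥R, r₁⁻¹ * r₂ ∈ (S : Subgroup ↥R) →
        conjHom R V hRV r₂ v' = conjHom R V hRV r₁ v' := by
      intro r₁ r₂ h12
      have h1 : r₂ = r₁ * (r₁⁻¹ * r₂) := by group
      rw [h1, conjHom_mul, hfixT _ h12]
    obtain ⟨w, hw⟩ : ∃ w : V, w = ∏ q : ↥R ⧸ (S : Subgroup ↥R), conjHom R V hRV q.out v' :=
      ⟨_, rfl⟩
    have hwfix : ∀ s : ↥R, conjHom R V hRV s w = w := by
      intro s
      rw [hw, map_prod]
      refine Fintype.prod_equiv (MulAction.toPerm s) _ _ (fun q => ?_)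
      rw [← conjHom_mul]
      apply hcoset
      apply QuotientGroup.eq.1
      rw [MulAction.toPerm_apply, QuotientGroup.out_eq']
      conv_lhs => rw [← QuotientGroup.out_eq' q]
      rfl
    have hwC : (w : G) ∈ V ⊓ Subgroup.centralizer (R : Set G) := by
      refine Subgroup.mem_inf.2 ⟨w.2, ?_⟩
      rw [Subgroup.mem_centralizer_iff]
      intro s hs
      have h1 := congrArg Subtype.val (hwfix ⟨s, hs⟩)
      rw [conjHom_val] at h1
      exact mul_inv_eq_iff_eq_mul.1 h1
    obtain ⟨d, hd⟩ : ∃ d : V,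
        d = ∏ q : ↥R ⧸ (S : Subgroup ↥R), (conjHom R V hRV q.out v' * v'⁻¹) := ⟨_, rfl⟩
    obtain ⟨k, hk⟩ : ∃ k : ℕ, k = Fintype.card (↥R ⧸ (S : Subgroup ↥R)) := ⟨_, rfl⟩
    have hdw : d = w * (v'⁻¹) ^ k := by
      rw [hd, Finset.prod_mul_distrib, ← hw, Finset.prod_const, Finset.card_univ, hk]
    have hdmem : (d : G) ∈ ⁅V, R⁆ := by
      have h1 : d ∈ (⁅V, R⁆).subgroupOf V := by
        rw [hd]
        refine Subgroup.prod_mem _ (fun q _ => ?_)
        rw [Subgroup.mem_subgroupOf, Subgroup.commutator_comm]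
        have h2 : ((conjHom R V hRV q.out v' * v'⁻¹ : V) : G) = ⁅((q.out : ↥R) : G), v⁆ := by
          rw [commutatorElement_def, Subgroup.coe_mul, conjHom_val, Subgroup.coe_inv, hv']
        rw [h2]
        exact Subgroup.commutator_mem_commutator (q.out).2 hvV
      exact Subgroup.mem_subgroupOf.1 h1
    have hvk : v ^ k = (d : G)⁻¹ * (w : G) := by
      have h1 : v' ^ k = d⁻¹ * w := by
        rw [hdw, inv_pow]
        group
      have h2 := congrArg Subtype.val h1
      rw [hv'] at h2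
      simpa using h2
    have hvkW : v ^ k ∈ ⁅V, R⁆ ⊔ (V ⊓ Subgroup.centralizer ((R : Subgroup G) : Set G)) := by
      rw [hvk]
      exact Subgroup.mul_mem _ (Subgroup.inv_mem _ (Subgroup.mem_sup_left hdmem))
        (Subgroup.mem_sup_right hwC)
    have hkp : Nat.Coprime k p := by
      have h1 : k = (S : Subgroup ↥R).index := by
        rw [hk, Subgroup.index_eq_card, Nat.card_eq_fintype_card]
      rw [h1]
      exact ((Nat.Prime.coprime_iff_not_dvd Fact.out).2 S.not_dvd_index).symm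
    have hcop : Nat.Coprime k (orderOf v) :=
      Nat.Coprime.coprime_dvd_right (orderOf_dvd_of_pow_eq_one (hV.2 v hvV)) hkp
    obtain ⟨m, hm⟩ := exists_pow_eq_self_of_coprime hcop
    rw [← hm]
    exact Subgroup.pow_mem _ hvkW m

end Cfsg.Agent.S2781
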