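import Cfsg.Statements.S2947
import Mathlib
import Cfsg.Agent.Lib.Helper1.Nil

set_option autoImplicit false
open Cfsg

namespace Cfsg.Agent.S2947

theorem center_ne_bot {G : Type*} [Group G] [Finite G] (R : Subgroup G) (hR : IsPGroup 2 R) (hR1 : R ≠ ⊥) :
    R ⊓ Subgroup.centralizer (R : Set G) ≠ ⊥ := by
  haveI : Fact (Nat.Prime 2) := ⟨Nat.prime_two⟩
  haveI : Nontrivial R := (Subgroup.nontrivial_iff_ne_bot R).2 hR1
  haveI := hR.center_nontrivial
  obtain ⟨z, hz⟩ := exists_ne (1 : Subgroup.center R)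
  intro hbot
  have hz1 : ((z : R) : G) ∈ R ⊓ Subgroup.centralizer (R : Set G) := by
    refine Subgroup.mem_inf.2 ⟨(z : R).2, ?_⟩
    rw [Subgroup.mem_centralizer_iff]
    intro r hr
    have := Subgroup.mem_center_iff.1 z.2 ⟨r, hr⟩
    exact congrArg Subtype.val this
  rw [hbot, Subgroup.mem_bot] at hz1
  apply hz
  apply Subtype.ext
  apply Subtype.ext
  exact hz1

theorem le_normalizer_center {G : Type*} [Group G] (R : Subgroup G) :
    R ≤ Subgroup.normalizer ((R ⊓ Subgroup.centralizer (R : Set G) : Subgroup G) : Set G) := by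
  refine le_trans ?_ (Subgroup.centralizer_le_normalizer _)
  intro r hr
  rw [Subgroup.mem_centralizer_iff]
  intro x hx
  have h1 := (Subgroup.mem_centralizer_iff.1 hx.2) r hr
  exact h1.symm

theorem two_dvd_card {G : Type*} [Group G] [Finite G] (D : Subgroup G) (hD : IsPGroup 2 D) (hD1 : D ≠ ⊥) :
    2 ∣ Nat.card D := by
  haveI : Fact (Nat.Prime 2) := ⟨Nat.prime_two⟩
  obtain ⟨k, hk⟩ := (IsPGroup.iff_card).1 hD
  have hk0 : k ≠ 0 := by
    rintro rfl
    rw [pow_zero] at hk
    exact hD1 ((Subgroup.card_eq_one).1 hk)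
  rw [hk]
  exact dvd_pow_self 2 hk0

theorem result {G : Type*} [Group G] [Finite G] (hL : Cfsg.IsCharacteristicTwoType G) (hN : ∀ N : Subgroup G, Cfsg.IsTwoLocal N → Group.IsSolvable ↥N)
    (hZ : ∀ S : Sylow 2 G, Subgroup.centralizer (Cfsg.omegaCenterOf (S : Subgroup G) : Set G) ≤ Subgroup.normalizer ((S : Subgroup G) : Set G)) (hO : Cfsg.pCore 2 G = ⊥) (S : Sylow 2 G) (M : Subgroup G) (hM : Cfsg.IsTwoLocal M)
    (hMJ : Subgroup.normalizer (Cfsg.thompsonSubgroupOf 2 (S : Subgroup G) : Set G) ≤ M) :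
    Cfsg.IsStronglyEmbedded M ↔ Cfsg.straddlingTwoSubgroups M = ∅ := by
  classical
  haveI : Fact (Nat.Prime 2) := ⟨Nat.prime_two⟩
  constructor
  · rintro ⟨hMtop, hMeven, hMint⟩
    have hstar : ∀ D : Subgroup G, IsPGroup 2 D → D ≠ ⊥ → D ≤ M → Subgroup.normalizer (D : Set G) ≤ M := by
      intro D hD hD1 hDM g hg
      by_contra hgM
      have hodd := hMint g hgM
      have hDI : D ≤ M ⊓ M.map (MulAut.conj g).toMonoidHom := by
        intro d hd
        refine Subgroup.mem_inf.2 ⟨hDM hd, ?_⟩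
        rw [Cfsg.Agent.Lib.Helper1.mem_map_conj_iff]
        apply hDM
        have := (Subgroup.mem_normalizer_iff.1 (Subgroup.inv_mem _ hg) d).1 hd
        rwa [inv_inv] at this
      have hdvd : Nat.card D ∣ Nat.card ↥(M ⊓ M.map (MulAut.conj g).toMonoidHom) := Subgroup.card_dvd_of_le hDI
      have h2 := (two_dvd_card D hD hD1).trans hdvd
      rw [Nat.odd_iff] at hodd
      omega
    rw [Set.eq_empty_iff_forall_notMem]
    rintro T ⟨hT2, hT1, hTM, L, ⟨P, hP2, hP1, rfl⟩, hTL, hLM⟩
    apply hLM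
    have hR2 : IsPGroup 2 (T ⊔ P : Subgroup G) := IsPGroup.to_sup_of_normal_right' hT2 hP2 hTL
    have hR1 : (T ⊔ P : Subgroup G) ≠ ⊥ := by
      intro hb
      apply hT1
      rw [eq_bot_iff, ← hb]
      exact le_sup_left
    have hZ1 := center_ne_bot _ hR2 hR1
    have hZ2 : IsPGroup 2 ((T ⊔ P) ⊓ Subgroup.centralizer ((T ⊔ P : Subgroup G) : Set G) : Subgroup G) :=
      hR2.to_le inf_le_left
    have hZM : ((T ⊔ P) ⊓ Subgroup.centralizer ((T ⊔ P : Subgroup G) : Set G) : Subgroup G) ≤ M := by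
      refine le_trans ?_ (hstar T hT2 hT1 hTM)
      intro z hz
      apply Subgroup.centralizer_le_normalizer
      rw [Subgroup.mem_centralizer_iff]
      intro x hx
      exact (Subgroup.mem_centralizer_iff.1 hz.2) x ((le_sup_left : T ≤ T ⊔ P) hx)
    have hRM : (T ⊔ P : Subgroup G) ≤ M := (le_normalizer_center _).trans (hstar _ hZ2 hZ1 hZM)
    exact hstar P hP2 hP1 (le_sup_right.trans hRM)
  · intro hemp
    have hkey : ∀ R D : Subgroup G, IsPGroup 2 R → D ≠ ⊥ → D ≤ M → D ≤ R → R ≤ M := by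
      intro R D hR2 hD1 hDM hDR
      have hR1 : R ≠ ⊥ := by
        intro hb
        apply hD1
        rw [eq_bot_iff, ← hb]
        exact hDR
      have hZ1 := center_ne_bot R hR2 hR1
      have hZ2 : IsPGroup 2 (R ⊓ Subgroup.centralizer (R : Set G) : Subgroup G) := hR2.to_le inf_le_left
      by_contra hRM
      have hmem : D ∈ Cfsg.straddlingTwoSubgroups M := by
        refine ⟨hR2.to_le hDR, hD1, hDM,
          Subgroup.normalizer ((R ⊓ Subgroup.centralizer (R : Set G) : Subgroup G) : Set G),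
          ⟨_, hZ2, hZ1, rfl⟩, hDR.trans (le_normalizer_center R), ?_⟩
        intro hle
        exact hRM ((le_normalizer_center R).trans hle)
      rw [hemp] at hmem
      exact hmem
    obtain ⟨P, hP2, hP1, hMP⟩ := hM
    have hPM : P ≤ M := by
      rw [hMP]
      exact Subgroup.le_normalizer
    refine ⟨?_, ?_, ?_⟩
    · intro htop
      apply hP1
      rw [eq_bot_iff, ← hO]
      have hPn : P.Normal := by
        rw [← Subgroup.normalizer_eq_top_iff, ← hMP]
        exact htop
      exact le_sSup ⟨hPn, hP2⟩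
    · have := (two_dvd_card P hP2 hP1).trans (Subgroup.card_dvd_of_le hPM)
      exact (even_iff_two_dvd).2 this
    · intro g hgM
      by_contra hodd
      rw [Nat.not_odd_iff_even] at hodd
      have h2 : 2 ∣ Nat.card ↥(M ⊓ M.map (MulAut.conj g).toMonoidHom) := even_iff_two_dvd.1 hodd
      obtain ⟨t, ht⟩ := exists_prime_orderOf_dvd_card' 2 h2
      have htG : orderOf (t : G) = 2 := by
        rw [Subgroup.orderOf_coe]
        exact ht
      have htM : (t : G) ∈ M := t.2.1
      have huM : g⁻¹ * (t : G) * g ∈ M := (Cfsg.Agent.Lib.Helper1.mem_map_conj_iff M g _).1 t.2.2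
      have hD2 : ∀ x : G, orderOf x = 2 → IsPGroup 2 (Subgroup.zpowers x) ∧ Subgroup.zpowers x ≠ ⊥ := by
        intro x hx
        constructor
        · apply IsPGroup.of_card (n := 1)
          rw [Nat.card_zpowers, hx, pow_one]
        · intro hb
          rw [Subgroup.zpowers_eq_bot] at hb
          rw [hb, orderOf_one] at hx
          omega
      have hu2 : orderOf (g⁻¹ * (t : G) * g) = 2 := by
        have h1 := orderOf_injective (MulAut.conj g⁻¹).toMonoidHom (MulAut.conj g⁻¹).injective (t : G)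
        have h3 : (MulAut.conj g⁻¹).toMonoidHom (t : G) = g⁻¹ * (t : G) * g := by
          show g⁻¹ * (t : G) * g⁻¹⁻¹ = _
          rw [inv_inv]
        rw [h3] at h1
        rw [h1]
        exact htG
      obtain ⟨Su, hSu⟩ := (hD2 _ hu2).1.exists_le_sylow
      have hSuM : (Su : Subgroup G) ≤ M :=
        hkey Su _ Su.2 (hD2 _ hu2).2 (by rw [Subgroup.zpowers_le]; exact huM) hSu
      have htgSu : Subgroup.zpowers (t : G) ≤ ((g • Su : Sylow 2 G) : Subgroup G) := by
        rw [Subgroup.zpowers_le]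
        exact (Cfsg.Agent.Lib.Helper1.sylow_smul_mem_iff Su g _).2 (hSu (Subgroup.mem_zpowers _))
      have hgSuM : ((g • Su : Sylow 2 G) : Subgroup G) ≤ M :=
        hkey _ _ (g • Su).2 (hD2 _ htG).2 (by rw [Subgroup.zpowers_le]; exact htM) htgSu
      obtain ⟨m, hmM, hm⟩ := Cfsg.Agent.Lib.Helper1.sylow_conj_in_subgroup M (g • Su) Su hgSuM hSuM
      have hSu1 : (Su : Subgroup G) ≠ ⊥ := by
        intro hb
        apply (hD2 _ hu2).2
        rw [eq_bot_iff, ← hb]
        exact hSu
      have hNM : Subgroup.normalizer ((Su : Subgroup G) : Set G) ≤ M := by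
        by_contra hc
        have hmem : (Su : Subgroup G) ∈ Cfsg.straddlingTwoSubgroups M :=
          ⟨Su.2, hSu1, hSuM, _, ⟨_, Su.2, hSu1, rfl⟩, Subgroup.le_normalizer, hc⟩
        rw [hemp] at hmem
        exact hmem
      have hgm : g⁻¹ * m ∈ Subgroup.normalizer ((Su : Subgroup G) : Set G) := by
        have h6 : (g⁻¹ * m) • Su = Su := by
          rw [mul_smul, hm, inv_smul_smul]
        exact Sylow.smul_eq_iff_mem_normalizer.1 h6
      have h4 := hNM hgm
      apply hgM
      have h5 : g = m * (g⁻¹ * m)⁻¹ := by group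
      rw [h5]
      exact M.mul_mem hmM (M.inv_mem h4)

end Cfsg.Agent.S2947
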