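import Cfsg.Statements.S3116
import Mathlib

set_option autoImplicit false
open Cfsg

namespace Cfsg.Agent.S3116

theorem aut_two_group {X : Type*} [Group X] [Finite X] (a : X) (m : ℕ)
    (ha : orderOf a = 2 ^ m) (hidx : (Subgroup.zpowers a).index = 2)
    (hchar : ∀ x : X, orderOf x = 2 ^ m → x ∈ Subgroup.zpowers a) :
    IsPGroup 2 (MulAut X) := by
  intro α
  have h1 : α a ∈ Subgroup.zpowers a := hchar _ (by rw [MulEquiv.orderOf_eq]; exact ha)
  obtain ⟨u, hu⟩ := (mem_powers_iff_mem_zpowers.2 h1)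
  have hu' : a ^ u = α a := hu
  have hcop : Nat.Coprime u (2 ^ m) := by
    have h2 : orderOf (a ^ u) = 2 ^ m := by rw [hu', MulEquiv.orderOf_eq]; exact ha
    rw [orderOf_pow, ha] at h2
    have h3 := (Nat.div_eq_self.1 h2).resolve_left (by positivity)
    rw [Nat.coprime_comm]; exact h3
  have hpow : ∀ j : ℕ, (α ^ j) a = a ^ (u ^ j) := by
    intro j
    induction j with
    | zero => simp
    | succ j ih =>
      rw [pow_succ', MulAut.mul_apply, ih, map_pow, ← hu', ← pow_mul, ← pow_succ']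
  obtain ⟨k1, hk1⟩ : ∃ k1, Nat.totient (2 ^ m) = 2 ^ k1 := by
    rcases Nat.eq_zero_or_pos m with h0 | h0
    · subst h0; exact ⟨0, by simp⟩
    · exact ⟨m - 1, by rw [Nat.totient_prime_pow Nat.prime_two h0]; simp⟩
  obtain ⟨β, hβ⟩ : ∃ β, β = α ^ (2 ^ k1) := ⟨_, rfl⟩
  have hβa : β a = a := by
    rw [hβ, hpow, ← hk1]
    have h5 := Nat.ModEq.pow_totient hcop
    have h4 : a ^ (u ^ Nat.totient (2 ^ m)) = a ^ 1 := by
      rw [pow_eq_pow_iff_modEq, ha]; exact h5
    rw [h4, pow_one]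
  obtain ⟨b, hb⟩ : ∃ b : X, b ∉ Subgroup.zpowers a := by
    by_contra hcon
    push Not at hcon
    have h6 : Subgroup.zpowers a = ⊤ := by rw [eq_top_iff]; intro x _; exact hcon x
    rw [h6, Subgroup.index_top] at hidx
    omega
  have hβz : ∀ i : ℤ, β (a ^ i) = a ^ i := by
    intro i; rw [map_zpow, hβa]
  have hβb : β b ∉ Subgroup.zpowers a := by
    intro hcon
    obtain ⟨i, hi⟩ := Subgroup.mem_zpowers_iff.1 hcon
    have h7 : β (a ^ i) = β b := by rw [hβz, hi]
    have h8 := β.injective h7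
    exact hb (h8 ▸ Subgroup.zpow_mem_zpowers a i)
  have hv : b⁻¹ * β b ∈ Subgroup.zpowers a := by
    rw [Subgroup.mul_mem_iff_of_index_two hidx, inv_mem_iff]
    exact ⟨fun h => absurd h hb, fun h => absurd h hβb⟩
  obtain ⟨v, hv'⟩ := Subgroup.mem_zpowers_iff.1 hv
  have hβb' : β b = b * a ^ v := by rw [hv']; group
  have hpowb : ∀ j : ℕ, (β ^ j) b = b * a ^ ((j : ℤ) * v) := by
    intro j
    induction j with
    | zero => simp
    | succ j ih =>
      rw [pow_succ', MulAut.mul_apply, ih, map_mul, hβz, hβb', mul_assoc, ← zpow_add]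
      congr 2
      push_cast; ring
  have hpowa : ∀ j : ℕ, (β ^ j) a = a := by
    intro j
    induction j with
    | zero => simp
    | succ j ih => rw [pow_succ', MulAut.mul_apply, ih, hβa]
  refine ⟨k1 + m, ?_⟩
  have hγ : α ^ (2 ^ (k1 + m)) = β ^ (2 ^ m) := by rw [hβ, ← pow_mul, pow_add]
  rw [hγ]
  have hγa := hpowa (2 ^ m)
  have hγb : (β ^ (2 ^ m)) b = b := by
    rw [hpowb]
    have h9 : a ^ (((2 ^ m : ℕ) : ℤ) * v) = 1 := by
      rw [zpow_mul, zpow_natCast, ← ha, pow_orderOf_eq_one, one_zpow]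
    rw [h9, mul_one]
  ext x
  by_cases hx : x ∈ Subgroup.zpowers a
  · obtain ⟨i, hi⟩ := Subgroup.mem_zpowers_iff.1 hx
    rw [← hi, map_zpow, hγa]; simp
  · have hw : b⁻¹ * x ∈ Subgroup.zpowers a := by
      rw [Subgroup.mul_mem_iff_of_index_two hidx, inv_mem_iff]
      exact ⟨fun h => absurd h hb, fun h => absurd h hx⟩
    obtain ⟨i, hi⟩ := Subgroup.mem_zpowers_iff.1 hw
    have hx' : x = b * a ^ i := by rw [hi]; group
    rw [hx', map_mul, map_zpow, hγa, hγb]; simp

theorem idx_two {X : Type*} [Group X] [Finite X] (a : X) (N : ℕ) (hN : 0 < N)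
    (ha : orderOf a = N) (hc : Nat.card X = 2 * N) : (Subgroup.zpowers a).index = 2 := by
  have h1 := Subgroup.card_mul_index (Subgroup.zpowers a)
  rw [Nat.card_zpowers, ha, hc] at h1
  have h2 : N * (Subgroup.zpowers a).index = N * 2 := by rw [h1]; ring
  exact Nat.eq_of_mul_eq_mul_left hN h2

theorem result {X : Type*} [Group X] [Finite X] (h2 : IsPGroup 2 X)
    (h : (∃ n : ℕ, 4 ≤ n ∧ Nonempty (X ≃* DihedralGroup n)) ∨ Cfsg.IsQuasiDihedral X) : IsPGroup 2 (MulAut X) := by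
  rcases h with ⟨n, hn, ⟨e⟩⟩ | ⟨n, hn, hcard, x, y, hx, hy, hxy⟩
  · have hcard : Nat.card X = 2 * n := by
      rw [Nat.card_congr e.toEquiv, DihedralGroup.nat_card]
    obtain ⟨k, hk⟩ := (IsPGroup.iff_card.1 h2)
    have hdvd : n ∣ 2 ^ k := by rw [← hk, hcard]; exact Dvd.intro_left 2 rfl
    obtain ⟨m, hm, hnm⟩ := (Nat.dvd_prime_pow Nat.prime_two).1 hdvd
    have ha : orderOf (e.symm (DihedralGroup.r 1)) = 2 ^ m := by
      rw [MulEquiv.orderOf_eq, DihedralGroup.orderOf_r_one, hnm]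
    haveI : NeZero n := ⟨by omega⟩
    refine aut_two_group (e.symm (DihedralGroup.r 1)) m ha
      (idx_two _ (2 ^ m) (by positivity) ha (by rw [hcard, hnm])) ?_
    intro z hz
    have hz' : orderOf (e z) = n := by rw [MulEquiv.orderOf_eq, hz, hnm]
    rcases hez : e z with i | i
    · have h3 : z = e.symm (DihedralGroup.r 1) ^ i.val := by
        rw [← map_pow, DihedralGroup.r_one_pow, ZMod.natCast_zmod_val, ← hez]; simp
      rw [h3]
      exact Subgroup.pow_mem _ (Subgroup.mem_zpowers _) _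
    · rw [hez, DihedralGroup.orderOf_sr] at hz'
      omega
  · have hidx := idx_two x (2 ^ n) (by positivity) hx (by rw [hcard, pow_succ]; ring)
    refine aut_two_group x n hx hidx ?_
    have hy2 : y * y = 1 := by rw [← pow_two, ← hy, pow_orderOf_eq_one]
    have hyinv : y⁻¹ = y := by rw [inv_eq_iff_mul_eq_one]; exact hy2
    have h8 : (8 : ℕ) ≤ 2 ^ n := by
      calc (8 : ℕ) = 2 ^ 3 := by norm_num
        _ ≤ 2 ^ n := Nat.pow_le_pow_right (by norm_num) hn
    have h4 : (4 : ℕ) ≤ 2 ^ (n - 1) := by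
      calc (4 : ℕ) = 2 ^ 2 := by norm_num
        _ ≤ 2 ^ (n - 1) := Nat.pow_le_pow_right (by norm_num) (by omega)
    have hnn : 2 ^ n = 2 ^ (n - 1) * 2 := by
      rw [← pow_succ]; congr 1; omega
    have hynot : y ∉ Subgroup.zpowers x := by
      intro hcon
      obtain ⟨i, hi⟩ := Subgroup.mem_zpowers_iff.1 hcon
      have hcomm : y * x = x * y := by
        rw [← hi, ← zpow_add_one, ← zpow_one_add, add_comm]
      have h5 : x ^ (2 ^ (n - 1) - 1) = x ^ 1 := by
        rw [← hxy, hcomm, pow_one]; group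
      rw [pow_eq_pow_iff_modEq, hx] at h5
      have h6 := Nat.ModEq.eq_of_lt_of_lt h5 (by omega) (by omega)
      omega
    intro z hz
    by_contra hzn
    have hw : y⁻¹ * z ∈ Subgroup.zpowers x := by
      rw [Subgroup.mul_mem_iff_of_index_two hidx, inv_mem_iff]
      exact ⟨fun h => absurd h hynot, fun h => absurd h hzn⟩
    obtain ⟨i, hi⟩ := mem_powers_iff_mem_zpowers.2 hw
    have hi' : x ^ i = y⁻¹ * z := hi
    have hz' : z = y * x ^ i := by rw [hi']; group
    have hconj : y * x ^ i * y = (x ^ (2 ^ (n - 1) - 1)) ^ i := by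
      rw [← hxy, conj_pow, hyinv]
    have hzz : z * z = x ^ (2 ^ (n - 1) * i) := by
      have h10 : z * z = (y * x ^ i * y) * x ^ i := by rw [hz']; group
      rw [h10, hconj, ← pow_mul, ← pow_add]
      congr 1
      have h11 : (2 ^ (n - 1) - 1) * i + i = (2 ^ (n - 1) - 1 + 1) * i := by ring
      rw [h11, Nat.sub_add_cancel (by omega)]
    have hz4 : z ^ 4 = 1 := by
      have h12 : z ^ 4 = (z * z) * (z * z) := by simp [pow_succ, mul_assoc]
      rw [h12, hzz, ← pow_add]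
      have h13 : 2 ^ (n - 1) * i + 2 ^ (n - 1) * i = 2 ^ n * i := by rw [hnn]; ring
      rw [h13, pow_mul, ← hx, pow_orderOf_eq_one, one_pow]
    have h14 := orderOf_dvd_of_pow_eq_one hz4
    have h15 := Nat.le_of_dvd (by norm_num) h14
    omega

end Cfsg.Agent.S3116
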