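import Cfsg.Statements.S3375
import Mathlib

set_option autoImplicit false
open Cfsg

namespace Cfsg.Agent.S3375

theorem L1 {H : Type*} [Group H] [Finite H] (γ : MulAut H) (hγ2 : ∀ h, γ (γ h) = h)
    (M : Subgroup H) (hinv : ∀ m ∈ M, γ m ∈ M) (hfpf : ∀ m ∈ M, γ m = m → m = 1) :
    ∀ m ∈ M, γ m = m⁻¹ := by
  let φ : M → M := fun m => ⟨(m : H)⁻¹ * γ m, M.mul_mem (M.inv_mem m.2) (hinv m m.2)⟩
  have hinj : Function.Injective φ := by
    intro m k hmk
    have h1 : (m : H)⁻¹ * γ m = (k : H)⁻¹ * γ k := congrArg Subtype.val hmk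
    have h2 : γ (k * (m : H)⁻¹) = k * (m : H)⁻¹ := by
      rw [map_mul, map_inv]
      have h0 : γ k = k * ((m : H)⁻¹ * γ m) := by rw [h1]; group
      rw [h0]
      group
    have h3 := hfpf _ (M.mul_mem k.2 (M.inv_mem m.2)) h2
    apply Subtype.ext
    exact (mul_inv_eq_one.1 h3).symm
  have hsurj := Finite.injective_iff_surjective.1 hinj
  intro m hm
  obtain ⟨k, hk⟩ := hsurj ⟨m, hm⟩
  have h1 : (m : H) = (k : H)⁻¹ * γ k := (congrArg Subtype.val hk).symm
  rw [h1, map_mul, map_inv, hγ2]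
  group

theorem comm_of_inv {H : Type*} [Group H] (γ : MulAut H) (M : Subgroup H)
    (h : ∀ m ∈ M, γ m = m⁻¹) : ∀ a ∈ M, ∀ b ∈ M, a * b = b * a := by
  intro a ha b hb
  have h1 := h (a * b) (M.mul_mem ha hb)
  rw [map_mul, h a ha, h b hb] at h1
  have h2 : (a⁻¹ * b⁻¹)⁻¹ = ((a * b)⁻¹)⁻¹ := by rw [h1]
  simpa using h2.symm

theorem stepB {H : Type*} [Group H] [Finite H] (γ : MulAut H) (hγ2 : ∀ h, γ (γ h) = h)
    (hC : Nat.card {h : H // γ h = h} = 2) (M : Subgroup H) (hM : M.index = 2)
    (hinv : ∀ m ∈ M, γ m ∈ M) : ∀ m ∈ M, γ m = m⁻¹ := by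
  classical
  by_cases hfpf : ∀ m ∈ M, γ m = m → m = 1
  · exact L1 γ hγ2 M hinv hfpf
  · have hφmem : ∀ h : H, h⁻¹ * γ h ∈ M := by
      intro h
      rw [Subgroup.mul_mem_iff_of_index_two hM, inv_mem_iff]
      constructor
      · exact hinv h
      · intro hh
        have h0 := hinv _ hh
        rwa [hγ2] at h0
    let φ : H → M := fun h => ⟨h⁻¹ * γ h, hφmem h⟩
    have hfib : ∀ y : M, Nat.card {h : H // φ h = y} ≤ 2 := by
      intro y
      by_cases hne : Nonempty {h : H // φ h = y}
      · obtain ⟨⟨h0, hh0⟩⟩ := hne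
        let f : {h : H // φ h = y} → {c : H // γ c = c} := fun h => ⟨h.1 * h0⁻¹, by
          have h1 : (h.1)⁻¹ * γ h.1 = h0⁻¹ * γ h0 := by
            have h2 := h.2.trans hh0.symm
            exact congrArg Subtype.val h2
          rw [map_mul, map_inv]
          have h3 : γ h.1 = h.1 * (h0⁻¹ * γ h0) := by rw [← h1]; group
          rw [h3]
          group⟩
        have hf : Function.Injective f := by
          intro a b hab
          have h4 : a.1 * h0⁻¹ = b.1 * h0⁻¹ := congrArg Subtype.val hab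
          exact Subtype.ext (mul_right_cancel h4)
        have h5 := Nat.card_le_card_of_injective f hf
        rw [hC] at h5
        exact h5
      · rw [not_nonempty_iff] at hne
        rw [Nat.card_of_isEmpty]
        omega
    have hfinM : Fintype M := Fintype.ofFinite M
    have hsum : Nat.card H = ∑ y : M, Nat.card {h : H // φ h = y} := by
      rw [← Nat.card_sigma]
      exact (Nat.card_congr (Equiv.sigmaFiberEquiv φ)).symm
    have hHM : Nat.card H = 2 * Nat.card M := by
      rw [← hM]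
      exact (Subgroup.index_mul_card M).symm
    have hconst : ∑ _y : M, 2 = 2 * Nat.card M := by
      rw [Finset.sum_const, Finset.card_univ, smul_eq_mul, Nat.card_eq_fintype_card, mul_comm]
    have hsurj : Function.Surjective φ := by
      intro y
      by_contra hy
      have h0 : Nat.card {h : H // φ h = y} = 0 := by
        rw [Nat.card_eq_zero]
        left
        exact ⟨fun ⟨h, hh⟩ => hy ⟨h, hh⟩⟩
      have hlt : ∑ y : M, Nat.card {h : H // φ h = y} < ∑ _y : M, 2 :=
        Finset.sum_lt_sum (fun y _ => hfib y) ⟨y, Finset.mem_univ _, by rw [h0]; norm_num⟩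
      omega
    intro m hm
    obtain ⟨k, hk⟩ := hsurj ⟨m, hm⟩
    have h1 : m = k⁻¹ * γ k := (congrArg Subtype.val hk).symm
    rw [h1, map_mul, map_inv, hγ2]
    group

def third {H : Type*} [Group H] (γ : MulAut H) (M₁ : Subgroup H) (hM₁ : M₁.index = 2) :
    Subgroup H where
  carrier := {h | h ∈ M₁ ↔ γ h ∈ M₁}
  one_mem' := by simp [M₁.one_mem]
  mul_mem' := by
    intro x y hx hy
    simp only [Set.mem_ofPred_eq] at hx hy ⊢
    rw [map_mul, Subgroup.mul_mem_iff_of_index_two hM₁,
      Subgroup.mul_mem_iff_of_index_two hM₁, hx, hy]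
  inv_mem' := by
    intro x hx
    simp only [Set.mem_ofPred_eq] at hx ⊢
    rw [map_inv, inv_mem_iff, inv_mem_iff]
    exact hx

theorem mem_third {H : Type*} [Group H] (γ : MulAut H) (M₁ : Subgroup H) (hM₁ : M₁.index = 2)
    (h : H) : h ∈ third γ M₁ hM₁ ↔ (h ∈ M₁ ↔ γ h ∈ M₁) := Iff.rfl

/-- Let γ be an automorphism of order 2 of a finite group H. (i) If γ fixes only the identity, then H is abelian and γ inverts every element. (ii) If γ has exactly two fixed points and H has a subgroup of index 2, then H has a γ-invariant abelian subgroup of index 2 on which γ acts by inversion. -/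
theorem result {H : Type*} [Group H] [Finite H] (γ : MulAut H) (hγ : orderOf γ = 2) :
    ((∀ h : H, γ h = h → h = 1) → (∀ a b : H, a * b = b * a) ∧ ∀ h : H, γ h = h⁻¹) ∧
    ((Nat.card {h : H // γ h = h} = 2 ∧ ∃ M : Subgroup H, M.index = 2) →
      ∃ A : Subgroup H, A.index = 2 ∧ IsMulCommutative A ∧ (∀ a ∈ A, γ a ∈ A) ∧ ∀ a ∈ A, γ a = a⁻¹) := by
  have hγ2 : ∀ h, γ (γ h) = h := by
    intro h
    have h1 := pow_orderOf_eq_one γ
    rw [hγ, pow_two] at h1
    have h2 := congrArg (fun f : MulAut H => f h) h1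
    simpa using h2
  constructor
  · intro hfpf
    have hI := L1 γ hγ2 ⊤ (fun m _ => Subgroup.mem_top _) (fun m _ => hfpf m)
    exact ⟨fun a b => comm_of_inv γ ⊤ hI a (Subgroup.mem_top a) b (Subgroup.mem_top b),
      fun h => hI h (Subgroup.mem_top h)⟩
  · rintro ⟨hC, M₁, hM₁⟩
    have key : ∃ M : Subgroup H, M.index = 2 ∧ ∀ m ∈ M, γ m ∈ M := by
      by_cases hinv : ∀ m ∈ M₁, γ m ∈ M₁
      · exact ⟨M₁, hM₁, hinv⟩
      · push Not at hinv
        obtain ⟨a, haM, haγ⟩ := hinv
        refine ⟨third γ M₁ hM₁, ?_, ?_⟩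
        · rw [Subgroup.index_eq_two_iff]
          refine ⟨a, fun b => ?_⟩
          rw [mem_third, mem_third, map_mul, Subgroup.mul_mem_iff_of_index_two hM₁,
            Subgroup.mul_mem_iff_of_index_two hM₁]
          simp only [haM, haγ, iff_true, iff_false]
          unfold Xor
          tauto
        · intro m hm
          rw [mem_third] at hm ⊢
          rw [hγ2]
          exact hm.symm
    obtain ⟨M, hM, hinv⟩ := key
    have hI := stepB γ hγ2 hC M hM hinv
    exact ⟨M, hM, IsMulCommutative.of_setLike_mul_comm (comm_of_inv γ M hI), hinv, hI⟩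

end Cfsg.Agent.S3375
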