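import Cfsg.Statements.S3377
import Mathlib
import Cfsg.Agent.Lib.Helper6.A5Spec

set_option autoImplicit false
open Cfsg

namespace Cfsg.Agent.S3377

open Cfsg.Agent.Lib.Helper6.A5Spec

section kb

variable {G : Type*} [Group G] {x y : G} (h1 : x * (x * x) = 1)
  (h2 : y * (y * (y * (y * y))) = 1) (h3 : x * (y * (x * y)) = 1)
include h1 h2 h3

theorem r0 (t : G) : x * (x * (x * t)) = t := by
  simpa [mul_assoc] using congrArg (· * t) h1

theorem r1 (t : G) : y * (y * (y * (y * (y * t)))) = t := by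
  simpa [mul_assoc] using congrArg (· * t) h2

theorem r2 (t : G) : x * (y * (x * (y * t))) = t := by
  simpa [mul_assoc] using congrArg (· * t) h3

theorem r3 (t : G) : y * (x * (y * t)) = x * (x * t) :=
  calc y * (x * (y * t)) = x * (x * (x * (y * (x * (y * t))))) := (r0 h1 h2 h3 (y * (x * (y * t)))).symm
    _ = x * (x * t) := congrArg (fun z => x * (x * z)) (r2 h1 h2 h3 t)

theorem r4 (t : G) : y * (y * (y * (y * t))) = x * (y * (x * t)) :=
  calc y * (y * (y * (y * t))) = x * (y * (x * (y * (y * (y * (y * (y * t))))))) := (r2 h1 h2 h3 (y * (y * (y * (y * t))))).symm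
    _ = x * (y * (x * t)) := congrArg (fun z => x * (y * (x * z))) (r1 h1 h2 h3 t)

theorem r5 (t : G) : x * (y * (x * (x * (y * (x * t))))) = y * (y * (y * t)) :=
  calc x * (y * (x * (x * (y * (x * t))))) = y * (y * (y * (y * (x * (y * (x * t)))))) := (r4 h1 h2 h3 (x * (y * (x * t)))).symm
    _ = y * (y * (y * (y * (y * (y * (y * (y * t))))))) := (congrArg (fun z => y * (y * (y * (y * z)))) (r4 h1 h2 h3 t)).symm
    _ = y * (y * (y * t)) := r1 h1 h2 h3 (y * (y * (y * t)))

theorem r6 (t : G) : y * (x * (x * (y * (x * t)))) = x * (x * (y * (y * (y * t)))) :=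
  calc y * (x * (x * (y * (x * t)))) = y * (x * (y * (y * (y * (y * t))))) := (congrArg (fun z => y * (x * z)) (r4 h1 h2 h3 t)).symm
    _ = x * (x * (y * (y * (y * t)))) := r3 h1 h2 h3 (y * (y * (y * t)))

theorem r7 (t : G) : y * (y * (y * (x * (x * t)))) = x * (y * (x * (x * (y * t)))) :=
  calc y * (y * (y * (x * (x * t)))) = y * (y * (y * (y * (x * (y * t))))) := (congrArg (fun z => y * (y * (y * z))) (r3 h1 h2 h3 t)).symm
    _ = x * (y * (x * (x * (y * t)))) := r4 h1 h2 h3 (x * (y * t))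

theorem r8 (t : G) : y * (y * (x * (x * (y * (y * (y * t)))))) = x * (y * (x * (x * (y * (y * (x * t)))))) :=
  calc y * (y * (x * (x * (y * (y * (y * t)))))) = y * (y * (y * (x * (x * (y * (x * t)))))) := (congrArg (fun z => y * (y * z)) (r6 h1 h2 h3 t)).symm
    _ = x * (y * (x * (x * (y * (y * (x * t)))))) := r7 h1 h2 h3 (y * (x * t))

theorem r9 (t : G) : x * (y * (x * (x * (y * (y * (x * (x * (y * t)))))))) = y * (y * (x * (x * (y * (y * (x * (x * t))))))) :=
  calc x * (y * (x * (x * (y * (y * (x * (x * (y * t)))))))) = y * (y * (x * (x * (y * (y * (y * (x * (y * t)))))))) := (r8 h1 h2 h3 (x * (y * t))).symm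
    _ = y * (y * (x * (x * (y * (y * (x * (x * t))))))) := congrArg (fun z => y * (y * (x * (x * (y * (y * z)))))) (r3 h1 h2 h3 t)

theorem r11 (t : G) : y * (y * (x * (x * (y * (y * (x * (x * (y * (y * t))))))))) = x * (y * (y * (x * (x * (y * (y * (x * t))))))) :=
  calc y * (y * (x * (x * (y * (y * (x * (x * (y * (y * t))))))))) = x * (y * (x * (x * (y * (y * (x * (x * (y * (y * (y * t)))))))))) := (r9 h1 h2 h3 (y * (y * t))).symm
    _ = x * (y * (x * (x * (x * (y * (x * (x * (y * (y * (x * t)))))))))) := congrArg (fun z => x * (y * (x * (x * z)))) (r8 h1 h2 h3 t)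
    _ = x * (y * (y * (x * (x * (y * (y * (x * t))))))) := congrArg (fun z => x * (y * z)) (r0 h1 h2 h3 (y * (x * (x * (y * (y * (x * t)))))))

theorem id_1_y (t : G) : y * (x * t) = x * (x * (y * (y * (y * (y * t))))) :=
  calc y * (x * t) = x * (x * (x * (y * (x * t)))) := (r0 h1 h2 h3 (y * (x * t))).symm
    _ = x * (x * (y * (y * (y * (y * t))))) := (congrArg (fun z => x * (x * z)) (r4 h1 h2 h3 t)).symm

theorem id_2_x (t : G) : x * (x * (x * t)) = t :=
  calc x * (x * (x * t)) = t := r0 h1 h2 h3 t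

theorem id_4_y (t : G) : y * (x * (y * (x * (x * t)))) = x * t :=
  calc y * (x * (y * (x * (x * t)))) = x * (x * (x * (x * t))) := r3 h1 h2 h3 (x * (x * t))
    _ = x * t := r0 h1 h2 h3 (x * t)

theorem id_5_y (t : G) : y * (y * (y * (x * (x * t)))) = x * (y * (x * (x * (y * t)))) :=
  calc y * (y * (y * (x * (x * t)))) = x * (y * (x * (x * (y * t)))) := r7 h1 h2 h3 t

theorem id_6_x (t : G) : x * (x * (x * (y * (x * (x * t))))) = y * (x * (x * t)) :=
  calc x * (x * (x * (y * (x * (x * t))))) = y * (x * (x * t)) := r0 h1 h2 h3 (y * (x * (x * t)))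

theorem id_7_x (t : G) : x * (x * (y * (y * (x * (x * t))))) = y * (x * (x * (y * (x * (x * (y * t)))))) :=
  calc x * (x * (y * (y * (x * (x * t))))) = x * (x * (y * (y * (y * (x * (y * t)))))) := (congrArg (fun z => x * (x * (y * (y * z)))) (r3 h1 h2 h3 t)).symm
    _ = y * (x * (x * (y * (x * (x * (y * t)))))) := (r6 h1 h2 h3 (x * (y * t))).symm

theorem id_7_y (t : G) : y * (x * (y * (y * (x * (x * t))))) = x * (x * (y * (x * (x * t)))) :=
  calc y * (x * (y * (y * (x * (x * t))))) = x * (x * (y * (x * (x * t)))) := r3 h1 h2 h3 (y * (x * (x * t)))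

theorem id_8_x (t : G) : x * (y * (x * (x * (y * (x * (x * t)))))) = y * (y * (x * (x * (y * (y * (y * (y * t))))))) :=
  calc x * (y * (x * (x * (y * (x * (x * t)))))) = y * (y * (y * (x * t))) := r5 h1 h2 h3 (x * t)
    _ = x * (y * (x * (x * (y * (x * (x * t)))))) := (r5 h1 h2 h3 (x * t)).symm
    _ = x * (y * (x * (x * (y * (y * (x * (y * t))))))) := (congrArg (fun z => x * (y * (x * (x * (y * z))))) (r3 h1 h2 h3 t)).symm
    _ = y * (y * (x * (x * (y * (y * (y * (y * t))))))) := (r8 h1 h2 h3 (y * t)).symm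

theorem id_9_y (t : G) : y * (y * (y * (x * (x * (y * (x * (x * t))))))) = x * (y * (y * (x * (x * (y * (x * (x * (y * t)))))))) :=
  calc y * (y * (y * (x * (x * (y * (x * (x * t))))))) = x * (y * (x * (x * (y * (y * (x * (x * t))))))) := r7 h1 h2 h3 (y * (x * (x * t)))
    _ = x * (y * (x * (x * (y * (y * (y * (x * (y * t)))))))) := (congrArg (fun z => x * (y * (x * (x * (y * (y * z)))))) (r3 h1 h2 h3 t)).symm
    _ = x * (y * (y * (x * (x * (y * (x * (x * (y * t)))))))) := (congrArg (fun z => x * (y * z)) (r6 h1 h2 h3 (x * (y * t)))).symm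

theorem id_10_y (t : G) : y * (x * (y * (y * (x * (x * (y * (x * (x * t)))))))) = x * (y * (y * (x * (x * (y * (y * (y * (y * t)))))))) :=
  calc y * (x * (y * (y * (x * (x * (y * (x * (x * t)))))))) = x * (x * (y * (x * (x * (y * (x * (x * t))))))) := r3 h1 h2 h3 (y * (x * (x * (y * (x * (x * t))))))
    _ = x * (y * (y * (y * (x * t)))) := congrArg (fun z => x * z) (r5 h1 h2 h3 (x * t))
    _ = x * (x * (y * (x * (x * (y * (x * (x * t))))))) := (congrArg (fun z => x * z) (r5 h1 h2 h3 (x * t))).symm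
    _ = x * (x * (y * (x * (x * (y * (y * (x * (y * t)))))))) := (congrArg (fun z => x * (x * (y * (x * (x * (y * z)))))) (r3 h1 h2 h3 t)).symm
    _ = x * (y * (y * (x * (x * (y * (y * (y * (y * t)))))))) := (congrArg (fun z => x * z) (r8 h1 h2 h3 (y * t))).symm

theorem id_11_x (t : G) : x * (x * (x * (y * (y * (x * (x * (y * (x * (x * t))))))))) = y * (y * (x * (x * (y * (x * (x * t)))))) :=
  calc x * (x * (x * (y * (y * (x * (x * (y * (x * (x * t))))))))) = y * (y * (x * (x * (y * (x * (x * t)))))) := r0 h1 h2 h3 (y * (y * (x * (x * (y * (x * (x * t)))))))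
    _ = y * (x * (x * (y * (y * (y * (x * t)))))) := congrArg (fun z => y * z) (r6 h1 h2 h3 (x * t))
    _ = y * (y * (x * (x * (y * (x * (x * t)))))) := (congrArg (fun z => y * z) (r6 h1 h2 h3 (x * t))).symm

theorem id_11_y (t : G) : y * (x * (x * (y * (y * (x * (x * (y * (x * (x * t))))))))) = x * (x * (y * (y * (x * (x * (y * (x * (x * (y * (y * (y * (y * t)))))))))))) :=
  calc y * (x * (x * (y * (y * (x * (x * (y * (x * (x * t))))))))) = y * (x * (x * (y * (x * (x * (y * (y * (y * (x * t))))))))) := congrArg (fun z => y * (x * (x * (y * z)))) (r6 h1 h2 h3 (x * t))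
    _ = x * (x * (y * (y * (y * (x * (y * (y * (y * (x * t))))))))) := r6 h1 h2 h3 (x * (y * (y * (y * (x * t)))))
    _ = x * (x * (y * (y * (x * (x * (y * (y * (x * t)))))))) := congrArg (fun z => x * (x * (y * (y * z)))) (r3 h1 h2 h3 (y * (y * (x * t))))
    _ = x * (y * (y * (x * (x * (y * (y * (x * (x * (y * (y * t)))))))))) := (congrArg (fun z => x * z) (r11 h1 h2 h3 t)).symm
    _ = x * (x * (y * (x * (x * (y * (y * (x * (x * (y * (y * (y * t))))))))))) := (congrArg (fun z => x * z) (r9 h1 h2 h3 (y * (y * t)))).symm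
    _ = x * (x * (y * (x * (x * (y * (y * (y * (x * (y * (y * (y * (y * t)))))))))))) := (congrArg (fun z => x * (x * (y * (x * (x * (y * (y * z))))))) (r3 h1 h2 h3 (y * (y * (y * t))))).symm
    _ = x * (x * (y * (y * (x * (x * (y * (x * (x * (y * (y * (y * (y * t)))))))))))) := (congrArg (fun z => x * (x * (y * z))) (r6 h1 h2 h3 (x * (y * (y * (y * (y * t))))))).symm

end kb

def W {G : Type*} [Group G] (x y : G) : Fin 12 → G → G :=
  ![fun t => t, fun t => x * t, fun t => x * (x * t), fun t => y * (x * (x * t)), fun t => x * (y * (x * (x * t))), fun t => y * (y * (x * (x * t))), fun t => x * (x * (y * (x * (x * t)))), fun t => x * (y * (y * (x * (x * t)))), fun t => y * (x * (x * (y * (x * (x * t))))), fun t => y * (y * (x * (x * (y * (x * (x * t)))))), fun t => x * (y * (y * (x * (x * (y * (x * (x * t))))))), fun t => x * (x * (y * (y * (x * (x * (y * (x * (x * t))))))))]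

theorem closed_x {G : Type*} [Group G] {x y : G} (h1 : x * (x * x) = 1)
    (h2 : y * (y * (y * (y * y))) = 1) (h3 : x * (y * (x * y)) = 1) (g : G)
    (hg : ∃ i : Fin 12, ∃ e : ℕ, g = W x y i (y ^ e)) :
    ∃ i : Fin 12, ∃ e : ℕ, x * g = W x y i (y ^ e) := by
  obtain ⟨i, e, rfl⟩ := hg
  fin_cases i
  · exact ⟨1, e, rfl⟩
  · exact ⟨2, e, rfl⟩
  · refine ⟨0, e, ?_⟩
    show x * (x * (x * (y ^ e))) = y ^ e
    exact id_2_x h1 h2 h3 (y ^ e)
  · exact ⟨4, e, rfl⟩
  · exact ⟨6, e, rfl⟩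
  · exact ⟨7, e, rfl⟩
  · refine ⟨3, e, ?_⟩
    show x * (x * (x * (y * (x * (x * (y ^ e)))))) = y * (x * (x * (y ^ e)))
    exact id_6_x h1 h2 h3 (y ^ e)
  · refine ⟨8, e + 1, ?_⟩
    show x * (x * (y * (y * (x * (x * (y ^ e)))))) = y * (x * (x * (y * (x * (x * (y ^ (e + 1)))))))
    rw [pow_succ']
    exact id_7_x h1 h2 h3 (y ^ e)
  · refine ⟨5, e + 4, ?_⟩
    show x * (y * (x * (x * (y * (x * (x * (y ^ e))))))) = y * (y * (x * (x * (y ^ (e + 4)))))
    rw [pow_succ', pow_succ', pow_succ', pow_succ']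
    exact id_8_x h1 h2 h3 (y ^ e)
  · exact ⟨10, e, rfl⟩
  · exact ⟨11, e, rfl⟩
  · refine ⟨9, e, ?_⟩
    show x * (x * (x * (y * (y * (x * (x * (y * (x * (x * (y ^ e)))))))))) = y * (y * (x * (x * (y * (x * (x * (y ^ e)))))))
    exact id_11_x h1 h2 h3 (y ^ e)

theorem closed_y {G : Type*} [Group G] {x y : G} (h1 : x * (x * x) = 1)
    (h2 : y * (y * (y * (y * y))) = 1) (h3 : x * (y * (x * y)) = 1) (g : G)
    (hg : ∃ i : Fin 12, ∃ e : ℕ, g = W x y i (y ^ e)) :
    ∃ i : Fin 12, ∃ e : ℕ, y * g = W x y i (y ^ e) := by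
  obtain ⟨i, e, rfl⟩ := hg
  fin_cases i
  · refine ⟨0, e + 1, ?_⟩
    show y * (y ^ e) = y ^ (e + 1)
    rw [pow_succ']
  · refine ⟨2, e + 4, ?_⟩
    show y * (x * (y ^ e)) = x * (x * (y ^ (e + 4)))
    rw [pow_succ', pow_succ', pow_succ', pow_succ']
    exact id_1_y h1 h2 h3 (y ^ e)
  · exact ⟨3, e, rfl⟩
  · exact ⟨5, e, rfl⟩
  · refine ⟨1, e, ?_⟩
    show y * (x * (y * (x * (x * (y ^ e))))) = x * (y ^ e)
    exact id_4_y h1 h2 h3 (y ^ e)
  · refine ⟨4, e + 1, ?_⟩
    show y * (y * (y * (x * (x * (y ^ e))))) = x * (y * (x * (x * (y ^ (e + 1)))))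
    rw [pow_succ']
    exact id_5_y h1 h2 h3 (y ^ e)
  · exact ⟨8, e, rfl⟩
  · refine ⟨6, e, ?_⟩
    show y * (x * (y * (y * (x * (x * (y ^ e)))))) = x * (x * (y * (x * (x * (y ^ e)))))
    exact id_7_y h1 h2 h3 (y ^ e)
  · exact ⟨9, e, rfl⟩
  · refine ⟨10, e + 1, ?_⟩
    show y * (y * (y * (x * (x * (y * (x * (x * (y ^ e)))))))) = x * (y * (y * (x * (x * (y * (x * (x * (y ^ (e + 1)))))))))
    rw [pow_succ']
    exact id_9_y h1 h2 h3 (y ^ e)
  · refine ⟨7, e + 4, ?_⟩
    show y * (x * (y * (y * (x * (x * (y * (x * (x * (y ^ e))))))))) = x * (y * (y * (x * (x * (y ^ (e + 4))))))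
    rw [pow_succ', pow_succ', pow_succ', pow_succ']
    exact id_10_y h1 h2 h3 (y ^ e)
  · refine ⟨11, e + 4, ?_⟩
    show y * (x * (x * (y * (y * (x * (x * (y * (x * (x * (y ^ e)))))))))) = x * (x * (y * (y * (x * (x * (y * (x * (x * (y ^ (e + 4))))))))))
    rw [pow_succ', pow_succ', pow_succ', pow_succ']
    exact id_11_y h1 h2 h3 (y ^ e)

theorem all_mem {G : Type*} [Group G] {x y : G} (h1 : x * (x * x) = 1)
    (h2 : y * (y * (y * (y * y))) = 1) (h3 : x * (y * (x * y)) = 1)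
    (φ : FreeGroup (Fin 2) →* G) (hφ0 : φ (FreeGroup.of 0) = x) (hφ1 : φ (FreeGroup.of 1) = y)
    (z : FreeGroup (Fin 2)) :
    ∀ g : G, (∃ i : Fin 12, ∃ e : ℕ, g = W x y i (y ^ e)) →
      ∃ i : Fin 12, ∃ e : ℕ, φ z * g = W x y i (y ^ e) := by
  refine FreeGroup.induction_on z ?_ ?_ ?_ ?_
  · intro g hg
    rw [map_one, one_mul]
    exact hg
  · intro i g hg
    fin_cases i
    · show ∃ i : Fin 12, ∃ e : ℕ, φ (FreeGroup.of 0) * g = W x y i (y ^ e)
      rw [hφ0]
      exact closed_x h1 h2 h3 g hg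
    · show ∃ i : Fin 12, ∃ e : ℕ, φ (FreeGroup.of 1) * g = W x y i (y ^ e)
      rw [hφ1]
      exact closed_y h1 h2 h3 g hg
  · intro i _ g hg
    fin_cases i
    · show ∃ i : Fin 12, ∃ e : ℕ, φ (FreeGroup.of 0)⁻¹ * g = W x y i (y ^ e)
      have hinv : x⁻¹ = x * x := inv_eq_of_mul_eq_one_right h1
      rw [map_inv, hφ0, hinv, mul_assoc]
      exact closed_x h1 h2 h3 _ (closed_x h1 h2 h3 g hg)
    · show ∃ i : Fin 12, ∃ e : ℕ, φ (FreeGroup.of 1)⁻¹ * g = W x y i (y ^ e)
      have hinv : y⁻¹ = y * (y * (y * y)) := inv_eq_of_mul_eq_one_right h2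
      rw [map_inv, hφ1, hinv, mul_assoc, mul_assoc, mul_assoc]
      exact closed_y h1 h2 h3 _ (closed_y h1 h2 h3 _ (closed_y h1 h2 h3 _ (closed_y h1 h2 h3 g hg)))
  · intro a b iha ihb g hg
    rw [map_mul, mul_assoc]
    exact iha _ (ihb g hg)

theorem card_le {G : Type*} [Group G] {x y : G} (h1 : x * (x * x) = 1)
    (h2 : y * (y * (y * (y * y))) = 1) (h3 : x * (y * (x * y)) = 1)
    (φ : FreeGroup (Fin 2) →* G) (hφ0 : φ (FreeGroup.of 0) = x) (hφ1 : φ (FreeGroup.of 1) = y)
    (hsurj : Function.Surjective φ) : Finite G ∧ Nat.card G ≤ 60 := by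
  have hy5 : y ^ 5 = 1 := by
    rw [pow_succ', pow_succ', pow_succ', pow_succ', pow_one]
    exact h2
  let f : Fin 12 × Fin 5 → G := fun q => W x y q.1 (y ^ (q.2 : ℕ))
  have hf : Function.Surjective f := by
    intro g
    obtain ⟨z, rfl⟩ := hsurj g
    obtain ⟨i, e, he⟩ := all_mem h1 h2 h3 φ hφ0 hφ1 z 1
      ⟨0, 0, by show (1 : G) = y ^ 0; rw [pow_zero]⟩
    rw [mul_one] at he
    refine ⟨(i, ⟨e % 5, Nat.mod_lt _ (by norm_num)⟩), ?_⟩
    show W x y i (y ^ (e % 5)) = φ z
    rw [he, pow_eq_pow_mod e hy5]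
  have hfin : Finite G := Finite.of_surjective f hf
  refine ⟨hfin, ?_⟩
  have h4 := Nat.card_le_card_of_surjective f hf
  simpa using h4

def sA : alternatingGroup (Fin 5) := g3

def tA : alternatingGroup (Fin 5) := g5 ^ 2

theorem range_eq_top (N : Subgroup (alternatingGroup (Fin 5))) (hs : sA ∈ N) (ht : tA ∈ N) :
    N = ⊤ := by
  have hcard : Nat.card (alternatingGroup (Fin 5)) = 60 := by
    rw [nat_card_alternatingGroup, Nat.card_fin]
    rfl
  have o3 : orderOf sA = 3 := order_g3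
  have o5 : orderOf tA = 5 := by
    haveI : Fact (Nat.Prime 5) := ⟨by norm_num⟩
    exact orderOf_eq_prime (by decide) (by decide)
  have o2 : orderOf (sA * tA) = 2 := by
    haveI : Fact (Nat.Prime 2) := ⟨by norm_num⟩
    exact orderOf_eq_prime (by decide) (by decide)
  have d3 : 3 ∣ Nat.card N := by
    have h := N.orderOf_dvd_natCard hs
    rwa [o3] at h
  have d5 : 5 ∣ Nat.card N := by
    have h := N.orderOf_dvd_natCard ht
    rwa [o5] at h
  have d2 : 2 ∣ Nat.card N := by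
    have h := N.orderOf_dvd_natCard (N.mul_mem hs ht)
    rwa [o2] at h
  have d30 : 30 ∣ Nat.card N := by
    have h6 : 6 ∣ Nat.card N := Nat.Coprime.mul_dvd_of_dvd_of_dvd (by norm_num) d2 d3
    exact Nat.Coprime.mul_dvd_of_dvd_of_dvd (by norm_num) h6 d5
  have hidx := N.card_mul_index
  rw [hcard] at hidx
  obtain ⟨c, hc⟩ := d30
  have hcpos : 0 < c := by
    rcases Nat.eq_zero_or_pos c with h | h
    · rw [h, mul_zero] at hc
      rw [hc, zero_mul] at hidx
      omega
    · exact h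
  have hidx2 : N.index = 1 ∨ N.index = 2 := by
    rw [hc] at hidx
    have h7 : c * N.index = 2 := by nlinarith
    have h8 : N.index ∣ 2 := Dvd.intro_left _ h7
    rcases (Nat.dvd_prime Nat.prime_two).mp h8 with h | h
    · exact Or.inl h
    · exact Or.inr h
  rcases hidx2 with h | h
  · exact Subgroup.index_eq_one.mp h
  · haveI : N.Normal := Subgroup.normal_of_index_eq_two h
    rcases Subgroup.Normal.eq_bot_or_eq_top (inferInstance : N.Normal) with h9 | h9
    · exfalso
      rw [h9, Subgroup.card_bot] at hc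
      omega
    · exact h9

theorem main_aux (R : Set (FreeGroup (Fin 2))) (m1 : FreeGroup.of (0 : Fin 2) ^ 3 ∈ R)
    (m2 : FreeGroup.of (1 : Fin 2) ^ 5 ∈ R)
    (m3 : (FreeGroup.of (0 : Fin 2) * FreeGroup.of 1) ^ 2 ∈ R)
    (hrel : ∀ r ∈ R, FreeGroup.lift ![sA, tA] r = 1) :
    Nonempty (PresentedGroup R ≃* alternatingGroup (Fin 5)) := by
  have h1 : (PresentedGroup.of (0 : Fin 2) : PresentedGroup R) *
      (PresentedGroup.of 0 * PresentedGroup.of 0) = 1 := by
    have h := PresentedGroup.one_of_mem m1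
    rw [map_pow, pow_three] at h
    exact h
  have h2 : (PresentedGroup.of (1 : Fin 2) : PresentedGroup R) * (PresentedGroup.of 1 *
      (PresentedGroup.of 1 * (PresentedGroup.of 1 * PresentedGroup.of 1))) = 1 := by
    have h := PresentedGroup.one_of_mem m2
    rw [map_pow, pow_succ', pow_succ', pow_succ', pow_succ', pow_one] at h
    exact h
  have h3 : (PresentedGroup.of (0 : Fin 2) : PresentedGroup R) * (PresentedGroup.of 1 *
      (PresentedGroup.of 0 * PresentedGroup.of 1)) = 1 := by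
    have h := PresentedGroup.one_of_mem m3
    rw [map_pow, map_mul, pow_two, mul_assoc] at h
    exact h
  obtain ⟨hfin, hcard⟩ := card_le h1 h2 h3 (PresentedGroup.mk R) rfl rfl
    (PresentedGroup.mk_surjective R)
  have hsurj : Function.Surjective (PresentedGroup.toGroup hrel) := by
    rw [← MonoidHom.range_eq_top]
    apply range_eq_top
    · exact ⟨PresentedGroup.of 0, PresentedGroup.toGroup.of hrel⟩
    · exact ⟨PresentedGroup.of 1, PresentedGroup.toGroup.of hrel⟩
  have hcardA : Nat.card (alternatingGroup (Fin 5)) = 60 := by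
    rw [nat_card_alternatingGroup, Nat.card_fin]
    rfl
  have hbij := hsurj.bijective_of_nat_card_le (by rw [hcardA]; exact hcard)
  exact ⟨MulEquiv.ofBijective _ hbij⟩

/-- The alternating group of degree 5 has the presentation ⟨x, y | x³ = 1, y⁵ = 1, (xy)² = 1⟩: the group so presented is isomorphic to Alt(5). -/
theorem result :
    Nonempty (PresentedGroup ({FreeGroup.of (0 : Fin 2) ^ 3, FreeGroup.of (1 : Fin 2) ^ 5,
        (FreeGroup.of (0 : Fin 2) * FreeGroup.of 1) ^ 2} : Set (FreeGroup (Fin 2))) ≃* alternatingGroup (Fin 5)) := by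
  apply main_aux
  · simp
  · simp
  · simp
  · intro r hr
    rcases hr with rfl | rfl | rfl
    · rw [map_pow, FreeGroup.lift_apply_of]
      show sA ^ 3 = 1
      decide
    · rw [map_pow, FreeGroup.lift_apply_of]
      show tA ^ 5 = 1
      decide
    · rw [map_pow, map_mul, FreeGroup.lift_apply_of, FreeGroup.lift_apply_of]
      show (sA * tA) ^ 2 = 1
      decide

end Cfsg.Agent.S3377
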