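import Cfsg.Statements.S3379
import Mathlib

set_option autoImplicit false
open Cfsg

namespace Cfsg.Agent.S3379

open scoped commutatorElement

theorem two_gen_comm {Q : Type*} [Group Q] (a b : Q) (hgen : Subgroup.closure {a, b} = ⊤)
    (hab : a * b = b * a) (u v : Q) : u * v = v * u := by
  have hc : Subgroup.centralizer ({a, b} : Set Q) = Subgroup.center Q := by
    rw [← Subgroup.centralizer_closure, hgen, Subgroup.coe_top, Subgroup.centralizer_univ]
  have ha : a ∈ Subgroup.center Q := by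
    rw [← hc, Subgroup.mem_centralizer_iff]
    intro h hh
    rcases hh with rfl | rfl
    · rfl
    · exact hab.symm
  have hb : b ∈ Subgroup.center Q := by
    rw [← hc, Subgroup.mem_centralizer_iff]
    intro h hh
    rcases hh with rfl | rfl
    · exact hab
    · rfl
  have htop : Subgroup.center Q = ⊤ := by
    rw [eq_top_iff, ← hgen, Subgroup.closure_le]
    rintro _ (rfl | rfl)
    · exact ha
    · exact hb
  have hu : u ∈ Subgroup.center Q := htop ▸ Subgroup.mem_top u
  exact (Subgroup.mem_center_iff.mp hu v).symm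

theorem comm_le {G : Type*} [Group G] (x y : G) (r : ℕ) (hr1 : 1 ≤ r)
    (hgen : Subgroup.closure {x, y} = ⊤) (hr : x⁻¹ * y * x = y ^ r)
    (hN : ∀ g : G, g * y * g⁻¹ ∈ Subgroup.zpowers y) :
    commutator G ≤ Subgroup.zpowers (y ^ (r - 1)) := by
  have hDn : (Subgroup.zpowers (y ^ (r - 1))).Normal := by
    refine ⟨fun d hd g => ?_⟩
    obtain ⟨j, rfl⟩ := Subgroup.mem_zpowers_iff.mp hd
    obtain ⟨i, hi⟩ := Subgroup.mem_zpowers_iff.mp (hN g)
    have h1 : g * (y ^ (r - 1)) ^ j * g⁻¹ = ((g * y * g⁻¹) ^ (r - 1)) ^ j := by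
      have h2 := map_zpow (MulAut.conj g) (y ^ (r - 1)) j
      have h3 := map_pow (MulAut.conj g) y (r - 1)
      simp only [MulAut.conj_apply] at h2 h3
      rw [h2, h3]
    rw [h1, ← hi]
    have h4 : (y ^ i) ^ (r - 1) = (y ^ (r - 1)) ^ i := by
      rw [← zpow_natCast, ← zpow_mul, mul_comm, zpow_mul, zpow_natCast]
    rw [h4]
    exact Subgroup.zpow_mem _ (Subgroup.zpow_mem _ (Subgroup.mem_zpowers _) i) j
  have hgenQ : Subgroup.closure {(QuotientGroup.mk' (Subgroup.zpowers (y ^ (r - 1))) x),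
      (QuotientGroup.mk' (Subgroup.zpowers (y ^ (r - 1))) y)} = ⊤ := by
    have h1 := MonoidHom.map_closure (QuotientGroup.mk' (Subgroup.zpowers (y ^ (r - 1)))) {x, y}
    rw [hgen, Subgroup.map_top_of_surjective _ (QuotientGroup.mk'_surjective _), Set.image_pair] at h1
    exact h1.symm
  have hyr : QuotientGroup.mk' (Subgroup.zpowers (y ^ (r - 1))) (y ^ r) =
      QuotientGroup.mk' (Subgroup.zpowers (y ^ (r - 1))) y := by
    symm
    apply QuotientGroup.eq.mpr
    have h5 : y⁻¹ * y ^ r = y ^ (r - 1) := by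
      obtain ⟨s, rfl⟩ := Nat.exists_eq_add_of_le hr1
      rw [Nat.add_sub_cancel_left, add_comm, pow_succ', inv_mul_cancel_left]
    rw [h5]
    exact Subgroup.mem_zpowers _
  have hcomm : QuotientGroup.mk' (Subgroup.zpowers (y ^ (r - 1))) x *
      QuotientGroup.mk' (Subgroup.zpowers (y ^ (r - 1))) y =
      QuotientGroup.mk' (Subgroup.zpowers (y ^ (r - 1))) y *
      QuotientGroup.mk' (Subgroup.zpowers (y ^ (r - 1))) x := by
    rw [← hr, map_mul, map_mul, map_inv] at hyr
    have h6 := congrArg (fun z => QuotientGroup.mk' (Subgroup.zpowers (y ^ (r - 1))) x * z) hyr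
    simp only [mul_assoc, mul_inv_cancel_left] at h6
    exact h6.symm
  rw [commutator_def, Subgroup.commutator_le]
  intro a _ b _
  apply (QuotientGroup.eq_one_iff _).mp
  have h7 : (⁅a, b⁆ : G) = a * b * a⁻¹ * b⁻¹ := rfl
  have h8 := two_gen_comm _ _ hgenQ hcomm (QuotientGroup.mk' (Subgroup.zpowers (y ^ (r - 1))) a)
    (QuotientGroup.mk' (Subgroup.zpowers (y ^ (r - 1))) b)
  show QuotientGroup.mk' (Subgroup.zpowers (y ^ (r - 1))) ⁅a, b⁆ = 1
  rw [h7, map_mul, map_mul, map_mul, map_inv, map_inv, h8]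
  group

theorem main {G : Type*} [Group G] [Finite G] [IsZGroup G] :
    ∃ (x y : G) (n m r : ℕ), Subgroup.closure {x, y} = ⊤ ∧ orderOf x = n ∧ orderOf y = m ∧
      x⁻¹ * y * x = y ^ r ∧ Nat.Coprime (r - 1) m ∧ Nat.Coprime n m ∧ 1 ≤ r ∧
      r ^ n % m = 1 % m := by
  haveI hNc : IsCyclic (commutator G) := IsZGroup.isCyclic_commutator G
  have hcop := IsZGroup.coprime_commutator_index G
  obtain ⟨H, hH⟩ := Subgroup.exists_right_complement'_of_coprime hcop
  have h1 : Abelianization G ≃* H := hH.symm.QuotientMulEquiv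
  haveI hHc : IsCyclic H := isCyclic_of_surjective _ h1.surjective
  obtain ⟨y', hy'⟩ := IsCyclic.exists_generator (α := commutator G)
  obtain ⟨x', hx'⟩ := IsCyclic.exists_generator (α := H)
  have hyN : Subgroup.zpowers (y' : G) = commutator G := by
    apply le_antisymm
    · rw [Subgroup.zpowers_le]; exact y'.2
    · intro g hg
      obtain ⟨k, hk⟩ := Subgroup.mem_zpowers_iff.mp (hy' ⟨g, hg⟩)
      rw [Subgroup.mem_zpowers_iff]
      refine ⟨k, ?_⟩
      have h2 := congrArg Subtype.val hk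
      simpa using h2
  have hxH : Subgroup.zpowers (x' : G) = H := by
    apply le_antisymm
    · rw [Subgroup.zpowers_le]; exact x'.2
    · intro g hg
      obtain ⟨k, hk⟩ := Subgroup.mem_zpowers_iff.mp (hx' ⟨g, hg⟩)
      rw [Subgroup.mem_zpowers_iff]
      refine ⟨k, ?_⟩
      have h2 := congrArg Subtype.val hk
      simpa using h2
  have hm : orderOf (y' : G) = Nat.card (commutator G) := by rw [← Nat.card_zpowers, hyN]
  have hn : orderOf (x' : G) = Nat.card H := by rw [← Nat.card_zpowers, hxH]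
  have hHcard : Nat.card H = (commutator G).index := by
    rw [Subgroup.index_eq_card]; exact (Nat.card_congr h1.toEquiv).symm
  have hNmem : ∀ g : G, g * (y' : G) * g⁻¹ ∈ Subgroup.zpowers (y' : G) := by
    intro g
    rw [hyN]
    exact (inferInstance : (commutator G).Normal).conj_mem _ y'.2 g
  have hconj : (x' : G)⁻¹ * y' * x' ∈ Subgroup.zpowers (y' : G) := by
    have h2 := hNmem (x' : G)⁻¹
    rwa [inv_inv] at h2
  obtain ⟨k, hk⟩ := Subgroup.mem_zpowers_iff.mp hconj
  have hm0 : 0 < orderOf (y' : G) := orderOf_pos _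
  have hr₀ : (y' : G) ^ (k % (orderOf (y' : G) : ℤ)).toNat = (x' : G)⁻¹ * y' * x' := by
    rw [← hk, ← zpow_mod_orderOf, ← zpow_natCast]
    congr 1
    exact Int.toNat_of_nonneg (Int.emod_nonneg _ (by exact_mod_cast hm0.ne'))
  have hr : (x' : G)⁻¹ * y' * x' =
      (y' : G) ^ ((k % (orderOf (y' : G) : ℤ)).toNat + orderOf (y' : G)) := by
    rw [pow_add, pow_orderOf_eq_one, mul_one, hr₀]
  have hr1 : 1 ≤ (k % (orderOf (y' : G) : ℤ)).toNat + orderOf (y' : G) := by omega
  generalize (k % (orderOf (y' : G) : ℤ)).toNat + orderOf (y' : G) = r at hr hr1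
  have hgen : Subgroup.closure {(x' : G), (y' : G)} = ⊤ := by
    rw [eq_top_iff, ← hH.sup_eq_top]
    apply sup_le
    · exact (le_of_eq hyN.symm).trans
        (Subgroup.zpowers_le.mpr (Subgroup.subset_closure (by simp)))
    · exact (le_of_eq hxH.symm).trans
        (Subgroup.zpowers_le.mpr (Subgroup.subset_closure (by simp)))
  refine ⟨x', y', orderOf (x' : G), orderOf (y' : G), r, hgen, rfl, rfl, hr, ?_, ?_, hr1, ?_⟩
  · have hle := comm_le (x' : G) (y' : G) r hr1 hgen hr hNmem
    have heq : Subgroup.zpowers ((y' : G) ^ (r - 1)) = Subgroup.zpowers (y' : G) := by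
      apply le_antisymm
      · rw [Subgroup.zpowers_le]
        exact Subgroup.pow_mem _ (Subgroup.mem_zpowers _) _
      · rw [hyN]; exact hle
    have hord : orderOf ((y' : G) ^ (r - 1)) = orderOf (y' : G) := by
      rw [← Nat.card_zpowers, heq, Nat.card_zpowers]
    rw [orderOf_pow] at hord
    have hg : (orderOf (y' : G)).gcd (r - 1) = 1 := by
      rcases Nat.div_eq_self.mp hord with h | h
      · omega
      · exact h
    rw [Nat.coprime_comm]
    exact hg
  · rw [hn, hm, hHcard]
    exact hcop.symm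
  · have hpow : ∀ j : ℕ, ((x' : G) ^ j)⁻¹ * y' * (x' : G) ^ j = (y' : G) ^ (r ^ j) := by
      intro j
      induction j with
      | zero => simp
      | succ j ih =>
        have e1 : ((x' : G) ^ (j + 1))⁻¹ * y' * (x' : G) ^ (j + 1) =
            (x' : G)⁻¹ * (((x' : G) ^ j)⁻¹ * y' * (x' : G) ^ j) * x' := by
          rw [pow_succ]; group
        rw [e1, ih]
        have e2 : (x' : G)⁻¹ * (y' : G) ^ (r ^ j) * x' = ((x' : G)⁻¹ * y' * x') ^ (r ^ j) := by
          have h3 := map_pow (MulAut.conj (x' : G)⁻¹) (y' : G) (r ^ j)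
          simp only [MulAut.conj_apply, inv_inv] at h3
          exact h3
        rw [e2, hr, ← pow_mul, ← pow_succ']
    have h4 := hpow (orderOf (x' : G))
    rw [pow_orderOf_eq_one, inv_one, one_mul, mul_one] at h4
    have h5 : (y' : G) ^ (r ^ orderOf (x' : G)) = (y' : G) ^ 1 := by rw [pow_one]; exact h4.symm
    exact pow_eq_pow_iff_modEq.mp h5

/-- Let G be a finite group all of whose Sylow subgroups are cyclic. Then G is generated by two elements x and y of coprime orders n and m with x⁻¹yx = y^r, where gcd(r − 1, m) = 1 and r^n ≡ 1 (mod m). -/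
theorem result {G : Type*} [Group G] [Finite G]
    (hZ : ∀ (p : ℕ) [Fact p.Prime] (P : Sylow p G), IsCyclic (P : Subgroup G)) :
    ∃ (x y : G) (n m r : ℕ), Subgroup.closure {x, y} = ⊤ ∧ orderOf x = n ∧ orderOf y = m ∧
      x⁻¹ * y * x = y ^ r ∧ Nat.Coprime (r - 1) m ∧ Nat.Coprime n m ∧ 1 ≤ r ∧ r ^ n % m = 1 % m := by
  haveI : IsZGroup G := ⟨fun p hp P => by
    haveI := Fact.mk hp
    exact hZ p P⟩
  exact main

end Cfsg.Agent.S3379
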