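import Cfsg.Statements.S3733
import Mathlib

set_option autoImplicit false
open Cfsg

namespace Cfsg.Agent.S3733

open scoped IsMulCommutative

theorem partition_trivial {A' M ι : Type*} [Group A'] [Finite A'] [CommGroup M] [Finite M]
    [MulDistribMulAction A' M] (s : Finset ι) (B : ι → Subgroup A') (hs : s.Nonempty)
    (hpart : ∀ a : A', a ≠ 1 → ∃! i, i ∈ s ∧ a ∈ B i)
    (hk : (s.card - 1).Coprime (Nat.card M))
    (hfix : ∀ i ∈ s, ∀ m : M, (∀ b ∈ B i, b • m = m) → m = 1) (v : M) : v = 1 := by
  classical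
  have : Fintype A' := Fintype.ofFinite A'
  have hfixB : ∀ i : ι, ∀ b ∈ B i,
      b • (∏ a ∈ Finset.univ.filter (fun a => a ∈ B i), a • v)
        = ∏ a ∈ Finset.univ.filter (fun a => a ∈ B i), a • v := by
    intro i b hb
    rw [Finset.smul_prod']
    refine Finset.prod_bij' (fun a _ => b * a) (fun a _ => b⁻¹ * a) ?_ ?_ ?_ ?_ ?_
    · intro a ha
      rw [Finset.mem_filter] at ha ⊢
      exact ⟨Finset.mem_univ _, Subgroup.mul_mem _ hb ha.2⟩
    · intro a ha
      rw [Finset.mem_filter] at ha ⊢
      exact ⟨Finset.mem_univ _, Subgroup.mul_mem _ (Subgroup.inv_mem _ hb) ha.2⟩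
    · intro a _; simp
    · intro a _; simp
    · intro a _; rw [mul_smul]
  have hNi : ∀ i ∈ s, (∏ a ∈ Finset.univ.filter (fun a => a ∈ B i), a • v) = 1 :=
    fun i hi => hfix i hi _ (hfixB i)
  have hfixA : ∀ b : A', b • (∏ a : A', a • v) = ∏ a : A', a • v := by
    intro b
    rw [Finset.smul_prod']
    exact Fintype.prod_equiv (Equiv.mulLeft b) _ _ (fun a => by simp [mul_smul])
  have hNA : (∏ a : A', a • v) = 1 := by
    obtain ⟨i, hi⟩ := hs
    exact hfix i hi _ (fun b _ => hfixA b)
  have hkey : ∏ i ∈ s, ∏ a ∈ Finset.univ.filter (fun a => a ∈ B i), a • v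
      = (∏ a : A', a • v) * v ^ (s.card - 1) := by
    have h1 : ∀ i ∈ s, (∏ a ∈ Finset.univ.filter (fun a => a ∈ B i), a • v)
        = ∏ a : A', if a ∈ B i then a • v else 1 := by
      intro i _
      rw [Finset.prod_filter]
    rw [Finset.prod_congr rfl h1, Finset.prod_comm]
    have h2 : ∀ a : A', (∏ i ∈ s, if a ∈ B i then a • v else 1)
        = (a • v) * (if a = 1 then v ^ (s.card - 1) else 1) := by
      intro a
      rw [← Finset.prod_filter, Finset.prod_const]
      by_cases ha : a = 1
      · subst ha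
        rw [if_pos rfl, one_smul]
        have : s.filter (fun i => (1 : A') ∈ B i) = s :=
          Finset.filter_true_of_mem (fun i _ => Subgroup.one_mem _)
        rw [this, ← pow_succ']
        congr 1
        have := hs.card_pos
        omega
      · rw [if_neg ha, mul_one]
        have : (s.filter (fun i => a ∈ B i)).card = 1 := by
          rw [Finset.card_eq_one]
          obtain ⟨i, ⟨his, hai⟩, huniq⟩ := hpart a ha
          refine ⟨i, ?_⟩
          ext j
          rw [Finset.mem_filter, Finset.mem_singleton]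
          constructor
          · intro hj; exact huniq j hj
          · rintro rfl; exact ⟨his, hai⟩
        rw [this, pow_one]
    rw [Finset.prod_congr rfl (fun a _ => h2 a), Finset.prod_mul_distrib, Finset.prod_ite_eq']
    simp
  rw [Finset.prod_congr rfl hNi, Finset.prod_const_one, hNA, one_mul] at hkey
  have h1 : orderOf v ∣ s.card - 1 := orderOf_dvd_of_pow_eq_one hkey.symm
  have h2 : orderOf v ∣ Nat.card M := orderOf_dvd_natCard v
  have h3 : orderOf v ∣ 1 := by
    have := Nat.dvd_gcd h1 h2
    rwa [Nat.Coprime.gcd_eq_one hk] at this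
  exact orderOf_eq_one_iff.1 (Nat.dvd_one.1 h3)

@[reducible] def conjActionH6 {G : Type*} [Group G] (A V : Subgroup G)
    (hAV : A ≤ Subgroup.normalizer (V : Set G)) : MulDistribMulAction A V where
  smul a v := ⟨a * v * (a : G)⁻¹, (Subgroup.mem_normalizer_iff.1 (hAV a.2) v).1 v.2⟩
  one_smul v := by
    apply Subtype.ext
    change ((1 : A) : G) * v * ((1 : A) : G)⁻¹ = v
    simp
  mul_smul a b v := by
    apply Subtype.ext
    change ((a * b : A) : G) * v * ((a * b : A) : G)⁻¹ = a * (b * v * (b : G)⁻¹) * (a : G)⁻¹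
    simp [mul_assoc]
  smul_mul a v w := by
    apply Subtype.ext
    change (a : G) * ((v * w : V) : G) * (a : G)⁻¹ = (a * v * (a : G)⁻¹) * (a * w * (a : G)⁻¹)
    simp [mul_assoc]
  smul_one a := by
    apply Subtype.ext
    change (a : G) * ((1 : V) : G) * (a : G)⁻¹ = 1
    simp

/-- Let A and V be subgroups of a finite group with V abelian and nontrivial and A normalizing V. Suppose a nonempty finite family of proper subgroups of A partitions A: every non-identity element of A lies in exactly one member. If the number of members minus one is coprime to the order of V, then some member B of the family has a non-identity fixed point on V, that is V ∩ C(B) ≠ 1. -/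
theorem result {G : Type*} [Group G] [Finite G] (A V : Subgroup G) (hVab : IsMulCommutative V) (hV : V ≠ ⊥) (hAV : A ≤ Subgroup.normalizer (V : Set G)) (𝒜 : Finset (Subgroup G)) (hne : 𝒜.Nonempty) (hprop : ∀ B ∈ 𝒜, B < A) (hpart : ∀ a ∈ A, a ≠ 1 → ∃! B, B ∈ 𝒜 ∧ a ∈ B) (hk : (𝒜.card - 1).Coprime (Nat.card V)) : ∃ B ∈ 𝒜, V ⊓ Subgroup.centralizer (B : Set G) ≠ ⊥ := by
  classical
  by_contra hcon
  push Not at hcon
  have := hVab
  let _ : MulDistribMulAction A V := conjActionH6 A V hAV
  have hsmul : ∀ (a : A) (v : V), ((a • v : V) : G) = a * v * (a : G)⁻¹ := fun a v => rfl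
  have key := partition_trivial (A' := A) (M := V) 𝒜 (fun B => B.subgroupOf A) hne ?_ hk ?_
  · apply hV
    rw [Subgroup.eq_bot_iff_forall]
    intro x hx
    have := key ⟨x, hx⟩
    exact congrArg Subtype.val this
  · intro a ha
    have ha' : (a : G) ≠ 1 := fun h => ha (Subtype.ext h)
    obtain ⟨B, ⟨hB, haB⟩, huniq⟩ := hpart a a.2 ha'
    refine ⟨B, ⟨hB, Subgroup.mem_subgroupOf.2 haB⟩, ?_⟩
    rintro B' ⟨hB', haB'⟩
    exact huniq B' ⟨hB', Subgroup.mem_subgroupOf.1 haB'⟩
  · intro B hB m hm
    have h1 : (m : G) ∈ V ⊓ Subgroup.centralizer (B : Set G) := by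
      refine ⟨m.2, ?_⟩
      change (m : G) ∈ Subgroup.centralizer (B : Set G)
      rw [Subgroup.mem_centralizer_iff]
      intro b hb
      have hbA : b ∈ A := (hprop B hB).le hb
      have := hm ⟨b, hbA⟩ (Subgroup.mem_subgroupOf.2 hb)
      have h2 := congrArg Subtype.val this
      rw [hsmul] at h2
      rw [mul_inv_eq_iff_eq_mul] at h2
      exact h2
    rw [hcon B hB, Subgroup.mem_bot] at h1
    exact Subtype.ext h1

end Cfsg.Agent.S3733
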