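import Cfsg.Statements.S3741
import Mathlib
import Cfsg.Agent.Lib.Helper6.Index

set_option autoImplicit false
open Cfsg

namespace Cfsg.Agent.S3741

open Cfsg.Agent.Lib.Helper6.Index

theorem conj_eq_of_card_prime {G : Type*} [Group G] [Finite G] {p : ℕ} [Fact p.Prime]
    (hG : IsPGroup p G) (Z : Subgroup G) (hZ : Nat.card Z = p) (g : G)
    (hg : ∀ z ∈ Z, g * z * g⁻¹ ∈ Z) (z : G) (hz : z ∈ Z) : g * z * g⁻¹ = z := by
  have hp := (Fact.out : p.Prime)
  by_cases hz1 : z = 1
  · subst hz1; group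
  have hord : orderOf z = p := by
    have h1 : orderOf z ∣ p := by
      rw [← hZ]
      have := orderOf_dvd_natCard (⟨z, hz⟩ : Z)
      rwa [Subgroup.orderOf_mk] at this
    rcases (Nat.dvd_prime hp).1 h1 with h | h
    · exact absurd (orderOf_eq_one_iff.1 h) hz1
    · exact h
  have hzp : Subgroup.zpowers z = Z := by
    apply Subgroup.eq_of_le_of_card_ge
    · rw [Subgroup.zpowers_le]; exact hz
    · rw [Nat.card_zpowers, hord, hZ]
  have hmem : g * z * g⁻¹ ∈ Subgroup.zpowers z := by rw [hzp]; exact hg z hz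
  rw [← mem_powers_iff_mem_zpowers, Submonoid.mem_powers_iff] at hmem
  obtain ⟨k, hk⟩ := hmem
  have hind : ∀ j : ℕ, g ^ j * z * (g ^ j)⁻¹ = z ^ (k ^ j) := by
    intro j
    induction j with
    | zero => simp
    | succ j ih =>
      have e : g ^ (j + 1) * z * (g ^ (j + 1))⁻¹ = g * (g ^ j * z * (g ^ j)⁻¹) * g⁻¹ := by
        rw [pow_succ']; group
      rw [e, ih, ← conj_pow, ← hk, ← pow_mul, pow_succ']
  obtain ⟨m, hm⟩ := hG g
  have h1 := hind (p ^ m)
  rw [hm] at h1
  simp only [one_mul, inv_one, mul_one] at h1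
  have h2 : z ^ (k ^ p ^ m) = z ^ 1 := by rw [← h1, pow_one]
  rw [pow_eq_pow_iff_modEq, hord] at h2
  have h3 : ((k : ZMod p)) ^ p ^ m = 1 := by
    have := (ZMod.natCast_eq_natCast_iff _ _ _).2 h2
    push_cast at this
    exact this
  rw [ZMod.pow_card_pow] at h3
  have h4 : k ≡ 1 [MOD p] := by
    rw [← ZMod.natCast_eq_natCast_iff]
    push_cast
    exact h3
  rw [← hk]
  have h5 : z ^ k = z ^ 1 := by rw [pow_eq_pow_iff_modEq, hord]; exact h4
  rw [h5, pow_one]

theorem comm_or_card {G : Type*} [Group G] [Finite G] {p : ℕ} [Fact p.Prime] (A B Z : Subgroup G)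
    (hZ : ∀ a ∈ A, ∀ b ∈ B, a * b * a⁻¹ * b⁻¹ ∈ Z) (hcB : ∀ z ∈ Z, ∀ b ∈ B, z * b = b * z)
    (hcard : Nat.card Z = p) (a : G) (ha : a ∈ A) :
    (∀ b ∈ B, a * b = b * a) ∨ Nat.card B = p * Nat.card {b : B // a * (b : G) = b * a} := by
  have hp := (Fact.out : p.Prime)
  let φ : ↥B →* ↥Z := MonoidHom.mk' (fun b => ⟨a * (b : G) * a⁻¹ * (b : G)⁻¹, hZ a ha b b.2⟩) (by
    intro b b'
    apply Subtype.ext
    change a * ((b : G) * (b' : G)) * a⁻¹ * ((b : G) * (b' : G))⁻¹
      = (a * (b : G) * a⁻¹ * (b : G)⁻¹) * (a * (b' : G) * a⁻¹ * (b' : G)⁻¹)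
    have h := hcB (a * (b' : G) * a⁻¹ * (b' : G)⁻¹) (hZ a ha b' b'.2) b b.2
    generalize (b : G) = x at h ⊢
    generalize (b' : G) = y at h ⊢
    calc a * (x * y) * a⁻¹ * (x * y)⁻¹
        = (a * x * a⁻¹ * x⁻¹) * (x * (a * y * a⁻¹ * y⁻¹)) * x⁻¹ := by group
      _ = (a * x * a⁻¹ * x⁻¹) * ((a * y * a⁻¹ * y⁻¹) * x) * x⁻¹ := by rw [h]
      _ = (a * x * a⁻¹ * x⁻¹) * (a * y * a⁻¹ * y⁻¹) := by group)
  have hker : ∀ b : ↥B, b ∈ φ.ker ↔ a * (b : G) = b * a := by
    intro b
    rw [MonoidHom.mem_ker, Subtype.ext_iff]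
    change a * (b : G) * a⁻¹ * (b : G)⁻¹ = 1 ↔ _
    rw [mul_inv_eq_one, mul_inv_eq_iff_eq_mul]
  have h1 := Subgroup.index_ker φ
  have h2 : Nat.card φ.range ∣ p := by
    rw [← hcard]
    exact Subgroup.card_subgroup_dvd_card _
  have h3 := Subgroup.card_mul_index φ.ker
  have h4 : Nat.card φ.ker = Nat.card {b : B // a * (b : G) = b * a} :=
    Nat.card_congr (Equiv.subtypeEquivRight hker)
  rcases (Nat.dvd_prime hp).1 h2 with h | h
  · left
    intro b hb
    have : (⟨b, hb⟩ : ↥B) ∈ φ.ker := by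
      rw [MonoidHom.mem_ker]
      have h5 : φ ⟨b, hb⟩ ∈ φ.range := ⟨_, rfl⟩
      rw [Subgroup.card_eq_one] at h
      rw [h, Subgroup.mem_bot] at h5
      exact h5
    exact (hker _).1 this
  · right
    rw [← h3, h1, h, h4, mul_comm]

theorem count_pairs {G : Type*} [Group G] [Finite G] {p : ℕ} [Fact p.Prime] (A B Z : Subgroup G)
    (hZ : ∀ a ∈ A, ∀ b ∈ B, a * b * a⁻¹ * b⁻¹ ∈ Z) (hcB : ∀ z ∈ Z, ∀ b ∈ B, z * b = b * z)
    (hcard : Nat.card Z = p) :
    p * Nat.card {x : A × B // (x.1 : G) * (x.2 : G) = x.2 * x.1}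
      + Nat.card ↥(A ⊓ Subgroup.centralizer (B : Set G)) * Nat.card B
      = p * (Nat.card ↥(A ⊓ Subgroup.centralizer (B : Set G)) * Nat.card B)
        + Nat.card A * Nat.card B := by
  classical
  have : Fintype A := Fintype.ofFinite _
  rw [Nat.card_congr (Equiv.subtypeProdEquivSigmaSubtype
    (fun (a : A) (b : B) => (a : G) * (b : G) = b * a)), Nat.card_sigma]
  have hterm : ∀ a : A, p * Nat.card {b : B // (a : G) * (b : G) = b * a}
      + (if (a : G) ∈ Subgroup.centralizer (B : Set G) then Nat.card B else 0)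
      = p * (if (a : G) ∈ Subgroup.centralizer (B : Set G) then Nat.card B else 0)
        + Nat.card B := by
    intro a
    rcases comm_or_card A B Z hZ hcB hcard a a.2 with h | h
    · have hc : (a : G) ∈ Subgroup.centralizer (B : Set G) := by
        rw [Subgroup.mem_centralizer_iff]
        intro b hb
        exact (h b hb).symm
      rw [if_pos hc]
      have : Nat.card {b : B // (a : G) * (b : G) = b * a} = Nat.card B := by
        apply Nat.card_congr
        exact Equiv.subtypeUnivEquiv (fun b => h b b.2)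
      rw [this]
    · by_cases hc : (a : G) ∈ Subgroup.centralizer (B : Set G)
      · exfalso
        have : Nat.card {b : B // (a : G) * (b : G) = b * a} = Nat.card B := by
          apply Nat.card_congr
          exact Equiv.subtypeUnivEquiv
            (fun b => ((Subgroup.mem_centralizer_iff.1 hc) b b.2).symm)
        rw [this] at h
        have hpos : 0 < Nat.card B := Nat.card_pos
        have hp2 := (Fact.out : p.Prime).two_le
        nlinarith
      · rw [if_neg hc, ← h]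
        ring
  have hsum := Finset.sum_congr rfl (fun a (_ : a ∈ (Finset.univ : Finset A)) => hterm a)
  rw [Finset.sum_add_distrib, Finset.sum_add_distrib, ← Finset.mul_sum, ← Finset.mul_sum] at hsum
  have hcnt : (∑ a : A, if (a : G) ∈ Subgroup.centralizer (B : Set G) then Nat.card B else 0)
      = Nat.card ↥(A ⊓ Subgroup.centralizer (B : Set G)) * Nat.card B := by
    rw [← Finset.sum_filter, Finset.sum_const, smul_eq_mul]
    congr 1
    rw [← Fintype.card_subtype, ← Nat.card_eq_fintype_card]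
    apply Nat.card_congr
    exact { toFun := fun x => ⟨x.1.1, x.1.2, x.2⟩
            invFun := fun y => ⟨⟨y.1, y.2.1⟩, y.2.2⟩
            left_inv := fun _ => rfl
            right_inv := fun _ => rfl }
  rw [hcnt] at hsum
  rw [hsum]
  simp [Finset.sum_const, Finset.card_univ, Nat.card_eq_fintype_card]

/-- Let A and B be subgroups of a finite p-group with [A, B] ≤ A ∩ B and [A, B] of order at most p. Then |A : C_A(B)| = |B : C_B(A)|. -/
theorem result {G : Type*} [Group G] [Finite G] {p : ℕ} [Fact p.Prime] (hG : IsPGroup p G) (A B : Subgroup G) (hAB : ⁅A, B⁆ ≤ A ⊓ B) (hcard : Nat.card ↥⁅A, B⁆ ≤ p) : (A ⊓ Subgroup.centralizer (B : Set G)).relIndex A = (B ⊓ Subgroup.centralizer (A : Set G)).relIndex B := by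
  classical
  have hp := (Fact.out : p.Prime)
  have hmemZ : ∀ a ∈ A, ∀ b ∈ B, a * b * a⁻¹ * b⁻¹ ∈ ⁅A, B⁆ :=
    fun a ha b hb => Subgroup.commutator_mem_commutator ha hb
  by_cases hZ1 : Nat.card ↥⁅A, B⁆ = 1
  · rw [Subgroup.card_eq_one] at hZ1
    have hcomm : ∀ a ∈ A, ∀ b ∈ B, a * b = b * a := by
      intro a ha b hb
      have := hmemZ a ha b hb
      rw [hZ1, Subgroup.mem_bot] at this
      rw [mul_inv_eq_one, mul_inv_eq_iff_eq_mul] at this
      exact this
    have h1 : A ⊓ Subgroup.centralizer (B : Set G) = A := by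
      apply inf_of_le_left
      intro a ha
      rw [Subgroup.mem_centralizer_iff]
      intro b hb
      exact (hcomm a ha b hb).symm
    have h2 : B ⊓ Subgroup.centralizer (A : Set G) = B := by
      apply inf_of_le_left
      intro b hb
      rw [Subgroup.mem_centralizer_iff]
      intro a ha
      exact hcomm a ha b hb
    rw [h1, h2, Subgroup.relIndex_self, Subgroup.relIndex_self]
  · have hZp : Nat.card ↥⁅A, B⁆ = p := by
      obtain ⟨n, hn⟩ := (IsPGroup.iff_card.1 (hG.to_subgroup ⁅A, B⁆))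
      rw [hn] at hcard hZ1 ⊢
      have hn1 : n = 1 := by
        rcases n with _ | _ | n
        · exact absurd (pow_zero p) hZ1
        · rfl
        · exfalso
          have : p ^ 1 < p ^ (n + 1 + 1) := Nat.pow_lt_pow_right hp.one_lt (by omega)
          rw [pow_one] at this
          omega
      rw [hn1, pow_one]
    have hZA : ⁅A, B⁆ ≤ A := hAB.trans inf_le_left
    have hZB : ⁅A, B⁆ ≤ B := hAB.trans inf_le_right
    have hnormA : ∀ a ∈ A, ∀ z ∈ ⁅A, B⁆, a * z * a⁻¹ ∈ ⁅A, B⁆ := by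
      intro a ha z hz
      have h1 := hmemZ a ha z (hZB hz)
      have h2 := Subgroup.mul_mem _ h1 hz
      have e : a * z * a⁻¹ * z⁻¹ * z = a * z * a⁻¹ := by group
      rwa [e] at h2
    have hnormB : ∀ b ∈ B, ∀ z ∈ ⁅A, B⁆, b * z * b⁻¹ ∈ ⁅A, B⁆ := by
      intro b hb z hz
      have h1 := hmemZ z (hZA hz) b hb
      have h2 := Subgroup.mul_mem _ (Subgroup.inv_mem _ hz) h1
      have h3 := Subgroup.inv_mem _ h2
      have e : (z⁻¹ * (z * b * z⁻¹ * b⁻¹))⁻¹ = b * z * b⁻¹ := by group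
      rwa [e] at h3
    have hcA : ∀ z ∈ ⁅A, B⁆, ∀ a ∈ A, z * a = a * z := by
      intro z hz a ha
      have := conj_eq_of_card_prime hG ⁅A, B⁆ hZp a (hnormA a ha) z hz
      rw [mul_inv_eq_iff_eq_mul] at this
      exact this.symm
    have hcB : ∀ z ∈ ⁅A, B⁆, ∀ b ∈ B, z * b = b * z := by
      intro z hz b hb
      have := conj_eq_of_card_prime hG ⁅A, B⁆ hZp b (hnormB b hb) z hz
      rw [mul_inv_eq_iff_eq_mul] at this
      exact this.symm
    have hmemZ' : ∀ b ∈ B, ∀ a ∈ A, b * a * b⁻¹ * a⁻¹ ∈ ⁅A, B⁆ := by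
      intro b hb a ha
      have h1 := Subgroup.inv_mem _ (hmemZ a ha b hb)
      have e : (a * b * a⁻¹ * b⁻¹)⁻¹ = b * a * b⁻¹ * a⁻¹ := by group
      rwa [e] at h1
    have k1 := count_pairs A B ⁅A, B⁆ hmemZ hcB hZp
    have k2 := count_pairs B A ⁅A, B⁆ hmemZ' hcA hZp
    have hswap : Nat.card {x : A × B // (x.1 : G) * (x.2 : G) = x.2 * x.1}
        = Nat.card {x : B × A // (x.1 : G) * (x.2 : G) = x.2 * x.1} :=
      Nat.card_congr ((Equiv.prodComm A B).subtypeEquiv
        (fun x => ⟨fun h => h.symm, fun h => h.symm⟩))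
    rw [hswap] at k1
    have e1 := card_eq_card_mul_relIndex (A ⊓ Subgroup.centralizer (B : Set G)) A inf_le_left
    have e2 := card_eq_card_mul_relIndex (B ⊓ Subgroup.centralizer (A : Set G)) B inf_le_left
    have hx : 0 < Nat.card ↥(A ⊓ Subgroup.centralizer (B : Set G)) := Nat.card_pos
    have hy : 0 < Nat.card ↥(B ⊓ Subgroup.centralizer (A : Set G)) := Nat.card_pos
    generalize Nat.card ↥(A ⊓ Subgroup.centralizer (B : Set G)) = x at *
    generalize Nat.card ↥(B ⊓ Subgroup.centralizer (A : Set G)) = y at *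
    generalize (A ⊓ Subgroup.centralizer (B : Set G)).relIndex A = r at *
    generalize (B ⊓ Subgroup.centralizer (A : Set G)).relIndex B = s at *
    generalize Nat.card {x : B × A // (x.1 : G) * (x.2 : G) = x.2 * x.1} = N at *
    generalize Nat.card A = cA at *
    generalize Nat.card B = cB at *
    obtain ⟨q, hq⟩ : ∃ q, p = q + 1 := ⟨p - 1, by have := hp.one_lt; omega⟩
    have hq0 : 0 < q := by have := hp.one_lt; omega
    rw [hq] at k1 k2
    have hXY : q * (x * cB) = q * (y * cA) := by nlinarith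
    have hXY' := Nat.eq_of_mul_eq_mul_left hq0 hXY
    rw [e1, e2] at hXY'
    have h3 : x * y * r = x * y * s := by nlinarith
    exact Nat.eq_of_mul_eq_mul_left (Nat.mul_pos hx hy) h3

end Cfsg.Agent.S3741
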