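import Mathlib
import Cfsg.Statements.S3744
import Cfsg.Agent.S0001
import Cfsg.Agent.S0003
import Cfsg.Agent.S0569

set_option autoImplicit false
open Pointwise
open Cfsg
open scoped commutatorElement

namespace Cfsg.Agent.S3744

theorem exists_normal {G : Type*} [Group G] [Finite G] [Nontrivial G] (p : ℕ)
    (hG : IsPSolvable p G) :
    ∃ N : Subgroup G, N.Normal ∧ N ≠ ⊥ ∧
      ((∃ m : ℕ, Nat.card N = p ^ m) ∨ (Nat.card N).Coprime p) := by
  obtain ⟨n, H, h0, hlast, hmono, hnorm, hstep⟩ := hG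
  by_contra hcon
  have key : ∀ i : Fin (n + 1), H i = ⊥ := by
    intro i
    induction i using Fin.induction with
    | zero => exact h0
    | succ i ih =>
      by_contra hne
      apply hcon
      refine ⟨H i.succ, hnorm _, hne, ?_⟩
      have h := hstep i
      rw [ih, Subgroup.relIndex_bot_left] at h
      exact h
  have := key (Fin.last n)
  rw [hlast] at this
  exact top_ne_bot this

theorem quot {G : Type*} [Group G] (p : ℕ) [hp : Fact p.Prime] (hG : IsPSolvable p G)
    (N : Subgroup G) [N.Normal] : IsPSolvable p (G ⧸ N) := by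
  obtain ⟨n, H, h0, hlast, hmono, hnorm, hstep⟩ := hG
  refine ⟨n, fun i => (H i).map (QuotientGroup.mk' N), ?_, ?_, ?_, ?_, ?_⟩
  · simp only [h0, Subgroup.map_bot]
  · simp only [hlast]
    exact Subgroup.map_top_of_surjective _ (QuotientGroup.mk'_surjective N)
  · intro i j hij
    exact Subgroup.map_mono (hmono hij)
  · intro i
    exact Subgroup.Normal.map (hnorm i) _ (QuotientGroup.mk'_surjective N)
  · intro i
    have hd := S0569.map_relIndex_dvd (QuotientGroup.mk' N) (H i.castSucc) (H i.succ)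
    rcases hstep i with ⟨m, hm⟩ | hc
    · left
      rw [hm] at hd
      obtain ⟨k, -, hk⟩ := (Nat.dvd_prime_pow hp.out).1 hd
      exact ⟨k, hk⟩
    · right
      exact Nat.Coprime.coprime_dvd_left hd hc

theorem sz_dom {G : Type*} [Group G] [Finite G] (p : ℕ) [hp : Fact p.Prime] (N : Subgroup G)
    [N.Normal] (m : ℕ) (hN : Nat.card N = p ^ m) (H U : Subgroup G)
    (hH : (Nat.card H).Coprime p) (hU : (Nat.card U).Coprime p)
    (hUH : U ≤ H ⊔ N) : ∃ x : G, ∀ u ∈ U, x * u * x⁻¹ ∈ H := by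
  set L := U ⊔ N with hL
  set K := H ⊓ L with hK
  have hUL : U ≤ L := le_sup_left
  have hNL : N ≤ L := le_sup_right
  have hKL : K ≤ L := inf_le_right
  have hUN : U ⊓ N = ⊥ := by
    apply (Subgroup.card_eq_one).1
    have h1 : Nat.card ↥(U ⊓ N) ∣ Nat.card U := Subgroup.card_dvd_of_le inf_le_left
    have h2 : Nat.card ↥(U ⊓ N) ∣ p ^ m := hN ▸ Subgroup.card_dvd_of_le inf_le_right
    exact Nat.Coprime.eq_one_of_dvd (Nat.Coprime.pow_right m (Nat.Coprime.coprime_dvd_left h1 hU)) h2
  have hKN : K ⊓ N = ⊥ := by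
    apply (Subgroup.card_eq_one).1
    have h1 : Nat.card ↥(K ⊓ N) ∣ Nat.card H :=
      Subgroup.card_dvd_of_le (inf_le_left.trans inf_le_left)
    have h2 : Nat.card ↥(K ⊓ N) ∣ p ^ m := hN ▸ Subgroup.card_dvd_of_le inf_le_right
    exact Nat.Coprime.eq_one_of_dvd (Nat.Coprime.pow_right m (Nat.Coprime.coprime_dvd_left h1 hH)) h2
  have hKsup : K ⊔ N = L := by
    apply le_antisymm (sup_le hKL hNL)
    apply sup_le _ le_sup_right
    intro u hu
    have h1 : u ∈ H ⊔ N := hUH hu
    rw [← SetLike.mem_coe, Subgroup.mul_normal] at h1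
    obtain ⟨h, hh, n, hn, rfl⟩ := h1
    have h2 : h ∈ K := by
      refine ⟨hh, ?_⟩
      have : h = (h * n) * n⁻¹ := by group
      rw [this]
      exact L.mul_mem (hUL hu) (L.inv_mem (hNL hn))
    exact (K ⊔ N).mul_mem (Subgroup.mem_sup_left h2) (Subgroup.mem_sup_right hn)
  have cL1 : Nat.card L = Nat.card U * Nat.card N := by
    have := S0003.card_sup_mul_card_inf U N
    rw [hUN, Subgroup.card_bot, mul_one] at this
    exact this
  have cL2 : Nat.card L = Nat.card K * Nat.card N := by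
    have := S0003.card_sup_mul_card_inf K N
    rw [hKN, Subgroup.card_bot, mul_one, hKsup] at this
    exact this
  have cKU : Nat.card K = Nat.card U :=
    Nat.eq_of_mul_eq_mul_right Nat.card_pos (cL2.symm.trans cL1)
  have cN' : Nat.card (N.subgroupOf L) = Nat.card N := by
    rw [S0003.card_subgroupOf_eq', inf_of_le_left hNL]
  have cU' : Nat.card (U.subgroupOf L) = Nat.card U := by
    rw [S0003.card_subgroupOf_eq', inf_of_le_left hUL]
  have cK' : Nat.card (K.subgroupOf L) = Nat.card K := by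
    rw [S0003.card_subgroupOf_eq', inf_of_le_left hKL]
  have hcop : (Nat.card N).Coprime (Nat.card U) := by
    rw [hN]; exact Nat.Coprime.pow_left m hU.symm
  have hcU : Subgroup.IsComplement' (N.subgroupOf L) (U.subgroupOf L) := by
    apply Subgroup.isComplement'_of_coprime
    · rw [cN', cU', cL1, mul_comm]
    · rw [cN', cU']; exact hcop
  have hcK : Subgroup.IsComplement' (N.subgroupOf L) (K.subgroupOf L) := by
    apply Subgroup.isComplement'_of_coprime
    · rw [cN', cK', cL2, mul_comm]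
    · rw [cN', cK', cKU]; exact hcop
  have hsolv : Group.IsSolvable (N.subgroupOf L) := by
    have hpg : IsPGroup p (N.subgroupOf L) := IsPGroup.of_card (cN'.trans hN)
    haveI := hpg.isNilpotent
    infer_instance
  obtain ⟨x, hx⟩ := S0001.result (N.subgroupOf L)
    (by rw [cN', hcU.symm.index_eq_card, cU']; exact hcop) (Or.inl hsolv) _ _ hcU hcK
  refine ⟨(x : G), fun u hu => ?_⟩
  have h1 : (⟨u, hUL hu⟩ : L) ∈ U.subgroupOf L := by
    rw [Subgroup.mem_subgroupOf]; exact hu
  have h2 : x * ⟨u, hUL hu⟩ * x⁻¹ ∈ MulAut.conj x • (U.subgroupOf L) := by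
    have := Subgroup.smul_mem_pointwise_smul _ (MulAut.conj x) _ h1
    simpa [MulAut.smul_def] using this
  rw [hx, Subgroup.mem_subgroupOf] at h2
  exact h2.1

universe u in
theorem aux (p : ℕ) [hp : Fact p.Prime] (n : ℕ) : ∀ (G : Type u) [Group G] [Finite G],
    Nat.card G = n → IsPSolvable p G →
    (∃ H : Subgroup G, (Nat.card H).Coprime p ∧ ∃ k : ℕ, H.index = p ^ k) ∧
    (∀ H U : Subgroup G, (Nat.card H).Coprime p → (∃ k : ℕ, H.index = p ^ k) →
      (Nat.card U).Coprime p → ∃ g : G, ∀ u ∈ U, g * u * g⁻¹ ∈ H) := by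
  induction n using Nat.strong_induction_on with
  | _ n ih =>
  intro G _ _ hn hG
  by_cases htriv : Nontrivial G
  swap
  · rw [not_nontrivial_iff_subsingleton] at htriv
    refine ⟨⟨⊤, ?_, 0, ?_⟩, ?_⟩
    · rw [Subgroup.card_top, Nat.card_eq_one_iff_unique.2 ⟨htriv, ⟨1⟩⟩]
      exact Nat.coprime_one_left p
    · simp
    · intro H U _ _ _
      refine ⟨1, fun u _ => ?_⟩
      rw [Subsingleton.elim (1 * u * 1⁻¹) 1]
      exact H.one_mem
  obtain ⟨N, hNn, hNbot, hN⟩ := exists_normal p hG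
  haveI := hNn
  have hQ := quot p hG N
  have hlt : Nat.card (G ⧸ N) < n := by
    rw [← hn, ← S0003.card_quot N]
    have h1 : 1 < Nat.card N := (Subgroup.one_lt_card_iff_ne_bot N).2 hNbot
    have hpos : 0 < Nat.card (G ⧸ N) := Nat.card_pos
    nlinarith
  obtain ⟨⟨Hb, hHb, kb, hkb⟩, ihD⟩ := ih _ hlt (G ⧸ N) rfl hQ
  have lift : ∀ H U : Subgroup G, (Nat.card H).Coprime p → (∃ k : ℕ, H.index = p ^ k) →
      (Nat.card U).Coprime p → ∃ g : G, ∀ u ∈ U, g * u * g⁻¹ ∈ H ⊔ N := by
    intro H U hH ⟨k, hk⟩ hU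
    have h1 : (Nat.card (H.map (QuotientGroup.mk' N))).Coprime p :=
      Nat.Coprime.coprime_dvd_left (Dvd.intro _ (S0003.card_map_mk H N)) hH
    have h2 : (Nat.card (U.map (QuotientGroup.mk' N))).Coprime p :=
      Nat.Coprime.coprime_dvd_left (Dvd.intro _ (S0003.card_map_mk U N)) hU
    have h3 : ∃ k' : ℕ, (H.map (QuotientGroup.mk' N)).index = p ^ k' := by
      have hd : (H.map (QuotientGroup.mk' N)).index ∣ H.index :=
        Subgroup.index_map_dvd _ (QuotientGroup.mk'_surjective N)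
      rw [hk] at hd
      obtain ⟨k', -, hk'⟩ := (Nat.dvd_prime_pow hp.out).1 hd
      exact ⟨k', hk'⟩
    obtain ⟨gb, hgb⟩ := ihD _ _ h1 h3 h2
    obtain ⟨g, rfl⟩ := QuotientGroup.mk'_surjective N gb
    refine ⟨g, fun u hu => ?_⟩
    have h4 := hgb _ (Subgroup.mem_map_of_mem (QuotientGroup.mk' N) hu)
    have h5 : g * u * g⁻¹ ∈ ((H.map (QuotientGroup.mk' N)).comap (QuotientGroup.mk' N)) := by
      rw [Subgroup.mem_comap]
      simpa using h4
    rw [Subgroup.comap_map_eq, QuotientGroup.ker_mk'] at h5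
    exact h5
  rcases hN with ⟨m, hm⟩ | hNc
  · -- N is a p-group
    constructor
    · set L := Hb.comap (QuotientGroup.mk' N) with hL
      have hNL : N ≤ L := by
        intro x hx
        rw [hL, Subgroup.mem_comap]
        have : (QuotientGroup.mk' N) x = 1 := by
          rw [QuotientGroup.mk'_apply, QuotientGroup.eq_one_iff]; exact hx
        rw [this]; exact Hb.one_mem
      have cL : Nat.card L = Nat.card N * Nat.card Hb := S0003.card_comap_mk' N Hb
      have cN' : Nat.card (N.subgroupOf L) = Nat.card N := by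
        rw [S0003.card_subgroupOf_eq', inf_of_le_left hNL]
      have hidx : (N.subgroupOf L).index = Nat.card Hb := by
        have h1 := Subgroup.card_mul_index (N.subgroupOf L)
        rw [cN', cL] at h1
        exact Nat.eq_of_mul_eq_mul_left Nat.card_pos h1
      have hcop : (Nat.card (N.subgroupOf L)).Coprime (N.subgroupOf L).index := by
        rw [cN', hidx, hm]
        exact Nat.Coprime.pow_left m hHb.symm
      obtain ⟨K, hK⟩ := Subgroup.exists_right_complement'_of_coprime hcop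
      have cK : Nat.card K = Nat.card Hb := by
        rw [← hidx]; exact hK.symm.index_eq_card.symm
      have cKm : Nat.card (K.map L.subtype) = Nat.card Hb := by
        rw [Subgroup.card_map_of_injective (Subgroup.subtype_injective L), cK]
      refine ⟨K.map L.subtype, by rw [cKm]; exact hHb, m + kb, ?_⟩
      have h1 := Subgroup.card_mul_index (K.map L.subtype)
      have h2 := S0003.card_quot N
      have h3 := Subgroup.card_mul_index Hb
      rw [cKm] at h1
      rw [← h2, ← h3, hkb, hm] at h1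
      have h4 : Nat.card Hb * (K.map L.subtype).index = Nat.card Hb * p ^ (m + kb) := by
        rw [h1, pow_add]; ring
      exact Nat.eq_of_mul_eq_mul_left Nat.card_pos h4
    · intro H U hH hHi hU
      obtain ⟨g, hg⟩ := lift H U hH hHi hU
      have hU' : (Nat.card (U.map (MulAut.conj g).toMonoidHom)).Coprime p := by
        rw [Subgroup.card_map_of_injective (MulEquiv.injective (MulAut.conj g))]
        exact hU
      have hle : U.map (MulAut.conj g).toMonoidHom ≤ H ⊔ N := by
        rintro _ ⟨u, hu, rfl⟩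
        exact hg u hu
      obtain ⟨x, hx⟩ := sz_dom p N m hm H _ hH hU' hle
      refine ⟨x * g, fun u hu => ?_⟩
      have := hx _ (Subgroup.mem_map_of_mem (MulAut.conj g).toMonoidHom hu)
      have e : x * g * u * (x * g)⁻¹ = x * ((MulAut.conj g).toMonoidHom u) * x⁻¹ := by
        simp [MulAut.conj_apply]; group
      rw [e]
      exact this
  · -- N is a p'-group
    constructor
    · refine ⟨Hb.comap (QuotientGroup.mk' N), ?_, kb, ?_⟩
      · rw [S0003.card_comap_mk']
        exact Nat.Coprime.mul_left hNc hHb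
      · rw [Subgroup.index_comap_of_surjective _ (QuotientGroup.mk'_surjective N)]
        exact hkb
    · intro H U hH hHi hU
      obtain ⟨g, hg⟩ := lift H U hH hHi hU
      obtain ⟨k, hk⟩ := hHi
      have hsup : H ⊔ N ≤ H := by
        rw [← Subgroup.relIndex_eq_one]
        have h1 : H.relIndex (H ⊔ N) ∣ Nat.card ↥(H ⊔ N) := Subgroup.relIndex_dvd_card _ _
        have h2 : Nat.card ↥(H ⊔ N) ∣ Nat.card H * Nat.card N :=
          Dvd.intro _ (S0003.card_sup_mul_card_inf H N)
        have h3 : (H.relIndex (H ⊔ N)).Coprime p :=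
          Nat.Coprime.coprime_dvd_left (h1.trans h2) (Nat.Coprime.mul_left hH hNc)
        have h4 : H.relIndex (H ⊔ N) ∣ p ^ k := by
          rw [← hk]
          exact Dvd.intro _ (Subgroup.relIndex_mul_index (le_sup_left : H ≤ H ⊔ N))
        exact Nat.Coprime.eq_one_of_dvd (Nat.Coprime.pow_right k h3) h4
      exact ⟨g, fun u hu => hsup (hg u hu)⟩

theorem result {G : Type*} [Group G] [Finite G] {p : ℕ} [Fact p.Prime] (hG : Cfsg.IsPSolvable p G) : (∃ H : Subgroup G, (Nat.card H).Coprime p ∧ ∃ n : ℕ, H.index = p ^ n) ∧ (∀ H₁ H₂ : Subgroup G, (Nat.card H₁).Coprime p → (∃ n : ℕ, H₁.index = p ^ n) → (Nat.card H₂).Coprime p → (∃ n : ℕ, H₂.index = p ^ n) → ∃ g : G, H₂ = H₁.map (MulAut.conj g).toMonoidHom) ∧ (∀ U : Subgroup G, (Nat.card U).Coprime p → ∃ H : Subgroup G, (Nat.card H).Coprime p ∧ (∃ n : ℕ, H.index = p ^ n) ∧ ∃ g : G, U.map (MulAut.conj g).toMonoidHom ≤ H) := by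
  obtain ⟨hA, hD⟩ := aux p _ G rfl hG
  refine ⟨hA, ?_, ?_⟩
  · intro H₁ H₂ h1 ⟨a, ha⟩ h2 ⟨b, hb⟩
    obtain ⟨g, hg⟩ := hD H₂ H₁ h2 ⟨b, hb⟩ h1
    refine ⟨g, ?_⟩
    have hle : H₁.map (MulAut.conj g).toMonoidHom ≤ H₂ := by
      rintro _ ⟨u, hu, rfl⟩
      exact hg u hu
    have e1 := Subgroup.card_mul_index H₁
    have e2 := Subgroup.card_mul_index H₂
    rw [ha] at e1
    rw [hb] at e2
    have d1 : Nat.card H₁ ∣ Nat.card H₂ := by
      apply Nat.Coprime.dvd_of_dvd_mul_right (Nat.Coprime.pow_right b h1)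
      rw [e2, ← e1]; exact Dvd.intro _ rfl
    have d2 : Nat.card H₂ ∣ Nat.card H₁ := by
      apply Nat.Coprime.dvd_of_dvd_mul_right (Nat.Coprime.pow_right a h2)
      rw [e1, ← e2]; exact Dvd.intro _ rfl
    have e3 : Nat.card H₁ = Nat.card H₂ := Nat.dvd_antisymm d1 d2
    refine (Subgroup.eq_of_le_of_card_ge hle ?_).symm
    rw [Subgroup.card_map_of_injective (MulEquiv.injective (MulAut.conj g)), e3]
  · intro U hU
    obtain ⟨H, hH, hHi⟩ := hA
    obtain ⟨g, hg⟩ := hD H U hH hHi hU
    refine ⟨H, hH, hHi, g, ?_⟩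
    rintro _ ⟨u, hu, rfl⟩
    exact hg u hu

end Cfsg.Agent.S3744
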