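import Cfsg.Statements.S3746
import Mathlib
import Cfsg.Agent.Lib.Helper2.PComp
import Cfsg.Agent.Lib.Helper2.Comp
import Cfsg.Agent.Lib.Helper2.Quasi
import Cfsg.Agent.Lib.Helper2.Sub

set_option autoImplicit false
open Cfsg

namespace Cfsg.Agent.S3746

open Cfsg.Agent.Lib.Helper2
open scoped commutatorElement

/-- Let Z ≤ Z(G) be a central subgroup of a finite group G and E a subgroup of G containing Z whose image E/Z is a component of G/Z (subnormal and quasisimple). Then the derived subgroup [E, E] is a component of G. -/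
theorem result {G : Type*} [Group G] [Finite G] (Z : Subgroup G) (hZ : Z ≤ Subgroup.center G) [Z.Normal] (E : Subgroup G) (hZE : Z ≤ E) (hE : Cfsg.IsComponent (E.map (QuotientGroup.mk' Z))) : Cfsg.IsComponent ⁅E, E⁆ := by
  classical
  obtain ⟨hsn, hq⟩ := hE
  have hker : (QuotientGroup.mk' Z).ker = Z := QuotientGroup.ker_mk' Z
  have hEsn : E.IsSubnormal := by
    have h1 := hsn.comap (QuotientGroup.mk' Z)
    rw [Subgroup.comap_map_eq, hker, sup_eq_left.mpr hZE] at h1
    exact h1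
  have hSsn : (⁅E, E⁆ : Subgroup G).IsSubnormal :=
    (Sub.RelSN.of_normal (Sub.commutator_self_le E)
      (Sub.le_normalizer_commutator_self E)).isSubnormal hEsn
  refine ⟨hSsn, ?_⟩
  have hperfbar : ⁅E.map (QuotientGroup.mk' Z), E.map (QuotientGroup.mk' Z)⁆ =
      E.map (QuotientGroup.mk' Z) := Quasi.perfect_subgroup _ hq
  have hmapS : (⁅E, E⁆ : Subgroup G).map (QuotientGroup.mk' Z) = E.map (QuotientGroup.mk' Z) := by
    rw [Subgroup.map_commutator, hperfbar]
  have hdec : ∀ e ∈ E, ∃ s ∈ (⁅E, E⁆ : Subgroup G), ∃ z ∈ Z, e = s * z := by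
    intro e he
    have h0 : (QuotientGroup.mk' Z) e ∈ (⁅E, E⁆ : Subgroup G).map (QuotientGroup.mk' Z) := by
      rw [hmapS]; exact ⟨e, he, rfl⟩
    obtain ⟨s, hs, hse⟩ := h0
    refine ⟨s, hs, s⁻¹ * e, ?_, by group⟩
    have : (QuotientGroup.mk' Z) (s⁻¹ * e) = 1 := by rw [map_mul, map_inv, hse, inv_mul_cancel]
    rw [← MonoidHom.mem_ker, hker] at this
    exact this
  have hperf : ⁅(⁅E, E⁆ : Subgroup G), ⁅E, E⁆⁆ = ⁅E, E⁆ := by
    apply le_antisymm (Sub.commutator_self_le _)
    rw [Subgroup.commutator_le]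
    intro x hx y hy
    obtain ⟨a, ha, z, hz, rfl⟩ := hdec x hx
    obtain ⟨b, hb, w, hw, rfl⟩ := hdec y hy
    rw [Quasi.comm_central a b z w (hZ hz) (hZ hw)]
    exact Subgroup.commutator_mem_commutator ha hb
  have hSne : (⁅E, E⁆ : Subgroup G) ≠ ⊥ := by
    intro h
    have : E.map (QuotientGroup.mk' Z) = ⊥ := by rw [← hmapS, h, Subgroup.map_bot]
    exact PComp.quasisimple_ne_bot hq this
  apply Comp.quasisimple_of_normal_central _ hperf hSne
  intro N' hN' hne
  have hNS : N'.map (⁅E, E⁆ : Subgroup G).subtype ≤ ⁅E, E⁆ := Subgroup.map_subtype_le N'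
  have hnorm : (⁅E, E⁆ : Subgroup G) ≤ Subgroup.normalizer
      ((N'.map (⁅E, E⁆ : Subgroup G).subtype : Subgroup G) : Set G) :=
    Sub.map_subtype_normalizer N' hN'
  have hrel : Sub.RelSN ((N'.map (⁅E, E⁆ : Subgroup G).subtype).map (QuotientGroup.mk' Z))
      (E.map (QuotientGroup.mk' Z)) := by
    apply Sub.RelSN.of_normal
    · rw [← hmapS]; exact Subgroup.map_mono hNS
    · rw [← hmapS]
      rintro _ ⟨s, hs, rfl⟩
      exact Subgroup.le_normalizer_map (QuotientGroup.mk' Z)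
        (Subgroup.mem_map_of_mem (QuotientGroup.mk' Z) (hnorm hs))
  rcases Sub.quasi_sn hq hrel with h | h
  · exfalso
    apply hne
    rw [← Sub.map_subtype_eq_self_iff]
    apply le_antisymm hNS
    have hdecN : ∀ e ∈ (⁅E, E⁆ : Subgroup G), ∃ n ∈ N'.map (⁅E, E⁆ : Subgroup G).subtype,
        ∃ z ∈ Z, e = n * z := by
      intro e he
      have h0 : (QuotientGroup.mk' Z) e ∈
          (N'.map (⁅E, E⁆ : Subgroup G).subtype).map (QuotientGroup.mk' Z) := by
        rw [h, ← hmapS]; exact ⟨e, he, rfl⟩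
      obtain ⟨n, hn, hne⟩ := h0
      refine ⟨n, hn, n⁻¹ * e, ?_, by group⟩
      have : (QuotientGroup.mk' Z) (n⁻¹ * e) = 1 := by rw [map_mul, map_inv, hne, inv_mul_cancel]
      rw [← MonoidHom.mem_ker, hker] at this
      exact this
    have hle : ⁅(⁅E, E⁆ : Subgroup G), ⁅E, E⁆⁆ ≤ N'.map (⁅E, E⁆ : Subgroup G).subtype := by
      rw [Subgroup.commutator_le]
      intro x hx y hy
      obtain ⟨a, ha, z, hz, rfl⟩ := hdecN x hx
      obtain ⟨b, hb, w, hw, rfl⟩ := hdecN y hy
      rw [Quasi.comm_central a b z w (hZ hz) (hZ hw)]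
      exact (Sub.commutator_self_le _) (Subgroup.commutator_mem_commutator ha hb)
    rw [hperf] at hle
    exact hle
  · intro n hn
    rw [Subgroup.mem_center_iff]
    intro k
    have hNS2 : ⁅⁅N'.map (⁅E, E⁆ : Subgroup G).subtype, (⁅E, E⁆ : Subgroup G)⁆,
        (⁅E, E⁆ : Subgroup G)⁆ = ⊥ := by
      rw [Subgroup.commutator_eq_bot_iff_le_centralizer]
      refine le_trans ?_ (Subgroup.center_le_centralizer ((⁅E, E⁆ : Subgroup G) : Set G))
      refine le_trans ?_ hZ
      rw [Subgroup.commutator_le]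
      intro a ha b hb
      have h1 := h ((QuotientGroup.mk' Z) a) ⟨a, ha, rfl⟩ ((QuotientGroup.mk' Z) b)
        ⟨b, (Sub.commutator_self_le E) hb, rfl⟩
      have : (QuotientGroup.mk' Z) ⁅a, b⁆ = 1 := by
        rw [map_commutatorElement, commutatorElement_eq_one_iff_mul_comm]; exact h1
      rw [← MonoidHom.mem_ker, hker] at this
      exact this
    have h3 := PComp.comm_eq_bot_of_perfect hperf hNS2
    rw [Subgroup.commutator_eq_bot_iff_le_centralizer] at h3
    have h4 := (Subgroup.mem_centralizer_iff.mp (h3 k.2)) (n : G) ⟨n, hn, rfl⟩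
    exact Subtype.ext h4.symm

end Cfsg.Agent.S3746
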