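import Cfsg.Statements.S3748
import Mathlib
import Cfsg.Agent.S3735
import Cfsg.Agent.Lib.Helper6.PPrime
import Cfsg.Agent.Lib.Helper6.SubnormalMin
import Cfsg.Agent.Lib.Helper2.Fit

set_option autoImplicit false
open Cfsg

namespace Cfsg.Agent.S3748

open Cfsg.Agent.Lib.Helper6

/-- Call a proper subgroup M of G primitive when M = N_G(N) for every non-trivial normal subgroup N of M. If M is a primitive subgroup of the finite group G, then no non-trivial subnormal subgroup of G is contained in M; in particular M ∩ F(G) = 1. -/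
theorem result {G : Type*} [Group G] [Finite G] (M : Subgroup G) (hM : M ≠ ⊤) (hprim : ∀ N : Subgroup G, N ≤ M → M ≤ Subgroup.normalizer (N : Set G) → N ≠ ⊥ → Subgroup.normalizer (N : Set G) = M) : (∀ L : Subgroup G, L.IsSubnormal → L ≤ M → L = ⊥) ∧ M ⊓ Cfsg.fittingSubgroup G = ⊥ := by
  classical
  have part1 : ∀ L : Subgroup G, L.IsSubnormal → L ≤ M → L = ⊥ := by
    intro L hL hLM
    by_contra hL1
    have htop : (⊤ : Subgroup G) ≠ ⊥ := by
      intro h
      apply hL1
      rw [eq_bot_iff, ← h]; exact le_top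
    obtain ⟨A, hA, -⟩ := Cfsg.Agent.S3735.exists_simp_le (⊤ : Subgroup G) ⊤ ⊤ le_rfl htop
      (fun a _ s _ => Subgroup.mem_top _)
    obtain ⟨-, hA1, hAinv, hAmin⟩ := hA
    have hAn : A.Normal := ⟨fun s hs g => hAinv g (Subgroup.mem_top g) s hs⟩
    have hAmin' : ∀ K : Subgroup G, K.Normal → K ≤ A → K = ⊥ ∨ K = A :=
      fun K hK hKA => hAmin K hKA (fun a _ s hs => hK.conj_mem s hs a)
    have hNcM : (⨆ m : M, L.map (MulAut.conj (m : G)).toMonoidHom) ≤ M := by
      apply iSup_le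
      rintro m _ ⟨l, hl, rfl⟩
      exact M.mul_mem (M.mul_mem m.2 (hLM hl)) (M.inv_mem m.2)
    have hNc1 : (⨆ m : M, L.map (MulAut.conj (m : G)).toMonoidHom) ≠ ⊥ := by
      intro hbot
      apply hL1
      rw [eq_bot_iff]
      intro l hl
      have h3 : l ∈ (⨆ m : M, L.map (MulAut.conj (m : G)).toMonoidHom) := by
        refine Subgroup.mem_iSup_of_mem (1 : M) ⟨l, hl, ?_⟩
        change (1 : G) * l * (1 : G)⁻¹ = l
        group
      rw [hbot] at h3
      exact h3
    have hMNc : Cfsg.Agent.S3735.Inv M (⨆ m : M, L.map (MulAut.conj (m : G)).toMonoidHom) := by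
      intro k hk x hx
      have h1 : (⨆ m : M, L.map (MulAut.conj (m : G)).toMonoidHom).map
          (MulAut.conj k).toMonoidHom ≤ ⨆ m : M, L.map (MulAut.conj (m : G)).toMonoidHom := by
        rw [Subgroup.map_iSup]
        apply iSup_le
        intro m
        rintro _ ⟨_, ⟨l, hl, rfl⟩, rfl⟩
        refine Subgroup.mem_iSup_of_mem (⟨k, hk⟩ * m) ⟨l, hl, ?_⟩
        change (k * (m : G)) * l * (k * (m : G))⁻¹ = k * ((m : G) * l * (m : G)⁻¹) * k⁻¹
        group
      exact h1 ⟨x, hx, rfl⟩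
    have hnormNc := hprim _ hNcM ((Cfsg.Agent.S3735.inv_iff M _).1 hMNc) hNc1
    have hANc : Cfsg.Agent.S3735.Inv A (⨆ m : M, L.map (MulAut.conj (m : G)).toMonoidHom) := by
      apply Cfsg.Agent.S3735.inv_iSup
      intro m
      have hsub : (L.map (MulAut.conj (m : G)).toMonoidHom).IsSubnormal :=
        hL.map (MulAut.conj (m : G)).surjective
      exact (Cfsg.Agent.S3735.inv_iff A _).2 (SubnormalMin.normalizes _ hsub A hAn hAmin')
    have hAM : A ≤ M := by
      rw [← hnormNc]
      exact (Cfsg.Agent.S3735.inv_iff A _).1 hANc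
    have h1 := hprim A hAM (by rw [Subgroup.normalizer_eq_top]; exact le_top) hA1
    rw [Subgroup.normalizer_eq_top] at h1
    exact hM h1.symm
  refine ⟨part1, ?_⟩
  by_contra hD
  haveI hFn : (Cfsg.fittingSubgroup G).Normal := Cfsg.Agent.Lib.Helper2.Fit.fitting_normal
  haveI hFnil : Group.IsNilpotent (Cfsg.fittingSubgroup G) :=
    Cfsg.Agent.Lib.Helper2.Fit.fitting_nilpotent
  have hMD : M ≤ Subgroup.normalizer ((M ⊓ Cfsg.fittingSubgroup G : Subgroup G) : Set G) := by
    apply (Cfsg.Agent.S3735.inv_iff M _).1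
    intro m hm d hd
    exact ⟨M.mul_mem (M.mul_mem hm hd.1) (M.inv_mem hm), hFn.conj_mem d hd.2 m⟩
  have hnD := hprim _ inf_le_left hMD hD
  have hFM : Cfsg.fittingSubgroup G ≤ M := by
    by_contra hFM
    have hlt : (M ⊓ Cfsg.fittingSubgroup G).subgroupOf (Cfsg.fittingSubgroup G) < ⊤ := by
      rw [lt_top_iff_ne_top]
      intro h
      rw [Subgroup.subgroupOf_eq_top] at h
      exact hFM (h.trans inf_le_left)
    have hnc := Group.normalizerCondition_of_isNilpotent (G := Cfsg.fittingSubgroup G)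
    obtain ⟨x, hxN, hxD⟩ := SetLike.exists_of_lt (hnc _ hlt)
    have hxG : (x : G) ∈
        Subgroup.normalizer ((M ⊓ Cfsg.fittingSubgroup G : Subgroup G) : Set G) := by
      apply PPrime.mem_normalizer_of_conj_le
      intro d hd
      have h3 := (Subgroup.mem_normalizer_iff.1 hxN ⟨d, hd.2⟩).1 (Subgroup.mem_subgroupOf.2 hd)
      exact Subgroup.mem_subgroupOf.1 h3
    rw [hnD] at hxG
    exact hxD (Subgroup.mem_subgroupOf.2 ⟨hxG, x.2⟩)
  have hF1 : Cfsg.fittingSubgroup G ≠ ⊥ := by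
    intro h
    apply hD
    rw [h, inf_bot_eq]
  have h1 := hprim _ hFM (by rw [Subgroup.normalizer_eq_top]; exact le_top) hF1
  rw [Subgroup.normalizer_eq_top] at h1
  exact hM h1.symm

end Cfsg.Agent.S3748
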