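import Cfsg.Statements.S3749
import Mathlib
import Cfsg.Agent.S0023
import Cfsg.Agent.S0024
import Cfsg.Agent.S0025
import Cfsg.Agent.S3735
import Cfsg.Agent.Lib.Helper6.PPrime
import Cfsg.Agent.Lib.Helper2.Fit

set_option autoImplicit false
open Cfsg

namespace Cfsg.Agent.S3749

open Cfsg.Agent.Lib.Helper6

theorem not_dvd_of_fixed {G : Type*} [Group G] [Finite G] {p : ℕ} [Fact p.Prime]
    (P N : Subgroup G) [N.Normal] (hP : IsPGroup p P)
    (hfix : ∀ n ∈ N, (∀ x ∈ P, x * n * x⁻¹ = n) → n = 1) : ¬ p ∣ Nat.card N := by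
  letI : MulAction ↥P ↥N :=
    MulAction.compHom ↥N ((MulAut.conjNormal (H := N)).comp P.subtype)
  have h1 := hP.card_modEq_card_fixedPoints ↥N
  have hsmul : ∀ (x : P) (n : N), ((x • n : N) : G) = (x : G) * n * (x : G)⁻¹ := by
    intro x n
    rfl
  have h2 : Nat.card (MulAction.fixedPoints ↥P ↥N) = 1 := by
    rw [Nat.card_eq_one_iff_exists]
    refine ⟨⟨1, fun x => ?_⟩, ?_⟩
    · apply Subtype.ext
      rw [hsmul]; simp
    · rintro ⟨y, hy⟩
      apply Subtype.ext
      apply Subtype.ext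
      change (y : G) = 1
      apply hfix y y.2
      intro x hx
      have := congrArg Subtype.val (hy ⟨x, hx⟩)
      rw [hsmul] at this
      exact this
  intro hdvd
  rw [h2] at h1
  have h3 : Nat.card N % p = 0 := Nat.mod_eq_zero_of_dvd hdvd
  have h4 : Nat.card N % p = 1 % p := h1
  have hp := (Fact.out : p.Prime)
  rw [h3, Nat.mod_eq_of_lt hp.one_lt] at h4
  exact absurd h4 (by norm_num)

/-- Call a proper subgroup M of G primitive when M = N_G(N) for every non-trivial normal subgroup N of M. Let M be a primitive subgroup of the finite group G, p a prime with O_p(M) ≠ 1, and N a normal subgroup of G with M ∩ N = 1. Then p does not divide the order of N; for every prime q there is exactly one Sylow q-subgroup of N normalized by M; and if the order of N has at least two prime divisors then M is not a maximal subgroup of G. -/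
theorem result {G : Type*} [Group G] [Finite G] (M : Subgroup G) (hM : M ≠ ⊤) (hprim : ∀ N : Subgroup G, N ≤ M → M ≤ Subgroup.normalizer (N : Set G) → N ≠ ⊥ → Subgroup.normalizer (N : Set G) = M) {p : ℕ} [Fact p.Prime] (hOp : Cfsg.pCore p ↥M ≠ ⊥) (N : Subgroup G) [N.Normal] (hMN : M ⊓ N = ⊥) : ¬ p ∣ Nat.card N ∧ (∀ q : ℕ, [Fact q.Prime] → ∃! Q : Sylow q ↥N, M ≤ Subgroup.normalizer ((Q : Subgroup ↥N).map N.subtype : Set G)) ∧ ((∃ q r : ℕ, q.Prime ∧ r.Prime ∧ q ≠ r ∧ q ∣ Nat.card N ∧ r ∣ Nat.card N) → ¬ IsCoatom M) := by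
  classical
  have hp := (Fact.out : p.Prime)
  have hPM : (Cfsg.pCore p ↥M).map M.subtype ≤ M := Subgroup.map_subtype_le _
  have hP1 : (Cfsg.pCore p ↥M).map M.subtype ≠ ⊥ := by
    intro h
    apply hOp
    rw [eq_bot_iff]
    intro x hx
    have h3 : (x : G) ∈ (Cfsg.pCore p ↥M).map M.subtype := ⟨x, hx, rfl⟩
    rw [h, Subgroup.mem_bot] at h3
    rw [Subgroup.mem_bot]; exact Subtype.ext h3
  have hPp : IsPGroup p ((Cfsg.pCore p ↥M).map M.subtype) :=
    (Cfsg.Agent.Lib.Helper2.Fit.pCore_isPGroup p).map _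
  have hMP : Cfsg.Agent.S3735.Inv M ((Cfsg.pCore p ↥M).map M.subtype) := by
    rintro m hm _ ⟨x, hx, rfl⟩
    exact ⟨⟨m, hm⟩ * x * ⟨m, hm⟩⁻¹,
      (Cfsg.Agent.Lib.Helper2.Fit.pCore_normal p).conj_mem x hx ⟨m, hm⟩, rfl⟩
  have hNP := hprim _ hPM ((Cfsg.Agent.S3735.inv_iff M _).1 hMP) hP1
  generalize (Cfsg.pCore p ↥M).map M.subtype = P at hPM hP1 hPp hMP hNP
  have hCN : ∀ n ∈ N, n ∈ Subgroup.centralizer (P : Set G) → n = 1 := by
    intro n hn hc
    have h1 : n ∈ M := by
      rw [← hNP]; exact Subgroup.centralizer_le_normalizer _ hc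
    have h2 : n ∈ M ⊓ N := ⟨h1, hn⟩
    rw [hMN] at h2
    exact h2
  have hpN : ¬ p ∣ Nat.card N := by
    apply not_dvd_of_fixed P N hPp
    intro n hn hfix
    apply hCN n hn
    rw [Subgroup.mem_centralizer_iff]
    intro x hx
    have h3 := hfix x hx
    calc x * n = (x * n * x⁻¹) * x := by group
      _ = n * x := by rw [h3]
  have hcop : (Nat.card P).Coprime (Nat.card N) := by
    obtain ⟨k, hk⟩ := IsPGroup.iff_card.1 hPp
    rw [hk]
    exact Nat.Coprime.pow_left _ ((Nat.Prime.coprime_iff_not_dvd hp).2 hpN)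
  have hPN : P ≤ Subgroup.normalizer (N : Set G) := by
    rw [Subgroup.normalizer_eq_top]; exact le_top
  have hsolv : Group.IsSolvable P ∨ Group.IsSolvable N := by
    left
    have := hPp.isNilpotent
    infer_instance
  have huniq : ∀ (q : ℕ) [Fact q.Prime] (Q Q' : Sylow q ↥N),
      P ≤ Subgroup.normalizer ((Q : Subgroup ↥N).map N.subtype : Set G) →
      P ≤ Subgroup.normalizer ((Q' : Subgroup ↥N).map N.subtype : Set G) → Q = Q' := by
    intro q _ Q Q' hQ hQ'
    obtain ⟨c, hc, hcQ⟩ := Cfsg.Agent.S0024.result P N hPN hcop hsolv q Q Q' hQ hQ'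
    have hc1 : (c : G) = 1 := hCN c c.2 hc
    have hc2 : c = 1 := Subtype.ext hc1
    rw [hc2, map_one, one_smul] at hcQ
    exact hcQ
  have hex : ∀ (q : ℕ) [Fact q.Prime], ∃ Q : Sylow q ↥N,
      M ≤ Subgroup.normalizer ((Q : Subgroup ↥N).map N.subtype : Set G) := by
    intro q _
    obtain ⟨Q, hQ⟩ := Cfsg.Agent.S0023.result P N hPN hcop hsolv q
    refine ⟨Q, ?_⟩
    intro m hm
    have hQGN : (Q : Subgroup ↥N).map N.subtype ≤ N := Subgroup.map_subtype_le _
    have hUN : ((Q : Subgroup ↥N).map N.subtype).map (MulAut.conj m).toMonoidHom ≤ N := by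
      rintro _ ⟨y, hy, rfl⟩
      exact (inferInstance : N.Normal).conj_mem y (hQGN hy) m
    have hUq : IsPGroup q (((Q : Subgroup ↥N).map N.subtype).map (MulAut.conj m).toMonoidHom) :=
      (Q.isPGroup'.map _).map _
    have hUP : P ≤ Subgroup.normalizer
        ((((Q : Subgroup ↥N).map N.subtype).map (MulAut.conj m).toMonoidHom : Subgroup G) :
          Set G) := by
      apply (Cfsg.Agent.S3735.inv_iff P _).1
      rintro x hx _ ⟨y, hy, rfl⟩
      have hx' : m⁻¹ * x * m ∈ P := by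
        have := hMP m⁻¹ (M.inv_mem hm) x hx
        simpa using this
      have hy' : (m⁻¹ * x * m) * y * (m⁻¹ * x * m)⁻¹ ∈ (Q : Subgroup ↥N).map N.subtype :=
        (Cfsg.Agent.S3735.inv_iff P _).2 hQ _ hx' y hy
      refine ⟨_, hy', ?_⟩
      change m * ((m⁻¹ * x * m) * y * (m⁻¹ * x * m)⁻¹) * m⁻¹ = x * (m * y * m⁻¹) * x⁻¹
      group
    obtain ⟨Q', hUQ', hQ'⟩ := Cfsg.Agent.S0025.result P N hPN hcop hsolv q _ hUN hUq hUP
    have hQQ' : Q = Q' := huniq q Q Q' hQ hQ'
    subst hQQ'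
    apply PPrime.mem_normalizer_of_conj_le
    intro y hy
    exact hUQ' ⟨y, hy, rfl⟩
  refine ⟨hpN, ?_, ?_⟩
  · intro q _
    obtain ⟨Q, hQ⟩ := hex q
    refine ⟨Q, hQ, ?_⟩
    intro Q' hQ'
    exact (huniq q Q Q' (hPM.trans hQ) (hPM.trans hQ')).symm
  · rintro ⟨q, r, hq, hr, hqr, hqN, hrN⟩ hco
    haveI : Fact q.Prime := ⟨hq⟩
    obtain ⟨Q, hQ⟩ := hex q
    have hQGN : (Q : Subgroup ↥N).map N.subtype ≤ N := Subgroup.map_subtype_le _
    have hQcard : Nat.card ((Q : Subgroup ↥N).map N.subtype) =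
        q ^ (Nat.card N).factorization q := by
      rw [Subgroup.card_map_of_injective N.subtype_injective, Sylow.card_eq_multiplicity]
    generalize (Q : Subgroup ↥N).map N.subtype = QG at hQ hQGN hQcard
    have hQ1 : QG ≠ ⊥ := by
      intro h
      rw [h, Subgroup.card_bot] at hQcard
      have hpos : 0 < (Nat.card N).factorization q :=
        hq.factorization_pos_of_dvd Nat.card_pos.ne' hqN
      have h3 : 1 < q ^ (Nat.card N).factorization q := Nat.one_lt_pow hpos.ne' hq.one_lt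
      omega
    have hQN : QG ≠ N := by
      intro h
      rw [h] at hQcard
      rw [hQcard] at hrN
      have h3 := (Nat.prime_dvd_prime_iff_eq hr hq).1 (hr.dvd_of_dvd_pow hrN)
      exact hqr h3.symm
    have hQM : ¬ QG ≤ M := by
      intro h
      apply hQ1
      rw [eq_bot_iff, ← hMN]
      exact le_inf h hQGN
    have hsup : M ⊔ QG = ⊤ :=
      hco.2 _ (lt_of_le_of_ne le_sup_left (fun h => hQM (le_sup_right.trans h.ge)))
    apply hQN
    apply le_antisymm hQGN
    intro n hn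
    have h1 : n ∈ ((M ⊔ QG : Subgroup G) : Set G) := by
      rw [hsup]; exact Subgroup.mem_top n
    rw [Subgroup.coe_mul_of_left_le_normalizer_right M QG hQ] at h1
    obtain ⟨m, hm, y, hy, rfl⟩ := Set.mem_mul.1 h1
    have hmN : m ∈ N := by
      have h4 : m = (m * y) * y⁻¹ := by group
      rw [h4]; exact N.mul_mem hn (N.inv_mem (hQGN hy))
    have hm1 : m ∈ M ⊓ N := ⟨hm, hmN⟩
    rw [hMN, Subgroup.mem_bot] at hm1
    rw [hm1, one_mul]; exact hy

end Cfsg.Agent.S3749
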