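import Cfsg.Statements.S3750
import Mathlib
import Cfsg.Agent.S3735
import Cfsg.Agent.S3748
import Cfsg.Agent.Lib.Helper6.PPrime
import Cfsg.Agent.Lib.Helper2.Fstar

set_option autoImplicit false
open Cfsg

namespace Cfsg.Agent.S3750

open Cfsg.Agent.Lib.Helper6
open Cfsg.Agent.Lib.Helper2

/-- Call a proper subgroup M of G primitive when M = N_G(N) for every non-trivial normal subgroup N of M. Let M be a primitive subgroup of the finite group G and N a normal subgroup of G with M ∩ F*(N) ≠ 1. Then F(G) = 1 and F*(N) = F*(G) = E(G); in particular every minimal normal subgroup of G is contained in N. -/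
theorem result {G : Type*} [Group G] [Finite G] (M : Subgroup G) (hM : M ≠ ⊤) (hprim : ∀ N : Subgroup G, N ≤ M → M ≤ Subgroup.normalizer (N : Set G) → N ≠ ⊥ → Subgroup.normalizer (N : Set G) = M) (N : Subgroup G) [N.Normal] (hMF : M ⊓ (Cfsg.generalizedFittingSubgroup ↥N).map N.subtype ≠ ⊥) : Cfsg.fittingSubgroup G = ⊥ ∧ (Cfsg.generalizedFittingSubgroup ↥N).map N.subtype = Cfsg.generalizedFittingSubgroup G ∧ Cfsg.generalizedFittingSubgroup G = Cfsg.layer G ∧ ∀ K : Subgroup G, K.Normal → K ≠ ⊥ → (∀ K' : Subgroup G, K'.Normal → K' ≤ K → K' = ⊥ ∨ K' = K) → K ≤ N := by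
  classical
  obtain ⟨hsn, hMFit⟩ := Cfsg.Agent.S3748.result M hM hprim
  haveI hFn : (Cfsg.fittingSubgroup G).Normal := Fit.fitting_normal
  haveI hEn : (Cfsg.layer G).Normal := Comp.layer_normal
  haveI hFsn : (Cfsg.generalizedFittingSubgroup G).Normal := Comp.genFitting_normal
  have hX : (Cfsg.generalizedFittingSubgroup ↥N).map N.subtype =
      Cfsg.generalizedFittingSubgroup G ⊓ N := (Fstar.genFitting_inf_normal N).symm
  rw [hX] at hMF ⊢
  have hMD : M ≤ Subgroup.normalizer
      ((M ⊓ (Cfsg.generalizedFittingSubgroup G ⊓ N) : Subgroup G) : Set G) := by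
    apply (Cfsg.Agent.S3735.inv_iff M _).1
    intro m hm d hd
    exact ⟨M.mul_mem (M.mul_mem hm hd.1) (M.inv_mem hm),
      hFsn.conj_mem d hd.2.1 m, (inferInstance : N.Normal).conj_mem d hd.2.2 m⟩
  have hnD := hprim _ inf_le_left hMD hMF
  have hCD : Subgroup.centralizer
      ((M ⊓ (Cfsg.generalizedFittingSubgroup G ⊓ N) : Subgroup G) : Set G) ≤ M := by
    exact (Subgroup.centralizer_le_normalizer _).trans hnD.le
  have hDN : M ⊓ (Cfsg.generalizedFittingSubgroup G ⊓ N) ≤ N := inf_le_right.trans inf_le_right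
  have hDFs : M ⊓ (Cfsg.generalizedFittingSubgroup G ⊓ N) ≤ Cfsg.generalizedFittingSubgroup G :=
    inf_le_right.trans inf_le_left
  have hcentN : Subgroup.centralizer (N : Set G) ≤ M := by
    refine le_trans ?_ hCD
    exact Subgroup.centralizer_le
      (show ((M ⊓ (Cfsg.generalizedFittingSubgroup G ⊓ N) : Subgroup G) : Set G) ⊆ (N : Set G)
        from hDN)
  have hF : Cfsg.fittingSubgroup G = ⊥ := by
    by_contra hF1
    haveI : Group.IsNilpotent (Cfsg.fittingSubgroup G) := Fit.fitting_nilpotent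
    haveI : Nontrivial (Cfsg.fittingSubgroup G) := by
      rw [← not_subsingleton_iff_nontrivial]
      intro hsub
      apply hF1
      rw [eq_bot_iff]
      intro x hx
      have := Subsingleton.elim (⟨x, hx⟩ : Cfsg.fittingSubgroup G) 1
      exact congrArg Subtype.val this
    have hZ1 := Group.IsNilpotent.center_ne_bot (G := Cfsg.fittingSubgroup G)
    apply hZ1
    rw [eq_bot_iff]
    intro z hz
    have hcomm := Comp.layer_comm_fitting (G := G)
    rw [Subgroup.commutator_eq_bot_iff_le_centralizer] at hcomm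
    have hzM : (z : G) ∈ M := by
      apply hCD
      rw [Subgroup.mem_centralizer_iff]
      intro d hd
      have hd' : d ∈ Cfsg.layer G ⊔ Cfsg.fittingSubgroup G := hDFs hd
      obtain ⟨e, he, f, hf, rfl⟩ := Subgroup.mem_sup_of_normal_left.1 hd'
      have h1 : (z : G) * e = e * z := (Subgroup.mem_centralizer_iff.1 (hcomm he)) z z.2
      have h2 : f * (z : G) = z * f := by
        have := (Subgroup.mem_center_iff.1 hz) ⟨f, hf⟩
        exact congrArg Subtype.val this
      rw [mul_assoc, h2, ← mul_assoc, ← h1, mul_assoc]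
    have hz1 : (z : G) ∈ M ⊓ Cfsg.fittingSubgroup G := ⟨hzM, z.2⟩
    rw [hMFit, Subgroup.mem_bot] at hz1
    rw [Subgroup.mem_bot]
    exact Subtype.ext hz1
  have hFsE : Cfsg.generalizedFittingSubgroup G = Cfsg.layer G := by
    change Cfsg.layer G ⊔ Cfsg.fittingSubgroup G = Cfsg.layer G
    rw [hF, sup_bot_eq]
  have hEN : Cfsg.layer G ≤ N := by
    apply sSup_le
    rintro L ⟨hLsn, hLq⟩
    rcases Sub.comp_sn (K := ⊤) ((Sub.relSN_top_iff L).2 hLsn) hLq
      ((Sub.relSN_top_iff N).2 (inferInstance : N.Normal).isSubnormal) with h | h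
    · exact h
    · exfalso
      rw [Subgroup.commutator_eq_bot_iff_le_centralizer] at h
      have hLM : L ≤ M := h.trans hcentN
      have hL1 : L = ⊥ := hsn L hLsn hLM
      have hsolv : Group.IsSolvable ↥(⊥ : Subgroup G) := inferInstance
      exact Sub.not_le_solvable hLq hsolv (le_of_eq hL1)
  refine ⟨hF, ?_, hFsE, ?_⟩
  · rw [hFsE]
    exact inf_eq_left.2 hEN
  · intro K hK hK1 hKmin
    haveI := hK
    rcases hKmin (K ⊓ N) (Subgroup.normal_inf_normal K N) inf_le_left with h | h
    · exfalso
      have hKM : K ≤ M := by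
        refine le_trans ?_ hcentN
        intro k hk
        rw [Subgroup.mem_centralizer_iff]
        intro n hn
        exact ((Subgroup.commute_of_normal_of_disjoint K N hK inferInstance
          (disjoint_iff.2 h) k n hk hn).eq).symm
      have h1 := hprim K hKM (by rw [Subgroup.normalizer_eq_top]; exact le_top) hK1
      rw [Subgroup.normalizer_eq_top] at h1
      exact hM h1.symm
    · rw [← h]; exact inf_le_right

end Cfsg.Agent.S3750
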