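import Cfsg.Statements.S3760

set_option autoImplicit false
open Cfsg

namespace Cfsg.Agent.S3760

theorem mem_map_conj {G : Type*} [Group G] (K : Subgroup G) (g y : G) :
    y ∈ K.map (MulAut.conj g).toMonoidHom ↔ g⁻¹ * y * g ∈ K := by
  rw [Subgroup.mem_map]
  constructor
  · rintro ⟨k, hk, rfl⟩
    have : g⁻¹ * ((MulAut.conj g).toMonoidHom k) * g = k := by
      simp only [MulEquiv.coe_toMonoidHom, MulAut.conj_apply]
      group
    rw [this]; exact hk
  · intro h
    refine ⟨g⁻¹ * y * g, h, ?_⟩
    simp only [MulEquiv.coe_toMonoidHom, MulAut.conj_apply]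
    group

/-- Let the group G act transitively on a set X, let x ∈ X with stabilizer H = G_x, and let K ≤ H. Then N_G(K) acts transitively on the set of fixed points of K if and only if every G-conjugate of K contained in H is already an H-conjugate of K. -/
theorem result {G : Type*} [Group G] {X : Type*} [MulAction G X] (htrans : ∀ a b : X, ∃ g : G, g • a = b) (x : X) (K : Subgroup G) (hK : K ≤ MulAction.stabilizer G x) : (∀ a b : X, (∀ k ∈ K, k • a = a) → (∀ k ∈ K, k • b = b) → ∃ g ∈ Subgroup.normalizer (K : Set G), g • a = b) ↔ ∀ g : G, K.map (MulAut.conj g).toMonoidHom ≤ MulAction.stabilizer G x → ∃ h ∈ MulAction.stabilizer G x, K.map (MulAut.conj g).toMonoidHom = K.map (MulAut.conj h).toMonoidHom := by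
  constructor
  · intro H g hg
    have hfix1 : ∀ k ∈ K, k • x = x := fun k hk => hK hk
    have hfix2 : ∀ k ∈ K, k • (g⁻¹ • x) = g⁻¹ • x := by
      intro k hk
      have h1 : g * k * g⁻¹ ∈ K.map (MulAut.conj g).toMonoidHom := by
        rw [mem_map_conj]
        have : g⁻¹ * (g * k * g⁻¹) * g = k := by group
        rw [this]; exact hk
      have h2 := hg h1
      rw [MulAction.mem_stabilizer_iff] at h2
      calc k • g⁻¹ • x = g⁻¹ • ((g * k * g⁻¹) • x) := by simp [mul_smul]
        _ = g⁻¹ • x := by rw [h2]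
    obtain ⟨n, hn, hnx⟩ := H x (g⁻¹ • x) hfix1 hfix2
    refine ⟨g * n, ?_, ?_⟩
    · rw [MulAction.mem_stabilizer_iff, mul_smul, hnx, smul_inv_smul]
    · ext y
      rw [mem_map_conj, mem_map_conj]
      rw [Subgroup.mem_normalizer_iff''] at hn
      rw [hn (g⁻¹ * y * g)]
      have : (g * n)⁻¹ * y * (g * n) = n⁻¹ * (g⁻¹ * y * g) * n := by group
      rw [this]
  · intro H a b ha hb
    have key : ∀ c : X, (∀ k ∈ K, k • c = c) →
        ∃ u ∈ Subgroup.normalizer (K : Set G), u • x = c := by
      intro c hc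
      obtain ⟨u, hu⟩ := htrans x c
      have hle : K.map (MulAut.conj u⁻¹).toMonoidHom ≤ MulAction.stabilizer G x := by
        intro y hy
        rw [mem_map_conj] at hy
        rw [MulAction.mem_stabilizer_iff]
        have h1 := hc _ hy
        rw [← hu] at h1
        have h2 : u • (y • x) = u • x := by
          rw [← h1]; simp [mul_smul]
        exact (MulAction.injective u) h2
      obtain ⟨h, hh, hEq⟩ := H u⁻¹ hle
      refine ⟨u * h, ?_, ?_⟩
      · rw [Subgroup.mem_normalizer_iff'']
        intro y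
        have e1 : ∀ z, z ∈ K.map (MulAut.conj u⁻¹).toMonoidHom ↔
            z ∈ K.map (MulAut.conj h).toMonoidHom := fun z => by rw [hEq]
        have e2 := e1 (u⁻¹ * y * u)
        rw [mem_map_conj, mem_map_conj] at e2
        have e3 : u⁻¹⁻¹ * (u⁻¹ * y * u) * u⁻¹ = y := by group
        have e4 : h⁻¹ * (u⁻¹ * y * u) * h = (u * h)⁻¹ * y * (u * h) := by group
        rw [e3, e4] at e2
        exact e2
      · rw [mul_smul]
        rw [MulAction.mem_stabilizer_iff] at hh
        rw [hh, hu]
    obtain ⟨u, hu, hua⟩ := key a ha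
    obtain ⟨v, hv, hvb⟩ := key b hb
    refine ⟨v * u⁻¹, Subgroup.mul_mem _ hv (Subgroup.inv_mem _ hu), ?_⟩
    rw [mul_smul, ← hua, inv_smul_smul, hvb]

end Cfsg.Agent.S3760
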