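import Cfsg.Statements.S3768
import Mathlib
import Cfsg.Agent.Lib.Helper6.Index
import Cfsg.Agent.Lib.Helper6.ConjSmul

set_option autoImplicit false
open Cfsg

namespace Cfsg.Agent.S3768

open Cfsg.Agent.Lib.Helper6
open scoped Pointwise

/-- Malnormality. -/
def Mal {G : Type*} [Group G] (R : Subgroup G) : Prop :=
  ∀ g : G, g ∉ R → R ⊓ (MulAut.conj g • R) = ⊥

theorem mal_mem {G : Type*} [Group G] {R : Subgroup G} (hR : Mal R) {r c : G} (hr : r ∈ R)
    (hr1 : r ≠ 1) (hc : c⁻¹ * r * c ∈ R) : c ∈ R := by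
  by_contra hcR
  have h := hR c hcR
  have : r ∈ R ⊓ (MulAut.conj c • R) := ⟨hr, (ConjSmul.mem_conj_smul R c r).mpr hc⟩
  rw [h, Subgroup.mem_bot] at this
  exact hr1 this

theorem mal_unique {G : Type*} [Group G] {R : Subgroup G} (hR : Mal R) {x g h : G} (hx : x ≠ 1)
    (hg : x ∈ MulAut.conj g • R) (hh : x ∈ MulAut.conj h • R) : g⁻¹ * h ∈ R := by
  rw [ConjSmul.mem_conj_smul] at hg hh
  have hy1 : g⁻¹ * x * g ≠ 1 := by
    intro h1
    apply hx
    have : x = g * (g⁻¹ * x * g) * g⁻¹ := by group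
    rw [this, h1]; group
  refine mal_mem hR hg hy1 ?_
  have : (g⁻¹ * h)⁻¹ * (g⁻¹ * x * g) * (g⁻¹ * h) = h⁻¹ * x * h := by group
  rw [this]; exact hh

theorem card_ne_one {H : Type*} [Group H] [Finite H] :
    Nat.card {y : H // y ≠ 1} = Nat.card H - 1 := by
  classical
  have h := Nat.card_congr (Equiv.optionSubtypeNe (1 : H))
  rw [Finite.card_option] at h
  omega

theorem card_nonkernel {G : Type*} [Group G] [Finite G] (R : Subgroup G) (hR : Mal R)
    (N : Subgroup G) [hN : N.Normal] :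
    Nat.card {x : G // x ∈ N ∧ x ≠ 1 ∧ ∃ g : G, x ∈ MulAut.conj g • R}
      = R.index * (Nat.card ↥(N ⊓ R) - 1) := by
  classical
  rw [← card_ne_one, Subgroup.index, ← Nat.card_prod]
  symm
  refine Nat.card_congr (Equiv.ofBijective
    (fun cy : (G ⧸ R) × {y : ↥(N ⊓ R) // y ≠ 1} =>
      (⟨cy.1.out * (cy.2.1 : G) * cy.1.out⁻¹, ?_, ?_, ?_⟩ :
        {x : G // x ∈ N ∧ x ≠ 1 ∧ ∃ g : G, x ∈ MulAut.conj g • R})) ⟨?_, ?_⟩)
  · exact hN.conj_mem _ cy.2.1.2.1 _
  · intro h1
    apply cy.2.2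
    have : (cy.2.1 : G) = cy.1.out⁻¹ * (cy.1.out * (cy.2.1 : G) * cy.1.out⁻¹) * cy.1.out := by
      group
    rw [h1] at this
    ext
    rw [this]; simp
  · refine ⟨cy.1.out, ?_⟩
    rw [ConjSmul.mem_conj_smul]
    have : cy.1.out⁻¹ * (cy.1.out * (cy.2.1 : G) * cy.1.out⁻¹) * cy.1.out = (cy.2.1 : G) := by
      group
    rw [this]; exact cy.2.1.2.2
  · rintro ⟨c, y⟩ ⟨c', y'⟩ h
    have hval : c.out * (y.1 : G) * c.out⁻¹ = c'.out * (y'.1 : G) * c'.out⁻¹ :=
      congrArg Subtype.val h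
    have hy1 : c.out * (y.1 : G) * c.out⁻¹ ≠ 1 := by
      intro h1
      apply y.2
      have : (y.1 : G) = c.out⁻¹ * (c.out * (y.1 : G) * c.out⁻¹) * c.out := by group
      rw [h1] at this
      ext
      rw [this]; simp
    have m1 : c.out * (y.1 : G) * c.out⁻¹ ∈ MulAut.conj c.out • R := by
      rw [ConjSmul.mem_conj_smul]
      have : c.out⁻¹ * (c.out * (y.1 : G) * c.out⁻¹) * c.out = (y.1 : G) := by group
      rw [this]; exact y.1.2.2
    have m2 : c.out * (y.1 : G) * c.out⁻¹ ∈ MulAut.conj c'.out • R := by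
      rw [hval, ConjSmul.mem_conj_smul]
      have : c'.out⁻¹ * (c'.out * (y'.1 : G) * c'.out⁻¹) * c'.out = (y'.1 : G) := by group
      rw [this]; exact y'.1.2.2
    have hcc := mal_unique hR hy1 m1 m2
    have hc : c = c' := by
      have := QuotientGroup.eq.mpr hcc
      rwa [QuotientGroup.out_eq', QuotientGroup.out_eq'] at this
    subst hc
    have : (y.1 : G) = (y'.1 : G) := by
      have h2 : c.out⁻¹ * (c.out * (y.1 : G) * c.out⁻¹) * c.out
          = c.out⁻¹ * (c.out * (y'.1 : G) * c.out⁻¹) * c.out := by rw [hval]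
      have e1 : c.out⁻¹ * (c.out * (y.1 : G) * c.out⁻¹) * c.out = (y.1 : G) := by group
      have e2 : c.out⁻¹ * (c.out * (y'.1 : G) * c.out⁻¹) * c.out = (y'.1 : G) := by group
      rw [e1, e2] at h2
      exact h2
    have : y = y' := by
      apply Subtype.ext; apply Subtype.ext; exact this
    rw [this]
  · rintro ⟨x, hxN, hx1, g, hg⟩
    obtain ⟨r0, hr0⟩ := QuotientGroup.mk_out_eq_mul R g
    rw [ConjSmul.mem_conj_smul] at hg
    have hyR : (g * (r0 : G))⁻¹ * x * (g * (r0 : G)) ∈ R := by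
      have : (g * (r0 : G))⁻¹ * x * (g * (r0 : G)) = (r0 : G)⁻¹ * (g⁻¹ * x * g) * (r0 : G) := by
        group
      rw [this]
      exact R.mul_mem (R.mul_mem (R.inv_mem r0.2) hg) r0.2
    have hyN : (g * (r0 : G))⁻¹ * x * (g * (r0 : G)) ∈ N := by
      have := hN.conj_mem x hxN (g * (r0 : G))⁻¹
      simpa using this
    have hy1 : (⟨(g * (r0 : G))⁻¹ * x * (g * (r0 : G)), hyN, hyR⟩ : ↥(N ⊓ R)) ≠ 1 := by
      intro h1
      have h2 := congrArg Subtype.val h1
      simp only [Subgroup.coe_one] at h2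
      apply hx1
      have : x = (g * (r0 : G)) * ((g * (r0 : G))⁻¹ * x * (g * (r0 : G))) * (g * (r0 : G))⁻¹ := by
        group
      rw [this, h2]; group
    refine ⟨⟨(g : G ⧸ R), ⟨⟨(g * (r0 : G))⁻¹ * x * (g * (r0 : G)), hyN, hyR⟩, hy1⟩⟩, ?_⟩
    apply Subtype.ext
    show (g : G ⧸ R).out * ((g * (r0 : G))⁻¹ * x * (g * (r0 : G))) * ((g : G ⧸ R).out)⁻¹ = x
    rw [hr0]; group

theorem arith (m t a c : ℕ) (ha : 2 ≤ a) (ht : 0 < t) (hd : t ∣ m) (hc1 : 1 ≤ c) (hcm : c ≤ m)
    (key : a * t = c + m * (a - 1)) : c = m := by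
  obtain ⟨s, rfl⟩ := hd
  obtain ⟨b, rfl⟩ : ∃ b, a = b + 2 := ⟨a - 2, by omega⟩
  have e : b + 2 - 1 = b + 1 := by omega
  rw [e] at key
  rcases Nat.lt_or_ge s 2 with hs2 | hs2
  · interval_cases s
    · simp at hcm; omega
    · rw [mul_one] at key ⊢
      nlinarith
  · exfalso
    have h1 : t * s * (b + 1) ≥ t * 2 * (b + 1) :=
      Nat.mul_le_mul_right _ (Nat.mul_le_mul_left _ hs2)
    nlinarith

/-- conjugacy lemma inside `N R`. -/
theorem conj_coset {G : Type*} [Group G] [Finite G] {R : Subgroup G} (hR : Mal R)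
    (N : Subgroup G) [hN : N.Normal] (hNR : N ⊓ R = ⊥) {r : G} (hr : r ∈ R) (hr1 : r ≠ 1)
    (n : G) (hn : n ∈ N) : ∃ m ∈ N, r * n = m * r * m⁻¹ := by
  classical
  let f : N → N := fun m => ⟨r⁻¹ * (m : G) * r * (m : G)⁻¹, by
    have h1 : r⁻¹ * (m : G) * r ∈ N := by
      have := hN.conj_mem (m : G) m.2 r⁻¹
      simpa using this
    exact N.mul_mem h1 (N.inv_mem m.2)⟩
  have hinj : Function.Injective f := by
    intro m m' h
    have hv : r⁻¹ * (m : G) * r * (m : G)⁻¹ = r⁻¹ * (m' : G) * r * (m' : G)⁻¹ :=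
      congrArg Subtype.val h
    have hc : ((m' : G)⁻¹ * (m : G))⁻¹ * r * ((m' : G)⁻¹ * (m : G)) = r := by
      have h3 : (m : G) * r * (m : G)⁻¹ = (m' : G) * r * (m' : G)⁻¹ := by
        have : r * (r⁻¹ * (m : G) * r * (m : G)⁻¹) = r * (r⁻¹ * (m' : G) * r * (m' : G)⁻¹) := by
          rw [hv]
        have e1 : r * (r⁻¹ * (m : G) * r * (m : G)⁻¹) = (m : G) * r * (m : G)⁻¹ := by group
        have e2 : r * (r⁻¹ * (m' : G) * r * (m' : G)⁻¹) = (m' : G) * r * (m' : G)⁻¹ := by group
        rw [e1, e2] at this; exact this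
      have h4 : (m : G)⁻¹ * (m' : G) * r * ((m' : G)⁻¹ * (m : G)) = (m : G)⁻¹ * ((m' : G) * r * (m' : G)⁻¹) * (m : G) := by
        group
      have h5 : ((m' : G)⁻¹ * (m : G))⁻¹ = (m : G)⁻¹ * (m' : G) := by group
      rw [h5, h4, ← h3]; group
    have hcR : (m' : G)⁻¹ * (m : G) ∈ R := mal_mem hR hr hr1 (by rw [hc]; exact hr)
    have hcN : (m' : G)⁻¹ * (m : G) ∈ N := N.mul_mem (N.inv_mem m'.2) m.2
    have : (m' : G)⁻¹ * (m : G) ∈ N ⊓ R := ⟨hcN, hcR⟩
    rw [hNR, Subgroup.mem_bot] at this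
    apply Subtype.ext
    have h6 : (m : G) = (m' : G) * ((m' : G)⁻¹ * (m : G)) := by group
    rw [h6, this, mul_one]
  have hsurj : Function.Surjective f := Finite.surjective_of_injective hinj
  obtain ⟨m, hm⟩ := hsurj ⟨n, hn⟩
  have hv : r⁻¹ * (m : G) * r * (m : G)⁻¹ = n := congrArg Subtype.val hm
  refine ⟨m, m.2, ?_⟩
  rw [← hv]; group

theorem inf_eq_bot {G : Type*} [Group G] [Finite G] (R : Subgroup G)
    (hR : Cfsg.IsFrobeniusComplement R) (N : Subgroup G) [hN : N.Normal]
    (hKN : ¬ Cfsg.frobeniusKernel R ⊆ N) : N ⊓ R = ⊥ := by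
  classical
  obtain ⟨hR1, hR2, hmal⟩ := hR
  have hMal : Mal R := hmal
  by_contra hne
  apply hKN
  -- counting
  have cN := card_nonkernel R hMal N
  have cT := card_nonkernel R hMal (⊤ : Subgroup G)
  have hm : R.index * Nat.card R = Nat.card G := Subgroup.index_mul_card R
  have hRpos : 0 < Nat.card R := Nat.card_pos
  have hmpos : 0 < R.index := Nat.pos_of_ne_zero Subgroup.index_ne_zero_of_finite
  -- kernel count
  have eK : Nat.card {x : G // x ∈ Cfsg.frobeniusKernel R} +
      Nat.card {x : G // x ∉ Cfsg.frobeniusKernel R} = Nat.card G := by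
    rw [← Nat.card_sum]
    exact Nat.card_congr (Equiv.sumCompl (fun x : G => x ∈ Cfsg.frobeniusKernel R))
  have eK' : Nat.card {x : G // x ∉ Cfsg.frobeniusKernel R} = R.index * (Nat.card R - 1) := by
    have e1 : Nat.card ↥((⊤ : Subgroup G) ⊓ R) = Nat.card R := by rw [top_inf_eq]
    rw [← e1, ← cT]
    refine Nat.card_congr (Equiv.subtypeEquivRight ?_)
    intro x
    simp only [Cfsg.frobeniusKernel, Set.mem_setOf_eq, Subgroup.mem_top, true_and]
    push_neg
    rfl
  have hK : Nat.card {x : G // x ∈ Cfsg.frobeniusKernel R} = R.index := by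
    have : R.index * (Nat.card R - 1) + R.index = R.index * Nat.card R := by
      have : Nat.card R - 1 + 1 = Nat.card R := Nat.sub_add_cancel hRpos
      calc R.index * (Nat.card R - 1) + R.index = R.index * (Nat.card R - 1 + 1) := by ring
        _ = R.index * Nat.card R := by rw [this]
    omega
  -- N count
  have eN : Nat.card {x : G // x ∈ N ∧ x ∈ Cfsg.frobeniusKernel R} +
      Nat.card {x : G // x ∈ N ∧ x ≠ 1 ∧ ∃ g : G, x ∈ MulAut.conj g • R} = Nat.card N := by
    rw [← Nat.card_sum]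
    have e1 : ({x : G // x ∈ N ∧ x ∈ Cfsg.frobeniusKernel R} ⊕
        {x : G // x ∈ N ∧ x ≠ 1 ∧ ∃ g : G, x ∈ MulAut.conj g • R}) ≃ N :=
      { toFun := fun s => match s with
          | Sum.inl x => ⟨x.1, x.2.1⟩
          | Sum.inr x => ⟨x.1, x.2.1⟩
        invFun := fun y => if h : (y : G) ∈ Cfsg.frobeniusKernel R then Sum.inl ⟨y.1, y.2, h⟩
          else Sum.inr ⟨y.1, y.2, by
            simp only [Cfsg.frobeniusKernel, Set.mem_setOf_eq] at h
            push_neg at h
            exact h⟩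
        left_inv := by
          rintro (⟨x, hx1, hx2⟩ | ⟨x, hx1, hx2, hx3⟩)
          · simp [hx2]
          · have : x ∉ Cfsg.frobeniusKernel R := by
              simp only [Cfsg.frobeniusKernel, Set.mem_setOf_eq]
              push_neg
              exact ⟨hx2, hx3⟩
            simp [this]
        right_inv := by
          intro y
          by_cases h : (y : G) ∈ Cfsg.frobeniusKernel R
          · simp [h]
          · simp [h] }
    exact Nat.card_congr e1
  -- arithmetic
  set m := R.index with hmdef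
  set a := Nat.card ↥(N ⊓ R) with hadef
  have ha2 : 2 ≤ a := by
    have hnt : Nontrivial ↥(N ⊓ R) := by
      rw [Subgroup.nontrivial_iff_ne_bot]; exact hne
    exact Finite.one_lt_card
  have e3 := Index.card_eq_card_mul_relIndex (N ⊓ R) N inf_le_left
  rw [Subgroup.inf_relIndex_left] at e3
  have hdvd : R.relIndex N ∣ R.index := by
    have h1 := Index.relIndex_sup_of_le_normalizer R N
      (by rw [Subgroup.normalizer_eq_top]; exact le_top)
    rw [← h1]
    exact Subgroup.relIndex_dvd_index_of_le le_sup_left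
  set t := R.relIndex N with htdef
  have htpos : 0 < t := Index.relIndex_pos R N
  -- |N ∩ K| ≤ |K| = m
  have hle : Nat.card {x : G // x ∈ N ∧ x ∈ Cfsg.frobeniusKernel R} ≤ m := by
    rw [← hK]
    exact Nat.card_le_card_of_injective
      (fun x : {x : G // x ∈ N ∧ x ∈ Cfsg.frobeniusKernel R} =>
        (⟨x.1, x.2.2⟩ : {x : G // x ∈ Cfsg.frobeniusKernel R}))
      (fun x y h => Subtype.ext (by have h' := congrArg Subtype.val h; exact h'))
  have hpos : 1 ≤ Nat.card {x : G // x ∈ N ∧ x ∈ Cfsg.frobeniusKernel R} := by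
    haveI : Nonempty {x : G // x ∈ N ∧ x ∈ Cfsg.frobeniusKernel R} :=
      ⟨⟨1, N.one_mem, Or.inl rfl⟩⟩
    exact Nat.card_pos
  -- a * t = |N ∩ K| + m * (a - 1)
  have key : a * t = Nat.card {x : G // x ∈ N ∧ x ∈ Cfsg.frobeniusKernel R} + m * (a - 1) := by
    rw [← e3, ← cN]; exact eN.symm
  have hfull : Nat.card {x : G // x ∈ N ∧ x ∈ Cfsg.frobeniusKernel R} = m :=
    arith m t a _ ha2 htpos hdvd hpos hle key
  -- conclude K ⊆ N
  intro k hk
  have hinj : Function.Injective (fun x : {x : G // x ∈ N ∧ x ∈ Cfsg.frobeniusKernel R} =>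
        (⟨x.1, x.2.2⟩ : {x : G // x ∈ Cfsg.frobeniusKernel R})) :=
    fun x y h => Subtype.ext (by have h' := congrArg Subtype.val h; exact h')
  have hbij : Function.Bijective (fun x : {x : G // x ∈ N ∧ x ∈ Cfsg.frobeniusKernel R} =>
        (⟨x.1, x.2.2⟩ : {x : G // x ∈ Cfsg.frobeniusKernel R})) := by
    rw [Nat.bijective_iff_injective_and_card]
    exact ⟨hinj, by rw [hfull, hK]⟩
  obtain ⟨x, hx⟩ := hbij.2 ⟨k, hk⟩
  have : x.1 = k := congrArg Subtype.val hx
  rw [← this]; exact x.2.1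

/-- Let G be a finite Frobenius group with Frobenius complement R and Frobenius kernel K (the identity together with the elements in no conjugate of R), and let N be a normal subgroup of G not containing K. Then G/N is a Frobenius group with Frobenius complement RN/N whose Frobenius kernel is the image of K. -/
theorem result {G : Type*} [Group G] [Finite G] (R : Subgroup G) (hR : Cfsg.IsFrobeniusComplement R) (N : Subgroup G) [N.Normal] (hKN : ¬ Cfsg.frobeniusKernel R ⊆ N) : Cfsg.IsFrobeniusComplement (R.map (QuotientGroup.mk' N)) ∧ Cfsg.frobeniusKernel (R.map (QuotientGroup.mk' N)) = QuotientGroup.mk' N '' Cfsg.frobeniusKernel R := by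
  classical
  have hNR := inf_eq_bot R hR N hKN
  obtain ⟨hR1, hR2, hmal⟩ := hR
  have hMal : Mal R := hmal
  have hRN : ∀ r ∈ R, r ∈ N → r = 1 := by
    intro r hr hn
    have : r ∈ N ⊓ R := ⟨hn, hr⟩
    rwa [hNR, Subgroup.mem_bot] at this
  have mem_map : ∀ x : G, (QuotientGroup.mk' N x) ∈ R.map (QuotientGroup.mk' N) ↔
      ∃ r ∈ R, ∃ n ∈ N, x = r * n := by
    intro x
    rw [Subgroup.mem_map]
    constructor
    · rintro ⟨r, hr, h⟩
      refine ⟨r, hr, r⁻¹ * x, ?_, by group⟩
      exact QuotientGroup.eq.mp h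
    · rintro ⟨r, hr, n, hn, rfl⟩
      refine ⟨r, hr, ?_⟩
      apply QuotientGroup.eq.mpr
      have : r⁻¹ * (r * n) = n := by group
      rw [this]; exact hn
  have mem_conj_map : ∀ g x : G, (QuotientGroup.mk' N x) ∈
      MulAut.conj (QuotientGroup.mk' N g) • R.map (QuotientGroup.mk' N) →
      x ∈ N ∨ ∃ c : G, x ∈ MulAut.conj c • R ∧ QuotientGroup.mk' N c = QuotientGroup.mk' N g := by
    intro g x hx
    rw [ConjSmul.mem_conj_smul] at hx
    have hx' : QuotientGroup.mk' N (g⁻¹ * x * g) ∈ R.map (QuotientGroup.mk' N) := by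
      simpa using hx
    obtain ⟨r, hr, n, hn, he⟩ := (mem_map _).mp hx'
    by_cases hr1 : r = 1
    · left
      have : x = g * (g⁻¹ * x * g) * g⁻¹ := by group
      rw [this, he, hr1, one_mul]
      exact Subgroup.Normal.conj_mem inferInstance n hn g
    · right
      obtain ⟨m, hm, hmr⟩ := conj_coset hMal N hNR hr hr1 n hn
      refine ⟨g * m, ?_, ?_⟩
      · rw [ConjSmul.mem_conj_smul]
        have : (g * m)⁻¹ * x * (g * m) = m⁻¹ * (g⁻¹ * x * g) * m := by group
        rw [this, he, hmr]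
        have : m⁻¹ * (m * r * m⁻¹) * m = r := by group
        rw [this]; exact hr
      · rw [map_mul]
        have : QuotientGroup.mk' N m = 1 := (QuotientGroup.eq_one_iff m).mpr hm
        rw [this, mul_one]
  obtain ⟨k, hkK, hkN⟩ := Set.not_subset.mp hKN
  refine ⟨⟨?_, ?_, ?_⟩, ?_⟩
  · -- nontrivial
    intro h
    obtain ⟨r, hr, hr1⟩ : ∃ r ∈ R, r ≠ 1 := by
      by_contra hcon
      push_neg at hcon
      exact hR1 ((Subgroup.eq_bot_iff_forall R).mpr hcon)
    have : QuotientGroup.mk' N r ∈ R.map (QuotientGroup.mk' N) := Subgroup.mem_map_of_mem _ hr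
    rw [h, Subgroup.mem_bot] at this
    exact hr1 (hRN r hr ((QuotientGroup.eq_one_iff r).mp this))
  · -- proper
    intro h
    have : QuotientGroup.mk' N k ∈ R.map (QuotientGroup.mk' N) := by rw [h]; trivial
    obtain ⟨r, hr, n, hn, he⟩ := (mem_map k).mp this
    by_cases hr1 : r = 1
    · apply hkN
      rw [he, hr1, one_mul]; exact hn
    · obtain ⟨m, hm, hmr⟩ := conj_coset hMal N hNR hr hr1 n hn
      rcases hkK with h1 | h2
      · apply hkN; rw [h1]; exact N.one_mem
      · apply h2 m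
        rw [ConjSmul.mem_conj_smul, he, hmr]
        have : m⁻¹ * (m * r * m⁻¹) * m = r := by group
        rw [this]; exact hr
  · -- malnormal
    intro gb hgb
    obtain ⟨g, rfl⟩ := QuotientGroup.mk'_surjective N gb
    rw [eq_bot_iff]
    intro xb hxb
    obtain ⟨x, rfl⟩ := QuotientGroup.mk'_surjective N xb
    rw [Subgroup.mem_bot]
    obtain ⟨hx1, hx2⟩ := hxb
    rcases mem_conj_map g x hx2 with hxN | ⟨c, hc, hcg⟩
    · exact (QuotientGroup.eq_one_iff x).mpr hxN
    · obtain ⟨r, hr, n, hn, he⟩ := (mem_map x).mp hx1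
      by_cases hr1 : r = 1
      · apply (QuotientGroup.eq_one_iff x).mpr
        rw [he, hr1, one_mul]; exact hn
      · exfalso
        obtain ⟨m, hm, hmr⟩ := conj_coset hMal N hNR hr hr1 n hn
        -- x = m r m⁻¹ ∈ conj m • R and conj c • R
        have hxne : x ≠ 1 := by
          intro h1
          rw [h1] at he
          have : r = n⁻¹ := eq_inv_of_mul_eq_one_left he.symm
          apply hr1
          exact hRN r hr (by rw [this]; exact N.inv_mem hn)
        have hxm : x ∈ MulAut.conj m • R := by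
          rw [ConjSmul.mem_conj_smul, he, hmr]
          have : m⁻¹ * (m * r * m⁻¹) * m = r := by group
          rw [this]; exact hr
        have hmc := mal_unique hMal hxne hxm hc
        apply hgb
        rw [← hcg]
        have : QuotientGroup.mk' N c = QuotientGroup.mk' N (m⁻¹ * c) := by
          rw [map_mul, map_inv]
          have : QuotientGroup.mk' N m = 1 := (QuotientGroup.eq_one_iff m).mpr hm
          rw [this, inv_one, one_mul]
        rw [this]
        exact Subgroup.mem_map_of_mem _ hmc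
  · -- kernel
    ext xb
    obtain ⟨x, rfl⟩ := QuotientGroup.mk'_surjective N xb
    constructor
    · intro hx
      rcases hx with h1 | h2
      · exact ⟨1, Or.inl rfl, by rw [h1, map_one]⟩
      · refine ⟨x, ?_, rfl⟩
        by_contra hxK
        simp only [Cfsg.frobeniusKernel, Set.mem_setOf_eq] at hxK
        push_neg at hxK
        obtain ⟨hx1, g, hg⟩ := hxK
        apply h2 (QuotientGroup.mk' N g)
        rw [ConjSmul.mem_conj_smul] at hg ⊢
        have : (QuotientGroup.mk' N g)⁻¹ * QuotientGroup.mk' N x * QuotientGroup.mk' N g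
            = QuotientGroup.mk' N (g⁻¹ * x * g) := by simp
        rw [this]
        exact Subgroup.mem_map_of_mem _ hg
    · rintro ⟨y, hy, hyx⟩
      rw [← hyx]
      by_cases hyN : y ∈ N
      · left; exact (QuotientGroup.eq_one_iff y).mpr hyN
      · right
        intro gb hgb
        obtain ⟨g, rfl⟩ := QuotientGroup.mk'_surjective N gb
        rcases mem_conj_map g y hgb with h1 | ⟨c, hc, -⟩
        · exact hyN h1
        · rcases hy with h1 | h2
          · apply hyN; rw [h1]; exact N.one_mem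
          · exact h2 c hc

end Cfsg.Agent.S3768
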