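import Cfsg.Statements.S3771
import Mathlib

set_option autoImplicit false
open Cfsg

namespace Cfsg.Agent.S3771

theorem card_le_of_comm_hom {R : Type*} [Group R] [Finite R] (N : Subgroup R)
    (hNc : N ≤ Subgroup.center R) (x : R) (hx : ∀ g : R, g * x * g⁻¹ * x⁻¹ ∈ N) :
    Nat.card R ≤ Nat.card (Subgroup.centralizer ({x} : Set R)) * Nat.card N := by
  let φ : R →* ↥N := MonoidHom.mk' (fun g => ⟨g * x * g⁻¹ * x⁻¹, hx g⟩) (by
    intro g h
    apply Subtype.ext
    change g * h * x * (g * h)⁻¹ * x⁻¹ = (g * x * g⁻¹ * x⁻¹) * (h * x * h⁻¹ * x⁻¹)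
    have h1 := Subgroup.mem_center_iff.1 (hNc (hx h)) g
    have h2 := Subgroup.mem_center_iff.1 (hNc (hx h)) (g * x * g⁻¹ * x⁻¹)
    calc g * h * x * (g * h)⁻¹ * x⁻¹ = g * (h * x * h⁻¹ * x⁻¹) * x * g⁻¹ * x⁻¹ := by group
      _ = (h * x * h⁻¹ * x⁻¹) * g * x * g⁻¹ * x⁻¹ := by rw [h1]
      _ = (h * x * h⁻¹ * x⁻¹) * (g * x * g⁻¹ * x⁻¹) := by group
      _ = (g * x * g⁻¹ * x⁻¹) * (h * x * h⁻¹ * x⁻¹) := h2.symm)
  have hker : φ.ker = Subgroup.centralizer ({x} : Set R) := by
    ext g
    rw [MonoidHom.mem_ker, Subgroup.mem_centralizer_iff, Subtype.ext_iff]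
    change g * x * g⁻¹ * x⁻¹ = 1 ↔ _
    rw [mul_inv_eq_one, mul_inv_eq_iff_eq_mul]
    constructor
    · intro h y hy
      rw [Set.mem_singleton_iff] at hy
      rw [hy, h]
    · intro h
      exact (h x (Set.mem_singleton x)).symm
  have h1 := Subgroup.card_mul_index φ.ker
  rw [Subgroup.index_ker, hker] at h1
  rw [← h1]
  exact Nat.mul_le_mul_left _ (Subgroup.card_le_card_group _)

theorem exists_center_ne_one {R : Type*} [Group R] [Finite R] [Nontrivial R] {p : ℕ}
    [Fact p.Prime] (hR : IsPGroup p R) : ∃ z ∈ Subgroup.center R, z ≠ 1 := by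
  have := hR.center_nontrivial
  obtain ⟨⟨z, hz⟩, hne⟩ := exists_ne (1 : Subgroup.center R)
  exact ⟨z, hz, fun h => hne (Subtype.ext h)⟩

theorem card_lt_of_lt {R : Type*} [Group R] [Finite R] {H K : Subgroup R} (h : H < K) :
    Nat.card H < Nat.card K := by
  by_contra hcon
  push Not at hcon
  exact h.ne (Subgroup.eq_of_le_of_card_ge h.le hcon)

/-- Let p be a prime and R a finite p-group of p-rank at most 2 (no elementary abelian subgroup of order p³) in which every element has order dividing p. Then R has order at most p³. -/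
theorem result {R : Type*} [Group R] [Finite R] {p : ℕ} [Fact p.Prime] (hR : IsPGroup p R) (hrank : Cfsg.PRankLE p 2 R) (hexp : ∀ x : R, x ^ p = 1) : Nat.card R ≤ p ^ 3 := by
  classical
  have hp := (Fact.out : p.Prime)
  have hp2 : 2 ≤ p := hp.two_le
  rcases subsingleton_or_nontrivial R with hsub | hnt
  · rw [Nat.card_of_subsingleton (1 : R)]
    exact Nat.one_le_pow _ _ hp.pos
  have hrank' : ∀ A : Subgroup R, IsMulCommutative A → Nat.card A ≤ p ^ 2 :=
    fun A hA => hrank A hA (fun a _ => hexp a)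
  obtain ⟨z, hzc, hz1⟩ := exists_center_ne_one hR
  have hNc : Subgroup.zpowers z ≤ Subgroup.center R := by
    rw [Subgroup.zpowers_le]
    exact hzc
  have hNn : (Subgroup.zpowers z).Normal := by
    constructor
    intro n hn g
    have := Subgroup.mem_center_iff.1 (hNc hn) g
    rw [this, mul_inv_cancel_right]
    exact hn
  have hNcard : Nat.card (Subgroup.zpowers z) = p := by
    rw [Nat.card_zpowers]
    have h1 : orderOf z ∣ p := orderOf_dvd_of_pow_eq_one (hexp z)
    rcases (Nat.dvd_prime hp).1 h1 with h | h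
    · exact absurd (orderOf_eq_one_iff.1 h) hz1
    · exact h
  by_cases hNtop : Subgroup.zpowers z = ⊤
  · have : Nat.card R = p := by rw [← hNcard, hNtop, Subgroup.card_top]
    rw [this]
    calc p = p ^ 1 := (pow_one p).symm
      _ ≤ p ^ 3 := Nat.pow_le_pow_right hp.pos (by norm_num)
  have hQnt : Nontrivial (R ⧸ Subgroup.zpowers z) := by
    obtain ⟨g, hg⟩ : ∃ g, g ∉ Subgroup.zpowers z := by
      by_contra h
      push Not at h
      exact hNtop ((Subgroup.eq_top_iff' _).2 h)
    exact ⟨⟨QuotientGroup.mk g, 1, fun h => hg ((QuotientGroup.eq_one_iff g).1 h)⟩⟩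
  have hQp : IsPGroup p (R ⧸ Subgroup.zpowers z) := hR.to_quotient _
  obtain ⟨xb, hxbc, hxb1⟩ := exists_center_ne_one hQp
  obtain ⟨x, rfl⟩ := QuotientGroup.mk_surjective xb
  have hxN : x ∉ Subgroup.zpowers z := fun h => hxb1 ((QuotientGroup.eq_one_iff x).2 h)
  have hcomm : ∀ g : R, g * x * g⁻¹ * x⁻¹ ∈ Subgroup.zpowers z := by
    intro g
    rw [← QuotientGroup.eq_one_iff]
    have h1 := Subgroup.mem_center_iff.1 hxbc (QuotientGroup.mk g)
    simp only [QuotientGroup.mk_mul, QuotientGroup.mk_inv]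
    rw [h1]
    group
  have hcard := card_le_of_comm_hom _ hNc x hcomm
  have hzx : z * x = x * z := (Subgroup.mem_center_iff.1 hzc x).symm
  have hA'comm : IsMulCommutative (Subgroup.closure ({z, x} : Set R)) := by
    apply Subgroup.isMulCommutative_closure
    rintro a (rfl | rfl) b (rfl | rfl)
    · rfl
    · exact hzx
    · exact hzx.symm
    · rfl
  have hNA : Subgroup.zpowers z < Subgroup.closure ({z, x} : Set R) := by
    refine lt_of_le_of_ne ?_ ?_
    · rw [Subgroup.zpowers_le]
      exact Subgroup.subset_closure (by simp)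
    · intro h
      apply hxN
      rw [h]
      exact Subgroup.subset_closure (by simp)
  have hC : Subgroup.centralizer ({x} : Set R) ≤ Subgroup.closure ({z, x} : Set R) := by
    intro c hc
    by_contra hcA
    have hxc : x * c = c * x := (Subgroup.mem_centralizer_iff.1 hc) x (Set.mem_singleton x)
    have hzc' : z * c = c * z := (Subgroup.mem_center_iff.1 hzc c).symm
    have hBcomm : IsMulCommutative (Subgroup.closure ({z, x, c} : Set R)) := by
      apply Subgroup.isMulCommutative_closure
      rintro a (rfl | rfl | rfl) b (rfl | rfl | rfl)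
      · rfl
      · exact hzx
      · exact hzc'
      · exact hzx.symm
      · rfl
      · exact hxc
      · exact hzc'.symm
      · exact hxc.symm
      · rfl
    have hAB : Subgroup.closure ({z, x} : Set R) < Subgroup.closure ({z, x, c} : Set R) := by
      refine lt_of_le_of_ne ?_ ?_
      · apply Subgroup.closure_mono
        intro y hy
        rcases hy with rfl | rfl
        · simp
        · simp
      · intro h
        apply hcA
        rw [h]
        exact Subgroup.subset_closure (by simp)
    obtain ⟨k, hk⟩ := IsPGroup.iff_card.1 (hR.to_subgroup (Subgroup.closure ({z, x} : Set R)))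
    obtain ⟨l, hl⟩ := IsPGroup.iff_card.1 (hR.to_subgroup (Subgroup.closure ({z, x, c} : Set R)))
    have h1 := card_lt_of_lt hNA
    have h2 := card_lt_of_lt hAB
    rw [hNcard, hk] at h1
    rw [hk, hl] at h2
    have h3 : 1 < k := by
      have : p ^ 1 < p ^ k := by rwa [pow_one]
      exact (Nat.pow_lt_pow_iff_right hp.one_lt).1 this
    have h4 : k < l := (Nat.pow_lt_pow_iff_right hp.one_lt).1 h2
    have h5 := hrank' _ hBcomm
    rw [hl] at h5
    have h6 : l ≤ 2 := (Nat.pow_le_pow_iff_right hp.one_lt).1 h5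
    omega
  have h7 := (Subgroup.card_le_of_le hC).trans (hrank' _ hA'comm)
  calc Nat.card R ≤ Nat.card (Subgroup.centralizer ({x} : Set R)) * Nat.card (Subgroup.zpowers z) := hcard
    _ ≤ p ^ 2 * p := by rw [hNcard]; exact Nat.mul_le_mul_right _ h7
    _ = p ^ 3 := by ring

end Cfsg.Agent.S3771
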