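import Cfsg.Statements.S3772
import Mathlib
import Cfsg.Agent.Lib.Helper6.InvCount2
import Cfsg.Agent.S0012
import Cfsg.Agent.S0013
import Cfsg.Agent.S0187

set_option autoImplicit false
open Cfsg

namespace Cfsg.Agent.S3772

open Cfsg.Agent.Lib.Helper6
open scoped commutatorElement

/-- Let G be a finite 2-group whose Frattini subgroup Φ(G) has order 2, with |G : Φ(G)| = 2^d, and let j be the number of elements x of G with x² = 1. Then j = 2^d, or j = 2^d + 2^(d−r) or j = 2^d − 2^(d−r) for some positive integer r with 2r ≤ d. Moreover if d = 2r and j is 2^d + 2^r or 2^d − 2^r, then G is extraspecial. -/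
theorem result {G : Type*} [Group G] [Finite G] (hG : IsPGroup 2 G) (hΦ : Nat.card (frattini G) = 2) (d : ℕ) (hd : (frattini G).index = 2 ^ d) : (Nat.card {x : G // x ^ 2 = 1} = 2 ^ d ∨ ∃ r : ℕ, 1 ≤ r ∧ 2 * r ≤ d ∧ (Nat.card {x : G // x ^ 2 = 1} = 2 ^ d + 2 ^ (d - r) ∨ Nat.card {x : G // x ^ 2 = 1} + 2 ^ (d - r) = 2 ^ d)) ∧ (∀ r : ℕ, d = 2 * r → (Nat.card {x : G // x ^ 2 = 1} = 2 ^ d + 2 ^ r ∨ Nat.card {x : G // x ^ 2 = 1} + 2 ^ r = 2 ^ d) → Cfsg.IsExtraspecial 2 G) := by
  classical
  haveI : Fintype G := Fintype.ofFinite G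
  obtain ⟨hcomm, hsqΦ⟩ := Cfsg.Agent.S0012.result 2 hG
  have hcardG : Nat.card G = 2 ^ (d + 1) := by
    rw [← Subgroup.card_mul_index (frattini G), hΦ, hd, pow_succ, mul_comm]
  obtain ⟨z, hzΦ, hz1, hzall⟩ : ∃ z ∈ frattini G, z ≠ 1 ∧ ∀ w ∈ frattini G, w = 1 ∨ w = z := by
    obtain ⟨y, hy1, hyu⟩ := (Nat.card_eq_two_iff' (1 : frattini G)).mp hΦ
    refine ⟨y.1, y.2, fun h => hy1 (Subtype.ext h), ?_⟩
    intro w hw
    by_cases hw1 : w = 1
    · exact Or.inl hw1
    · right
      have h2 := hyu ⟨w, hw⟩ (fun h => hw1 (congrArg Subtype.val h))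
      exact congrArg Subtype.val h2
  have hzc : z ∈ Subgroup.center G := by
    rw [Subgroup.mem_center_iff]
    intro g
    have h1 : g * z * g⁻¹ ∈ frattini G :=
      (inferInstance : (frattini G).Normal).conj_mem z hzΦ g
    rcases hzall _ h1 with h | h
    · exfalso
      apply hz1
      have h2 : z = g⁻¹ * (g * z * g⁻¹) * g := by group
      rw [h2, h]
      group
    · calc g * z = (g * z * g⁻¹) * g := by group
        _ = z * g := by rw [h]
  have hzz : z * z = 1 := by
    rcases hzall _ (mul_mem hzΦ hzΦ) with h | h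
    · exact h
    · exfalso
      apply hz1
      exact mul_left_cancel (h.trans (mul_one z).symm)
  have hsq : ∀ s : G, s * s = 1 ∨ s * s = z := by
    intro s
    apply hzall
    have h1 := hsqΦ s
    rwa [pow_two] at h1
  have hcm : ∀ g h : G, g * h * g⁻¹ * h⁻¹ = 1 ∨ g * h * g⁻¹ * h⁻¹ = z := by
    intro g h
    apply hzall
    apply hcomm
    rw [commutator_def]
    exact Subgroup.commutator_mem_commutator (Subgroup.mem_top g) (Subgroup.mem_top h)
  have hΦZ : frattini G ≤ Subgroup.center G := by
    intro w hw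
    rcases hzall w hw with h | h
    · rw [h]; exact one_mem _
    · rw [h]; exact hzc
  have hjeq : Nat.card {x : G // x ^ 2 = 1} = Nat.card {s : G // s * s = 1} := by
    simp only [pow_two]
  rw [hjeq]
  obtain ⟨j, hj⟩ : ∃ j : ℕ, j = Nat.card {s : G // s * s = 1} := ⟨_, rfl⟩
  rw [← hj]
  have F : ((∀ a b : G, a * b = b * a) ∧ j = 2 ^ d) ∨
      (∃ (r : ℕ) (ν : ℤ), 1 ≤ r ∧ 2 * r ≤ d ∧ (ν = 0 ∨ ν = 1 ∨ ν = -1) ∧
        (2 : ℤ) ^ r * ((j : ℤ) - 2 ^ d) = ν * 2 ^ d ∧
        Nat.card (Subgroup.center G) * 4 ^ r ≤ 2 ^ (d + 1) ∧ commutator G = frattini G) := by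
    by_cases hab : ∀ a b : G, a * b = b * a
    · left
      refine ⟨hab, ?_⟩
      have hmm : ∀ a b : G, (a * b) * (a * b) = (a * a) * (b * b) := by
        intro a b
        calc (a * b) * (a * b) = a * (b * a) * b := by group
          _ = a * (a * b) * b := by rw [hab b a]
          _ = (a * a) * (b * b) := by group
      have hex : ∃ s₀ : G, s₀ * s₀ = z := by
        by_contra hno
        push_neg at hno
        have hall : ∀ s : G, s * s = 1 := fun s => (hsq s).resolve_right (hno s)
        have hΦbot : frattini G ≤ ⊥ := by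
          apply Cfsg.Agent.S0013.result 2 hG ⊥
          · rw [commutator_def]
            apply Subgroup.commutator_le.mpr
            intro a _ b _
            rw [Subgroup.mem_bot, commutatorElement_eq_one_iff_commute]
            exact hab a b
          · intro x
            rw [Subgroup.mem_bot, pow_two]
            exact hall x
        exact hz1 (Subgroup.mem_bot.mp (hΦbot hzΦ))
      obtain ⟨s₀, hs₀⟩ := hex
      have h1 : (Finset.univ.filter (fun s : G => s * s = 1)).card =
          (Finset.univ.filter (fun s : G => ¬ s * s = 1)).card := by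
        apply Finset.card_bij (fun s _ => s * s₀)
        · intro s hs
          rw [Finset.mem_filter] at hs ⊢
          refine ⟨Finset.mem_univ _, ?_⟩
          rw [hmm, hs.2, hs₀, one_mul]
          exact hz1
        · intro a _ b _ h
          exact mul_right_cancel h
        · intro t ht
          rw [Finset.mem_filter] at ht
          refine ⟨t * s₀⁻¹, ?_, by group⟩
          rw [Finset.mem_filter]
          refine ⟨Finset.mem_univ _, ?_⟩
          have htz : t * t = z := (hsq t).resolve_left ht.2
          rw [hmm, htz, ← mul_inv_rev, hs₀, mul_inv_cancel]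
      have h2 := Finset.card_filter_add_card_filter_not (s := (Finset.univ : Finset G))
        (fun s : G => s * s = 1)
      rw [← h1, Finset.card_univ, ← Nat.card_eq_fintype_card, hcardG] at h2
      have h3 : j = (Finset.univ.filter (fun s : G => s * s = 1)).card := by
        rw [hj]
        exact Nat.subtype_card _ (by simp)
      rw [h3]
      rw [pow_succ] at h2
      omega
    · right
      have hnl : ∃ χ : Cfsg.IrrCharacter G, (χ : G → ℂ) 1 ≠ 1 := by
        by_contra hno
        push_neg at hno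
        exact hab (Cfsg.Agent.S0187.result.mpr hno)
      obtain ⟨⟨χ, n, ρ, hirr, rfl⟩, hχ1⟩ := hnl
      haveI : ρ.IsIrreducible := hirr
      have hfr : Module.finrank ℂ (Fin n → ℂ) = n := by simp
      have hchar1 : ρ.character 1 = (n : ℂ) := by
        rw [Representation.char_one, hfr]
      have hn1 : n ≠ 1 := by
        rintro rfl
        apply hχ1
        simpa using hchar1
      have hdvd : n ∣ Nat.card G := by
        have h1 := Cfsg.Agent.Lib.Helper3.CharInt.degree_dvd_card ρ
        rwa [hfr] at h1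
      rw [hcardG] at hdvd
      obtain ⟨r, hr, rfl⟩ := (Nat.dvd_prime_pow Nat.prime_two).mp hdvd
      have hr1 : 1 ≤ r := by
        by_contra h0
        apply hn1
        have h00 : r = 0 := by omega
        rw [h00]
        rfl
      have hz' := InvCount2.central_inv_char ρ z hzc hzz hcm hn1
      have hsum := InvCount2.indicator_eq ρ.character z (2 ^ r) hchar1 hz' hsq
      have hν := (Cfsg.Agent.S0158.result ρ).1
      rw [hsum, ← hj, hcardG] at hν
      have hcenter := InvCount2.center_card_mul_sq_le ρ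
      rw [hcardG] at hcenter
      have hne : (((2 ^ (d + 1) : ℕ) : ℂ)) ≠ 0 := by exact_mod_cast (by positivity : (2 ^ (d + 1) : ℕ) ≠ 0)
      have hkey : ∃ ν : ℤ, (ν = 0 ∨ ν = 1 ∨ ν = -1) ∧
          (2 : ℤ) ^ r * ((j : ℤ) - 2 ^ d) = ν * 2 ^ d := by
        have e : (2 : ℤ) ^ (d + 1) = 2 * 2 ^ d := by ring
        rcases hν with h | h | h
        · refine ⟨0, Or.inl rfl, ?_⟩
          rw [inv_mul_eq_iff_eq_mul₀ hne] at h
          have h2 : (2 : ℤ) ^ r * (2 * (j : ℤ) - 2 ^ (d + 1)) = 2 ^ (d + 1) * 0 := by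
            exact_mod_cast h
          rw [e] at h2
          linarith
        · refine ⟨1, Or.inr (Or.inl rfl), ?_⟩
          rw [inv_mul_eq_iff_eq_mul₀ hne] at h
          have h2 : (2 : ℤ) ^ r * (2 * (j : ℤ) - 2 ^ (d + 1)) = 2 ^ (d + 1) * 1 := by
            exact_mod_cast h
          rw [e] at h2
          linarith
        · refine ⟨-1, Or.inr (Or.inr rfl), ?_⟩
          rw [inv_mul_eq_iff_eq_mul₀ hne] at h
          have h2 : (2 : ℤ) ^ r * (2 * (j : ℤ) - 2 ^ (d + 1)) = 2 ^ (d + 1) * (-1) := by
            exact_mod_cast h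
          rw [e] at h2
          linarith
      obtain ⟨ν, hν3, heq⟩ := hkey
      have h2Z : 2 ≤ Nat.card (Subgroup.center G) := by
        rw [← hΦ]
        exact Subgroup.card_le_of_le hΦZ
      refine ⟨r, ν, hr1, ?_, hν3, heq, ?_, ?_⟩
      · have h3 : 2 * (2 ^ r) ^ 2 ≤ 2 ^ (d + 1) := le_trans (Nat.mul_le_mul_right _ h2Z) hcenter
        rw [← pow_mul, ← pow_succ'] at h3
        have h4 := (Nat.pow_le_pow_iff_right (by norm_num : 1 < 2)).mp h3
        omega
      · have h3 : (4 : ℕ) ^ r = (2 ^ r) ^ 2 := by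
          rw [← pow_mul, mul_comm, pow_mul]
          norm_num
        rw [h3]
        exact hcenter
      · apply Subgroup.eq_of_le_of_card_ge hcomm
        rw [hΦ]
        have h3 : commutator G ≠ ⊥ := by
          intro hbot
          apply hab
          intro a b
          have h4 : ⁅a, b⁆ ∈ commutator G := by
            rw [commutator_def]
            exact Subgroup.commutator_mem_commutator (Subgroup.mem_top a) (Subgroup.mem_top b)
          rw [hbot, Subgroup.mem_bot, commutatorElement_eq_one_iff_commute] at h4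
          exact h4
        have h5 := (Subgroup.one_lt_card_iff_ne_bot _).mpr h3
        omega
  constructor
  · rcases F with ⟨_, hj2⟩ | ⟨r, ν, hr1, hr2, hν, heq, _, _⟩
    · left; exact hj2
    · have hpr : (0 : ℤ) < 2 ^ r := by positivity
      have hd' : (2 : ℤ) ^ d = 2 ^ r * 2 ^ (d - r) := by
        rw [← pow_add]
        congr 1
        omega
      rcases hν with rfl | rfl | rfl
      · left
        rw [zero_mul] at heq
        have h1 : (j : ℤ) - 2 ^ d = 0 := by
          rcases mul_eq_zero.mp heq with h | h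
          · exact absurd h hpr.ne'
          · exact h
        have h2 : (j : ℤ) = 2 ^ d := by linarith
        exact_mod_cast h2
      · right
        refine ⟨r, hr1, hr2, Or.inl ?_⟩
        have h2 : (2 : ℤ) ^ r * ((j : ℤ) - 2 ^ d) = 2 ^ r * 2 ^ (d - r) := by
          rw [heq, one_mul]
          exact hd'
        have h3 := mul_left_cancel₀ hpr.ne' h2
        have h4 : (j : ℤ) = 2 ^ d + 2 ^ (d - r) := by linarith
        exact_mod_cast h4
      · right
        refine ⟨r, hr1, hr2, Or.inr ?_⟩
        have h2 : (2 : ℤ) ^ r * ((j : ℤ) - 2 ^ d) = 2 ^ r * (-2 ^ (d - r)) := by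
          rw [heq, mul_neg, ← hd']
          ring
        have h3 := mul_left_cancel₀ hpr.ne' h2
        have h4 : (j : ℤ) + 2 ^ (d - r) = 2 ^ d := by linarith
        exact_mod_cast h4
  · intro r₀ hd2 hj2
    rcases F with ⟨_, hjd⟩ | ⟨r, ν, hr1, hr2, hν, heq, hcen, hcomΦ⟩
    · exfalso
      have h1 : 0 < 2 ^ r₀ := by positivity
      rcases hj2 with h | h <;> omega
    · have hjz : ((j : ℤ) - 2 ^ d = 2 ^ r₀) ∨ ((j : ℤ) - 2 ^ d = -2 ^ r₀) := by
        rcases hj2 with h | h
        · left
          have h1 : (j : ℤ) = 2 ^ d + 2 ^ r₀ := by exact_mod_cast h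
          linarith
        · right
          have h1 : (j : ℤ) + 2 ^ r₀ = 2 ^ d := by exact_mod_cast h
          linarith
      have hpos : (0 : ℤ) < 2 ^ r * 2 ^ r₀ := by positivity
      have hposd : (0 : ℤ) < 2 ^ d := by positivity
      have habs : (2 : ℤ) ^ r * 2 ^ r₀ = 2 ^ d := by
        rcases hjz with h | h <;> rcases hν with rfl | rfl | rfl <;> rw [h] at heq <;> linarith
      have hrr : r + r₀ = d := by
        have h1 : (2 : ℤ) ^ (r + r₀) = 2 ^ d := by rw [pow_add]; exact habs
        have h2 : (2 : ℕ) ^ (r + r₀) = 2 ^ d := by exact_mod_cast h1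
        exact Nat.pow_right_injective (le_refl 2) h2
      have hr : r = r₀ := by omega
      have hZ2 : Nat.card (Subgroup.center G) ≤ 2 := by
        have h1 : (4 : ℕ) ^ r = 2 ^ d := by
          rw [hd2, ← hr, pow_mul]
          norm_num
        rw [h1, pow_succ] at hcen
        have h2 : 0 < 2 ^ d := by positivity
        by_contra h3
        push_neg at h3
        have h4 : 3 * 2 ^ d ≤ Nat.card (Subgroup.center G) * 2 ^ d := Nat.mul_le_mul_right _ h3
        omega
      have hfc : frattini G = Subgroup.center G :=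
        Subgroup.eq_of_le_of_card_ge hΦZ (by rw [hΦ]; exact hZ2)
      exact ⟨⟨hG, hfc, hcomΦ.trans hfc⟩, by rw [← hfc]; exact hΦ⟩

end Cfsg.Agent.S3772
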