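import Cfsg.Statements.S3774
import Mathlib

set_option autoImplicit false
open Cfsg

namespace Cfsg.Agent.S3774

theorem inv_central {G : Type*} [Group G] [Finite G] [Nontrivial G] (hG : IsPGroup 2 G)
    (htrans : ∀ x y : G, x ≠ 1 → x ^ 2 = 1 → y ≠ 1 → y ^ 2 = 1 → ∃ a : MulAut G, a x = y) :
    (∃ z : G, z ≠ 1 ∧ z ^ 2 = 1) ∧ (∀ x : G, x ^ 2 = 1 → x ∈ Subgroup.center G) := by
  haveI : Fact (Nat.Prime 2) := ⟨Nat.prime_two⟩
  haveI := hG.center_nontrivial
  obtain ⟨⟨z, hz⟩, hz1⟩ := exists_ne (1 : Subgroup.center G)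
  have hz1' : z ≠ 1 := fun h => hz1 (Subtype.ext h)
  obtain ⟨k, hk⟩ := hG z
  classical
  have hex : ∃ k, z ^ (2 ^ k) = 1 := ⟨k, hk⟩
  have hk₀spec : z ^ (2 ^ (Nat.find hex)) = 1 := Nat.find_spec hex
  have hk₀pos : Nat.find hex ≠ 0 := by
    intro h
    rw [h] at hk₀spec
    simp at hk₀spec
    exact hz1' hk₀spec
  obtain ⟨j, hj⟩ := Nat.exists_eq_succ_of_ne_zero hk₀pos
  have hz₀ne : z ^ (2 ^ j) ≠ 1 := Nat.find_min hex (m := j) (by omega)
  have hz₀sq : (z ^ (2 ^ j)) ^ 2 = 1 := by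
    rw [← pow_mul, ← pow_succ, ← Nat.succ_eq_add_one, ← hj]; exact hk₀spec
  have hz₀c : z ^ (2 ^ j) ∈ Subgroup.center G := Subgroup.pow_mem _ hz _
  refine ⟨⟨_, hz₀ne, hz₀sq⟩, ?_⟩
  intro x hx
  by_cases hx1 : x = 1
  · rw [hx1]; exact Subgroup.one_mem _
  obtain ⟨a, ha⟩ := htrans _ x hz₀ne hz₀sq hx1 hx
  rw [Subgroup.mem_center_iff]
  intro g
  rw [Subgroup.mem_center_iff] at hz₀c
  have := congrArg a (hz₀c (a.symm g))
  simpa [ha] using this

theorem half_sq {G : Type*} [Group G] (hG : IsPGroup 2 G) (g : G) :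
    (g ^ (orderOf g / 2)) ^ 2 = 1 := by
  obtain ⟨k, hk⟩ := IsPGroup.iff_orderOf.mp hG g
  rcases Nat.eq_zero_or_pos k with rfl | hk0
  · simp at hk
    simp [hk]
  · obtain ⟨j, rfl⟩ := Nat.exists_eq_succ_of_ne_zero hk0.ne'
    rw [← pow_mul, hk, pow_succ, Nat.mul_div_cancel _ (by norm_num), ← pow_succ, ← hk]
    exact pow_orderOf_eq_one g

theorem half_eq_one {G : Type*} [Group G] (hG : IsPGroup 2 G) (g : G) :
    g ^ (orderOf g / 2) = 1 ↔ g = 1 := by
  constructor
  · intro h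
    by_contra hg
    obtain ⟨k, hk⟩ := IsPGroup.iff_orderOf.mp hG g
    rcases Nat.eq_zero_or_pos k with rfl | hk0
    · simp at hk
      exact hg hk
    · obtain ⟨j, rfl⟩ := Nat.exists_eq_succ_of_ne_zero hk0.ne'
      have h2 : orderOf g / 2 = 2 ^ j := by
        rw [hk, pow_succ, Nat.mul_div_cancel _ (by norm_num)]
      have hlt : orderOf g / 2 < orderOf g := by
        rw [h2, hk, pow_succ]
        have : 0 < 2 ^ j := by positivity
        omega
      have hne : orderOf g / 2 ≠ 0 := by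
        rw [h2]; positivity
      exact pow_ne_one_of_lt_orderOf hne hlt h
  · rintro rfl
    simp

theorem count {G : Type*} [Group G] [Finite G] (hG : IsPGroup 2 G)
    (htrans : ∀ x y : G, x ≠ 1 → x ^ 2 = 1 → y ≠ 1 → y ^ 2 = 1 → ∃ a : MulAut G, a x = y)
    (z₀ : G) (hz₀ : z₀ ≠ 1) (hz₀2 : z₀ ^ 2 = 1) :
    ∃ c : ℕ, Nat.card G + c = Nat.card {z : G // z ^ 2 = 1} * c + 1 := by
  classical
  let ι : G → {z : G // z ^ 2 = 1} := fun g => ⟨g ^ (orderOf g / 2), half_sq hG g⟩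
  have hι : ∀ (a : MulAut G) (g : G), (ι (a g)).1 = a (ι g).1 := by
    intro a g
    show (a g) ^ (orderOf (a g) / 2) = a (g ^ (orderOf g / 2))
    rw [MulEquiv.orderOf_eq, map_pow]
  haveI : Fintype {z : G // z ^ 2 = 1} := Fintype.ofFinite _
  have h1 : Nat.card G = ∑ t : {z : G // z ^ 2 = 1}, Nat.card {g : G // ι g = t} := by
    rw [← Nat.card_sigma]
    exact Nat.card_congr (Equiv.sigmaFiberEquiv ι).symm
  refine ⟨Nat.card {g : G // ι g = ⟨z₀, hz₀2⟩}, ?_⟩
  set c := Nat.card {g : G // ι g = ⟨z₀, hz₀2⟩} with hc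
  have hone : (⟨1, one_pow 2⟩ : {z : G // z ^ 2 = 1}) ∈ (Finset.univ : Finset {z : G // z ^ 2 = 1}) :=
    Finset.mem_univ _
  have h2 : ∀ t : {z : G // z ^ 2 = 1},
      Nat.card {g : G // ι g = t} + (if t = ⟨1, one_pow 2⟩ then c else 0)
        = c + (if t = ⟨1, one_pow 2⟩ then 1 else 0) := by
    intro t
    by_cases ht : t = ⟨1, one_pow 2⟩
    · rw [if_pos ht, if_pos ht, ht]
      have : Nat.card {g : G // ι g = ⟨1, one_pow 2⟩} = 1 := by
        rw [Nat.card_eq_one_iff_unique]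
        refine ⟨⟨?_⟩, ⟨⟨1, ?_⟩⟩⟩
        · rintro ⟨a, ha⟩ ⟨b, hb⟩
          have ha' : a = 1 := (half_eq_one hG a).mp (congrArg Subtype.val ha)
          have hb' : b = 1 := (half_eq_one hG b).mp (congrArg Subtype.val hb)
          exact Subtype.ext (ha'.trans hb'.symm)
        · exact Subtype.ext ((half_eq_one hG 1).mpr rfl)
      rw [this, add_comm]
    · rw [if_neg ht, if_neg ht, add_zero, add_zero]
      have ht1 : t.1 ≠ 1 := fun h => ht (Subtype.ext h)
      obtain ⟨a, ha⟩ := htrans z₀ t.1 hz₀ hz₀2 ht1 t.2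
      symm
      refine Nat.card_congr (Equiv.subtypeEquiv a.toEquiv ?_)
      intro g
      constructor
      · intro h
        apply Subtype.ext
        have := hι a g
        rw [h] at this
        exact this.trans ha
      · intro h
        apply Subtype.ext
        have h3 := hι a g
        have h4 : (ι (a g)).1 = t.1 := congrArg Subtype.val h
        rw [h4, ← ha] at h3
        exact (a.injective h3).symm
  have h3 := Finset.sum_congr (s₁ := Finset.univ) rfl (fun t _ => h2 t)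
  rw [Finset.sum_add_distrib, Finset.sum_add_distrib, Finset.sum_ite_eq' _ _ (fun _ => c),
    Finset.sum_ite_eq' _ _ (fun _ => 1), if_pos hone, if_pos hone, Finset.sum_const,
    Finset.card_univ, smul_eq_mul, ← h1, ← Nat.card_eq_fintype_card] at h3
  exact h3

theorem numth (n N c : ℕ) (hn : n ≠ 0) (h : 2 ^ N + c = 2 ^ n * c + 1) : n ∣ N := by
  have ha : 1 ≤ 2 ^ n := Nat.one_le_two_pow
  have hb : 1 ≤ 2 ^ N := Nat.one_le_two_pow
  have hdvd : (2 ^ n - 1) ∣ (2 ^ N - 1) := by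
    refine Dvd.intro c ?_
    rw [Nat.sub_mul, one_mul]
    omega
  have hg := Nat.gcd_eq_left hdvd
  rw [Nat.pow_sub_one_gcd_pow_sub_one] at hg
  have hg1 : 1 ≤ 2 ^ (Nat.gcd n N) := Nat.one_le_two_pow
  have hg2 : 2 ^ (Nat.gcd n N) = 2 ^ n := by omega
  have hg3 : Nat.gcd n N = n := Nat.pow_right_injective (le_refl 2) hg2
  rw [← hg3]
  exact Nat.gcd_dvd_right n N

/-- Let G be a nontrivial finite 2-group whose automorphism group permutes the involutions of G transitively. Then every involution of G is central, so that the involutions together with 1 form the subgroup Ω₁(Z(G)), and if this subgroup has order q then |G| is a power of q. -/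
theorem result {G : Type*} [Group G] [Finite G] [Nontrivial G] (hG : IsPGroup 2 G) (htrans : ∀ x y : G, x ≠ 1 → x ^ 2 = 1 → y ≠ 1 → y ^ 2 = 1 → ∃ a : MulAut G, a x = y) : (∀ x : G, x ^ 2 = 1 → x ∈ Subgroup.center G) ∧ ∃ m : ℕ, Nat.card G = Nat.card {z : G // z ^ 2 = 1} ^ m := by
  obtain ⟨⟨z₀, hz₀, hz₀2⟩, hcen⟩ := inv_central hG htrans
  refine ⟨hcen, ?_⟩
  obtain ⟨c, hc⟩ := count hG htrans z₀ hz₀ hz₀2
  let T : Subgroup G :=
    { carrier := {z | z ^ 2 = 1}
      mul_mem' := by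
        intro a b ha hb
        have hac := Subgroup.mem_center_iff.mp (hcen a ha)
        show (a * b) ^ 2 = 1
        have ha' : a ^ 2 = 1 := ha
        have hb' : b ^ 2 = 1 := hb
        rw [pow_two] at ha' hb' ⊢
        calc a * b * (a * b) = a * (b * a) * b := by group
          _ = a * (a * b) * b := by rw [hac b]
          _ = (a * a) * (b * b) := by group
          _ = 1 := by rw [ha', hb', one_mul]
      one_mem' := one_pow 2
      inv_mem' := by
        intro a ha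
        show (a⁻¹) ^ 2 = 1
        have ha' : a ^ 2 = 1 := ha
        rw [inv_pow, ha', inv_one] }
  have hT : IsPGroup 2 T := hG.to_subgroup T
  obtain ⟨n, hn⟩ := IsPGroup.iff_card.mp hT
  obtain ⟨N, hN⟩ := IsPGroup.iff_card.mp hG
  have hn' : Nat.card {z : G // z ^ 2 = 1} = 2 ^ n := hn
  have hn0 : n ≠ 0 := by
    rintro rfl
    rw [pow_zero, Nat.card_eq_one_iff_unique] at hn'
    obtain ⟨hs, _⟩ := hn'
    have := hs.elim ⟨z₀, hz₀2⟩ ⟨1, one_pow 2⟩
    exact hz₀ (congrArg Subtype.val this)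
  rw [hn', hN] at hc
  obtain ⟨m, rfl⟩ := numth n N c hn0 hc
  exact ⟨m, by rw [hn', hN, pow_mul]⟩

end Cfsg.Agent.S3774
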