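import Mathlib
import Cfsg.Statements.S3778

set_option autoImplicit false
open Pointwise
open Cfsg
open scoped commutatorElement

namespace Cfsg.Agent.S3778

/-- two-step centralizer of `L i / L (i+2)` -/
def tsc (G : Type*) [Group G] (i : ℕ) : Subgroup G where
  carrier := {x | ∀ y ∈ (⊤ : Subgroup G).lowerCentralSeries i,
    ⁅x, y⁆ ∈ (⊤ : Subgroup G).lowerCentralSeries (i + 2)}
  one_mem' := by
    intro y _
    rw [commutatorElement_one_left]
    exact Subgroup.one_mem _
  mul_mem' := by
    intro a b ha hb y hy
    have h : ⁅a * b, y⁆ = a * ⁅b, y⁆ * a⁻¹ * ⁅a, y⁆ := by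
      simp only [commutatorElement_def]; group
    rw [h]
    exact Subgroup.mul_mem _ (Subgroup.Normal.conj_mem inferInstance _ (hb y hy) a) (ha y hy)
  inv_mem' := by
    intro a ha y hy
    have h : ⁅a⁻¹, y⁆ = a⁻¹ * ⁅a, y⁆⁻¹ * a⁻¹⁻¹ := by
      simp only [commutatorElement_def]; group
    rw [h]
    exact Subgroup.Normal.conj_mem inferInstance _ (Subgroup.inv_mem _ (ha y hy)) a⁻¹

theorem mem_tsc {G : Type*} [Group G] (i : ℕ) (x : G) :
    x ∈ tsc G i ↔ ∀ y ∈ (⊤ : Subgroup G).lowerCentralSeries i,
      ⁅x, y⁆ ∈ (⊤ : Subgroup G).lowerCentralSeries (i + 2) := Iff.rfl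

theorem card_proper {G : Type*} [Group G] [Finite G] {p : ℕ} [Fact p.Prime] (hG : IsPGroup p G)
    (H : Subgroup G) (hH : H ≠ ⊤) : p * Nat.card H ≤ Nat.card G := by
  have hp : p.Prime := Fact.out
  obtain ⟨n, hn⟩ := hG.index H
  have h1 : H.index ≠ 1 := fun h => hH (Subgroup.index_eq_one.1 h)
  have hn0 : n ≠ 0 := by rintro rfl; exact h1 (by simpa using hn)
  have h2 : p ≤ H.index := by
    rw [hn]; exact Nat.le_self_pow hn0 p
  have h3 := H.card_mul_index
  calc p * Nat.card H ≤ H.index * Nat.card H := Nat.mul_le_mul_right _ h2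
    _ = Nat.card G := by rw [mul_comm]; exact h3

theorem count_le {G : Type*} [Group G] [Finite G] {p : ℕ} [Fact p.Prime] (hG : IsPGroup p G)
    (x : G) [DecidablePred fun i => x ∉ tsc G i] (k : ℕ) :
    p ^ ((Finset.range k).filter (fun i => x ∉ tsc G i)).card
      ≤ (Subgroup.centralizer ({x} : Set G) ⊔ (⊤ : Subgroup G).lowerCentralSeries k).index := by
  have hp : p.Prime := Fact.out
  induction k with
  | zero => simp
  | succ k ih =>
    have hle : Subgroup.centralizer ({x} : Set G) ⊔ (⊤ : Subgroup G).lowerCentralSeries (k + 1)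
        ≤ Subgroup.centralizer ({x} : Set G) ⊔ (⊤ : Subgroup G).lowerCentralSeries k :=
      sup_le_sup_left (Subgroup.lowerCentralSeries_antitone ⊤ (Nat.le_succ k)) _
    have hrel := Subgroup.relIndex_mul_index hle
    obtain ⟨a, ha⟩ := hG.index
      (Subgroup.centralizer ({x} : Set G) ⊔ (⊤ : Subgroup G).lowerCentralSeries (k + 1))
    set M1 := Subgroup.centralizer ({x} : Set G) ⊔ (⊤ : Subgroup G).lowerCentralSeries (k + 1)
      with hM1
    set M0 := Subgroup.centralizer ({x} : Set G) ⊔ (⊤ : Subgroup G).lowerCentralSeries k with hM0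
    have hpos : 0 < M1.relIndex M0 := by
      rcases Nat.eq_zero_or_pos (M1.relIndex M0) with h | h
      · rw [h, zero_mul] at hrel
        exact absurd hrel.symm Subgroup.index_ne_zero_of_finite
      · exact h
    by_cases hx : x ∈ tsc G k
    · rw [Finset.range_add_one, Finset.filter_insert, if_neg (not_not.2 hx)]
      refine le_trans ih ?_
      rw [← hrel]
      exact Nat.le_mul_of_pos_left _ hpos
    · rw [Finset.range_add_one, Finset.filter_insert, if_pos hx,
        Finset.card_insert_of_notMem (by simp), pow_succ]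
      rw [mem_tsc] at hx
      push Not at hx
      obtain ⟨y, hy, hxy⟩ := hx
      have hne : ¬ (M0 ≤ M1) := by
        intro hcon
        have hyM : y ∈ M1 := hcon (Subgroup.mem_sup_right hy)
        rw [hM1, Subgroup.mem_sup_of_normal_right] at hyM
        obtain ⟨c, hc, w, hw, rfl⟩ := hyM
        apply hxy
        have hcx : x * c = c * x := by
          rw [Subgroup.mem_centralizer_iff] at hc
          exact hc x rfl
        have h : ⁅x, c * w⁆ = c * ⁅x, w⁆ * c⁻¹ := by
          simp only [commutatorElement_def]
          have : x * (c * w) = c * (x * w) := by rw [← mul_assoc, hcx, mul_assoc]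
          rw [this]; group
        rw [h]
        apply Subgroup.Normal.conj_mem inferInstance
        have h2 : ⁅w, x⁆ ∈ ⁅(⊤ : Subgroup G).lowerCentralSeries (k + 1), (⊤ : Subgroup G)⁆ :=
          Subgroup.commutator_mem_commutator hw (Subgroup.mem_top x)
        rw [← commutatorElement_inv]
        exact Subgroup.inv_mem _ h2
      have h1 : M1.relIndex M0 ≠ 1 := fun h => hne (Subgroup.relIndex_eq_one.1 h)
      have hdvd : M1.relIndex M0 ∣ p ^ a := by rw [← ha, ← hrel]; exact Dvd.intro _ rfl
      obtain ⟨j, -, hj⟩ := (Nat.dvd_prime_pow hp).1 hdvd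
      have hj0 : j ≠ 0 := by rintro rfl; exact h1 (by simpa using hj)
      have hpr : p ≤ M1.relIndex M0 := by rw [hj]; exact Nat.le_self_pow hj0 p
      rw [← hrel]
      calc p ^ _ * p ≤ M0.index * M1.relIndex M0 := Nat.mul_le_mul ih hpr
        _ = M1.relIndex M0 * M0.index := mul_comm _ _

/-- If G is a finite p-group in which every conjugacy class has at most p^b elements (every element has centralizer of index at most p^b), then G is abelian when b = 0, and when b ≥ 1 its nilpotency class c satisfies (c − 1)(p − 1) < bp, that is c < bp/(p − 1) + 1, and hence c ≤ 2b. -/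
theorem result {G : Type*} [Group G] [Finite G] {p : ℕ} [Fact p.Prime] (hG : IsPGroup p G) (b : ℕ) (hb : ∀ x : G, (Subgroup.centralizer ({x} : Set G)).index ≤ p ^ b) : ∃ c : ℕ, (⊤ : Subgroup G).lowerCentralSeries c = ⊥ ∧ (b ≠ 0 → (c - 1) * (p - 1) < b * p ∧ c ≤ 2 * b) ∧ (b = 0 → c ≤ 1) := by
  classical
  have hp : p.Prime := Fact.out
  haveI : Group.IsNilpotent G := hG.isNilpotent
  have hex := nilpotent_iff_lowerCentralSeries.1 (inferInstance : Group.IsNilpotent G)
  have hc : (⊤ : Subgroup G).lowerCentralSeries (Nat.find hex) = ⊥ := Nat.find_spec hex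
  have hmin : ∀ j, j < Nat.find hex → (⊤ : Subgroup G).lowerCentralSeries j ≠ ⊥ :=
    fun j hj => Nat.find_min hex hj
  generalize Nat.find hex = c at hc hmin
  refine ⟨c, hc, ?_, ?_⟩
  · intro hb0
    have hstrict : ∀ j, j < c → (⊤ : Subgroup G).lowerCentralSeries (j + 1)
        ≠ (⊤ : Subgroup G).lowerCentralSeries j := by
      intro j hj heq
      have hall : ∀ k, (⊤ : Subgroup G).lowerCentralSeries (j + k)
          = (⊤ : Subgroup G).lowerCentralSeries j := by
        intro k
        induction k with
        | zero => rfl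
        | succ k ih =>
          rw [← add_assoc, Subgroup.lowerCentralSeries_succ, ih,
            ← Subgroup.lowerCentralSeries_succ, heq]
      have := hall (c - j)
      rw [Nat.add_sub_cancel' hj.le, hc] at this
      exact hmin j hj this.symm
    have hprop : ∀ i, i + 1 < c → tsc G i ≠ ⊤ := by
      intro i hi htop
      apply hstrict (i + 1) hi
      apply le_antisymm (Subgroup.lowerCentralSeries_antitone ⊤ (Nat.le_succ _))
      rw [Subgroup.lowerCentralSeries_succ ⊤ i, Subgroup.commutator_le]
      intro y hy x _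
      have hx : x ∈ tsc G i := htop ▸ Subgroup.mem_top x
      rw [← commutatorElement_inv]
      exact Subgroup.inv_mem _ (hx y hy)
    have hcnt : ∀ x : G, ((Finset.range (c - 1)).filter (fun i => x ∉ tsc G i)).card ≤ b := by
      intro x
      have h1 := count_le hG x (c - 1)
      have h2 : (Subgroup.centralizer ({x} : Set G)
          ⊔ (⊤ : Subgroup G).lowerCentralSeries (c - 1)).index
          ≤ (Subgroup.centralizer ({x} : Set G)).index :=
        Nat.le_of_dvd (Nat.pos_of_ne_zero Subgroup.index_ne_zero_of_finite)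
          (Subgroup.index_dvd_of_le le_sup_left)
      exact (Nat.pow_le_pow_iff_right hp.one_lt).1 (le_trans h1 (le_trans h2 (hb x)))
    haveI := Fintype.ofFinite G
    have hN : Nat.card G = Fintype.card G := Nat.card_eq_fintype_card
    have hsum1 : ∑ x : G, ((Finset.range (c - 1)).filter (fun i => x ∉ tsc G i)).card
        = ∑ i ∈ Finset.range (c - 1), (Finset.univ.filter (fun x : G => x ∉ tsc G i)).card := by
      simp only [Finset.card_filter]
      exact Finset.sum_comm
    have hterm : ∀ i ∈ Finset.range (c - 1),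
        (p - 1) * Nat.card G ≤ p * (Finset.univ.filter (fun x : G => x ∉ tsc G i)).card := by
      intro i hi
      have hi' : i + 1 < c := by have := Finset.mem_range.1 hi; omega
      have h1 := card_proper hG (tsc G i) (hprop i hi')
      have h2 : (Finset.univ.filter (fun x : G => x ∈ tsc G i)).card
          + (Finset.univ.filter (fun x : G => x ∉ tsc G i)).card = Fintype.card G := by
        rw [Finset.card_filter_add_card_filter_not]; rfl
      have h3 : Nat.card (tsc G i) = (Finset.univ.filter (fun x : G => x ∈ tsc G i)).card := by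
        rw [Nat.card_eq_fintype_card, Fintype.card_subtype]
      rw [h3] at h1
      rw [hN] at h1 ⊢
      obtain ⟨p', rfl⟩ : ∃ p', p = p' + 1 := ⟨p - 1, by have := hp.pos; omega⟩
      simp only [Nat.add_sub_cancel]
      nlinarith
    have hsum2 : (c - 1) * ((p - 1) * Nat.card G)
        ≤ p * ∑ x : G, ((Finset.range (c - 1)).filter (fun i => x ∉ tsc G i)).card := by
      rw [hsum1, Finset.mul_sum]
      calc (c - 1) * ((p - 1) * Nat.card G)
          = ∑ i ∈ Finset.range (c - 1), (p - 1) * Nat.card G := by
            rw [Finset.sum_const, Finset.card_range, smul_eq_mul]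
        _ ≤ _ := Finset.sum_le_sum hterm
    have hsum3 : ∑ x : G, ((Finset.range (c - 1)).filter (fun i => x ∉ tsc G i)).card
        ≤ (Nat.card G - 1) * b := by
      rw [← Finset.add_sum_erase Finset.univ _ (Finset.mem_univ (1 : G))]
      have h0 : ((Finset.range (c - 1)).filter (fun i => (1 : G) ∉ tsc G i)).card = 0 := by
        rw [Finset.card_eq_zero, Finset.filter_eq_empty_iff]
        intro i _ h
        exact h (Subgroup.one_mem _)
      rw [h0, zero_add]
      have := Finset.sum_le_card_nsmul (Finset.univ.erase (1 : G))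
        (fun x => ((Finset.range (c - 1)).filter (fun i => x ∉ tsc G i)).card) b
        (fun x _ => hcnt x)
      rw [Finset.card_erase_of_mem (Finset.mem_univ _), Finset.card_univ, smul_eq_mul, ← hN] at this
      exact this
    have hNpos : 0 < Nat.card G := Nat.card_pos
    have hmain : (c - 1) * (p - 1) < b * p := by
      have h4 : (c - 1) * ((p - 1) * Nat.card G) ≤ p * ((Nat.card G - 1) * b) :=
        le_trans hsum2 (Nat.mul_le_mul_left _ hsum3)
      have h5 : p * ((Nat.card G - 1) * b) < b * p * Nat.card G := by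
        have hbp : 0 < b * p := Nat.mul_pos (Nat.pos_of_ne_zero hb0) hp.pos
        have hlt : Nat.card G - 1 < Nat.card G := by omega
        calc p * ((Nat.card G - 1) * b) = b * p * (Nat.card G - 1) := by ring
          _ < b * p * Nat.card G := Nat.mul_lt_mul_of_pos_left hlt hbp
      have h6 : (c - 1) * (p - 1) * Nat.card G < b * p * Nat.card G := by
        rw [mul_assoc]; exact lt_of_le_of_lt h4 h5
      exact Nat.lt_of_mul_lt_mul_right h6
    refine ⟨hmain, ?_⟩
    by_contra hcon
    push Not at hcon
    have h2b : 2 * b ≤ c - 1 := by omega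
    obtain ⟨p', rfl⟩ : ∃ p', p = p' + 2 := ⟨p - 2, by have := hp.two_le; omega⟩
    have hp1 : (p' + 2 - 1) = p' + 1 := by omega
    rw [hp1] at hmain
    nlinarith
  · intro hb0
    subst hb0
    have hL1 : (⊤ : Subgroup G).lowerCentralSeries 1 = ⊥ := by
      rw [Subgroup.lowerCentralSeries_succ, Subgroup.lowerCentralSeries_zero,
        Subgroup.commutator_eq_bot_iff_le_centralizer]
      intro x _
      rw [Subgroup.mem_centralizer_iff]
      intro y _
      have h1 : (Subgroup.centralizer ({y} : Set G)).index = 1 := by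
        have h := hb y
        have h0 : (Subgroup.centralizer ({y} : Set G)).index ≠ 0 :=
          Subgroup.index_ne_zero_of_finite
        rw [pow_zero] at h
        omega
      have h2 := Subgroup.index_eq_one.1 h1
      have hx : x ∈ Subgroup.centralizer ({y} : Set G) := h2 ▸ Subgroup.mem_top x
      rw [Subgroup.mem_centralizer_iff] at hx
      exact hx y rfl
    by_contra hcon
    push Not at hcon
    exact hmin 1 hcon hL1

end Cfsg.Agent.S3778
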