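import Cfsg.Statements.S3780
import Mathlib

set_option autoImplicit false
open Cfsg

namespace Cfsg.Agent.S3780

theorem card_ker_comp_le {A : Type*} [AddCommGroup A] [Finite A] (f g : A →+ A) :
    Nat.card (f.comp g).ker ≤ Nat.card g.ker * Nat.card f.ker := by
  let ψ : (f.comp g).ker →+ f.ker :=
    AddMonoidHom.codRestrict (g.comp (f.comp g).ker.subtype) f.ker (fun x => x.2)
  have h1 := ψ.ker.card_mul_index
  rw [AddSubgroup.index_ker] at h1
  have h2 : Nat.card ψ.ker ≤ Nat.card g.ker := by
    apply Nat.card_le_card_of_injective (fun x : ψ.ker => (⟨x.1.1, by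
      have h3 := x.2
      rw [AddMonoidHom.mem_ker] at h3
      have h4 := congrArg Subtype.val h3
      exact h4⟩ : g.ker))
    intro x y hxy
    apply Subtype.ext
    apply Subtype.ext
    have h5 := congrArg (fun z : g.ker => (z : A)) hxy
    exact h5
  have h3 : Nat.card ψ.range ≤ Nat.card f.ker :=
    Nat.card_le_card_of_injective Subtype.val Subtype.val_injective
  rw [← h1]
  exact Nat.mul_le_mul h2 h3

theorem card_le_of_pow_eq_zero {A : Type*} [AddCommGroup A] [Finite A] (d : AddMonoid.End A)
    (p : ℕ) (h : d ^ p = 0) : Nat.card A ≤ Nat.card (AddMonoidHom.ker d) ^ p := by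
  have hK0 : Nat.card (AddMonoidHom.ker (1 : AddMonoid.End A)) = 1 := by
    have h0 : AddMonoidHom.ker (1 : AddMonoid.End A) = ⊥ := by
      ext x
      constructor
      · intro hx
        have h' : (1 : AddMonoid.End A) x = 0 := AddMonoidHom.mem_ker.mp hx
        exact AddSubgroup.mem_bot.mpr h'
      · intro hx
        have h' : (1 : AddMonoid.End A) x = 0 := AddSubgroup.mem_bot.mp hx
        exact AddMonoidHom.mem_ker.mpr h'
    rw [h0, AddSubgroup.card_bot]
  have key : ∀ i : ℕ, ∀ e : AddMonoid.End A, e = d ^ i →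
      Nat.card (AddMonoidHom.ker e) ≤ Nat.card (AddMonoidHom.ker d) ^ i := by
    intro i
    induction i with
    | zero =>
      intro e he
      rw [pow_zero] at he
      subst he
      rw [hK0, pow_zero]
    | succ i ih =>
      intro e he
      obtain ⟨f, hf⟩ : ∃ f : AddMonoid.End A, f = d ^ i := ⟨_, rfl⟩
      rw [pow_succ, ← hf] at he
      subst he
      have h1 := card_ker_comp_le f d
      have h2 := ih f hf
      rw [pow_succ']
      exact h1.trans (Nat.mul_le_mul_left _ h2)
  have h2 := key p 0 h.symm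
  have h3 : AddMonoidHom.ker (0 : AddMonoid.End A) = ⊤ := AddMonoidHom.ker_zero
  rw [h3, AddSubgroup.card_top] at h2
  exact h2

theorem sub_one_pow_eq_zero {B : Type*} [AddCommGroup B] {p : ℕ} (hp : p.Prime)
    (hB : ∀ x : B, p • x = 0) (a : AddMonoid.End B) (ha : a ^ p = 1) : (a - 1) ^ p = 0 := by
  have hp0 : (p : AddMonoid.End B) = 0 := by
    ext x
    rw [AddMonoid.End.natCast_apply]
    exact hB x
  obtain ⟨r, hr⟩ := Commute.exists_add_pow_prime_eq hp (Commute.neg_one_right a)
  rw [sub_eq_add_neg, hr, ha, hp0, zero_mul, zero_mul, zero_mul, add_zero]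
  rcases hp.eq_two_or_odd' with rfl | hodd
  · rw [neg_one_sq]
    have h2 : (1 : AddMonoid.End B) + 1 = ((2 : ℕ) : AddMonoid.End B) := by norm_num
    rw [h2, hp0]
  · rw [hodd.neg_one_pow, add_neg_cancel]

theorem exists_gen_of_index {V : Type*} [CommGroup V] [Finite V] {p : ℕ} (hp : p.Prime) (k : ℕ) :
    ∀ H : Subgroup V, H.index ∣ p ^ k →
      ∃ S : Finset V, S.card ≤ k ∧ H ⊔ Subgroup.closure (S : Set V) = ⊤ := by
  classical
  induction k with
  | zero =>
    intro H hH
    refine ⟨∅, le_rfl, ?_⟩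
    rw [pow_zero, Nat.dvd_one, Subgroup.index_eq_one] at hH
    rw [hH]; simp
  | succ k ih =>
    intro H hH
    by_cases hHt : H = ⊤
    · exact ⟨∅, Nat.zero_le _, by rw [hHt]; simp⟩
    · obtain ⟨s, hs⟩ : ∃ s, s ∉ H := by
        by_contra h
        push Not at h
        exact hHt (eq_top_iff.mpr fun x _ => h x)
      have hle : H ≤ H ⊔ Subgroup.zpowers s := le_sup_left
      have hrel : H.relIndex (H ⊔ Subgroup.zpowers s) * (H ⊔ Subgroup.zpowers s).index = H.index :=
        Subgroup.relIndex_mul_index hle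
      have hrel1 : H.relIndex (H ⊔ Subgroup.zpowers s) ≠ 1 := by
        intro h
        rw [Subgroup.relIndex_eq_one] at h
        exact hs (h (Subgroup.mem_sup_right (Subgroup.mem_zpowers s)))
      have hpdvd : p ∣ H.relIndex (H ⊔ Subgroup.zpowers s) := by
        have h1 : H.relIndex (H ⊔ Subgroup.zpowers s) ∣ p ^ (k + 1) := (Dvd.intro _ hrel).trans hH
        obtain ⟨j, hj, hj'⟩ := (Nat.dvd_prime_pow hp).mp h1
        rw [hj']
        apply dvd_pow_self
        rintro rfl
        exact hrel1 (by rw [hj', pow_zero])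
      have hidx : (H ⊔ Subgroup.zpowers s).index ∣ p ^ k := by
        obtain ⟨c, hc⟩ := hpdvd
        rw [hc, mul_assoc] at hrel
        have h2 : p * (c * (H ⊔ Subgroup.zpowers s).index) ∣ p * p ^ k := by
          rw [hrel, ← pow_succ']; exact hH
        have h3 := Nat.dvd_of_mul_dvd_mul_left hp.pos h2
        exact (Dvd.intro_left _ rfl).trans h3
      obtain ⟨S, hS, hS'⟩ := ih _ hidx
      refine ⟨insert s S, (Finset.card_insert_le s S).trans (by omega), ?_⟩
      rw [Finset.coe_insert, Set.insert_eq, Subgroup.closure_union, ← Subgroup.zpowers_eq_closure,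
        ← sup_assoc]
      exact hS'

theorem closure_eq_top_of_sup {V : Type*} [CommGroup V] [Finite V] {p : ℕ} [Fact p.Prime]
    (hV : IsPGroup p V) (L : Subgroup V)
    (h : (powMonoidHom p : V →* V).range ⊔ L = ⊤) : L = ⊤ := by
  have key : ∀ k : ℕ, ∀ v : V, ∃ w : V, ∃ l ∈ L, v = w ^ (p ^ k) * l := by
    intro k
    induction k with
    | zero => intro v; exact ⟨v, 1, L.one_mem, by simp⟩
    | succ k ih =>
      intro v
      obtain ⟨w, l, hl, rfl⟩ := ih v
      have hw : w ∈ (powMonoidHom p : V →* V).range ⊔ L := h ▸ Subgroup.mem_top w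
      obtain ⟨y, ⟨u, rfl⟩, l', hl', rfl⟩ := Subgroup.mem_sup.mp hw
      refine ⟨u, l' ^ (p ^ k) * l, L.mul_mem (L.pow_mem hl' _) hl, ?_⟩
      rw [powMonoidHom_apply, mul_pow, ← pow_mul, ← pow_succ', mul_assoc]
  obtain ⟨N, hN⟩ := IsPGroup.iff_card.mp hV
  rw [eq_top_iff]
  intro v _
  obtain ⟨w, l, hl, rfl⟩ := key N v
  have h1 : w ^ (p ^ N) = 1 := by rw [← hN]; exact pow_card_eq_one'
  rw [h1, one_mul]; exact hl

theorem exists_gen {V : Type*} [CommGroup V] [Finite V] {p : ℕ} [Fact p.Prime]
    (hV : IsPGroup p V) (d : ℕ) (hd : Nat.card (powMonoidHom p : V →* V).ker ∣ p ^ d) :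
    ∃ S : Finset V, S.card ≤ d ∧ Subgroup.closure (S : Set V) = ⊤ := by
  have hidx : (powMonoidHom p : V →* V).range.index = Nat.card (powMonoidHom p : V →* V).ker := by
    have h1 := (powMonoidHom p : V →* V).ker.card_mul_index
    rw [Subgroup.index_ker] at h1
    have h2 := (powMonoidHom p : V →* V).range.card_mul_index
    have hpos : 0 < Nat.card (powMonoidHom p : V →* V).range := Nat.card_pos
    exact Nat.eq_of_mul_eq_mul_left hpos (by rw [h2, mul_comm, h1])
  obtain ⟨S, hS, hS'⟩ := exists_gen_of_index (Fact.out : p.Prime) d _ (hidx ▸ hd)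
  exact ⟨S, hS, closure_eq_top_of_sup hV _ hS'⟩

theorem omega_card_le {V : Type*} [CommGroup V] [Finite V] {p : ℕ} [Fact p.Prime] (α : MulAut V)
    (hα : α ^ p = 1) :
    Nat.card (powMonoidHom p : V →* V).ker ≤ Nat.card {v : V // α v = v} ^ p := by
  have hp : p.Prime := Fact.out
  have hmem : ∀ v : V, v ∈ (powMonoidHom p : V →* V).ker ↔ v ^ p = 1 := fun v => by
    rw [MonoidHom.mem_ker, powMonoidHom_apply]
  let αΩ : (powMonoidHom p : V →* V).ker →* (powMonoidHom p : V →* V).ker :=
    { toFun := fun v => ⟨α v.1, (hmem _).mpr (by rw [← map_pow, (hmem _).mp v.2, map_one])⟩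
      map_one' := Subtype.ext (map_one α)
      map_mul' := fun x y => Subtype.ext (map_mul α x.1 y.1) }
  let a : AddMonoid.End (Additive (powMonoidHom p : V →* V).ker) := MonoidHom.toAdditive αΩ
  have hB : ∀ x : Additive (powMonoidHom p : V →* V).ker, p • x = 0 := by
    intro x
    have h1 : (Additive.toMul x) ^ p = 1 := Subtype.ext ((hmem _).mp (Additive.toMul x).2)
    exact congrArg Additive.ofMul h1
  have hpow : ∀ (k : ℕ) (x : Additive (powMonoidHom p : V →* V).ker),
      ((Additive.toMul ((a ^ k) x) : (powMonoidHom p : V →* V).ker) : V) =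
        (α ^ k) ((Additive.toMul x : (powMonoidHom p : V →* V).ker) : V) := by
    intro k
    induction k with
    | zero => intro x; rfl
    | succ k ih =>
      intro x
      rw [pow_succ', pow_succ']
      show α ((Additive.toMul ((a ^ k) x) : (powMonoidHom p : V →* V).ker) : V) = α ((α ^ k) _)
      rw [ih]
  have ha : a ^ p = 1 := by
    apply AddMonoidHom.ext
    intro x
    have h1 := hpow p x
    rw [hα] at h1
    exact Additive.toMul.injective (Subtype.ext h1)
  have hd := sub_one_pow_eq_zero hp hB a ha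
  have h1 := card_le_of_pow_eq_zero (a - 1) p hd
  have h2 : Nat.card (AddMonoidHom.ker (a - 1)) ≤ Nat.card {v : V // α v = v} := by
    apply Nat.card_le_card_of_injective (fun x : AddMonoidHom.ker (a - 1) =>
      (⟨((Additive.toMul x.1 : (powMonoidHom p : V →* V).ker) : V), by
        have h3 : (a - 1) x.1 = 0 := AddMonoidHom.mem_ker.mp x.2
        have h4 : a x.1 = x.1 := by
          have h5 : a x.1 - x.1 = 0 := h3
          exact sub_eq_zero.mp h5
        have h6 := congrArg
          (fun y : Additive (powMonoidHom p : V →* V).ker =>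
            ((Additive.toMul y : (powMonoidHom p : V →* V).ker) : V)) h4
        exact h6⟩ : {v : V // α v = v}))
    intro x y hxy
    have h7 := congrArg Subtype.val hxy
    apply Subtype.ext
    exact Additive.toMul.injective (Subtype.ext h7)
  calc Nat.card (powMonoidHom p : V →* V).ker
      = Nat.card (Additive (powMonoidHom p : V →* V).ker) := rfl
    _ ≤ Nat.card (AddMonoidHom.ker (a - 1)) ^ p := h1
    _ ≤ _ := Nat.pow_le_pow_left h2 p

/-- Let V be a finite abelian p-group and α an automorphism of V of order p whose fixed-point subgroup has order p^n. Then V can be generated by pn elements: some subset of V with at most pn elements generates V. -/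
theorem result {V : Type*} [CommGroup V] [Finite V] {p : ℕ} [Fact p.Prime] (hV : IsPGroup p V) (α : MulAut V) (hα : orderOf α = p) (n : ℕ) (hfix : Nat.card {v : V // α v = v} = p ^ n) : ∃ S : Finset V, S.card ≤ p * n ∧ Subgroup.closure (S : Set V) = ⊤ := by
  have hp : p.Prime := Fact.out
  have hαp : α ^ p = 1 := by rw [← hα]; exact pow_orderOf_eq_one α
  have h1 := omega_card_le α hαp
  rw [hfix] at h1
  have hΩ : IsPGroup p (powMonoidHom p : V →* V).ker := hV.to_subgroup _
  obtain ⟨d, hd⟩ := IsPGroup.iff_card.mp hΩ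
  rw [hd, ← pow_mul] at h1
  have hle : d ≤ n * p := (Nat.pow_le_pow_iff_right hp.one_lt).mp h1
  obtain ⟨S, hS, hS'⟩ := exists_gen hV (p * n)
    (by rw [hd]; exact pow_dvd_pow p (by rw [mul_comm]; exact hle))
  exact ⟨S, hS, hS'⟩

end Cfsg.Agent.S3780
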