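import Mathlib
import Cfsg.Statements.S3781
import Cfsg.Agent.Lib.Helper2.Sub

set_option autoImplicit false
open Pointwise
open Cfsg
open scoped commutatorElement

namespace Cfsg.Agent.S3781

open Cfsg.Agent.Lib.Helper2

theorem three_sub {G : Type*} [Group G] (L A B C : Subgroup G) [L.Normal]
    (h1 : ⁅⁅B, C⁆, A⁆ ≤ L) (h2 : ⁅⁅C, A⁆, B⁆ ≤ L) : ⁅⁅A, B⁆, C⁆ ≤ L := by
  have key : ∀ X : Subgroup G, X ≤ L ↔ X.map (QuotientGroup.mk' L) = ⊥ := by
    intro X
    rw [Subgroup.map_eq_bot_iff, QuotientGroup.ker_mk']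
  rw [key] at h1 h2 ⊢
  rw [Subgroup.map_commutator, Subgroup.map_commutator] at h1 h2 ⊢
  exact Subgroup.commutator_commutator_eq_bot_of_rotate h1 h2

def cg {G : Type*} [Group G] (X : Subgroup G) : ℕ → Subgroup G
  | 0 => X
  | j + 1 => ⁅cg X j, ⊤⁆

theorem cg_zero {G : Type*} [Group G] (X : Subgroup G) : cg X 0 = X := rfl

theorem cg_succ {G : Type*} [Group G] (X : Subgroup G) (j : ℕ) :
    cg X (j + 1) = ⁅cg X j, ⊤⁆ := rfl

theorem cg_normal {G : Type*} [Group G] (X : Subgroup G) [hX : X.Normal] :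
    ∀ j, (cg X j).Normal
  | 0 => hX
  | j + 1 => by
    haveI := cg_normal X j
    rw [cg_succ]; infer_instance

theorem cg_mono {G : Type*} [Group G] {X Y : Subgroup G} (h : X ≤ Y) : ∀ j, cg X j ≤ cg Y j
  | 0 => h
  | j + 1 => Subgroup.commutator_mono (cg_mono h j) le_rfl

theorem cg_le_lcs {G : Type*} [Group G] (X : Subgroup G) :
    ∀ j, cg X j ≤ (⊤ : Subgroup G).lowerCentralSeries j
  | 0 => le_top
  | j + 1 => Subgroup.commutator_mono (cg_le_lcs X j) le_rfl

theorem cg_shift {G : Type*} [Group G] (X : Subgroup G) : ∀ j, cg X (j + 1) = cg ⁅X, ⊤⁆ j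
  | 0 => rfl
  | j + 1 => by rw [cg_succ, cg_shift X j, ← cg_succ]

theorem cg_map {G : Type*} {Q : Type*} [Group G] [Group Q] (f : G →* Q)
    (hf : Function.Surjective f) (X : Subgroup G) : ∀ j, (cg X j).map f = cg (X.map f) j
  | 0 => rfl
  | j + 1 => by
    rw [cg_succ, Subgroup.map_commutator, cg_map f hf X j, cg_succ,
      Subgroup.map_top_of_surjective f hf]

theorem cg_le {G : Type*} [Group G] (X : Subgroup G) [X.Normal] : ∀ j, cg X j ≤ X
  | 0 => le_rfl
  | j + 1 => by
    haveI := cg_normal X j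
    exact (Subgroup.commutator_le_left (cg X j) ⊤).trans (cg_le X j)

theorem lcs_normal {G : Type*} [Group G] (N : Subgroup G) [hN : N.Normal] :
    ∀ j, (N.lowerCentralSeries j).Normal
  | 0 => hN
  | j + 1 => by
    haveI := lcs_normal N j
    rw [Subgroup.lowerCentralSeries_succ]; infer_instance

theorem stab {G : Type*} [Group G] (M : Subgroup G) [M.Normal] :
    ∀ j t, ⁅cg M t, (⊤ : Subgroup G).lowerCentralSeries j⁆ ≤ cg M (t + j + 1)
  | 0, t => le_of_eq rfl
  | j + 1, t => by
    haveI : (cg M (t + (j + 1) + 1)).Normal := cg_normal M _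
    rw [Subgroup.lowerCentralSeries_succ,
      Subgroup.commutator_comm (cg M t) ⁅(⊤ : Subgroup G).lowerCentralSeries j, ⊤⁆]
    apply three_sub
    · rw [Subgroup.commutator_comm ⊤ (cg M t), ← cg_succ]
      have h := stab M j (t + 1)
      have e : t + 1 + j + 1 = t + (j + 1) + 1 := by ring
      rw [e] at h; exact h
    · have h := stab M j t
      exact Subgroup.commutator_mono h (le_refl (⊤ : Subgroup G))

theorem cg_bot_of_card {Q : Type*} [Group Q] [Finite Q] {p : ℕ} [hp : Fact p.Prime]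
    (hQ : IsPGroup p Q) :
    ∀ k : ℕ, ∀ Y : Subgroup Q, Y.Normal → Nat.card Y ≤ p ^ k → cg Y k = ⊥ := by
  haveI : Group.IsNilpotent Q := hQ.isNilpotent
  obtain ⟨c, hc⟩ := nilpotent_iff_lowerCentralSeries.1 (inferInstance : Group.IsNilpotent Q)
  intro k
  induction k with
  | zero =>
    intro Y _ hcard
    rw [pow_zero] at hcard
    have h1 : Nat.card Y = 1 := le_antisymm hcard Nat.card_pos
    exact Subgroup.card_eq_one.1 h1
  | succ k ih =>
    intro Y hY hcard
    by_cases hbot : Y = ⊥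
    · rw [hbot]
      exact le_bot_iff.1 (cg_le ⊥ (k + 1))
    · haveI := hY
      rw [cg_shift]
      apply ih ⁅Y, (⊤ : Subgroup Q)⁆ inferInstance
      have hne : ⁅Y, (⊤ : Subgroup Q)⁆ ≠ Y := by
        intro heq
        have hall : ∀ j, cg Y j = Y := by
          intro j
          induction j with
          | zero => rfl
          | succ j ihj => rw [cg_succ, ihj, heq]
        apply hbot
        have h2 := cg_le_lcs Y c
        rw [hall c, hc] at h2
        exact le_bot_iff.1 h2
      have hlt : Nat.card (⁅Y, (⊤ : Subgroup Q)⁆ : Subgroup Q) < Nat.card Y :=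
        Sub.card_lt_of_ne (Subgroup.commutator_le_left Y ⊤) hne
      obtain ⟨a, ha⟩ := (hQ.to_subgroup Y).exists_card_eq
      obtain ⟨b, hb⟩ := (hQ.to_subgroup ⁅Y, (⊤ : Subgroup Q)⁆).exists_card_eq
      rw [ha] at hcard hlt
      rw [hb] at hlt ⊢
      have h3 : b < a := (Nat.pow_lt_pow_iff_right hp.out.one_lt).1 hlt
      have h4 : a ≤ k + 1 := (Nat.pow_le_pow_iff_right hp.out.one_lt).1 hcard
      exact Nat.pow_le_pow_right hp.out.pos (by omega)

/-- Let G be a finite p-group and n ≥ 1, and write γ_1(G) = G, γ_{k+1}(G) = [γ_k(G), G], and likewise γ_k(N) for a subgroup N. Let N be a normal subgroup of G contained in γ_n(G). If i > 1 and γ_{i+1}(N) ≠ 1, then |γ_i(N) : γ_{i+1}(N)| ≥ p^n. -/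
theorem result {G : Type*} [Group G] [Finite G] {p : ℕ} [Fact p.Prime] (hG : IsPGroup p G) (n : ℕ) (hn : 1 ≤ n) (N : Subgroup G) [N.Normal] (hN : N ≤ (⊤ : Subgroup G).lowerCentralSeries (n - 1)) (i : ℕ) (hi : 1 < i) (hne : N.lowerCentralSeries i ≠ ⊥) : p ^ n ≤ (N.lowerCentralSeries i).relIndex (N.lowerCentralSeries (i - 1)) := by
  have hp : p.Prime := Fact.out
  haveI : Group.IsNilpotent G := hG.isNilpotent
  obtain ⟨c, hc⟩ := nilpotent_iff_lowerCentralSeries.1 (inferInstance : Group.IsNilpotent G)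
  obtain ⟨i', rfl⟩ : ∃ i', i = i' + 1 := ⟨i - 1, by omega⟩
  rw [Nat.add_sub_cancel]
  haveI hMn : (N.lowerCentralSeries i').Normal := lcs_normal N i'
  haveI hM'n : (N.lowerCentralSeries (i' + 1)).Normal := lcs_normal N (i' + 1)
  by_contra hcon
  push Not at hcon
  have hsurj : Function.Surjective (QuotientGroup.mk' (N.lowerCentralSeries (i' + 1))) :=
    QuotientGroup.mk'_surjective _
  have hQ : IsPGroup p (G ⧸ N.lowerCentralSeries (i' + 1)) := hG.to_quotient _
  have hcardY : Nat.card ((N.lowerCentralSeries i').map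
      (QuotientGroup.mk' (N.lowerCentralSeries (i' + 1))))
      = (N.lowerCentralSeries (i' + 1)).relIndex (N.lowerCentralSeries i') := by
    have h1 := Subgroup.index_ker ((QuotientGroup.mk' (N.lowerCentralSeries (i' + 1))).comp
      (N.lowerCentralSeries i').subtype)
    have h2 : ((QuotientGroup.mk' (N.lowerCentralSeries (i' + 1))).comp
        (N.lowerCentralSeries i').subtype).ker
        = (N.lowerCentralSeries (i' + 1)).subgroupOf (N.lowerCentralSeries i') := by
      rw [← MonoidHom.comap_ker, QuotientGroup.ker_mk']; rfl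
    have h3 : ((QuotientGroup.mk' (N.lowerCentralSeries (i' + 1))).comp
        (N.lowerCentralSeries i').subtype).range
        = (N.lowerCentralSeries i').map (QuotientGroup.mk' (N.lowerCentralSeries (i' + 1))) := by
      rw [MonoidHom.range_comp, Subgroup.range_subtype]
    rw [h2, h3] at h1
    exact h1.symm
  obtain ⟨a, ha⟩ := (hQ.to_subgroup ((N.lowerCentralSeries i').map
      (QuotientGroup.mk' (N.lowerCentralSeries (i' + 1))))).exists_card_eq
  have hYle : Nat.card ((N.lowerCentralSeries i').map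
      (QuotientGroup.mk' (N.lowerCentralSeries (i' + 1)))) ≤ p ^ (n - 1) := by
    rw [ha]
    rw [hcardY] at ha
    rw [ha] at hcon
    have h4 : a < n := (Nat.pow_lt_pow_iff_right hp.one_lt).1 hcon
    exact Nat.pow_le_pow_right hp.pos (by omega)
  haveI : ((N.lowerCentralSeries i').map
      (QuotientGroup.mk' (N.lowerCentralSeries (i' + 1)))).Normal :=
    Subgroup.Normal.map hMn _ hsurj
  have hB := cg_bot_of_card hQ (n - 1) _ (inferInstance : ((N.lowerCentralSeries i').map
      (QuotientGroup.mk' (N.lowerCentralSeries (i' + 1)))).Normal) hYle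
  rw [← cg_map _ hsurj] at hB
  have hB' : cg (N.lowerCentralSeries i') (n - 1) ≤ N.lowerCentralSeries (i' + 1) := by
    rw [Subgroup.map_eq_bot_iff, QuotientGroup.ker_mk'] at hB; exact hB
  have hA := stab (N.lowerCentralSeries i') (n - 1) 0
  have h5 : N.lowerCentralSeries (i' + 1) ≤ ⁅N.lowerCentralSeries (i' + 1), (⊤ : Subgroup G)⁆ := by
    calc N.lowerCentralSeries (i' + 1) = ⁅N.lowerCentralSeries i', N⁆ := rfl
      _ ≤ ⁅cg (N.lowerCentralSeries i') 0, (⊤ : Subgroup G).lowerCentralSeries (n - 1)⁆ :=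
          Subgroup.commutator_mono le_rfl hN
      _ ≤ cg (N.lowerCentralSeries i') (0 + (n - 1) + 1) := hA
      _ = ⁅cg (N.lowerCentralSeries i') (n - 1), ⊤⁆ := by rw [zero_add, cg_succ]
      _ ≤ ⁅N.lowerCentralSeries (i' + 1), ⊤⁆ := Subgroup.commutator_mono hB' le_rfl
  have h6 : ∀ j, N.lowerCentralSeries (i' + 1) ≤ cg (N.lowerCentralSeries (i' + 1)) j := by
    intro j
    induction j with
    | zero => exact le_rfl
    | succ j ih => exact h5.trans (Subgroup.commutator_mono ih le_rfl)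
  apply hne
  have h7 := (h6 c).trans (cg_le_lcs (N.lowerCentralSeries (i' + 1)) c)
  rw [hc] at h7
  exact le_bot_iff.1 h7

end Cfsg.Agent.S3781
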