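import Cfsg.Statements.S3784
import Mathlib

set_option autoImplicit false
open Cfsg

namespace Cfsg.Agent.S3784

theorem lemU (x : ℤ) (c' : ℕ) (hx : x = 2 ^ (c' + 1) - 1 ∨ x = 2 ^ (c' + 1) + 1) (k : ℕ) :
    (2 ^ (c' + 2) : ℤ) ∣ x ^ (2 * k + 1) - x := by
  have h1 : (2 ^ (c' + 2) : ℤ) ∣ x ^ 2 - 1 := by
    rcases hx with rfl | rfl
    · exact ⟨2 ^ c' - 1, by ring⟩
    · exact ⟨2 ^ c' + 1, by ring⟩
  have h2 : x ^ 2 - 1 ∣ (x ^ 2) ^ k - 1 := by
    have h0 := sub_dvd_pow_sub_pow (x ^ 2) 1 k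
    rwa [one_pow] at h0
  have h3 : x ^ (2 * k + 1) - x = x * ((x ^ 2) ^ k - 1) := by ring
  rw [h3]
  exact Dvd.dvd.mul_left (h1.trans h2) x

theorem no_dvd (c a : ℕ) (hca : c < a) (h : (2 ^ (c + 1) : ℤ) ∣ 2 ^ a - 2 ^ c) : False := by
  have h1 : (2 ^ (c + 1) : ℤ) ∣ 2 ^ a := pow_dvd_pow 2 hca
  have h2 : (2 ^ (c + 1) : ℤ) ∣ 2 ^ c := by
    have h3 := dvd_sub h1 h
    rwa [sub_sub_cancel] at h3
  have h4 := Int.le_of_dvd (by positivity) h2
  have h5 : (2 : ℤ) ^ (c + 1) = 2 * 2 ^ c := by ring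
  have h6 : (0 : ℤ) < 2 ^ c := by positivity
  omega

theorem caseP2 (q a b : ℕ) (hq : q.Prime) (ha : 1 ≤ a) (hb : 1 ≤ b) (hq2 : q ≠ 2)
    (h : 2 ^ a = q ^ b + 1) : b = 1 := by
  have hqodd : q % 2 = 1 := by
    rcases hq.eq_two_or_odd with h2 | h2
    · exact absurd h2 hq2
    · exact h2
  have hq3 : 3 ≤ q := by
    have := hq.two_le
    omega
  by_contra hb1
  have hb2 : 2 ≤ b := by omega
  rcases Nat.even_or_odd' b with ⟨k, hk | hk⟩
  · have hq4 : q ^ 2 % 4 = 1 := by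
      have h4 : q % 4 = 1 ∨ q % 4 = 3 := by omega
      rw [Nat.pow_mod]
      rcases h4 with h4 | h4 <;> rw [h4]
    have hqb : q ^ b % 4 = 1 := by
      rw [hk, pow_mul, Nat.pow_mod, hq4, one_pow]
      norm_num
    have ha1 : a = 1 := by
      by_contra ha1
      have ha2 : 2 ≤ a := by omega
      obtain ⟨d, rfl⟩ : ∃ d, a = d + 2 := ⟨a - 2, by omega⟩
      have h5 : 2 ^ (d + 2) = 4 * 2 ^ d := by ring
      omega
    rw [ha1] at h
    have h6 : 2 ≤ q ^ b := by
      calc 2 ≤ q := hq.two_le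
        _ = q ^ 1 := (pow_one q).symm
        _ ≤ q ^ b := Nat.pow_le_pow_right hq.pos hb
    omega
  · have hbodd : Odd b := ⟨k, hk⟩
    have hdvd : q + 1 ∣ 2 ^ a := by
      have h0 := Odd.nat_add_dvd_pow_add_pow q 1 hbodd
      rwa [one_pow, ← h] at h0
    obtain ⟨c, hca, hc⟩ := (Nat.dvd_prime_pow Nat.prime_two).1 hdvd
    have hc0 : c ≠ 0 := by
      rintro rfl
      rw [pow_zero] at hc
      omega
    obtain ⟨c', rfl⟩ : ∃ c', c = c' + 1 := ⟨c - 1, by omega⟩
    have hxq : (q : ℤ) = 2 ^ (c' + 1) - 1 := by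
      have h0 : ((q + 1 : ℕ) : ℤ) = ((2 ^ (c' + 1) : ℕ) : ℤ) := by rw [hc]
      push_cast at h0
      linarith
    have hU := lemU (q : ℤ) c' (Or.inl hxq) k
    rw [← hk] at hU
    have hqb : (q : ℤ) ^ b = 2 ^ a - 1 := by
      have h0 : ((2 ^ a : ℕ) : ℤ) = ((q ^ b + 1 : ℕ) : ℤ) := by rw [h]
      push_cast at h0
      linarith
    have hU' : (2 ^ (c' + 1 + 1) : ℤ) ∣ 2 ^ a - 2 ^ (c' + 1) := by
      have e : (q : ℤ) ^ b - q = 2 ^ a - 2 ^ (c' + 1) := by rw [hqb, hxq]; ring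
      rw [← e]
      exact hU
    have hac : a ≤ c' + 1 := by
      by_contra hlt
      exact no_dvd (c' + 1) a (by omega) hU'
    have h7 : 2 ^ a ≤ 2 ^ (c' + 1) := Nat.pow_le_pow_right (by norm_num) hac
    have h8 : q ^ 2 ≤ q ^ b := Nat.pow_le_pow_right hq.pos hb2
    have h9 : q ^ 2 = q * q := pow_two q
    have h10 : 3 * q ≤ q * q := Nat.mul_le_mul_right q hq3
    omega

theorem caseQ2 (p a b : ℕ) (hp : p.Prime) (ha : 1 ≤ a) (hb : 1 ≤ b) (hp2 : p ≠ 2)
    (h : p ^ a = 2 ^ b + 1) : a = 1 ∨ (p ^ a = 9 ∧ 2 ^ b = 8) := by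
  have hpodd : p % 2 = 1 := by
    rcases hp.eq_two_or_odd with h2 | h2
    · exact absurd h2 hp2
    · exact h2
  have hp3 : 3 ≤ p := by
    have := hp.two_le
    omega
  by_cases ha1 : a = 1
  · exact Or.inl ha1
  have ha2 : 2 ≤ a := by omega
  rcases Nat.even_or_odd' a with ⟨k, hk | hk⟩
  · right
    have hk1 : 1 ≤ k := by omega
    have hpk : 3 ≤ p ^ k := by
      calc 3 ≤ p := hp3
        _ = p ^ 1 := (pow_one p).symm
        _ ≤ p ^ k := Nat.pow_le_pow_right hp.pos hk1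
    have hfac : (p ^ k - 1) * (p ^ k + 1) = 2 ^ b := by
      have e : p ^ a = p ^ k * p ^ k := by rw [hk, two_mul, pow_add]
      have e2 : (p ^ k - 1) * (p ^ k + 1) + 1 = p ^ k * p ^ k := by
        obtain ⟨m, hm⟩ : ∃ m, p ^ k = m + 1 := ⟨p ^ k - 1, by omega⟩
        rw [hm]
        simp only [Nat.add_sub_cancel]
        ring
      omega
    obtain ⟨i, hib, hi⟩ := (Nat.dvd_prime_pow Nat.prime_two).1 (Dvd.intro _ hfac)
    obtain ⟨j, hjb, hj⟩ := (Nat.dvd_prime_pow Nat.prime_two).1 (Dvd.intro_left _ hfac)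
    have hij : 2 ^ j = 2 ^ i + 2 := by omega
    have hi1 : i = 1 := by
      rcases Nat.lt_or_ge i 2 with hi2 | hi2
      · interval_cases i
        · exfalso
          rw [pow_zero] at hi
          have hpk2 : p ^ k = 2 := by omega
          have hpkodd : p ^ k % 2 = 1 := by
            rw [Nat.pow_mod, hpodd, one_pow]
            norm_num
          omega
        · rfl
      · exfalso
        obtain ⟨i', rfl⟩ : ∃ i', i = i' + 2 := ⟨i - 2, by omega⟩
        have e1 : 2 ^ (i' + 2) = 4 * 2 ^ i' := by ring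
        have hj2 : j < 2 := by
          by_contra hj2
          obtain ⟨j', rfl⟩ : ∃ j', j = j' + 2 := ⟨j - 2, by omega⟩
          have e2 : 2 ^ (j' + 2) = 4 * 2 ^ j' := by ring
          omega
        have hi'pos : 0 < 2 ^ i' := by positivity
        interval_cases j <;> omega
    rw [hi1] at hi
    have hpk3 : p ^ k = 3 := by omega
    have hp3' : p = 3 := by
      have hd : p ∣ 3 := by
        rw [← hpk3]
        exact dvd_pow_self p (by omega)
      exact (Nat.prime_dvd_prime_iff_eq hp Nat.prime_three).1 hd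
    have e : p ^ a = p ^ k * p ^ k := by rw [hk, two_mul, pow_add]
    constructor
    · rw [e, hpk3]
    · rw [e, hpk3] at h
      omega
  · exfalso
    have hdvd : p - 1 ∣ 2 ^ b := by
      have h0 := Nat.sub_dvd_pow_sub_pow (x := p) (y := 1) (n := a)
      rw [one_pow, h, Nat.add_sub_cancel] at h0
      exact h0
    obtain ⟨c, hcb, hc⟩ := (Nat.dvd_prime_pow Nat.prime_two).1 hdvd
    have hc0 : c ≠ 0 := by
      rintro rfl
      rw [pow_zero] at hc
      omega
    obtain ⟨c', rfl⟩ : ∃ c', c = c' + 1 := ⟨c - 1, by omega⟩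
    have hxp : (p : ℤ) = 2 ^ (c' + 1) + 1 := by
      have h0 : ((p - 1 + 1 : ℕ) : ℤ) = ((2 ^ (c' + 1) + 1 : ℕ) : ℤ) := by rw [hc]
      have h1 : p - 1 + 1 = p := by omega
      rw [h1] at h0
      push_cast at h0
      linarith
    have hU := lemU (p : ℤ) c' (Or.inr hxp) k
    rw [← hk] at hU
    have hpa : (p : ℤ) ^ a = 2 ^ b + 1 := by
      have h0 : ((p ^ a : ℕ) : ℤ) = ((2 ^ b + 1 : ℕ) : ℤ) := by rw [h]
      push_cast at h0
      linarith
    have hU' : (2 ^ (c' + 1 + 1) : ℤ) ∣ 2 ^ b - 2 ^ (c' + 1) := by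
      have e : (p : ℤ) ^ a - p = 2 ^ b - 2 ^ (c' + 1) := by rw [hpa, hxp]; ring
      rw [← e]
      exact hU
    have hbc : b ≤ c' + 1 := by
      by_contra hlt
      exact no_dvd (c' + 1) b (by omega) hU'
    have h7 : 2 ^ b ≤ 2 ^ (c' + 1) := Nat.pow_le_pow_right (by norm_num) hbc
    have h8 : p ^ 2 ≤ p ^ a := Nat.pow_le_pow_right hp.pos ha2
    have h9 : p ^ 2 = p * p := pow_two p
    have h10 : 3 * p ≤ p * p := Nat.mul_le_mul_right p hp3
    omega

/-- Let p, q be primes and a, b positive integers with p^a = q^b + 1. Then either p = 2, b = 1, a is prime and q = 2^a − 1; or q = 2, a = 1, b is a power of 2 and p = 2^b + 1; or p^a = 9 and q^b = 8. -/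
theorem result (p q a b : ℕ) (hp : p.Prime) (hq : q.Prime) (ha : 1 ≤ a) (hb : 1 ≤ b) (h : p ^ a = q ^ b + 1) : (p = 2 ∧ b = 1 ∧ a.Prime ∧ q + 1 = 2 ^ a) ∨ (q = 2 ∧ a = 1 ∧ (∃ m : ℕ, b = 2 ^ m) ∧ p = 2 ^ b + 1) ∨ (p ^ a = 9 ∧ q ^ b = 8) := by
  by_cases hp2 : p = 2
  · left
    subst hp2
    have hq2 : q ≠ 2 := by
      rintro rfl
      have h1 : 2 ^ a % 2 = 0 := by
        obtain ⟨a', rfl⟩ : ∃ a', a = a' + 1 := ⟨a - 1, by omega⟩
        rw [pow_succ]
        omega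
      have h2 : 2 ^ b % 2 = 0 := by
        obtain ⟨b', rfl⟩ : ∃ b', b = b' + 1 := ⟨b - 1, by omega⟩
        rw [pow_succ]
        omega
      omega
    have hb1 := caseP2 q a b hq ha hb hq2 h
    subst hb1
    rw [pow_one] at h
    refine ⟨rfl, rfl, ?_, h.symm⟩
    have ha1 : a ≠ 1 := by
      rintro rfl
      have := hq.two_le
      omega
    have hqe : q = 2 ^ a - 1 := by omega
    rw [hqe] at hq
    exact (Nat.prime_of_pow_sub_one_prime ha1 hq).2
  · right
    have hq2 : q = 2 := by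
      by_contra hq2
      have hpodd : p % 2 = 1 := by
        rcases hp.eq_two_or_odd with h2 | h2
        · exact absurd h2 hp2
        · exact h2
      have hqodd : q % 2 = 1 := by
        rcases hq.eq_two_or_odd with h2 | h2
        · exact absurd h2 hq2
        · exact h2
      have h1 : p ^ a % 2 = 1 := by rw [Nat.pow_mod, hpodd, one_pow]; norm_num
      have h2 : q ^ b % 2 = 1 := by rw [Nat.pow_mod, hqodd, one_pow]; norm_num
      omega
    subst hq2
    rcases caseQ2 p a b hp ha hb hp2 h with ha1 | h9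
    · left
      subst ha1
      rw [pow_one] at h
      refine ⟨rfl, rfl, ?_, h⟩
      rw [h] at hp
      exact Nat.pow_of_pow_add_prime (by norm_num) (by omega) hp
    · right
      exact h9

end Cfsg.Agent.S3784
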