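import Cfsg.Statements.S3950
import Mathlib
import Cfsg.Agent.Lib.Helper6.StemCyc
import Cfsg.Agent.Lib.Helper6.Heis2

set_option autoImplicit false
open Cfsg

namespace Cfsg.Agent.S3950

open Cfsg.Agent.Lib.Helper6
open scoped commutatorElement

/-- A finite abelian group has trivial Schur multiplier if and only if it is cyclic. -/
theorem result {G : Type*} [CommGroup G] [Finite G] : Cfsg.HasCyclicSchurMultiplier G 1 ↔ IsCyclic G := by
  classical
  constructor
  · intro hM
    by_contra hG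
    obtain ⟨p, hp, θ, hθ⟩ := Heis2.exists_surj_of_not_cyclic hG
    haveI : NeZero p := ⟨hp.ne_zero⟩
    haveI : Fact (1 < p) := ⟨hp.one_lt⟩
    let H := Heis.Heis p p (dvd_refl p)
    let π₀ : H →* Multiplicative (ZMod p × ZMod p) := Heis.proj p p (dvd_refl p)
    have hπ₀ : Function.Surjective π₀ := (Heis.proj_stem p p (dvd_refl p)).1
    let S : Subgroup (G × H) :=
      (θ.comp (MonoidHom.fst G H)).eqLocus (π₀.comp (MonoidHom.snd G H))
    have hS : ∀ x : G × H, x ∈ S ↔ θ x.1 = π₀ x.2 := fun x => Iff.rfl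
    let σ : ↥S →* G := (MonoidHom.fst G H).comp S.subtype
    have hσ : Cfsg.IsStemExtension σ := by
      refine ⟨?_, ?_, ?_⟩
      · intro g
        obtain ⟨h, hh⟩ := hπ₀ (θ g)
        exact ⟨⟨(g, h), (hS _).2 hh.symm⟩, rfl⟩
      · intro x hx
        have hx1 : (x : G × H).1 = 1 := hx
        have hx2 : (x : G × H).2 ∈ π₀.ker := by
          rw [MonoidHom.mem_ker, ← (hS _).1 x.2, hx1, map_one]
        rw [Subgroup.mem_center_iff]
        intro y
        apply Subtype.ext
        apply Prod.ext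
        · exact mul_comm _ _
        · exact (Heis2.ker_central _ hx2 _).symm
      · intro x hx
        have hx1 : (x : G × H).1 = 1 := hx
        have hx2 : (x : G × H).2 ∈ π₀.ker := by
          rw [MonoidHom.mem_ker, ← (hS _).1 x.2, hx1, map_one]
        have hc := Heis2.ker_comm _ hx2
        obtain ⟨g₁, hg₁⟩ := hθ (π₀ ⟨1, 0, 0⟩)
        obtain ⟨g₂, hg₂⟩ := hθ (π₀ ⟨0, (x : G × H).2.c, 0⟩)
        have e : x = ⁅(⟨(g₁, ⟨1, 0, 0⟩), (hS _).2 hg₁⟩ : ↥S),
            (⟨(g₂, ⟨0, (x : G × H).2.c, 0⟩), (hS _).2 hg₂⟩ : ↥S)⁆ := by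
          apply Subtype.ext
          apply Prod.ext
          · rw [hx1]
            change (1 : G) = ⁅g₁, g₂⁆
            rw [eq_comm, commutatorElement_eq_one_iff_commute]
            exact Commute.all _ _
          · exact hc
        rw [e, commutator_def]
        exact Subgroup.commutator_mem_commutator (Subgroup.mem_top _) (Subgroup.mem_top _)
    obtain ⟨π, hπ⟩ := hM.2 ↥S σ hσ
    have hz : ((1 : G), (⟨0, 0, 1⟩ : H)) ∈ S := by
      rw [hS]
      change θ 1 = π₀ ⟨0, 0, 1⟩
      rw [map_one]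
      exact ((Heis.mem_ker _).2 ⟨rfl, rfl⟩).symm
    have hzk : (⟨((1 : G), (⟨0, 0, 1⟩ : H)), hz⟩ : ↥S) ∈ σ.ker := rfl
    obtain ⟨t, ht⟩ := hπ ⟨_, hzk⟩
    have ht1 : t = 1 := Subsingleton.elim _ _
    rw [ht1, map_one] at ht
    have h2 := congrArg (fun w : ↥σ.ker => ((w : ↥S) : G × H).2.c) ht
    have h3 : (0 : ZMod p) = 1 := h2
    exact zero_ne_one h3
  · intro hG
    apply StemCyc.hasCyclic_one
    intro Γ _ _ σ hσ
    obtain ⟨hsurj, hcen, hcomm⟩ := hσ
    have hab := commutative_of_cyclic_center_quotient σ hcen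
    rw [eq_bot_iff]
    intro z hz
    have hz' := hcomm hz
    have hbot : commutator Γ = ⊥ := by
      rw [eq_bot_iff, commutator_def, Subgroup.commutator_le]
      intro a _ b _
      rw [Subgroup.mem_bot, commutatorElement_eq_one_iff_commute]
      exact hab a b
    rw [hbot] at hz'
    exact hz'

end Cfsg.Agent.S3950
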