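import Cfsg.Statements.S3951
import Mathlib
import Cfsg.Agent.Lib.Helper6.Heis

set_option autoImplicit false
open Cfsg

namespace Cfsg.Agent.S3951

open Cfsg.Agent.Lib.Helper6
open scoped commutatorElement

theorem comm_le_zpowers {Γ : Type*} [Group Γ] (x y : Γ) (W : Subgroup Γ)
    (hW : W ≤ Subgroup.center Γ) (hcomm : commutator Γ ≤ W)
    (hgen : ∀ g : Γ, ∃ a b : ℤ, ∃ z ∈ W, g = x ^ a * y ^ b * z) :
    commutator Γ ≤ Subgroup.zpowers ⁅x, y⁆ ∧ ∀ k : ℤ, ⁅x, y ^ k⁆ = ⁅x, y⁆ ^ k := by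
  have hc : ∀ g h : Γ, ∀ u : Γ, u * ⁅g, h⁆ = ⁅g, h⁆ * u := by
    intro g h
    apply Subgroup.mem_center_iff.1
    apply hW
    apply hcomm
    rw [commutator_def]
    exact Subgroup.commutator_mem_commutator (Subgroup.mem_top _) (Subgroup.mem_top _)
  have hmulL : ∀ h g₁ g₂ : Γ, ⁅g₁ * g₂, h⁆ = ⁅g₁, h⁆ * ⁅g₂, h⁆ := by
    intro h g₁ g₂
    have ht := hc g₂ h
    have e1 : ⁅g₁ * g₂, h⁆ = g₁ * ⁅g₂, h⁆ * h * g₁⁻¹ * h⁻¹ := by
      rw [commutatorElement_def, commutatorElement_def]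
      group
    have e2 : ⁅g₁, h⁆ = g₁ * h * g₁⁻¹ * h⁻¹ := commutatorElement_def g₁ h
    rw [e1, e2]
    generalize ⁅g₂, h⁆ = t at ht
    calc g₁ * t * h * g₁⁻¹ * h⁻¹ = (g₁ * t) * (h * g₁⁻¹ * h⁻¹) := by group
      _ = (t * g₁) * (h * g₁⁻¹ * h⁻¹) := by rw [ht g₁]
      _ = t * (g₁ * h * g₁⁻¹ * h⁻¹) := by group
      _ = g₁ * h * g₁⁻¹ * h⁻¹ * t := (ht _).symm
  have hmulR : ∀ g h₁ h₂ : Γ, ⁅g, h₁ * h₂⁆ = ⁅g, h₁⁆ * ⁅g, h₂⁆ := by
    intro g h₁ h₂
    rw [← commutatorElement_inv (h₁ * h₂) g, hmulL, mul_inv_rev, commutatorElement_inv,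
      commutatorElement_inv]
    exact hc g h₁ _
  let φ : Γ → Γ →* Γ := fun h => MonoidHom.mk' (fun g => ⁅g, h⁆) (hmulL h)
  let ψ : Γ → Γ →* Γ := fun g => MonoidHom.mk' (fun h => ⁅g, h⁆) (hmulR g)
  have hφ : ∀ h g, φ h g = ⁅g, h⁆ := fun h g => rfl
  have hψ : ∀ g h, ψ g h = ⁅g, h⁆ := fun g h => rfl
  have hzL : ∀ z ∈ W, ∀ h : Γ, ⁅z, h⁆ = 1 := by
    intro z hz h
    rw [commutatorElement_eq_one_iff_commute]
    exact (Subgroup.mem_center_iff.1 (hW hz) h).symm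
  have hzR : ∀ z ∈ W, ∀ g : Γ, ⁅g, z⁆ = 1 := by
    intro z hz g
    rw [commutatorElement_eq_one_iff_commute]
    exact Subgroup.mem_center_iff.1 (hW hz) g
  have hx : ∀ h : Γ, ⁅x, h⁆ ∈ Subgroup.zpowers ⁅x, y⁆ := by
    intro h
    obtain ⟨a, b, z, hz, rfl⟩ := hgen h
    have e : ⁅x, x ^ a * y ^ b * z⁆ = ⁅x, y⁆ ^ b := by
      rw [← hψ x (x ^ a * y ^ b * z), map_mul, map_mul, map_zpow, map_zpow, hψ, hψ, hψ, hzR z hz,
        commutatorElement_self, one_zpow, one_mul, mul_one]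
    rw [e]
    exact Subgroup.zpow_mem _ (Subgroup.mem_zpowers _) _
  have hy : ∀ h : Γ, ⁅y, h⁆ ∈ Subgroup.zpowers ⁅x, y⁆ := by
    intro h
    obtain ⟨a, b, z, hz, rfl⟩ := hgen h
    have e : ⁅y, x ^ a * y ^ b * z⁆ = (⁅x, y⁆⁻¹) ^ a := by
      rw [← hψ y (x ^ a * y ^ b * z), map_mul, map_mul, map_zpow, map_zpow, hψ, hψ, hψ, hzR z hz,
        commutatorElement_self, one_zpow, mul_one, mul_one, commutatorElement_inv x y]
    rw [e]
    exact Subgroup.zpow_mem _ (Subgroup.inv_mem _ (Subgroup.mem_zpowers _)) _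
  refine ⟨?_, ?_⟩
  · rw [commutator_def, Subgroup.commutator_le]
    intro g _ h _
    obtain ⟨a, b, z, hz, rfl⟩ := hgen g
    have e : ⁅x ^ a * y ^ b * z, h⁆ = ⁅x, h⁆ ^ a * ⁅y, h⁆ ^ b := by
      rw [← hφ h (x ^ a * y ^ b * z), map_mul, map_mul, map_zpow, map_zpow, hφ, hφ, hφ, hzL z hz,
        mul_one]
    rw [e]
    exact Subgroup.mul_mem _ (Subgroup.zpow_mem _ (hx h) _) (Subgroup.zpow_mem _ (hy h) _)
  · intro k
    rw [← hψ x (y ^ k), map_zpow, hψ]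

/-- For positive integers `m` and `n` with `n` dividing `m`, the Schur multiplier of the abelian group `ZMod m × ZMod n` (written multiplicatively) is cyclic of order `n`. In particular the elementary abelian group of order `p ^ 2` has multiplier of order `p`. -/
theorem result (m n : ℕ) [NeZero m] [NeZero n] (hnm : n ∣ m) : Cfsg.HasCyclicSchurMultiplier (Multiplicative (ZMod m × ZMod n)) n := by
  classical
  have hnpos : 0 < n := Nat.pos_of_ne_zero (NeZero.ne n)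
  refine ⟨⟨Heis.Heis m n hnm, inferInstance, inferInstance, Heis.proj m n hnm,
    Heis.proj_stem m n hnm, ⟨Heis.kerEquiv m n hnm⟩⟩, ?_⟩
  intro Γ _ _ σ hσ
  obtain ⟨hsurj, hcen, hcomm⟩ := hσ
  obtain ⟨x, hx⟩ := hsurj (Multiplicative.ofAdd ((1 : ZMod m), (0 : ZMod n)))
  obtain ⟨y, hy⟩ := hsurj (Multiplicative.ofAdd ((0 : ZMod m), (1 : ZMod n)))
  have hxa : ∀ a : ℤ, σ (x ^ a) = Multiplicative.ofAdd ((a : ZMod m), (0 : ZMod n)) := by
    intro a
    rw [map_zpow, hx, ← ofAdd_zsmul]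
    congr 1
    ext
    · simp
    · simp
  have hyb : ∀ b : ℤ, σ (y ^ b) = Multiplicative.ofAdd ((0 : ZMod m), (b : ZMod n)) := by
    intro b
    rw [map_zpow, hy, ← ofAdd_zsmul]
    congr 1
    ext
    · simp
    · simp
  have hcommW : commutator Γ ≤ σ.ker := by
    rw [commutator_def, Subgroup.commutator_le]
    intro g _ h _
    rw [MonoidHom.mem_ker, map_commutatorElement, commutatorElement_eq_one_iff_commute]
    exact Commute.all _ _
  have hgen : ∀ g : Γ, ∃ a b : ℤ, ∃ z ∈ σ.ker, g = x ^ a * y ^ b * z := by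
    intro g
    refine ⟨((Multiplicative.toAdd (σ g)).1.cast : ℤ), ((Multiplicative.toAdd (σ g)).2.cast : ℤ),
      (x ^ ((Multiplicative.toAdd (σ g)).1.cast : ℤ) * y ^ ((Multiplicative.toAdd (σ g)).2.cast : ℤ))⁻¹ * g,
      ?_, by group⟩
    rw [MonoidHom.mem_ker, map_mul, map_inv, map_mul, hxa, hyb, ZMod.intCast_zmod_cast,
      ZMod.intCast_zmod_cast, inv_mul_eq_one, ← ofAdd_add]
    apply Multiplicative.toAdd.injective
    ext
    · simp
    · simp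
  obtain ⟨hle, hpow⟩ := comm_le_zpowers x y σ.ker hcen hcommW hgen
  have hyn : y ^ (n : ℤ) ∈ σ.ker := by
    rw [MonoidHom.mem_ker, hyb]
    simp
  have hcn : ⁅x, y⁆ ^ n = 1 := by
    rw [← zpow_natCast, ← hpow, commutatorElement_eq_one_iff_commute]
    exact Subgroup.mem_center_iff.1 (hcen hyn) x
  have hkle : σ.ker ≤ Subgroup.zpowers ⁅x, y⁆ := hcomm.trans hle
  haveI : IsCyclic ↥σ.ker :=
    isCyclic_of_injective (Subgroup.inclusion hkle) (Subgroup.inclusion_injective hkle)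
  obtain ⟨g, hg⟩ := IsCyclic.exists_generator (α := ↥σ.ker)
  have hgn : g ^ n = 1 := by
    apply Subtype.ext
    obtain ⟨k, hk⟩ := Subgroup.mem_zpowers_iff.1 (hkle g.2)
    rw [Subgroup.coe_pow, ← hk, ← zpow_natCast, ← zpow_mul, mul_comm, zpow_mul, zpow_natCast, hcn,
      one_zpow]
    rfl
  refine ⟨{ toFun := fun t => g ^ (Multiplicative.toAdd t).val
            map_one' := by
              change g ^ (0 : ZMod n).val = 1
              rw [ZMod.val_zero, pow_zero]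
            map_mul' := by
              intro t t'
              change g ^ (Multiplicative.toAdd t + Multiplicative.toAdd t').val = _
              rw [ZMod.val_add, ← pow_add, ← pow_eq_pow_mod _ hgn] }, ?_⟩
  intro z
  obtain ⟨k, hk⟩ := Subgroup.mem_zpowers_iff.1 (hg z)
  refine ⟨Multiplicative.ofAdd ((k : ZMod n)), ?_⟩
  change g ^ ((k : ZMod n)).val = z
  rw [← hk, ← zpow_natCast, ZMod.val_intCast]
  have hgn' : g ^ (n : ℤ) = 1 := by rw [zpow_natCast, hgn]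
  exact (zpow_eq_zpow_emod k hgn').symm

end Cfsg.Agent.S3951
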