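import Cfsg.Statements.S3962

set_option autoImplicit false
open Cfsg

namespace Cfsg.Agent.S3962

/-- Let `G` be a perfect group and `π : G →* Q` a surjective homomorphism whose kernel is central. Then `π` maps the centre of `G` onto the centre of `Q`. Taking `π` to be the map to `G ⧸ Z(G)` shows that the central quotient of a perfect group has trivial centre. -/
theorem result {G Q : Type*} [Group G] [Group Q] (hG : Group.IsPerfect G) (π : G →* Q) (hπ : Function.Surjective π) (hker : π.ker ≤ Subgroup.center G) : (Subgroup.center G).map π = Subgroup.center Q := by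
  apply le_antisymm
  · rintro _ ⟨z, hz, rfl⟩
    have hz' : z ∈ Subgroup.center G := hz
    rw [Subgroup.mem_center_iff] at hz' ⊢
    intro q
    obtain ⟨g, rfl⟩ := hπ q
    rw [← map_mul, ← map_mul, hz' g]
  · intro q hq
    obtain ⟨g, rfl⟩ := hπ q
    refine ⟨g, ?_, rfl⟩
    have hc : ∀ x : G, g * x * g⁻¹ * x⁻¹ ∈ Subgroup.center G := by
      intro x
      apply hker
      rw [MonoidHom.mem_ker]
      rw [Subgroup.mem_center_iff] at hq
      have := hq (π x)
      simp only [map_mul, map_inv]
      rw [← this]
      simp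
    let f : G →* G := MonoidHom.mk' (fun x => g * x * g⁻¹ * x⁻¹) (by
      intro x y
      have h1 := hc y
      rw [Subgroup.mem_center_iff] at h1
      have h2 := h1 (g * x * g⁻¹)
      calc g * (x * y) * g⁻¹ * (x * y)⁻¹
          = (g * x * g⁻¹) * (g * y * g⁻¹ * y⁻¹) * x⁻¹ := by group
        _ = (g * y * g⁻¹ * y⁻¹) * (g * x * g⁻¹) * x⁻¹ := by rw [h2]
        _ = (g * y * g⁻¹ * y⁻¹) * (g * x * g⁻¹ * x⁻¹) := by group
        _ = (g * x * g⁻¹ * x⁻¹) * (g * y * g⁻¹ * y⁻¹) := by
            have h3 := h1 (g * x * g⁻¹ * x⁻¹)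
            rw [h3])
    have hf : ∀ x, f x = g * x * g⁻¹ * x⁻¹ := fun x => rfl
    have hle : commutator G ≤ f.ker := by
      rw [commutator_def, Subgroup.commutator_le]
      intro a _ b _
      rw [MonoidHom.mem_ker, map_commutatorElement, commutatorElement_eq_one_iff_commute]
      have h1 := hc a
      rw [Subgroup.mem_center_iff] at h1
      exact (h1 (f b)).symm
    rw [hG.commutator_eq_top] at hle
    show g ∈ Subgroup.center G
    rw [Subgroup.mem_center_iff]
    intro x
    have hx : f x = 1 := by
      have : x ∈ f.ker := hle (Subgroup.mem_top x)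
      exact this
    rw [hf] at hx
    have : g * x = x * g := by
      calc g * x = (g * x * g⁻¹ * x⁻¹) * (x * g) := by group
        _ = x * g := by rw [hx, one_mul]
    exact this.symm

end Cfsg.Agent.S3962
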