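import Cfsg.Statements.S3963
import Mathlib
import Cfsg.Agent.Lib.Helper6.StemCyc

set_option autoImplicit false
open Cfsg

namespace Cfsg.Agent.S3963

open Cfsg.Agent.Lib.Helper6

theorem a_one_zpow' {n : ℕ} (k : ℤ) :
    (QuaternionGroup.a (1 : ZMod (2 * n))) ^ k = QuaternionGroup.a (k : ZMod (2 * n)) := by
  induction k with
  | zero =>
    rw [Int.cast_zero, zpow_zero, QuaternionGroup.one_def]
  | succ k ih =>
    rw [zpow_add_one, ih, QuaternionGroup.a_mul_a]
    push_cast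
    rfl
  | pred k ih =>
    rw [zpow_sub_one, ih]
    have : (QuaternionGroup.a (1 : ZMod (2 * n)))⁻¹ = QuaternionGroup.a (-1) := rfl
    rw [this, QuaternionGroup.a_mul_a]
    push_cast
    congr 1
    ring

theorem mem_rotQ {n : ℕ} (d : QuaternionGroup n) :
    d ∈ Subgroup.zpowers (QuaternionGroup.a (1 : ZMod (2 * n))) ↔
      ∃ i : ZMod (2 * n), d = QuaternionGroup.a i := by
  constructor
  · intro h
    obtain ⟨k, hk⟩ := Subgroup.mem_zpowers_iff.1 h
    rw [a_one_zpow'] at hk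
    exact ⟨_, hk.symm⟩
  · rintro ⟨i, rfl⟩
    rw [Subgroup.mem_zpowers_iff]
    refine ⟨(i.cast : ℤ), ?_⟩
    rw [a_one_zpow', ZMod.intCast_zmod_cast]

theorem two_mul_eq_zero {n : ℕ} [NeZero n] (i : ZMod (2 * n)) (h : i + i = 0) :
    i = 0 ∨ i = (n : ZMod (2 * n)) := by
  have hnpos : 0 < n := Nat.pos_of_ne_zero (NeZero.ne n)
  have h1 : ((i.val + i.val : ℕ) : ZMod (2 * n)) = 0 := by
    push_cast
    rw [ZMod.natCast_zmod_val]
    exact h
  rw [ZMod.natCast_eq_zero_iff] at h1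
  have h3 : i.val < 2 * n := ZMod.val_lt i
  obtain ⟨t, ht⟩ := h1
  have ht' : t = 0 ∨ t = 1 := by
    rcases t with _ | _ | t
    · left; rfl
    · right; rfl
    · exfalso
      nlinarith
  rcases ht' with rfl | rfl
  · left
    have hv : i.val = 0 := by omega
    rw [← ZMod.natCast_zmod_val i, hv]
    simp
  · right
    have hv : i.val = n := by omega
    rw [← ZMod.natCast_zmod_val i, hv]

/-- For every `n ≥ 1` the dicyclic (generalized quaternion) group of order `4 n` has trivial Schur multiplier. -/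
theorem result (n : ℕ) [NeZero n] : Cfsg.HasCyclicSchurMultiplier (QuaternionGroup n) 1 := by
  apply StemCyc.hasCyclic_one
  intro Γ _ _ σ hσ
  obtain ⟨hsurj, hcen, hcomm⟩ := hσ
  obtain ⟨r₀, hr₀⟩ := hsurj (QuaternionGroup.a 1)
  obtain ⟨s, hs⟩ := hsurj (QuaternionGroup.xa 0)
  have hinv : ((QuaternionGroup.xa (0 : ZMod (2 * n))) : QuaternionGroup n)⁻¹
      = QuaternionGroup.xa ((n : ZMod (2 * n)) + 0) := rfl
  have hinva : ∀ i : ZMod (2 * n), ((QuaternionGroup.a i) : QuaternionGroup n)⁻¹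
      = QuaternionGroup.a (-i) := fun i => rfl
  have hD : ∀ d : QuaternionGroup n, d ∈ Subgroup.zpowers (QuaternionGroup.a (1 : ZMod (2 * n))) ∨
      d * (σ s)⁻¹ ∈ Subgroup.zpowers (QuaternionGroup.a (1 : ZMod (2 * n))) := by
    intro d
    rcases d with i | i
    · left
      exact (mem_rotQ _).2 ⟨i, rfl⟩
    · right
      rw [hs, hinv, QuaternionGroup.xa_mul_xa]
      exact (mem_rotQ _).2 ⟨_, rfl⟩
  have hCn : ∀ d ∈ Subgroup.zpowers (QuaternionGroup.a (1 : ZMod (2 * n))),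
      σ s * d * (σ s)⁻¹ ∈ Subgroup.zpowers (QuaternionGroup.a (1 : ZMod (2 * n))) := by
    intro d hd
    obtain ⟨i, rfl⟩ := (mem_rotQ d).1 hd
    rw [hs, hinv, QuaternionGroup.xa_mul_a, QuaternionGroup.xa_mul_xa]
    exact (mem_rotQ _).2 ⟨_, rfl⟩
  have key := StemCyc.comm_eq σ hcen (QuaternionGroup.a 1) r₀ s hr₀ hD hCn
  rw [eq_bot_iff]
  intro z hz
  rw [Subgroup.mem_bot]
  obtain ⟨r, hr, hzr⟩ := key z (hcomm hz)
  obtain ⟨i, hi⟩ := (mem_rotQ _).1 hr
  rw [MonoidHom.mem_ker, hzr, map_mul, map_mul, map_mul, map_inv, map_inv, hs, hi,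
    hinv, hinva, QuaternionGroup.a_mul_xa, QuaternionGroup.xa_mul_a,
    QuaternionGroup.xa_mul_xa, QuaternionGroup.one_def] at hz
  have h2n : (n : ZMod (2 * n)) + n = 0 := by
    have : ((2 * n : ℕ) : ZMod (2 * n)) = 0 := ZMod.natCast_self (2 * n)
    rw [← this]
    push_cast
    ring
  have h2 : (n : ZMod (2 * n)) + ((n : ZMod (2 * n)) + 0) - (0 - i + -i) = 0 :=
    QuaternionGroup.a.inj hz
  have h3 : i + i = 0 := by
    have : i + i = ((n : ZMod (2 * n)) + ((n : ZMod (2 * n)) + 0) - (0 - i + -i))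
        - ((n : ZMod (2 * n)) + n) := by ring
    rw [this, h2, h2n, sub_zero]
  have hrs : r * s = s * r := by
    rcases two_mul_eq_zero i h3 with h4 | h4
    · have h6 : r ∈ σ.ker := by
        rw [MonoidHom.mem_ker, hi, h4, QuaternionGroup.one_def]
      exact (Subgroup.mem_center_iff.1 (hcen h6) s).symm
    · have h6 : (s * s)⁻¹ * r ∈ σ.ker := by
        rw [MonoidHom.mem_ker, map_mul, map_inv, map_mul, hs, hi, h4, QuaternionGroup.xa_mul_xa,
          hinva, QuaternionGroup.a_mul_a, QuaternionGroup.one_def]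
        congr 1
        ring
      have h7 := Subgroup.mem_center_iff.1 (hcen h6)
      have er : r = (s * s) * ((s * s)⁻¹ * r) := by group
      generalize (s * s)⁻¹ * r = z' at h7 er
      rw [er]
      calc s * s * z' * s = s * s * (z' * s) := by group
        _ = s * s * (s * z') := by rw [h7 s]
        _ = s * (s * s * z') := by group
  rw [hzr]
  calc r * s * r⁻¹ * s⁻¹ = (r * s) * r⁻¹ * s⁻¹ := by group
    _ = (s * r) * r⁻¹ * s⁻¹ := by rw [hrs]
    _ = 1 := by group

end Cfsg.Agent.S3963
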