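import Cfsg.Statements.S3964
import Mathlib
import Cfsg.Agent.Lib.Helper6.StemCyc

set_option autoImplicit false
open Cfsg

namespace Cfsg.Agent.S3964

open Cfsg.Agent.Lib.Helper6

theorem mem_rot {n : ℕ} (d : DihedralGroup n) :
    d ∈ Subgroup.zpowers (DihedralGroup.r (1 : ZMod n)) ↔ ∃ i : ZMod n, d = DihedralGroup.r i := by
  constructor
  · intro h
    obtain ⟨k, hk⟩ := Subgroup.mem_zpowers_iff.1 h
    rw [DihedralGroup.r_one_zpow] at hk
    exact ⟨_, hk.symm⟩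
  · rintro ⟨i, rfl⟩
    rw [Subgroup.mem_zpowers_iff]
    refine ⟨(i.cast : ℤ), ?_⟩
    rw [DihedralGroup.r_one_zpow, ZMod.intCast_zmod_cast]

/-- For odd `n` the dihedral group of order `2 n` has trivial Schur multiplier. -/
theorem result (n : ℕ) (hn : Odd n) : Cfsg.HasCyclicSchurMultiplier (DihedralGroup n) 1 := by
  have hn0 : n ≠ 0 := by
    rintro rfl
    exact absurd hn (by decide)
  haveI : NeZero n := ⟨hn0⟩
  apply StemCyc.hasCyclic_one
  intro Γ _ _ σ hσ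
  obtain ⟨hsurj, hcen, hcomm⟩ := hσ
  obtain ⟨r₀, hr₀⟩ := hsurj (DihedralGroup.r 1)
  obtain ⟨s, hs⟩ := hsurj (DihedralGroup.sr 0)
  have hD : ∀ d : DihedralGroup n, d ∈ Subgroup.zpowers (DihedralGroup.r (1 : ZMod n)) ∨
      d * (σ s)⁻¹ ∈ Subgroup.zpowers (DihedralGroup.r (1 : ZMod n)) := by
    intro d
    rcases d with i | i
    · left
      exact (mem_rot _).2 ⟨i, rfl⟩
    · right
      rw [hs, DihedralGroup.inv_sr, DihedralGroup.sr_mul_sr]
      exact (mem_rot _).2 ⟨_, rfl⟩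
  have hCn : ∀ d ∈ Subgroup.zpowers (DihedralGroup.r (1 : ZMod n)),
      σ s * d * (σ s)⁻¹ ∈ Subgroup.zpowers (DihedralGroup.r (1 : ZMod n)) := by
    intro d hd
    obtain ⟨i, rfl⟩ := (mem_rot d).1 hd
    rw [hs, DihedralGroup.inv_sr, DihedralGroup.sr_mul_r, DihedralGroup.sr_mul_sr]
    exact (mem_rot _).2 ⟨_, rfl⟩
  have key := StemCyc.comm_eq σ hcen (DihedralGroup.r 1) r₀ s hr₀ hD hCn
  rw [eq_bot_iff]
  intro z hz
  rw [Subgroup.mem_bot]
  obtain ⟨r, hr, hzr⟩ := key z (hcomm hz)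
  obtain ⟨i, hi⟩ := (mem_rot _).1 hr
  rw [MonoidHom.mem_ker, hzr, map_mul, map_mul, map_mul, map_inv, map_inv, hs, hi,
    DihedralGroup.inv_sr, DihedralGroup.inv_r, DihedralGroup.r_mul_sr, DihedralGroup.sr_mul_r,
    DihedralGroup.sr_mul_sr, DihedralGroup.one_def] at hz
  have h2 : (0 : ZMod n) - (0 - i + -i) = 0 := DihedralGroup.r.inj hz
  have h3 : (2 : ZMod n) * i = 0 := by
    rw [← h2]
    ring
  have hu : IsUnit ((2 : ℕ) : ZMod n) := by
    rw [ZMod.isUnit_iff_coprime]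
    exact Nat.coprime_two_left.2 hn
  have h4 : i = 0 := by
    have h5 : ((2 : ℕ) : ZMod n) * i = 0 := by
      rw [← h3]
      norm_num
    exact (hu.mul_right_eq_zero).1 h5
  have h6 : r ∈ σ.ker := by
    rw [MonoidHom.mem_ker, hi, h4, DihedralGroup.one_def]
  have h7 := Subgroup.mem_center_iff.1 (hcen h6)
  rw [hzr]
  calc r * s * r⁻¹ * s⁻¹ = (r * s) * r⁻¹ * s⁻¹ := by group
    _ = (s * r) * r⁻¹ * s⁻¹ := by rw [h7 s]
    _ = 1 := by group

end Cfsg.Agent.S3964
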