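import Cfsg.Statements.S3966
import Mathlib

set_option autoImplicit false
open Cfsg

namespace Cfsg.Agent.S3966

open scoped commutatorElement

noncomputable def sigmaQD (n : ℕ) : QuaternionGroup n →* DihedralGroup n :=
  MonoidHom.mk' (fun x => match x with
    | QuaternionGroup.a i =>
      DihedralGroup.r (ZMod.castHom (Dvd.intro_left 2 rfl : n ∣ 2 * n) (ZMod n) i)
    | QuaternionGroup.xa i =>
      DihedralGroup.sr (ZMod.castHom (Dvd.intro_left 2 rfl : n ∣ 2 * n) (ZMod n) i))
    (by
      rintro (i | i) (j | j)
      · simp [QuaternionGroup.a_mul_a, DihedralGroup.r_mul_r]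
      · simp [QuaternionGroup.a_mul_xa, DihedralGroup.r_mul_sr]
      · simp [QuaternionGroup.xa_mul_a, DihedralGroup.sr_mul_r]
      · simp [QuaternionGroup.xa_mul_xa, DihedralGroup.sr_mul_sr])

theorem sigmaQD_a (n : ℕ) (i : ZMod (2 * n)) : sigmaQD n (QuaternionGroup.a i)
    = DihedralGroup.r (ZMod.castHom (Dvd.intro_left 2 rfl : n ∣ 2 * n) (ZMod n) i) := rfl

theorem sigmaQD_xa (n : ℕ) (i : ZMod (2 * n)) : sigmaQD n (QuaternionGroup.xa i)
    = DihedralGroup.sr (ZMod.castHom (Dvd.intro_left 2 rfl : n ∣ 2 * n) (ZMod n) i) := rfl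

theorem ker_cases (n : ℕ) [NeZero n] (x : QuaternionGroup n) (hx : x ∈ (sigmaQD n).ker) :
    x = 1 ∨ x = QuaternionGroup.a (n : ZMod (2 * n)) := by
  rw [MonoidHom.mem_ker] at hx
  rcases x with i | i
  · rw [sigmaQD_a, DihedralGroup.one_def] at hx
    have h1 : (ZMod.castHom (Dvd.intro_left 2 rfl : n ∣ 2 * n) (ZMod n)) i = 0 :=
      DihedralGroup.r.inj hx
    have h2 : ((i.val : ℕ) : ZMod n) = 0 := by
      rw [← h1]
      conv_rhs => rw [← ZMod.natCast_zmod_val i]
      rw [map_natCast]
    rw [ZMod.natCast_eq_zero_iff] at h2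
    have h3 : i.val < 2 * n := ZMod.val_lt i
    obtain ⟨t, ht⟩ := h2
    have hnpos : 0 < n := Nat.pos_of_ne_zero (NeZero.ne n)
    have ht' : t = 0 ∨ t = 1 := by
      rcases t with _ | _ | t
      · left; rfl
      · right; rfl
      · exfalso
        nlinarith
    rcases ht' with rfl | rfl
    · left
      have : i = 0 := by
        rw [← ZMod.natCast_zmod_val i, ht]
        simp
      rw [this]
      rfl
    · right
      have : i = (n : ZMod (2 * n)) := by
        rw [← ZMod.natCast_zmod_val i, ht]
        simp
      rw [this]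
  · exfalso
    rw [sigmaQD_xa, DihedralGroup.one_def] at hx
    cases hx

/-- For even `n ≥ 2` the dicyclic group of order `4 n` is a stem extension of the dihedral group of order `2 n` with kernel of order `2`: there is a surjective homomorphism `QuaternionGroup n →* DihedralGroup n` whose kernel is central, lies in the commutator subgroup and has two elements. Together with the order of the multiplier this exhibits the dicyclic group as a Schur covering group of the dihedral group. -/
theorem result (n : ℕ) [NeZero n] (hn : Even n) : ∃ σ : QuaternionGroup n →* DihedralGroup n, Cfsg.IsStemExtension σ ∧ Nat.card σ.ker = 2 := by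
  classical
  have hnpos : 0 < n := Nat.pos_of_ne_zero (NeZero.ne n)
  have hsurj : Function.Surjective (sigmaQD n) := by
    rintro (k | k)
    · refine ⟨QuaternionGroup.a ((k.val : ℕ) : ZMod (2 * n)), ?_⟩
      rw [sigmaQD_a, map_natCast, ZMod.natCast_zmod_val]
    · refine ⟨QuaternionGroup.xa ((k.val : ℕ) : ZMod (2 * n)), ?_⟩
      rw [sigmaQD_xa, map_natCast, ZMod.natCast_zmod_val]
  have h2n : (n : ZMod (2 * n)) + n = 0 := by
    have : ((2 * n : ℕ) : ZMod (2 * n)) = 0 := ZMod.natCast_self (2 * n)
    rw [← this]
    push_cast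
    ring
  refine ⟨sigmaQD n, ⟨hsurj, ?_, ?_⟩, ?_⟩
  · intro x hx
    rcases ker_cases n x hx with rfl | rfl
    · exact Subgroup.one_mem _
    · rw [Subgroup.mem_center_iff]
      rintro (j | j)
      · rw [QuaternionGroup.a_mul_a, QuaternionGroup.a_mul_a, add_comm]
      · rw [QuaternionGroup.xa_mul_a, QuaternionGroup.a_mul_xa]
        congr 1
        linear_combination h2n
  · intro x hx
    rcases ker_cases n x hx with rfl | rfl
    · exact Subgroup.one_mem _
    · obtain ⟨m, hm⟩ := hn
      have key : QuaternionGroup.a (1 : ZMod (2 * n)) *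
          (QuaternionGroup.xa 0 * QuaternionGroup.a 1) = QuaternionGroup.xa 0 := by
        rw [QuaternionGroup.xa_mul_a, QuaternionGroup.a_mul_xa]
        congr 1
        ring
      have hc : (QuaternionGroup.a (1 : ZMod (2 * n))) ^ 2
          = ⁅(QuaternionGroup.xa 0 : QuaternionGroup n), QuaternionGroup.a 1⁆⁻¹ := by
        rw [commutatorElement_def]
        generalize QuaternionGroup.a (1 : ZMod (2 * n)) = h at key ⊢
        generalize (QuaternionGroup.xa 0 : QuaternionGroup n) = g at key ⊢
        have : g * h = h⁻¹ * g := by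
          rw [eq_inv_mul_iff_mul_eq]
          exact key
        rw [this]
        group
      have h1 : (QuaternionGroup.a (1 : ZMod (2 * n))) ^ 2 ∈ commutator (QuaternionGroup n) := by
        rw [hc]
        exact Subgroup.inv_mem _
          (Subgroup.commutator_mem_commutator (Subgroup.mem_top _) (Subgroup.mem_top _))
      have h2 : QuaternionGroup.a (n : ZMod (2 * n))
          = ((QuaternionGroup.a (1 : ZMod (2 * n))) ^ 2) ^ m := by
        rw [← pow_mul, QuaternionGroup.a_one_pow]
        congr 2
        omega
      rw [h2]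
      exact Subgroup.pow_mem _ h1 m
  · have h1 := Subgroup.card_mul_index (sigmaQD n).ker
    rw [Subgroup.index_ker, MonoidHom.range_eq_top.2 hsurj, Subgroup.card_top,
      DihedralGroup.nat_card, Nat.card_eq_fintype_card (α := QuaternionGroup n),
      QuaternionGroup.card] at h1
    have h3 : Nat.card (sigmaQD n).ker * (2 * n) = 2 * (2 * n) := by rw [h1]; ring
    exact Nat.eq_of_mul_eq_mul_right (by omega) h3

end Cfsg.Agent.S3966
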