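import Cfsg.Statements.S3965
import Mathlib
import Cfsg.Agent.Lib.Helper6.StemCyc
import Cfsg.Agent.S3966

set_option autoImplicit false
open Cfsg

namespace Cfsg.Agent.S3965

open Cfsg.Agent.Lib.Helper6

theorem mem_rot {n : ℕ} (d : DihedralGroup n) :
    d ∈ Subgroup.zpowers (DihedralGroup.r (1 : ZMod n)) ↔ ∃ i : ZMod n, d = DihedralGroup.r i := by
  constructor
  · intro h
    obtain ⟨k, hk⟩ := Subgroup.mem_zpowers_iff.1 h
    rw [DihedralGroup.r_one_zpow] at hk
    exact ⟨_, hk.symm⟩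
  · rintro ⟨i, rfl⟩
    rw [Subgroup.mem_zpowers_iff]
    refine ⟨(i.cast : ℤ), ?_⟩
    rw [DihedralGroup.r_one_zpow, ZMod.intCast_zmod_cast]

theorem two_val {n : ℕ} [NeZero n] (i : ZMod n) (h : i + i = 0) : i = 0 ∨ 2 * i.val = n := by
  have hnpos : 0 < n := Nat.pos_of_ne_zero (NeZero.ne n)
  have h1 : ((i.val + i.val : ℕ) : ZMod n) = 0 := by
    push_cast
    rw [ZMod.natCast_zmod_val]
    exact h
  rw [ZMod.natCast_eq_zero_iff] at h1
  have h3 : i.val < n := ZMod.val_lt i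
  obtain ⟨t, ht⟩ := h1
  have ht' : t = 0 ∨ t = 1 := by
    rcases t with _ | _ | t
    · left; rfl
    · right; rfl
    · exfalso
      nlinarith
  rcases ht' with rfl | rfl
  · left
    have hv : i.val = 0 := by omega
    exact (ZMod.val_eq_zero i).1 hv
  · right
    omega

/-- For even `n ≥ 2` the dihedral group of order `2 n` has Schur multiplier cyclic of order `2`. -/
theorem result (n : ℕ) [NeZero n] (hn : Even n) : Cfsg.HasCyclicSchurMultiplier (DihedralGroup n) 2 := by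
  classical
  haveI h2fact : Fact (Nat.Prime 2) := ⟨Nat.prime_two⟩
  have hcardZ : Nat.card (Multiplicative (ZMod 2)) = 2 := by
    rw [Nat.card_eq_fintype_card]
    rfl
  refine ⟨?_, ?_⟩
  · obtain ⟨σ, hσ, hk⟩ := Cfsg.Agent.S3966.result n hn
    exact ⟨QuaternionGroup n, inferInstance, inferInstance, σ, hσ,
      ⟨mulEquivOfPrimeCardEq hk hcardZ⟩⟩
  · intro Γ _ _ σ hσ
    obtain ⟨hsurj, hcen, hcomm⟩ := hσ
    obtain ⟨r₀, hr₀⟩ := hsurj (DihedralGroup.r 1)
    obtain ⟨s, hs⟩ := hsurj (DihedralGroup.sr 0)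
    have hD : ∀ d : DihedralGroup n, d ∈ Subgroup.zpowers (DihedralGroup.r (1 : ZMod n)) ∨
        d * (σ s)⁻¹ ∈ Subgroup.zpowers (DihedralGroup.r (1 : ZMod n)) := by
      intro d
      rcases d with i | i
      · left
        exact (mem_rot _).2 ⟨i, rfl⟩
      · right
        rw [hs, DihedralGroup.inv_sr, DihedralGroup.sr_mul_sr]
        exact (mem_rot _).2 ⟨_, rfl⟩
    have hCn : ∀ d ∈ Subgroup.zpowers (DihedralGroup.r (1 : ZMod n)),
        σ s * d * (σ s)⁻¹ ∈ Subgroup.zpowers (DihedralGroup.r (1 : ZMod n)) := by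
      intro d hd
      obtain ⟨i, rfl⟩ := (mem_rot d).1 hd
      rw [hs, DihedralGroup.inv_sr, DihedralGroup.sr_mul_r, DihedralGroup.sr_mul_sr]
      exact (mem_rot _).2 ⟨_, rfl⟩
    have key := StemCyc.comm_eq σ hcen (DihedralGroup.r 1) r₀ s hr₀ hD hCn
    have hcase : ∀ (z r : Γ) (i : ZMod n), z ∈ σ.ker → z = r * s * r⁻¹ * s⁻¹ →
        σ r = DihedralGroup.r i → z ≠ 1 → 2 * i.val = n := by
      intro z r i hz hzr hi hz1
      rw [MonoidHom.mem_ker, hzr, map_mul, map_mul, map_mul, map_inv, map_inv, hs, hi,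
        DihedralGroup.inv_sr, DihedralGroup.inv_r, DihedralGroup.r_mul_sr, DihedralGroup.sr_mul_r,
        DihedralGroup.sr_mul_sr, DihedralGroup.one_def] at hz
      have h2 : (0 : ZMod n) - (0 - i + -i) = 0 := DihedralGroup.r.inj hz
      have h3 : i + i = 0 := by
        rw [← h2]
        ring
      rcases two_val i h3 with h4 | h4
      · exfalso
        apply hz1
        have h6 : r ∈ σ.ker := by
          rw [MonoidHom.mem_ker, hi, h4, DihedralGroup.one_def]
        have h7 := Subgroup.mem_center_iff.1 (hcen h6)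
        rw [hzr]
        calc r * s * r⁻¹ * s⁻¹ = (r * s) * r⁻¹ * s⁻¹ := by group
          _ = (s * r) * r⁻¹ * s⁻¹ := by rw [h7 s]
          _ = 1 := by group
      · exact h4
    have huniq : ∀ z z' : Γ, z ∈ σ.ker → z' ∈ σ.ker → z ≠ 1 → z' ≠ 1 → z = z' := by
      intro z z' hz hz' hz1 hz1'
      obtain ⟨r, hr, hzr⟩ := key z (hcomm hz)
      obtain ⟨r', hr', hzr'⟩ := key z' (hcomm hz')
      obtain ⟨i, hi⟩ := (mem_rot _).1 hr
      obtain ⟨i', hi'⟩ := (mem_rot _).1 hr'
      have e1 := hcase z r i hz hzr hi hz1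
      have e2 := hcase z' r' i' hz' hzr' hi' hz1'
      have e3 : i = i' := by
        apply ZMod.val_injective
        omega
      have h6 : r⁻¹ * r' ∈ σ.ker := by
        rw [MonoidHom.mem_ker, map_mul, map_inv, hi, hi', e3, inv_mul_cancel]
      have h7 := Subgroup.mem_center_iff.1 (hcen h6)
      have er : r' = r * (r⁻¹ * r') := by group
      generalize r⁻¹ * r' = ζ at h7 er
      rw [hzr, hzr', er]
      calc r * s * r⁻¹ * s⁻¹ = r * (s * ζ) * ζ⁻¹ * r⁻¹ * s⁻¹ := by group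
        _ = r * (ζ * s) * ζ⁻¹ * r⁻¹ * s⁻¹ := by rw [h7 s]
        _ = r * ζ * s * (r * ζ)⁻¹ * s⁻¹ := by group
    by_cases hbot : σ.ker = ⊥
    · refine ⟨1, ?_⟩
      intro y
      refine ⟨1, ?_⟩
      apply Subtype.ext
      have h1 : (y : Γ) ∈ (⊥ : Subgroup Γ) := hbot ▸ y.2
      rw [Subgroup.mem_bot] at h1
      rw [h1]
      rfl
    · obtain ⟨z₀, hz₀⟩ := (Subgroup.ne_bot_iff_exists_ne_one).1 hbot
      have hk2 : Nat.card ↥σ.ker = 2 := by
        rw [Nat.card_eq_two_iff' 1]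
        refine ⟨z₀, hz₀, ?_⟩
        intro y hy
        apply Subtype.ext
        apply huniq _ _ y.2 z₀.2
        · intro h
          apply hy
          exact Subtype.ext h
        · intro h
          apply hz₀
          exact Subtype.ext h
      exact ⟨(mulEquivOfPrimeCardEq hcardZ hk2).toMonoidHom,
        (mulEquivOfPrimeCardEq hcardZ hk2).surjective⟩

end Cfsg.Agent.S3965
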