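import Cfsg.Statements.S3968
import Mathlib
import Cfsg.Agent.Lib.Helper3.CharProj
import Cfsg.Agent.Lib.Helper3.CharDeg
import Cfsg.Agent.S0138
import Cfsg.Agent.S0142
import Cfsg.Agent.S0189

set_option autoImplicit false
open Cfsg

namespace Cfsg.Agent.S3968

open Cfsg.Agent.Lib.Helper3.Char Cfsg.Agent.Lib.Helper3.CharCore Cfsg.Agent.Lib.Helper3.CharInt Cfsg.Agent.Lib.Helper3.CharArith Cfsg.Agent.Lib.Helper3.CharProj Cfsg.Agent.Lib.Helper3.CharDeg Cfsg.Agent.Lib.Helper3.CharLinear

/-- Let `p` be a prime and `G` a finite group with a faithful irreducible complex character of degree `p` (so `G` is an irreducible linear group in `p` variables). If `p ^ 2` divides the order of `G`, then the centre of `G` is nontrivial. -/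
theorem result {G : Type*} [Group G] [Finite G] (p : ℕ) (hp : p.Prime) (χ : Cfsg.IrrCharacter G) (hdeg : χ.1 1 = p) (hfaith : ∀ g : G, χ.1 g = χ.1 1 → g = 1) (hdiv : p ^ 2 ∣ Nat.card G) : Subgroup.center G ≠ ⊥ := by
  classical
  haveI : Fact p.Prime := ⟨hp⟩
  haveI : Fintype G := Fintype.ofFinite G
  obtain ⟨χ, hχ⟩ := χ
  obtain ⟨n, ρ, hirr, rfl⟩ := hχ
  haveI : ρ.IsIrreducible := hirr
  have hdeg' : ρ.character 1 = (p : ℂ) := hdeg
  have hfaith' : ∀ g : G, ρ.character g = ρ.character 1 → g = 1 := hfaith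
  have hfr : Module.finrank ℂ (Fin n → ℂ) = n := by simp
  have hnp : n = p := by
    have h1 : ρ.character 1 = (n : ℂ) := by rw [Representation.char_one, hfr]
    rw [hdeg'] at h1
    exact_mod_cast h1.symm
  subst hnp
  have hker : ∀ a : G, ρ a = 1 → a = 1 := by
    intro a ha
    apply hfaith'
    show LinearMap.trace ℂ _ (ρ a) = LinearMap.trace ℂ _ (ρ 1)
    rw [ha, ρ.map_one]
  have hcentral : ∀ z : G, ‖ρ.character z‖ = (n : ℝ) → z ∈ Subgroup.center G := by
    intro z hz
    have hz' : ‖ρ.character z‖ = (Module.finrank ℂ (Fin n → ℂ) : ℝ) := by rw [hfr]; exact hz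
    obtain ⟨ω, hω⟩ := (Cfsg.Agent.S0138.result ρ z).mp hz'
    rw [Subgroup.mem_center_iff]
    intro g
    have h1 : ρ (g * z) = ρ (z * g) := by
      rw [map_mul, map_mul, hω]
      show ρ g * (ω • (1 : Module.End ℂ (Fin n → ℂ))) = (ω • (1 : Module.End ℂ (Fin n → ℂ))) * ρ g
      rw [mul_smul_comm, smul_mul_assoc, mul_one, one_mul]
    have h2 : ρ ((g * z) * (z * g)⁻¹) = 1 := by
      rw [map_mul, h1, ← map_mul, mul_inv_cancel, map_one]
    exact mul_inv_eq_one.mp (hker _ h2)
  intro hbot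
  have hcen1 : ∀ z : G, ‖ρ.character z‖ = (n : ℝ) → z = 1 := by
    intro z hz
    have h1 := hcentral z hz
    rw [hbot, Subgroup.mem_bot] at h1
    exact h1
  obtain ⟨P⟩ : Nonempty (Sylow n G) := inferInstance
  have hPcard : n ^ 2 ∣ Nat.card P := by
    rw [Sylow.card_eq_multiplicity]
    apply pow_dvd_pow
    exact (hp.pow_dvd_iff_le_factorization Nat.card_pos.ne').mp hdiv
  have hPn : n ^ 2 ≤ Nat.card P := Nat.le_of_dvd Nat.card_pos hPcard
  have hn2 : 2 ≤ n := hp.two_le
  have hS142 : ∀ x : G, (P : Subgroup G) ≤ Subgroup.centralizer ({x} : Set G) → x ≠ 1 →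
      ρ.character x = 0 := by
    intro x hx hx1
    have hcop : Nat.Coprime (Module.finrank ℂ (Fin n → ℂ))
        (Subgroup.centralizer ({x} : Set G)).index := by
      rw [hfr, Nat.Prime.coprime_iff_not_dvd hp]
      intro hdvd
      exact P.not_dvd_index (hdvd.trans (Subgroup.index_dvd_of_le hx))
    rcases Cfsg.Agent.S0142.result ρ x hcop with h | h
    · exact h
    · rw [hfr] at h
      exact absurd (hcen1 x h) hx1
  by_cases hab : ∀ a ∈ (P : Subgroup G), ∀ b ∈ (P : Subgroup G), a * b = b * a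
  · have hvan : ∀ g : G, g ∈ P → g ≠ 1 → ρ.character g = 0 := by
      intro g hg hg1
      apply hS142 g _ hg1
      intro y hy
      rw [Subgroup.mem_centralizer_iff]
      intro x hx
      rw [Set.mem_singleton_iff] at hx
      rw [hx]
      exact hab g hg y hy
    obtain ⟨k, hk⟩ := Cfsg.Agent.S0189.result n P ρ.character (isCharacter_of_rep ρ) hvan
    rw [hdeg'] at hk
    have hk' : n = Nat.card P * k := by exact_mod_cast hk
    have h1 : Nat.card P ∣ n := ⟨k, hk'⟩
    have h2 := Nat.le_of_dvd hp.pos h1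
    nlinarith
  · push_neg at hab
    obtain ⟨a, ha, b, hb, hab⟩ := hab
    have hψ : Cfsg.IsCharacter P (ρ.character ∘ (P : Subgroup G).subtype) :=
      Cfsg.Agent.Lib.Helper3.CharInd.comp_isCharacter (P : Subgroup G).subtype
        (isCharacter_of_rep ρ)
    obtain ⟨l, hl, hsum⟩ := isCharacter_decomp hψ
    have h1 : l.sum 1 = (n : ℂ) := by
      rw [← hsum]
      change ρ.character ((1 : P) : G) = _
      rw [Subgroup.coe_one]
      exact hdeg'
    have hnl : ∃ θ ∈ l, θ 1 ≠ 1 := by
      by_contra hno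
      push_neg at hno
      let c : P := ⟨a, ha⟩ * ⟨b, hb⟩ * ⟨a, ha⟩⁻¹ * ⟨b, hb⟩⁻¹
      have hc : ∀ θ ∈ l, θ c = θ 1 := by
        intro θ hθ
        obtain ⟨lam, rfl⟩ := hom_of_deg_one (isCharacter_of_irr (hl θ hθ)) (hno θ hθ)
        have h2 : lam c = lam 1 := by
          simp only [c, map_mul, map_inv, map_one]
          rw [mul_comm (lam ⟨a, ha⟩) (lam ⟨b, hb⟩)]
          simp
        simp only [h2]
      have h2 : l.sum c = l.sum 1 := by
        rw [list_sum_apply, list_sum_apply]
        congr 1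
        exact List.map_congr_left hc
      rw [← hsum] at h2
      have h4 : ρ.character ((c : P) : G) = ρ.character ((1 : P) : G) := h2
      rw [Subgroup.coe_one] at h4
      have h5 := hfaith' _ h4
      apply hab
      have h6 : a * b * a⁻¹ * b⁻¹ = 1 := h5
      calc a * b = (a * b * a⁻¹ * b⁻¹) * (b * a) := by group
        _ = b * a := by rw [h6, one_mul]
    obtain ⟨θ, hθl, hθ1⟩ := hnl
    obtain ⟨N, hN, hle⟩ := list_degree_le l hl
    have hNn : N = n := by
      rw [h1] at hN
      exact_mod_cast hN.symm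
    obtain ⟨m, hm, hmN⟩ := hle θ hθl
    obtain ⟨m', hm'pos, hm', hdvd⟩ := irr_degree_dvd_card (hl θ hθl)
    have hmm : m' = m := by
      rw [hm] at hm'
      exact_mod_cast hm'.symm
    subst hmm
    obtain ⟨s, hs⟩ := IsPGroup.iff_card.mp P.isPGroup'
    rw [hs] at hdvd
    obtain ⟨j, -, hj⟩ := (Nat.dvd_prime_pow hp).mp hdvd
    have hmn : m' = n := by
      have hj0 : j ≠ 0 := by
        rintro rfl
        apply hθ1
        rw [hm, hj, pow_zero, Nat.cast_one]
      have h2 : n ≤ n ^ j := Nat.le_self_pow hj0 n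
      rw [← hj] at h2
      omega
    obtain ⟨s₁, s₂, hsplit⟩ := List.append_of_mem hθl
    have hempty : ∀ (t : List (↥(P : Subgroup G) → ℂ)),
        (∀ ψ ∈ t, Cfsg.IsIrrCharacter (P : Subgroup G) ψ) → ∀ Nt : ℕ, t.sum 1 = (Nt : ℂ) →
        Nt = 0 → t = [] := by
      intro t ht Nt hNt h0
      cases t with
      | nil => rfl
      | cons u t' =>
        exfalso
        obtain ⟨N', hN', hle'⟩ := list_degree_le (u :: t') ht
        obtain ⟨mu, hmu, hmuN⟩ := hle' u List.mem_cons_self
        obtain ⟨mu', hpos, hmu'⟩ := irr_one_pos (ht u List.mem_cons_self)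
        rw [hNt] at hN'
        have h3 : N' = Nt := by exact_mod_cast hN'.symm
        have h4 : mu = mu' := by
          rw [hmu] at hmu'
          exact_mod_cast hmu'
        omega
    have hl1 : ∀ ψ ∈ s₁, Cfsg.IsIrrCharacter (P : Subgroup G) ψ := by
      intro ψ hψ'
      apply hl
      rw [hsplit]
      exact List.mem_append_left _ hψ'
    have hl2 : ∀ ψ ∈ s₂, Cfsg.IsIrrCharacter (P : Subgroup G) ψ := by
      intro ψ hψ'
      apply hl
      rw [hsplit]
      exact List.mem_append_right _ (List.mem_cons_of_mem _ hψ')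
    obtain ⟨N₁, hN₁, -⟩ := list_degree_le s₁ hl1
    obtain ⟨N₂, hN₂, -⟩ := list_degree_le s₂ hl2
    have hNsum : N₁ + n + N₂ = n := by
      have h2 : l.sum 1 = s₁.sum 1 + (θ 1 + s₂.sum 1) := by
        rw [hsplit, List.sum_append, List.sum_cons]
        rfl
      rw [h1, hN₁, hN₂, hm, hmn] at h2
      have h3 : (n : ℂ) = ((N₁ + (n + N₂) : ℕ) : ℂ) := by
        rw [h2]
        push_cast
        ring
      have h4 : n = N₁ + (n + N₂) := by exact_mod_cast h3
      omega
    have hs₁ : s₁ = [] := hempty s₁ hl1 N₁ hN₁ (by omega)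
    have hs₂ : s₂ = [] := hempty s₂ hl2 N₂ hN₂ (by omega)
    have hχθ : ρ.character ∘ (P : Subgroup G).subtype = θ := by
      rw [hsum, hsplit, hs₁, hs₂]
      simp
    obtain ⟨m₂, σ, hσ, hσθ⟩ := hl θ hθl
    haveI : σ.IsIrreducible := hσ
    have hfr2 : Module.finrank ℂ (Fin m₂ → ℂ) = m₂ := by simp
    have hm₂ : m₂ = n := by
      have h2 : σ.character 1 = (m₂ : ℂ) := by rw [Representation.char_one, hfr2]
      rw [hσθ, hm, hmn] at h2
      exact_mod_cast h2.symm
    have hZ : ∀ z : (P : Subgroup G), z ∈ Subgroup.center (P : Subgroup G) → z = 1 := by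
      intro z hz
      have h2 := (Cfsg.Agent.S0138.result σ z).mpr (central_scalar σ z hz)
      rw [hfr2] at h2
      have h3 : ‖ρ.character (z : G)‖ = (n : ℝ) := by
        have h4 : ρ.character (z : G) = σ.character z := by
          rw [hσθ, ← hχθ]
          rfl
        rw [h4, h2]
        exact_mod_cast hm₂
      exact Subtype.ext (hcen1 _ h3)
    haveI : Nontrivial (P : Subgroup G) := by
      apply Finite.one_lt_card_iff_nontrivial.mp
      nlinarith
    haveI : Nontrivial (Subgroup.center (P : Subgroup G)) := P.isPGroup'.center_nontrivial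
    obtain ⟨z, hz⟩ := exists_ne (1 : Subgroup.center (P : Subgroup G))
    exact hz (Subtype.ext (hZ z.1 z.2))

end Cfsg.Agent.S3968
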