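import Cfsg.Statements.S3971
import Mathlib
import Cfsg.Agent.S0071
import Cfsg.Agent.Lib.Helper6.PPrime
import Cfsg.Agent.Lib.Helper6.SylowConj
import Cfsg.Agent.Lib.Helper6.Index

set_option autoImplicit false
open Cfsg

namespace Cfsg.Agent.S3971

open Cfsg.Agent.Lib.Helper6

theorem idx2 {G : Type*} [Group G] (M Q : Subgroup G) (h2 : M.relIndex Q = 2) {a b : G}
    (ha : a ∈ Q) (hb : b ∈ Q) : a * b ∈ M ↔ (a ∈ M ↔ b ∈ M) := by
  have := Subgroup.mul_mem_iff_of_index_two (H := M.subgroupOf Q) h2 (a := ⟨a, ha⟩) (b := ⟨b, hb⟩)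
  simpa [Subgroup.mem_subgroupOf] using this

theorem det {G : Type*} [Group G] (Q : Subgroup G) (c t : G) (hc : c ∈ Q) (ht : t ∈ Q)
    (hgen : ∀ q ∈ Q, q ∈ Subgroup.closure ({c, t} : Set G))
    (M M' : Subgroup G) (hM : M ≤ Q) (hM' : M' ≤ Q) (h2 : M.relIndex Q = 2)
    (h2' : M'.relIndex Q = 2)
    (h1 : c ∈ M ↔ c ∈ M') (h3 : t ∈ M ↔ t ∈ M') : M = M' := by
  have key : ∀ q ∈ Subgroup.closure ({c, t} : Set G), q ∈ Q ∧ (q ∈ M ↔ q ∈ M') := by
    intro q hq
    induction hq using Subgroup.closure_induction with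
    | mem x hx =>
      rcases hx with rfl | rfl
      · exact ⟨hc, h1⟩
      · exact ⟨ht, h3⟩
    | one => exact ⟨Q.one_mem, by simp⟩
    | mul x y _ _ ihx ihy =>
      refine ⟨Q.mul_mem ihx.1 ihy.1, ?_⟩
      rw [idx2 M Q h2 ihx.1 ihy.1, idx2 M' Q h2' ihx.1 ihy.1, ihx.2, ihy.2]
    | inv x _ ihx =>
      exact ⟨Q.inv_mem ihx.1, by rw [Subgroup.inv_mem_iff, Subgroup.inv_mem_iff]; exact ihx.2⟩
  apply le_antisymm
  · intro m hm
    exact ((key m (hgen m (hM hm))).2).1 hm
  · intro m hm
    exact ((key m (hgen m (hM' hm))).2).2 hm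

theorem gen {G : Type*} [Group G] (Q : Subgroup G) (c t : G) (ht : t ∈ Q)
    (h2 : (Subgroup.zpowers c).relIndex Q = 2) (htc : t ∉ Subgroup.zpowers c) :
    ∀ q ∈ Q, q ∈ Subgroup.closure ({c, t} : Set G) := by
  intro q hq
  have hcl : Subgroup.zpowers c ≤ Subgroup.closure ({c, t} : Set G) := by
    rw [Subgroup.zpowers_le]; exact Subgroup.subset_closure (Or.inl rfl)
  have htcl : t ∈ Subgroup.closure ({c, t} : Set G) := Subgroup.subset_closure (Or.inr rfl)
  by_cases hqc : q ∈ Subgroup.zpowers c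
  · exact hcl hqc
  · have h1 : t⁻¹ * q ∈ Subgroup.zpowers c := by
      rw [idx2 _ Q h2 (Q.inv_mem ht) hq, Subgroup.inv_mem_iff]
      exact ⟨fun h => absurd h htc, fun h => absurd h hqc⟩
    have : q = t * (t⁻¹ * q) := by group
    rw [this]
    exact Subgroup.mul_mem _ htcl (hcl h1)

theorem normM {G : Type*} [Group G] [Finite G] (g : G) (hg6 : (orderOf g).Coprime 6)
    (Q : Subgroup G) (hgQ : g ∈ Subgroup.normalizer (Q : Set G)) (c t : G) (hc : c ∈ Q)
    (ht : t ∈ Q) (hgen : ∀ q ∈ Q, q ∈ Subgroup.closure ({c, t} : Set G))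
    (M : Subgroup G) (hM : M ≤ Q) (h2 : M.relIndex Q = 2) :
    g ∈ Subgroup.normalizer (M : Set G) := by
  classical
  let Mi : ℕ → Subgroup G := fun i => M.map (MulAut.conj (g ^ i)).toMonoidHom
  have hMiQ : ∀ i, Mi i ≤ Q := by
    rintro i _ ⟨m, hm, rfl⟩
    have hgi : g ^ i ∈ Subgroup.normalizer (Q : Set G) := Subgroup.pow_mem _ hgQ i
    exact (Subgroup.mem_normalizer_iff.1 hgi m).1 (hM hm)
  have hcard : ∀ i, Nat.card (Mi i) = Nat.card M := fun i =>
    Subgroup.card_map_of_injective (MulAut.conj (g ^ i)).injective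
  have hMi2 : ∀ i, (Mi i).relIndex Q = 2 := by
    intro i
    have e1 := Index.card_eq_card_mul_relIndex (Mi i) Q (hMiQ i)
    have e2 := Index.card_eq_card_mul_relIndex M Q hM
    rw [hcard i] at e1
    rw [h2] at e2
    have hpos : 0 < Nat.card M := Nat.card_pos
    rw [e2] at e1
    exact (Nat.eq_of_mul_eq_mul_left hpos e1).symm
  have hnot : ∀ i, ¬ (c ∈ Mi i ∧ t ∈ Mi i) := by
    rintro i ⟨h1, h3⟩
    have hQle : Q ≤ Mi i := by
      intro q hq
      have := hgen q hq
      exact (Subgroup.closure_le _).2 (by rintro x (rfl | rfl); exact h1; exact h3) this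
    have : (Mi i).relIndex Q = 1 := Subgroup.relIndex_eq_one.2 hQle
    rw [hMi2 i] at this
    omega
  let f : Fin 4 → {b : Bool × Bool // b ≠ (true, true)} := fun i =>
    ⟨(decide (c ∈ Mi i), decide (t ∈ Mi i)), by
      intro h
      simp only [Prod.mk.injEq, decide_eq_true_eq] at h
      exact hnot i h⟩
  obtain ⟨i, j, hij, hf⟩ := Fintype.exists_ne_map_eq_of_card_lt f (by decide)
  have hf' : (c ∈ Mi i ↔ c ∈ Mi j) ∧ (t ∈ Mi i ↔ t ∈ Mi j) := by
    have := congrArg Subtype.val hf
    simp only [f, Prod.mk.injEq, decide_eq_decide] at this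
    exact this
  have hMij : Mi i = Mi j :=
    det Q c t hc ht hgen (Mi i) (Mi j) (hMiQ i) (hMiQ j) (hMi2 i) (hMi2 j) hf'.1 hf'.2
  have step : ∀ i j : ℕ, i < j → j ≤ 3 → Mi i = Mi j → g ∈ Subgroup.normalizer (M : Set G) := by
    intro i j hlt hj3 hE
    have hd : g ^ (j - i) ∈ Subgroup.normalizer (M : Set G) := by
      apply PPrime.mem_normalizer_of_conj_le
      intro m' hm'
      have h1 : g ^ j * m' * (g ^ j)⁻¹ ∈ Mi j := ⟨m', hm', rfl⟩
      rw [← hE] at h1
      obtain ⟨m, hm, hmm⟩ := h1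
      have hmm' : g ^ i * m * (g ^ i)⁻¹ = g ^ j * m' * (g ^ j)⁻¹ := hmm
      have e : g ^ j = g ^ i * g ^ (j - i) := by rw [← pow_add]; congr 1; omega
      rw [e] at hmm'
      have h3 : g ^ (j - i) * m' * (g ^ (j - i))⁻¹ = m := by
        have h4 := congrArg (fun z => (g ^ i)⁻¹ * z * g ^ i) hmm'
        beta_reduce at h4
        rw [show (g ^ i)⁻¹ * (g ^ i * m * (g ^ i)⁻¹) * g ^ i = m by group] at h4
        rw [h4]; group
      rw [h3]; exact hm
    have hcop : Nat.Coprime (j - i) (orderOf g) := by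
      have hd6 : (j - i) ∣ 6 := by
        have h1 : 1 ≤ j - i := by omega
        have h3 : j - i ≤ 3 := by omega
        interval_cases (j - i) <;> decide
      exact (Nat.Coprime.coprime_dvd_right hd6 hg6).symm
    obtain ⟨w, hw⟩ := exists_pow_eq_self_of_coprime hcop
    rw [← hw]
    exact Subgroup.pow_mem _ hd w
  rcases lt_or_gt_of_ne (fun h => hij (Fin.ext h) : (i : ℕ) ≠ j) with h | h
  · exact step i j h (by omega) hMij
  · exact step j i h (by omega) hMij.symm

theorem lemmaA {G : Type*} [Group G] [Finite G] (g : G) (hg6 : (orderOf g).Coprime 6) :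
    ∀ n : ℕ, ∀ Q : Subgroup G, Nat.card Q = n → IsPGroup 2 Q →
      g ∈ Subgroup.normalizer (Q : Set G) →
      (∃ c ∈ Q, (Subgroup.zpowers c).relIndex Q ≤ 2) → ∀ u ∈ Q, g * u * g⁻¹ = u := by
  haveI : Fact (Nat.Prime 2) := ⟨Nat.prime_two⟩
  have hg2 : (orderOf g).Coprime 2 := Nat.Coprime.coprime_dvd_right (by norm_num : 2 ∣ 6) hg6
  intro n
  induction n using Nat.strong_induction_on with
  | _ n ih =>
    intro Q hn hQ hgQ ⟨c, hcQ, hc2⟩ u hu
    by_cases hcyc : ∃ y, Subgroup.zpowers y = Q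
    · obtain ⟨y, hy⟩ := hcyc
      have hyQ : y ∈ Q := by rw [← hy]; exact Subgroup.mem_zpowers y
      obtain ⟨e, he⟩ : ∃ e, orderOf y = 2 ^ e := by
        obtain ⟨k, hk⟩ := hQ ⟨y, hyQ⟩
        have hk' : y ^ 2 ^ k = 1 := by simpa using congrArg Subtype.val hk
        obtain ⟨i, -, hi⟩ := (Nat.dvd_prime_pow Nat.prime_two).1 (orderOf_dvd_of_pow_eq_one hk')
        exact ⟨i, hi⟩
      obtain ⟨c', hc'⟩ := SylowConj.pow_two_commute y g e he (by rw [hy]; exact hgQ)
      obtain ⟨w, hw⟩ := exists_pow_eq_self_of_coprime (x := g) (n := 2 ^ c')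
        (Nat.Coprime.pow_left _ hg2.symm)
      have hcomm : Commute g y := by
        rw [← hw]
        exact (show Commute (g ^ 2 ^ c') y from hc').pow_left w
      rw [← hy] at hu
      obtain ⟨i, rfl⟩ := Subgroup.mem_zpowers_iff.1 hu
      have := (hcomm.zpow_right i).eq
      rw [this, mul_inv_cancel_right]
    · push Not at hcyc
      have hcne : Subgroup.zpowers c ≠ Q := hcyc c
      have hcle : Subgroup.zpowers c ≤ Q := by rw [Subgroup.zpowers_le]; exact hcQ
      have hc2' : (Subgroup.zpowers c).relIndex Q = 2 := by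
        have h1 : (Subgroup.zpowers c).relIndex Q ≠ 1 := by
          intro h
          exact hcne (le_antisymm hcle (Subgroup.relIndex_eq_one.1 h))
        have h0 := Index.relIndex_pos (Subgroup.zpowers c) Q
        omega
      obtain ⟨t, htQ, htc⟩ : ∃ t ∈ Q, t ∉ Subgroup.zpowers c := by
        by_contra hcon
        push Not at hcon
        exact hcne (le_antisymm hcle hcon)
      have hgen := gen Q c t htQ hc2' htc
      obtain ⟨e, he⟩ := IsPGroup.iff_card.1 hQ
      have hune : Subgroup.zpowers u ≠ Q := hcyc u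
      have hule : Subgroup.zpowers u ≤ Q := by rw [Subgroup.zpowers_le]; exact hu
      obtain ⟨i, hi⟩ := IsPGroup.iff_card.1 (hQ.to_le hule)
      have hilt : i < e := by
        by_contra hcon
        push Not at hcon
        apply hune
        apply Subgroup.eq_of_le_of_card_ge hule
        rw [hi, he]
        exact Nat.pow_le_pow_right (by norm_num) hcon
      have hH : Nat.card ((Subgroup.zpowers u).subgroupOf Q) = 2 ^ i := by
        rw [← hi]
        exact Nat.card_congr (Subgroup.subgroupOfEquivOfLe hule).toEquiv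
      obtain ⟨K, hK, hHK⟩ := Sylow.exists_subgroup_card_pow_prime_le 2 (m := e - 1)
        (by rw [he]; exact pow_dvd_pow 2 (by omega)) ((Subgroup.zpowers u).subgroupOf Q) hH
        (by omega)
      set M := K.map Q.subtype with hMdef
      have hMQ : M ≤ Q := Subgroup.map_subtype_le K
      have hMcard : Nat.card M = 2 ^ (e - 1) := by
        rw [hMdef, Subgroup.card_map_of_injective Q.subtype_injective, hK]
      have huM : u ∈ M := by
        have : (⟨u, hu⟩ : Q) ∈ K := hHK (Subgroup.mem_subgroupOf.2 (Subgroup.mem_zpowers u))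
        exact ⟨⟨u, hu⟩, this, rfl⟩
      have hM2 : M.relIndex Q = 2 := by
        have e1 := Index.card_eq_card_mul_relIndex M Q hMQ
        rw [hMcard, he] at e1
        have e2 : 2 ^ e = 2 ^ (e - 1) * 2 := by rw [← pow_succ]; congr 1; omega
        rw [e2] at e1
        exact (Nat.eq_of_mul_eq_mul_left (by positivity) e1).symm
      have hgM := normM g hg6 Q hgQ c t hcQ htQ hgen M hMQ hM2
      have hMlt : Nat.card M < n := by
        rw [← hn, hMcard, he]
        exact Nat.pow_lt_pow_right (by norm_num) (by omega)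
      have hcycM : ∃ c' ∈ M, (Subgroup.zpowers c').relIndex M ≤ 2 := by
        haveI : IsCyclic (M ⊓ Subgroup.zpowers c : Subgroup G) :=
          Subgroup.isCyclic_of_le (inf_le_right : M ⊓ Subgroup.zpowers c ≤ Subgroup.zpowers c)
        obtain ⟨c', hc'⟩ := (Subgroup.isCyclic_iff_exists_zpowers_eq_top _).1 this
        refine ⟨c', ?_, ?_⟩
        · have : c' ∈ M ⊓ Subgroup.zpowers c := by rw [← hc']; exact Subgroup.mem_zpowers c'
          exact this.1
        · rw [hc', Subgroup.inf_relIndex_left]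
          have := Subgroup.relIndex_le_of_le_right (H := Subgroup.zpowers c) hMQ
            (by rw [hc2']; norm_num)
          rw [hc2'] at this
          exact this
      exact ih _ hMlt M rfl (hQ.to_le hMQ) hgM hcycM u huM

/-- Let `G` be a finite group of order `2 ^ a * n` with `n` odd and not divisible by `3`, and suppose `G` has an element of order `2 ^ (a - 1)` (so a Sylow `2`-subgroup has a cyclic subgroup of index at most `2`). Then `G` has a normal subgroup of order `n`. -/
theorem result {G : Type*} [Group G] [Finite G] (a n : ℕ) (hG : Nat.card G = 2 ^ a * n) (hn : Odd n) (h3 : ¬ 3 ∣ n) (hx : ∃ x : G, orderOf x = 2 ^ (a - 1)) : ∃ N : Subgroup G, N.Normal ∧ Nat.card N = n := by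
  haveI : Fact (Nat.Prime 2) := ⟨Nat.prime_two⟩
  obtain ⟨x, hx⟩ := hx
  have hxp : IsPGroup 2 (Subgroup.zpowers x) := SylowConj.isPGroup_zpowers x (a - 1) hx
  obtain ⟨P, hP⟩ := hxp.exists_le_sylow
  have hn0 : n ≠ 0 := by rintro rfl; simp at hn
  have hPcard : Nat.card P = 2 ^ a := by
    rw [Sylow.card_eq_multiplicity, hG]
    congr 1
    rw [Nat.factorization_mul (by positivity) hn0, Nat.factorization_pow]
    simp [Nat.factorization_eq_zero_of_not_dvd (hn.not_two_dvd_nat), Nat.prime_two.factorization_self]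
  have hxidx : (Subgroup.zpowers x).relIndex P ≤ 2 := by
    have e1 := Index.card_eq_card_mul_relIndex (Subgroup.zpowers x) P hP
    rw [hPcard, Nat.card_zpowers, hx] at e1
    rcases Nat.eq_zero_or_pos a with h0 | hpos
    · subst h0; simp at e1; omega
    · have e2 : 2 ^ a = 2 ^ (a - 1) * 2 := by rw [← pow_succ]; congr 1; omega
      rw [e2] at e1
      have := Nat.eq_of_mul_eq_mul_left (by positivity) e1
      omega
  obtain ⟨N, hN, hc⟩ := (Cfsg.Agent.S0071.result P).2 (by
    intro Q hQP g hg hodd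
    have hQ : IsPGroup 2 Q := P.isPGroup'.to_le hQP
    have hg6 : (orderOf g).Coprime 6 := by
      have h1 : orderOf g ∣ 2 ^ a * n := by rw [← hG]; exact orderOf_dvd_natCard g
      have h2 : orderOf g ∣ n := (Nat.Coprime.pow_right a hodd).dvd_of_dvd_mul_left h1
      have h3' : (orderOf g).Coprime 3 := by
        rw [Nat.coprime_comm, Nat.Prime.coprime_iff_not_dvd Nat.prime_three]
        intro h; exact h3 (h.trans h2)
      exact (Nat.Coprime.mul_right hodd h3' : (orderOf g).Coprime (2 * 3))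
    have hcyc : ∃ c ∈ Q, (Subgroup.zpowers c).relIndex Q ≤ 2 := by
      haveI : IsCyclic (Q ⊓ Subgroup.zpowers x : Subgroup G) :=
        Subgroup.isCyclic_of_le (inf_le_right : Q ⊓ Subgroup.zpowers x ≤ Subgroup.zpowers x)
      obtain ⟨c', hc'⟩ := (Subgroup.isCyclic_iff_exists_zpowers_eq_top _).1 this
      refine ⟨c', ?_, ?_⟩
      · have : c' ∈ Q ⊓ Subgroup.zpowers x := by rw [← hc']; exact Subgroup.mem_zpowers c'
        exact this.1
      · rw [hc', Subgroup.inf_relIndex_left]
        have h0 : (Subgroup.zpowers x).relIndex P ≠ 0 := (Index.relIndex_pos _ _).ne'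
        exact (Subgroup.relIndex_le_of_le_right hQP h0).trans hxidx
    rw [Subgroup.mem_centralizer_iff]
    intro u hu
    have h1 := lemmaA g hg6 _ Q rfl hQ hg hcyc u hu
    rw [← h1, inv_mul_cancel_right, h1])
  refine ⟨N, hN, ?_⟩
  have := hc.card_mul_card
  rw [hPcard, hG, mul_comm] at this
  exact Nat.eq_of_mul_eq_mul_left (by positivity) this

end Cfsg.Agent.S3971
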