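import Cfsg.Statements.S3975
import Mathlib

set_option autoImplicit false
open Cfsg

namespace Cfsg.Agent.S3975

open scoped Pointwise
open MulAction

variable {G : Type*} [Group G] [Fintype G] [DecidableEq G]

noncomputable def toFin (H : Subgroup G) : Finset G :=
  @Finset.filter G (fun x => x ∈ H) (Classical.decPred _) Finset.univ

theorem mem_toFin (H : Subgroup G) (x : G) : x ∈ toFin H ↔ x ∈ H := by
  unfold toFin
  simp

theorem card_toFin (H : Subgroup G) : (toFin H).card = Nat.card H := by
  classical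
  rw [Nat.card_eq_fintype_card]
  exact (Fintype.card_of_subtype (toFin H) (mem_toFin H)).symm

noncomputable def toX (H : Subgroup G) (n : ℕ) (h : Nat.card H = n) : Set.powersetCard G n :=
  ⟨toFin H, by rw [Set.powersetCard.mem_iff, card_toFin, h]⟩

theorem stab_toX (H : Subgroup G) (n : ℕ) (h : Nat.card H = n) :
    stabilizer G (toX H n h) = H := by
  ext g
  rw [mem_stabilizer_iff]
  constructor
  · intro hg
    have h1 : (1 : G) ∈ ((toX H n h : Set.powersetCard G n) : Finset G) :=
      (mem_toFin H 1).2 H.one_mem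
    rw [← hg, Set.powersetCard.coe_smul, Finset.mem_smul_finset] at h1
    obtain ⟨y, hy, hy1⟩ := h1
    have : g = y⁻¹ := eq_inv_of_mul_eq_one_left hy1
    rw [this]
    exact H.inv_mem ((mem_toFin H y).1 hy)
  · intro hg
    apply Subtype.ext
    rw [Set.powersetCard.coe_smul]
    ext x
    rw [Finset.mem_smul_finset]
    constructor
    · rintro ⟨y, hy, rfl⟩
      exact (mem_toFin H _).2 (H.mul_mem hg ((mem_toFin H y).1 hy))
    · intro hx
      exact ⟨g⁻¹ * x, (mem_toFin H _).2 (H.mul_mem (H.inv_mem hg) ((mem_toFin H x).1 hx)),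
        by simp⟩

theorem card_stab_dvd (n : ℕ) (s : Set.powersetCard G n) :
    Nat.card (stabilizer G s) ∣ n := by
  let Y : SubMulAction (stabilizer G s) G :=
    { carrier := ((s : Finset G) : Set G)
      smul_mem' := by
        intro t x hx
        have ht : (t : G) • s = s := t.2
        have h1 : (t : G) • x ∈ (((t : G) • s : Set.powersetCard G n) : Finset G) := by
          rw [Set.powersetCard.coe_smul]
          exact Finset.smul_mem_smul_finset hx
        rw [ht] at h1
        exact h1 }
  have hfree : ∀ y : Y, stabilizer (stabilizer G s) y = ⊥ := by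
    intro y
    ext t
    rw [mem_stabilizer_iff, Subgroup.mem_bot]
    constructor
    · intro h
      have h' : (t : G) * (y : G) = y := congrArg Subtype.val h
      exact Subtype.ext (mul_eq_right.1 h')
    · rintro rfl
      exact one_smul _ _
  have e := selfEquivOrbitsQuotientProd hfree
  have hc : Nat.card Y = n := by
    have h0 : Nat.card Y = Nat.card (((s : Finset G) : Set G)) := rfl
    rw [h0, Nat.card_coe_set_eq, Set.ncard_coe_finset, Set.powersetCard.card_eq]
  have h2 := Nat.card_congr e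
  rw [Nat.card_prod, hc] at h2
  exact Dvd.intro_left _ h2.symm

theorem toX_stab (n : ℕ) (s : Set.powersetCard G n) (h1 : (1 : G) ∈ (s : Finset G))
    (h : Nat.card (stabilizer G s) = n) : toX (stabilizer G s) n h = s := by
  apply Subtype.ext
  apply Finset.eq_of_subset_of_card_le
  · intro x hx
    have hx' : x ∈ stabilizer G s := (mem_toFin _ x).1 hx
    rw [mem_stabilizer_iff] at hx'
    have h2 : x • (1 : G) ∈ ((x • s : Set.powersetCard G n) : Finset G) := by
      rw [Set.powersetCard.coe_smul]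
      exact Finset.smul_mem_smul_finset h1
    rw [hx'] at h2
    simpa using h2
  · rw [Set.powersetCard.card_eq]
    change n ≤ (toFin _).card
    rw [card_toFin, h]

theorem exists_subgroup (n : ℕ) (hn : 0 < n) (s : Set.powersetCard G n)
    (h : Nat.card (stabilizer G s) = n) :
    ∃ (H : Subgroup G) (hH : Nat.card H = n), toX H n hH ∈ orbit G s := by
  have hne : (s : Finset G).Nonempty := by
    rw [← Finset.card_pos, Set.powersetCard.card_eq]
    exact hn
  obtain ⟨x0, hx0⟩ := hne
  have h1 : (1 : G) ∈ ((x0⁻¹ • s : Set.powersetCard G n) : Finset G) := by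
    rw [Set.powersetCard.coe_smul, Finset.mem_smul_finset]
    exact ⟨x0, hx0, by simp⟩
  have h2 : Nat.card (stabilizer G (x0⁻¹ • s)) = n := by
    rw [stabilizer_smul_eq_stabilizer_map_conj,
      Subgroup.card_map_of_injective (MulAut.conj x0⁻¹).injective, h]
  refine ⟨stabilizer G (x0⁻¹ • s), h2, ?_⟩
  rw [toX_stab n _ h1 h2]
  exact mem_orbit s x0⁻¹

theorem toX_unique (n : ℕ) (H₁ H₂ : Subgroup G) (h₁ : Nat.card H₁ = n) (h₂ : Nat.card H₂ = n)
    (g : G) (hg : g • toX H₁ n h₁ = toX H₂ n h₂) : H₁ = H₂ := by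
  have h1 : (1 : G) ∈ ((toX H₂ n h₂ : Set.powersetCard G n) : Finset G) :=
    (mem_toFin H₂ 1).2 H₂.one_mem
  rw [← hg, Set.powersetCard.coe_smul, Finset.mem_smul_finset] at h1
  obtain ⟨y, hy, hy1⟩ := h1
  have hgH : g ∈ H₁ := by
    have : g = y⁻¹ := eq_inv_of_mul_eq_one_left hy1
    rw [this]
    exact H₁.inv_mem ((mem_toFin H₁ y).1 hy)
  have hst : g ∈ stabilizer G (toX H₁ n h₁) := by
    rw [stab_toX]
    exact hgH
  rw [mem_stabilizer_iff] at hst
  rw [hst] at hg
  have h3 : toFin H₁ = toFin H₂ := congrArg Subtype.val hg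
  ext x
  rw [← mem_toFin H₁, ← mem_toFin H₂, h3]


theorem orbit_congr (p β m : ℕ) (hp : p.Prime) (hG : Nat.card G = p ^ β * m)
    (s : Set.powersetCard G (p ^ β)) :
    Nat.card (orbit G s) ≡ m * Nat.card {H : {H : Subgroup G // Nat.card H = p ^ β} //
      toX H.1 (p ^ β) H.2 ∈ orbit G s} [MOD p * m] := by
  have hn : 0 < p ^ β := pow_pos hp.pos β
  have hos : Nat.card (orbit G s) * Nat.card (stabilizer G s) = p ^ β * m := by
    rw [← hG, ← Nat.card_prod]
    exact Nat.card_congr (orbitProdStabilizerEquivGroup G s)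
  have hdvd := card_stab_dvd (p ^ β) s
  by_cases hT : Nat.card (stabilizer G s) = p ^ β
  · have h1 : Nat.card (orbit G s) = m := by
      rw [hT, mul_comm] at hos
      exact Nat.eq_of_mul_eq_mul_left hn hos
    have h2 : Nat.card {H : {H : Subgroup G // Nat.card H = p ^ β} //
        toX H.1 (p ^ β) H.2 ∈ orbit G s} = 1 := by
      rw [Nat.card_eq_one_iff_unique]
      constructor
      · constructor
        rintro ⟨⟨H₁, h₁⟩, ho₁⟩ ⟨⟨H₂, h₂⟩, ho₂⟩
        obtain ⟨g₁, hg₁⟩ := ho₁
        obtain ⟨g₂, hg₂⟩ := ho₂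
        have h3 : (g₂ * g₁⁻¹) • toX H₁ (p ^ β) h₁ = toX H₂ (p ^ β) h₂ := by
          rw [← hg₁, ← hg₂, smul_smul, inv_mul_cancel_right]
        have h4 := toX_unique _ H₁ H₂ h₁ h₂ _ h3
        subst h4
        rfl
      · obtain ⟨H, hH, hmem⟩ := exists_subgroup (p ^ β) hn s hT
        exact ⟨⟨⟨H, hH⟩, hmem⟩⟩
    rw [h1, h2, mul_one]
  · have h2 : Nat.card {H : {H : Subgroup G // Nat.card H = p ^ β} //
        toX H.1 (p ^ β) H.2 ∈ orbit G s} = 0 := by
      rw [Nat.card_eq_zero]
      left
      constructor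
      rintro ⟨⟨H, hH⟩, g, hg⟩
      apply hT
      have h3 := stabilizer_smul_eq_stabilizer_map_conj g s
      have hg' : g • s = toX H (p ^ β) hH := hg
      rw [hg', stab_toX] at h3
      have h4 : Nat.card H = Nat.card (stabilizer G s) := by
        conv_lhs => rw [h3]
        exact Subgroup.card_map_of_injective (MulAut.conj g).injective
      exact h4.symm.trans hH
    have h1 : p * m ∣ Nat.card (orbit G s) := by
      obtain ⟨j, hj, hj'⟩ := (Nat.dvd_prime_pow hp).1 hdvd
      have hjlt : j < β := lt_of_le_of_ne hj (by rintro rfl; exact hT hj')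
      rw [hj'] at hos
      have h5 : p ^ β * m = p ^ j * (p ^ (β - j - 1) * (p * m)) := by
        have h6 : β = j + ((β - j - 1) + 1) := by omega
        conv_lhs => rw [h6]
        rw [pow_add, pow_succ]
        ring
      rw [h5, mul_comm] at hos
      have h3 := Nat.eq_of_mul_eq_mul_left (pow_pos hp.pos j) hos
      rw [h3]
      exact Dvd.intro_left _ rfl
    rw [h2, mul_zero]
    exact (Nat.modEq_zero_iff_dvd).2 h1

theorem wielandt (p β m : ℕ) (hp : p.Prime) (hG : Nat.card G = p ^ β * m) :
    (p ^ β * m).choose (p ^ β) ≡ m * Nat.card {H : Subgroup G // Nat.card H = p ^ β}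
      [MOD p * m] := by
  classical
  have e1 := selfEquivSigmaOrbits G (Set.powersetCard G (p ^ β))
  let f : {H : Subgroup G // Nat.card H = p ^ β} →
      orbitRel.Quotient G (Set.powersetCard G (p ^ β)) :=
    fun H => Quotient.mk'' (toX H.1 (p ^ β) H.2)
  have e2 := Equiv.sigmaFiberEquiv f
  have hX : Nat.card (Set.powersetCard G (p ^ β)) = (p ^ β * m).choose (p ^ β) := by
    rw [Set.powersetCard.card, hG]
  have : Fintype (orbitRel.Quotient G (Set.powersetCard G (p ^ β))) := Fintype.ofFinite _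
  rw [← hX, Nat.card_congr e1, ← Nat.card_congr e2, Nat.card_sigma, Nat.card_sigma,
    Finset.mul_sum]
  apply Nat.ModEq.sum
  intro ω _
  have h := orbit_congr p β m hp hG ω.out
  have key : ∀ H : {H : Subgroup G // Nat.card H = p ^ β},
      toX H.1 (p ^ β) H.2 ∈ orbit G ω.out ↔ f H = ω := by
    intro H
    conv_rhs => rw [← Quotient.out_eq' ω]
    change _ ↔ (Quotient.mk'' (toX H.1 (p ^ β) H.2) :
      orbitRel.Quotient G (Set.powersetCard G (p ^ β))) = Quotient.mk'' ω.out
    rw [Quotient.eq'', orbitRel_apply]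
  rw [← Nat.card_congr (Equiv.subtypeEquivRight key)]
  exact h

theorem choose_lemma (p : ℕ) (hp : p.Prime) (m : ℕ) (hm : 0 < m) (β : ℕ) :
    (p ^ β * m - 1).choose (p ^ β - 1) ≡ 1 [MOD p] := by
  have := Fact.mk hp
  have hp1 : 1 ≤ p := hp.pos
  have hdec : ∀ a : ℕ, 0 < a → p * a - 1 = (p - 1) + p * (a - 1) := by
    intro a ha
    obtain ⟨b, rfl⟩ : ∃ b, a = b + 1 := ⟨a - 1, by omega⟩
    rw [Nat.mul_succ]
    simp only [Nat.add_sub_cancel]
    omega
  induction β with
  | zero => simp [Nat.ModEq]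
  | succ β ih =>
    have ha : 0 < p ^ β * m := Nat.mul_pos (pow_pos hp.pos β) hm
    have hb : 0 < p ^ β := pow_pos hp.pos β
    have e1 : p ^ (β + 1) * m - 1 = (p - 1) + p * (p ^ β * m - 1) := by
      rw [← hdec _ ha, pow_succ]
      congr 1
      ring
    have e2 : p ^ (β + 1) - 1 = (p - 1) + p * (p ^ β - 1) := by
      rw [← hdec _ hb, pow_succ]
      congr 1
      ring
    have hlt : p - 1 < p := by omega
    have L := @Choose.choose_modEq_choose_mod_mul_choose_div_nat (p ^ (β + 1) * m - 1)
      (p ^ (β + 1) - 1) p _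
    rw [e1, e2, Nat.add_mul_mod_self_left, Nat.add_mul_mod_self_left,
      Nat.add_mul_div_left _ _ hp.pos, Nat.add_mul_div_left _ _ hp.pos,
      Nat.mod_eq_of_lt hlt, Nat.div_eq_of_lt hlt, Nat.choose_self, one_mul, zero_add,
      zero_add] at L
    rw [e1, e2]
    exact L.trans ih

theorem choose_lemma2 (n m : ℕ) (hn : 0 < n) (hm : 0 < m) :
    (n * m).choose n = m * (n * m - 1).choose (n - 1) := by
  have h := Nat.add_one_mul_choose_eq (n * m - 1) (n - 1)
  have h1 : n * m - 1 + 1 = n * m := by
    have : 0 < n * m := Nat.mul_pos hn hm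
    omega
  have h2 : n - 1 + 1 = n := by omega
  rw [h1, h2] at h
  have h3 : n * (m * (n * m - 1).choose (n - 1)) = n * (n * m).choose n := by
    rw [← mul_assoc, h, mul_comm]
  exact (Nat.eq_of_mul_eq_mul_left hn h3).symm

theorem main {G : Type*} [Group G] [Finite G] (p β : ℕ) (hp : p.Prime)
    (hdiv : p ^ β ∣ Nat.card G) :
    Nat.card {H : Subgroup G // Nat.card H = p ^ β} ≡ 1 [MOD p] := by
  classical
  have := Fintype.ofFinite G
  obtain ⟨m, hm⟩ := hdiv
  have hm0 : 0 < m := by
    rcases Nat.eq_zero_or_pos m with h | h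
    · rw [h, mul_zero] at hm
      exact absurd hm Nat.card_pos.ne'
    · exact h
  have hn : 0 < p ^ β := pow_pos hp.pos β
  have h1 := wielandt p β m hp hm
  have h2 : (p ^ β * m).choose (p ^ β) ≡ m * 1 [MOD m * p] := by
    rw [choose_lemma2 _ _ hn hm0]
    exact Nat.ModEq.mul_left' m (choose_lemma p hp m hm0 β)
  rw [mul_comm p m] at h1
  exact Nat.ModEq.mul_left_cancel' hm0.ne' (h1.symm.trans h2)

/-- Let `p` be a prime and `G` a finite group whose order is divisible by `p ^ β`. Then the number of subgroups of `G` of order `p ^ β` is congruent to `1` modulo `p`. (When `p ^ β` is the full power of `p` dividing the order, these are the Sylow `p`-subgroups and this is the usual Sylow count.) -/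
theorem result {G : Type*} [Group G] [Finite G] (p β : ℕ) (hp : p.Prime) (hdiv : p ^ β ∣ Nat.card G) : Nat.card {H : Subgroup G // Nat.card H = p ^ β} ≡ 1 [MOD p] := by
  exact main p β hp hdiv

end Cfsg.Agent.S3975
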