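import Cfsg.Statements.S3976
import Mathlib
import Cfsg.Agent.S3975

set_option autoImplicit false
open Cfsg

namespace Cfsg.Agent.S3976

open scoped Pointwise

def conjAction (G : Type*) [Group G] : MulAction G (Subgroup G) :=
  MulAction.compHom (Subgroup G) (MulAut.conj : G →* MulAut G)

theorem card_conj_smul {G : Type*} [Group G] (g : G) (H : Subgroup G) :
    Nat.card (MulAut.conj g • H : Subgroup G) = Nat.card H :=
  Nat.card_congr (Subgroup.equivSMul (MulAut.conj g) H).toEquiv.symm

def subAct (G : Type*) [Group G] (n : ℕ) :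
    @SubMulAction G (Subgroup G) (conjAction G).toSMul :=
  letI := conjAction G
  { carrier := {H : Subgroup G | Nat.card H = n}
    smul_mem' := fun g H hH => (card_conj_smul g H).trans hH }

theorem main {G : Type*} [Group G] [Finite G] (p m s : ℕ) (hp : p.Prime)
    (hG : Nat.card G = p ^ m) (hs : s ≤ m) :
    Nat.card {H : Subgroup G // H.Normal ∧ Nat.card H = p ^ s} ≡ 1 [MOD p] := by
  letI := conjAction G
  have hpf : Fact p.Prime := ⟨hp⟩
  have hPG : IsPGroup p G := IsPGroup.of_card hG
  have hfin : Finite (subAct G (p ^ s)) := Subtype.finite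
  have h1 := hPG.card_modEq_card_fixedPoints (subAct G (p ^ s))
  have h2 : Nat.card (subAct G (p ^ s)) ≡ 1 [MOD p] :=
    Cfsg.Agent.S3975.result p s hp (by rw [hG]; exact pow_dvd_pow p hs)
  have e : MulAction.fixedPoints G (subAct G (p ^ s)) ≃
      {H : Subgroup G // H.Normal ∧ Nat.card H = p ^ s} :=
    { toFun := fun x => ⟨x.1.1, ⟨Subgroup.Normal.of_conjugate_fixed
        (fun g => congrArg Subtype.val (x.2 g)), x.1.2⟩⟩
      invFun := fun H => ⟨⟨H.1, H.2.2⟩, fun g => Subtype.ext (by
        haveI := H.2.1
        exact Subgroup.Normal.conj_smul_eq_self g H.1)⟩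
      left_inv := fun x => rfl
      right_inv := fun H => rfl }
  rw [← Nat.card_congr e]
  exact h1.symm.trans h2

/-- Let `p` be a prime and `G` a group of order `p ^ m`. For every `s ≤ m` the number of normal subgroups of `G` of order `p ^ s` is congruent to `1` modulo `p`. -/
theorem result {G : Type*} [Group G] [Finite G] (p m s : ℕ) (hp : p.Prime) (hG : Nat.card G = p ^ m) (hs : s ≤ m) : Nat.card {H : Subgroup G // H.Normal ∧ Nat.card H = p ^ s} ≡ 1 [MOD p] := by
  exact main p m s hp hG hs

end Cfsg.Agent.S3976
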