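import Cfsg.Statements.S3979
import Mathlib.GroupTheory.SpecificGroups.Cyclic

set_option autoImplicit false
open Cfsg

namespace Cfsg.Agent.S3979

/-- A finite cyclic group has trivial Schur multiplier: every finite stem extension of it is an isomorphism, said through `HasCyclicSchurMultiplier G 1`. -/
theorem result {G : Type*} [Group G] [Finite G] [IsCyclic G] : Cfsg.HasCyclicSchurMultiplier G 1 := by
  refine ⟨⟨G, inferInstance, inferInstance, MonoidHom.id G, ⟨Function.surjective_id, ?_, ?_⟩, ⟨?_⟩⟩, ?_⟩
  · intro x hx
    have hx1 : x = 1 := hx
    rw [hx1]; exact Subgroup.one_mem _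
  · intro x hx
    have hx1 : x = 1 := hx
    rw [hx1]; exact Subgroup.one_mem _
  · exact
      { toFun := fun _ => 1
        invFun := fun _ => 1
        left_inv := by
          intro x
          apply Subtype.ext
          exact x.2.symm
        right_inv := by
          intro y
          exact Subsingleton.elim (α := ZMod 1) _ _
        map_mul' := by
          intro x y
          exact Subsingleton.elim (α := ZMod 1) _ _ }
  · intro Γ _ _ σ hσ
    obtain ⟨hsurj, hcen, hcomm⟩ := hσ
    have hc : IsMulCommutative Γ := σ.isMulCommutative_of_isCyclic_of_ker_le_center hcen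
    have hbot : commutator Γ = ⊥ := by
      rw [commutator_def, eq_bot_iff, Subgroup.commutator_le]
      intro a _ b _
      rw [Subgroup.mem_bot, commutatorElement_eq_one_iff_commute]
      exact hc.is_comm.comm a b
    refine ⟨1, ?_⟩
    intro y
    refine ⟨1, ?_⟩
    apply Subtype.ext
    have hy : (y : Γ) ∈ commutator Γ := hcomm y.2
    rw [hbot, Subgroup.mem_bot] at hy
    rw [hy]; rfl

end Cfsg.Agent.S3979
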