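import Cfsg.Statements.S3993

import Mathlib
import Cfsg.Agent.Lib.Helper2.ConjCount

set_option autoImplicit false
open Cfsg
open scoped Pointwise

namespace Cfsg.Agent.S3993

open Cfsg.Agent.Lib.Helper2

universe u

/-- number of solutions of `x ^ n = 1` -/
noncomputable def numSol (G : Type*) [Group G] (n : ℕ) : ℕ := Nat.card {x : G // x ^ n = 1}

theorem numSol_gcd (G : Type*) [Group G] [Finite G] (n : ℕ) :
    numSol G n = numSol G (Nat.gcd n (Nat.card G)) := by
  unfold numSol
  apply Nat.card_congr
  apply Equiv.subtypeEquivRight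
  intro x
  rw [pow_gcd_eq_one]
  exact ⟨fun h => ⟨h, pow_card_eq_one'⟩, fun h => h.1⟩

theorem numSol_eq_card (G : Type*) [Group G] [Fintype G] (n : ℕ)
    [DecidablePred fun x : G => x ^ n = 1] :
    numSol G n = (Finset.univ.filter (fun x : G => x ^ n = 1)).card := by
  unfold numSol
  rw [Nat.card_eq_fintype_card, Fintype.card_subtype]

theorem numSol_quot {G : Type*} [Group G] [Finite G] (Z : Subgroup G) [Z.Normal]
    (hZ : Z ≤ Subgroup.center G) (m : ℕ) (hm : (Nat.card Z).Coprime m) :
    numSol G m = numSol (G ⧸ Z) m := by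
  unfold numSol
  have hz1 : ∀ z ∈ Z, z ^ m = 1 → z = 1 := by
    intro z hz h
    have h1 : orderOf z ∣ m := orderOf_dvd_of_pow_eq_one h
    have h2 : orderOf z ∣ Nat.card Z := by
      have := orderOf_dvd_natCard (⟨z, hz⟩ : Z)
      rwa [Subgroup.orderOf_mk] at this
    have h3 : orderOf z ∣ 1 := by
      have := Nat.dvd_gcd h2 h1
      rwa [Nat.Coprime.gcd_eq_one hm] at this
    exact orderOf_eq_one_iff.mp (Nat.dvd_one.mp h3)
  apply Nat.card_congr
  refine Equiv.ofBijective
    (fun x => ⟨(QuotientGroup.mk x.1 : G ⧸ Z), by rw [← QuotientGroup.mk_pow, x.2]; rfl⟩) ⟨?_, ?_⟩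
  · rintro ⟨x, hx⟩ ⟨x', hx'⟩ h
    simp only [Subtype.mk.injEq] at h
    rw [QuotientGroup.eq] at h
    apply Subtype.ext
    show x = x'
    have hc : Commute x (x⁻¹ * x') := Subgroup.mem_center_iff.mp (hZ h) x
    have h1 : (x⁻¹ * x') ^ m = 1 := by
      have e : x * (x⁻¹ * x') = x' := by group
      have h2 : x' ^ m = x ^ m * (x⁻¹ * x') ^ m := by rw [← hc.mul_pow, e]
      rw [hx', hx, one_mul] at h2
      exact h2.symm
    have := hz1 _ h h1
    exact inv_mul_eq_one.mp this
  · rintro ⟨q, hq⟩
    obtain ⟨x, rfl⟩ := QuotientGroup.mk_surjective q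
    have hxm : x ^ m ∈ Z := by
      rw [← QuotientGroup.eq_one_iff, QuotientGroup.mk_pow]; exact hq
    have hg : (x ^ m)⁻¹ ∈ Z := Z.inv_mem hxm
    have hco : m.Coprime (orderOf ((x ^ m)⁻¹)) := by
      have h2 : orderOf ((x ^ m)⁻¹) ∣ Nat.card Z := by
        have := orderOf_dvd_natCard (⟨_, hg⟩ : Z)
        rwa [Subgroup.orderOf_mk] at this
      exact (Nat.Coprime.coprime_dvd_left h2 hm).symm
    obtain ⟨u, hu⟩ := exists_pow_eq_self_of_coprime hco
    have hzZ : ((x ^ m)⁻¹) ^ u ∈ Z := Z.pow_mem hg u
    have hzm : (((x ^ m)⁻¹) ^ u) ^ m = (x ^ m)⁻¹ := by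
      rw [← pow_mul, mul_comm, pow_mul]; exact hu
    have hc : Commute x (((x ^ m)⁻¹) ^ u) := Subgroup.mem_center_iff.mp (hZ hzZ) x
    refine ⟨⟨x * ((x ^ m)⁻¹) ^ u, ?_⟩, ?_⟩
    · rw [hc.mul_pow, hzm, mul_inv_cancel]
    · apply Subtype.ext
      show (QuotientGroup.mk (x * ((x ^ m)⁻¹) ^ u) : G ⧸ Z) = QuotientGroup.mk x
      rw [QuotientGroup.eq]
      have e : (x * ((x ^ m)⁻¹) ^ u)⁻¹ * x = ((((x ^ m)⁻¹) ^ u))⁻¹ := by group
      rw [e]
      exact Z.inv_mem hzZ

theorem dvd_sum_fiber {α β : Type*} [DecidableEq β] (Y : Finset α) (F : α → ℕ) (r : α → β)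
    (d : ℕ) (h : ∀ y₀ ∈ Y, d ∣ ∑ y ∈ Y.filter (fun y => r y = r y₀), F y) :
    d ∣ ∑ y ∈ Y, F y := by
  rw [← Finset.sum_fiberwise_of_maps_to (g := r) (t := Y.image r)
    (fun x hx => Finset.mem_image_of_mem r hx)]
  apply Finset.dvd_sum
  intro c hc
  obtain ⟨y₀, hy₀, rfl⟩ := Finset.mem_image.mp hc
  exact h y₀ hy₀

theorem dvd_mul_gcd_of_dvd_mul {m A B : ℕ} (h : m ∣ A * B) : m ∣ A * Nat.gcd m B := by
  rw [← Nat.gcd_mul_left]
  exact Nat.dvd_gcd (Dvd.intro_left A rfl) h

/-- the count of solutions commuting with `y` -/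
theorem card_comm_eq_numSol {G : Type*} [Group G] [Fintype G] (y : G) (m : ℕ)
    [DecidablePred fun z : G => Commute y z ∧ z ^ m = 1] :
    (Finset.univ.filter (fun z : G => Commute y z ∧ z ^ m = 1)).card =
      numSol ↥(Subgroup.centralizer ({y} : Set G)) m := by
  unfold numSol
  rw [← Fintype.card_subtype, ← Nat.card_eq_fintype_card]
  apply Nat.card_congr
  refine
    { toFun := fun z => ⟨⟨z.1, Subgroup.mem_centralizer_singleton_iff.mpr z.2.1.symm.eq⟩,
        Subtype.ext (by simpa using z.2.2)⟩
      invFun := fun z => ⟨z.1.1, (Subgroup.mem_centralizer_singleton_iff.mp z.1.2).symm,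
        by simpa using congrArg Subtype.val z.2⟩
      left_inv := fun z => rfl
      right_inv := fun z => rfl }

theorem card_lt_of_ne_top {G : Type*} [Group G] [Finite G] (H : Subgroup G) (h : H ≠ ⊤) :
    Nat.card H < Nat.card G := by
  by_contra hcon
  push Not at hcon
  exact h (Subgroup.eq_top_of_card_eq H (le_antisymm (Subgroup.card_le_card_group H) hcon))

set_option maxHeartbeats 1600000 in
theorem main (N : ℕ) : ∀ (G : Type u) [Group G] [Finite G], Nat.card G = N →
    ∀ n : ℕ, Nat.gcd n (Nat.card G) ∣ numSol G n := by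
  induction N using Nat.strong_induction_on with
  | _ N ihN =>
  intro G _ _ hN
  classical
  haveI : Fintype G := Fintype.ofFinite G
  have hpos : 0 < Nat.card G := Nat.card_pos
  have inner : ∀ k n : ℕ, n * k = Nat.card G → n ∣ numSol G n := by
    intro k
    induction k using Nat.strong_induction_on with
    | _ k ihk =>
    intro n hnk
    have hk0 : k ≠ 0 := by
      rintro rfl; rw [mul_zero] at hnk; exact absurd hnk.symm hpos.ne'
    have hn0 : n ≠ 0 := by
      rintro rfl; rw [zero_mul] at hnk; exact absurd hnk.symm hpos.ne'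
    by_cases hk1 : k = 1
    · subst hk1
      rw [mul_one] at hnk
      have : numSol G n = Nat.card G := by
        unfold numSol
        exact Nat.card_congr (Equiv.subtypeUnivEquiv (fun x => by rw [hnk]; exact pow_card_eq_one'))
      rw [this, hnk]
    have hp : (Nat.minFac k).Prime := Nat.minFac_prime hk1
    set p := Nat.minFac k with hpdef
    obtain ⟨k', hk'⟩ : p ∣ k := Nat.minFac_dvd k
    have hk'0 : k' ≠ 0 := by rintro rfl; simp at hk'; exact hk0 hk'
    have hk'lt : k' < k := by
      rw [hk']
      have := hp.two_le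
      nlinarith [Nat.pos_of_ne_zero hk'0]
    have hnpk : (n * p) * k' = Nat.card G := by rw [← hnk, hk', mul_assoc]
    have ih1 : n * p ∣ numSol G (n * p) := ihk k' hk'lt (n * p) hnpk
    obtain ⟨a, m, hpm, hnp⟩ := Nat.exists_eq_pow_mul_and_not_dvd
      (Nat.mul_ne_zero hn0 hp.ne_zero) p hp.ne_one
    have ha0 : a ≠ 0 := by
      rintro rfl
      rw [pow_zero, one_mul] at hnp
      exact hpm (hnp ▸ Dvd.intro_left n rfl)
    obtain ⟨b, rfl⟩ := Nat.exists_eq_succ_of_ne_zero ha0
    have hn : n = p ^ b * m := by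
      have : n * p = (p ^ b * m) * p := by rw [hnp, pow_succ]; ring
      exact Nat.eq_of_mul_eq_mul_right hp.pos this
    have hcop : Nat.Coprime (p ^ (b + 1)) m :=
      Nat.Coprime.pow_left _ ((Nat.Prime.coprime_iff_not_dvd hp).mpr hpm)
    have hcopb : Nat.Coprime (p ^ b) m :=
      Nat.Coprime.pow_left _ ((Nat.Prime.coprime_iff_not_dvd hp).mpr hpm)
    have hm_dvd : m ∣ Nat.card G := by
      rw [← hnpk, hnp]
      exact Dvd.dvd.mul_right (Dvd.intro_left _ rfl) _
    -- the difference set
    set X : Finset G := Finset.univ.filter (fun x : G => x ^ (n * p) = 1 ∧ x ^ n ≠ 1) with hX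
    have hsplit : numSol G (n * p) = X.card + numSol G n := by
      have hA : (Finset.univ.filter (fun x : G => x ^ n = 1)) =
          (Finset.univ.filter (fun x : G => x ^ (n * p) = 1)).filter (fun x => x ^ n = 1) := by
        ext x
        simp only [Finset.mem_filter, Finset.mem_univ, true_and]
        exact ⟨fun h => ⟨by rw [pow_mul, h, one_pow], h⟩, fun h => h.2⟩
      have hB : X =
          (Finset.univ.filter (fun x : G => x ^ (n * p) = 1)).filter (fun x => ¬ x ^ n = 1) := by
        ext x
        simp only [Finset.mem_filter, Finset.mem_univ, true_and, hX, ne_eq]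
      rw [numSol_eq_card, numSol_eq_card, hA, hB, add_comm]
      exact (Finset.card_filter_add_card_filter_not _).symm
    suffices hXd : n ∣ X.card by
      have h2 : n ∣ X.card + numSol G n := by
        rw [← hsplit]
        exact Dvd.dvd.trans (Dvd.intro _ rfl) ih1
      exact (Nat.dvd_add_right hXd).mp h2
    -- decomposition
    set Y : Finset G := Finset.univ.filter (fun y : G => orderOf y = p ^ (b + 1)) with hY
    set Fz : G → Finset G :=
      fun y => Finset.univ.filter (fun z : G => Commute y z ∧ z ^ m = 1) with hFz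
    obtain ⟨e₁, he₁p, he₁m⟩ := Nat.chineseRemainder hcop 1 0
    obtain ⟨e₂, he₂p, he₂m⟩ := Nat.chineseRemainder hcop 0 1
    have he₁m' : m ∣ e₁ := (Nat.modEq_zero_iff_dvd).mp he₁m
    have he₂p' : p ^ (b + 1) ∣ e₂ := (Nat.modEq_zero_iff_dvd).mp he₂p
    have hsum1 : e₁ + e₂ ≡ 1 [MOD p ^ (b + 1) * m] := by
      apply (Nat.modEq_and_modEq_iff_modEq_mul hcop).mp
      exact ⟨by simpa using he₁p.add he₂p, by simpa using he₁m.add he₂m⟩
    have hXcard : X.card = ∑ y ∈ Y, (Fz y).card := by
      rw [← Finset.card_sigma]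
      apply Finset.card_nbij' (fun x => (⟨x ^ e₁, x ^ e₂⟩ : Σ _ : G, G)) (fun q => q.1 * q.2)
      · intro x hx
        simp only [hX, Finset.coe_filter, Finset.mem_univ, true_and, Set.mem_setOf_eq] at hx
        obtain ⟨hx1, hx2⟩ := hx
        rw [hnp] at hx1
        have hox : orderOf x ∣ p ^ (b + 1) * m := orderOf_dvd_of_pow_eq_one hx1
        have hz : (x ^ e₂) ^ m = 1 := by
          rw [← pow_mul]
          exact orderOf_dvd_iff_pow_eq_one.mp (hox.trans (Nat.mul_dvd_mul_right he₂p' m))
        have hy : (x ^ e₁) ^ (p ^ (b + 1)) = 1 := by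
          rw [← pow_mul]
          apply orderOf_dvd_iff_pow_eq_one.mp (hox.trans _)
          rw [mul_comm e₁]
          exact Nat.mul_dvd_mul_left _ he₁m'
        have hyz : x ^ e₁ * x ^ e₂ = x := by
          rw [← pow_add]
          have : x ^ (e₁ + e₂) = x ^ 1 := pow_eq_pow_iff_modEq.mpr (hsum1.of_dvd hox)
          rw [this, pow_one]
        have hcomm : Commute (x ^ e₁) (x ^ e₂) := (Commute.refl x).pow_pow e₁ e₂
        have hoy : orderOf (x ^ e₁) = p ^ (b + 1) := by
          obtain ⟨j, hj, hoj⟩ := (Nat.dvd_prime_pow hp).mp (orderOf_dvd_of_pow_eq_one hy)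
          rcases Nat.lt_or_ge j (b + 1) with hlt | hge
          · exfalso
            apply hx2
            have hyb : (x ^ e₁) ^ (p ^ b) = 1 := by
              apply orderOf_dvd_iff_pow_eq_one.mp
              rw [hoj]
              exact pow_dvd_pow p (by omega)
            rw [hn]
            calc x ^ (p ^ b * m) = (x ^ e₁ * x ^ e₂) ^ (p ^ b * m) := by rw [hyz]
              _ = (x ^ e₁) ^ (p ^ b * m) * (x ^ e₂) ^ (p ^ b * m) := hcomm.mul_pow _
              _ = 1 := by
                rw [pow_mul, hyb, one_pow, mul_comm (p ^ b) m, pow_mul, hz, one_pow, one_mul]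
          · rw [hoj]
            congr 1
            omega
        simp only [Finset.coe_sigma, Set.mem_sigma_iff, hY, hFz, Finset.coe_filter,
          Finset.mem_univ, true_and, Set.mem_setOf_eq]
        exact ⟨hoy, hcomm, hz⟩
      · rintro ⟨y, z⟩ hq
        simp only [Finset.coe_sigma, Set.mem_sigma_iff, hY, hFz, Finset.coe_filter,
          Finset.mem_univ, true_and, Set.mem_setOf_eq] at hq
        obtain ⟨hoy, hcomm, hz⟩ := hq
        simp only [hX, Finset.coe_filter, Finset.mem_univ, true_and, Set.mem_setOf_eq]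
        have hyp : y ^ (p ^ (b + 1)) = 1 := by rw [← hoy]; exact pow_orderOf_eq_one y
        constructor
        · rw [hnp, hcomm.mul_pow, pow_mul, hyp, one_pow, mul_comm (p ^ (b + 1)) m, pow_mul, hz,
            one_pow, one_mul]
        · intro h
          rw [hn, hcomm.mul_pow, mul_comm (p ^ b) m, pow_mul z, hz, one_pow, mul_one,
            mul_comm m] at h
          have hd : p ^ (b + 1) ∣ p ^ b * m := by
            rw [← hoy]; exact orderOf_dvd_of_pow_eq_one h
          rw [pow_succ] at hd
          exact hpm (Nat.dvd_of_mul_dvd_mul_left (pow_pos hp.pos b) hd)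
      · intro x hx
        simp only [hX, Finset.coe_filter, Finset.mem_univ, true_and, Set.mem_setOf_eq] at hx
        obtain ⟨hx1, hx2⟩ := hx
        rw [hnp] at hx1
        have hox : orderOf x ∣ p ^ (b + 1) * m := orderOf_dvd_of_pow_eq_one hx1
        show x ^ e₁ * x ^ e₂ = x
        rw [← pow_add]
        have : x ^ (e₁ + e₂) = x ^ 1 := pow_eq_pow_iff_modEq.mpr (hsum1.of_dvd hox)
        rw [this, pow_one]
      · rintro ⟨y, z⟩ hq
        simp only [Finset.coe_sigma, Set.mem_sigma_iff, hY, hFz, Finset.coe_filter,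
          Finset.mem_univ, true_and, Set.mem_setOf_eq] at hq
        obtain ⟨hoy, hcomm, hz⟩ := hq
        have hyp : y ^ (p ^ (b + 1)) = 1 := by rw [← hoy]; exact pow_orderOf_eq_one y
        have h1 : (y * z) ^ e₁ = y := by
          rw [hcomm.mul_pow]
          have hz1 : z ^ e₁ = 1 := by
            obtain ⟨c, hc⟩ := he₁m'
            rw [hc, pow_mul, hz, one_pow]
          have hy1 : y ^ e₁ = y ^ 1 := by
            apply pow_eq_pow_iff_modEq.mpr
            rw [hoy]; exact he₁p
          rw [hz1, hy1, pow_one, mul_one]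
        have h2 : (y * z) ^ e₂ = z := by
          rw [hcomm.mul_pow]
          have hy1 : y ^ e₂ = 1 := by
            obtain ⟨c, hc⟩ := he₂p'
            rw [hc, pow_mul, hyp, one_pow]
          have hz1 : z ^ e₂ = z ^ 1 := by
            apply pow_eq_pow_iff_modEq.mpr
            exact he₂m.of_dvd (orderOf_dvd_of_pow_eq_one hz)
          rw [hy1, hz1, pow_one, one_mul]
        show (⟨(y * z) ^ e₁, (y * z) ^ e₂⟩ : Σ _ : G, G) = ⟨y, z⟩
        rw [h1, h2]
    rw [hXcard, hn]
    apply Nat.Coprime.mul_dvd_of_dvd_of_dvd hcopb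
    · -- p-part: group by cyclic subgroups
      apply dvd_sum_fiber Y (fun y => (Fz y).card) (fun y => Subgroup.zpowers y)
      intro y₀ hy₀
      have hoy₀ : orderOf y₀ = p ^ (b + 1) := by simpa [hY] using hy₀
      have hconst : ∀ y ∈ Y.filter (fun y => Subgroup.zpowers y = Subgroup.zpowers y₀),
          (Fz y).card = (Fz y₀).card := by
        intro y hy
        rw [Finset.mem_filter] at hy
        have h1 : y ∈ Subgroup.zpowers y₀ := hy.2 ▸ Subgroup.mem_zpowers y
        have h2 : y₀ ∈ Subgroup.zpowers y := hy.2 ▸ Subgroup.mem_zpowers y₀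
        obtain ⟨i, hi⟩ := Subgroup.mem_zpowers_iff.mp h1
        obtain ⟨j, hj⟩ := Subgroup.mem_zpowers_iff.mp h2
        congr 1
        ext z
        simp only [hFz, Finset.mem_filter, Finset.mem_univ, true_and]
        constructor
        · rintro ⟨hc, hz⟩
          exact ⟨hj ▸ hc.zpow_left j, hz⟩
        · rintro ⟨hc, hz⟩
          exact ⟨hi ▸ hc.zpow_left i, hz⟩
      rw [Finset.sum_const_nat hconst]
      apply Dvd.dvd.mul_right
      -- the fiber has φ(p^(b+1)) elements
      have hfib : Y.filter (fun y => Subgroup.zpowers y = Subgroup.zpowers y₀) =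
          (Finset.univ.filter (fun c : ↥(Subgroup.zpowers y₀) => orderOf c = p ^ (b + 1))).image
            Subtype.val := by
        ext y
        simp only [Finset.mem_filter, Finset.mem_image, Finset.mem_univ, true_and, hY]
        constructor
        · rintro ⟨hoy, hz⟩
          have h1 : y ∈ Subgroup.zpowers y₀ := hz ▸ Subgroup.mem_zpowers y
          exact ⟨⟨y, h1⟩, by rw [← Subgroup.orderOf_coe]; exact hoy, rfl⟩
        · rintro ⟨c, hc, rfl⟩
          have hoc : orderOf (c : G) = p ^ (b + 1) := by rw [Subgroup.orderOf_coe]; exact hc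
          refine ⟨hoc, ?_⟩
          apply Subgroup.eq_of_le_of_card_ge
          · rw [Subgroup.zpowers_le]; exact c.2
          · rw [Nat.card_zpowers, Nat.card_zpowers, hoc, hoy₀]
      rw [hfib, Finset.card_image_of_injective _ Subtype.val_injective,
        IsCyclic.card_orderOf_eq_totient (by
          rw [← Nat.card_eq_fintype_card, Nat.card_zpowers, hoy₀]),
        Nat.totient_prime_pow_succ hp]
      exact Dvd.intro _ rfl
    · -- p'-part: group by conjugacy classes
      apply dvd_sum_fiber Y (fun y => (Fz y).card) (fun y => ConjClasses.mk y)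
      intro y₀ hy₀
      have hoy₀ : orderOf y₀ = p ^ (b + 1) := by simpa [hY] using hy₀
      have hconst : ∀ y ∈ Y.filter (fun y => ConjClasses.mk y = ConjClasses.mk y₀),
          (Fz y).card = (Fz y₀).card := by
        intro y hy
        rw [Finset.mem_filter] at hy
        obtain ⟨g, hg⟩ := isConj_iff.mp (ConjClasses.mk_eq_mk_iff_isConj.mp hy.2)
        -- g * y * g⁻¹ = y₀
        apply Finset.card_nbij' (fun z => g * z * g⁻¹) (fun z => g⁻¹ * z * g)
        · intro z hz
          simp only [hFz, Finset.coe_filter, Finset.mem_univ, true_and, Set.mem_setOf_eq] at hz ⊢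
          refine ⟨?_, by rw [conj_pow, hz.2]; simp⟩
          rw [← hg]
          show g * y * g⁻¹ * (g * z * g⁻¹) = g * z * g⁻¹ * (g * y * g⁻¹)
          have := hz.1.eq
          calc g * y * g⁻¹ * (g * z * g⁻¹) = g * (y * z) * g⁻¹ := by group
            _ = g * (z * y) * g⁻¹ := by rw [this]
            _ = g * z * g⁻¹ * (g * y * g⁻¹) := by group
        · intro z hz
          simp only [hFz, Finset.coe_filter, Finset.mem_univ, true_and, Set.mem_setOf_eq] at hz ⊢
          refine ⟨?_, ?_⟩
          · have h1 := hz.1.eq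
            rw [← hg] at h1
            show y * (g⁻¹ * z * g) = g⁻¹ * z * g * y
            calc y * (g⁻¹ * z * g) = g⁻¹ * (g * y * g⁻¹ * z) * g := by group
              _ = g⁻¹ * (z * (g * y * g⁻¹)) * g := by rw [h1]
              _ = g⁻¹ * z * g * y := by group
          · have : (g⁻¹ * z * g) ^ m = g⁻¹ * z ^ m * g := by
              have := conj_pow (a := g⁻¹) (b := z) (i := m)
              simpa using this
            rw [this, hz.2]; simp
        · intro z _
          show g⁻¹ * (g * z * g⁻¹) * g = z
          group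
        · intro z _
          show g * (g⁻¹ * z * g) * g⁻¹ = z
          group
      rw [Finset.sum_const_nat hconst]
      -- fiber = conjugacy class
      have hfib : (Y.filter (fun y => ConjClasses.mk y = ConjClasses.mk y₀)).card =
          Nat.card {y : G // IsConj y₀ y} := by
        rw [Nat.card_eq_fintype_card, Fintype.card_subtype]
        congr 1
        ext y
        simp only [Finset.mem_filter, Finset.mem_univ, true_and, hY]
        constructor
        · rintro ⟨_, h⟩
          exact (ConjClasses.mk_eq_mk_iff_isConj.mp h).symm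
        · intro h
          refine ⟨?_, ConjClasses.mk_eq_mk_iff_isConj.mpr h.symm⟩
          obtain ⟨g, hg⟩ := isConj_iff.mp h
          rw [← hg, ← hoy₀]
          exact (MulAut.conj g).orderOf_eq y₀
      rw [hfib]
      have hclass := ConjCount.card_conj_mul_card_centralizer y₀
      by_cases hC : Subgroup.centralizer ({y₀} : Set G) = ⊤
      · -- central case
        apply Dvd.dvd.mul_left
        have hcen : y₀ ∈ Subgroup.center G := by
          rw [Subgroup.mem_center_iff]
          intro g
          have : g ∈ Subgroup.centralizer ({y₀} : Set G) := hC ▸ Subgroup.mem_top g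
          exact Subgroup.mem_centralizer_singleton_iff.mp this
        have hZc : Subgroup.zpowers y₀ ≤ Subgroup.center G := by
          rw [Subgroup.zpowers_le]; exact hcen
        haveI hZn : (Subgroup.zpowers y₀).Normal := by
          constructor
          intro n hn g
          have := Subgroup.mem_center_iff.mp (hZc hn) g
          have e : g * n * g⁻¹ = n := by rw [this]; group
          rw [e]; exact hn
        have hZcard : Nat.card (Subgroup.zpowers y₀) = p ^ (b + 1) := by
          rw [Nat.card_zpowers, hoy₀]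
        have hFeq : (Fz y₀).card = numSol G m := by
          rw [numSol_eq_card]
          congr 1
          ext z
          simp only [hFz, Finset.mem_filter, Finset.mem_univ, true_and]
          constructor
          · exact fun h => h.2
          · intro h
            exact ⟨(Subgroup.mem_center_iff.mp hcen z).symm, h⟩
        rw [hFeq, numSol_quot (Subgroup.zpowers y₀) hZc m (by rw [hZcard]; exact hcop)]
        have hcardq := Subgroup.card_eq_card_quotient_mul_card_subgroup (Subgroup.zpowers y₀)
        rw [hZcard] at hcardq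
        have hlt : Nat.card (G ⧸ Subgroup.zpowers y₀) < N := by
          rw [← hN, hcardq]
          have h2 : 2 ≤ p ^ (b + 1) := by
            calc 2 ≤ p := hp.two_le
              _ = p ^ 1 := (pow_one p).symm
              _ ≤ p ^ (b + 1) := Nat.pow_le_pow_right hp.pos (by omega)
          have hqpos : 0 < Nat.card (G ⧸ Subgroup.zpowers y₀) := Nat.card_pos
          nlinarith
        have ih2 := ihN _ hlt (G ⧸ Subgroup.zpowers y₀) rfl m
        have hmq : m ∣ Nat.card (G ⧸ Subgroup.zpowers y₀) := by
          rw [hcardq] at hm_dvd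
          exact (Nat.Coprime.dvd_of_dvd_mul_right hcop.symm hm_dvd)
        rwa [Nat.gcd_eq_left hmq] at ih2
      · -- proper centralizer
        rw [card_comm_eq_numSol]
        have hlt : Nat.card (Subgroup.centralizer ({y₀} : Set G)) < N := by
          rw [← hN]
          exact Cfsg.Agent.S3993.card_lt_of_ne_top _ hC
        have ih2 := ihN _ hlt ↥(Subgroup.centralizer ({y₀} : Set G)) rfl m
        have h3 : m ∣ Nat.card {y : G // IsConj y₀ y} *
            Nat.gcd m (Nat.card (Subgroup.centralizer ({y₀} : Set G))) := by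
          apply dvd_mul_gcd_of_dvd_mul
          rw [hclass]; exact hm_dvd
        exact h3.trans (Nat.mul_dvd_mul_left _ ih2)
  intro n
  rw [numSol_gcd]
  obtain ⟨k, hk⟩ := Nat.gcd_dvd_right n (Nat.card G)
  exact inner k _ hk.symm

theorem result {G : Type*} [Group G] [Finite G] (m : ℕ) (hm : m ∣ Nat.card G) :
    m ∣ Nat.card {g : G // g ^ m = 1} := by
  have h := main (Nat.card G) G rfl m
  rw [Nat.gcd_eq_left hm] at h
  exact h

end Cfsg.Agent.S3993
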