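import Cfsg.Statements.S4212

import Mathlib
import Cfsg.Agent.S3993

set_option autoImplicit false
open Cfsg
open scoped Pointwise

namespace Cfsg.Agent.S4212

open Cfsg.Agent.Lib.Helper2
open Cfsg.Agent.S3993 (numSol dvd_sum_fiber)

universe u

/-- number of solutions of `x ^ n = c` -/
noncomputable def nSol (C : Type*) [Group C] (n : ℕ) (c : C) : ℕ := Nat.card {x : C // x ^ n = c}

theorem nSol_eq_card (C : Type*) [Group C] [Fintype C] (n : ℕ) (c : C)
    [DecidablePred fun x : C => x ^ n = c] :
    nSol C n c = (Finset.univ.filter (fun x : C => x ^ n = c)).card := by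
  unfold nSol
  rw [Nat.card_eq_fintype_card, Fintype.card_subtype]

theorem nSol_conj {C : Type*} [Group C] (n : ℕ) (g d : C) :
    nSol C n (g * d * g⁻¹) = nSol C n d := by
  unfold nSol
  apply Nat.card_congr
  exact
    { toFun := fun x => ⟨g⁻¹ * x.1 * g, by
        have h := conj_pow (a := g⁻¹) (b := x.1) (i := n)
        rw [inv_inv] at h
        rw [h, x.2]; group⟩
      invFun := fun x => ⟨g * x.1 * g⁻¹, by rw [conj_pow, x.2]⟩
      left_inv := fun x => Subtype.ext (by show g * (g⁻¹ * x.1 * g) * g⁻¹ = x.1; group)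
      right_inv := fun x => Subtype.ext (by show g⁻¹ * (g * x.1 * g⁻¹) * g = x.1; group) }

theorem nSol_centralizer {C : Type*} [Group C] (n : ℕ) (d : C) :
    nSol C n d = nSol ↥(Subgroup.centralizer ({d} : Set C)) n
      ⟨d, Subgroup.mem_centralizer_singleton_iff.mpr rfl⟩ := by
  unfold nSol
  apply Nat.card_congr
  exact
    { toFun := fun x => ⟨⟨x.1, Subgroup.mem_centralizer_singleton_iff.mpr
          (calc x.1 * d = x.1 * x.1 ^ n := congrArg _ x.2.symm
            _ = x.1 ^ n * x.1 := (Commute.self_pow x.1 n).eq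
            _ = d * x.1 := congrArg (· * x.1) x.2)⟩, by
        apply Subtype.ext
        rw [Subgroup.coe_pow]
        exact x.2⟩
      invFun := fun x => ⟨x.1.1, by
        have h := congrArg Subtype.val x.2
        rw [Subgroup.coe_pow] at h
        exact h⟩
      left_inv := fun x => rfl
      right_inv := fun x => rfl }

theorem orderOf_of_pow_eq {C : Type*} [Group C] (p a : ℕ) (hp : p.Prime) (x c : C)
    (hx : x ^ (p ^ a) = c) (hpc : p ∣ orderOf c) : orderOf x = p ^ a * orderOf c := by
  have h0 : p ^ a ≠ 0 := pow_ne_zero _ hp.ne_zero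
  have h1 : orderOf c = orderOf x / Nat.gcd (orderOf x) (p ^ a) := by
    rw [← hx]; exact orderOf_pow' x h0
  have hg : Nat.gcd (orderOf x) (p ^ a) ∣ orderOf x := Nat.gcd_dvd_left _ _
  have h2 : orderOf x = orderOf c * Nat.gcd (orderOf x) (p ^ a) := by
    rw [h1, Nat.div_mul_cancel hg]
  obtain ⟨j, hj, hgj⟩ := (Nat.dvd_prime_pow hp).mp (Nat.gcd_dvd_right (orderOf x) (p ^ a))
  rcases Nat.lt_or_ge j a with hlt | hge
  · exfalso
    have h3 : p ^ (j + 1) ∣ orderOf x := by
      rw [h2, hgj, pow_succ, mul_comm (orderOf c)]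
      exact Nat.mul_dvd_mul_left _ hpc
    have h4 : p ^ (j + 1) ∣ p ^ a := pow_dvd_pow p (by omega)
    have h5 : p ^ (j + 1) ∣ p ^ j := hgj ▸ Nat.dvd_gcd h3 h4
    have h6 := Nat.le_of_dvd (pow_pos hp.pos j) h5
    have h7 : p ^ j < p ^ (j + 1) := Nat.pow_lt_pow_right hp.one_lt (by omega)
    omega
  · have hja : j = a := le_antisymm hj hge
    rw [h2, hgj, hja, mul_comm]

theorem mem_zp {C : Type*} [Group C] {x x₀ : C}
    (h : Subgroup.zpowers x = Subgroup.zpowers x₀) : x ∈ Subgroup.zpowers x₀ := by
  rw [← h]; exact Subgroup.mem_zpowers x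

theorem ppow_dvd {C : Type u} [Group C] [Finite C] (p a : ℕ) (hp : p.Prime) (c : C)
    (hpc : p ∣ orderOf c) : p ^ a ∣ nSol C (p ^ a) c := by
  classical
  haveI : Fintype C := Fintype.ofFinite C
  rw [nSol_eq_card, Finset.card_eq_sum_ones]
  apply dvd_sum_fiber _ (fun _ => 1) (fun x => Subgroup.zpowers x)
  intro x₀ hx₀
  have hx₀' : x₀ ^ (p ^ a) = c := by simpa using hx₀
  rw [← Finset.card_eq_sum_ones, Finset.filter_filter]
  have hox₀ := orderOf_of_pow_eq p a hp x₀ c hx₀' hpc
  have hfib : (Finset.univ.filter (fun x : C => x ^ (p ^ a) = c ∧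
      Subgroup.zpowers x = Subgroup.zpowers x₀)).card =
        numSol ↥(Subgroup.zpowers x₀) (p ^ a) := by
    unfold numSol
    rw [← Fintype.card_subtype, ← Nat.card_eq_fintype_card]
    apply Nat.card_congr
    exact
      { toFun := fun x => ⟨⟨x₀⁻¹ * x.1, by
            have h1 : x.1 ∈ Subgroup.zpowers x₀ := mem_zp x.2.2
            exact Subgroup.mul_mem _ (Subgroup.inv_mem _ (Subgroup.mem_zpowers x₀)) h1⟩, by
          have h1 : x.1 ∈ Subgroup.zpowers x₀ := mem_zp x.2.2
          obtain ⟨k, hk⟩ := Subgroup.mem_zpowers_iff.mp h1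
          have hc : Commute x₀⁻¹ x.1 := by
            rw [← hk]; exact (Commute.refl x₀).inv_left.zpow_right k
          apply Subtype.ext
          rw [Subgroup.coe_pow]
          show (x₀⁻¹ * x.1) ^ (p ^ a) = 1
          rw [hc.mul_pow, x.2.1, inv_pow, hx₀', inv_mul_cancel]⟩
        invFun := fun t => ⟨x₀ * t.1.1, by
          have ht : (t.1.1) ^ (p ^ a) = 1 := by
            have h := congrArg Subtype.val t.2
            rw [Subgroup.coe_pow] at h
            exact h
          obtain ⟨k, hk⟩ := Subgroup.mem_zpowers_iff.mp t.1.2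
          have hc : Commute x₀ t.1.1 := by
            rw [← hk]; exact (Commute.refl x₀).zpow_right k
          have hsol : (x₀ * t.1.1) ^ (p ^ a) = c := by
            rw [hc.mul_pow, ht, hx₀', mul_one]
          refine ⟨hsol, ?_⟩
          apply Subgroup.eq_of_le_of_card_ge
          · rw [Subgroup.zpowers_le]
            exact Subgroup.mul_mem _ (Subgroup.mem_zpowers x₀) t.1.2
          · rw [Nat.card_zpowers, Nat.card_zpowers, hox₀,
              orderOf_of_pow_eq p a hp _ c hsol hpc]⟩
        left_inv := fun x => Subtype.ext (by show x₀ * (x₀⁻¹ * x.1) = x.1; group)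
        right_inv := fun t => Subtype.ext (Subtype.ext (by
          show x₀⁻¹ * (x₀ * t.1.1) = t.1.1; group)) }
  rw [hfib]
  have h := Cfsg.Agent.S3993.main (Nat.card ↥(Subgroup.zpowers x₀)) ↥(Subgroup.zpowers x₀) rfl (p ^ a)
  rw [Nat.card_zpowers, hox₀, Nat.gcd_eq_left (Dvd.intro _ rfl)] at h
  exact h

theorem ppow_coprime {C : Type u} [Group C] [Finite C] (p a : ℕ) (hp : p.Prime) (c : C)
    (hc : c ∈ Subgroup.center C) (hpc : ¬ p ∣ orderOf c) :
    nSol C (p ^ a) c = numSol C (p ^ a) := by
  have hco : (p ^ a).Coprime (orderOf c) :=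
    Nat.Coprime.pow_left _ ((Nat.Prime.coprime_iff_not_dvd hp).mpr hpc)
  obtain ⟨u, hu⟩ := exists_pow_eq_self_of_coprime hco
  have hw : (c ^ u) ^ (p ^ a) = c := by rw [← pow_mul, mul_comm, pow_mul]; exact hu
  have hwc : ∀ x : C, Commute x (c ^ u) :=
    fun x => (Subgroup.mem_center_iff.mp (Subgroup.pow_mem _ hc u)) x
  unfold nSol numSol
  apply Nat.card_congr
  exact
    { toFun := fun x => ⟨x.1 * (c ^ u)⁻¹, by
        rw [(hwc x.1).inv_right.mul_pow, x.2, inv_pow, hw, mul_inv_cancel]⟩
      invFun := fun x => ⟨x.1 * c ^ u, by rw [(hwc x.1).mul_pow, x.2, hw, one_mul]⟩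
      left_inv := fun x => Subtype.ext (by simp)
      right_inv := fun x => Subtype.ext (by simp) }

/-- size of a conjugacy class as a filter -/
theorem card_class_filter {C : Type*} [Group C] [Fintype C] [DecidableEq C] (d₀ : C)
    [DecidablePred fun y : C => IsConj d₀ y] :
    (Finset.univ.filter (fun y : C => IsConj d₀ y)).card = Nat.card {y : C // IsConj d₀ y} := by
  rw [Nat.card_eq_fintype_card, Fintype.card_subtype]

set_option maxHeartbeats 1600000 in
theorem T (N : ℕ) : ∀ (C : Type u) [Group C] [Finite C], Nat.card C = N →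
    ∀ (n : ℕ) (c : C), c ∈ Subgroup.center C → Nat.gcd n (Nat.card C) ∣ nSol C n c := by
  induction N using Nat.strong_induction_on with
  | _ N ihN =>
  intro C _ _ hN
  classical
  haveI : Fintype C := Fintype.ofFinite C
  intro n
  induction n using Nat.strong_induction_on with
  | _ n ihn =>
  intro c hc
  rcases Nat.eq_zero_or_pos n with hn0 | hnpos
  · subst hn0
    rw [Nat.gcd_zero_left]
    by_cases hc1 : c = 1
    · have : nSol C 0 c = Nat.card C := by
        unfold nSol
        exact Nat.card_congr (Equiv.subtypeUnivEquiv (fun x => by rw [pow_zero, hc1]))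
      rw [this]
    · have : nSol C 0 c = 0 := by
        unfold nSol
        haveI : IsEmpty {x : C // x ^ 0 = c} := ⟨fun x => hc1 (by rw [← x.2, pow_zero])⟩
        exact Nat.card_of_isEmpty
      rw [this]; exact dvd_zero _
  by_cases hn1 : n = 1
  · subst hn1
    rw [Nat.gcd_one_left]; exact one_dvd _
  -- layering lemma
  have L : ∀ q : ℕ, q.Prime → q ∣ n → Nat.gcd (n / q) (Nat.card C) ∣ nSol C n c := by
    intro q hq hqn
    have hn'q : n / q * q = n := Nat.div_mul_cancel hqn
    have hn'lt : n / q < n := Nat.div_lt_self hnpos hq.one_lt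
    set n' := n / q with hn'
    set Y : Finset C := Finset.univ.filter (fun d : C => d ^ q = c) with hY
    have hcard : nSol C n c = ∑ d ∈ Y, (Finset.univ.filter (fun x : C => x ^ n' = d)).card := by
      rw [nSol_eq_card]
      rw [Finset.card_eq_sum_card_fiberwise (f := fun x : C => x ^ n') (t := Y)]
      · apply Finset.sum_congr rfl
        intro d hd
        have hd' : d ^ q = c := by simpa [hY] using hd
        congr 1
        ext x
        simp only [Finset.mem_filter, Finset.mem_univ, true_and]
        constructor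
        · exact fun h => h.2
        · intro h
          exact ⟨by rw [← hn'q, pow_mul, h, hd'], h⟩
      · intro x hx
        have hx' : x ^ n = c := by simpa using hx
        show x ^ n' ∈ (Y : Set C)
        rw [Finset.mem_coe, hY, Finset.mem_filter]
        exact ⟨Finset.mem_univ _, by rw [← pow_mul, hn'q, hx']⟩
    rw [hcard]
    apply dvd_sum_fiber Y _ (fun y => ConjClasses.mk y)
    intro d₀ hd₀
    have hd₀' : d₀ ^ q = c := by simpa [hY] using hd₀
    have hconst : ∀ d ∈ Y.filter (fun d => ConjClasses.mk d = ConjClasses.mk d₀),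
        (Finset.univ.filter (fun x : C => x ^ n' = d)).card =
          (Finset.univ.filter (fun x : C => x ^ n' = d₀)).card := by
      intro d hd
      rw [Finset.mem_filter] at hd
      obtain ⟨g, hg⟩ := isConj_iff.mp (ConjClasses.mk_eq_mk_iff_isConj.mp hd.2)
      rw [← nSol_eq_card, ← nSol_eq_card, ← hg, nSol_conj]
    rw [Finset.sum_const_nat hconst]
    have hfib : (Y.filter (fun d => ConjClasses.mk d = ConjClasses.mk d₀)).card =
        Nat.card {y : C // IsConj d₀ y} := by
      rw [← card_class_filter]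
      congr 1
      ext y
      simp only [Finset.mem_filter, Finset.mem_univ, true_and, hY]
      constructor
      · rintro ⟨_, h⟩
        exact (ConjClasses.mk_eq_mk_iff_isConj.mp h).symm
      · intro h
        refine ⟨?_, ConjClasses.mk_eq_mk_iff_isConj.mpr h.symm⟩
        obtain ⟨g, hg⟩ := isConj_iff.mp h
        rw [← hg, conj_pow, hd₀']
        have := Subgroup.mem_center_iff.mp hc g
        rw [this]; group
    rw [hfib, ← nSol_eq_card]
    have hclass := ConjCount.card_conj_mul_card_centralizer d₀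
    by_cases hC : Subgroup.centralizer ({d₀} : Set C) = ⊤
    · apply Dvd.dvd.mul_left
      have hcen : d₀ ∈ Subgroup.center C := by
        rw [Subgroup.mem_center_iff]
        intro g
        have : g ∈ Subgroup.centralizer ({d₀} : Set C) := hC ▸ Subgroup.mem_top g
        exact Subgroup.mem_centralizer_singleton_iff.mp this
      exact ihn n' hn'lt d₀ hcen
    · rw [nSol_centralizer]
      have hlt : Nat.card (Subgroup.centralizer ({d₀} : Set C)) < N := by
        rw [← hN]
        exact Cfsg.Agent.S3993.card_lt_of_ne_top _ hC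
      have hcen' : (⟨d₀, Subgroup.mem_centralizer_singleton_iff.mpr rfl⟩ :
          ↥(Subgroup.centralizer ({d₀} : Set C))) ∈
            Subgroup.center ↥(Subgroup.centralizer ({d₀} : Set C)) := by
        rw [Subgroup.mem_center_iff]
        intro g
        apply Subtype.ext
        exact Subgroup.mem_centralizer_singleton_iff.mp g.2
      have ih2 := ihN _ hlt ↥(Subgroup.centralizer ({d₀} : Set C)) rfl n' _ hcen'
      have h3 : Nat.gcd n' (Nat.card C) ∣ Nat.card {y : C // IsConj d₀ y} *
          Nat.gcd (Nat.gcd n' (Nat.card C)) (Nat.card (Subgroup.centralizer ({d₀} : Set C))) := by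
        apply Cfsg.Agent.S3993.dvd_mul_gcd_of_dvd_mul
        rw [hclass]; exact Nat.gcd_dvd_right _ _
      refine h3.trans (Nat.mul_dvd_mul_left _ (Dvd.dvd.trans ?_ ih2))
      exact Nat.gcd_dvd_gcd_of_dvd_left _ (Nat.gcd_dvd_left _ _)
  -- number theory
  have hp : (Nat.minFac n).Prime := Nat.minFac_prime hn1
  set p := Nat.minFac n with hpdef
  have hpn : p ∣ n := Nat.minFac_dvd n
  obtain ⟨a, m, hpm, hnam⟩ := Nat.exists_eq_pow_mul_and_not_dvd hnpos.ne' p hp.ne_one
  have hm0 : m ≠ 0 := by rintro rfl; exact hpm (dvd_zero p)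
  by_cases hm1 : m = 1
  · rw [hm1, mul_one] at hnam
    rw [hnam]
    by_cases hpc : p ∣ orderOf c
    · exact (Nat.gcd_dvd_left _ _).trans (ppow_dvd p a hp c hpc)
    · rw [ppow_coprime p a hp c hc hpc]
      exact Cfsg.Agent.S3993.main (Nat.card C) C rfl (p ^ a)
  · have hq : (Nat.minFac m).Prime := Nat.minFac_prime hm1
    set q₂ := Nat.minFac m with hq₂
    have hq₂m : q₂ ∣ m := Nat.minFac_dvd m
    have hq₂n : q₂ ∣ n := hnam ▸ Dvd.dvd.mul_left hq₂m _
    have hne : p ≠ q₂ := by
      intro h
      exact hpm (h ▸ hq₂m)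
    have key : ∀ q : ℕ, q.Prime → q ∣ n → Nat.gcd n (Nat.card C) ∣ q * nSol C n c := by
      intro q hq' hqn
      have h1 : q * Nat.gcd (n / q) (Nat.card C) = Nat.gcd n (q * Nat.card C) := by
        rw [← Nat.gcd_mul_left, Nat.mul_div_cancel' hqn]
      have h2 : Nat.gcd n (Nat.card C) ∣ Nat.gcd n (q * Nat.card C) :=
        Nat.gcd_dvd_gcd_of_dvd_right _ (Dvd.intro_left _ rfl)
      rw [← h1] at h2
      exact h2.trans (Nat.mul_dvd_mul_left _ (L q hq' hqn))
    have h1 := key p hp hpn
    have h2 := key q₂ hq hq₂n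
    have h3 := Nat.dvd_gcd h1 h2
    rw [Nat.gcd_mul_right, (Nat.coprime_primes hp hq).mpr hne, one_mul] at h3
    exact h3

theorem result {G : Type*} [Group G] [Finite G] (c : G) (n : ℕ) : Nat.gcd (Nat.card {y : G // IsConj c y} * n) (Nat.card G) ∣ Nat.card {x : G // IsConj c (x ^ n)} := by
  classical
  haveI : Fintype G := Fintype.ofFinite G
  -- count by fibres of x ↦ x ^ n over the class of c
  set K : Finset G := Finset.univ.filter (fun y : G => IsConj c y) with hK
  have h1 : Nat.card {x : G // IsConj c (x ^ n)} =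
      ∑ d ∈ K, (Finset.univ.filter (fun x : G => x ^ n = d)).card := by
    rw [Nat.card_eq_fintype_card, Fintype.card_subtype]
    rw [Finset.card_eq_sum_card_fiberwise (f := fun x : G => x ^ n) (t := K)]
    · apply Finset.sum_congr rfl
      intro d hd
      have hd' : IsConj c d := by simpa [hK] using hd
      congr 1
      ext x
      simp only [Finset.mem_filter, Finset.mem_univ, true_and]
      constructor
      · exact fun h => h.2
      · intro h
        exact ⟨h ▸ hd', h⟩
    · intro x hx
      simpa [hK] using hx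
  have hconst : ∀ d ∈ K, (Finset.univ.filter (fun x : G => x ^ n = d)).card = nSol G n c := by
    intro d hd
    have hd' : IsConj c d := by simpa [hK] using hd
    obtain ⟨g, hg⟩ := isConj_iff.mp hd'
    rw [← nSol_eq_card, ← hg, nSol_conj]
  rw [h1, Finset.sum_const_nat hconst, card_class_filter]
  have hclass := ConjCount.card_conj_mul_card_centralizer c
  rw [← hclass, Nat.gcd_mul_left]
  apply Nat.mul_dvd_mul_left
  rw [nSol_centralizer]
  apply T _ _ rfl
  rw [Subgroup.mem_center_iff]
  intro g
  apply Subtype.ext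
  exact Subgroup.mem_centralizer_singleton_iff.mp g.2

end Cfsg.Agent.S4212
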