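import Cfsg.Statements.S3994
import Mathlib
import Cfsg.Agent.S4212

set_option autoImplicit false
open Cfsg

namespace Cfsg.Agent.S3994

theorem coprime_aux (a n : ℕ) (ha : 0 < a) : Nat.Coprime (a / Nat.gcd a (n ^ a)) n := by
  have hg : 0 < Nat.gcd a (n ^ a) := Nat.gcd_pos_of_pos_left _ ha
  have hcop : Nat.Coprime (a / Nat.gcd a (n ^ a)) (n ^ a / Nat.gcd a (n ^ a)) :=
    Nat.coprime_div_gcd_div_gcd hg
  apply Nat.coprime_of_dvd
  intro q hq hqM hqn
  have hqa : q ^ a ∣ n ^ a := pow_dvd_pow_of_dvd hqn a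
  have hna : n ^ a = Nat.gcd a (n ^ a) * (n ^ a / Nat.gcd a (n ^ a)) :=
    (Nat.mul_div_cancel' (Nat.gcd_dvd_right _ _)).symm
  by_cases hqt : q ∣ n ^ a / Nat.gcd a (n ^ a)
  · have := Nat.dvd_gcd hqM hqt
    rw [hcop] at this
    exact hq.one_lt.ne' (Nat.dvd_one.1 this)
  · rw [hna] at hqa
    have h1 : Nat.Coprime (q ^ a) (n ^ a / Nat.gcd a (n ^ a)) :=
      Nat.Coprime.pow_left _ ((Nat.Prime.coprime_iff_not_dvd hq).2 hqt)
    have h2 : q ^ a ∣ Nat.gcd a (n ^ a) := h1.dvd_of_dvd_mul_right hqa
    have h3 : q ^ a ∣ a := h2.trans (Nat.gcd_dvd_left _ _)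
    have h4 : q ^ a ≤ a := Nat.le_of_dvd ha h3
    have h5 : a < q ^ a := Nat.lt_pow_self hq.one_lt
    omega

/-- Let G be a finite group and n a positive integer. The number of elements of G whose order is divisible by n is either 0 or divisible by the largest divisor of the order of G that is coprime to n. -/
theorem result {G : Type*} [Group G] [Finite G] (n : ℕ) (hn : 0 < n) :
    Nat.card {g : G // n ∣ orderOf g} = 0 ∨
      (Nat.card G / Nat.gcd (Nat.card G) (n ^ Nat.card G)) ∣ Nat.card {g : G // n ∣ orderOf g} := by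
  classical
  right
  haveI : Fintype G := Fintype.ofFinite G
  set M := Nat.card G / Nat.gcd (Nat.card G) (n ^ Nat.card G) with hM
  have hMcop : Nat.Coprime M n := coprime_aux (Nat.card G) n Nat.card_pos
  have hMG : M ∣ Nat.card G := Nat.div_dvd_of_dvd (Nat.gcd_dvd_left _ _)
  have hM0 : M ≠ 0 := by
    intro h0
    rw [h0] at hMG
    exact Nat.card_pos.ne' (Nat.eq_zero_of_zero_dvd hMG)
  have hord : ∀ x : G, n ∣ orderOf x ↔ n ∣ orderOf (x ^ M) := by
    intro x
    constructor
    · intro h
      rw [orderOf_pow' x hM0]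
      have hd : Nat.gcd (orderOf x) M ∣ orderOf x := Nat.gcd_dvd_left _ _
      obtain ⟨e, he⟩ := hd
      have hpos : 0 < Nat.gcd (orderOf x) M := Nat.gcd_pos_of_pos_right _ (Nat.pos_of_ne_zero hM0)
      have he' : orderOf x / Nat.gcd (orderOf x) M = e := Nat.div_eq_of_eq_mul_right hpos he
      rw [he']
      have hc : Nat.Coprime n (Nat.gcd (orderOf x) M) :=
        (hMcop.symm).coprime_dvd_right (Nat.gcd_dvd_right _ _)
      rw [he] at h
      exact hc.dvd_of_dvd_mul_left h
    · intro h
      exact h.trans (orderOf_pow_dvd M)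
  have hconj : ∀ a b : G, IsConj a b → orderOf a = orderOf b := by
    intro a b hab
    obtain ⟨c, hc⟩ := isConj_iff.1 hab
    rw [← hc]
    exact ((MulAut.conj c).orderOf_eq a).symm
  rw [Nat.card_eq_fintype_card, Fintype.card_subtype]
  rw [Finset.card_eq_sum_card_fiberwise (f := fun g : G => ConjClasses.mk (g ^ M))
    (t := Finset.univ) (fun x _ => Finset.mem_univ _)]
  apply Finset.dvd_sum
  intro C _
  obtain ⟨c, rfl⟩ := ConjClasses.mk_surjective C
  by_cases hnc : n ∣ orderOf c
  · have hset : (Finset.univ.filter (fun g : G => n ∣ orderOf g)).filter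
        (fun g : G => ConjClasses.mk (g ^ M) = ConjClasses.mk c)
        = Finset.univ.filter (fun g : G => IsConj c (g ^ M)) := by
      ext g
      simp only [Finset.mem_filter, Finset.mem_univ, true_and, ConjClasses.mk_eq_mk_iff_isConj]
      constructor
      · rintro ⟨-, h⟩; exact h.symm
      · intro h
        refine ⟨?_, h.symm⟩
        rw [hord g, ← hconj c (g ^ M) h]
        exact hnc
    rw [hset, ← Fintype.card_subtype, ← Nat.card_eq_fintype_card]
    refine Dvd.dvd.trans ?_ (Cfsg.Agent.S4212.result c M)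
    exact Nat.dvd_gcd (Dvd.intro_left _ rfl) hMG
  · have hset : (Finset.univ.filter (fun g : G => n ∣ orderOf g)).filter
        (fun g : G => ConjClasses.mk (g ^ M) = ConjClasses.mk c) = ∅ := by
      ext g
      simp only [Finset.mem_filter, Finset.mem_univ, true_and, ConjClasses.mk_eq_mk_iff_isConj,
        Finset.notMem_empty, iff_false, not_and]
      intro h1 h2
      apply hnc
      rw [← hconj (g ^ M) c h2]
      exact (hord g).1 h1
    rw [hset, Finset.card_empty]
    exact dvd_zero _

end Cfsg.Agent.S3994
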