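import Cfsg.Statements.S3997
import Mathlib

set_option autoImplicit false
open Cfsg

namespace Cfsg.Agent.S3997

theorem count_eq {G H : Type*} [Group G] [Fintype G] [Group H] [Fintype H]
    (hT : ∀ m : ℕ, (Finset.univ.filter (fun g : G => orderOf g = m)).card =
      (Finset.univ.filter (fun h : H => orderOf h = m)).card)
    (P : ℕ → Prop) [DecidablePred P] :
    (Finset.univ.filter (fun g : G => P (orderOf g))).card =
      (Finset.univ.filter (fun h : H => P (orderOf h))).card := by
  classical
  obtain ⟨N, hN⟩ : ∃ N, N = max (Fintype.card G) (Fintype.card H) := ⟨_, rfl⟩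
  have hG : ∀ g ∈ Finset.univ.filter (fun g : G => P (orderOf g)),
      orderOf g ∈ (Finset.range (N + 1)).filter P := by
    intro g hg
    rw [Finset.mem_filter] at hg ⊢
    refine ⟨Finset.mem_range.2 ?_, hg.2⟩
    have h1 := orderOf_le_card_univ (x := g)
    have h2 := le_max_left (Fintype.card G) (Fintype.card H)
    omega
  have hH : ∀ g ∈ Finset.univ.filter (fun g : H => P (orderOf g)),
      orderOf g ∈ (Finset.range (N + 1)).filter P := by
    intro g hg
    rw [Finset.mem_filter] at hg ⊢
    refine ⟨Finset.mem_range.2 ?_, hg.2⟩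
    have h1 := orderOf_le_card_univ (x := g)
    have h2 := le_max_right (Fintype.card G) (Fintype.card H)
    omega
  rw [Finset.card_eq_sum_card_fiberwise hG, Finset.card_eq_sum_card_fiberwise hH]
  apply Finset.sum_congr rfl
  intro m hm
  rw [Finset.mem_filter] at hm
  have e1 : (Finset.univ.filter (fun g : G => P (orderOf g))).filter (fun g => orderOf g = m) =
      Finset.univ.filter (fun g : G => orderOf g = m) := by
    ext g
    simp only [Finset.mem_filter, Finset.mem_univ, true_and]
    constructor
    · exact fun h => h.2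
    · intro h
      exact ⟨h ▸ hm.2, h⟩
  have e2 : (Finset.univ.filter (fun g : H => P (orderOf g))).filter (fun g => orderOf g = m) =
      Finset.univ.filter (fun g : H => orderOf g = m) := by
    ext g
    simp only [Finset.mem_filter, Finset.mem_univ, true_and]
    constructor
    · exact fun h => h.2
    · intro h
      exact ⟨h ▸ hm.2, h⟩
  rw [e1, e2, hT m]

/-- Let G and H be finite groups with the same order type: for every m they have the same number of elements of order m. If G is nilpotent then so is H. -/
theorem result {G H : Type*} [Group G] [Finite G] [Group H] [Finite H] (hT : (∀ m : ℕ, Nat.card {g : G // orderOf g = m} = Nat.card {h : H // orderOf h = m})) (hG : Group.IsNilpotent G) :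
    Group.IsNilpotent H := by
  classical
  cases nonempty_fintype G
  cases nonempty_fintype H
  have hT' : ∀ m : ℕ, (Finset.univ.filter (fun g : G => orderOf g = m)).card =
      (Finset.univ.filter (fun h : H => orderOf h = m)).card := by
    intro m
    have h0 := hT m
    rw [Nat.card_eq_fintype_card, Nat.card_eq_fintype_card, Fintype.card_subtype,
      Fintype.card_subtype] at h0
    exact h0
  have hcard : Nat.card G = Nat.card H := by
    have h0 := count_eq hT' (fun _ => True)
    simp only [Finset.filter_true, Finset.card_univ] at h0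
    rw [Nat.card_eq_fintype_card, Nat.card_eq_fintype_card]
    exact h0
  have hGinst : Group.IsNilpotent G := hG
  refine (List.TFAE.out (Group.isNilpotent_of_finite_tfae (G := H)) 0 3 rfl rfl).mpr ?_
  intro p hp Q
  have hcount := count_eq hT' (fun m => ∃ k, m = p ^ k)
  obtain ⟨PG⟩ := (inferInstance : Nonempty (Sylow p G))
  have hGiff : ∀ g : G, g ∈ (PG : Subgroup G) ↔ ∃ k, orderOf g = p ^ k := by
    intro g
    constructor
    · intro hg
      obtain ⟨k, hk⟩ := (IsPGroup.iff_orderOf.1 PG.isPGroup') ⟨g, hg⟩
      exact ⟨k, by rw [← hk, Subgroup.orderOf_mk]⟩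
    · rintro ⟨k, hk⟩
      have hz : IsPGroup p (Subgroup.zpowers g) := IsPGroup.of_card (n := k) (by
        rw [Nat.card_zpowers, hk])
      obtain ⟨Q', hQ'⟩ := hz.exists_le_sylow
      obtain ⟨x, hx⟩ := MulAction.exists_smul_eq G PG Q'
      rw [Sylow.smul_eq_of_normal] at hx
      rw [hx]
      exact hQ' (Subgroup.mem_zpowers g)
  have hGcount : (Finset.univ.filter (fun g : G => ∃ k, orderOf g = p ^ k)).card =
      Nat.card PG := by
    rw [Nat.card_eq_fintype_card, Fintype.card_subtype]
    congr 1
    ext g
    simp only [Finset.mem_filter, Finset.mem_univ, true_and]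
    exact (hGiff g).symm
  have hQcard : Nat.card Q = Nat.card PG := by
    rw [Sylow.card_eq_multiplicity, Sylow.card_eq_multiplicity, hcard]
  have hsub : Finset.univ.filter (fun h : H => h ∈ (Q : Subgroup H)) ⊆
      Finset.univ.filter (fun h : H => ∃ k, orderOf h = p ^ k) := by
    intro h hh
    simp only [Finset.mem_filter, Finset.mem_univ, true_and] at hh ⊢
    obtain ⟨k, hk⟩ := (IsPGroup.iff_orderOf.1 Q.isPGroup') ⟨h, hh⟩
    exact ⟨k, by rw [← hk, Subgroup.orderOf_mk]⟩
  have hle : (Finset.univ.filter (fun h : H => ∃ k, orderOf h = p ^ k)).card ≤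
      (Finset.univ.filter (fun h : H => h ∈ (Q : Subgroup H))).card := by
    rw [← hcount, hGcount, ← hQcard, Nat.card_eq_fintype_card, Fintype.card_subtype]
  have heq := Finset.eq_of_subset_of_card_le hsub hle
  constructor
  intro x hx h
  have hmem : h * x * h⁻¹ ∈ Finset.univ.filter (fun h : H => ∃ k, orderOf h = p ^ k) := by
    simp only [Finset.mem_filter, Finset.mem_univ, true_and]
    obtain ⟨k, hk⟩ := (IsPGroup.iff_orderOf.1 Q.isPGroup') ⟨x, hx⟩
    refine ⟨k, ?_⟩
    rw [← hk, Subgroup.orderOf_mk]
    have h1 := MulEquiv.orderOf_eq (MulAut.conj h) x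
    rwa [MulAut.conj_apply] at h1
  rw [← heq] at hmem
  simpa using hmem

end Cfsg.Agent.S3997
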