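import Cfsg.Statements.S4002
import Mathlib
import Cfsg.Agent.Lib.Helper6.ThreePrimes

set_option autoImplicit false
open Cfsg

namespace Cfsg.Agent.S4002

/-- If the set of element orders of a finite group G is {1, 2, …, n} with n ≥ 7, then G is not solvable. -/
theorem result {G : Type*} [Group G] [Finite G] (n : ℕ) (hn : 7 ≤ n) (h : Set.range (orderOf : G → ℕ) = {k : ℕ | 1 ≤ k ∧ k ≤ n}) : ¬ Group.IsSolvable G := by
  intro hsolv
  obtain ⟨p, q, r, hp, hq, hr, hpq, hqr, hrn, hnpq⟩ :=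
    Cfsg.Agent.Lib.Helper6.ThreePrimes.three_exist n hn
  have hle : ∀ g : G, orderOf g ≤ n := by
    intro g
    have : orderOf g ∈ Set.range (orderOf : G → ℕ) := ⟨g, rfl⟩
    rw [h] at this
    exact this.2
  have hex : ∀ k, 1 ≤ k → k ≤ n → ∃ g : G, orderOf g = k := by
    intro k h1 h2
    have : k ∈ Set.range (orderOf : G → ℕ) := by rw [h]; exact ⟨h1, h2⟩
    exact this
  have hdvd : ∀ k, 1 ≤ k → k ≤ n → k ∣ Nat.card G := by
    intro k h1 h2
    obtain ⟨g, rfl⟩ := hex k h1 h2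
    exact orderOf_dvd_natCard g
  have hno : ∀ m, n < m → ∀ g : G, orderOf g ≠ m := fun m hm g hg => by
    have := hle g; omega
  have hpr : n < p * r := lt_of_lt_of_le hnpq (Nat.mul_le_mul_left p hqr.le)
  have hqr' : n < q * r := lt_of_lt_of_le hnpq (Nat.mul_le_mul hpq.le hqr.le)
  exact Cfsg.Agent.Lib.Helper6.ThreePrimes.three_primes _ G rfl hsolv hp hq hr (by omega)
    (by omega) (by omega) (hdvd p hp.one_lt.le (by omega)) (hdvd q hq.one_lt.le (by omega))
    (hdvd r hr.one_lt.le hrn) (hno _ hnpq) (hno _ hpr) (hno _ hqr')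

end Cfsg.Agent.S4002
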