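import Cfsg.Statements.S4201

import Mathlib

set_option autoImplicit false
open Cfsg
open scoped Pointwise

namespace Cfsg.Agent.S4201

universe u

variable {X : Type u} [Group X]

noncomputable def pick (N : Subgroup X) [N.Normal] (g : X) (b : X ⧸ N) : X :=
  open Classical in
  if h : ∃ y : X, (y : X ⧸ N) = b ∧ Commute g y then h.choose else 1

lemma pick_spec (N : Subgroup X) [N.Normal] (g y : X) (hy : Commute g y) :
    ((pick N g (y : X ⧸ N) : X) : X ⧸ N) = (y : X ⧸ N) ∧ Commute g (pick N g (y : X ⧸ N)) := by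
  classical
  have h : ∃ z : X, (z : X ⧸ N) = (y : X ⧸ N) ∧ Commute g z := ⟨y, rfl, hy⟩
  unfold pick
  rw [dif_pos h]
  exact h.choose_spec

noncomputable def mOf (N : Subgroup X) [N.Normal] (g h : X) : X := (pick N g (h : X ⧸ N))⁻¹ * h

lemma mOf_mem (N : Subgroup X) [N.Normal] (g h : X) (hc : Commute g h) : mOf N g h ∈ N := by
  have := (pick_spec N g h hc).1
  rw [QuotientGroup.eq] at this
  exact this

lemma mOf_comm (N : Subgroup X) [N.Normal] (g h : X) (hc : Commute g h) : Commute g (mOf N g h) := by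
  have := (pick_spec N g h hc).2
  exact this.inv_right.mul_right hc

noncomputable def gOf (N : Subgroup X) [N.Normal] (g h : X) : X :=
  (pick N (mOf N g h) (g : X ⧸ N))⁻¹ * g

lemma gOf_mem (N : Subgroup X) [N.Normal] (g h : X) (hc : Commute g h) : gOf N g h ∈ N := by
  have := (pick_spec N (mOf N g h) g (mOf_comm N g h hc).symm).1
  rw [QuotientGroup.eq] at this
  exact this

lemma gOf_comm (N : Subgroup X) [N.Normal] (g h : X) (hc : Commute g h) :
    Commute (gOf N g h) (mOf N g h) := by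
  have h1 := (pick_spec N (mOf N g h) g (mOf_comm N g h hc).symm).2
  exact (h1.inv_right.mul_right (mOf_comm N g h hc).symm).symm

theorem comm_le [Finite X] (N : Subgroup X) [N.Normal] :
    Nat.card {p : X × X // Commute p.1 p.2} ≤
      Nat.card {p : N × N // Commute p.1 p.2} * Nat.card {p : (X ⧸ N) × (X ⧸ N) // Commute p.1 p.2} := by
  classical
  rw [← Nat.card_prod]
  apply Nat.card_le_card_of_injective (fun p : {p : X × X // Commute p.1 p.2} =>
    ((⟨(⟨gOf N p.1.1 p.1.2, gOf_mem N _ _ p.2⟩, ⟨mOf N p.1.1 p.1.2, mOf_mem N _ _ p.2⟩), by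
        have := gOf_comm N p.1.1 p.1.2 p.2
        show Commute _ _
        rw [commute_iff_eq] at this ⊢
        exact Subtype.ext this⟩ : {p : N × N // Commute p.1 p.2}),
     (⟨((p.1.1 : X ⧸ N), (p.1.2 : X ⧸ N)), by
        have := p.2
        show Commute _ _
        rw [commute_iff_eq] at this ⊢
        show ((p.1.1 : X ⧸ N)) * (p.1.2 : X ⧸ N) = (p.1.2 : X ⧸ N) * (p.1.1 : X ⧸ N)
        rw [← QuotientGroup.mk_mul, ← QuotientGroup.mk_mul, this]⟩ :
        {p : (X ⧸ N) × (X ⧸ N) // Commute p.1 p.2})))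
  rintro ⟨⟨g, h⟩, hc⟩ ⟨⟨g', h'⟩, hc'⟩ heq
  simp only [Prod.mk.injEq, Subtype.mk.injEq] at heq
  obtain ⟨⟨hg, hm⟩, hgq, hhq⟩ := heq
  have hgg : g = g' := by
    unfold gOf at hg
    rw [hm, hgq] at hg
    exact mul_left_cancel hg
  subst hgg
  have hhh : h = h' := by
    unfold mOf at hm
    rw [hhq] at hm
    exact mul_left_cancel hm
  subst hhh
  rfl

theorem result {X : Type*} [Group X] [Finite X] (N : Subgroup X) [N.Normal] : Nat.card (ConjClasses X) ≤ Nat.card (ConjClasses N) * Nat.card (ConjClasses (X ⧸ N)) := by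
  have h1 := card_comm_eq_card_conjClasses_mul_card X
  have h2 := card_comm_eq_card_conjClasses_mul_card N
  have h3 := card_comm_eq_card_conjClasses_mul_card (X ⧸ N)
  have h4 := comm_le N
  rw [h1, h2, h3] at h4
  have h5 : Nat.card X = Nat.card (X ⧸ N) * Nat.card N := Subgroup.card_eq_card_quotient_mul_card_subgroup N
  have hpos : 0 < Nat.card X := Nat.card_pos
  have h6 : Nat.card (ConjClasses X) * Nat.card X ≤
      (Nat.card (ConjClasses N) * Nat.card (ConjClasses (X ⧸ N))) * Nat.card X := by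
    calc Nat.card (ConjClasses X) * Nat.card X
        ≤ Nat.card (ConjClasses ↥N) * Nat.card ↥N * (Nat.card (ConjClasses (X ⧸ N)) * Nat.card (X ⧸ N)) := h4
      _ = (Nat.card (ConjClasses N) * Nat.card (ConjClasses (X ⧸ N))) * Nat.card X := by rw [h5]; ring
  exact Nat.le_of_mul_le_mul_right h6 hpos

end Cfsg.Agent.S4201
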