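import Cfsg.Statements.S4204

import Mathlib

set_option autoImplicit false
open Cfsg
open scoped Pointwise

namespace Cfsg.Agent.S4204

def fitA {G : Type*} [Group G] (H : Subgroup G) : ℕ → Subgroup G
  | 0 => ⊤
  | (i + 1) => H.lowerCentralSeries i

theorem fitA_normal {G : Type*} [Group G] (H : Subgroup G) [H.Normal] (i : ℕ) :
    (fitA H i).Normal := by
  cases i with
  | zero => exact Subgroup.normal_top
  | succ i => exact Subgroup.lowerCentralSeries_normal H i

theorem fitA_comm {G : Type*} [Group G] (H : Subgroup G) [H.Normal] (i : ℕ) :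
    ⁅fitA H i, H⁆ ≤ fitA H (i + 1) := by
  cases i with
  | zero => exact Subgroup.commutator_le_right ⊤ H
  | succ i => exact le_rfl

theorem fitA_anti {G : Type*} [Group G] (H : Subgroup G) {i j : ℕ} (hij : i + 1 ≤ j) :
    fitA H j ≤ H.lowerCentralSeries i := by
  obtain ⟨k, rfl⟩ : ∃ k, j = k + 1 := ⟨j - 1, by omega⟩
  exact H.lowerCentralSeries_antitone (by omega)

theorem comm_key {G : Type*} [Group G] (N Y : Subgroup G) [N.Normal] (X : Subgroup G) :
    ⁅X, Y⁆ ≤ N ↔ X.map (QuotientGroup.mk' N) ≤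
      Subgroup.centralizer (Y.map (QuotientGroup.mk' N) : Set (G ⧸ N)) := by
  rw [← Subgroup.commutator_eq_bot_iff_le_centralizer, ← Subgroup.map_commutator,
    Subgroup.map_eq_bot_iff, QuotientGroup.ker_mk']

theorem comm_le_of_sup_left {G : Type*} [Group G] (N X₁ X₂ Y : Subgroup G) [N.Normal]
    (h1 : ⁅X₁, Y⁆ ≤ N) (h2 : ⁅X₂, Y⁆ ≤ N) : ⁅X₁ ⊔ X₂, Y⁆ ≤ N := by
  rw [comm_key] at h1 h2 ⊢
  rw [Subgroup.map_sup]
  exact sup_le h1 h2

theorem comm_le_of_iSup_left {G : Type*} [Group G] {ι : Sort*} (N : Subgroup G)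
    (X : ι → Subgroup G) (Y : Subgroup G) [N.Normal]
    (h : ∀ i, ⁅X i, Y⁆ ≤ N) : ⁅⨆ i, X i, Y⁆ ≤ N := by
  rw [comm_key]
  rw [Subgroup.map_iSup]
  exact iSup_le (fun i => (comm_key N Y (X i)).mp (h i))

def fitT {G : Type*} [Group G] (H K : Subgroup G) (n : ℕ) : Subgroup G :=
  ⨆ p : ℕ × ℕ, ⨆ (_ : p.1 + p.2 = n + 1), fitA H p.1 ⊓ fitA K p.2

theorem fitT_normal {G : Type*} [Group G] (H K : Subgroup G) [H.Normal] [K.Normal] (n : ℕ) :
    (fitT H K n).Normal := by
  unfold fitT
  have h1 : ∀ p : ℕ × ℕ, (fitA H p.1 ⊓ fitA K p.2).Normal := by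
    intro p
    have := fitA_normal H p.1
    have := fitA_normal K p.2
    infer_instance
  have h2 : ∀ p : ℕ × ℕ, (⨆ (_ : p.1 + p.2 = n + 1), fitA H p.1 ⊓ fitA K p.2).Normal := by
    intro p
    have : ∀ _ : p.1 + p.2 = n + 1, (fitA H p.1 ⊓ fitA K p.2).Normal := fun _ => h1 p
    infer_instance
  infer_instance

theorem le_fitT {G : Type*} [Group G] (H K : Subgroup G) (n i j : ℕ) (h : i + j = n + 1) :
    fitA H i ⊓ fitA K j ≤ fitT H K n := by
  unfold fitT
  exact le_iSup₂_of_le (i, j) h le_rfl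

theorem fit_main {G : Type*} [Group G] (H K : Subgroup G) [H.Normal] [K.Normal] (n : ℕ) :
    (H ⊔ K).lowerCentralSeries n ≤ fitT H K n := by
  induction n with
  | zero =>
    rw [Subgroup.lowerCentralSeries_zero]
    apply sup_le
    · refine le_trans ?_ (le_fitT H K 0 1 0 rfl)
      change H ≤ H.lowerCentralSeries 0 ⊓ ⊤
      simp
    · refine le_trans ?_ (le_fitT H K 0 0 1 rfl)
      change K ≤ ⊤ ⊓ K.lowerCentralSeries 0
      simp
  | succ n ih =>
    rw [Subgroup.lowerCentralSeries_succ]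
    refine (Subgroup.commutator_mono ih le_rfl).trans ?_
    have hN := fitT_normal H K (n + 1)
    have e : fitT H K n = ⨆ p : ℕ × ℕ, ⨆ (_ : p.1 + p.2 = n + 1), fitA H p.1 ⊓ fitA K p.2 := rfl
    rw [e]
    apply comm_le_of_iSup_left
    intro p
    apply comm_le_of_iSup_left
    intro hp
    have hA := fitA_normal H p.1
    have hB := fitA_normal K p.2
    rw [Subgroup.commutator_comm]
    apply comm_le_of_sup_left
    · rw [Subgroup.commutator_comm]
      refine le_trans ?_ (le_fitT H K (n + 1) (p.1 + 1) p.2 (by omega))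
      exact le_inf ((Subgroup.commutator_mono inf_le_left le_rfl).trans (fitA_comm H p.1))
        ((Subgroup.commutator_mono inf_le_right le_rfl).trans
          (Subgroup.commutator_le_left (fitA K p.2) H))
    · rw [Subgroup.commutator_comm]
      refine le_trans ?_ (le_fitT H K (n + 1) p.1 (p.2 + 1) (by omega))
      exact le_inf ((Subgroup.commutator_mono inf_le_left le_rfl).trans
          (Subgroup.commutator_le_left (fitA H p.1) K))
        ((Subgroup.commutator_mono inf_le_right le_rfl).trans (fitA_comm K p.2))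

theorem result {G : Type*} [Group G] [Finite G] (H K : Subgroup G) [H.Normal] [K.Normal] (c d : ℕ) (hH : H.lowerCentralSeries c = ⊥) (hK : K.lowerCentralSeries d = ⊥) : (H ⊔ K).lowerCentralSeries (c + d) = ⊥ := by
  rw [eq_bot_iff]
  refine (fit_main H K (c + d)).trans ?_
  unfold fitT
  apply iSup₂_le
  intro p hp
  by_cases h1 : c + 1 ≤ p.1
  · have := fitA_anti H h1
    rw [hH] at this
    exact inf_le_left.trans this
  · have h2 : d + 1 ≤ p.2 := by omega
    have := fitA_anti K h2
    rw [hK] at this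
    exact inf_le_right.trans this

end Cfsg.Agent.S4204
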