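import Cfsg.Statements.S4205

import Mathlib

set_option autoImplicit false
open Cfsg
open scoped Pointwise

namespace Cfsg.Agent.S4205

open scoped commutatorElement

theorem result {G : Type*} [Group G] [Finite G] (c : ℕ) (hG : Subgroup.upperCentralSeries G c = ⊤) (H : Subgroup G) : (fun K : Subgroup G => Subgroup.normalizer (K : Set G))^[c] H = ⊤ := by
  have key : ∀ i : ℕ, Subgroup.upperCentralSeries G i ≤
      (fun K : Subgroup G => Subgroup.normalizer (K : Set G))^[i] H := by
    intro i
    induction i with
    | zero => simp
    | succ i ih =>
      rw [Function.iterate_succ_apply']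
      intro z hz
      have hzi := inv_mem hz
      rw [Subgroup.mem_upperCentralSeries_succ_iff] at hz hzi
      rw [Subgroup.mem_normalizer_iff]
      intro h
      constructor
      · intro hh
        have h1 := mul_mem (ih (hz h)) hh
        have e : ⁅z, h⁆ * h = z * h * z⁻¹ := by rw [commutatorElement_def]; group
        rw [e] at h1
        exact h1
      · intro hh
        have h1 := mul_mem (ih (hzi (z * h * z⁻¹))) hh
        have e : ⁅z⁻¹, z * h * z⁻¹⁆ * (z * h * z⁻¹) = h := by rw [commutatorElement_def]; group
        rw [e] at h1
        exact h1
  rw [eq_top_iff, ← hG]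
  exact key c

end Cfsg.Agent.S4205
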