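import Cfsg.Statements.S4208

import Mathlib

set_option autoImplicit false
open Cfsg
open scoped Pointwise

namespace Cfsg.Agent.S4208

theorem card_dvd_of_free {G X : Type*} [Group G] [MulAction G X] [Finite G] [Finite X]
    (hfree : ∀ x : X, MulAction.stabilizer G x = ⊥) : Nat.card G ∣ Nat.card X := by
  classical
  have e := MulAction.selfEquivSigmaOrbitsQuotientStabilizer G X
  have : Fintype (Quotient (MulAction.orbitRel G X)) := Fintype.ofFinite _
  rw [Nat.card_congr e, Nat.card_sigma]
  apply Finset.dvd_sum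
  intro ω _
  have h : Nat.card (G ⧸ MulAction.stabilizer G (Quotient.out ω)) = Nat.card G := by
    rw [hfree]
    exact Subgroup.index_bot
  rw [h]

theorem ea_add {V : Type*} [AddCommGroup V] [Finite V] {p r : ℕ} [Fact p.Prime]
    (hexp : ∀ v : V, p • v = 0) (hcard : Nat.card V = p ^ r) :
    Nat.card {f : Fin r → V // AddSubgroup.closure (Set.range f) = ⊤} =
      ∏ i : Fin r, (p ^ r - p ^ i.val) := by
  have hp := (Fact.out : p.Prime)
  have inst : Module (ZMod p) V := AddCommGroup.zmodModule hexp
  have hfr : Module.finrank (ZMod p) V = r := by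
    have h1 := Module.natCard_eq_pow_finrank (K := ZMod p) (V := V)
    rw [hcard, Nat.card_zmod] at h1
    exact (Nat.pow_right_injective hp.two_le h1).symm
  have key : ∀ f : Fin r → V,
      AddSubgroup.closure (Set.range f) = ⊤ ↔ LinearIndependent (ZMod p) f := by
    intro f
    have hspan : Submodule.span (ZMod p) (Set.range f) =
        AddSubgroup.toZModSubmodule p (AddSubgroup.closure (Set.range f)) := by
      apply le_antisymm
      · rw [Submodule.span_le]
        intro x hx
        exact AddSubgroup.subset_closure hx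
      · intro x hx
        have hx' : x ∈ AddSubgroup.closure (Set.range f) := hx
        have hle : AddSubgroup.closure (Set.range f) ≤
            (Submodule.span (ZMod p) (Set.range f)).toAddSubgroup := by
          rw [AddSubgroup.closure_le]
          exact Submodule.subset_span
        exact hle hx'
    constructor
    · intro h
      apply linearIndependent_of_top_le_span_of_card_eq_finrank
      · rw [hspan, h]
        intro x _
        trivial
      · rw [Fintype.card_fin, hfr]
    · intro h
      have h1 : Module.finrank (ZMod p) (Submodule.span (ZMod p) (Set.range f)) = r := by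
        rw [finrank_span_eq_card h, Fintype.card_fin]
      have h2 : Submodule.span (ZMod p) (Set.range f) = ⊤ :=
        Submodule.eq_top_of_finrank_eq (by rw [h1, hfr])
      rw [eq_top_iff]
      intro x _
      have h4 : x ∈ Submodule.span (ZMod p) (Set.range f) := by rw [h2]; trivial
      rw [hspan] at h4
      exact h4
  rw [Nat.card_congr (Equiv.subtypeEquivRight key)]
  have h3 := card_linearIndependent (K := ZMod p) (V := V) (k := r) (by rw [hfr])
  rw [h3, ZMod.card, hfr]

theorem mem_frattini_iff' {P : Type*} [Group P] (x : P) :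
    x ∈ frattini P ↔ ∀ M : Subgroup P, IsCoatom M → x ∈ M := by
  unfold frattini Order.radical
  simp [Subgroup.mem_iInf]

theorem coatom_pgroup {P : Type*} [Group P] [Finite P] {p : ℕ} [Fact p.Prime] (hP : IsPGroup p P)
    (M : Subgroup P) (hM : IsCoatom M) (x y : P) : x ^ p ∈ M ∧ x * y * x⁻¹ * y⁻¹ ∈ M := by
  have hnil : Group.IsNilpotent P := hP.isNilpotent
  have htfae : Group.IsNilpotent P ↔ ∀ H : Subgroup P, IsCoatom H → H.Normal :=
    (Group.isNilpotent_of_finite_tfae (G := P)).out 0 2
  have hnorm : M.Normal := htfae.mp hnil M hM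
  have hQp : IsPGroup p (P ⧸ M) := hP.to_quotient M
  obtain ⟨k, hk⟩ := IsPGroup.iff_card.mp hQp
  have hk0 : k ≠ 0 := by
    rintro rfl
    rw [pow_zero] at hk
    exact hM.1 (Subgroup.index_eq_one.mp hk)
  have hdvd : p ∣ Nat.card (P ⧸ M) := by
    rw [hk]; exact dvd_pow_self p hk0
  obtain ⟨q₀, hq₀⟩ := exists_prime_orderOf_dvd_card' p hdvd
  have hK : (Subgroup.zpowers q₀).comap (QuotientGroup.mk' M) = ⊤ := by
    apply hM.2
    refine lt_of_le_of_ne ?_ ?_
    · intro m hm
      rw [Subgroup.mem_comap]
      have e : (QuotientGroup.mk' M) m = 1 := (QuotientGroup.eq_one_iff m).mpr hm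
      rw [e]
      exact one_mem _
    · intro hEq
      obtain ⟨g, rfl⟩ := QuotientGroup.mk_surjective q₀
      have hg : g ∈ (Subgroup.zpowers (QuotientGroup.mk g : P ⧸ M)).comap (QuotientGroup.mk' M) :=
        Subgroup.mem_zpowers _
      rw [← hEq] at hg
      have e : (QuotientGroup.mk g : P ⧸ M) = 1 := (QuotientGroup.eq_one_iff g).mpr hg
      rw [e, orderOf_one] at hq₀
      exact (Fact.out : p.Prime).one_lt.ne hq₀
  have htop : Subgroup.zpowers q₀ = ⊤ := by
    rw [eq_top_iff]
    intro q _
    obtain ⟨g, rfl⟩ := QuotientGroup.mk_surjective q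
    have hg : g ∈ (Subgroup.zpowers q₀).comap (QuotientGroup.mk' M) := by rw [hK]; trivial
    exact hg
  have hcard : Nat.card (P ⧸ M) = p := by
    rw [← Subgroup.card_top (G := P ⧸ M), ← htop, Nat.card_zpowers, hq₀]
  have hcyc : IsCyclic (P ⧸ M) := isCyclic_of_prime_card hcard
  constructor
  · rw [← QuotientGroup.eq_one_iff, QuotientGroup.mk_pow, ← hcard]
    exact pow_card_eq_one'
  · rw [← QuotientGroup.eq_one_iff]
    simp only [QuotientGroup.mk_mul, QuotientGroup.mk_inv]
    rw [mul_comm' (x : P ⧸ M) (y : P ⧸ M)]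
    group

theorem frat_quot {P : Type*} [Group P] [Finite P] {p : ℕ} [Fact p.Prime] (hP : IsPGroup p P) :
    (∀ a b : P ⧸ frattini P, a * b = b * a) ∧ ∀ a : P ⧸ frattini P, a ^ p = 1 := by
  constructor
  · intro a b
    obtain ⟨x, rfl⟩ := QuotientGroup.mk_surjective a
    obtain ⟨y, rfl⟩ := QuotientGroup.mk_surjective b
    have h1 : x * y * x⁻¹ * y⁻¹ ∈ frattini P := by
      rw [mem_frattini_iff']
      intro M hM
      exact (coatom_pgroup hP M hM x y).2
    have h2 := (QuotientGroup.eq_one_iff _).mpr h1
    simp only [QuotientGroup.mk_mul, QuotientGroup.mk_inv] at h2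
    calc (x : P ⧸ frattini P) * y = ((x : P ⧸ frattini P) * y * (x : P ⧸ frattini P)⁻¹ * (y : P ⧸ frattini P)⁻¹) * (y * x) := by group
      _ = y * x := by rw [h2, one_mul]
  · intro a
    obtain ⟨x, rfl⟩ := QuotientGroup.mk_surjective a
    rw [← QuotientGroup.mk_pow, QuotientGroup.eq_one_iff, mem_frattini_iff']
    intro M hM
    exact (coatom_pgroup hP M hM x x).1

theorem closure_iff {Q : Type*} [Group Q] {r : ℕ} (f : Fin r → Q) :
    Subgroup.closure (Set.range f) = ⊤ ↔
      AddSubgroup.closure (Set.range (fun i => Additive.ofMul (f i))) = ⊤ := by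
  have e : Additive.toMul ⁻¹' (Set.range f) = Set.range (fun i => Additive.ofMul (f i)) := by
    ext x
    constructor
    · rintro ⟨i, hi⟩
      exact ⟨i, hi⟩
    · rintro ⟨i, hi⟩
      exact ⟨i, hi⟩
  rw [← e, ← Subgroup.toAddSubgroup_closure]
  constructor
  · intro h
    rw [h]
    rfl
  · intro h
    rw [eq_top_iff]
    intro x _
    have hx : Additive.ofMul x ∈ Subgroup.toAddSubgroup (Subgroup.closure (Set.range f)) := by
      rw [h]; trivial
    exact hx

theorem ea_mul {Q : Type*} [Group Q] [Finite Q] {p r : ℕ} [Fact p.Prime]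
    (hcomm : ∀ a b : Q, a * b = b * a) (hexp : ∀ a : Q, a ^ p = 1) (hcard : Nat.card Q = p ^ r) :
    Nat.card {f : Fin r → Q // Subgroup.closure (Set.range f) = ⊤} =
      ∏ i : Fin r, (p ^ r - p ^ i.val) := by
  letI : AddCommGroup (Additive Q) :=
    { (inferInstance : AddGroup (Additive Q)) with
      add_comm := fun a b => hcomm a.toMul b.toMul }
  have hfin : Finite (Additive Q) := Finite.of_equiv Q Additive.ofMul
  have h1 := ea_add (V := Additive Q) (p := p) (r := r) (fun v => hexp v.toMul)
    (by rw [← hcard]; exact Nat.card_congr Additive.toMul)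
  rw [← h1]
  exact Nat.card_congr (Equiv.subtypeEquiv (Equiv.arrowCongr (Equiv.refl _) Additive.ofMul)
    (fun f => closure_iff f))

@[reducible] def genAct (P : Type*) [Group P] (r : ℕ) :
    MulAction (MulAut P) {y : Fin r → P // Subgroup.closure (Set.range y) = ⊤} where
  smul α y := ⟨fun i => α (y.1 i), by
    have h : Set.range (fun i => α (y.1 i)) = (α.toMonoidHom : P →* P) '' Set.range y.1 := by
      rw [← Set.range_comp]; rfl
    rw [h, ← MonoidHom.map_closure, y.2, ← MonoidHom.range_eq_map]
    exact MonoidHom.range_eq_top.mpr α.surjective⟩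
  one_smul y := Subtype.ext (funext fun i => rfl)
  mul_smul α β y := Subtype.ext (funext fun i => rfl)

theorem gen_iff {P : Type*} [Group P] [Finite P] {r : ℕ} (y : Fin r → P) :
    Subgroup.closure (Set.range y) = ⊤ ↔
      Subgroup.closure (Set.range (fun i => (QuotientGroup.mk (y i) : P ⧸ frattini P))) = ⊤ := by
  have hr : Set.range (fun i => (QuotientGroup.mk (y i) : P ⧸ frattini P)) =
      (QuotientGroup.mk' (frattini P)) '' Set.range y := by
    rw [← Set.range_comp]; rfl
  rw [hr, ← MonoidHom.map_closure]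
  constructor
  · intro h
    rw [h, ← MonoidHom.range_eq_map]
    exact MonoidHom.range_eq_top.mpr (QuotientGroup.mk'_surjective _)
  · intro h
    apply frattini_nongenerating
    have h2 := Subgroup.comap_map_eq (QuotientGroup.mk' (frattini P))
      (Subgroup.closure (Set.range y))
    rw [h, Subgroup.comap_top, QuotientGroup.ker_mk'] at h2
    exact h2.symm

theorem out_mem {P : Type*} [Group P] (N : Subgroup P) [N.Normal] (a : P) :
    (Quotient.out (QuotientGroup.mk a : P ⧸ N))⁻¹ * a ∈ N := by
  rw [← QuotientGroup.eq]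
  exact Quotient.out_eq _

theorem mk_out_mul {P : Type*} [Group P] (N : Subgroup P) [N.Normal] (q : P ⧸ N) (u : N) :
    (QuotientGroup.mk (Quotient.out q * (u : P)) : P ⧸ N) = q := by
  rw [QuotientGroup.mk_mul, (QuotientGroup.eq_one_iff (u : P)).mpr u.2, mul_one]
  exact Quotient.out_eq _

noncomputable def genEquiv (P : Type*) [Group P] [Finite P] (r : ℕ) :
    {y : Fin r → P // Subgroup.closure (Set.range y) = ⊤} ≃
      {f : Fin r → P ⧸ frattini P // Subgroup.closure (Set.range f) = ⊤} ×
        (Fin r → frattini P) where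
  toFun y := (⟨fun i => QuotientGroup.mk (y.1 i), (gen_iff y.1).mp y.2⟩,
    fun i => ⟨(Quotient.out (QuotientGroup.mk (y.1 i) : P ⧸ frattini P))⁻¹ * y.1 i,
      out_mem _ _⟩)
  invFun fu := ⟨fun i => Quotient.out (fu.1.1 i) * (fu.2 i : P), by
    rw [gen_iff]
    have e : (fun i => (QuotientGroup.mk (Quotient.out (fu.1.1 i) * (fu.2 i : P)) :
        P ⧸ frattini P)) = fu.1.1 := funext fun i => mk_out_mul _ _ _
    rw [e]
    exact fu.1.2⟩
  left_inv y := by
    apply Subtype.ext
    funext i
    simp
  right_inv fu := by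
    obtain ⟨⟨f, hf⟩, u⟩ := fu
    apply Prod.ext
    · apply Subtype.ext
      funext i
      exact mk_out_mul _ _ _
    · funext i
      apply Subtype.ext
      show (Quotient.out (QuotientGroup.mk (Quotient.out (f i) * (u i : P)) :
        P ⧸ frattini P))⁻¹ * (Quotient.out (f i) * (u i : P)) = (u i : P)
      rw [mk_out_mul]
      group

theorem result {P : Type*} [Group P] [Finite P] {p n r : ℕ} [Fact p.Prime] (hP : Nat.card P = p ^ n) (hr : (frattini P).index = p ^ r) : Nat.card (MulAut P) ∣ p ^ (r * (n - r)) * ∏ i ∈ Finset.range r, (p ^ r - p ^ i) := by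
  have hp := (Fact.out : p.Prime)
  have hPg : IsPGroup p P := IsPGroup.of_card hP
  have hQ : Nat.card (P ⧸ frattini P) = p ^ r := hr
  have hfinM : Finite (MulAut P) :=
    Finite.of_injective (fun e : MulAut P => (e : P → P)) DFunLike.coe_injective
  let _ := genAct P r
  have hfree : ∀ y : {y : Fin r → P // Subgroup.closure (Set.range y) = ⊤},
      MulAction.stabilizer (MulAut P) y = ⊥ := by
    intro y
    rw [eq_bot_iff]
    intro α hα
    rw [Subgroup.mem_bot]
    have hαy : ∀ i, α (y.1 i) = y.1 i := by
      intro i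
      have h0 := congrArg (fun w : {y : Fin r → P // Subgroup.closure (Set.range y) = ⊤} => w.1 i)
        (MulAction.mem_stabilizer_iff.mp hα)
      exact h0
    apply MulEquiv.ext
    intro z
    have heq : Set.EqOn (α.toMonoidHom) (MonoidHom.id P)
        (Subgroup.closure (Set.range y.1)) := by
      apply MonoidHom.eqOn_closure
      rintro _ ⟨i, rfl⟩
      exact hαy i
    have hz : z ∈ Subgroup.closure (Set.range y.1) := by rw [y.2]; trivial
    exact heq hz
  have hdvd := card_dvd_of_free hfree
  have hcardΦ : Nat.card (frattini P) = p ^ (n - r) := by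
    have h1 := Subgroup.card_mul_index (frattini P)
    rw [hr, hP] at h1
    have hrn : r ≤ n := by
      have h2 : p ^ r ∣ p ^ n := Dvd.intro_left _ h1
      exact (Nat.pow_dvd_pow_iff_le_right hp.one_lt).mp h2
    have h3 : p ^ n = p ^ (n - r) * p ^ r := by rw [← pow_add, Nat.sub_add_cancel hrn]
    rw [h3] at h1
    exact Nat.eq_of_mul_eq_mul_right (pow_pos hp.pos r) h1
  have hfq := frat_quot hPg
  have hcnt := ea_mul hfq.1 hfq.2 hQ
  have hcardY : Nat.card {y : Fin r → P // Subgroup.closure (Set.range y) = ⊤} =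
      p ^ (r * (n - r)) * ∏ i ∈ Finset.range r, (p ^ r - p ^ i) := by
    rw [Nat.card_congr (genEquiv P r), Nat.card_prod, hcnt, Nat.card_fun, hcardΦ, Nat.card_fin,
      ← pow_mul, mul_comm (n - r) r, mul_comm]
    congr 1
    exact Fin.prod_univ_eq_prod_range (fun i => p ^ r - p ^ i) r
  rw [← hcardY]
  exact hdvd

end Cfsg.Agent.S4208
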