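import Cfsg.Statements.S4210

import Mathlib
import Cfsg.Agent.Lib.Helper7.Regular

set_option autoImplicit false
open Cfsg
open scoped Pointwise

namespace Cfsg.Agent.S4210

theorem result {G : Type*} [Group G] [Finite G] {p : ℕ} [Fact p.Prime] (hG : Cfsg.IsRegularPGroup p G) (a b : G) (k : ℕ) : a ^ p ^ k = b ^ p ^ k ↔ (a * b⁻¹) ^ p ^ k = 1 := by
  exact Cfsg.Agent.Lib.Helper7.Regular.pow_eq_iff hG k a b

end Cfsg.Agent.S4210
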