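import Cfsg.Statements.S4219

import Mathlib
import Cfsg.Agent.S0001
import Cfsg.Agent.S0004
import Cfsg.Agent.S0023

set_option autoImplicit false
open Cfsg
open scoped Pointwise

namespace Cfsg.Agent.S4219

theorem key {G : Type*} [Group G] [Finite G] {α : Type*} [Fintype α] [MulAction G α] {t : ℕ}
    (hG : MulAction.IsMultiplyPretransitive G α t) (x : Fin t ↪ α) {p : ℕ} [Fact p.Prime]
    (P : Sylow p (MulAction.stabilizer G x)) (a : Fin t ↪ α)
    (ha : ∀ i, a i ∈ MulAction.fixedPoints ((P : Subgroup (MulAction.stabilizer G x)).map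
      (MulAction.stabilizer G x).subtype) α) :
    ∃ n ∈ Subgroup.normalizer ((((P : Subgroup (MulAction.stabilizer G x)).map
      (MulAction.stabilizer G x).subtype) : Subgroup G) : Set G), n • x = a := by
  have hp : p.Prime := Fact.out
  obtain ⟨g, hg⟩ := MulAction.exists_smul_eq G x a
  have hP'H : (P : Subgroup (MulAction.stabilizer G x)).map (MulAction.stabilizer G x).subtype ≤
      MulAction.stabilizer G x := Subgroup.map_subtype_le _
  have hQH : MulAut.conj g⁻¹ • (P : Subgroup (MulAction.stabilizer G x)).map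
      (MulAction.stabilizer G x).subtype ≤ MulAction.stabilizer G x := by
    rintro y ⟨u, hu, rfl⟩
    have hux : u • a = a := by
      ext i
      exact ha i ⟨u, hu⟩
    rw [MulAction.mem_stabilizer_iff]
    show (g⁻¹ * u * g⁻¹⁻¹) • x = x
    rw [inv_inv, mul_smul, mul_smul, hg, hux, ← hg, inv_smul_smul]
  have cP : Nat.card ((P : Subgroup (MulAction.stabilizer G x)).map
      (MulAction.stabilizer G x).subtype) =
      p ^ (Nat.card (MulAction.stabilizer G x)).factorization p := by
    rw [Subgroup.card_map_of_injective (Subgroup.subtype_injective _)]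
    exact P.card_eq_multiplicity
  have cQ : Nat.card (MulAut.conj g⁻¹ • (P : Subgroup (MulAction.stabilizer G x)).map
      (MulAction.stabilizer G x).subtype : Subgroup G) =
      p ^ (Nat.card (MulAction.stabilizer G x)).factorization p := by
    rw [← cP]; exact Cfsg.Agent.S0004.card_conj_smul g⁻¹ _
  have cM : Nat.card (MulAction.stabilizer G x) =
      p ^ (Nat.card (MulAction.stabilizer G x)).factorization p *
        (Nat.card (MulAction.stabilizer G x) /
          p ^ (Nat.card (MulAction.stabilizer G x)).factorization p) :=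
    (Nat.ordProj_mul_ordCompl_eq_self _ p).symm
  obtain ⟨h, hh, hconj⟩ := Cfsg.Agent.S0001.sylow_conj_in (MulAction.stabilizer G x) _ _ p _ _ hp
    hP'H hQH cP cQ cM (Nat.not_dvd_ordCompl hp Nat.card_pos.ne')
  refine ⟨g * h, ?_, ?_⟩
  · rw [Cfsg.Agent.S0023.mem_normalizer_iff_conj_smul, map_mul, mul_smul, hconj, ← mul_smul,
      ← map_mul, mul_inv_cancel, map_one, one_smul]
  · rw [mul_smul, MulAction.mem_stabilizer_iff.mp hh, hg]

theorem result {G : Type*} [Group G] [Finite G] {α : Type*} [Fintype α] [MulAction G α] {t : ℕ} (hG : MulAction.IsMultiplyPretransitive G α t) (x : Fin t ↪ α) {p : ℕ} [Fact p.Prime] (P : Sylow p (MulAction.stabilizer G x)) (a b : Fin t ↪ α) (ha : ∀ i, a i ∈ MulAction.fixedPoints ((P : Subgroup (MulAction.stabilizer G x)).map (MulAction.stabilizer G x).subtype) α) (hb : ∀ i, b i ∈ MulAction.fixedPoints ((P : Subgroup (MulAction.stabilizer G x)).map (MulAction.stabilizer G x).subtype) α) : ∃ g ∈ Subgroup.normalizer ((((P : Subgroup (MulAction.stabilizer G x)).map (MulAction.stabilizer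 G x).subtype) : Subgroup G) : Set G), g • a = b := by
  obtain ⟨n1, hn1, h1⟩ := key hG x P a ha
  obtain ⟨n2, hn2, h2⟩ := key hG x P b hb
  refine ⟨n2 * n1⁻¹, Subgroup.mul_mem _ hn2 (Subgroup.inv_mem _ hn1), ?_⟩
  rw [mul_smul, ← h1, inv_smul_smul, h2]

end Cfsg.Agent.S4219
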