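import Cfsg.Statements.S4222

set_option autoImplicit false
open Cfsg
open scoped Pointwise

namespace Cfsg.Agent.S4222

theorem result {T : Type*} [Group T] [Finite T] (N : Subgroup T) [N.Normal] (hz : Subgroup.center ↥N = ⊥) (ha : Function.Surjective (MulAut.conj : ↥N →* MulAut ↥N)) : (Subgroup.centralizer (N : Set T)).IsComplement' N := by
  apply Subgroup.isComplement'_of_disjoint_and_mul_eq_univ
  · rw [Subgroup.disjoint_def]
    intro x hxC hxN
    have h1 : (⟨x, hxN⟩ : N) ∈ Subgroup.center N := by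
      rw [Subgroup.mem_center_iff]
      rintro ⟨m, hm⟩
      apply Subtype.ext
      exact (Subgroup.mem_centralizer_iff.mp hxC m hm)
    rw [hz, Subgroup.mem_bot] at h1
    exact congrArg Subtype.val h1
  · rw [Set.eq_univ_iff_forall]
    intro t
    obtain ⟨n, hn⟩ := ha (MulAut.conjNormal t)
    refine Set.mem_mul.mpr ⟨t * (n : T)⁻¹, ?_, n, n.2, by group⟩
    rw [SetLike.mem_coe, Subgroup.mem_centralizer_iff]
    intro m hm
    have hm' : (n : T)⁻¹ * m * n ∈ N := by
      have := ‹N.Normal›.conj_mem m hm (n : T)⁻¹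
      simpa using this
    have h1 := congrArg Subtype.val (DFunLike.congr_fun hn ⟨(n : T)⁻¹ * m * n, hm'⟩)
    simp only [MulAut.conj_apply, MulAut.conjNormal_apply, Subgroup.coe_mul, Subgroup.coe_inv] at h1
    calc m * (t * (n : T)⁻¹) = (n : T) * ((n : T)⁻¹ * m * n) * (n : T)⁻¹ * (t * (n : T)⁻¹) := by group
      _ = t * ((n : T)⁻¹ * m * n) * t⁻¹ * (t * (n : T)⁻¹) := by rw [h1]
      _ = t * (n : T)⁻¹ * m := by group

end Cfsg.Agent.S4222
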