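import Cfsg.Statements.S4223

import Mathlib

set_option autoImplicit false
open Cfsg
open scoped Pointwise

namespace Cfsg.Agent.S4223

universe u v

def NormalEnd {H : Type*} [Group H] (f : H →* H) : Prop :=
  ∀ c a : H, f (c * a * c⁻¹) = c * f a * c⁻¹

def Indec (H : Type*) [Group H] : Prop :=
  ∀ A B : Subgroup H, A.Normal → B.Normal → A ⊓ B = ⊥ → A ⊔ B = ⊤ → A = ⊥ ∨ B = ⊥

theorem iter_normal {H : Type*} [Group H] (f : H →* H) (hf : NormalEnd f) (n : ℕ) (c a : H) :
    (f^[n]) (c * a * c⁻¹) = c * (f^[n]) a * c⁻¹ := by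
  induction n with
  | zero => rfl
  | succ n ih =>
    rw [Function.iterate_succ_apply', Function.iterate_succ_apply', ih, hf]

def iterHom {H : Type*} [Group H] (f : H →* H) : ℕ → (H →* H)
  | 0 => MonoidHom.id H
  | n + 1 => f.comp (iterHom f n)

theorem iterHom_apply {H : Type*} [Group H] (f : H →* H) (n : ℕ) (x : H) :
    iterHom f n x = (f^[n]) x := by
  induction n with
  | zero => rfl
  | succ n ih =>
    rw [Function.iterate_succ_apply']
    show f (iterHom f n x) = _
    rw [ih]

theorem exists_idem {X : Type*} [Finite X] (f : X → X) :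
    ∃ n : ℕ, 1 ≤ n ∧ f^[n + n] = f^[n] := by
  obtain ⟨a, b, hab, heq⟩ := Finite.exists_ne_map_eq_of_infinite (fun n : ℕ => f^[n])
  have key : ∀ a b : ℕ, a < b → f^[a] = f^[b] → ∃ n : ℕ, 1 ≤ n ∧ f^[n + n] = f^[n] := by
    intro a b hlt heq
    obtain ⟨d, rfl⟩ : ∃ d, b = a + d := ⟨b - a, by omega⟩
    have hd : 1 ≤ d := by omega
    have h1 : ∀ m : ℕ, f^[a + m + d] = f^[a + m] := by
      intro m
      have e1 : a + m + d = m + (a + d) := by ring
      rw [e1, Function.iterate_add, ← heq, ← Function.iterate_add, add_comm]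
    have h2 : ∀ t m : ℕ, f^[a + m + t * d] = f^[a + m] := by
      intro t
      induction t with
      | zero =>
        intro m
        rw [Nat.zero_mul, Nat.add_zero]
      | succ t ih =>
        intro m
        have e1 : a + m + (t + 1) * d = a + (m + t * d) + d := by ring
        rw [e1, h1, ← add_assoc, ih]
    obtain ⟨N, hN⟩ : ∃ N, N = (a + 1) * d := ⟨_, rfl⟩
    have hle : a + 1 ≤ N := by
      rw [hN]
      exact Nat.le_mul_of_pos_right _ hd
    refine ⟨N, by omega, ?_⟩
    obtain ⟨m, hm⟩ : ∃ m, N = a + m := ⟨N - a, by omega⟩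
    have h3 := h2 (a + 1) m
    rw [← hN, ← hm] at h3
    exact h3
  rcases Nat.lt_or_gt_of_ne hab with h | h
  · exact key a b h heq
  · exact key b a h heq.symm

theorem fitting {H : Type*} [Group H] [Finite H] (hind : Indec H) (f : H →* H)
    (hf : NormalEnd f) :
    Function.Injective f ∨ ∃ k : ℕ, ∀ x, (f^[k]) x = 1 := by
  obtain ⟨n, hn1, hn⟩ := exists_idem (f : H → H)
  have hφ : ∀ x, iterHom f n x = (f^[n]) x := iterHom_apply f n
  have hidem : ∀ x, iterHom f n (iterHom f n x) = iterHom f n x := by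
    intro x
    rw [hφ, hφ, ← Function.iterate_add_apply, hn]
  have hker : (iterHom f n).ker.Normal := inferInstance
  have hrange : (iterHom f n).range.Normal := by
    constructor
    intro y hy c
    obtain ⟨x, rfl⟩ := hy
    refine ⟨c * x * c⁻¹, ?_⟩
    rw [hφ, hφ, iter_normal f hf]
  have hinf : (iterHom f n).ker ⊓ (iterHom f n).range = ⊥ := by
    rw [eq_bot_iff]
    rintro x ⟨hx1, ⟨y, rfl⟩⟩
    rw [Subgroup.mem_bot]
    have h1 : iterHom f n (iterHom f n y) = 1 := hx1
    rw [hidem] at h1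
    exact h1
  have hsup : (iterHom f n).ker ⊔ (iterHom f n).range = ⊤ := by
    rw [eq_top_iff]
    intro x _
    have h1 : x * (iterHom f n x)⁻¹ ∈ (iterHom f n).ker := by
      rw [MonoidHom.mem_ker, map_mul, map_inv, hidem, mul_inv_cancel]
    have h2 : iterHom f n x ∈ (iterHom f n).range := ⟨x, rfl⟩
    have h3 : x = x * (iterHom f n x)⁻¹ * iterHom f n x := by group
    rw [h3]
    exact Subgroup.mul_mem_sup h1 h2
  rcases hind _ _ hker hrange hinf hsup with h | h
  · left
    have hinj : Function.Injective (iterHom f n) := (MonoidHom.ker_eq_bot_iff _).mp h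
    intro x y hxy
    apply hinj
    rw [hφ, hφ]
    obtain ⟨m, rfl⟩ : ∃ m, n = m + 1 := ⟨n - 1, by omega⟩
    rw [Function.iterate_succ_apply, Function.iterate_succ_apply, hxy]
  · right
    refine ⟨n, fun x => ?_⟩
    rw [← hφ]
    have h2 : iterHom f n x ∈ (iterHom f n).range := ⟨x, rfl⟩
    rw [h] at h2
    exact Subgroup.mem_bot.mp h2

theorem two_sum {H : Type*} [Group H] [Finite H] (hind : Indec H) (f g h : H →* H)
    (hf : NormalEnd f) (hg : NormalEnd g) (hfg : ∀ x, h x = f x * g x)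
    (hh : Function.Injective h) :
    Function.Injective f ∨ Function.Injective g := by
  have hsurj : Function.Surjective h := Finite.injective_iff_surjective.mp hh
  have hhn : NormalEnd h := by
    intro c a
    rw [hfg, hfg, hf, hg]
    group
  let e : H ≃* H := MulEquiv.ofBijective h ⟨hh, hsurj⟩
  have hes : ∀ x, h (e.symm x) = x := fun x => e.apply_symm_apply x
  have hes' : ∀ x, e.symm (h x) = x := fun x => e.symm_apply_apply x
  let f' : H →* H := f.comp e.symm.toMonoidHom
  have hf'x : ∀ x, f' x = f (e.symm x) := fun x => rfl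
  have hf' : NormalEnd f' := by
    intro c a
    rw [hf'x, hf'x]
    have h1 : e.symm (c * a * c⁻¹) = c * e.symm a * c⁻¹ := by
      apply hh
      rw [hes, hhn, hes]
    rw [h1, hf]
  rcases fitting hind f' hf' with h1 | ⟨k, hk⟩
  · left
    intro x y hxy
    apply hh
    apply h1
    rw [hf'x, hf'x, hes', hes', hxy]
  · right
    have hker : ∀ t, g t = 1 → t = 1 := by
      intro t ht
      have h2 : f' (h t) = h t := by
        rw [hf'x, hes', hfg, ht, mul_one]
      have h3 : ∀ m : ℕ, (f'^[m]) (h t) = h t := by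
        intro m
        induction m with
        | zero => rfl
        | succ m ih => rw [Function.iterate_succ_apply, h2, ih]
      have h4 : h t = 1 := by rw [← h3 k, hk]
      apply hh
      rw [h4, map_one]
    exact (injective_iff_map_eq_one g).mpr hker

section prod

variable {I J : Type} [Fintype I] [Fintype J] [DecidableEq I] [DecidableEq J]
  (A : I → Type u) (B : J → Type v) [∀ i, Group (A i)] [∀ j, Group (B j)]

def R (S : Finset J) : (∀ j, B j) →* (∀ j, B j) where
  toFun x := fun j => if j ∈ S then x j else 1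
  map_one' := by
    funext j
    by_cases h : j ∈ S <;> simp [h]
  map_mul' x y := by
    funext j
    by_cases h : j ∈ S <;> simp [h]

theorem R_apply (S : Finset J) (x : ∀ j, B j) (j : J) :
    R B S x j = if j ∈ S then x j else 1 := rfl

theorem R_normal (S : Finset J) (y x : ∀ j, B j) :
    R B S (y * x * y⁻¹) = y * R B S x * y⁻¹ := by
  funext j
  by_cases h : j ∈ S <;> simp [R_apply, h]

theorem R_single (j0 : J) (x : ∀ j, B j) : R B {j0} x = Pi.mulSingle j0 (x j0) := by
  funext j
  by_cases h : j = j0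
  · subst h
    simp [R_apply]
  · simp [R_apply, h, Pi.mulSingle_eq_of_ne h]

def fS (e : (∀ i, A i) ≃* (∀ j, B j)) (i0 : I) (S : Finset J) : A i0 →* A i0 :=
  (Pi.evalMonoidHom A i0).comp (e.symm.toMonoidHom.comp ((R B S).comp
    (e.toMonoidHom.comp (MonoidHom.mulSingle A i0))))

theorem fS_apply (e : (∀ i, A i) ≃* (∀ j, B j)) (i0 : I) (S : Finset J) (a : A i0) :
    fS A B e i0 S a = (e.symm (R B S (e (MonoidHom.mulSingle A i0 a)))) i0 := rfl

theorem fS_normal (e : (∀ i, A i) ≃* (∀ j, B j)) (i0 : I) (S : Finset J) :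
    NormalEnd (fS A B e i0 S) := by
  intro c a
  rw [fS_apply, fS_apply]
  have h1 : MonoidHom.mulSingle A i0 (c * a * c⁻¹) = MonoidHom.mulSingle A i0 c *
      MonoidHom.mulSingle A i0 a * (MonoidHom.mulSingle A i0 c)⁻¹ := by
    rw [map_mul, map_mul, map_inv]
  have h2 : e (MonoidHom.mulSingle A i0 (c * a * c⁻¹)) = e (MonoidHom.mulSingle A i0 c) *
      e (MonoidHom.mulSingle A i0 a) * (e (MonoidHom.mulSingle A i0 c))⁻¹ := by
    rw [h1, map_mul, map_mul, map_inv]
  rw [h2, R_normal]
  have h3 : ∀ r : ∀ j, B j, e.symm (e (MonoidHom.mulSingle A i0 c) * r *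
      (e (MonoidHom.mulSingle A i0 c))⁻¹) =
      MonoidHom.mulSingle A i0 c * e.symm r * (MonoidHom.mulSingle A i0 c)⁻¹ := by
    intro r
    rw [map_mul, map_mul, map_inv, e.symm_apply_apply]
  rw [h3]
  simp

theorem fS_empty (e : (∀ i, A i) ≃* (∀ j, B j)) (i0 : I) (a : A i0) :
    fS A B e i0 ∅ a = 1 := by
  rw [fS_apply]
  have h1 : R B ∅ (e (MonoidHom.mulSingle A i0 a)) = 1 := by
    funext j
    simp [R_apply]
  rw [h1, map_one]
  rfl

theorem fS_univ (e : (∀ i, A i) ≃* (∀ j, B j)) (i0 : I) (a : A i0) :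
    fS A B e i0 Finset.univ a = a := by
  rw [fS_apply]
  have h1 : R B Finset.univ (e (MonoidHom.mulSingle A i0 a)) = e (MonoidHom.mulSingle A i0 a) := by
    funext j
    simp [R_apply]
  rw [h1, e.symm_apply_apply]
  simp

theorem fS_insert (e : (∀ i, A i) ≃* (∀ j, B j)) (i0 : I) (S : Finset J) (j : J) (hj : j ∉ S)
    (a : A i0) :
    fS A B e i0 (insert j S) a = fS A B e i0 S a * fS A B e i0 {j} a := by
  rw [fS_apply, fS_apply, fS_apply]
  have h1 : ∀ x : ∀ j, B j, R B (insert j S) x = R B S x * R B {j} x := by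
    intro x
    funext j'
    by_cases h1 : j' = j
    · subst h1
      simp [R_apply, hj]
    · by_cases h2 : j' ∈ S <;> simp [R_apply, h1, h2]
  rw [h1, map_mul]
  rfl

theorem exists_inj [∀ i, Finite (A i)] (e : (∀ i, A i) ≃* (∀ j, B j)) (i0 : I)
    (hA : Nontrivial (A i0) ∧ Indec (A i0)) :
    ∃ j, Function.Injective (fS A B e i0 {j}) := by
  classical
  haveI := hA.1
  by_contra hcon
  push_neg at hcon
  have hall : ∀ S : Finset J, ¬ Function.Injective (fS A B e i0 S) := by
    intro S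
    induction S using Finset.induction_on with
    | empty =>
      intro hinj
      obtain ⟨a, ha⟩ := exists_ne (1 : A i0)
      apply ha
      apply hinj
      rw [fS_empty, fS_empty]
    | insert j S hj ih =>
      intro hinj
      rcases two_sum hA.2 (fS A B e i0 S) (fS A B e i0 {j}) (fS A B e i0 (insert j S))
        (fS_normal A B e i0 S) (fS_normal A B e i0 {j})
        (fun x => fS_insert A B e i0 S j hj x) hinj with h | h
      · exact ih h
      · exact hcon j h
  apply hall Finset.univ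
  intro x y hxy
  rwa [fS_univ, fS_univ] at hxy

theorem step [∀ i, Finite (A i)] [∀ j, Finite (B j)]
    (hA : ∀ i, Nontrivial (A i) ∧ Indec (A i)) (hB : ∀ j, Nontrivial (B j) ∧ Indec (B j))
    (e : (∀ i, A i) ≃* (∀ j, B j)) (i0 : I) :
    ∃ j0 : J, Nonempty (A i0 ≃* B j0) ∧
      Nonempty ((∀ i : {i // i ≠ i0}, A i.1) ≃* (∀ j : {j // j ≠ j0}, B j.1)) := by
  classical
  obtain ⟨j0, hj0⟩ := exists_inj A B e i0 (hA i0)
  haveI := (hA i0).1
  refine ⟨j0, ?_⟩
  let α : A i0 →* B j0 :=
    (Pi.evalMonoidHom B j0).comp (e.toMonoidHom.comp (MonoidHom.mulSingle A i0))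
  let β : B j0 →* A i0 :=
    (Pi.evalMonoidHom A i0).comp (e.symm.toMonoidHom.comp (MonoidHom.mulSingle B j0))
  have hα : ∀ a, α a = (e (MonoidHom.mulSingle A i0 a)) j0 := fun a => rfl
  have hβ : ∀ b, β b = (e.symm (Pi.mulSingle j0 b)) i0 := fun b => rfl
  have hβα : ∀ a, β (α a) = fS A B e i0 {j0} a := by
    intro a
    rw [hβ, hα, fS_apply, R_single]
  have hinj : Function.Injective (fun a => β (α a)) := by
    intro x y hxy
    apply hj0
    rw [← hβα, ← hβα]
    exact hxy
  have hsurj : Function.Surjective (fun a => β (α a)) :=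
    Finite.injective_iff_surjective.mp hinj
  have hconj : ∀ (b : B j0) (a : A i0), b * α a * b⁻¹ = α (β b * a * (β b)⁻¹) := by
    intro b a
    rw [hα, hα, hβ]
    have h1 : ∀ g : ∀ i, A i, MonoidHom.mulSingle A i0 (g i0 * a * (g i0)⁻¹) =
        g * MonoidHom.mulSingle A i0 a * g⁻¹ := by
      intro g
      funext i
      by_cases h : i = i0
      · subst h
        simp
      · simp [Pi.mulSingle_eq_of_ne h]
    rw [h1, map_mul, map_mul, map_inv, e.apply_symm_apply]
    simp
  have hU : α.range.Normal := by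
    constructor
    rintro _ ⟨a, rfl⟩ b
    exact ⟨_, (hconj b a).symm⟩
  have hW : β.ker.Normal := inferInstance
  have hUW : α.range ⊓ β.ker = ⊥ := by
    rw [eq_bot_iff]
    rintro _ ⟨⟨a, rfl⟩, hx⟩
    rw [Subgroup.mem_bot]
    have h1 : β (α a) = β (α 1) := by
      rw [map_one, map_one]
      exact hx
    rw [hinj h1, map_one]
  have hUWtop : α.range ⊔ β.ker = ⊤ := by
    rw [eq_top_iff]
    intro b _
    obtain ⟨a, ha⟩ := hsurj (β b)
    have ha' : β (α a) = β b := ha
    have h1 : (α a)⁻¹ * b ∈ β.ker := by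
      rw [MonoidHom.mem_ker, map_mul, map_inv, ha', inv_mul_cancel]
    have h3 : b = α a * ((α a)⁻¹ * b) := by group
    rw [h3]
    exact Subgroup.mul_mem_sup ⟨a, rfl⟩ h1
  have hβinj : Function.Injective β := by
    rcases (hB j0).2 _ _ hU hW hUW hUWtop with h | h
    · exfalso
      obtain ⟨a, ha⟩ := exists_ne (1 : A i0)
      apply ha
      apply hinj
      show β (α a) = β (α 1)
      have h1 : α a ∈ α.range := ⟨a, rfl⟩
      rw [h] at h1
      rw [Subgroup.mem_bot.mp h1, map_one, map_one, map_one]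
    · exact (MonoidHom.ker_eq_bot_iff β).mp h
  have hβsurj : Function.Surjective β := by
    intro a
    obtain ⟨a', ha'⟩ := hsurj a
    exact ⟨α a', ha'⟩
  let eβ : B j0 ≃* A i0 := MulEquiv.ofBijective β ⟨hβinj, hβsurj⟩
  refine ⟨⟨eβ.symm⟩, ?_⟩
  let ext0 : (∀ i : {i // i ≠ i0}, A i.1) →* (∀ i, A i) :=
    { toFun := fun x i => if h : i = i0 then 1 else x ⟨i, h⟩
      map_one' := by
        funext i
        by_cases h : i = i0 <;> simp [h]
      map_mul' := fun x y => by
        funext i
        by_cases h : i = i0 <;> simp [h] }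
  let res0 : (∀ j, B j) →* (∀ j : {j // j ≠ j0}, B j.1) :=
    { toFun := fun x j => x j.1
      map_one' := rfl
      map_mul' := fun x y => rfl }
  have hext : ∀ (x : ∀ i : {i // i ≠ i0}, A i.1) (i : I),
      ext0 x i = if h : i = i0 then 1 else x ⟨i, h⟩ := fun x i => rfl
  have hψinj : Function.Injective (res0.comp (e.toMonoidHom.comp ext0)) := by
    rw [injective_iff_map_eq_one]
    intro x hx
    have hx' : ∀ j : J, j ≠ j0 → (e (ext0 x)) j = 1 := by
      intro j hj
      exact congrFun hx ⟨j, hj⟩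
    have h1 : e (ext0 x) = Pi.mulSingle j0 ((e (ext0 x)) j0) := by
      funext j
      by_cases h : j = j0
      · subst h
        simp
      · rw [Pi.mulSingle_eq_of_ne h]
        exact hx' j h
    have h2 : β ((e (ext0 x)) j0) = 1 := by
      rw [hβ, ← h1, e.symm_apply_apply, hext]
      simp
    have h3 : (e (ext0 x)) j0 = 1 := by
      apply hβinj
      rw [h2, map_one]
    rw [h3, Pi.mulSingle_one] at h1
    have h4 : ext0 x = 1 := by
      apply e.injective
      rw [h1, map_one]
    funext i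
    have h5 := congrFun h4 i.1
    rw [hext, dif_neg i.2] at h5
    exact h5
  have hcardA : Nat.card (∀ i, A i) =
      Nat.card (A i0) * Nat.card (∀ i : {i // i ≠ i0}, A i.1) := by
    rw [Nat.card_congr (Equiv.piSplitAt i0 A), Nat.card_prod]
  have hcardB : Nat.card (∀ j, B j) =
      Nat.card (B j0) * Nat.card (∀ j : {j // j ≠ j0}, B j.1) := by
    rw [Nat.card_congr (Equiv.piSplitAt j0 B), Nat.card_prod]
  have hcardAB : Nat.card (∀ i, A i) = Nat.card (∀ j, B j) := Nat.card_congr e.toEquiv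
  have hcard0 : Nat.card (B j0) = Nat.card (A i0) := Nat.card_congr eβ.toEquiv
  have hcard : Nat.card (∀ j : {j // j ≠ j0}, B j.1) =
      Nat.card (∀ i : {i // i ≠ i0}, A i.1) := by
    rw [hcardA, hcardB, hcard0] at hcardAB
    exact (Nat.eq_of_mul_eq_mul_left Nat.card_pos hcardAB).symm
  have hψbij : Function.Bijective (res0.comp (e.toMonoidHom.comp ext0)) :=
    hψinj.bijective_of_nat_card_le hcard.le
  exact ⟨MulEquiv.ofBijective _ hψbij⟩

end prod

theorem ks_aux (n : ℕ) : ∀ (I J : Type) [Fintype I] [Fintype J] [DecidableEq I] [DecidableEq J]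
    (A : I → Type u) (B : J → Type v) [∀ i, Group (A i)] [∀ j, Group (B j)]
    [∀ i, Finite (A i)] [∀ j, Finite (B j)],
    (∀ i, Nontrivial (A i) ∧ Indec (A i)) → (∀ j, Nontrivial (B j) ∧ Indec (B j)) →
    ((∀ i, A i) ≃* (∀ j, B j)) → Fintype.card I = n →
    ∃ σ : I ≃ J, ∀ i, Nonempty (A i ≃* B (σ i)) := by
  induction n with
  | zero =>
    intro I J _ _ _ _ A B _ _ _ _ hA hB e hcard
    haveI : IsEmpty I := Fintype.card_eq_zero_iff.mp hcard
    haveI : IsEmpty J := by
      rw [← not_nonempty_iff]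
      rintro ⟨j⟩
      haveI := (hB j).1
      obtain ⟨b, hb⟩ := exists_ne (1 : B j)
      apply hb
      have h1 : e.symm (Pi.mulSingle j b) = e.symm 1 := Subsingleton.elim _ _
      have h2 := e.symm.injective h1
      have h3 := congrFun h2 j
      simpa using h3
    exact ⟨Equiv.equivOfIsEmpty I J, fun i => isEmptyElim i⟩
  | succ n ih =>
    intro I J _ _ _ _ A B _ _ _ _ hA hB e hcard
    have hpos : 0 < Fintype.card I := by omega
    obtain ⟨i0⟩ := Fintype.card_pos_iff.mp hpos
    obtain ⟨j0, ⟨e0⟩, ⟨ψ⟩⟩ := step A B hA hB e i0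
    have hc : Fintype.card {i // i ≠ i0} = n := by
      have h1 := Fintype.card_congr (Equiv.optionSubtypeNe i0)
      rw [Fintype.card_option] at h1
      omega
    obtain ⟨σ', hσ'⟩ := ih {i // i ≠ i0} {j // j ≠ j0} (fun i => A i.1) (fun j => B j.1)
      (fun i => hA i.1) (fun j => hB j.1) ψ hc
    refine ⟨(Equiv.optionSubtypeNe i0).symm.trans
      ((Equiv.optionCongr σ').trans (Equiv.optionSubtypeNe j0)), ?_⟩
    intro i
    by_cases h : i = i0
    · have h1 : ((Equiv.optionSubtypeNe i0).symm.trans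
          ((Equiv.optionCongr σ').trans (Equiv.optionSubtypeNe j0))) i = j0 := by
        rw [h]
        simp
      rw [h1, h]
      exact ⟨e0⟩
    · have h1 : ((Equiv.optionSubtypeNe i0).symm.trans
          ((Equiv.optionCongr σ').trans (Equiv.optionSubtypeNe j0))) i = (σ' ⟨i, h⟩).1 := by
        simp [Equiv.optionSubtypeNe_symm_of_ne h]
      rw [h1]
      exact hσ' ⟨i, h⟩

theorem result {m n : ℕ} {A : Fin m → Type*} {B : Fin n → Type*} [∀ i, Group (A i)] [∀ j, Group (B j)] [∀ i, Finite (A i)] [∀ j, Finite (B j)] (hA : ∀ i, Nontrivial (A i) ∧ ∀ H K : Subgroup (A i), H.Normal → K.Normal → H ⊓ K = ⊥ → H ⊔ K = ⊤ → H = ⊥ ∨ K = ⊥) (hB : ∀ j, Nontrivial (B j) ∧ ∀ H K : Subgroup (B j), H.Normal → K.Normal → H ⊓ K = ⊥ → H ⊔ K = ⊤ → H = ⊥ ∨ K = ⊥) (e : ((i : Fin m) → A i) ≃* ((j : Fin n) → B j)) : ∃ σ : Fin m ≃ Fin n, ∀ i, Nonempty (A i ≃* B (σ i)) := by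
  exact ks_aux m (Fin m) (Fin n) A B hA hB e (Fintype.card_fin m)

end Cfsg.Agent.S4223
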