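import Cfsg.Statements.S4275

import Mathlib

set_option autoImplicit false
open Cfsg
open scoped Pointwise

namespace Cfsg.Agent.S4275

theorem result {Ω : Type*} [Fintype Ω] (G : Subgroup (Equiv.Perm Ω)) (htr : MulAction.IsPretransitive G Ω) (o : Ω) (α : G ≃* G) : (∃ σ : Equiv.Perm Ω, σ ∈ Subgroup.normalizer (G : Set (Equiv.Perm Ω)) ∧ ∀ g : G, ((α g : G) : Equiv.Perm Ω) = σ * (g : Equiv.Perm Ω) * σ⁻¹) ↔ ∃ ω : Ω, ∀ g ∈ (MulAction.stabilizer G o).map α.toMonoidHom, g • ω = ω := by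
  constructor
  · rintro ⟨σ, hσ, hconj⟩
    refine ⟨σ o, ?_⟩
    rintro g' ⟨g, hg, rfl⟩
    have h1 : g • o = o := hg
    have h2 : ((α g : G) : Equiv.Perm Ω) = σ * (g : Equiv.Perm Ω) * σ⁻¹ := hconj g
    show ((α g : G) : Equiv.Perm Ω) (σ o) = σ o
    rw [h2]
    have h3 : (g : Equiv.Perm Ω) o = o := h1
    have h4 : σ⁻¹ (σ o) = o := by rw [Equiv.Perm.inv_eq_iff_eq]
    show σ ((g : Equiv.Perm Ω) (σ⁻¹ (σ o))) = σ o
    rw [h4, h3]
  · rintro ⟨ω, hω⟩
    have hex : ∀ x : Ω, ∃ g : G, g • o = x := fun x => MulAction.exists_smul_eq G o x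
    choose gx hgx using hex
    let s : Ω → Ω := fun x => (α (gx x)) • ω
    have hs : ∀ g : G, s (g • o) = (α g) • ω := by
      intro g
      have h1 : (g⁻¹ * gx (g • o)) • o = o := by rw [mul_smul, hgx, inv_smul_smul]
      have h2 := hω (α.toMonoidHom (g⁻¹ * gx (g • o))) ⟨_, h1, rfl⟩
      have h3 : (α (g⁻¹ * gx (g • o))) • ω = ω := h2
      rw [map_mul, map_inv, mul_smul, inv_smul_eq_iff] at h3
      exact h3
    have hs2 : ∀ (g : G) (x : Ω), s (g • x) = (α g) • s x := by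
      intro g x
      rw [← hgx x, ← mul_smul, hs, hs, map_mul, mul_smul]
    have hsurj : Function.Surjective s := by
      intro y
      obtain ⟨h, hh⟩ := MulAction.exists_smul_eq G ω y
      obtain ⟨g, rfl⟩ := α.surjective h
      exact ⟨g • o, by rw [hs, hh]⟩
    have hbij : Function.Bijective s := ⟨Finite.injective_iff_surjective.mpr hsurj, hsurj⟩
    have hconj : ∀ g : G, ((α g : G) : Equiv.Perm Ω) =
        Equiv.ofBijective s hbij * (g : Equiv.Perm Ω) * (Equiv.ofBijective s hbij)⁻¹ := by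
      intro g
      ext y
      obtain ⟨x, rfl⟩ := hsurj y
      have h1 : (Equiv.ofBijective s hbij)⁻¹ (s x) = x := by
        rw [Equiv.Perm.inv_eq_iff_eq]; rfl
      show ((α g : G) : Equiv.Perm Ω) (s x) =
        Equiv.ofBijective s hbij ((g : Equiv.Perm Ω) ((Equiv.ofBijective s hbij)⁻¹ (s x)))
      rw [h1]
      exact (hs2 g x).symm
    refine ⟨Equiv.ofBijective s hbij, ?_, hconj⟩
    rw [Subgroup.mem_normalizer_iff]
    intro h
    constructor
    · intro hh
      have h1 := hconj ⟨h, hh⟩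
      rw [← h1]; exact (α ⟨h, hh⟩).2
    · intro hh
      obtain ⟨g, hg⟩ := α.surjective ⟨Equiv.ofBijective s hbij * h * (Equiv.ofBijective s hbij)⁻¹, hh⟩
      have h1 := hconj g
      rw [hg] at h1
      have h2 : h = (g : Equiv.Perm Ω) := by
        have h3 := congrArg (fun z => (Equiv.ofBijective s hbij)⁻¹ * z * Equiv.ofBijective s hbij) h1
        simpa [mul_assoc] using h3
      rw [h2]; exact g.2

end Cfsg.Agent.S4275
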