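import Cfsg.Statements.S4293

import Mathlib
import Cfsg.Agent.Lib.Helper7.Frob

set_option autoImplicit false
open Cfsg
open scoped Pointwise

namespace Cfsg.Agent.S4293

universe u

/-- The additive subgroup of `D` generated by `H`. -/
def RR {D : Type u} [DivisionRing D] (H : Subgroup Dˣ) : AddSubgroup D :=
  AddSubgroup.closure ((fun h : Dˣ => (h : D)) '' (H : Set Dˣ))

theorem coe_mem_RR {D : Type u} [DivisionRing D] (H : Subgroup Dˣ) {h : Dˣ} (hh : h ∈ H) :
    (h : D) ∈ RR H :=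
  AddSubgroup.subset_closure ⟨h, hh, rfl⟩

theorem mul_mem_RR {D : Type u} [DivisionRing D] (H : Subgroup Dˣ) {h : Dˣ} (hh : h ∈ H) {r : D}
    (hr : r ∈ RR H) : (h : D) * r ∈ RR H := by
  unfold RR at hr ⊢
  induction hr using AddSubgroup.closure_induction with
  | mem x hx =>
    obtain ⟨h', hh', rfl⟩ := hx
    apply AddSubgroup.subset_closure
    exact ⟨h * h', H.mul_mem hh hh', by simp⟩
  | zero => rw [mul_zero]; exact zero_mem _
  | add x y _ _ hx hy => rw [mul_add]; exact add_mem hx hy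
  | neg x _ hx => rw [mul_neg]; exact neg_mem hx

/-- Left multiplication by `h ∈ H` on `RR H`. -/
def lam {D : Type u} [DivisionRing D] (H : Subgroup Dˣ) (h : H) : RR H →+ RR H where
  toFun r := ⟨((h : Dˣ) : D) * (r : D), mul_mem_RR H h.2 r.2⟩
  map_zero' := by ext; simp
  map_add' a b := by ext; simp [mul_add]

theorem lam_coe {D : Type u} [DivisionRing D] (H : Subgroup Dˣ) (h : H) (r : RR H) :
    ((lam H h r : RR H) : D) = ((h : Dˣ) : D) * (r : D) := rfl

theorem lam_one {D : Type u} [DivisionRing D] (H : Subgroup Dˣ) (r : RR H) : lam H 1 r = r := by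
  apply Subtype.ext
  rw [lam_coe]
  simp

theorem lam_mul {D : Type u} [DivisionRing D] (H : Subgroup Dˣ) (g h : H) (r : RR H) :
    lam H (g * h) r = lam H g (lam H h r) := by
  apply Subtype.ext
  rw [lam_coe, lam_coe, lam_coe]
  simp [mul_assoc]

/-- `ℓ • RR H`. -/
def NN {D : Type u} [DivisionRing D] (H : Subgroup Dˣ) (ℓ : ℕ) : AddSubgroup (RR H) :=
  (nsmulAddMonoidHom ℓ : RR H →+ RR H).range

theorem mem_NN {D : Type u} [DivisionRing D] (H : Subgroup Dˣ) (ℓ : ℕ) (r : RR H) :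
    r ∈ NN H ℓ ↔ ∃ r' : RR H, ℓ • r' = r := Iff.rfl

theorem lam_NN {D : Type u} [DivisionRing D] (H : Subgroup Dˣ) (ℓ : ℕ) (h : H) :
    NN H ℓ ≤ (NN H ℓ).comap (lam H h) := by
  intro x hx
  rw [mem_NN] at hx
  obtain ⟨r, rfl⟩ := hx
  rw [AddSubgroup.mem_comap, mem_NN]
  exact ⟨lam H h r, (map_nsmul (lam H h) ℓ r).symm⟩

@[reducible] def quotAct {D : Type u} [DivisionRing D] (H : Subgroup Dˣ) (ℓ : ℕ) :
    DistribMulAction H (RR H ⧸ NN H ℓ) where
  smul h v := QuotientAddGroup.map (NN H ℓ) (NN H ℓ) (lam H h) (lam_NN H ℓ h) v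
  one_smul v := by
    induction v using QuotientAddGroup.induction_on with
    | H r =>
      show QuotientAddGroup.map (NN H ℓ) (NN H ℓ) (lam H 1) (lam_NN H ℓ 1)
        (r : RR H ⧸ NN H ℓ) = r
      rw [QuotientAddGroup.map_mk, lam_one]
  mul_smul g h v := by
    induction v using QuotientAddGroup.induction_on with
    | H r =>
      show QuotientAddGroup.map (NN H ℓ) (NN H ℓ) (lam H (g * h)) (lam_NN H ℓ (g * h))
        (r : RR H ⧸ NN H ℓ) = QuotientAddGroup.map (NN H ℓ) (NN H ℓ) (lam H g) (lam_NN H ℓ g)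
          (QuotientAddGroup.map (NN H ℓ) (NN H ℓ) (lam H h) (lam_NN H ℓ h) (r : RR H ⧸ NN H ℓ))
      rw [QuotientAddGroup.map_mk, QuotientAddGroup.map_mk, QuotientAddGroup.map_mk, lam_mul]
  smul_zero h := map_zero _
  smul_add h v w := map_add _ _ _

theorem main_of_prime {D : Type u} [DivisionRing D] (H : Subgroup Dˣ) [Finite H] (hH : H ≠ ⊥)
    (ℓ : ℕ) (hℓ : 0 < ℓ)
    (hQ : ∀ r : RR H, ℓ • (r : D) ≠ 1)
    (hP : ∀ h : H, h ≠ 1 → ∀ v : RR H, lam H h v - v ∈ NN H ℓ → v ∈ NN H ℓ) :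
    ∃ (L : Type) (_ : Group L) (_ : Finite L) (C : Subgroup L),
      Cfsg.IsFrobeniusComplement C ∧ Nonempty (H ≃* C) := by
  let _ := quotAct H ℓ
  have hntH : Nontrivial H := (Subgroup.nontrivial_iff_ne_bot H).mpr hH
  have hfinS : Finite ((fun h : Dˣ => (h : D)) '' (H : Set Dˣ)) :=
    (Set.Finite.image _ (Set.toFinite (H : Set Dˣ))).to_subtype
  have hfg : AddGroup.FG (RR H) := by
    unfold RR
    exact AddGroup.closure_finite_fg _
  have hfgV : AddGroup.FG (RR H ⧸ NN H ℓ) := QuotientAddGroup.fg (NN H ℓ)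
  have htor : ∀ a : RR H ⧸ NN H ℓ, ℓ • a = 0 := by
    intro a
    induction a using QuotientAddGroup.induction_on with
    | H r =>
      rw [← QuotientAddGroup.mk_nsmul, QuotientAddGroup.eq_zero_iff, mem_NN]
      exact ⟨r, rfl⟩
  have hfinV : Finite (RR H ⧸ NN H ℓ) := by
    apply AddCommGroup.finite_of_fg_isAddTorsion
    intro a
    rw [isOfFinAddOrder_iff_nsmul_eq_zero]
    exact ⟨ℓ, hℓ, htor a⟩
  have hntV : Nontrivial (RR H ⧸ NN H ℓ) := by
    refine ⟨⟨((⟨1, by simpa using coe_mem_RR H (one_mem H)⟩ : RR H) : RR H ⧸ NN H ℓ), 0, ?_⟩⟩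
    intro h0
    rw [QuotientAddGroup.eq_zero_iff, mem_NN] at h0
    obtain ⟨r, hr⟩ := h0
    apply hQ r
    have := congrArg (Subtype.val) hr
    simpa using this
  have hfpf : ∀ h : H, h ≠ 1 → ∀ a : RR H ⧸ NN H ℓ, h • a = a → a = 0 := by
    intro h hh a ha
    induction a using QuotientAddGroup.induction_on with
    | H r =>
      have ha' : ((lam H h r : RR H) : RR H ⧸ NN H ℓ) = (r : RR H ⧸ NN H ℓ) := ha
      rw [QuotientAddGroup.eq_zero_iff]
      apply hP h hh r
      rw [← QuotientAddGroup.eq_zero_iff, QuotientAddGroup.mk_sub, ha', sub_self]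
  exact Cfsg.Agent.Lib.Helper7.Frob.frob_of_fpf_add (A := RR H ⧸ NN H ℓ) (H := H) hfpf

theorem case_pos {D : Type u} [DivisionRing D] (H : Subgroup Dˣ) [Finite H] (hH : H ≠ ⊥) (p : ℕ)
    [CharP D p] (hp : p.Prime) :
    ∃ (L : Type) (_ : Group L) (_ : Finite L) (C : Subgroup L),
      Cfsg.IsFrobeniusComplement C ∧ Nonempty (H ≃* C) := by
  apply main_of_prime H hH p hp.pos
  · intro r hr
    have h0 : p • (r : D) = 0 := by rw [nsmul_eq_mul, CharP.cast_eq_zero, zero_mul]
    rw [h0] at hr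
    exact zero_ne_one hr
  · intro h hh v hv
    rw [mem_NN] at hv
    obtain ⟨r', hr'⟩ := hv
    have h2 := congrArg Subtype.val hr'
    have h0 : ((p • r' : RR H) : D) = 0 := by
      rw [AddSubgroup.coe_nsmul, nsmul_eq_mul, CharP.cast_eq_zero, zero_mul]
    rw [h0, AddSubgroup.coe_sub, lam_coe] at h2
    have h3 : (((h : Dˣ) : D) - 1) * (v : D) = 0 := by
      rw [sub_mul, one_mul]; exact h2.symm
    rcases mul_eq_zero.mp h3 with h4 | h4
    · exfalso
      apply hh
      apply Subtype.ext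
      apply Units.ext
      simpa [sub_eq_zero] using h4
    · have hv0 : v = 0 := Subtype.ext h4
      rw [hv0]
      exact zero_mem _

theorem case_zero {D : Type u} [DivisionRing D] [CharZero D] (H : Subgroup Dˣ) [Finite H]
    (hH : H ≠ ⊥) :
    ∃ (L : Type) (_ : Group L) (_ : Finite L) (C : Subgroup L),
      Cfsg.IsFrobeniusComplement C ∧ Nonempty (H ≃* C) := by
  obtain ⟨ℓ, hℓgt, hℓ⟩ := Nat.exists_infinite_primes (Nat.card H + 1)
  apply main_of_prime H hH ℓ hℓ.pos
  · intro r hr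
    let s : Set D := (fun h : Dˣ => (h : D)) '' (H : Set Dˣ)
    have hsfin : s.Finite := Set.Finite.image _ (Set.toFinite _)
    have hclfin : (Submonoid.closure s : Set D).Finite := by
      apply Set.Finite.subset hsfin
      have hle : Submonoid.closure s ≤ H.toSubmonoid.map (Units.coeHom D) := by
        rw [Submonoid.closure_le]
        rintro _ ⟨h, hh, rfl⟩
        exact ⟨h, hh, rfl⟩
      intro x hx
      obtain ⟨h, hh, rfl⟩ := hle hx
      exact ⟨h, hh, rfl⟩
    have hFG : (Subalgebra.toSubmodule (Algebra.adjoin ℤ s)).FG := by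
      rw [Algebra.adjoin_eq_span]
      exact Submodule.fg_span hclfin
    have hrS : (r : D) ∈ Algebra.adjoin ℤ s := by
      have hle : RR H ≤ (Subalgebra.toSubmodule (Algebra.adjoin ℤ s)).toAddSubgroup := by
        unfold RR
        rw [AddSubgroup.closure_le]
        exact Algebra.subset_adjoin
      exact hle r.2
    have hint : IsIntegral ℤ (r : D) := IsIntegral.of_mem_of_fg _ hFG _ hrS
    have hℓ0 : (ℓ : D) ≠ 0 := Nat.cast_ne_zero.mpr hℓ.ne_zero
    have hrq : (r : D) = algebraMap ℚ D ((ℓ : ℚ)⁻¹) := by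
      rw [map_inv₀, map_natCast]
      rw [nsmul_eq_mul] at hr
      exact eq_inv_of_mul_eq_one_right hr
    rw [hrq, isIntegral_algebraMap_iff (algebraMap ℚ D).injective] at hint
    obtain ⟨y, hy⟩ := IsIntegrallyClosed.isIntegral_iff.mp hint
    have h1 : (y : ℚ) * (ℓ : ℚ) = 1 := by
      have e : (algebraMap ℤ ℚ y) = (y : ℚ) := rfl
      rw [← e, hy]
      exact inv_mul_cancel₀ (Nat.cast_ne_zero.mpr hℓ.ne_zero)
    have h2 : y * (ℓ : ℤ) = 1 := by exact_mod_cast h1
    have h3 : (ℓ : ℤ) ∣ 1 := Dvd.intro_left y h2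
    have h4 : ℓ ∣ 1 := by exact_mod_cast h3
    exact hℓ.one_lt.ne' (Nat.dvd_one.mp h4)
  · intro h hh v hv
    have hkpos : 0 < orderOf h := orderOf_pos h
    have hkdvd : orderOf h ∣ Nat.card H := orderOf_dvd_natCard h
    have hcop : Nat.Coprime (orderOf h) ℓ := by
      rw [Nat.coprime_comm, Nat.Prime.coprime_iff_not_dvd hℓ]
      intro hdvd
      have := Nat.le_of_dvd Nat.card_pos (hdvd.trans hkdvd)
      omega
    have hj : ∀ j : ℕ, lam H (h ^ j) v - v ∈ NN H ℓ := by
      intro j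
      induction j with
      | zero => rw [pow_zero, lam_one, sub_self]; exact zero_mem _
      | succ j ih =>
        have e : lam H (h ^ (j + 1)) v - v =
            lam H (h ^ j) (lam H h v - v) + (lam H (h ^ j) v - v) := by
          rw [pow_succ, lam_mul, map_sub]; abel
        rw [e]
        exact add_mem (lam_NN H ℓ (h ^ j) hv) ih
    have hsum : ∑ j ∈ Finset.range (orderOf h), (lam H (h ^ j) v - v) ∈ NN H ℓ :=
      sum_mem (fun j _ => hj j)
    have hgeom : ∑ j ∈ Finset.range (orderOf h), (((h : Dˣ) : D)) ^ j = 0 := by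
      have h1 := geom_sum_mul (((h : Dˣ) : D)) (orderOf h)
      have h2 : (((h : Dˣ) : D)) ^ (orderOf h) = 1 := by
        have h3 := pow_orderOf_eq_one h
        have h4 : ((((h ^ orderOf h : H) : Dˣ) : D)) = 1 := by rw [h3]; rfl
        rw [← h4]
        simp only [Subgroup.coe_pow, Units.val_pow_eq_pow_val]
      rw [h2, sub_self] at h1
      rcases mul_eq_zero.mp h1 with h3 | h3
      · exact h3
      · exfalso
        apply hh
        apply Subtype.ext
        apply Units.ext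
        simpa [sub_eq_zero] using h3
    have hval : ∑ j ∈ Finset.range (orderOf h), (lam H (h ^ j) v - v) = -(orderOf h • v) := by
      apply Subtype.ext
      have e1 : ((∑ j ∈ Finset.range (orderOf h), (lam H (h ^ j) v - v) : RR H) : D) =
          ∑ j ∈ Finset.range (orderOf h), ((((h : Dˣ) : D)) ^ j * (v : D) - (v : D)) := by
        rw [← AddSubgroup.coe_subtype, map_sum]
        apply Finset.sum_congr rfl
        intro j _
        simp [lam_coe]
      rw [e1, Finset.sum_sub_distrib, ← Finset.sum_mul, hgeom, zero_mul, Finset.sum_const,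
        Finset.card_range, zero_sub]
      simp
    have hkv : orderOf h • v ∈ NN H ℓ := by
      rw [hval] at hsum
      exact neg_mem_iff.mp hsum
    have hℓv : ℓ • v ∈ NN H ℓ := (mem_NN H ℓ _).mpr ⟨v, rfl⟩
    obtain ⟨a, b, hab⟩ : ∃ a b : ℤ, a * (orderOf h : ℤ) + b * (ℓ : ℤ) = 1 :=
      Nat.isCoprime_iff_coprime.mpr hcop
    have hv' : v = a • (orderOf h • v) + b • (ℓ • v) := by
      rw [← natCast_zsmul v (orderOf h), ← natCast_zsmul v ℓ, ← mul_smul, ← mul_smul, ← add_smul,
        hab, one_smul]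
    rw [hv']
    exact add_mem (zsmul_mem hkv a) (zsmul_mem hℓv b)

theorem result {D : Type*} [DivisionRing D] (H : Subgroup Dˣ) [Finite H] (hH : H ≠ ⊥) :
    ∃ (L : Type) (_ : Group L) (_ : Finite L) (C : Subgroup L), Cfsg.IsFrobeniusComplement C ∧ Nonempty (H ≃* C) := by
  obtain ⟨p, hp⟩ := CharP.exists D
  rcases CharP.char_is_prime_or_zero D p with hpp | hp0
  · exact case_pos H hH p hpp
  · subst hp0
    have : CharZero D := CharP.charP_to_charZero D
    exact case_zero H hH

end Cfsg.Agent.S4293
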