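import Cfsg.Statements.S4297

import Mathlib
import Cfsg.Agent.Lib.Helper7.Frob

set_option autoImplicit false
open Cfsg
open scoped Pointwise

namespace Cfsg.Agent.S4297

theorem exists_zeta (N : ℕ) (hN : 0 < N) :
    ∃ q : ℕ, q.Prime ∧ ∃ ζ : ZMod q, orderOf ζ = N := by
  obtain ⟨q, hq, hnq, hmod⟩ := Nat.exists_prime_gt_modEq_one (k := N) N (by omega)
  have : Fact q.Prime := ⟨hq⟩
  have hdvd : N ∣ q - 1 := (Nat.modEq_iff_dvd' hq.one_le).mp hmod.symm
  obtain ⟨g, hg⟩ := IsCyclic.exists_generator (α := (ZMod q)ˣ)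
  have hordg : orderOf g = q - 1 := by
    rw [orderOf_eq_card_of_forall_mem_zpowers hg, Nat.card_eq_fintype_card,
      ZMod.card_units_eq_totient, Nat.totient_prime hq]
  have hq1 : 0 < q - 1 := by have := hq.two_le; omega
  obtain ⟨m, hm⟩ := hdvd
  have hm0 : 0 < m := by
    rcases Nat.eq_zero_or_pos m with h | h
    · rw [h, mul_zero] at hm; omega
    · exact h
  have hordu : orderOf (g ^ m) = N := by
    rw [orderOf_pow, hordg, hm, Nat.gcd_mul_left_left, Nat.mul_div_cancel _ hm0]
  refine ⟨q, hq, ((g ^ m : (ZMod q)ˣ) : ZMod q), ?_⟩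
  rw [orderOf_units, hordu]

def qsmul {n : ℕ} {F : Type*} [Field F] (χ : ZMod (2 * n) → F) :
    QuaternionGroup n → F × F → F × F
  | QuaternionGroup.a i, v => (χ i * v.1, χ (-i) * v.2)
  | QuaternionGroup.xa i, v => (χ (-i) * v.2, -(χ i * v.1))

@[reducible] def qAct {n : ℕ} {F : Type*} [Field F] (χ : ZMod (2 * n) → F) (h0 : χ 0 = 1)
    (hadd : ∀ i j, χ (i + j) = χ i * χ j) (hn : χ (n : ZMod (2 * n)) = -1) :
    DistribMulAction (QuaternionGroup n) (F × F) where
  smul := qsmul χ
  one_smul v := by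
    show qsmul χ (QuaternionGroup.a 0) v = v
    simp [qsmul, h0]
  mul_smul g h v := by
    have hn' : χ (-(n : ZMod (2 * n))) = -1 := by
      have h1 : χ (-(n : ZMod (2 * n))) * χ (n : ZMod (2 * n)) = 1 := by
        rw [← hadd, neg_add_cancel, h0]
      rw [hn] at h1
      linear_combination -h1
    rcases g with i | i <;> rcases h with j | j
    · show qsmul χ (QuaternionGroup.a (i + j)) v = qsmul χ (QuaternionGroup.a i)
        (qsmul χ (QuaternionGroup.a j) v)
      simp only [qsmul, neg_add, hadd]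
      ext <;> simp only <;> ring
    · show qsmul χ (QuaternionGroup.xa (j - i)) v = qsmul χ (QuaternionGroup.a i)
        (qsmul χ (QuaternionGroup.xa j) v)
      simp only [qsmul, sub_eq_add_neg, neg_add, neg_neg, hadd]
      ext <;> simp only <;> ring
    · show qsmul χ (QuaternionGroup.xa (i + j)) v = qsmul χ (QuaternionGroup.xa i)
        (qsmul χ (QuaternionGroup.a j) v)
      simp only [qsmul, neg_add, hadd]
      ext <;> simp only <;> ring
    · show qsmul χ (QuaternionGroup.a ((n : ZMod (2 * n)) + j - i)) v =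
        qsmul χ (QuaternionGroup.xa i) (qsmul χ (QuaternionGroup.xa j) v)
      simp only [qsmul, sub_eq_add_neg, neg_add, neg_neg, hadd, hn, hn']
      ext <;> simp only <;> ring
  smul_zero g := by
    rcases g with i | i
    · show qsmul χ (QuaternionGroup.a i) 0 = 0
      simp [qsmul]
    · show qsmul χ (QuaternionGroup.xa i) 0 = 0
      simp [qsmul]
  smul_add g v w := by
    rcases g with i | i
    · show qsmul χ (QuaternionGroup.a i) (v + w) = qsmul χ (QuaternionGroup.a i) v +
        qsmul χ (QuaternionGroup.a i) w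
      simp only [qsmul]
      ext <;> simp <;> ring
    · show qsmul χ (QuaternionGroup.xa i) (v + w) = qsmul χ (QuaternionGroup.xa i) v +
        qsmul χ (QuaternionGroup.xa i) w
      simp only [qsmul]
      ext <;> simp <;> ring

theorem result (n : ℕ) (hn : 2 ≤ n) :
    ∃ (L : Type) (_ : Group L) (_ : Finite L) (H : Subgroup L), Cfsg.IsFrobeniusComplement H ∧ Nonempty (H ≃* QuaternionGroup n) := by
  have hn0 : NeZero n := ⟨by omega⟩
  have hn2 : NeZero (2 * n) := ⟨by omega⟩
  obtain ⟨q, hq, ζ, hζ⟩ := exists_zeta (2 * n) (by omega)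
  have : Fact q.Prime := ⟨hq⟩
  let χ : ZMod (2 * n) → ZMod q := fun i => ζ ^ i.val
  have h0 : χ 0 = 1 := by
    show ζ ^ (0 : ZMod (2 * n)).val = 1
    rw [ZMod.val_zero, pow_zero]
  have hadd : ∀ i j, χ (i + j) = χ i * χ j := by
    intro i j
    show ζ ^ (i + j).val = ζ ^ i.val * ζ ^ j.val
    rw [ZMod.val_add, ← pow_add]
    have h1 := pow_mod_orderOf ζ (i.val + j.val)
    rw [hζ] at h1
    exact h1
  have hinj : ∀ i, χ i = 1 → i = 0 := by
    intro i hi
    have h1 : orderOf ζ ∣ i.val := orderOf_dvd_of_pow_eq_one hi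
    rw [hζ] at h1
    have h2 : i.val < 2 * n := ZMod.val_lt i
    have h3 : i.val = 0 := Nat.eq_zero_of_dvd_of_lt h1 h2
    exact (ZMod.val_eq_zero i).mp h3
  have hnval : ((n : ℕ) : ZMod (2 * n)).val = n := ZMod.val_natCast_of_lt (by omega)
  have hζn1 : ζ ^ n ≠ 1 := by
    intro h
    have h1 : orderOf ζ ∣ n := orderOf_dvd_of_pow_eq_one h
    rw [hζ] at h1
    have := Nat.le_of_dvd (by omega) h1
    omega
  have hn : χ (n : ZMod (2 * n)) = -1 := by
    show ζ ^ ((n : ℕ) : ZMod (2 * n)).val = -1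
    rw [hnval]
    have h1 : (ζ ^ n) ^ 2 = 1 := by
      rw [← pow_mul, mul_comm, ← hζ, pow_orderOf_eq_one]
    have h2 : (ζ ^ n - 1) * (ζ ^ n + 1) = 0 := by linear_combination h1
    rcases mul_eq_zero.mp h2 with h3 | h3
    · exact absurd (sub_eq_zero.mp h3) hζn1
    · exact eq_neg_of_add_eq_zero_left h3
  have h2ne : (2 : ZMod q) ≠ 0 := by
    intro h2
    apply hζn1
    have h3 : ζ ^ n = -1 := by
      have := hn
      show ζ ^ n = -1
      rw [← hnval]
      exact this
    rw [h3]
    linear_combination -h2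
  let _ := qAct χ h0 hadd hn
  have hnt : Nontrivial (QuaternionGroup n) :=
    ⟨⟨QuaternionGroup.a 0, QuaternionGroup.xa 0, by intro h; cases h⟩⟩
  have hfpf : ∀ g : QuaternionGroup n, g ≠ 1 → ∀ v : ZMod q × ZMod q, g • v = v → v = 0 := by
    intro g hg v hv
    rcases g with i | i
    · have hi : i ≠ 0 := by
        intro h
        apply hg
        rw [h]
        rfl
      have hv' : (χ i * v.1, χ (-i) * v.2) = v := hv
      have h1 : χ i * v.1 = v.1 := congrArg Prod.fst hv'
      have h2 : χ (-i) * v.2 = v.2 := congrArg Prod.snd hv'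
      have h3 : (χ i - 1) * v.1 = 0 := by linear_combination h1
      have h4 : (χ (-i) - 1) * v.2 = 0 := by linear_combination h2
      have h5 : v.1 = 0 := by
        rcases mul_eq_zero.mp h3 with h | h
        · exact absurd (hinj i (sub_eq_zero.mp h)) hi
        · exact h
      have h6 : v.2 = 0 := by
        rcases mul_eq_zero.mp h4 with h | h
        · exact absurd (neg_eq_zero.mp (hinj (-i) (sub_eq_zero.mp h))) hi
        · exact h
      exact Prod.ext h5 h6
    · have hv' : (χ (-i) * v.2, -(χ i * v.1)) = v := hv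
      have h1 : χ (-i) * v.2 = v.1 := congrArg Prod.fst hv'
      have h2 : -(χ i * v.1) = v.2 := congrArg Prod.snd hv'
      have h3 : χ i * χ (-i) = 1 := by rw [← hadd, add_neg_cancel, h0]
      have h4 : 2 * v.2 = 0 := by
        linear_combination (χ i) * h1 - h2 - v.2 * h3
      have h5 : v.2 = 0 := by
        rcases mul_eq_zero.mp h4 with h | h
        · exact absurd h h2ne
        · exact h
      have h6 : v.1 = 0 := by rw [← h1, h5, mul_zero]
      exact Prod.ext h6 h5
  obtain ⟨L, instG, instF, K, hK, ⟨e⟩⟩ :=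
    Cfsg.Agent.Lib.Helper7.Frob.frob_of_fpf_add (A := ZMod q × ZMod q) (H := QuaternionGroup n) hfpf
  exact ⟨L, instG, instF, K, hK, ⟨e.symm⟩⟩

end Cfsg.Agent.S4297
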