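import Cfsg.Statements.S4298

import Mathlib
import Cfsg.Agent.Lib.Helper7.Frob

set_option autoImplicit false
open Cfsg
open scoped Pointwise

namespace Cfsg.Agent.S4298

def tbl : List (ZMod 5 × ZMod 5 × ZMod 5 × ZMod 5) := [
  (1, 0, 0, 1), (1, 0, 0, 1), (1, 0, 0, 1), (1, 0, 0, 1), (1, 0, 0, 1), (1, 0, 0, 1), (1, 0, 0, 1), (1, 0, 0, 1), (1, 0, 0, 1),
  (1, 0, 0, 1), (1, 0, 0, 1), (1, 0, 0, 1), (1, 0, 0, 1), (1, 0, 0, 1), (1, 0, 0, 1), (0, 1, 4, 0), (4, 1, 2, 2), (1, 3, 4, 3),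
  (1, 0, 0, 1), (1, 0, 0, 1), (1, 0, 0, 1), (0, 4, 1, 0), (4, 2, 1, 2), (1, 4, 3, 3), (1, 0, 0, 1), (1, 0, 0, 1), (1, 0, 0, 1),
  (1, 0, 0, 1), (1, 0, 0, 1), (1, 0, 0, 1), (1, 0, 0, 1), (1, 1, 2, 3), (1, 0, 0, 1), (1, 0, 0, 1), (3, 4, 3, 1), (1, 0, 0, 1),
  (1, 0, 0, 1), (1, 2, 1, 3), (1, 0, 0, 1), (1, 0, 0, 1), (1, 0, 0, 1), (2, 0, 0, 3), (2, 3, 4, 4), (1, 0, 0, 1), (1, 0, 0, 1),
  (1, 0, 0, 1), (3, 3, 4, 1), (1, 0, 0, 1), (2, 4, 3, 4), (1, 0, 0, 1), (1, 0, 0, 1), (1, 0, 0, 1), (1, 0, 0, 1), (0, 3, 3, 0),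
  (1, 0, 0, 1), (1, 0, 0, 1), (4, 0, 0, 4), (1, 0, 0, 1), (1, 0, 0, 1), (2, 1, 2, 4), (1, 0, 0, 1), (1, 0, 0, 1), (4, 4, 3, 2),
  (1, 0, 0, 1), (1, 0, 0, 1), (2, 2, 1, 4), (1, 0, 0, 1), (0, 2, 2, 0), (1, 0, 0, 1), (3, 1, 2, 1), (1, 0, 0, 1), (1, 0, 0, 1),
  (1, 0, 0, 1), (1, 0, 0, 1), (4, 3, 4, 2), (3, 2, 1, 1), (1, 0, 0, 1), (1, 0, 0, 1), (1, 0, 0, 1), (3, 0, 0, 2), (1, 0, 0, 1)]

def f5 (a b c d : ZMod 3) : ZMod 5 × ZMod 5 × ZMod 5 × ZMod 5 :=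
  tbl.getD (a.val + 3 * b.val + 9 * c.val + 27 * d.val) (1, 0, 0, 1)

def mul4 (x y : ZMod 5 × ZMod 5 × ZMod 5 × ZMod 5) : ZMod 5 × ZMod 5 × ZMod 5 × ZMod 5 :=
  (x.1 * y.1 + x.2.1 * y.2.2.1, x.1 * y.2.1 + x.2.1 * y.2.2.2,
    x.2.2.1 * y.1 + x.2.2.2 * y.2.2.1, x.2.2.1 * y.2.1 + x.2.2.2 * y.2.2.2)

set_option maxRecDepth 100000 in
theorem f5_mul : ∀ a b c d a' b' c' d' : ZMod 3, a * d - b * c = 1 → a' * d' - b' * c' = 1 →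
    f5 (a * a' + b * c') (a * b' + b * d') (c * a' + d * c') (c * b' + d * d') =
      mul4 (f5 a b c d) (f5 a' b' c' d') := by
  decide +kernel

theorem f5_one : f5 1 0 0 1 = (1, 0, 0, 1) := by decide +kernel

set_option maxRecDepth 100000 in
theorem f5_fpf : ∀ a b c d : ZMod 3, a * d - b * c = 1 →
    ((f5 a b c d).1 - 1) * ((f5 a b c d).2.2.2 - 1) - (f5 a b c d).2.1 * (f5 a b c d).2.2.1 = 0 →
    a = 1 ∧ b = 0 ∧ c = 0 ∧ d = 1 := by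
  decide +kernel

def sm (g : Matrix.SpecialLinearGroup (Fin 2) (ZMod 3)) (v : ZMod 5 × ZMod 5) :
    ZMod 5 × ZMod 5 :=
  ((f5 (g.1 0 0) (g.1 0 1) (g.1 1 0) (g.1 1 1)).1 * v.1 +
      (f5 (g.1 0 0) (g.1 0 1) (g.1 1 0) (g.1 1 1)).2.1 * v.2,
    (f5 (g.1 0 0) (g.1 0 1) (g.1 1 0) (g.1 1 1)).2.2.1 * v.1 +
      (f5 (g.1 0 0) (g.1 0 1) (g.1 1 0) (g.1 1 1)).2.2.2 * v.2)

theorem det_eq (g : Matrix.SpecialLinearGroup (Fin 2) (ZMod 3)) :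
    g.1 0 0 * g.1 1 1 - g.1 0 1 * g.1 1 0 = 1 := by
  have h := g.2
  rw [Matrix.det_fin_two] at h
  exact h

@[reducible] def slAct : DistribMulAction (Matrix.SpecialLinearGroup (Fin 2) (ZMod 3))
    (ZMod 5 × ZMod 5) where
  smul := sm
  one_smul v := by
    show sm 1 v = v
    have h : f5 ((1 : Matrix.SpecialLinearGroup (Fin 2) (ZMod 3)).1 0 0)
        ((1 : Matrix.SpecialLinearGroup (Fin 2) (ZMod 3)).1 0 1)
        ((1 : Matrix.SpecialLinearGroup (Fin 2) (ZMod 3)).1 1 0)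
        ((1 : Matrix.SpecialLinearGroup (Fin 2) (ZMod 3)).1 1 1) = (1, 0, 0, 1) := by
      simp [f5_one]
    simp only [sm, h]
    ext <;> simp
  mul_smul g h v := by
    show sm (g * h) v = sm g (sm h v)
    have e00 : (g * h).1 0 0 = g.1 0 0 * h.1 0 0 + g.1 0 1 * h.1 1 0 := by
      simp [Matrix.mul_apply, Fin.sum_univ_two]
    have e01 : (g * h).1 0 1 = g.1 0 0 * h.1 0 1 + g.1 0 1 * h.1 1 1 := by
      simp [Matrix.mul_apply, Fin.sum_univ_two]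
    have e10 : (g * h).1 1 0 = g.1 1 0 * h.1 0 0 + g.1 1 1 * h.1 1 0 := by
      simp [Matrix.mul_apply, Fin.sum_univ_two]
    have e11 : (g * h).1 1 1 = g.1 1 0 * h.1 0 1 + g.1 1 1 * h.1 1 1 := by
      simp [Matrix.mul_apply, Fin.sum_univ_two]
    have key := f5_mul _ _ _ _ _ _ _ _ (det_eq g) (det_eq h)
    simp only [sm, e00, e01, e10, e11, key, mul4]
    ext <;> simp only <;> ring
  smul_zero g := by
    show sm g 0 = 0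
    simp [sm]
  smul_add g v w := by
    show sm g (v + w) = sm g v + sm g w
    simp only [sm]
    ext <;> simp <;> ring

theorem result :
    ∃ (L : Type) (_ : Group L) (_ : Finite L) (H : Subgroup L), Cfsg.IsFrobeniusComplement H ∧ Nonempty (H ≃* Matrix.SpecialLinearGroup (Fin 2) (ZMod 3)) := by
  have hp5 : Fact (Nat.Prime 5) := ⟨by norm_num⟩
  let _ := slAct
  have hnt : Nontrivial (Matrix.SpecialLinearGroup (Fin 2) (ZMod 3)) := by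
    refine ⟨⟨1, -1, ?_⟩⟩
    intro h
    have h1 := congrArg (fun g : Matrix.SpecialLinearGroup (Fin 2) (ZMod 3) => g.1 0 0) h
    revert h1
    simp
    decide
  have hfpf : ∀ g : Matrix.SpecialLinearGroup (Fin 2) (ZMod 3), g ≠ 1 →
      ∀ v : ZMod 5 × ZMod 5, g • v = v → v = 0 := by
    intro g hg v hv
    have hv' : sm g v = v := hv
    have h1 := congrArg Prod.fst hv'
    have h2 := congrArg Prod.snd hv'
    simp only [sm] at h1 h2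
    by_contra hv0
    apply hg
    have hdet : ((f5 (g.1 0 0) (g.1 0 1) (g.1 1 0) (g.1 1 1)).1 - 1) *
        ((f5 (g.1 0 0) (g.1 0 1) (g.1 1 0) (g.1 1 1)).2.2.2 - 1) -
        (f5 (g.1 0 0) (g.1 0 1) (g.1 1 0) (g.1 1 1)).2.1 *
        (f5 (g.1 0 0) (g.1 0 1) (g.1 1 0) (g.1 1 1)).2.2.1 = 0 := by
      by_contra hne
      apply hv0
      have hA : (((f5 (g.1 0 0) (g.1 0 1) (g.1 1 0) (g.1 1 1)).1 - 1) *
        ((f5 (g.1 0 0) (g.1 0 1) (g.1 1 0) (g.1 1 1)).2.2.2 - 1) -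
        (f5 (g.1 0 0) (g.1 0 1) (g.1 1 0) (g.1 1 1)).2.1 *
        (f5 (g.1 0 0) (g.1 0 1) (g.1 1 0) (g.1 1 1)).2.2.1) * v.1 = 0 := by
        linear_combination ((f5 (g.1 0 0) (g.1 0 1) (g.1 1 0) (g.1 1 1)).2.2.2 - 1) * h1 -
          (f5 (g.1 0 0) (g.1 0 1) (g.1 1 0) (g.1 1 1)).2.1 * h2
      have hB : (((f5 (g.1 0 0) (g.1 0 1) (g.1 1 0) (g.1 1 1)).1 - 1) *
        ((f5 (g.1 0 0) (g.1 0 1) (g.1 1 0) (g.1 1 1)).2.2.2 - 1) -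
        (f5 (g.1 0 0) (g.1 0 1) (g.1 1 0) (g.1 1 1)).2.1 *
        (f5 (g.1 0 0) (g.1 0 1) (g.1 1 0) (g.1 1 1)).2.2.1) * v.2 = 0 := by
        linear_combination ((f5 (g.1 0 0) (g.1 0 1) (g.1 1 0) (g.1 1 1)).1 - 1) * h2 -
          (f5 (g.1 0 0) (g.1 0 1) (g.1 1 0) (g.1 1 1)).2.2.1 * h1
      exact Prod.ext ((mul_eq_zero.mp hA).resolve_left hne) ((mul_eq_zero.mp hB).resolve_left hne)
    obtain ⟨ha, hb, hc, hd⟩ := f5_fpf _ _ _ _ (det_eq g) hdet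
    apply Subtype.ext
    ext i j
    fin_cases i <;> fin_cases j <;> simp [ha, hb, hc, hd]
  obtain ⟨L, instG, instF, K, hK, ⟨e⟩⟩ :=
    Cfsg.Agent.Lib.Helper7.Frob.frob_of_fpf_add (A := ZMod 5 × ZMod 5)
      (H := Matrix.SpecialLinearGroup (Fin 2) (ZMod 3)) hfpf
  exact ⟨L, instG, instF, K, hK, ⟨e.symm⟩⟩

end Cfsg.Agent.S4298
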