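import Cfsg.Statements.S4299

import Mathlib
import Cfsg.Agent.Lib.Helper7.Frob

set_option autoImplicit false
open Cfsg
open scoped Pointwise

namespace Cfsg.Agent.S4299

theorem result {C : Type*} [Group C] [Finite C] [IsCyclic C] [Nontrivial C] :
    ∃ (L : Type) (_ : Group L) (_ : Finite L) (H : Subgroup L), Cfsg.IsFrobeniusComplement H ∧ Nonempty (C ≃* H) := by
  have hn : 1 < Nat.card C := Finite.one_lt_card
  obtain ⟨q, hq, hnq, hmod⟩ := Nat.exists_prime_gt_modEq_one (k := Nat.card C) (Nat.card C)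
    (by omega)
  have : Fact q.Prime := ⟨hq⟩
  have hdvd : Nat.card C ∣ q - 1 := (Nat.modEq_iff_dvd' hq.one_le).mp hmod.symm
  obtain ⟨g, hg⟩ := IsCyclic.exists_generator (α := (ZMod q)ˣ)
  have hordg : orderOf g = q - 1 := by
    rw [orderOf_eq_card_of_forall_mem_zpowers hg, Nat.card_eq_fintype_card, ZMod.card_units_eq_totient,
      Nat.totient_prime hq]
  have hq1 : 0 < q - 1 := by have := hq.two_le; omega
  obtain ⟨m, hm⟩ := hdvd
  have hm0 : 0 < m := by
    rcases Nat.eq_zero_or_pos m with h | h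
    · rw [h, mul_zero] at hm; omega
    · exact h
  have hordu : orderOf (g ^ m) = Nat.card C := by
    rw [orderOf_pow, hordg, hm, Nat.gcd_mul_left_left, Nat.mul_div_cancel _ hm0]
  let U : Subgroup (ZMod q)ˣ := Subgroup.zpowers (g ^ m)
  have hcardU : Nat.card U = Nat.card C := by
    rw [Nat.card_zpowers, hordu]
  have hntU : Nontrivial U := by
    rw [← Finite.one_lt_card_iff_nontrivial, hcardU]; exact hn
  have hfpf : ∀ u : U, u ≠ 1 → ∀ a : ZMod q, u • a = a → a = 0 := by
    intro u hu a ha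
    have h1 : ((u : (ZMod q)ˣ) : ZMod q) * a = a := ha
    have h2 : (((u : (ZMod q)ˣ) : ZMod q) - 1) * a = 0 := by rw [sub_mul, h1, one_mul, sub_self]
    rcases mul_eq_zero.mp h2 with h3 | h3
    · exfalso
      apply hu
      apply Subtype.ext
      apply Units.ext
      rw [sub_eq_zero] at h3
      simpa using h3
    · exact h3
  obtain ⟨L, instG, instF, K, hK, ⟨e⟩⟩ :=
    Cfsg.Agent.Lib.Helper7.Frob.frob_of_fpf_add (A := ZMod q) (H := U) hfpf
  exact ⟨L, instG, instF, K, hK, ⟨(mulEquivOfCyclicCardEq hcardU.symm).trans e⟩⟩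

end Cfsg.Agent.S4299
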