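import Cfsg.Statements.S4300

import Mathlib

set_option autoImplicit false
open Cfsg
open scoped Pointwise

namespace Cfsg.Agent.S4300

theorem result {G : Type*} [Group G] {X : Type*} [MulAction G X] [FaithfulSMul G X]
    (hprim : MulAction.IsPreprimitive G X) (x : X) (hsimple : IsSimpleGroup (MulAction.stabilizer G x)) :
    IsSimpleGroup G ∨ ∃ N : Subgroup G, N.Normal ∧ N ≠ ⊥ ∧ N ≠ ⊤ ∧
      MulAction.IsPretransitive N X ∧ ∀ y : X, MulAction.stabilizer N y = ⊥ := by
  by_cases hs : IsSimpleGroup G
  · exact Or.inl hs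
  right
  have hnt : Nontrivial G := by
    obtain ⟨a, b, hab⟩ := hsimple.toNontrivial.exists_pair_ne
    exact ⟨⟨a, b, fun h => hab (Subtype.ext h)⟩⟩
  have hex : ∃ N : Subgroup G, N.Normal ∧ N ≠ ⊥ ∧ N ≠ ⊤ := by
    by_contra hcon
    push Not at hcon
    apply hs
    refine { toNontrivial := hnt, eq_bot_or_eq_top_of_normal := ?_ }
    intro N hN
    by_cases hb : N = ⊥
    · exact Or.inl hb
    · exact Or.inr (hcon N hN hb)
  obtain ⟨N, hN, hNbot, hNtop⟩ := hex
  have hfix : MulAction.fixedPoints N X ≠ Set.univ := by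
    intro h
    apply hNbot
    rw [eq_bot_iff]
    intro n hn
    rw [Subgroup.mem_bot]
    apply FaithfulSMul.eq_of_smul_eq_smul (α := X)
    intro y
    have hy : y ∈ MulAction.fixedPoints N X := by rw [h]; trivial
    rw [one_smul]
    exact hy ⟨n, hn⟩
  have htrans : MulAction.IsPretransitive N X :=
    MulAction.IsQuasiPreprimitive.isPretransitive_of_normal hfix
  refine ⟨N, hN, hNbot, hNtop, htrans, ?_⟩
  have hinf : ∀ n ∈ N, n • x = x → n = 1 := by
    have hnorm : (N.subgroupOf (MulAction.stabilizer G x)).Normal := inferInstance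
    rcases hsimple.eq_bot_or_eq_top_of_normal _ hnorm with h | h
    · intro n hn hnx
      have hmem : (⟨n, hnx⟩ : MulAction.stabilizer G x) ∈ N.subgroupOf (MulAction.stabilizer G x) := hn
      rw [h, Subgroup.mem_bot] at hmem
      exact congrArg Subtype.val hmem
    · exfalso
      apply hNtop
      rw [eq_top_iff]
      intro g _
      obtain ⟨n, hn⟩ := MulAction.exists_smul_eq N (g • x) x
      have hn' : (n : G) • (g • x) = x := hn
      have hst : (n : G) * g ∈ MulAction.stabilizer G x := by
        rw [MulAction.mem_stabilizer_iff, mul_smul]; exact hn'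
      have hmem : (⟨(n : G) * g, hst⟩ : MulAction.stabilizer G x) ∈
          N.subgroupOf (MulAction.stabilizer G x) := by rw [h]; trivial
      have h2 : (n : G) * g ∈ N := hmem
      have h3 := N.mul_mem (N.inv_mem n.2) h2
      simpa using h3
  intro y
  rw [eq_bot_iff]
  rintro ⟨n, hn⟩ hny
  rw [Subgroup.mem_bot]
  rw [MulAction.mem_stabilizer_iff] at hny
  have hny' : n • y = y := hny
  obtain ⟨m, hm⟩ := MulAction.exists_smul_eq N x y
  have hm' : (m : G) • x = y := hm
  have h1 : ((m : G)⁻¹ * n * m) • x = x := by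
    rw [mul_smul, mul_smul, hm', hny', ← hm', inv_smul_smul]
  have h2 := hinf _ (N.mul_mem (N.mul_mem (N.inv_mem m.2) hn) m.2) h1
  apply Subtype.ext
  change n = 1
  calc n = m * ((m : G)⁻¹ * n * m) * (m : G)⁻¹ := by group
    _ = 1 := by rw [h2]; group

end Cfsg.Agent.S4300
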