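import Cfsg.Statements.S4301

import Mathlib

set_option autoImplicit false
open Cfsg
open scoped Pointwise

namespace Cfsg.Agent.S4301

theorem emb2 {X : Type*} {k : ℕ} (hk : 2 ≤ k) (e : Fin k ↪ X) (s t : X) (hst : s ≠ t) :
    ∃ a : Fin k ↪ X, a ⟨0, by omega⟩ = s ∧ a ⟨1, by omega⟩ = t := by
  classical
  have h01 : e ⟨0, by omega⟩ ≠ e ⟨1, by omega⟩ := fun h => by
    have := e.injective h
    simp [Fin.ext_iff] at this
  have hw : Equiv.swap (e ⟨0, by omega⟩) s (e ⟨1, by omega⟩) ≠ s := by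
    intro h
    have h2 : Equiv.swap (e ⟨0, by omega⟩) s (e ⟨0, by omega⟩) = s := Equiv.swap_apply_left _ _
    exact h01 ((Equiv.swap (e ⟨0, by omega⟩) s).injective (h2.trans h.symm))
  refine ⟨e.trans ((Equiv.swap (e ⟨0, by omega⟩) s).trans
    (Equiv.swap (Equiv.swap (e ⟨0, by omega⟩) s (e ⟨1, by omega⟩)) t)).toEmbedding, ?_, ?_⟩
  · simp only [Function.Embedding.trans_apply, Equiv.coe_toEmbedding, Equiv.trans_apply,
      Equiv.swap_apply_left]
    exact Equiv.swap_apply_of_ne_of_ne (Ne.symm hw) hst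
  · simp only [Function.Embedding.trans_apply, Equiv.coe_toEmbedding, Equiv.trans_apply,
      Equiv.swap_apply_left]

theorem result {X : Type*} (G : Subgroup (Equiv.Perm (Option X))) (hfix : ∀ f ∈ G, f none = none)
    (k : ℕ) (hk : 2 ≤ k) (hkX : Nonempty (Fin k ↪ X))
    (htrans : ∀ a b : Fin k ↪ X, ∃ f ∈ G, ∀ i, f (some (a i)) = some (b i))
    (h g : Equiv.Perm (Option X)) (hg : g ∈ G) (x y : X)
    (h1 : h none = some x) (h2 : h (some x) = none) (h3 : h (some y) = some y)
    (h4 : g (some x) = some y) (h5 : g (some y) = some x)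
    (h6 : (g * h) ^ 3 ∈ G) (h7 : h ^ 2 ∈ G)
    (h8 : ∀ f ∈ G, f (some x) = some x → h * f * h ∈ G ∧ (h * f * h) (some x) = some x) :
    (∀ f ∈ Subgroup.closure ((G : Set (Equiv.Perm (Option X))) ∪ {h}), f none = none ↔ f ∈ G) ∧
      MulAction.IsMultiplyPretransitive (Subgroup.closure ((G : Set (Equiv.Perm (Option X))) ∪ {h})) (Option X) (k + 1) := by
  classical
  have hxy : x ≠ y := by
    intro hxy
    rw [hxy] at h2
    rw [h2] at h3
    exact absurd h3 (by simp)
  have h2t : ∀ s t s' t' : X, s ≠ t → s' ≠ t' →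
      ∃ f ∈ G, f (some s) = some s' ∧ f (some t) = some t' := by
    intro s t s' t' hst hst'
    obtain ⟨e⟩ := hkX
    obtain ⟨a, ha0, ha1⟩ := emb2 hk e s t hst
    obtain ⟨b, hb0, hb1⟩ := emb2 hk e s' t' hst'
    obtain ⟨f, hf, hfa⟩ := htrans a b
    refine ⟨f, hf, ?_, ?_⟩
    · have := hfa ⟨0, by omega⟩
      rwa [ha0, hb0] at this
    · have := hfa ⟨1, by omega⟩
      rwa [ha1, hb1] at this
  have hL : ∀ f ∈ G, (h * f * h ∈ G ∨ ∃ f₁ ∈ G, ∃ f₂ ∈ G, h * f * h = f₁ * h * f₂) := by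
    intro f hf
    by_cases hfx : f (some x) = some x
    · exact Or.inl (h8 f hf hfx).1
    · right
      have hne : f (some x) ≠ none := by
        intro h0
        have := f.injective (h0.trans (hfix f hf).symm)
        exact absurd this (by simp)
      obtain ⟨u, hu⟩ := Option.ne_none_iff_exists'.1 hne
      have hux : x ≠ u := by
        intro h0
        apply hfx
        rw [hu, ← h0]
      obtain ⟨a, ha, hax, hay⟩ := h2t x y x u hxy hux
      have hbG : g⁻¹ * a⁻¹ * f ∈ G :=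
        G.mul_mem (G.mul_mem (G.inv_mem hg) (G.inv_mem ha)) hf
      have hbx : (g⁻¹ * a⁻¹ * f) (some x) = some x := by
        rw [Equiv.Perm.mul_apply, Equiv.Perm.mul_apply, hu, Equiv.Perm.inv_eq_iff_eq, h4,
          Equiv.Perm.inv_eq_iff_eq, hay]
      have hA := h8 a ha hax
      have hB := h8 _ hbG hbx
      refine ⟨(h * a * h) * ((h ^ 2)⁻¹ * g⁻¹ * (g * h) ^ 3),
        G.mul_mem hA.1 (G.mul_mem (G.mul_mem (G.inv_mem h7) (G.inv_mem hg)) h6),
        ((h ^ 2)⁻¹ * g⁻¹ * (h ^ 2)⁻¹) * (h * (g⁻¹ * a⁻¹ * f) * h),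
        G.mul_mem (G.mul_mem (G.mul_mem (G.inv_mem h7) (G.inv_mem hg)) (G.inv_mem h7)) hB.1, ?_⟩
      have e3 : (g * h) ^ 3 = g * h * (g * h) * (g * h) := by rw [pow_succ, pow_succ, pow_one]
      rw [e3]
      group
  have hK : ∀ f ∈ Subgroup.closure ((G : Set (Equiv.Perm (Option X))) ∪ {h}),
      f ∈ G ∨ ∃ f₁ ∈ G, ∃ f₂ ∈ G, f = f₁ * h * f₂ := by
    intro f hf
    induction hf using Subgroup.closure_induction with
    | mem f hf =>
      rcases hf with hf | hf
      · exact Or.inl hf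
      · right
        rw [Set.mem_singleton_iff] at hf
        exact ⟨1, G.one_mem, 1, G.one_mem, by rw [hf]; group⟩
    | one => exact Or.inl G.one_mem
    | mul a b _ _ ha hb =>
      rcases ha with ha | ⟨a₁, ha₁, a₂, ha₂, rfl⟩
      · rcases hb with hb | ⟨b₁, hb₁, b₂, hb₂, rfl⟩
        · exact Or.inl (G.mul_mem ha hb)
        · exact Or.inr ⟨a * b₁, G.mul_mem ha hb₁, b₂, hb₂, by group⟩
      · rcases hb with hb | ⟨b₁, hb₁, b₂, hb₂, rfl⟩
        · exact Or.inr ⟨a₁, ha₁, a₂ * b, G.mul_mem ha₂ hb, by group⟩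
        · have e1 : a₁ * h * a₂ * (b₁ * h * b₂) = a₁ * (h * (a₂ * b₁) * h) * b₂ := by group
          rcases hL (a₂ * b₁) (G.mul_mem ha₂ hb₁) with hc | ⟨c₁, hc₁, c₂, hc₂, hc⟩
          · left
            rw [e1]
            exact G.mul_mem (G.mul_mem ha₁ hc) hb₂
          · right
            refine ⟨a₁ * c₁, G.mul_mem ha₁ hc₁, c₂ * b₂, G.mul_mem hc₂ hb₂, ?_⟩
            rw [e1, hc]
            group
    | inv a _ ha =>
      rcases ha with ha | ⟨a₁, ha₁, a₂, ha₂, rfl⟩
      · exact Or.inl (G.inv_mem ha)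
      · right
        refine ⟨a₂⁻¹, G.inv_mem ha₂, (h ^ 2)⁻¹ * a₁⁻¹,
          G.mul_mem (G.inv_mem h7) (G.inv_mem ha₁), ?_⟩
        group
  have hGK : G ≤ Subgroup.closure ((G : Set (Equiv.Perm (Option X))) ∪ {h}) :=
    fun f hf => Subgroup.subset_closure (Or.inl hf)
  have hhK : h ∈ Subgroup.closure ((G : Set (Equiv.Perm (Option X))) ∪ {h}) :=
    Subgroup.subset_closure (Or.inr rfl)
  refine ⟨?_, ⟨?_⟩⟩
  · intro f hf
    constructor
    · intro h0
      rcases hK f hf with hG | ⟨f₁, hf₁, f₂, hf₂, rfl⟩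
      · exact hG
      · exfalso
        rw [Equiv.Perm.mul_apply, Equiv.Perm.mul_apply, hfix f₂ hf₂, h1] at h0
        have := f₁.injective (h0.trans (hfix f₁ hf₁).symm)
        exact absurd this (by simp)
    · exact hfix f
  · have htr : ∀ ω : Option X,
        ∃ f ∈ Subgroup.closure ((G : Set (Equiv.Perm (Option X))) ∪ {h}), f ω = none := by
      intro ω
      cases ω with
      | none => exact ⟨1, Subgroup.one_mem _, rfl⟩
      | some t =>
        obtain ⟨e⟩ := hkX
        have hs : ∃ s : X, t ≠ s := by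
          by_cases h0 : t = e ⟨0, by omega⟩
          · refine ⟨e ⟨1, by omega⟩, ?_⟩
            rw [h0]
            intro h'
            have := e.injective h'
            simp [Fin.ext_iff] at this
          · exact ⟨_, h0⟩
        obtain ⟨s, hts⟩ := hs
        obtain ⟨f, hf, hft, _⟩ := h2t t s x y hts hxy
        exact ⟨h * f, Subgroup.mul_mem _ hhK (hGK hf), by rw [Equiv.Perm.mul_apply, hft, h2]⟩
    have key : ∀ u : Fin (k + 1) ↪ Option X,
        ∃ f : ↥(Subgroup.closure ((G : Set (Equiv.Perm (Option X))) ∪ {h})), (f • u) 0 = none := by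
      intro u
      obtain ⟨f, hf, hfu⟩ := htr (u 0)
      exact ⟨⟨f, hf⟩, hfu⟩
    have key2 : ∀ u v : Fin (k + 1) ↪ Option X, u 0 = none → v 0 = none →
        ∃ f : ↥(Subgroup.closure ((G : Set (Equiv.Perm (Option X))) ∪ {h})), f • u = v := by
      intro u v hu0 hv0
      have hu' : ∀ i : Fin k, ∃ t : X, u i.succ = some t := fun i =>
        Option.ne_none_iff_exists'.1 (fun h0 => by
          have := u.injective (h0.trans hu0.symm)
          exact Fin.succ_ne_zero i this)
      have hv' : ∀ i : Fin k, ∃ t : X, v i.succ = some t := fun i =>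
        Option.ne_none_iff_exists'.1 (fun h0 => by
          have := v.injective (h0.trans hv0.symm)
          exact Fin.succ_ne_zero i this)
      choose a ha using hu'
      choose b hb using hv'
      have ainj : Function.Injective a := fun i j hij => by
        have h0 : u i.succ = u j.succ := by rw [ha, ha, hij]
        exact Fin.succ_injective _ (u.injective h0)
      have binj : Function.Injective b := fun i j hij => by
        have h0 : v i.succ = v j.succ := by rw [hb, hb, hij]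
        exact Fin.succ_injective _ (v.injective h0)
      obtain ⟨f, hf, hfab⟩ := htrans ⟨a, ainj⟩ ⟨b, binj⟩
      refine ⟨⟨f, hGK hf⟩, ?_⟩
      refine Function.Embedding.ext (fun i => ?_)
      refine Fin.cases ?_ (fun j => ?_) i
      · show f (u 0) = v 0
        rw [hu0, hv0]
        exact hfix f hf
      · show f (u j.succ) = v j.succ
        rw [ha, hb]
        exact hfab j
    intro u v
    obtain ⟨f₁, hf₁⟩ := key u
    obtain ⟨f₂, hf₂⟩ := key v
    obtain ⟨γ, hγ⟩ := key2 (f₁ • u) (f₂ • v) hf₁ hf₂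
    refine ⟨f₂⁻¹ * γ * f₁, ?_⟩
    have e1 : (f₂⁻¹ * γ * f₁) • u = f₂⁻¹ • (γ • (f₁ • u)) :=
      (mul_smul (f₂⁻¹ * γ) f₁ u).trans (mul_smul f₂⁻¹ γ (f₁ • u))
    rw [e1, hγ]
    exact inv_smul_smul f₂ v

end Cfsg.Agent.S4301
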