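import Cfsg.Statements.S4309

import Mathlib

set_option autoImplicit false
open Cfsg
open scoped Pointwise

namespace Cfsg.Agent.S4309

theorem aux_relIndex {G : Type*} [Group G] [Finite G] (H A : Subgroup G) [A.Normal] :
    H.relIndex A ∣ H.index := by
  have e1 : Nat.card (H ⊓ A : Subgroup G) * H.relIndex A = Nat.card A := by
    have := Subgroup.relIndex_mul_relIndex (⊥ : Subgroup G) (H ⊓ A) A bot_le inf_le_right
    rwa [Subgroup.relIndex_bot_left, Subgroup.relIndex_bot_left, Subgroup.inf_relIndex_right] at this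
  have e2 : Nat.card (H ⊓ A : Subgroup G) * A.relIndex H = Nat.card H := by
    have := Subgroup.relIndex_mul_relIndex (⊥ : Subgroup G) (H ⊓ A) H bot_le inf_le_left
    rwa [Subgroup.relIndex_bot_left, Subgroup.relIndex_bot_left, Subgroup.inf_relIndex_left] at this
  have e3 : Nat.card A * A.relIndex H = Nat.card (H ⊔ A : Subgroup G) := by
    have := Subgroup.relIndex_mul_relIndex (⊥ : Subgroup G) A (H ⊔ A) bot_le le_sup_right
    rwa [Subgroup.relIndex_bot_left, Subgroup.relIndex_bot_left, Subgroup.relIndex_sup_right] at this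
  have e4 : Nat.card H * H.relIndex (H ⊔ A) = Nat.card (H ⊔ A : Subgroup G) := by
    have := Subgroup.relIndex_mul_relIndex (⊥ : Subgroup G) H (H ⊔ A) bot_le le_sup_left
    rwa [Subgroup.relIndex_bot_left, Subgroup.relIndex_bot_left] at this
  have hpos : 0 < Nat.card H := Nat.card_pos
  have e5 : H.relIndex A = H.relIndex (H ⊔ A) := by
    apply Nat.eq_of_mul_eq_mul_left hpos
    rw [e4, ← e3, ← e1, ← e2]
    ring
  rw [e5]
  exact Subgroup.relIndex_dvd_index_of_le le_sup_left

theorem result {G : Type*} [Group G] [Finite G] (π : Set ℕ)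
    (H A : Subgroup G) [A.Normal] (hH : Cfsg.IsPiHall π H) :
    Cfsg.IsPiHall π ((H ⊓ A).subgroupOf A) ∧ Cfsg.IsPiHall π (H.map (QuotientGroup.mk' A)) := by
  obtain ⟨h1, h2⟩ := hH
  refine ⟨⟨?_, ?_⟩, ⟨?_, ?_⟩⟩
  · intro p hp hdvd
    apply h1 p hp
    have e : Nat.card ((H ⊓ A).subgroupOf A) = Nat.card (H ⊓ A : Subgroup G) :=
      Nat.card_congr (Subgroup.subgroupOfEquivOfLe inf_le_right).toEquiv
    rw [e] at hdvd
    exact hdvd.trans (Subgroup.card_dvd_of_le inf_le_left)
  · intro p hp hpπ hdvd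
    apply h2 p hp hpπ
    have e : ((H ⊓ A).subgroupOf A).index = H.relIndex A := Subgroup.inf_relIndex_right H A
    rw [e] at hdvd
    exact hdvd.trans (aux_relIndex H A)
  · intro p hp hdvd
    exact h1 p hp (hdvd.trans (Subgroup.card_map_dvd H _))
  · intro p hp hpπ hdvd
    exact h2 p hp hpπ (hdvd.trans (Subgroup.index_map_dvd H (QuotientGroup.mk'_surjective A)))

end Cfsg.Agent.S4309
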