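import Cfsg.Statements.S4421

set_option autoImplicit false
open Cfsg
open scoped Pointwise

namespace Cfsg.Agent.S4421

private theorem mem_map_conj {G : Type*} [Group G] (K : Subgroup G) (g x : G) :
    x ∈ K.map (MulAut.conj g).toMonoidHom ↔ g⁻¹ * x * g ∈ K := by
  constructor
  · rintro ⟨k, hk, rfl⟩
    simpa [MulAut.conj_apply, mul_assoc] using hk
  · intro h
    exact ⟨g⁻¹ * x * g, h, by simp [MulAut.conj_apply, mul_assoc]⟩

theorem result {G : Type*} [Group G] [Finite G] (A S H : Subgroup G)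
    (hAS : A ≤ S) (hSH : S ≤ H)
    (h1 : ∀ g : G, A.map (MulAut.conj g).toMonoidHom ≤ S → ∃ s ∈ S, A.map (MulAut.conj g).toMonoidHom = A.map (MulAut.conj s).toMonoidHom)
    (h2 : ∀ g : G, S.map (MulAut.conj g).toMonoidHom ≤ H → ∃ y ∈ H, S.map (MulAut.conj g).toMonoidHom = S.map (MulAut.conj y).toMonoidHom)
    (h3 : ∀ x ∈ Subgroup.normalizer (A : Set G), S.map (MulAut.conj x).toMonoidHom ≤ H) :
    ∀ x ∈ Subgroup.normalizer (A : Set G), ∃ y ∈ H ⊓ Subgroup.normalizer (A : Set G),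
      ∃ z ∈ Subgroup.normalizer (S : Set G) ⊓ Subgroup.normalizer (A : Set G), x = y * z := by
  intro x hx
  have hxA : ∀ h, h ∈ A ↔ x⁻¹ * h * x ∈ A := Subgroup.mem_normalizer_iff''.mp hx
  obtain ⟨y, hyH, hy⟩ := h2 x (h3 x hx)
  have hy' : ∀ w, x⁻¹ * w * x ∈ S ↔ y⁻¹ * w * y ∈ S := by
    intro w
    rw [← mem_map_conj, ← mem_map_conj, hy]
  have hAyS : A.map (MulAut.conj y⁻¹).toMonoidHom ≤ S := by
    intro w hw
    rw [mem_map_conj, inv_inv] at hw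
    have h1 : x⁻¹ * (y * w * y⁻¹) * x ∈ S := hAS ((hxA _).mp hw)
    have h2' := (hy' _).mp h1
    simpa [mul_assoc] using h2'
  obtain ⟨s, hsS, hs⟩ := h1 y⁻¹ hAyS
  have hs' : ∀ w, y * w * y⁻¹ ∈ A ↔ s⁻¹ * w * s ∈ A := by
    intro w
    rw [← mem_map_conj, ← hs, mem_map_conj, inv_inv]
  have hysN : y * s ∈ Subgroup.normalizer (A : Set G) := by
    rw [Subgroup.mem_normalizer_iff'']
    intro h
    have e1 : (y * s)⁻¹ * h * (y * s) = s⁻¹ * (y⁻¹ * h * y) * s := by group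
    rw [e1, ← hs']
    have e2 : y * (y⁻¹ * h * y) * y⁻¹ = h := by group
    rw [e2]
  refine ⟨y * s, Subgroup.mem_inf.mpr ⟨H.mul_mem hyH (hSH hsS), hysN⟩, (y * s)⁻¹ * x, ?_, by group⟩
  refine Subgroup.mem_inf.mpr ⟨?_, Subgroup.mul_mem _ (Subgroup.inv_mem _ hysN) hx⟩
  rw [Subgroup.mem_normalizer_iff'']
  intro h
  have e1 : ((y * s)⁻¹ * x)⁻¹ * h * ((y * s)⁻¹ * x) = x⁻¹ * ((y * s) * h * (y * s)⁻¹) * x := by group
  rw [e1, hy']
  have e2 : y⁻¹ * (y * s * h * (y * s)⁻¹) * y = s * h * s⁻¹ := by group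
  rw [e2]
  constructor
  · intro hh
    exact S.mul_mem (S.mul_mem hsS hh) (S.inv_mem hsS)
  · intro hh
    have : h = s⁻¹ * (s * h * s⁻¹) * s := by group
    rw [this]
    exact S.mul_mem (S.mul_mem (S.inv_mem hsS) hh) hsS

end Cfsg.Agent.S4421
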