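import Cfsg.Statements.S4422

import Mathlib

set_option autoImplicit false
open Cfsg
open scoped Pointwise

namespace Cfsg.Agent.S4422

theorem aux_prime (q e m r : ℕ) (he : 1 ≤ e) (hq : 2 ≤ q)
    (hm : m ∣ q ^ e - 1) (hcop : ∀ i : ℕ, 1 ≤ i → i < e → Nat.Coprime m (q ^ i - 1))
    (hr : r.Prime) (hrm : r ∣ m) : r ≡ 1 [MOD e] := by
  have := Fact.mk hr
  have hqe : 1 ≤ q ^ e := Nat.one_le_pow _ _ (by omega)
  have h1 : ((q : ZMod r)) ^ e = 1 := by
    have h0 : ((q ^ e - 1 : ℕ) : ZMod r) = 0 := (ZMod.natCast_eq_zero_iff _ _).mpr (hrm.trans hm)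
    rw [Nat.cast_sub hqe, Nat.cast_pow, Nat.cast_one, sub_eq_zero] at h0
    exact h0
  have hq0 : (q : ZMod r) ≠ 0 := by
    intro h0
    rw [h0, zero_pow (by omega)] at h1
    exact zero_ne_one h1
  have hd : orderOf (q : ZMod r) ∣ e := orderOf_dvd_of_pow_eq_one h1
  have hd0 : 1 ≤ orderOf (q : ZMod r) := by
    apply Nat.pos_of_ne_zero
    intro h
    rw [h, zero_dvd_iff] at hd
    omega
  have hde : orderOf (q : ZMod r) = e := by
    by_contra hne
    have hlt : orderOf (q : ZMod r) < e := lt_of_le_of_ne (Nat.le_of_dvd (by omega) hd) hne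
    have hc := hcop _ hd0 hlt
    have h2 : r ∣ q ^ orderOf (q : ZMod r) - 1 := by
      rw [← ZMod.natCast_eq_zero_iff, Nat.cast_sub (Nat.one_le_pow _ _ (by omega)), Nat.cast_pow,
        Nat.cast_one, pow_orderOf_eq_one, sub_self]
    have h4 := Nat.eq_one_of_dvd_coprimes hc hrm h2
    exact hr.one_lt.ne' h4
  have h3 : e ∣ r - 1 := hde ▸ ZMod.orderOf_dvd_card_sub_one hq0
  exact ((Nat.modEq_iff_dvd' hr.one_lt.le).mpr h3).symm

theorem result (q e m : ℕ) (hq : 2 ≤ q) (he : 1 ≤ e)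
    (hm : m ∣ q ^ e - 1) (hcop : ∀ i : ℕ, 1 ≤ i → i < e → Nat.Coprime m (q ^ i - 1)) :
    m % e = 1 % e := by
  have hm0 : m ≠ 0 := by
    rintro rfl
    rw [zero_dvd_iff] at hm
    have h2 : 2 ≤ q ^ e := by
      calc 2 ≤ q := hq
        _ = q ^ 1 := (pow_one q).symm
        _ ≤ q ^ e := Nat.pow_le_pow_right (by omega) he
    omega
  have key : ∀ n : ℕ, n ≠ 0 → (∀ r : ℕ, r.Prime → r ∣ n → r ≡ 1 [MOD e]) → n ≡ 1 [MOD e] := by
    intro n
    induction n using Nat.recOnMul with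
    | zero => intro h; exact absurd rfl h
    | one => intro _ _; rfl
    | prime p hp => intro _ h; exact h p hp dvd_rfl
    | mul a b iha ihb =>
      intro hab h
      have ha : a ≠ 0 := left_ne_zero_of_mul hab
      have hb : b ≠ 0 := right_ne_zero_of_mul hab
      have h1 := iha ha (fun r hr hra => h r hr (hra.mul_right b))
      have h2 := ihb hb (fun r hr hrb => h r hr (hrb.mul_left a))
      simpa using h1.mul h2
  exact key m hm0 (fun r hr hrm => aux_prime q e m r he hq hm hcop hr hrm)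

end Cfsg.Agent.S4422
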