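import Mathlib
import Cfsg.Statements.S4424
import Cfsg.Agent.Lib.Helper3.BlkTilde
import Cfsg.Agent.Lib.Helper3.Char
import Cfsg.Agent.Lib.Helper3.CharCore
import Cfsg.Agent.Lib.Helper3.BlkOsima

set_option autoImplicit false
open Cfsg
open Cfsg.Agent.Lib.Helper3.BlkTilde Cfsg.Agent.Lib.Helper3.Char Cfsg.Agent.Lib.Helper3.CharCore Cfsg.Agent.Lib.Helper3.BlkOsima
open scoped ComplexConjugate

namespace Cfsg.Agent.S4424

theorem result {G : Type*} [Group G] [Finite G] (p : ℕ) [Fact p.Prime] (M : Ideal Cfsg.AlgInt) (hM : Cfsg.IsPModular p M) (B : Set (Cfsg.IrrCharacter G)) (hB : Cfsg.IsPBlock M B) (χ : Cfsg.IrrCharacter G) (hχ : χ ∈ B) : ∃ a : Cfsg.IrrCharacter G → ℤ, (∀ ψ, ψ ∉ B → a ψ = 0) ∧ (fun x : G => if p ∣ orderOf x then (0 : ℂ) else ((p ^ (Nat.card G).factorization p : ℕ) : ℂ) * (χ : G → ℂ) x) = fun x => ∑ᶠ ψ : Cfsg.IrrCharacter G, (a ψ : ℂ) * (ψ : G → ℂ) x := by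
  classical
  have _fg : Fintype G := Fintype.ofFinite G
  have _fi : Fintype (Cfsg.IrrCharacter G) := Fintype.ofFinite _
  have hp : p.Prime := Fact.out
  have hMp : M.IsPrime := hM.2.1.isPrime
  choose a ha using fun ψ : Cfsg.IrrCharacter G => tilde_int p hp χ ψ
  refine ⟨a, ?_, ?_⟩
  · intro ψ hψ
    have h1 : ¬ Cfsg.SameBlock M (χ : G → ℂ) (ψ : G → ℂ) := by
      intro h
      apply hψ
      obtain ⟨χ₁, rfl⟩ := hB
      exact sb_trans hMp hχ h
    have h2 := tilde_zero hM χ ψ h1 ((p ^ (Nat.card G).factorization p : ℕ) : ℂ)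
    rw [ha ψ] at h2
    exact_mod_cast h2
  · have hcf := tilde_classFun p ((p ^ (Nat.card G).factorization p : ℕ) : ℂ)
      (char_classFun (isCharacter_of_irr χ.2))
    have h1 := class_fun_expand _ hcf
    funext x
    refine (congrFun h1 x).trans ?_
    rw [Finset.sum_apply, finsum_eq_sum_of_fintype]
    refine Finset.sum_congr rfl (fun ψ _ => ?_)
    rw [Pi.smul_apply, smul_eq_mul, tilde_inner, ha ψ]

end Cfsg.Agent.S4424
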