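import Mathlib
import Cfsg.Statements.S4425
import Cfsg.Agent.Lib.Helper3.BlkTilde
import Cfsg.Agent.Lib.Helper3.Char
import Cfsg.Agent.Lib.Helper3.CharCore
import Cfsg.Agent.Lib.Helper3.CharInt
import Cfsg.Agent.Lib.Helper3.BlkOrth4

set_option autoImplicit false
open Cfsg
open Cfsg.Agent.Lib.Helper3.BlkTilde Cfsg.Agent.Lib.Helper3.Char Cfsg.Agent.Lib.Helper3.CharCore Cfsg.Agent.Lib.Helper3.CharInt Cfsg.Agent.Lib.Helper3.BlkOrth4
open scoped ComplexConjugate

namespace Cfsg.Agent.S4425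

theorem result {G : Type*} [Group G] [Finite G] (p : ℕ) [Fact p.Prime] (χ : Cfsg.IrrCharacter G) : Cfsg.IsGeneralizedCharacter G (fun x : G => if p ∣ orderOf x then (0 : ℂ) else ((p ^ ((Nat.card G).factorization p - (Cfsg.charDegree (χ : G → ℂ)).factorization p) : ℕ) : ℂ) * (χ : G → ℂ) x) ∧ ¬ Cfsg.IsGeneralizedCharacter G (fun x : G => if p ∣ orderOf x then (0 : ℂ) else ((p ^ (Nat.card G).factorization p : ℕ) : ℂ) / ((p ^ ((Cfsg.charDegree (χ : G → ℂ)).factorization p + 1) : ℕ) : ℂ) * (χ : G → ℂ) x) := by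
  classical
  have _fg : Fintype G := Fintype.ofFinite G
  have hp : p.Prime := Fact.out
  obtain ⟨d, hd0, hd1, hddvd⟩ := irr_degree_dvd_card χ.2
  rw [charDegree_eq hd1]
  have hG0 : Nat.card G ≠ 0 := Nat.card_pos.ne'
  have hba : d.factorization p ≤ (Nat.card G).factorization p :=
    (Nat.factorization_le_iff_dvd hd0.ne' hG0).mpr hddvd p
  have hpc : (p : ℂ) ≠ 0 := by exact_mod_cast hp.ne_zero
  have hcf := char_classFun (isCharacter_of_irr χ.2)
  constructor
  · apply gen_of_int (tilde_classFun p _ hcf)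
    intro ψ
    obtain ⟨n, hn⟩ := tilde_int p hp χ ψ
    obtain ⟨m, hm⟩ := tilde_dvd p hp χ ψ d hd1 n hn
    refine ⟨m, ?_⟩
    rw [tilde_inner]
    have h1 : ((p ^ (Nat.card G).factorization p : ℕ) : ℂ) =
        ((p ^ ((Nat.card G).factorization p - d.factorization p) : ℕ) : ℂ) *
          ((p ^ d.factorization p : ℕ) : ℂ) := by
      rw [← Nat.cast_mul, ← pow_add, Nat.sub_add_cancel hba]
    rw [h1, hm] at hn
    push_cast at hn ⊢
    apply mul_left_cancel₀ (pow_ne_zero (d.factorization p) hpc)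
    rw [← hn]
    ring
  · intro hgen
    obtain ⟨z, hz⟩ := gen_vanish_dvd p hgen (fun x hx => if_pos hx)
    have h1 : ((p ^ (Nat.card G).factorization p : ℕ) : ℂ) /
        ((p ^ (d.factorization p + 1) : ℕ) : ℂ) * (d : ℂ) =
        (z : ℂ) * ((p ^ (Nat.card G).factorization p : ℕ) : ℂ) := by
      rw [← hd1, ← hz, if_neg]
      rw [orderOf_one]
      exact hp.not_dvd_one
    have h2 : (d : ℂ) = ((z * ((p ^ (d.factorization p + 1) : ℕ) : ℤ) : ℤ) : ℂ) := by
      push_cast at h1 ⊢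
      have h3 := pow_ne_zero ((Nat.card G).factorization p) hpc
      have h4 := pow_ne_zero (d.factorization p + 1) hpc
      field_simp at h1
      linear_combination h1
    have h3 : (d : ℤ) = z * ((p ^ (d.factorization p + 1) : ℕ) : ℤ) := by exact_mod_cast h2
    have h4 : p ^ (d.factorization p + 1) ∣ d :=
      Int.natCast_dvd_natCast.mp ⟨z, by rw [h3]; ring⟩
    exact Nat.pow_succ_factorization_not_dvd hd0.ne' hp h4

end Cfsg.Agent.S4425
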