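import Mathlib
import Cfsg.Statements.S4426
import Cfsg.Agent.Lib.Helper3.BlkTilde
import Cfsg.Agent.Lib.Helper3.BlkTilde2
import Cfsg.Agent.Lib.Helper3.Char
import Cfsg.Agent.Lib.Helper3.CharCore
import Cfsg.Agent.Lib.Helper3.CharInt
import Cfsg.Agent.Lib.Helper3.BlkOrth4
import Cfsg.Agent.Lib.Helper3.BlkOsima
import Cfsg.Agent.Lib.Helper3.BlkLocal
import Cfsg.Agent.Lib.Helper3.BlkHeight

set_option autoImplicit false
open Cfsg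
open Cfsg.Agent.Lib.Helper3.BlkTilde Cfsg.Agent.Lib.Helper3.BlkTilde2 Cfsg.Agent.Lib.Helper3.Char Cfsg.Agent.Lib.Helper3.CharCore Cfsg.Agent.Lib.Helper3.CharInt Cfsg.Agent.Lib.Helper3.BlkOrth4 Cfsg.Agent.Lib.Helper3.BlkOsima Cfsg.Agent.Lib.Helper3.BlkLocal Cfsg.Agent.Lib.Helper3.BlkHeight
open scoped ComplexConjugate

namespace Cfsg.Agent.S4426

theorem result {G : Type*} [Group G] [Fintype G] (p : ℕ) [Fact p.Prime] (M : Ideal Cfsg.AlgInt) (hM : Cfsg.IsPModular p M) (B : Set (Cfsg.IrrCharacter G)) (hB : Cfsg.IsPBlock M B) (χ : Cfsg.IrrCharacter G) (hχ : χ ∈ B) : (Cfsg.blockHeight p B (χ : G → ℂ) = 0 ↔ ∃ ξ ∈ B, ∃ n : ℤ, Cfsg.classInner (fun x : G => if p ∣ orderOf x then (0 : ℂ) else ((p ^ (Nat.card G).factorization p : ℕ) : ℂ) * (χ : G → ℂ) x) (ξ : G → ℂ) = (n : ℂ) ∧ n ≠ 0 ∧ padicValInt p n = (Cfsg.charDegree (ξ : G → ℂ)).factorization p) ∧ (Cfsg.blockHeight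 p B (χ : G → ℂ) = 0 ↔ ∀ ξ ∈ B, ∃ n : ℤ, Cfsg.classInner (fun x : G => if p ∣ orderOf x then (0 : ℂ) else ((p ^ (Nat.card G).factorization p : ℕ) : ℂ) * (χ : G → ℂ) x) (ξ : G → ℂ) = (n : ℂ) ∧ n ≠ 0 ∧ padicValInt p n = (Cfsg.charDegree (ξ : G → ℂ)).factorization p) := by
  classical
  have hp : p.Prime := Fact.out
  have hMp : M.IsPrime := hM.2.1.isPrime
  obtain ⟨s, hs⟩ : ∃ s : ℕ, s = sInf ((fun ψ : Cfsg.IrrCharacter G =>
      (Cfsg.charDegree (ψ : G → ℂ)).factorization p) '' B) := ⟨_, rfl⟩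
  have hsle : ∀ ψ ∈ B, s ≤ (Cfsg.charDegree (ψ : G → ℂ)).factorization p := by
    intro ψ hψ
    rw [hs]
    exact Nat.sInf_le (Set.mem_image_of_mem _ hψ)
  have hht : ∀ ψ : Cfsg.IrrCharacter G, Cfsg.blockHeight p B (ψ : G → ℂ) =
      (Cfsg.charDegree (ψ : G → ℂ)).factorization p - s := by
    intro ψ
    rw [hs]
    rfl
  choose N hN using fun ψ φ : Cfsg.IrrCharacter G => tilde_int p hp ψ φ
  choose d hd0 hd using fun ψ : Cfsg.IrrCharacter G => irr_one_pos ψ.2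
  have hdeg : ∀ ψ : Cfsg.IrrCharacter G, Cfsg.charDegree (ψ : G → ℂ) = d ψ :=
    fun ψ => charDegree_eq (hd ψ)
  have hsb : ∀ ψ ∈ B, ∀ φ ∈ B, Cfsg.SameBlock M (ψ : G → ℂ) (φ : G → ℂ) := by
    intro ψ hψ φ hφ
    obtain ⟨χ₁, rfl⟩ := hB
    exact sb_trans hMp (sb_symm hψ) hφ
  have hA : (d χ).factorization p - s = 0 → ∀ ξ ∈ B, N χ ξ ≠ 0 ∧
      padicValInt p (N χ ξ) = (d ξ).factorization p := by
    intro h0 ξ hξ
    have hmin : ∀ ψ ∈ B, (d χ).factorization p ≤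
        (Cfsg.charDegree (ψ : G → ℂ)).factorization p := by
      intro ψ hψ
      have h1 := hsle ψ hψ
      omega
    have hU := tilde_unit hM B hB χ hχ (d χ) (hd χ) hmin (N χ χ) (hN χ χ)
    have h1 := tilde_diff_li hM χ χ ξ (hsb χ hχ ξ hξ) (N χ χ) (N χ ξ) (hN χ χ) (hN χ ξ)
    rw [hd, hd] at h1
    have h2 : ¬ MemLocalIdeal M ((N χ ξ : ℂ) / (d ξ : ℂ)) := by
      intro h3
      apply hU
      have h4 := li_add hMp h1 h3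
      rwa [sub_add_cancel] at h4
    rw [li_rat_iff hM _ _ (hd0 ξ).ne'] at h2
    have hne : N χ ξ ≠ 0 := by
      intro h0'
      apply h2
      rw [h0']
      exact dvd_zero _
    refine ⟨hne, ?_⟩
    have h5 := tilde_dvd p hp ξ χ (d ξ) (hd ξ) (N χ ξ) (tilde_conj p _ _ _ (hN χ ξ))
    rw [Nat.cast_pow, padicValInt_dvd_iff] at h5 h2
    rcases h5 with h5 | h5
    · exact absurd h5 hne
    · have h6 : ¬ ((d ξ).factorization p + 1 ≤ padicValInt p (N χ ξ)) := fun h => h2 (Or.inr h)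
      omega
  have hB' : (∃ ξ ∈ B, N χ ξ ≠ 0 ∧ padicValInt p (N χ ξ) = (d ξ).factorization p) →
      (d χ).factorization p - s = 0 := by
    rintro ⟨ξ, hξ, hne, hval⟩
    have h2 : ¬ MemLocalIdeal M ((N χ ξ : ℂ) / (d ξ : ℂ)) := by
      rw [li_rat_iff hM _ _ (hd0 ξ).ne', Nat.cast_pow, padicValInt_dvd_iff]
      rintro (h | h)
      · exact hne h
      · omega
    obtain ⟨ξ₀, hξ₀, h0⟩ := exists_height_zero p B ⟨χ, hχ⟩
    rw [hht, hdeg] at h0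
    have h1 := tilde_diff_li hM χ ξ ξ₀ (hsb ξ hξ ξ₀ hξ₀) (N χ ξ) (N χ ξ₀) (hN χ ξ) (hN χ ξ₀)
    rw [hd, hd] at h1
    have h3 : ¬ MemLocalIdeal M ((N χ ξ₀ : ℂ) / (d ξ₀ : ℂ)) := by
      intro h4
      apply h2
      have h5 := li_sub hMp (li_add hMp h1 h4) h4
      have h6 : (N χ ξ : ℂ) / (d ξ : ℂ) - (N χ ξ₀ : ℂ) / (d ξ₀ : ℂ) + (N χ ξ₀ : ℂ) / (d ξ₀ : ℂ) -
          (N χ ξ₀ : ℂ) / (d ξ₀ : ℂ) + (N χ ξ₀ : ℂ) / (d ξ₀ : ℂ) = (N χ ξ : ℂ) / (d ξ : ℂ) := by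
        ring
      have h7 := li_add hMp h5 h4
      rwa [h6] at h7
    rw [li_rat_iff hM _ _ (hd0 ξ₀).ne'] at h3
    have h6 := tilde_dvd p hp χ ξ₀ (d χ) (hd χ) (N χ ξ₀) (hN χ ξ₀)
    by_contra hcon
    apply h3
    have h7 : (d ξ₀).factorization p + 1 ≤ (d χ).factorization p := by
      have h8 := hsle ξ₀ hξ₀
      rw [hdeg] at h8
      omega
    exact (Int.natCast_dvd_natCast.mpr (pow_dvd_pow p h7)).trans h6
  have hconv : ∀ ξ : Cfsg.IrrCharacter G, (∃ n : ℤ, Cfsg.classInner (fun x : G =>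
      if p ∣ orderOf x then (0 : ℂ) else
        ((p ^ (Nat.card G).factorization p : ℕ) : ℂ) * (χ : G → ℂ) x) (ξ : G → ℂ) = (n : ℂ) ∧
        n ≠ 0 ∧ padicValInt p n = (Cfsg.charDegree (ξ : G → ℂ)).factorization p) ↔
      (N χ ξ ≠ 0 ∧ padicValInt p (N χ ξ) = (d ξ).factorization p) := by
    intro ξ
    rw [tilde_inner, hN, hdeg]
    constructor
    · rintro ⟨n, h1, h2, h3⟩
      have h4 : N χ ξ = n := by exact_mod_cast h1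
      rw [h4]
      exact ⟨h2, h3⟩
    · rintro ⟨h2, h3⟩
      exact ⟨N χ ξ, rfl, h2, h3⟩
  refine ⟨⟨fun h0 => ?_, fun h => ?_⟩, ⟨fun h0 ξ hξ => ?_, fun h => ?_⟩⟩
  · rw [hht, hdeg] at h0
    exact ⟨χ, hχ, (hconv χ).mpr (hA h0 χ hχ)⟩
  · rw [hht, hdeg]
    obtain ⟨ξ, hξ, h1⟩ := h
    exact hB' ⟨ξ, hξ, (hconv ξ).mp h1⟩
  · rw [hht, hdeg] at h0
    exact (hconv ξ).mpr (hA h0 ξ hξ)
  · rw [hht, hdeg]
    exact hB' ⟨χ, hχ, (hconv χ).mp (h χ hχ)⟩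

end Cfsg.Agent.S4426
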