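import Mathlib
import Cfsg.Statements.S4430
import Cfsg.Agent.Lib.Helper3.BlkTilde
import Cfsg.Agent.Lib.Helper3.BlkTilde2
import Cfsg.Agent.Lib.Helper3.BlkTilde3
import Cfsg.Agent.Lib.Helper3.Char
import Cfsg.Agent.Lib.Helper3.CharCore
import Cfsg.Agent.Lib.Helper3.CharInt
import Cfsg.Agent.Lib.Helper3.CharInd
import Cfsg.Agent.Lib.Helper3.CharArith
import Cfsg.Agent.Lib.Helper3.CharCliff
import Cfsg.Agent.Lib.Helper3.BlkOrth
import Cfsg.Agent.Lib.Helper3.BlkOrth4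
import Cfsg.Agent.Lib.Helper3.BlkOsima
import Cfsg.Agent.Lib.Helper3.BlkLocal
import Cfsg.Agent.Lib.Helper3.BlkSecond3
import Cfsg.Agent.S0148
import Cfsg.Agent.S0923

set_option autoImplicit false
open Cfsg
open Cfsg.Agent.Lib.Helper3.BlkTilde Cfsg.Agent.Lib.Helper3.BlkTilde2 Cfsg.Agent.Lib.Helper3.BlkTilde3 Cfsg.Agent.Lib.Helper3.Char Cfsg.Agent.Lib.Helper3.CharCore Cfsg.Agent.Lib.Helper3.CharInt Cfsg.Agent.Lib.Helper3.CharInd Cfsg.Agent.Lib.Helper3.CharArith Cfsg.Agent.Lib.Helper3.CharCliff Cfsg.Agent.Lib.Helper3.BlkOrth Cfsg.Agent.Lib.Helper3.BlkOrth4 Cfsg.Agent.Lib.Helper3.BlkOsima Cfsg.Agent.Lib.Helper3.BlkLocal Cfsg.Agent.Lib.Helper3.BlkSecond3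
open scoped ComplexConjugate

namespace Cfsg.Agent.S4430

theorem result {G : Type*} [Group G] [Fintype G] (p : ℕ) [Fact p.Prime] (M : Ideal Cfsg.AlgInt) (hM : Cfsg.IsPModular p M) (H : Subgroup G) [Fintype H] (b : Set (Cfsg.IrrCharacter H)) (B₀ : Set (Cfsg.IrrCharacter G)) (hind : Cfsg.IsInducedBlock M H b B₀) (ξ : Cfsg.IrrCharacter H) (hξ : ξ ∈ b) : (∃ n : ℕ, Cfsg.blockPart B₀ (Cfsg.indFun H (ξ : H → ℂ)) 1 = (n : ℂ) ∧ n ≠ 0 ∧ n.factorization p = (Cfsg.charDegree (Cfsg.indFun H (ξ : H → ℂ))).factorization p) ∧ ∀ B : Set (Cfsg.IrrCharacter G), Cfsg.IsPBlock M B → B ≠ B₀ → ∃ n : ℕ, Cfsg.blockPart B (Cfsg.indFun H (ξ : H → ℂ)) 1 = (n : ℂ) ∧ (n = 0 ∨ (Cfsg.charDegree (Cfsg.indFun H (ξ : H → ℂ))).factorization p < n.factorization p) := by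
  classical
  have hp : p.Prime := Fact.out
  have hMp : M.IsPrime := hM.2.1.isPrime
  have _fi : Fintype (Cfsg.IrrCharacter G) := Fintype.ofFinite _
  have hGc : (Nat.card G : ℂ) ≠ 0 := by exact_mod_cast Nat.card_pos.ne'
  have hHc : (Nat.card H : ℂ) ≠ 0 := by exact_mod_cast Nat.card_pos.ne'
  have hchar : Cfsg.IsCharacter G (Cfsg.indFun H (ξ : H → ℂ)) :=
    Cfsg.Agent.S0148.result H _ (isCharacter_of_irr ξ.2)
  obtain ⟨dξ, hdξ0, hdξ⟩ := irr_one_pos ξ.2
  have hidx0 : H.index ≠ 0 := Subgroup.index_ne_zero_of_finite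
  have hidxc : (H.index : ℂ) ≠ 0 := by exact_mod_cast hidx0
  have hdξc : (dξ : ℂ) ≠ 0 := by exact_mod_cast hdξ0.ne'
  obtain ⟨D, hD⟩ : ∃ D : ℕ, D = H.index * dξ := ⟨_, rfl⟩
  have hD0 : D ≠ 0 := by
    rw [hD]
    exact Nat.mul_ne_zero hidx0 hdξ0.ne'
  have hθ1 : Cfsg.indFun H (ξ : H → ℂ) 1 = (D : ℂ) := by
    rw [indFun_one, hdξ, hD]
    push_cast
    rfl
  rw [charDegree_eq hθ1]
  obtain ⟨χ₁, hχ₁⟩ := hind.2.1
  have hχ₁B₀ : χ₁ ∈ B₀ := by
    rw [hχ₁]
    exact sb_refl hMp _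
  have hpart : ∀ B : Set (Cfsg.IrrCharacter G), Cfsg.IsPBlock M B → ∃ n : ℕ,
      Cfsg.blockPart B (Cfsg.indFun H (ξ : H → ℂ)) 1 = (n : ℂ) ∧
      MemLocalIdeal M ((n : ℂ) / (D : ℂ) - (if χ₁ ∈ B then 1 else 0)) := by
    intro B hB
    choose c hc using fun χ : Cfsg.IrrCharacter G =>
      inner_char_nat hchar (isCharacter_of_irr χ.2)
    choose d hd0 hd using fun χ : Cfsg.IrrCharacter G => irr_one_pos χ.2
    refine ⟨∑ χ : Cfsg.IrrCharacter G, if χ ∈ B then c χ * d χ else 0, ?_, ?_⟩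
    · rw [blockPart_eq]
      push_cast
      refine Finset.sum_congr rfl (fun χ _ => ?_)
      split_ifs
      · have h1 := hc χ
        unfold Cfsg.classInner at h1
        rw [h1, hd]
      · rfl
    · have key := ind_om_li hMp H b B₀ hind (Cfsg.blockCoeff B) (blockCoeff_classFun B)
        (osima_fun hMp B hB) ξ hξ χ₁ hχ₁B₀
      rw [blockCoeff_om B χ₁] at key
      have hfrob : ∀ χ : Cfsg.IrrCharacter G, (c χ : ℂ) = (Nat.card H : ℂ)⁻¹ *
          ∑ h : H, (ξ : H → ℂ) h * conj ((χ : G → ℂ) h) := by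
        intro χ
        rw [← hc χ, frobenius H _ _ (char_classFun (isCharacter_of_irr χ.2))]
        rfl
      have hbc : ∀ h : H, (Nat.card G : ℂ) * Cfsg.blockCoeff B (h : G) =
          ∑ χ : Cfsg.IrrCharacter G,
            if χ ∈ B then (χ : G → ℂ) 1 * conj ((χ : G → ℂ) h) else 0 := by
        intro h
        rw [blockCoeff_eq, ← mul_assoc, mul_inv_cancel₀ hGc, one_mul]
      have hsum : ((∑ χ : Cfsg.IrrCharacter G, if χ ∈ B then c χ * d χ else 0 : ℕ) : ℂ) =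
          (H.index : ℂ) * ∑ h : H, Cfsg.blockCoeff B (h : G) * (ξ : H → ℂ) h := by
        have hcard : (Nat.card G : ℂ) = (Nat.card H : ℂ) * (H.index : ℂ) := by
          exact_mod_cast congrArg (Nat.cast : ℕ → ℂ) H.card_mul_index.symm
        have e1 : (H.index : ℂ) * ∑ h : H, Cfsg.blockCoeff B (h : G) * (ξ : H → ℂ) h =
            (Nat.card H : ℂ)⁻¹ * ∑ h : H, ((Nat.card G : ℂ) * Cfsg.blockCoeff B (h : G)) *
              (ξ : H → ℂ) h := by
          rw [Finset.mul_sum, Finset.mul_sum]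
          refine Finset.sum_congr rfl (fun h _ => ?_)
          rw [hcard]
          field_simp
        rw [e1]
        push_cast
        simp only [hbc, Finset.sum_mul]
        rw [Finset.sum_comm, Finset.mul_sum]
        refine Finset.sum_congr rfl (fun χ _ => ?_)
        by_cases hχB : χ ∈ B
        · simp only [if_pos hχB]
          rw [hfrob, mul_assoc, Finset.sum_mul]
          congr 1
          refine Finset.sum_congr rfl (fun h _ => ?_)
          rw [hd]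
          ring
        · simp only [if_neg hχB, zero_mul, Finset.sum_const_zero, mul_zero]
      have h1 : (∑ h : H, Cfsg.blockCoeff B (h : G) * (ξ : H → ℂ) h) / (ξ : H → ℂ) 1 =
          ((∑ χ : Cfsg.IrrCharacter G, if χ ∈ B then c χ * d χ else 0 : ℕ) : ℂ) / (D : ℂ) := by
        rw [hsum, hdξ, hD]
        push_cast
        field_simp
      have h2 : (if χ₁ ∈ B then (χ₁ : G → ℂ) 1 else 0) / (χ₁ : G → ℂ) 1 =
          if χ₁ ∈ B then 1 else 0 := by
        split_ifs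
        · exact div_self (irr_one_ne_zero χ₁.2)
        · exact zero_div _
      rw [h1, h2] at key
      exact key
  constructor
  · obtain ⟨n, hn, hli⟩ := hpart B₀ hind.2.1
    rw [if_pos hχ₁B₀] at hli
    refine ⟨n, hn, ?_⟩
    have hnli : ¬ MemLocalIdeal M ((n : ℂ) / (D : ℂ)) := by
      intro h
      have h1 := li_sub hMp h hli
      rw [sub_sub_cancel] at h1
      exact not_li_one hMp h1
    have hlr : MemLocalRing M ((n : ℂ) / (D : ℂ)) := by
      have h1 := lr_add hMp (li_lr hli) (lr_one hMp)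
      rwa [sub_add_cancel] at h1
    have h1 := lr_rat_dvd hM (n : ℤ) D hD0 (by rw [Int.cast_natCast]; exact hlr)
    have h2 : ¬ ((p ^ (D.factorization p + 1) : ℕ) : ℤ) ∣ (n : ℤ) := by
      rw [← li_rat_iff hM (n : ℤ) D hD0, Int.cast_natCast]
      exact hnli
    rw [Int.natCast_dvd_natCast] at h1 h2
    have hn0 : n ≠ 0 := by
      intro h0
      apply h2
      rw [h0]
      exact dvd_zero _
    refine ⟨hn0, ?_⟩
    rw [hp.pow_dvd_iff_le_factorization hn0] at h1 h2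
    omega
  · intro B hB hne
    obtain ⟨n, hn, hli⟩ := hpart B hB
    have hχ₁B : χ₁ ∉ B := fun h =>
      hne (Cfsg.Agent.S0923.block_eq_of_mem hMp B B₀ hB hind.2.1 χ₁ h hχ₁B₀)
    rw [if_neg hχ₁B, sub_zero] at hli
    refine ⟨n, hn, ?_⟩
    have h2 : ((p ^ (D.factorization p + 1) : ℕ) : ℤ) ∣ (n : ℤ) := by
      rw [← li_rat_iff hM (n : ℤ) D hD0, Int.cast_natCast]
      exact hli
    rw [Int.natCast_dvd_natCast] at h2
    by_cases hn0 : n = 0
    · exact Or.inl hn0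
    · right
      rw [hp.pow_dvd_iff_le_factorization hn0] at h2
      omega

end Cfsg.Agent.S4430
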