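import Mathlib
import Cfsg.Statements.S4431
import Cfsg.Agent.Lib.Helper3.BlkTilde
import Cfsg.Agent.Lib.Helper3.BlkTilde2
import Cfsg.Agent.Lib.Helper3.BlkTilde3
import Cfsg.Agent.Lib.Helper3.Char
import Cfsg.Agent.Lib.Helper3.CharCore
import Cfsg.Agent.Lib.Helper3.CharInt
import Cfsg.Agent.Lib.Helper3.BlkOrth4
import Cfsg.Agent.Lib.Helper3.BlkOsima
import Cfsg.Agent.Lib.Helper3.BlkLocal
import Cfsg.Agent.Lib.Helper3.BlkHeight

set_option autoImplicit false
open Cfsg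
open Cfsg.Agent.Lib.Helper3.BlkTilde Cfsg.Agent.Lib.Helper3.BlkTilde2 Cfsg.Agent.Lib.Helper3.BlkTilde3 Cfsg.Agent.Lib.Helper3.Char Cfsg.Agent.Lib.Helper3.CharCore Cfsg.Agent.Lib.Helper3.CharInt Cfsg.Agent.Lib.Helper3.BlkOrth4 Cfsg.Agent.Lib.Helper3.BlkOsima Cfsg.Agent.Lib.Helper3.BlkLocal Cfsg.Agent.Lib.Helper3.BlkHeight
open scoped ComplexConjugate

namespace Cfsg.Agent.S4431

theorem result {G : Type*} [Group G] [Fintype G] (p : ℕ) [Fact p.Prime] (M : Ideal Cfsg.AlgInt) (hM : Cfsg.IsPModular p M) (H : Subgroup G) [Fintype H] (b : Set (Cfsg.IrrCharacter H)) (B₀ : Set (Cfsg.IrrCharacter G)) (hind : Cfsg.IsInducedBlock M H b B₀) (χ : Cfsg.IrrCharacter G) (ψ : Cfsg.IrrCharacter H) (hψ : ψ ∈ b) : (χ ∉ B₀ → Cfsg.MemLocalIdeal M (Cfsg.classInner (fun h : H => if p ∣ orderOf h then (0 : ℂ) else ((p ^ (Nat.card H).factorization p : ℕ) : ℂ) * (χ : G → ℂ) h) (ψ : H → ℂ) / (ψ : H → ℂ) 1)) ∧ (χ ∈ B₀ → Cfsg.blockHeight p B₀ (χ : G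 → ℂ) = 0 → ¬ Cfsg.MemLocalIdeal M (Cfsg.classInner (fun h : H => if p ∣ orderOf h then (0 : ℂ) else ((p ^ (Nat.card H).factorization p : ℕ) : ℂ) * (χ : G → ℂ) h) (ψ : H → ℂ) / (ψ : H → ℂ) 1)) := by
  classical
  have hp : p.Prime := Fact.out
  have hMp : M.IsPrime := hM.2.1.isPrime
  have _fi : Fintype (Cfsg.IrrCharacter G) := Fintype.ofFinite _
  have hB₀ : Cfsg.IsPBlock M B₀ := hind.2.1
  have hfc := conjf_classFun p χ
  have hflr : ∀ g : G, MemLocalRing M (if p ∣ orderOf g then (0 : ℂ) else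
      conj ((χ : G → ℂ) g)) := fun g => lr_of_isIntegral hMp (conjf_integral p χ g)
  have hH0 : Nat.card H ≠ 0 := Nat.card_pos.ne'
  have hHc : (Nat.card H : ℂ) ≠ 0 := by exact_mod_cast hH0
  have hG0 : Nat.card G ≠ 0 := Nat.card_pos.ne'
  have hcopH := Nat.not_dvd_ordCompl hp hH0
  have hcopG := Nat.not_dvd_ordCompl hp hG0
  have hmH := (Nat.ordProj_mul_ordCompl_eq_self (Nat.card H) p).symm
  have hmHc : (Nat.card H : ℂ) = ((p ^ (Nat.card H).factorization p : ℕ) : ℂ) *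
      ((Nat.card H / p ^ (Nat.card H).factorization p : ℕ) : ℂ) := by
    exact_mod_cast congrArg (Nat.cast : ℕ → ℂ) hmH
  have hpa : ((p ^ (Nat.card H).factorization p : ℕ) : ℂ) ≠ 0 := by
    exact_mod_cast (pow_pos hp.pos _).ne'
  have hmH0 : ((Nat.card H / p ^ (Nat.card H).factorization p : ℕ) : ℂ) ≠ 0 := by
    intro h0
    rw [h0, mul_zero] at hmHc
    exact hHc hmHc
  have hψ1 : (ψ : H → ℂ) 1 ≠ 0 := irr_one_ne_zero ψ.2
  have hQ : (∑ h : H, (if p ∣ orderOf (h : G) then (0 : ℂ) else conj ((χ : G → ℂ) (h : G))) *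
      (ψ : H → ℂ) h) / (ψ : H → ℂ) 1 =
      ((Nat.card H / p ^ (Nat.card H).factorization p : ℕ) : ℂ) *
      (Cfsg.classInner (fun h : H => if p ∣ orderOf h then (0 : ℂ) else
        ((p ^ (Nat.card H).factorization p : ℕ) : ℂ) * (χ : G → ℂ) h) (ψ : H → ℂ) /
          (ψ : H → ℂ) 1) := by
    have h1 := tilde_inner p ((p ^ (Nat.card H).factorization p : ℕ) : ℂ)
      (fun h : H => (χ : G → ℂ) h) (ψ : H → ℂ)
    rw [h1]
    have h2 : ∑ h : H, (if p ∣ orderOf (h : G) then (0 : ℂ) else conj ((χ : G → ℂ) (h : G))) *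
        (ψ : H → ℂ) h =
        ∑ h : H, (if p ∣ orderOf h then 0 else (χ : G → ℂ) (h : G) * conj ((ψ : H → ℂ) h)) := by
      rw [← Equiv.sum_comp (Equiv.inv H)]
      refine Finset.sum_congr rfl (fun h _ => ?_)
      show (if p ∣ orderOf ((h⁻¹ : H) : G) then (0 : ℂ) else
        conj ((χ : G → ℂ) ((h⁻¹ : H) : G))) * (ψ : H → ℂ) h⁻¹ = _
      rw [Subgroup.coe_inv, orderOf_inv, Subgroup.orderOf_coe,
        char_inv (isCharacter_of_irr ψ.2), char_inv (isCharacter_of_irr χ.2),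
        Complex.conj_conj]
      split_ifs
      · rw [zero_mul]
      · rfl
    rw [h2]
    generalize ((Nat.card H / p ^ (Nat.card H).factorization p : ℕ) : ℂ) = m at hmHc hmH0 ⊢
    rw [hmHc]
    field_simp
  have hdiv : ∀ X : ℂ, MemLocalIdeal M
      (((Nat.card H / p ^ (Nat.card H).factorization p : ℕ) : ℂ) * X) → MemLocalIdeal M X := by
    intro X hX
    have h1 := li_mul_right hMp hX (lr_nat_inv hM hcopH)
    have h2 : ((Nat.card H / p ^ (Nat.card H).factorization p : ℕ) : ℂ) * X *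
        ((Nat.card H / p ^ (Nat.card H).factorization p : ℕ) : ℂ)⁻¹ = X := by
      field_simp
    rwa [h2] at h1
  constructor
  · intro hχ
    obtain ⟨χ₁, hχ₁⟩ := hB₀
    have hχ₁B : χ₁ ∈ B₀ := by
      rw [hχ₁]
      exact sb_refl hMp _
    have key := ind_om_li hMp H b B₀ hind _ hfc hflr ψ hψ χ₁ hχ₁B
    have h1 : ¬ Cfsg.SameBlock M (χ₁ : G → ℂ) (χ : G → ℂ) := by
      intro h
      apply hχ
      rw [hχ₁]
      exact h
    have h2 := diff_block_orth hM χ₁ χ h1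
    have h3 : ∑ g : G, (if p ∣ orderOf g then (0 : ℂ) else conj ((χ : G → ℂ) g)) *
        (χ₁ : G → ℂ) g = 0 := by
      refine Eq.trans (Finset.sum_congr rfl (fun x _ => ?_)) h2
      split_ifs
      · rw [zero_mul]
      · rw [mul_comm]
    rw [h3, zero_div, sub_zero, hQ] at key
    exact hdiv _ key
  · intro hχ h0 hli
    have key := ind_om_li hMp H b B₀ hind _ hfc hflr ψ hψ χ hχ
    rw [hQ] at key
    have h1 := li_mul_left hMp (lr_int hMp ((Nat.card H / p ^ (Nat.card H).factorization p : ℕ) :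
      AlgInt)) hli
    have h1' : MemLocalIdeal M (((Nat.card H / p ^ (Nat.card H).factorization p : ℕ) : ℂ) *
        (Cfsg.classInner (fun h : H => if p ∣ orderOf h then (0 : ℂ) else
        ((p ^ (Nat.card H).factorization p : ℕ) : ℂ) * (χ : G → ℂ) h) (ψ : H → ℂ) /
          (ψ : H → ℂ) 1)) := by
      have h5 : ((((Nat.card H / p ^ (Nat.card H).factorization p : ℕ) : AlgInt)) : ℂ) =
          ((Nat.card H / p ^ (Nat.card H).factorization p : ℕ) : ℂ) := by
        push_cast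
        rfl
      rw [h5] at h1
      exact h1
    have h2 := li_sub hMp h1' key
    rw [sub_sub_cancel] at h2
    obtain ⟨N, hN⟩ := tilde_int p hp χ χ
    obtain ⟨d, hd0, hd⟩ := irr_one_pos χ.2
    rw [conjf_om hp χ χ N hN, hd] at h2
    have h3 := li_mul_right hMp h2 (lr_nat_inv hM hcopG)
    have hmG0 : ((Nat.card G / p ^ (Nat.card G).factorization p : ℕ) : ℂ) ≠ 0 := by
      intro h0'
      have h4 : Nat.card G / p ^ (Nat.card G).factorization p = 0 := by exact_mod_cast h0'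
      rw [h4] at hcopG
      exact hcopG (dvd_zero p)
    have h4 : ((Nat.card G / p ^ (Nat.card G).factorization p : ℕ) : ℂ) * ((N : ℂ) / (d : ℂ)) *
        ((Nat.card G / p ^ (Nat.card G).factorization p : ℕ) : ℂ)⁻¹ = (N : ℂ) / (d : ℂ) := by
      field_simp
    rw [h4] at h3
    have hmin : ∀ ψ' ∈ B₀, d.factorization p ≤
        (Cfsg.charDegree (ψ' : G → ℂ)).factorization p := by
      intro ψ' hψ'
      have h5 := height_zero_val p B₀ χ hχ h0
      rw [charDegree_eq hd] at h5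
      rw [h5]
      exact Nat.sInf_le (Set.mem_image_of_mem _ hψ')
    exact tilde_unit hM B₀ hB₀ χ hχ d hd hmin N hN h3

end Cfsg.Agent.S4431
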