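import Mathlib
import Cfsg.Statements.S4456
import Cfsg.Agent.Lib.Helper3.Char
import Cfsg.Agent.Lib.Helper3.CharCore
import Cfsg.Agent.Lib.Helper3.CharArith
import Cfsg.Agent.Lib.Helper3.CharInd
import Cfsg.Agent.Lib.Helper3.CharInt
import Cfsg.Agent.Lib.Helper3.CharKer
import Cfsg.Agent.Lib.Helper3.CharLinear
import Cfsg.Agent.Lib.Helper3.CharLin
import Cfsg.Agent.Lib.Helper3.CharDet
import Cfsg.Agent.Lib.Helper3.CharProj
import Cfsg.Agent.Lib.Helper3.CharCliff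
import Cfsg.Agent.Lib.Helper3.CharNormal
import Cfsg.Agent.Lib.Helper3.CharDeg
import Cfsg.Agent.Lib.Helper3.Residual
import Cfsg.Agent.S0867

set_option autoImplicit false
open Cfsg
open Cfsg.Agent.Lib.Helper3.Char Cfsg.Agent.Lib.Helper3.CharCore Cfsg.Agent.Lib.Helper3.CharArith Cfsg.Agent.Lib.Helper3.CharInd Cfsg.Agent.Lib.Helper3.CharInt Cfsg.Agent.Lib.Helper3.CharKer Cfsg.Agent.Lib.Helper3.CharLinear Cfsg.Agent.Lib.Helper3.CharLin Cfsg.Agent.Lib.Helper3.CharDet Cfsg.Agent.Lib.Helper3.CharProj Cfsg.Agent.Lib.Helper3.CharCliff Cfsg.Agent.Lib.Helper3.CharNormal Cfsg.Agent.Lib.Helper3.CharDeg Cfsg.Agent.Lib.Helper3.Residual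
open scoped ComplexConjugate

namespace Cfsg.Agent.S4456

universe u

theorem hom_triv {G : Type u} [Group G] (p : ℕ) (μ : ↥(Cfsg.pResidual p G) →* ℂˣ)
    (h : μ ^ p = 1) : μ = 1 := by
  have hle : Cfsg.pResidual p G ≤ (μ.ker).map (Subgroup.subtype _) := by
    show Subgroup.closure {g : G | Nat.Coprime (orderOf g) p} ≤ _
    rw [Subgroup.closure_le]
    intro g hg
    have hgK : g ∈ Cfsg.pResidual p G := Subgroup.subset_closure hg
    refine Subgroup.mem_map.mpr ⟨⟨g, hgK⟩, ?_, rfl⟩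
    rw [MonoidHom.mem_ker]
    have h1 : μ ⟨g, hgK⟩ ^ orderOf g = 1 := by
      rw [← map_pow]
      have e : (⟨g, hgK⟩ : ↥(Cfsg.pResidual p G)) ^ orderOf g = 1 :=
        Subtype.ext (pow_orderOf_eq_one g)
      rw [e, map_one]
    have h2 : μ ⟨g, hgK⟩ ^ p = 1 := by
      have h3 := congrArg (fun f : ↥(Cfsg.pResidual p G) →* ℂˣ => f ⟨g, hgK⟩) h
      simpa using h3
    have h4 := pow_gcd_eq_one.mpr ⟨h1, h2⟩
    have h5 : Nat.gcd (orderOf g) p = 1 := hg
    rw [h5, pow_one] at h4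
    exact h4
  ext x
  obtain ⟨y, hy, hyx⟩ := Subgroup.mem_map.mp (hle x.2)
  have hyx' : y = x := Subtype.ext hyx
  rw [← hyx', MonoidHom.mem_ker.mp hy]
  rfl

theorem ord_coprime_aux {M : Type*} [Monoid M] (p : ℕ) (hp : p.Prime) (D : M)
    (h0 : orderOf D ≠ 0) (htriv : ∀ x : M, x ^ p = 1 → x = 1) : Nat.Coprime (orderOf D) p := by
  apply Nat.Coprime.symm
  rw [Nat.Prime.coprime_iff_not_dvd hp]
  rintro ⟨m, hm⟩
  have h1 : (D ^ m) ^ p = 1 := by
    rw [← pow_mul, mul_comm, ← hm]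
    exact pow_orderOf_eq_one D
  have h2 := htriv (D ^ m) h1
  have h3 := orderOf_dvd_of_pow_eq_one h2
  rw [hm] at h3
  have hm0 : m ≠ 0 := by
    rintro rfl
    rw [mul_zero] at hm
    exact h0 hm
  have h4 := Nat.le_of_dvd (Nat.pos_of_ne_zero hm0) h3
  have h5 := hp.two_le
  have h6 : 1 ≤ m := Nat.pos_of_ne_zero hm0
  nlinarith

theorem detOrder_coprime {G : Type u} [Group G] [Finite G] (p : ℕ) [hp : Fact p.Prime]
    (θ : ↥(Cfsg.pResidual p G) → ℂ) (hθ : Cfsg.IsCharacter _ θ) :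
    Nat.Coprime (Cfsg.detOrder θ) p := by
  obtain ⟨D, hD⟩ := detChar_hom hθ
  unfold Cfsg.detOrder
  rw [hD, orderOf_funOf]
  have h0 : orderOf D ≠ 0 := by
    have h1 : D ^ Nat.card ↥(Cfsg.pResidual p G) = 1 := by
      ext x
      rw [MonoidHom.pow_apply, ← map_pow, pow_card_eq_one', map_one]
      rfl
    have h2 : orderOf D ∣ Nat.card ↥(Cfsg.pResidual p G) :=
      orderOf_dvd_of_pow_eq_one (x := D) h1
    intro h3
    rw [h3] at h2
    exact Nat.card_pos.ne' (Nat.eq_zero_of_zero_dvd h2)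
  exact ord_coprime_aux p hp.out D h0 (fun μ h => hom_triv p μ h)

theorem inv_of_sylow {G : Type u} [Group G] [Finite G] (p : ℕ) [Fact p.Prime] (K : Subgroup G)
    (hK : K.Normal) (S : Subgroup G) (hSK : S ⊔ K = ⊤) (θ : K → ℂ)
    (hθ : Cfsg.IsIrrCharacter K θ) (hS : ∀ s ∈ S, cj K hK θ s = θ) :
    ∀ g : G, cj K hK θ g = θ := by
  intro g
  have _i : K.Normal := hK
  have hg : g ∈ ((S ⊔ K : Subgroup G) : Set G) := by
    rw [hSK]
    exact Set.mem_univ g
  rw [Subgroup.mul_normal] at hg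
  obtain ⟨s, hs, k, hk, rfl⟩ := Set.mem_mul.mp hg
  rw [← cj_mul, hS s hs]
  funext n
  rw [cj_apply]
  exact char_classFun (isCharacter_of_irr hθ) n ⟨k, hk⟩

@[reducible] noncomputable def degAct {G : Type u} [Group G] (K : Subgroup G) (hK : K.Normal) (c : ℂ) :
    MulAction G {θ : Cfsg.IrrCharacter K // (θ : K → ℂ) 1 = c} where
  smul g θ := ⟨⟨cj K hK θ.1.1 g⁻¹, cj_isIrr K hK θ.1.2 g⁻¹⟩,
    (show cj K hK θ.1.1 g⁻¹ 1 = θ.1.1 1 from
      congrArg θ.1.1 (Subtype.ext (by simp))).trans θ.2⟩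
  one_smul θ := Subtype.ext (Subtype.ext (by
    show cj K hK θ.1.1 1⁻¹ = θ.1.1
    rw [inv_one, cj_one]))
  mul_smul g h θ := Subtype.ext (Subtype.ext (by
    show cj K hK θ.1.1 (g * h)⁻¹ = cj K hK (cj K hK θ.1.1 h⁻¹) g⁻¹
    rw [cj_mul, mul_inv_rev]))

theorem p_dvd_count {G : Type u} [Group G] [Finite G] (p : ℕ) [hp : Fact p.Prime]
    (K : Subgroup G) (hK : K.Normal) (S : Sylow p G) (c : ℂ)
    (hnofix : ∀ θ : Cfsg.IrrCharacter K, (θ : K → ℂ) 1 = c →
      ¬ ∀ s ∈ (S : Subgroup G), cj K hK (θ : K → ℂ) s = (θ : K → ℂ)) :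
    p ∣ Nat.card {θ : Cfsg.IrrCharacter K // (θ : K → ℂ) 1 = c} := by
  let _act : MulAction G {θ : Cfsg.IrrCharacter K // (θ : K → ℂ) 1 = c} := degAct K hK c
  have h := (S.2).card_modEq_card_fixedPoints {θ : Cfsg.IrrCharacter K // (θ : K → ℂ) 1 = c}
  have hempty : IsEmpty (MulAction.fixedPoints ↥(S : Subgroup G)
      {θ : Cfsg.IrrCharacter K // (θ : K → ℂ) 1 = c}) := by
    constructor
    rintro ⟨θ, hθ⟩
    apply hnofix θ.1 θ.2
    intro s hs
    have h1 := hθ ⟨s⁻¹, inv_mem hs⟩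
    have h2 : cj K hK (θ.1 : K → ℂ) (s⁻¹)⁻¹ = (θ.1 : K → ℂ) :=
      congrArg (fun x : {θ : Cfsg.IrrCharacter K // (θ : K → ℂ) 1 = c} => (x.1.1 : K → ℂ)) h1
    rw [inv_inv] at h2
    exact h2
  have h0 : Nat.card (MulAction.fixedPoints ↥(S : Subgroup G)
      {θ : Cfsg.IrrCharacter K // (θ : K → ℂ) 1 = c}) = 0 := Nat.card_of_isEmpty
  rw [h0] at h
  exact (Nat.modEq_zero_iff_dvd).mp h
theorem result {G : Type*} [Group G] [Finite G] (p : ℕ) (hp : p.Prime) (hdeg : ∀ χ : Cfsg.IrrCharacter G, Cfsg.charDegree (χ : G → ℂ) ≠ 1 → p ∣ Cfsg.charDegree (χ : G → ℂ)) : ∃ N : Subgroup G, N.Normal ∧ (Nat.card N).Coprime p ∧ ∃ k : ℕ, N.index = p ^ k := by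
  classical
  have _fp : Fact p.Prime := ⟨hp⟩
  have _fg : Fintype G := Fintype.ofFinite G
  have hK : (Cfsg.pResidual p G).Normal := pResidual_normal p
  have hidx : ∃ j : ℕ, (Cfsg.pResidual p G).index = p ^ j := by
    have h1 : IsPGroup p (G ⧸ Cfsg.pResidual p G) := by
      intro q
      obtain ⟨x, rfl⟩ := QuotientGroup.mk_surjective q
      obtain ⟨a, ha⟩ := pow_mem_pResidual (p := p) x
      refine ⟨a, ?_⟩
      rw [← QuotientGroup.mk_pow, QuotientGroup.eq_one_iff]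
      exact ha
    obtain ⟨j, hj⟩ := IsPGroup.iff_card.mp h1
    exact ⟨j, by rw [Subgroup.index_eq_card, hj]⟩
  obtain ⟨j, hj⟩ := hidx
  refine ⟨Cfsg.pResidual p G, hK, ?_, j, hj⟩
  rw [Nat.coprime_comm, Nat.Prime.coprime_iff_not_dvd hp]
  intro hdvd
  have _fK : Fintype ↥(Cfsg.pResidual p G) := Fintype.ofFinite _
  have _fi : Fintype (Cfsg.IrrCharacter ↥(Cfsg.pResidual p G)) := Fintype.ofFinite _
  obtain ⟨S⟩ : Nonempty (Sylow p G) := inferInstance
  have hSK : (S : Subgroup G) ⊔ Cfsg.pResidual p G = ⊤ :=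
    sup_pResidual_eq_top (S : Subgroup G) S.not_dvd_index
  have hdeg' : ∀ ψ : Cfsg.IrrCharacter ↥(Cfsg.pResidual p G),
      ∃ n : ℕ, 0 < n ∧ (ψ : ↥(Cfsg.pResidual p G) → ℂ) 1 = (n : ℂ) := fun ψ => irr_one_pos ψ.2
  choose dg hdpos hdeq using hdeg'
  have hsum := sum_degree_sq dg hdeq
  have hkey : ∀ d : ℕ, d ≠ 1 → p ∣ (Finset.univ.filter
      (fun ψ : Cfsg.IrrCharacter ↥(Cfsg.pResidual p G) => dg ψ = d)).card * d ^ 2 := by
    intro d hd1
    by_cases hpd : p ∣ d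
    · exact Dvd.dvd.mul_left (dvd_pow hpd (by norm_num)) _
    · apply Dvd.dvd.mul_right
      have hcnt : (Finset.univ.filter
          (fun ψ : Cfsg.IrrCharacter ↥(Cfsg.pResidual p G) => dg ψ = d)).card =
          Nat.card {θ : Cfsg.IrrCharacter ↥(Cfsg.pResidual p G) //
            (θ : ↥(Cfsg.pResidual p G) → ℂ) 1 = (d : ℂ)} := by
        rw [Nat.card_eq_fintype_card, Fintype.card_subtype]
        congr 1
        apply Finset.filter_congr
        intro ψ _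
        rw [hdeq ψ]
        exact_mod_cast Iff.rfl
      rw [hcnt]
      apply p_dvd_count p _ hK S (d : ℂ)
      intro θ hθd hinvS
      have hinvG := inv_of_sylow p _ hK (S : Subgroup G) hSK
        (θ : ↥(Cfsg.pResidual p G) → ℂ) θ.2 hinvS
      have hcop : Nat.Coprime (Cfsg.pResidual p G).index
          (Cfsg.detOrder (θ : ↥(Cfsg.pResidual p G) → ℂ) * d) := by
        rw [hj]
        apply Nat.Coprime.pow_left
        apply Nat.Coprime.mul_right
        · exact (detOrder_coprime p (θ : ↥(Cfsg.pResidual p G) → ℂ)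
            (isCharacter_of_irr θ.2)).symm
        · exact (Nat.Prime.coprime_iff_not_dvd hp).mpr hpd
      obtain ⟨χ, ⟨hχ, hres, _⟩, _⟩ := Cfsg.Agent.S0867.result (Cfsg.pResidual p G)
        (θ : ↥(Cfsg.pResidual p G) → ℂ) θ.2 (fun g n => congrFun (hinvG g) n) d hθd hcop
      have hχ1 : χ 1 = (d : ℂ) := by
        have h1 := hres 1
        rw [← hθd]
        exact h1
      have hcd : Cfsg.charDegree χ = d := by
        unfold Cfsg.charDegree
        rw [hχ1]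
        simp
      have h3 := hdeg ⟨χ, hχ⟩ (by rw [hcd]; exact hd1)
      rw [hcd] at h3
      exact hpd h3
  have hfib := Finset.sum_fiberwise_of_maps_to
    (s := (Finset.univ : Finset (Cfsg.IrrCharacter ↥(Cfsg.pResidual p G))))
    (t := insert 1 (Finset.univ.image dg)) (g := dg)
    (fun ψ _ => Finset.mem_insert_of_mem (Finset.mem_image_of_mem dg (Finset.mem_univ ψ)))
    (fun ψ => dg ψ ^ 2)
  rw [← hfib] at hsum
  have hinner : ∀ d ∈ insert 1 (Finset.univ.image dg),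
      (∑ ψ ∈ Finset.univ.filter (fun ψ => dg ψ = d), dg ψ ^ 2) =
      (Finset.univ.filter
        (fun ψ : Cfsg.IrrCharacter ↥(Cfsg.pResidual p G) => dg ψ = d)).card * d ^ 2 := by
    intro d _
    rw [Finset.sum_congr rfl (fun ψ hψ => by rw [(Finset.mem_filter.mp hψ).2]),
      Finset.sum_const, smul_eq_mul]
  rw [Finset.sum_congr rfl hinner,
    ← Finset.add_sum_erase _ _ (Finset.mem_insert_self 1 _)] at hsum
  have hrest : p ∣ ∑ d ∈ (insert 1 (Finset.univ.image dg)).erase 1, (Finset.univ.filter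
      (fun ψ : Cfsg.IrrCharacter ↥(Cfsg.pResidual p G) => dg ψ = d)).card * d ^ 2 :=
    Finset.dvd_sum (fun d hd => hkey d (Finset.ne_of_mem_erase hd))
  have hm1 : p ∣ (Finset.univ.filter
      (fun ψ : Cfsg.IrrCharacter ↥(Cfsg.pResidual p G) => dg ψ = 1)).card := by
    have h5 : p ∣ (Finset.univ.filter
        (fun ψ : Cfsg.IrrCharacter ↥(Cfsg.pResidual p G) => dg ψ = 1)).card * 1 ^ 2 := by
      rw [hsum] at hdvd
      exact (Nat.dvd_add_left hrest).mp hdvd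
    simpa using h5
  have hm1' : p ∣ Nat.card (↥(Cfsg.pResidual p G) →* ℂˣ) := by
    rw [← card_linear, Nat.card_eq_fintype_card, Fintype.card_subtype]
    have e : (Finset.univ.filter (fun χ : Cfsg.IrrCharacter ↥(Cfsg.pResidual p G) =>
        (χ : ↥(Cfsg.pResidual p G) → ℂ) 1 = 1)) = Finset.univ.filter (fun ψ => dg ψ = 1) := by
      apply Finset.filter_congr
      intro ψ _
      rw [hdeq ψ]
      exact_mod_cast Iff.rfl
    rw [e]
    exact hm1
  have hfin : Finite (↥(Cfsg.pResidual p G) →* ℂˣ) := by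
    apply Nat.finite_of_card_ne_zero
    rw [card_hom_units]
    exact Subgroup.index_ne_zero_of_finite
  obtain ⟨μ, hμ⟩ := exists_prime_orderOf_dvd_card' p hm1'
  have h6 : μ ^ p = 1 := by
    have h8 := pow_orderOf_eq_one μ
    rw [hμ] at h8
    exact h8
  have h7 := hom_triv p μ h6
  rw [h7, orderOf_one] at hμ
  exact hp.one_lt.ne' hμ.symm

end Cfsg.Agent.S4456
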