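import Mathlib
import Cfsg.Statements.S4455
import Cfsg.Agent.Lib.Helper3.Char
import Cfsg.Agent.Lib.Helper3.CharCore
import Cfsg.Agent.Lib.Helper3.CharArith
import Cfsg.Agent.Lib.Helper3.CharInd
import Cfsg.Agent.Lib.Helper3.CharInt
import Cfsg.Agent.Lib.Helper3.CharKer
import Cfsg.Agent.Lib.Helper3.CharLinear
import Cfsg.Agent.Lib.Helper3.CharLin
import Cfsg.Agent.Lib.Helper3.CharDet
import Cfsg.Agent.Lib.Helper3.CharProj
import Cfsg.Agent.Lib.Helper3.CharCliff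
import Cfsg.Agent.Lib.Helper3.CharNormal
import Cfsg.Agent.Lib.Helper3.CharDeg
import Cfsg.Agent.Lib.Helper3.Residual
import Cfsg.Agent.S0867
import Cfsg.Agent.S4456

set_option autoImplicit false
open Cfsg
open Cfsg.Agent.Lib.Helper3.Char Cfsg.Agent.Lib.Helper3.CharCore Cfsg.Agent.Lib.Helper3.CharArith Cfsg.Agent.Lib.Helper3.CharInd Cfsg.Agent.Lib.Helper3.CharInt Cfsg.Agent.Lib.Helper3.CharKer Cfsg.Agent.Lib.Helper3.CharLinear Cfsg.Agent.Lib.Helper3.CharLin Cfsg.Agent.Lib.Helper3.CharDet Cfsg.Agent.Lib.Helper3.CharProj Cfsg.Agent.Lib.Helper3.CharCliff Cfsg.Agent.Lib.Helper3.CharNormal Cfsg.Agent.Lib.Helper3.CharDeg Cfsg.Agent.Lib.Helper3.Residual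
open scoped ComplexConjugate
open Cfsg.Agent.S4456

namespace Cfsg.Agent.S4455

universe u

theorem count_modEq {G : Type u} [Group G] [Finite G] (p : ℕ) [hp : Fact p.Prime]
    (K : Subgroup G) (hK : K.Normal) (S : Sylow p G) (hSK : (S : Subgroup G) ⊔ K = ⊤) (c : ℂ) :
    Nat.card {θ : Cfsg.IrrCharacter K // (θ : K → ℂ) 1 = c} ≡
      Nat.card {θ : Cfsg.IrrCharacter K // (θ : K → ℂ) 1 = c ∧
        ∀ g : G, cj K hK (θ : K → ℂ) g = (θ : K → ℂ)} [MOD p] := by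
  let _act : MulAction G {θ : Cfsg.IrrCharacter K // (θ : K → ℂ) 1 = c} := degAct K hK c
  have h := (S.2).card_modEq_card_fixedPoints {θ : Cfsg.IrrCharacter K // (θ : K → ℂ) 1 = c}
  have hiff : ∀ x : {θ : Cfsg.IrrCharacter K // (θ : K → ℂ) 1 = c},
      x ∈ MulAction.fixedPoints ↥(S : Subgroup G)
        {θ : Cfsg.IrrCharacter K // (θ : K → ℂ) 1 = c} ↔
        ∀ g : G, cj K hK (x.1 : K → ℂ) g = (x.1 : K → ℂ) := by
    intro x
    constructor
    · intro hx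
      apply inv_of_sylow p K hK (S : Subgroup G) hSK (x.1 : K → ℂ) x.1.2
      intro s hs
      have h1 := hx ⟨s⁻¹, inv_mem hs⟩
      have h2 : cj K hK (x.1 : K → ℂ) (s⁻¹)⁻¹ = (x.1 : K → ℂ) :=
        congrArg (fun y : {θ : Cfsg.IrrCharacter K // (θ : K → ℂ) 1 = c} =>
          (y.1.1 : K → ℂ)) h1
      rw [inv_inv] at h2
      exact h2
    · intro hx s
      apply Subtype.ext
      apply Subtype.ext
      exact hx _
  have e : ↥(MulAction.fixedPoints ↥(S : Subgroup G)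
      {θ : Cfsg.IrrCharacter K // (θ : K → ℂ) 1 = c}) ≃
      {θ : Cfsg.IrrCharacter K // (θ : K → ℂ) 1 = c ∧
        ∀ g : G, cj K hK (θ : K → ℂ) g = (θ : K → ℂ)} :=
    (Equiv.subtypeEquivRight hiff).trans (Equiv.subtypeSubtypeEquivSubtypeInter
      (fun θ : Cfsg.IrrCharacter K => (θ : K → ℂ) 1 = c)
      (fun θ : Cfsg.IrrCharacter K => ∀ g : G, cj K hK (θ : K → ℂ) g = (θ : K → ℂ)))
  rw [Nat.card_congr e] at h
  exact h

theorem main_aux {G : Type u} [Group G] [Finite G] (p : ℕ) [hp : Fact p.Prime]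
    (K : Subgroup G) (hK : K.Normal) (j : ℕ) (hj : K.index = p ^ j)
    (hdet : ∀ θ : K → ℂ, Cfsg.IsCharacter K θ → Nat.Coprime (Cfsg.detOrder θ) p)
    (S : Sylow p G) (hSK : (S : Subgroup G) ⊔ K = ⊤) :
    (Nat.card K : ℤ) ≡ (∑ᶠ χ ∈ {χ : Cfsg.IrrCharacter G |
      ¬ p ∣ Cfsg.charDegree (χ : G → ℂ) ∧ ¬ p ∣ Cfsg.detOrder (χ : G → ℂ)},
        (Cfsg.charDegree (χ : G → ℂ) : ℤ) ^ 2) [ZMOD p] := by
  classical
  have hpp : p.Prime := hp.out
  have _fg : Fintype G := Fintype.ofFinite G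
  have _fK : Fintype K := Fintype.ofFinite _
  have _fi : Fintype (Cfsg.IrrCharacter K) := Fintype.ofFinite _
  have hdeg' : ∀ ψ : Cfsg.IrrCharacter K, ∃ n : ℕ, 0 < n ∧ (ψ : K → ℂ) 1 = (n : ℂ) :=
    fun ψ => irr_one_pos ψ.2
  choose dg hdpos hdeq using hdeg'
  have hsum := sum_degree_sq dg hdeq
  have hcntd : ∀ d : ℕ, (Finset.univ.filter (fun ψ : Cfsg.IrrCharacter K => dg ψ = d)).card =
      Nat.card {θ : Cfsg.IrrCharacter K // (θ : K → ℂ) 1 = (d : ℂ)} := by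
    intro d
    rw [Nat.card_eq_fintype_card, Fintype.card_subtype]
    congr 1
    apply Finset.filter_congr
    intro ψ _
    rw [hdeq ψ]
    exact_mod_cast Iff.rfl
  have hcntI : ∀ d : ℕ, ((Finset.univ.filter (fun ψ : Cfsg.IrrCharacter K => dg ψ = d)).filter
      (fun ψ : Cfsg.IrrCharacter K => ∀ g : G, cj K hK (ψ : K → ℂ) g = (ψ : K → ℂ))).card =
      Nat.card {θ : Cfsg.IrrCharacter K // (θ : K → ℂ) 1 = (d : ℂ) ∧
        ∀ g : G, cj K hK (θ : K → ℂ) g = (θ : K → ℂ)} := by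
    intro d
    rw [Nat.card_eq_fintype_card, Fintype.card_subtype, Finset.filter_filter]
    congr 1
    apply Finset.filter_congr
    intro ψ _
    rw [hdeq ψ]
    constructor
    · rintro ⟨h1, h2⟩
      exact ⟨by exact_mod_cast h1, h2⟩
    · rintro ⟨h1, h2⟩
      exact ⟨by exact_mod_cast h1, h2⟩
  have hnon : ∀ d : ℕ, p ∣ ((Finset.univ.filter (fun ψ : Cfsg.IrrCharacter K => dg ψ = d)).filter
      (fun ψ : Cfsg.IrrCharacter K =>
        ¬ ∀ g : G, cj K hK (ψ : K → ℂ) g = (ψ : K → ℂ))).card := by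
    intro d
    have h1 := count_modEq p K hK S hSK (d : ℂ)
    rw [← hcntd, ← hcntI] at h1
    have h2 := Finset.card_filter_add_card_filter_not
      (s := Finset.univ.filter (fun ψ : Cfsg.IrrCharacter K => dg ψ = d))
      (fun ψ : Cfsg.IrrCharacter K => ∀ g : G, cj K hK (ψ : K → ℂ) g = (ψ : K → ℂ))
    rw [← h2] at h1
    have h3 := Nat.ModEq.add_left_cancel' _ (show _ ≡ _ + 0 [MOD p] from h1)
    exact (Nat.modEq_zero_iff_dvd).mp h3
  have hR1 : p ∣ ∑ ψ ∈ Finset.univ.filter (fun ψ : Cfsg.IrrCharacter K =>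
      ¬ ∀ g : G, cj K hK (ψ : K → ℂ) g = (ψ : K → ℂ)), dg ψ ^ 2 := by
    rw [← Finset.sum_fiberwise_of_maps_to (t := Finset.univ.image dg) (g := dg)
      (fun ψ _ => Finset.mem_image_of_mem dg (Finset.mem_univ ψ))]
    apply Finset.dvd_sum
    intro d _
    rw [Finset.sum_congr rfl (fun ψ hψ => by rw [(Finset.mem_filter.mp hψ).2]),
      Finset.sum_const, smul_eq_mul]
    apply Dvd.dvd.mul_right
    have e : ((Finset.univ.filter (fun ψ : Cfsg.IrrCharacter K =>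
        ¬ ∀ g : G, cj K hK (ψ : K → ℂ) g = (ψ : K → ℂ))).filter (fun ψ => dg ψ = d)) =
        ((Finset.univ.filter (fun ψ : Cfsg.IrrCharacter K => dg ψ = d)).filter
          (fun ψ : Cfsg.IrrCharacter K =>
            ¬ ∀ g : G, cj K hK (ψ : K → ℂ) g = (ψ : K → ℂ))) := by
      rw [Finset.filter_filter, Finset.filter_filter]
      apply Finset.filter_congr
      intro ψ _
      exact and_comm
    rw [e]
    exact hnon d
  have hterm : ∀ ψ ∈ (Finset.univ : Finset (Cfsg.IrrCharacter K)),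
      (if ¬ ((∀ g : G, cj K hK (ψ : K → ℂ) g = (ψ : K → ℂ)) ∧ ¬ p ∣ dg ψ) then dg ψ ^ 2 else 0) =
      (if ¬ (∀ g : G, cj K hK (ψ : K → ℂ) g = (ψ : K → ℂ)) then dg ψ ^ 2 else 0) +
      (if (∀ g : G, cj K hK (ψ : K → ℂ) g = (ψ : K → ℂ)) ∧ p ∣ dg ψ then dg ψ ^ 2 else 0) := by
    intro ψ _
    by_cases h1 : ∀ g : G, cj K hK (ψ : K → ℂ) g = (ψ : K → ℂ) <;>
      by_cases h2 : p ∣ dg ψ <;> simp [h1, h2]
  have hX : ∃ R : ℕ, Nat.card K = (∑ θ ∈ Finset.univ.filter (fun θ : Cfsg.IrrCharacter K =>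
      (∀ g : G, cj K hK (θ : K → ℂ) g = (θ : K → ℂ)) ∧ ¬ p ∣ dg θ), dg θ ^ 2) + R ∧ p ∣ R := by
    refine ⟨∑ θ ∈ Finset.univ.filter (fun θ : Cfsg.IrrCharacter K =>
      ¬ ((∀ g : G, cj K hK (θ : K → ℂ) g = (θ : K → ℂ)) ∧ ¬ p ∣ dg θ)), dg θ ^ 2, ?_, ?_⟩
    · rw [hsum]
      exact (Finset.sum_filter_add_sum_filter_not _ _ _).symm
    · rw [Finset.sum_filter, Finset.sum_congr rfl hterm, Finset.sum_add_distrib]
      apply dvd_add
      · rw [← Finset.sum_filter]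
        exact hR1
      · apply Finset.dvd_sum
        intro ψ _
        split_ifs with h
        · exact dvd_pow h.2 (by norm_num)
        · exact dvd_zero _
  have hχ0 : Nonempty (Cfsg.IrrCharacter G) :=
    ⟨⟨fun g => ((1 : G →* ℂˣ) g : ℂ), isIrr_of_hom 1⟩⟩
  have hext : ∀ θ : Cfsg.IrrCharacter K, ∃ χ : Cfsg.IrrCharacter G,
      ((∀ g : G, cj K hK (θ : K → ℂ) g = (θ : K → ℂ)) ∧ ¬ p ∣ dg θ) →
        ((∀ n : K, (χ : G → ℂ) n = (θ : K → ℂ) n) ∧
          Cfsg.detOrder (χ : G → ℂ) = Cfsg.detOrder (θ : K → ℂ) ∧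
          ∀ χ' : G → ℂ, Cfsg.IsIrrCharacter G χ' → (∀ n : K, χ' n = (θ : K → ℂ) n) →
            Nat.Coprime K.index (Cfsg.detOrder χ') → χ' = (χ : G → ℂ)) := by
    intro θ
    by_cases hθ : (∀ g : G, cj K hK (θ : K → ℂ) g = (θ : K → ℂ)) ∧ ¬ p ∣ dg θ
    · have hcop : Nat.Coprime K.index (Cfsg.detOrder (θ : K → ℂ) * dg θ) := by
        rw [hj]
        apply Nat.Coprime.pow_left
        apply Nat.Coprime.mul_right
        · exact (hdet (θ : K → ℂ) (isCharacter_of_irr θ.2)).symm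
        · exact (Nat.Prime.coprime_iff_not_dvd hpp).mpr hθ.2
      obtain ⟨χ, ⟨hχ, hres, hdo⟩, huniq⟩ := Cfsg.Agent.S0867.result K (θ : K → ℂ) θ.2
        (fun g n => congrFun (hθ.1 g) n) (dg θ) (hdeq θ) hcop
      exact ⟨⟨χ, hχ⟩, fun _ => ⟨hres, hdo, huniq⟩⟩
    · obtain ⟨χ⟩ := hχ0
      exact ⟨χ, fun h => absurd h hθ⟩
  choose F hF using hext
  have hFdeg : ∀ θ : Cfsg.IrrCharacter K,
      ((∀ g : G, cj K hK (θ : K → ℂ) g = (θ : K → ℂ)) ∧ ¬ p ∣ dg θ) →
        Cfsg.charDegree (F θ : G → ℂ) = dg θ := by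
    intro θ hθ
    have h1 := (hF θ hθ).1 1
    have h2 : (F θ : G → ℂ) 1 = (dg θ : ℂ) := by
      rw [← hdeq θ]
      exact h1
    unfold Cfsg.charDegree
    rw [h2]
    simp
  have hA : {χ : Cfsg.IrrCharacter G | ¬ p ∣ Cfsg.charDegree (χ : G → ℂ) ∧
      ¬ p ∣ Cfsg.detOrder (χ : G → ℂ)} =
      F '' (↑(Finset.univ.filter (fun θ : Cfsg.IrrCharacter K =>
        (∀ g : G, cj K hK (θ : K → ℂ) g = (θ : K → ℂ)) ∧ ¬ p ∣ dg θ)) :
          Set (Cfsg.IrrCharacter K)) := by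
    ext χ
    constructor
    · rintro ⟨hχd, hχo⟩
      obtain ⟨b, hbpos, hb⟩ := irr_one_pos χ.2
      have hcdb : Cfsg.charDegree (χ : G → ℂ) = b := by
        unfold Cfsg.charDegree
        rw [hb]
        simp
      rw [hcdb] at hχd
      have hχc := isCharacter_of_irr χ.2
      have hΨ : Cfsg.IsCharacter K (fun n : K => (χ : G → ℂ) n) :=
        comp_isCharacter K.subtype hχc
      have hΨ1 : (fun n : K => (χ : G → ℂ) n) 1 ≠ 0 := irr_one_ne_zero χ.2
      obtain ⟨θf, hθirr, hθne⟩ := exists_constituent hΨ hΨ1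
      have hcon : Cfsg.classInner (fun n : K => (χ : G → ℂ) n) θf ≠ 0 := by
        rw [classInner_conj_symm]
        intro h
        apply hθne
        have h6 := congrArg (starRingEnd ℂ) h
        simpa using h6
      obtain ⟨T, hT⟩ : ∃ T : Subgroup G, ∀ g : G, g ∈ T ↔ cj K hK θf g = θf := by
        refine ⟨{ carrier := {g | cj K hK θf g = θf}
                  mul_mem' := ?_
                  one_mem' := cj_one K hK θf
                  inv_mem' := ?_ }, fun g => Iff.rfl⟩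
        · intro a b ha hb
          have ha' : cj K hK θf a = θf := ha
          have hb' : cj K hK θf b = θf := hb
          show cj K hK θf (a * b) = θf
          rw [← cj_mul, ha', hb']
        · intro a ha
          have ha' : cj K hK θf a = θf := ha
          show cj K hK θf a⁻¹ = θf
          have h1 : cj K hK (cj K hK θf a) a⁻¹ = cj K hK θf a⁻¹ := by rw [ha']
          rw [← h1, cj_mul, mul_inv_cancel, cj_one]
      have hT' : ∀ g : G, g ∈ T ↔ ∀ n : K, θf ⟨g * n * g⁻¹, hK.conj_mem n n.2 g⟩ = θf n := by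
        intro g
        rw [hT g]
        constructor
        · intro h n
          exact congrFun h n
        · intro h
          funext n
          exact h n
      have hKT : K ≤ T := by
        intro k hk
        rw [hT k]
        funext n
        rw [cj_apply]
        exact char_classFun (isCharacter_of_irr hθirr) n ⟨k, hk⟩
      have hdo := degree_over K hK θf hθirr T hT' (χ : G → ℂ) χ.2 hcon
      obtain ⟨m, hm⟩ := inner_char_nat hΨ (isCharacter_of_irr hθirr)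
      have hm' : Cfsg.classInner (fun n : K => (χ : G → ℂ) n) θf = (m : ℂ) := hm
      have ha : θf 1 = (dg ⟨θf, hθirr⟩ : ℂ) := hdeq ⟨θf, hθirr⟩
      rw [hm', ha, hb] at hdo
      have hbnat : b = m * (T.index * dg ⟨θf, hθirr⟩) := by exact_mod_cast hdo
      have hTidx : T.index = 1 := by
        have h1 : T.index ∣ p ^ j := by
          rw [← hj]
          exact Subgroup.index_dvd_of_le hKT
        obtain ⟨i, _, hi⟩ := (Nat.dvd_prime_pow hpp).mp h1
        rcases Nat.eq_zero_or_pos i with h0 | hpos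
        · rw [hi, h0, pow_zero]
        · exfalso
          apply hχd
          rw [hbnat, hi]
          exact Dvd.dvd.mul_left (Dvd.dvd.mul_right (dvd_pow_self p hpos.ne') _) _
      have hTtop : T = ⊤ := Subgroup.index_eq_one.mp hTidx
      have hinvθ : ∀ g : G, cj K hK θf g = θf := by
        intro g
        rw [← hT g, hTtop]
        exact Subgroup.mem_top g
      have hpa : ¬ p ∣ dg ⟨θf, hθirr⟩ := by
        intro h
        apply hχd
        rw [hbnat]
        exact Dvd.dvd.mul_left (Dvd.dvd.mul_left h _) _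
      have hθB : (∀ g : G, cj K hK ((⟨θf, hθirr⟩ : Cfsg.IrrCharacter K) : K → ℂ) g =
          ((⟨θf, hθirr⟩ : Cfsg.IrrCharacter K) : K → ℂ)) ∧ ¬ p ∣ dg ⟨θf, hθirr⟩ :=
        ⟨hinvθ, hpa⟩
      obtain ⟨hres, hdo2, huniq⟩ := hF ⟨θf, hθirr⟩ hθB
      have hresfun : (fun n : K => (F ⟨θf, hθirr⟩ : G → ℂ) n) = θf := funext hres
      have hχ₀N : Cfsg.IsIrrCharacter K (fun n : K => (F ⟨θf, hθirr⟩ : G → ℂ) n) := by
        rw [hresfun]
        exact hθirr
      have hne2 : Cfsg.classInner (fun n : K => (χ : G → ℂ) n)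
          (fun n : K => (F ⟨θf, hθirr⟩ : G → ℂ) n) ≠ 0 := by
        rw [hresfun]
        exact hcon
      obtain ⟨β, hβ, hχβ⟩ := gallagher_exists K (F ⟨θf, hθirr⟩ : G → ℂ) (F ⟨θf, hθirr⟩).2 hχ₀N
        (χ : G → ℂ) χ.2 hne2
      obtain ⟨c, hcpos, hc, hcdvd⟩ := irr_degree_dvd_card hβ
      have hF1 : (F ⟨θf, hθirr⟩ : G → ℂ) 1 = (dg ⟨θf, hθirr⟩ : ℂ) := by
        rw [← ha]
        exact hres 1
      have hχ1 : (χ : G → ℂ) 1 = β 1 * (F ⟨θf, hθirr⟩ : G → ℂ) 1 := by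
        have h1 := congrFun hχβ 1
        rw [h1]
        simp
      rw [hb, hc, hF1] at hχ1
      have hbc : b = c * dg ⟨θf, hθirr⟩ := by exact_mod_cast hχ1
      have hc1 : c = 1 := by
        have h1 : c ∣ p ^ j := by
          rw [← hj, Subgroup.index_eq_card]
          exact hcdvd
        obtain ⟨i, _, hi⟩ := (Nat.dvd_prime_pow hpp).mp h1
        rcases Nat.eq_zero_or_pos i with h0 | hpos
        · rw [hi, h0, pow_zero]
        · exfalso
          apply hχd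
          rw [hbc, hi]
          exact Dvd.dvd.mul_right (dvd_pow_self p hpos.ne') _
      have hβ1 : β 1 = 1 := by
        rw [hc, hc1]
        simp
      have hresχ : ∀ n : K, (χ : G → ℂ) n = θf n := by
        intro n
        have h1 := congrFun hχβ (n : G)
        rw [h1, Pi.mul_apply, Function.comp_apply]
        have h2 : (QuotientGroup.mk' K) (n : G) = 1 := (QuotientGroup.eq_one_iff _).mpr n.2
        rw [h2, hβ1, one_mul]
        exact hres n
      have hcopχ : Nat.Coprime K.index (Cfsg.detOrder (χ : G → ℂ)) := by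
        rw [hj]
        apply Nat.Coprime.pow_left
        exact (Nat.Prime.coprime_iff_not_dvd hpp).mpr hχo
      have hχF := huniq (χ : G → ℂ) χ.2 hresχ hcopχ
      refine ⟨⟨θf, hθirr⟩, ?_, ?_⟩
      · exact Finset.mem_coe.mpr (Finset.mem_filter.mpr ⟨Finset.mem_univ _, hθB⟩)
      · exact (Subtype.ext hχF).symm
    · rintro ⟨θ, hθ, rfl⟩
      have hθ' := (Finset.mem_filter.mp (Finset.mem_coe.mp hθ)).2
      refine ⟨?_, ?_⟩
      · rw [hFdeg θ hθ']
        exact hθ'.2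
      · rw [(hF θ hθ').2.1]
        exact (Nat.Prime.coprime_iff_not_dvd hpp).mp
          (hdet (θ : K → ℂ) (isCharacter_of_irr θ.2)).symm
  have hinj : Set.InjOn F (↑(Finset.univ.filter (fun θ : Cfsg.IrrCharacter K =>
      (∀ g : G, cj K hK (θ : K → ℂ) g = (θ : K → ℂ)) ∧ ¬ p ∣ dg θ)) :
        Set (Cfsg.IrrCharacter K)) := by
    intro θ₁ h1 θ₂ h2 heq
    have h1' := (Finset.mem_filter.mp (Finset.mem_coe.mp h1)).2
    have h2' := (Finset.mem_filter.mp (Finset.mem_coe.mp h2)).2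
    apply Subtype.ext
    funext n
    rw [← (hF θ₁ h1').1 n, ← (hF θ₂ h2').1 n, heq]
  rw [hA, finsum_mem_image hinj, finsum_mem_coe_finset]
  have hconv : ∑ θ ∈ Finset.univ.filter (fun θ : Cfsg.IrrCharacter K =>
      (∀ g : G, cj K hK (θ : K → ℂ) g = (θ : K → ℂ)) ∧ ¬ p ∣ dg θ),
        (Cfsg.charDegree (F θ : G → ℂ) : ℤ) ^ 2 =
      ∑ θ ∈ Finset.univ.filter (fun θ : Cfsg.IrrCharacter K =>
        (∀ g : G, cj K hK (θ : K → ℂ) g = (θ : K → ℂ)) ∧ ¬ p ∣ dg θ), (dg θ : ℤ) ^ 2 :=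
    Finset.sum_congr rfl (fun θ hθ => by rw [hFdeg θ (Finset.mem_filter.mp hθ).2])
  rw [hconv]
  obtain ⟨R, hR, hpR⟩ := hX
  rw [Int.modEq_iff_dvd]
  obtain ⟨q, hq⟩ := hpR
  refine ⟨-(q : ℤ), ?_⟩
  rw [hR, hq]
  push_cast
  ring
theorem result {G : Type*} [Group G] [Finite G] (p : ℕ) (hp : p.Prime) : (Nat.card (Cfsg.pResidual p G) : ℤ) ≡ (∑ᶠ χ ∈ {χ : Cfsg.IrrCharacter G | ¬ p ∣ Cfsg.charDegree (χ : G → ℂ) ∧ ¬ p ∣ Cfsg.detOrder (χ : G → ℂ)}, (Cfsg.charDegree (χ : G → ℂ) : ℤ) ^ 2) [ZMOD p] := by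
  have _fp : Fact p.Prime := ⟨hp⟩
  have hK : (Cfsg.pResidual p G).Normal := pResidual_normal p
  have hidx : ∃ j : ℕ, (Cfsg.pResidual p G).index = p ^ j := by
    have h1 : IsPGroup p (G ⧸ Cfsg.pResidual p G) := by
      intro q
      obtain ⟨x, rfl⟩ := QuotientGroup.mk_surjective q
      obtain ⟨a, ha⟩ := pow_mem_pResidual (p := p) x
      refine ⟨a, ?_⟩
      rw [← QuotientGroup.mk_pow, QuotientGroup.eq_one_iff]
      exact ha
    obtain ⟨j, hj⟩ := IsPGroup.iff_card.mp h1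
    exact ⟨j, by rw [Subgroup.index_eq_card, hj]⟩
  obtain ⟨j, hj⟩ := hidx
  obtain ⟨S⟩ : Nonempty (Sylow p G) := inferInstance
  have hSK : (S : Subgroup G) ⊔ Cfsg.pResidual p G = ⊤ :=
    sup_pResidual_eq_top (S : Subgroup G) S.not_dvd_index
  exact main_aux p (Cfsg.pResidual p G) hK j hj (fun θ hθ => detOrder_coprime p θ hθ) S hSK

end Cfsg.Agent.S4455
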