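import Mathlib
import Cfsg.Statements.S4464
import Cfsg.Agent.Lib.Helper3.Char
import Cfsg.Agent.Lib.Helper3.CharCore
import Cfsg.Agent.Lib.Helper3.CharArith
import Cfsg.Agent.Lib.Helper3.CharInd
import Cfsg.Agent.Lib.Helper3.CharTable
import Cfsg.Agent.Lib.Helper3.CharCliff
import Cfsg.Agent.Lib.Helper3.CharNormal
import Cfsg.Agent.Lib.Helper3.ItoConv
import Cfsg.Agent.S0148

set_option autoImplicit false
open Cfsg
open Cfsg.Agent.Lib.Helper3.Char Cfsg.Agent.Lib.Helper3.CharCore Cfsg.Agent.Lib.Helper3.CharArith Cfsg.Agent.Lib.Helper3.CharInd Cfsg.Agent.Lib.Helper3.CharTable Cfsg.Agent.Lib.Helper3.CharCliff Cfsg.Agent.Lib.Helper3.CharNormal Cfsg.Agent.Lib.Helper3.ItoConv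
open scoped ComplexConjugate

namespace Cfsg.Agent.S4464

universe u

theorem sylow_normal_of_small {G : Type u} [Group G] [Fintype G] (p : ℕ) [hpf : Fact p.Prime]
    (hb : ∀ χ : G → ℂ, Cfsg.IsIrrCharacter G χ → ∀ b : ℕ, χ 1 = (b : ℂ) → b < p)
    (P : Sylow p G) : (P : Subgroup G).Normal := by
  classical
  have hp : p.Prime := hpf.out
  have _fi : Fintype (Cfsg.IrrCharacter G) := Fintype.ofFinite _
  have hPN : (P : Subgroup G) ≤ Subgroup.normalizer ((P : Subgroup G) : Set G) :=
    Subgroup.le_normalizer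
  have hNmem : ∀ g : G, g ∈ Subgroup.normalizer ((P : Subgroup G) : Set G) ↔
      ∀ h : G, h ∈ (P : Subgroup G) ↔ g * h * g⁻¹ ∈ (P : Subgroup G) := by
    intro g
    exact Subgroup.mem_normalizer_iff
  have hNfin : ∀ g : G, (∀ x ∈ (P : Subgroup G), g * x * g⁻¹ ∈ (P : Subgroup G)) →
      g ∈ Subgroup.normalizer ((P : Subgroup G) : Set G) := by
    intro g hg
    exact Subgroup.mem_normalizer_fintype hg
  have hNtop : Subgroup.normalizer ((P : Subgroup G) : Set G) = ⊤ → (P : Subgroup G).Normal :=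
    fun h => Subgroup.normalizer_eq_top_iff.mp h
  generalize Subgroup.normalizer ((P : Subgroup G) : Set G) = N at hPN hNmem hNfin hNtop
  have _fN : Fintype N := Fintype.ofFinite N
  have _fP : Fintype (P : Subgroup G) := Fintype.ofFinite _
  have hPidx : ¬ p ∣ (P : Subgroup G).index := P.not_dvd_index
  have hPp : IsPGroup p (P : Subgroup G) := P.isPGroup'
  obtain ⟨a0, hPcard⟩ := IsPGroup.iff_card.mp hPp
  have hpel : ∀ y ∈ N, ∀ k : ℕ, y ^ (p ^ k) = 1 → y ∈ (P : Subgroup G) := by
    intro y hy k hyk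
    have _hnorm : ((P : Subgroup G).subgroupOf N).Normal := by
      constructor
      intro x hx n
      rw [Subgroup.mem_subgroupOf] at hx ⊢
      exact ((hNmem n).mp n.2 x).mp hx
    have hidx' : ¬ p ∣ ((P : Subgroup G).subgroupOf N).index := by
      intro h
      apply hPidx
      exact dvd_trans h (Subgroup.relIndex_dvd_index_of_le hPN)
    have h1 := mem_of_pelement p hp ((P : Subgroup G).subgroupOf N) hidx' (⟨y, hy⟩ : N) k
      (Subtype.ext hyk)
    exact Subgroup.mem_subgroupOf.mp h1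
  have hone_N := isIrr_one N
  have hone_P := isIrr_one (P : Subgroup G)
  have hπc : Cfsg.IsCharacter G (Cfsg.indFun N (fun _ : N => (1 : ℂ))) :=
    Cfsg.Agent.S0148.result N _ (isCharacter_of_irr hone_N)
  have hψc : Cfsg.IsCharacter G
      (Cfsg.indFun (P : Subgroup G) (fun _ : (P : Subgroup G) => (1 : ℂ))) :=
    Cfsg.Agent.S0148.result _ _ (isCharacter_of_irr hone_P)
  choose m hm using (fun χ : Cfsg.IrrCharacter G => inner_char_nat hπc (isCharacter_of_irr χ.2))
  choose c hc using (fun χ : Cfsg.IrrCharacter G => inner_char_nat hψc (isCharacter_of_irr χ.2))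
  choose d hd using (fun χ : Cfsg.IrrCharacter G => irr_one_pos χ.2)
  have hmc : ∀ χ : Cfsg.IrrCharacter G, m χ ≠ 0 → c χ ≠ 0 := by
    intro χ hmχ
    have hχc := isCharacter_of_irr χ.2
    have hcf := char_classFun hχc
    have h1 : Cfsg.classInner (fun n : N => (χ : G → ℂ) n) (fun _ : N => (1 : ℂ)) ≠ 0 := by
      rw [classInner_conj_symm, ← frobenius N _ _ hcf, hm χ]
      simpa using hmχ
    have hΔ := sub_isCharacter (comp_isCharacter N.subtype hχc) hone_N h1
    have hΔP := comp_isCharacter (Subgroup.inclusion hPN) hΔ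
    obtain ⟨k, hk⟩ := inner_char_nat hΔP (isCharacter_of_irr hone_P)
    have h2 : (fun x : (P : Subgroup G) => (χ : G → ℂ) x) =
        ((((χ : G → ℂ) ∘ N.subtype) - (fun _ : N => (1 : ℂ))) ∘ (Subgroup.inclusion hPN)) +
          (fun _ => (1 : ℂ)) := by
      funext x
      simp only [Pi.add_apply, Function.comp_apply, Pi.sub_apply]
      have h0 : ((Subgroup.inclusion hPN x : N) : G) = (x : G) := rfl
      rw [Subgroup.coe_subtype, h0]
      ring
    have h3 : (c χ : ℂ) = conj ((k : ℂ) + 1) := by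
      rw [← hc χ, frobenius _ _ _ hcf, classInner_conj_symm, h2, classInner_add_left, hk,
        irr_inner_self hone_P]
    intro h0
    rw [h0] at h3
    have h4 : ((k : ℂ) + 1) = 0 := by
      have h5 := congrArg (starRingEnd ℂ) h3
      simpa using h5.symm
    have h5 : ((k + 1 : ℕ) : ℂ) = 0 := by
      push_cast
      exact h4
    have h6 : k + 1 = 0 := by exact_mod_cast h5
    omega
  let χ₀ : Cfsg.IrrCharacter G := ⟨fun _ => 1, isIrr_one G⟩
  have hm0 : m χ₀ = 1 := by
    have h1 : Cfsg.classInner (Cfsg.indFun N (fun _ : N => (1 : ℂ))) (χ₀ : G → ℂ) = 1 := by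
      rw [frobenius N _ _ (char_classFun (isCharacter_of_irr χ₀.2))]
      exact irr_inner_self hone_N
    rw [hm χ₀] at h1
    exact_mod_cast h1
  have hc0 : c χ₀ = 1 := by
    have h1 : Cfsg.classInner (Cfsg.indFun (P : Subgroup G)
        (fun _ : (P : Subgroup G) => (1 : ℂ))) (χ₀ : G → ℂ) = 1 := by
      rw [frobenius _ _ _ (char_classFun (isCharacter_of_irr χ₀.2))]
      exact irr_inner_self hone_P
    rw [hc χ₀] at h1
    exact_mod_cast h1
  have hd0 : d χ₀ = 1 := by
    have h1 := (hd χ₀).2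
    have h2 : (χ₀ : G → ℂ) 1 = 1 := rfl
    rw [h2] at h1
    exact_mod_cast h1.symm
  have hn : N.index = ∑ χ : Cfsg.IrrCharacter G, m χ * d χ := by
    have hexp := class_fun_expand (Cfsg.indFun N (fun _ : N => (1 : ℂ))) (char_classFun hπc)
    have h1 := congrFun hexp 1
    rw [indFun_one, Finset.sum_apply, mul_one] at h1
    have h2 : ((N.index : ℕ) : ℂ) = ((∑ χ : Cfsg.IrrCharacter G, m χ * d χ : ℕ) : ℂ) := by
      rw [Nat.cast_sum, h1]
      apply Finset.sum_congr rfl
      intro χ _
      rw [Pi.smul_apply, smul_eq_mul, hm χ, (hd χ).2, Nat.cast_mul]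
    exact_mod_cast h2
  have hNc : (Nat.card N : ℂ) ≠ 0 := by exact_mod_cast Nat.card_pos.ne'
  have hPc : (Nat.card (P : Subgroup G) : ℂ) ≠ 0 := by exact_mod_cast Nat.card_pos.ne'
  let E : G → ℂ := Cfsg.extendByZero N (fun _ : N => (1 : ℂ))
  have hE : ∀ y : G, E y = if y ∈ N then 1 else 0 := by
    intro y
    by_cases hy : y ∈ N
    · rw [if_pos hy]
      exact extendByZero_mem N _ hy
    · rw [if_neg hy]
      exact extendByZero_not_mem N _ hy
  let a : G → ℕ := fun g =>
    (Finset.univ.filter (fun x : (P : Subgroup G) => g⁻¹ * (x : G) * g ∈ N)).card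
  have ha1 : ∀ g, a g ≤ Nat.card (P : Subgroup G) := by
    intro g
    rw [Nat.card_eq_fintype_card, ← Finset.card_univ]
    exact Finset.card_filter_le _ _
  have ha2 : ∀ g, g ∉ N → p * a g ≤ Nat.card (P : Subgroup G) := by
    intro g hg
    let D : Subgroup (P : Subgroup G) :=
      { carrier := {x | g⁻¹ * (x : G) * g ∈ N}
        mul_mem' := by
          intro x y hx hy
          show g⁻¹ * ((x * y : (P : Subgroup G)) : G) * g ∈ N
          rw [Subgroup.coe_mul]
          have h0 : g⁻¹ * ((x : G) * (y : G)) * g = (g⁻¹ * (x : G) * g) * (g⁻¹ * (y : G) * g) := by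
            group
          rw [h0]
          exact N.mul_mem hx hy
        one_mem' := by
          show g⁻¹ * ((1 : (P : Subgroup G)) : G) * g ∈ N
          rw [Subgroup.coe_one]
          have h0 : g⁻¹ * (1 : G) * g = 1 := by group
          rw [h0]
          exact N.one_mem
        inv_mem' := by
          intro x hx
          show g⁻¹ * ((x⁻¹ : (P : Subgroup G)) : G) * g ∈ N
          rw [Subgroup.coe_inv]
          have h0 : g⁻¹ * (x : G)⁻¹ * g = (g⁻¹ * (x : G) * g)⁻¹ := by group
          rw [h0]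
          exact N.inv_mem hx }
    have haD : a g = Nat.card D := by
      rw [Nat.card_eq_fintype_card, Fintype.card_subtype]
      rfl
    have hDne : D ≠ ⊤ := by
      intro hD
      apply hg
      have hall : ∀ x ∈ (P : Subgroup G), g⁻¹ * x * g⁻¹⁻¹ ∈ (P : Subgroup G) := by
        intro x hx
        have h1 : (⟨x, hx⟩ : (P : Subgroup G)) ∈ D := by
          rw [hD]
          trivial
        have h2 : g⁻¹ * x * g ∈ N := h1
        obtain ⟨k, hk⟩ := hPp ⟨x, hx⟩
        have hxk : x ^ (p ^ k) = 1 := congrArg Subtype.val hk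
        rw [inv_inv]
        apply hpel _ h2 k
        have h3 : (g⁻¹ * x * g) ^ (p ^ k) = g⁻¹ * x ^ (p ^ k) * g := by
          have h4 := conj_pow (a := g⁻¹) (b := x) (i := p ^ k)
          rw [inv_inv] at h4
          exact h4
        rw [h3, hxk]
        group
      have hginv : g⁻¹ ∈ N := hNfin g⁻¹ hall
      have h5 := N.inv_mem hginv
      rwa [inv_inv] at h5
    have hDidx : p ∣ D.index := by
      have h1 : D.index ∣ p ^ a0 := by
        rw [← hPcard]
        exact Subgroup.index_dvd_card D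
      obtain ⟨j, _, hj⟩ := (Nat.dvd_prime_pow hp).mp h1
      rcases Nat.eq_zero_or_pos j with h0 | hpos
      · exfalso
        rw [h0, pow_zero] at hj
        exact hDne (Subgroup.index_eq_one.mp hj)
      · rw [hj]
        exact dvd_pow_self p hpos.ne'
    have h2 := D.card_mul_index
    rw [haD]
    obtain ⟨t, ht⟩ := hDidx
    rw [ht] at h2
    have ht0 : 0 < t := by
      rcases Nat.eq_zero_or_pos t with h0 | h0
      · rw [h0, mul_zero, mul_zero] at h2
        have h6 := Nat.card_pos (α := (P : Subgroup G))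
        omega
      · exact h0
    calc p * Nat.card D ≤ p * Nat.card D * t := Nat.le_mul_of_pos_right _ ht0
      _ = Nat.card D * (p * t) := by ring
      _ = Nat.card (P : Subgroup G) := h2
  have hinner : Cfsg.classInner (Cfsg.indFun N (fun _ : N => (1 : ℂ)))
      (Cfsg.indFun (P : Subgroup G) (fun _ : (P : Subgroup G) => (1 : ℂ))) =
      (Nat.card (P : Subgroup G) : ℂ)⁻¹ * ((Nat.card N : ℂ)⁻¹ * ((∑ g : G, a g : ℕ) : ℂ)) := by
    rw [classInner_conj_symm, frobenius (P : Subgroup G) _ _ (char_classFun hπc)]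
    unfold Cfsg.classInner
    beta_reduce
    rw [map_mul, map_inv₀, Complex.conj_natCast, map_sum]
    congr 1
    have h1 : ∀ x : (P : Subgroup G),
        conj ((1 : ℂ) * conj (Cfsg.indFun N (fun _ : N => (1 : ℂ)) x)) =
        (Nat.card N : ℂ)⁻¹ * ∑ g : G, E (g⁻¹ * (x : G) * g) := by
      intro x
      rw [one_mul, Complex.conj_conj]
      rfl
    rw [Finset.sum_congr rfl (fun x _ => h1 x), ← Finset.mul_sum, Finset.sum_comm]
    congr 1
    rw [Nat.cast_sum]
    apply Finset.sum_congr rfl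
    intro g _
    show ∑ x : (P : Subgroup G), E (g⁻¹ * (x : G) * g) = ((a g : ℕ) : ℂ)
    rw [Finset.sum_congr rfl (fun (x : (P : Subgroup G)) _ => hE (g⁻¹ * (x : G) * g)), Finset.sum_boole]
  have hpars : Cfsg.classInner (Cfsg.indFun N (fun _ : N => (1 : ℂ)))
      (Cfsg.indFun (P : Subgroup G) (fun _ : (P : Subgroup G) => (1 : ℂ))) =
      ((∑ χ : Cfsg.IrrCharacter G, m χ * c χ : ℕ) : ℂ) := by
    rw [parseval _ _ (char_classFun hπc), Nat.cast_sum]
    apply Finset.sum_congr rfl
    intro χ _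
    rw [hm χ, classInner_conj_symm, hc χ, Complex.conj_natCast, Nat.cast_mul]
  have hcount : Nat.card (P : Subgroup G) *
      (Nat.card N * ∑ χ : Cfsg.IrrCharacter G, m χ * c χ) = ∑ g : G, a g := by
    have h1 := hpars.symm.trans hinner
    have h2 : ((Nat.card (P : Subgroup G) *
        (Nat.card N * ∑ χ : Cfsg.IrrCharacter G, m χ * c χ) : ℕ) : ℂ) =
        ((∑ g : G, a g : ℕ) : ℂ) := by
      rw [Nat.cast_mul, Nat.cast_mul, h1]
      field_simp
    exact_mod_cast h2
  have hNcardf : (Finset.univ.filter (fun g : G => g ∈ N)).card = Nat.card N := by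
    rw [Nat.card_eq_fintype_card, Fintype.card_subtype]
  have hbound : p * ∑ g : G, a g ≤ p * (Nat.card N * Nat.card (P : Subgroup G)) +
      (Nat.card G - Nat.card N) * Nat.card (P : Subgroup G) := by
    rw [Finset.mul_sum, ← Finset.sum_filter_add_sum_filter_not Finset.univ (fun g : G => g ∈ N)]
    apply add_le_add
    · calc ∑ g ∈ Finset.univ.filter (fun g : G => g ∈ N), p * a g
          ≤ ∑ g ∈ Finset.univ.filter (fun g : G => g ∈ N), p * Nat.card (P : Subgroup G) :=
            Finset.sum_le_sum (fun g _ => Nat.mul_le_mul_left p (ha1 g))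
        _ = p * (Nat.card N * Nat.card (P : Subgroup G)) := by
          rw [Finset.sum_const, smul_eq_mul, hNcardf]
          ring
    · calc ∑ g ∈ Finset.univ.filter (fun g : G => ¬ g ∈ N), p * a g
          ≤ ∑ g ∈ Finset.univ.filter (fun g : G => ¬ g ∈ N), Nat.card (P : Subgroup G) :=
            Finset.sum_le_sum (fun g hg => ha2 g (Finset.mem_filter.mp hg).2)
        _ = (Nat.card G - Nat.card N) * Nat.card (P : Subgroup G) := by
          rw [Finset.sum_const, smul_eq_mul]
          congr 1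
          have h1 := Finset.card_filter_add_card_filter_not (s := (Finset.univ : Finset G))
            (fun g : G => g ∈ N)
          rw [hNcardf, Finset.card_univ, ← Nat.card_eq_fintype_card] at h1
          omega
  have hsumC : ∑ χ : Cfsg.IrrCharacter G, m χ * c χ =
      1 + ∑ χ ∈ Finset.univ.erase χ₀, m χ * c χ := by
    have h1 : m χ₀ * c χ₀ + ∑ χ ∈ Finset.univ.erase χ₀, m χ * c χ =
        ∑ χ : Cfsg.IrrCharacter G, m χ * c χ :=
      Finset.add_sum_erase Finset.univ (fun χ => m χ * c χ) (Finset.mem_univ χ₀)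
    rw [hm0, hc0] at h1
    omega
  have hsumD : N.index = 1 + ∑ χ ∈ Finset.univ.erase χ₀, m χ * d χ := by
    have h1 : m χ₀ * d χ₀ + ∑ χ ∈ Finset.univ.erase χ₀, m χ * d χ =
        ∑ χ : Cfsg.IrrCharacter G, m χ * d χ :=
      Finset.add_sum_erase Finset.univ (fun χ => m χ * d χ) (Finset.mem_univ χ₀)
    rw [hm0, hd0] at h1
    omega
  have hDle : ∑ χ ∈ Finset.univ.erase χ₀, m χ * d χ ≤
      (p - 1) * ∑ χ ∈ Finset.univ.erase χ₀, m χ * c χ := by
    rw [Finset.mul_sum]
    apply Finset.sum_le_sum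
    intro χ _
    have h1 : d χ ≤ p - 1 := by
      have h2 := hb (χ : G → ℂ) χ.2 (d χ) (hd χ).2
      omega
    by_cases hmχ : m χ = 0
    · rw [hmχ]
      simp
    · have h3 : 1 ≤ c χ := Nat.one_le_iff_ne_zero.mpr (hmc χ hmχ)
      calc m χ * d χ ≤ m χ * (p - 1) := Nat.mul_le_mul_left _ h1
        _ = (p - 1) * (m χ * 1) := by ring
        _ ≤ (p - 1) * (m χ * c χ) :=
            Nat.mul_le_mul_left _ (Nat.mul_le_mul_left _ h3)
  have hG := N.card_mul_index
  have hNpos : 0 < Nat.card N := Nat.card_pos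
  have hPpos : 0 < Nat.card (P : Subgroup G) := Nat.card_pos
  generalize (∑ χ ∈ Finset.univ.erase χ₀, m χ * c χ) = C at hsumC hDle
  generalize (∑ χ ∈ Finset.univ.erase χ₀, m χ * d χ) = D at hsumD hDle
  rw [hsumC] at hcount
  rw [← hcount, ← hG, hsumD] at hbound
  have h1 : (Nat.card N * (1 + D) - Nat.card N) = Nat.card N * D := by
    rw [Nat.mul_add, mul_one, Nat.add_sub_cancel_left]
  rw [h1] at hbound
  have h2 : (Nat.card N * Nat.card (P : Subgroup G)) * (p * C) ≤
      (Nat.card N * Nat.card (P : Subgroup G)) * D := by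
    have e1 : p * (Nat.card (P : Subgroup G) * (Nat.card N * (1 + C))) =
        p * (Nat.card N * Nat.card (P : Subgroup G)) +
          (Nat.card N * Nat.card (P : Subgroup G)) * (p * C) := by ring
    have e2 : Nat.card N * D * Nat.card (P : Subgroup G) =
        (Nat.card N * Nat.card (P : Subgroup G)) * D := by ring
    rw [e1, e2] at hbound
    exact Nat.le_of_add_le_add_left hbound
  have h3 : p * C ≤ D := Nat.le_of_mul_le_mul_left h2 (Nat.mul_pos hNpos hPpos)
  have h4 : p * C ≤ (p - 1) * C := h3.trans hDle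
  have hC0 : C = 0 := by
    have hp1 : 1 ≤ p := hp.one_lt.le
    have h5 : p * C = (p - 1) * C + C := by
      have h6 : p = (p - 1) + 1 := by omega
      conv_lhs => rw [h6]
      ring
    omega
  rw [hC0, mul_zero] at hDle
  have hD0 : D = 0 := by omega
  rw [hD0] at hsumD
  exact hNtop (Subgroup.index_eq_one.mp hsumD)

theorem result {G : Type*} [Group G] [Finite G] (p : ℕ) (hp : p.Prime) (hb : ∀ χ : Cfsg.IrrCharacter G, Cfsg.charDegree (χ : G → ℂ) < p) : ∃ P : Subgroup G, P.Normal ∧ (∀ x ∈ P, ∀ y ∈ P, x * y = y * x) ∧ IsPGroup p P ∧ ¬ p ∣ P.index := by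
  classical
  have _fg : Fintype G := Fintype.ofFinite G
  have _hpf : Fact p.Prime := ⟨hp⟩
  have hb' : ∀ χ : G → ℂ, Cfsg.IsIrrCharacter G χ → ∀ b : ℕ, χ 1 = (b : ℂ) → b < p := by
    intro χ hχ b hbb
    have h1 := hb ⟨χ, hχ⟩
    have h2 : Cfsg.charDegree χ = b := by
      unfold Cfsg.charDegree
      rw [hbb, Complex.natCast_re, Nat.floor_natCast]
    have h3 : Cfsg.charDegree χ < p := h1
    rw [h2] at h3
    exact h3
  have hPD : PD p G := by
    intro χ hχ b hbb hpb
    have h1 := hb' χ hχ b hbb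
    obtain ⟨b', hb'pos, hb'eq⟩ := irr_one_pos hχ
    have h2 : b = b' := by
      rw [hbb] at hb'eq
      exact_mod_cast hb'eq
    have h3 : 0 < b := by
      rw [h2]
      exact hb'pos
    exact Nat.not_dvd_of_pos_of_lt h3 h1 hpb
  obtain ⟨P⟩ : Nonempty (Sylow p G) := inferInstance
  have hPn := sylow_normal_of_small p hb' P
  exact ⟨P, hPn, abelian_of_NS p P hPn P.isPGroup' hPD, P.isPGroup', P.not_dvd_index⟩

end Cfsg.Agent.S4464
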