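import Mathlib
import Cfsg.Statements.S4478
import Cfsg.Agent.Lib.Helper3.Char
import Cfsg.Agent.Lib.Helper3.CharCore
import Cfsg.Agent.Lib.Helper3.CharArith
import Cfsg.Agent.Lib.Helper3.CharInd
import Cfsg.Agent.Lib.Helper3.CharInt
import Cfsg.Agent.Lib.Helper3.BlkOrth4
import Cfsg.Agent.Lib.Helper3.BlkDefect2
import Cfsg.Agent.S0158

set_option autoImplicit false
open Cfsg
open Cfsg.Agent.Lib.Helper3.Char Cfsg.Agent.Lib.Helper3.CharCore Cfsg.Agent.Lib.Helper3.CharArith Cfsg.Agent.Lib.Helper3.CharInd Cfsg.Agent.Lib.Helper3.CharInt Cfsg.Agent.Lib.Helper3.BlkOrth4 Cfsg.Agent.Lib.Helper3.BlkDefect2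
open scoped ComplexConjugate

namespace Cfsg.Agent.S4478

universe u

theorem sq_sum {G : Type u} [Group G] [Fintype G] (χ : Cfsg.IrrCharacter G) (x : ℕ)
    (hx : (χ : G → ℂ) 1 = (x : ℂ))
    (hV1 : ∀ g : G, 2 ∣ orderOf g → (χ : G → ℂ) g = 0)
    (hV2 : ∀ h : G, Even (orderOf h) → orderOf h ≠ 2 → (χ : G → ℂ) (h * h) = 0)
    (hsum0 : ∑ g : G, (χ : G → ℂ) g = 0) :
    ∑ h : G, (χ : G → ℂ) (h * h) =
      ((Finset.univ.filter (fun h : G => orderOf h = 2)).card : ℂ) * (x : ℂ) := by
  classical
  have hsplit : ∀ h : G, (χ : G → ℂ) (h * h) =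
      (if orderOf h = 2 then (x : ℂ) else 0) +
        (if Odd (orderOf h) then (χ : G → ℂ) (h * h) else 0) := by
    intro h
    by_cases h2 : orderOf h = 2
    · have hodd : ¬ Odd (orderOf h) := by
        rw [h2]
        decide
      rw [if_pos h2, if_neg hodd, add_zero]
      have h1 : h * h = 1 := by rw [← pow_two, ← h2, pow_orderOf_eq_one]
      rw [h1, hx]
    · by_cases hodd : Odd (orderOf h)
      · rw [if_neg h2, if_pos hodd, zero_add]
      · rw [if_neg h2, if_neg hodd, add_zero]
        exact hV2 h (Nat.not_odd_iff_even.mp hodd) h2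
  rw [Finset.sum_congr rfl (fun h _ => hsplit h), Finset.sum_add_distrib]
  have hA : ∑ h : G, (if orderOf h = 2 then (x : ℂ) else 0) =
      ((Finset.univ.filter (fun h : G => orderOf h = 2)).card : ℂ) * (x : ℂ) := by
    rw [← Finset.sum_filter, Finset.sum_const, nsmul_eq_mul]
  have hB : ∑ h : G, (if Odd (orderOf h) then (χ : G → ℂ) (h * h) else 0) = 0 := by
    rw [← Finset.sum_filter]
    have hbij : ∑ h ∈ Finset.univ.filter (fun h : G => Odd (orderOf h)),
        (χ : G → ℂ) (h * h) =
        ∑ g ∈ Finset.univ.filter (fun g : G => Odd (orderOf g)), (χ : G → ℂ) g := by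
      refine Finset.sum_nbij' (fun h => h * h) (fun g => g ^ ((orderOf g + 1) / 2))
        ?_ ?_ ?_ ?_ ?_
      · intro h hh
        have hodd := (Finset.mem_filter.mp hh).2
        refine Finset.mem_filter.mpr ⟨Finset.mem_univ _, ?_⟩
        rw [← pow_two, Nat.Coprime.orderOf_pow (Nat.coprime_two_right.mpr hodd)]
        exact hodd
      · intro g hg
        have hodd := (Finset.mem_filter.mp hg).2
        refine Finset.mem_filter.mpr ⟨Finset.mem_univ _, ?_⟩
        exact Odd.of_dvd_nat hodd (orderOf_pow_dvd _)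
      · intro h hh
        have hodd := (Finset.mem_filter.mp hh).2
        show (h * h) ^ ((orderOf (h * h) + 1) / 2) = h
        have ho : orderOf (h * h) = orderOf h := by
          rw [← pow_two]
          exact Nat.Coprime.orderOf_pow (Nat.coprime_two_right.mpr hodd)
        rw [ho, ← pow_two, ← pow_mul]
        obtain ⟨k, hk⟩ := hodd
        have h3 : 2 * ((orderOf h + 1) / 2) = orderOf h + 1 := by omega
        rw [h3, pow_succ, pow_orderOf_eq_one, one_mul]
      · intro g hg
        have hodd := (Finset.mem_filter.mp hg).2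
        show g ^ ((orderOf g + 1) / 2) * g ^ ((orderOf g + 1) / 2) = g
        rw [← pow_add]
        obtain ⟨k, hk⟩ := hodd
        have h3 : (orderOf g + 1) / 2 + (orderOf g + 1) / 2 = orderOf g + 1 := by omega
        rw [h3, pow_succ, pow_orderOf_eq_one, one_mul]
      · intro h _
        rfl
    rw [hbij]
    have h4 : ∑ g ∈ Finset.univ.filter (fun g : G => Odd (orderOf g)), (χ : G → ℂ) g =
        ∑ g : G, (χ : G → ℂ) g := by
      rw [Finset.sum_filter]
      apply Finset.sum_congr rfl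
      intro g _
      by_cases hodd : Odd (orderOf g)
      · rw [if_pos hodd]
      · rw [if_neg hodd]
        exact (hV1 g (even_iff_two_dvd.mp (Nat.not_odd_iff_even.mp hodd))).symm
    rw [h4, hsum0]
  rw [hA, hB, add_zero]

theorem result {G : Type*} [Group G] [Fintype G] (heven : Even (Nat.card G)) (χ : Cfsg.IrrCharacter G) (h2 : 2 ^ (Nat.card G).factorization 2 ∣ Cfsg.charDegree (χ : G → ℂ)) (hp : ∀ p : ℕ, p.Prime → p ≠ 2 → (∃ g : G, orderOf g = 2 * p) → p ^ (Nat.card G).factorization p ∣ Cfsg.charDegree (χ : G → ℂ)) : (∀ s t : G, orderOf s = 2 → orderOf t = 2 → IsConj s t) ∧ (∀ s : G, orderOf s = 2 → Nat.card (Subgroup.centralizer ({s} : Set G)) = Cfsg.charDegree (χ : G → ℂ) ∧ (Nat.card (Subgroup.centralizer ({s} : Set G))).Coprime (Subgroup.centralizer ({s} : Set G)).index) ∧ (Nat.card G : ℂ)⁻¹ * ∑ g : G, (χ : G → ℂ) (g * g) = 1 := by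
  classical
  obtain ⟨x, hxpos, hx⟩ := irr_one_pos χ.2
  have hdeg : Cfsg.charDegree (χ : G → ℂ) = x := charDegree_eq hx
  rw [hdeg] at h2 hp ⊢
  have hG0 : Nat.card G ≠ 0 := Nat.card_pos.ne'
  have hGc : (Nat.card G : ℂ) ≠ 0 := by exact_mod_cast hG0
  have hx0 : x ≠ 0 := hxpos.ne'
  have hfull : ∀ p : ℕ, p.Prime → p ^ (Nat.card G).factorization p ∣ x → ∀ g : G,
      p ∣ orderOf g → (χ : G → ℂ) g = 0 := by
    intro p hpp hdvd g hg
    apply vanish_of_full hpp χ _ g hg
    rw [hdeg]
    exact (Nat.Prime.pow_dvd_iff_le_factorization hpp hx0).mp hdvd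
  have hV1 : ∀ g : G, 2 ∣ orderOf g → (χ : G → ℂ) g = 0 := hfull 2 Nat.prime_two h2
  have hgood : ∀ s : G, orderOf s = 2 → ∀ p : ℕ, p.Prime →
      (∃ c : G, c * s = s * c ∧ orderOf c = p) → p ^ (Nat.card G).factorization p ∣ x := by
    rintro s hs p hpp ⟨c, hcs, hc⟩
    by_cases hp2 : p = 2
    · rw [hp2]
      exact h2
    · apply hp p hpp hp2
      refine ⟨s * c, ?_⟩
      have hcomm : Commute s c := hcs.symm
      have hco : (orderOf s).Coprime (orderOf c) := by
        rw [hs, hc]
        exact (Nat.coprime_primes Nat.prime_two hpp).mpr (Ne.symm hp2)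
      rw [hcomm.orderOf_mul_eq_mul_orderOf_of_coprime hco, hs, hc]
  have hV2 : ∀ s : G, orderOf s = 2 → ∀ c : G, c * s = s * c → c ≠ 1 →
      (χ : G → ℂ) c = 0 := by
    intro s hs c hcs hc1
    have ho1 : orderOf c ≠ 1 := fun h => hc1 (orderOf_eq_one_iff.mp h)
    obtain ⟨p, hpp, hpd⟩ := Nat.exists_prime_and_dvd ho1
    have ho0 : orderOf c ≠ 0 := (orderOf_pos c).ne'
    have hc' : orderOf (c ^ (orderOf c / p)) = p := orderOf_pow_orderOf_div ho0 hpd
    have hcomm : c ^ (orderOf c / p) * s = s * c ^ (orderOf c / p) := by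
      have h1 : Commute c s := hcs
      exact (h1.pow_left _).eq
    exact hfull p hpp (hgood s hs p hpp ⟨_, hcomm, hc'⟩) c hpd
  have hV2' : ∀ h : G, Even (orderOf h) → orderOf h ≠ 2 → (χ : G → ℂ) (h * h) = 0 := by
    intro h hev hne
    have ho0 : orderOf h ≠ 0 := (orderOf_pos h).ne'
    have h2d : 2 ∣ orderOf h := even_iff_two_dvd.mp hev
    have hs : orderOf (h ^ (orderOf h / 2)) = 2 := orderOf_pow_orderOf_div ho0 h2d
    apply hV2 (h ^ (orderOf h / 2)) hs (h * h)
    · rw [← pow_two, ← pow_add, ← pow_add, add_comm]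
    · intro h1
      apply hne
      have h3 : orderOf h ∣ 2 := orderOf_dvd_of_pow_eq_one (by rw [pow_two]; exact h1)
      have h4 := Nat.le_of_dvd (by norm_num) h3
      obtain ⟨k, hk⟩ := hev
      omega
  have heven2 : 2 ∣ x := by
    have h2' : 2 ∣ Nat.card G := even_iff_two_dvd.mp heven
    have h1 : 1 ≤ (Nat.card G).factorization 2 :=
      (Nat.Prime.dvd_iff_one_le_factorization Nat.prime_two hG0).mp h2'
    exact (dvd_pow_self 2 (by omega)).trans h2
  have hsum0 : ∑ g : G, (χ : G → ℂ) g = 0 := by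
    have h1 := irr_orthonormal χ.2 (isIrr_one G)
    have hne : (χ : G → ℂ) ≠ (fun _ => (1 : ℂ)) := by
      intro h
      have h3 := congrFun h 1
      rw [hx] at h3
      have h4 : x = 1 := by exact_mod_cast h3
      omega
    rw [if_neg hne] at h1
    unfold Cfsg.classInner at h1
    have h5 : ∑ g : G, (χ : G → ℂ) g * conj ((fun _ : G => (1 : ℂ)) g) = 0 := by
      rcases mul_eq_zero.mp h1 with h | h
      · exact absurd (inv_eq_zero.mp h) hGc
      · exact h
    simpa using h5
  have hsq := sq_sum χ x hx hV1 hV2' hsum0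
  obtain ⟨I, hI⟩ : ∃ I : ℕ, I = (Finset.univ.filter (fun h : G => orderOf h = 2)).card :=
    ⟨_, rfl⟩
  rw [← hI] at hsq
  have hIpos : 0 < I := by
    have h2' : 2 ∣ Nat.card G := even_iff_two_dvd.mp heven
    have _hf : Fact (Nat.Prime 2) := ⟨Nat.prime_two⟩
    obtain ⟨s, hs⟩ := exists_prime_orderOf_dvd_card' 2 h2'
    rw [hI]
    exact Finset.card_pos.mpr ⟨s, Finset.mem_filter.mpr ⟨Finset.mem_univ _, hs⟩⟩
  have hFS : (Nat.card G : ℂ)⁻¹ * ∑ g : G, (χ : G → ℂ) (g * g) = 1 := by
    obtain ⟨n, ρ, hirr, hχeq⟩ := χ.2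
    have _hi := hirr
    have h158 := (Cfsg.Agent.S0158.result ρ).1
    rw [hχeq, hsq] at h158
    rw [hsq]
    have hIr : (0 : ℝ) < (I : ℝ) := by exact_mod_cast hIpos
    have hxr : (0 : ℝ) < (x : ℝ) := by exact_mod_cast hxpos
    have hGr : (0 : ℝ) < (Nat.card G : ℝ) := by exact_mod_cast Nat.card_pos
    have hpos : (0 : ℝ) < (Nat.card G : ℝ)⁻¹ * ((I : ℝ) * (x : ℝ)) := by positivity
    have hcast : (Nat.card G : ℂ)⁻¹ * ((I : ℂ) * (x : ℂ)) =
        (((Nat.card G : ℝ)⁻¹ * ((I : ℝ) * (x : ℝ)) : ℝ) : ℂ) := by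
      push_cast
      rfl
    rw [hcast] at h158 ⊢
    rcases h158 with h | h | h
    · have h' : (Nat.card G : ℝ)⁻¹ * ((I : ℝ) * (x : ℝ)) = 0 := by exact_mod_cast h
      linarith
    · exact h
    · have h' : (Nat.card G : ℝ)⁻¹ * ((I : ℝ) * (x : ℝ)) = -1 := by exact_mod_cast h
      linarith
  have hIx : I * x = Nat.card G := by
    have h0 := hFS
    rw [hsq] at h0
    have h1 : (I : ℂ) * (x : ℂ) = (Nat.card G : ℂ) := by
      field_simp at h0
      exact h0
    exact_mod_cast h1
  have hcent : ∀ s : G, orderOf s = 2 →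
      Nat.card (Subgroup.centralizer ({s} : Set G)) ∣ x := by
    intro s hs
    have _fC : Fintype (Subgroup.centralizer ({s} : Set G)) := Fintype.ofFinite _
    obtain ⟨n, hn⟩ := inner_char_nat
      (comp_isCharacter (Subgroup.centralizer ({s} : Set G)).subtype (isCharacter_of_irr χ.2))
      (isCharacter_of_irr (isIrr_one (Subgroup.centralizer ({s} : Set G))))
    unfold Cfsg.classInner at hn
    have h1 : ∑ c : Subgroup.centralizer ({s} : Set G),
        ((χ : G → ℂ) ∘ (Subgroup.centralizer ({s} : Set G)).subtype) c *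
          conj ((fun _ : Subgroup.centralizer ({s} : Set G) => (1 : ℂ)) c) = (x : ℂ) := by
      rw [Finset.sum_eq_single (1 : Subgroup.centralizer ({s} : Set G))]
      · simp [hx]
      · intro c _ hc1
        have h2 : (χ : G → ℂ) (c : G) = 0 := by
          apply hV2 s hs (c : G)
          · exact Subgroup.mem_centralizer_singleton_iff.mp c.2
          · intro h
            exact hc1 (Subtype.ext h)
        simp [h2]
      · intro h
        exact absurd (Finset.mem_univ _) h
    rw [h1] at hn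
    have hCc : (Nat.card (Subgroup.centralizer ({s} : Set G)) : ℂ) ≠ 0 := by
      exact_mod_cast (Nat.card_pos (α := Subgroup.centralizer ({s} : Set G))).ne'
    have h3 : (x : ℂ) = (Nat.card (Subgroup.centralizer ({s} : Set G)) : ℂ) * (n : ℂ) := by
      rw [← hn, ← mul_assoc, mul_inv_cancel₀ hCc, one_mul]
    exact ⟨n, by exact_mod_cast h3⟩
  have hcls : ∀ s : G, orderOf s = 2 →
      Nat.card (Subgroup.centralizer ({s} : Set G)) = x ∧
      Finset.univ.filter (fun g : G => IsConj s g) =
        Finset.univ.filter (fun h : G => orderOf h = 2) := by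
    intro s hs
    have hsub : Finset.univ.filter (fun g : G => IsConj s g) ⊆
        Finset.univ.filter (fun h : G => orderOf h = 2) := by
      intro g hg
      have hc := (Finset.mem_filter.mp hg).2
      obtain ⟨y, hy⟩ := isConj_iff.mp hc
      refine Finset.mem_filter.mpr ⟨Finset.mem_univ _, ?_⟩
      rw [← hy]
      have h1 := MulEquiv.orderOf_eq (MulAut.conj y) s
      rw [MulAut.conj_apply] at h1
      rw [h1, hs]
    have hle := Finset.card_le_card hsub
    rw [card_conj_class s, ← hI] at hle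
    have hmul := Subgroup.card_mul_index (Subgroup.centralizer ({s} : Set G))
    have hdv := hcent s hs
    have hCle : Nat.card (Subgroup.centralizer ({s} : Set G)) ≤ x := Nat.le_of_dvd hxpos hdv
    have h1 : x * I ≤ Nat.card (Subgroup.centralizer ({s} : Set G)) * I := by
      calc x * I = I * x := mul_comm _ _
        _ = Nat.card G := hIx
        _ = Nat.card (Subgroup.centralizer ({s} : Set G)) *
            (Subgroup.centralizer ({s} : Set G)).index := hmul.symm
        _ ≤ Nat.card (Subgroup.centralizer ({s} : Set G)) * I := Nat.mul_le_mul_left _ hle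
    have h2 : x ≤ Nat.card (Subgroup.centralizer ({s} : Set G)) :=
      Nat.le_of_mul_le_mul_right h1 hIpos
    have hCx : Nat.card (Subgroup.centralizer ({s} : Set G)) = x := le_antisymm hCle h2
    refine ⟨hCx, ?_⟩
    apply Finset.eq_of_subset_of_card_le hsub
    rw [card_conj_class s, ← hI]
    rw [hCx] at hmul
    have h3 : x * (Subgroup.centralizer ({s} : Set G)).index = x * I := by
      rw [hmul, ← hIx, mul_comm]
    exact (Nat.eq_of_mul_eq_mul_left hxpos h3).ge
  refine ⟨?_, ?_, hFS⟩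
  · intro s t hs ht
    have h1 := (hcls s hs).2
    have h2 : t ∈ Finset.univ.filter (fun h : G => orderOf h = 2) :=
      Finset.mem_filter.mpr ⟨Finset.mem_univ _, ht⟩
    rw [← h1] at h2
    exact (Finset.mem_filter.mp h2).2
  · intro s hs
    refine ⟨(hcls s hs).1, ?_⟩
    rw [(hcls s hs).1]
    apply Nat.coprime_of_dvd
    intro p hpp hpx hpidx
    have hpC : p ∣ Nat.card (Subgroup.centralizer ({s} : Set G)) := by
      rw [(hcls s hs).1]
      exact hpx
    have _hf : Fact p.Prime := ⟨hpp⟩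
    obtain ⟨c, hc⟩ := exists_prime_orderOf_dvd_card' p hpC
    have hc' : orderOf (c : G) = p := by
      rw [← hc]
      exact Subgroup.orderOf_coe c
    have hg := hgood s hs p hpp
      ⟨(c : G), Subgroup.mem_centralizer_singleton_iff.mp c.2, hc'⟩
    have hmul := Subgroup.card_mul_index (Subgroup.centralizer ({s} : Set G))
    rw [(hcls s hs).1] at hmul
    have h5 : p ^ ((Nat.card G).factorization p + 1) ∣ Nat.card G := by
      have h6 : p ^ ((Nat.card G).factorization p) * p ∣
          x * (Subgroup.centralizer ({s} : Set G)).index := Nat.mul_dvd_mul hg hpidx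
      rw [hmul, ← pow_succ] at h6
      exact h6
    exact Nat.pow_succ_factorization_not_dvd hG0 hpp h5

end Cfsg.Agent.S4478
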