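import Mathlib
import Cfsg.Statements.S4487
import Cfsg.Agent.Lib.Helper3.Char
import Cfsg.Agent.Lib.Helper3.Core
import Cfsg.Agent.Lib.Helper3.BlkLocal
import Cfsg.Agent.Lib.Helper3.BlkOsima
import Cfsg.Agent.Lib.Helper3.BlkCore

set_option autoImplicit false
open Cfsg
open Cfsg.Agent.Lib.Helper3.Char Cfsg.Agent.Lib.Helper3.Core Cfsg.Agent.Lib.Helper3.BlkLocal Cfsg.Agent.Lib.Helper3.BlkOsima Cfsg.Agent.Lib.Helper3.BlkCore

namespace Cfsg.Agent.S4487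

theorem result {G : Type*} [Group G] [Finite G] (p : ℕ) [Fact p.Prime] (M : Ideal Cfsg.AlgInt) (hM : Cfsg.IsPModular p M) (hcore : Cfsg.pPrimeCore p G = ⊥) (hconstr : Subgroup.centralizer ((Cfsg.pCore p G) : Set G) ≤ Cfsg.pCore p G) (χ ψ : Cfsg.IrrCharacter G) : Cfsg.SameBlock M (χ : G → ℂ) (ψ : G → ℂ) := by
  classical
  have _fg : Fintype G := Fintype.ofFinite G
  have hMp := hM.2.1.isPrime
  have _hcore := hcore
  have hQn : (Cfsg.pCore p G).Normal := pCore_normal (G := G) p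
  have hQp : IsPGroup p (Cfsg.pCore p G) := pCore_isPGroup (G := G) p
  have key : ∀ φ : Cfsg.IrrCharacter G, ∃ ξ : Cfsg.IrrCharacter G,
      Cfsg.SameBlock M (φ : G → ℂ) (ξ : G → ℂ) ∧
      ∀ u ∈ Cfsg.pCore p G, (ξ : G → ℂ) u = (ξ : G → ℂ) 1 := by
    intro φ
    obtain ⟨ξ, hξ, hker⟩ := exists_ker hM (Cfsg.pCore p G) hQp (Cfsg.blockOf M (φ : G → ℂ))
      ⟨φ, rfl⟩
    exact ⟨ξ, hξ, hker⟩
  obtain ⟨ξ₁, h1, k1⟩ := key χ
  obtain ⟨ξ₂, h2, k2⟩ := key ψ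
  refine sb_trans hMp h1 (sb_trans hMp ?_ (sb_symm h2))
  intro g
  by_cases hg : ∃ u ∈ Cfsg.pCore p G, u * g ≠ g * u
  · exact li_sub hMp (central_li_of_ker hM (Cfsg.pCore p G) hQp ξ₁ k1 g hg)
      (central_li_of_ker hM (Cfsg.pCore p G) hQp ξ₂ k2 g hg)
  · push Not at hg
    have hgc : g ∈ Subgroup.centralizer ((Cfsg.pCore p G) : Set G) := by
      rw [Subgroup.mem_centralizer_iff]
      intro u hu
      exact hg u hu
    have hgQ := hconstr hgc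
    unfold Cfsg.centralChar
    rw [k1 g hgQ, k2 g hgQ]
    have e1 := irr_one_ne_zero ξ₁.2
    have e2 := irr_one_ne_zero ξ₂.2
    have e : ((Subgroup.centralizer ({g} : Set G)).index : ℂ) * (ξ₁ : G → ℂ) 1 / (ξ₁ : G → ℂ) 1 -
        ((Subgroup.centralizer ({g} : Set G)).index : ℂ) * (ξ₂ : G → ℂ) 1 / (ξ₂ : G → ℂ) 1 = 0 := by
      field_simp
      ring
    rw [e]
    exact li_zero hMp

end Cfsg.Agent.S4487
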