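import Mathlib
import Cfsg.Statements.S4493
import Cfsg.Agent.Lib.Helper3.Char
import Cfsg.Agent.Lib.Helper3.CharCore
import Cfsg.Agent.Lib.Helper3.ItoConv
import Cfsg.Agent.S0169

set_option autoImplicit false
open Cfsg
open Cfsg.Agent.Lib.Helper3.Char Cfsg.Agent.Lib.Helper3.CharCore Cfsg.Agent.Lib.Helper3.ItoConv

namespace Cfsg.Agent.S4493

theorem result {G : Type*} [Group G] [Finite G] (hsolv : Group.IsSolvable G) (p : ℕ) (hp : p.Prime) : (∃ P : Subgroup G, P.Normal ∧ (∀ x ∈ P, ∀ y ∈ P, x * y = y * x) ∧ IsPGroup p P ∧ ¬ p ∣ P.index) ↔ ∀ χ : Cfsg.IrrCharacter G, ¬ p ∣ Cfsg.charDegree (χ : G → ℂ) := by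
  have _hpf : Fact p.Prime := ⟨hp⟩
  constructor
  · rintro ⟨P, hPn, hab, hPp, hidx⟩ χ hdvd
    obtain ⟨n, ρ, hirr, hρ⟩ := χ.2
    have _i : ρ.IsIrreducible := hirr
    have _j : P.Normal := hPn
    have h1 := Cfsg.Agent.S0169.result ρ P hab
    rw [Module.finrank_fin_fun] at h1
    have h2 : Cfsg.charDegree (χ : G → ℂ) = n := by
      unfold Cfsg.charDegree
      rw [← hρ, Representation.char_one, Module.finrank_fin_fun, Complex.natCast_re,
        Nat.floor_natCast]
    rw [h2] at hdvd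
    exact hidx (dvd_trans hdvd h1)
  · intro h
    have hPD : PD p G := by
      intro χ hχ b hb hpb
      apply h ⟨χ, hχ⟩
      have h2 : Cfsg.charDegree χ = b := by
        unfold Cfsg.charDegree
        rw [hb, Complex.natCast_re, Nat.floor_natCast]
      show p ∣ Cfsg.charDegree χ
      rw [h2]
      exact hpb
    obtain ⟨S, hSn, hSp, hSi⟩ := NS_of_solvable p (Nat.card G) G rfl hsolv hPD
    exact ⟨S, hSn, abelian_of_NS p S hSn hSp hPD, hSp, hSi⟩

end Cfsg.Agent.S4493
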