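import Cfsg.Statements.S4495

import Mathlib

set_option autoImplicit false
open Cfsg
open scoped Pointwise

namespace Cfsg.Agent.S4495

open Subgroup

theorem ord_of_mem {G : Type*} [Group G] [Finite G] (p : ℕ) (hp : p.Prime) (x : G) (hx : orderOf x = p)
    (y : G) (hy : y ∈ zpowers x) (hy1 : y ≠ 1) : orderOf y = p := by
  obtain ⟨k, rfl⟩ := mem_zpowers_iff.mp hy
  have h1 : (x ^ k) ^ p = 1 := by
    rw [← zpow_natCast, ← zpow_mul, mul_comm, zpow_mul, zpow_natCast, ← hx, pow_orderOf_eq_one,
      one_zpow]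
  have h2 := orderOf_dvd_of_pow_eq_one h1
  rcases (Nat.dvd_prime hp).mp h2 with h | h
  · exact absurd (orderOf_eq_one_iff.mp h) hy1
  · exact h

theorem gen_of_mem {G : Type*} [Group G] [Finite G] (p : ℕ) (hp : p.Prime) (x : G) (hx : orderOf x = p)
    (y : G) (hy : y ∈ zpowers x) (hy1 : y ≠ 1) : zpowers y = zpowers x := by
  apply Subgroup.eq_of_le_of_card_ge
  · rwa [zpowers_le]
  · rw [Nat.card_zpowers, Nat.card_zpowers, hx, ord_of_mem p hp x hx y hy hy1]

theorem cent_of_mem {G : Type*} [Group G] [Finite G] (p : ℕ) (hp : p.Prime) (x : G) (hx : orderOf x = p)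
    (hC : Subgroup.centralizer ({x} : Set G) = Subgroup.zpowers x)
    (y : G) (hy : y ∈ zpowers x) (hy1 : y ≠ 1) (g : G) (hg : g * y = y * g) : g ∈ zpowers x := by
  rw [← hC, mem_centralizer_iff]
  intro z hz
  rw [Set.mem_singleton_iff.mp hz]
  have hxz : x ∈ zpowers y := by rw [gen_of_mem p hp x hx y hy hy1]; exact mem_zpowers x
  obtain ⟨k, hk⟩ := mem_zpowers_iff.mp hxz
  have hcm : Commute g y := hg
  rw [← hk]
  exact (hcm.zpow_right k).eq.symm

theorem x_ne_one {G : Type*} [Group G] (p : ℕ) (hp : p.Prime) (x : G) (hx : orderOf x = p) :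
    x ≠ 1 := by
  intro h
  rw [h, orderOf_one] at hx
  exact hp.one_lt.ne' hx.symm

theorem sylow_eq {G : Type*} [Group G] [Finite G] (p : ℕ) (hp : p.Prime) (x : G) (hx : orderOf x = p)
    (hC : Subgroup.centralizer ({x} : Set G) = Subgroup.zpowers x) [Fact p.Prime] :
    ∃ S : Sylow p G, (S : Subgroup G) = zpowers x := by
  have hP : IsPGroup p (zpowers x) :=
    IsPGroup.of_card (n := 1) (by rw [Nat.card_zpowers, hx, pow_one])
  obtain ⟨S, hS⟩ := hP.exists_le_sylow
  refine ⟨S, le_antisymm ?_ hS⟩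
  have hx1 : x ≠ 1 := x_ne_one p hp x hx
  haveI : Nontrivial (S : Subgroup G) :=
    ⟨⟨⟨x, hS (mem_zpowers x)⟩, 1, fun h => hx1 (congrArg Subtype.val h)⟩⟩
  haveI := S.2.center_nontrivial
  obtain ⟨z, hz1⟩ := exists_ne (1 : center (S : Subgroup G))
  have hzc : ∀ s : (S : Subgroup G), s * (z : (S : Subgroup G)) = (z : (S : Subgroup G)) * s :=
    fun s => (mem_center_iff.mp z.2 s)
  have hzx : (((z : (S : Subgroup G)) : G)) ∈ zpowers x := by
    rw [← hC, mem_centralizer_iff]
    intro w hw
    rw [Set.mem_singleton_iff.mp hw]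
    exact congrArg Subtype.val (hzc ⟨x, hS (mem_zpowers x)⟩)
  have hz1' : (((z : (S : Subgroup G)) : G)) ≠ 1 := by
    intro h
    apply hz1
    apply Subtype.ext
    apply Subtype.ext
    exact h
  intro s hs
  exact cent_of_mem p hp x hx hC _ hzx hz1' s (congrArg Subtype.val (hzc ⟨s, hs⟩))

theorem conj_into {G : Type*} [Group G] [Finite G] (p : ℕ) (hp : p.Prime) (x : G) (hx : orderOf x = p)
    (hC : Subgroup.centralizer ({x} : Set G) = Subgroup.zpowers x)
    (g : G) (hg : orderOf g = p) : ∃ c : G, c * g * c⁻¹ ∈ zpowers x := by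
  haveI : Fact p.Prime := ⟨hp⟩
  obtain ⟨S, hS⟩ := sylow_eq p hp x hx hC
  have hP : IsPGroup p (zpowers g) :=
    IsPGroup.of_card (n := 1) (by rw [Nat.card_zpowers, hg, pow_one])
  obtain ⟨Q, hQ⟩ := hP.exists_le_sylow
  obtain ⟨c, hc⟩ := MulAction.exists_smul_eq G Q S
  refine ⟨c, ?_⟩
  rw [← hS, ← hc, Sylow.coe_subgroup_smul]
  have := Subgroup.smul_mem_pointwise_smul g (MulAut.conj c) (Q : Subgroup G) (hQ (mem_zpowers g))
  simpa [MulAut.smul_def] using this

theorem norm_of_conj {G : Type*} [Group G] [Finite G] (p : ℕ) (hp : p.Prime) (x : G) (hx : orderOf x = p)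
    (y y' : G) (hy : y ∈ zpowers x) (hy1 : y ≠ 1) (hy' : y' ∈ zpowers x) (c : G)
    (hc : c * y * c⁻¹ = y') :
    c ∈ normalizer ((zpowers x : Subgroup G) : Set G) := by
  have hy'1 : y' ≠ 1 := by
    intro h
    rw [h] at hc
    apply hy1
    have h3 : y = c⁻¹ * (c * y * c⁻¹) * c := by group
    rw [h3, hc]; group
  have key : ∀ (a b : G), a ∈ zpowers x → a ≠ 1 → b ∈ zpowers x → ∀ d : G, d * a * d⁻¹ = b →
      ∀ z ∈ zpowers x, d * z * d⁻¹ ∈ zpowers x := by
    intro a b ha ha1 hb d hd z hz
    rw [← gen_of_mem p hp x hx a ha ha1] at hz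
    obtain ⟨k, rfl⟩ := mem_zpowers_iff.mp hz
    rw [← conj_zpow, hd]
    exact zpow_mem hb k
  rw [mem_normalizer_iff]
  intro z
  constructor
  · exact key y y' hy hy1 hy' c hc z
  · intro hz
    have h2 := key y' y hy' hy'1 hy c⁻¹ (by rw [← hc]; group) _ hz
    have h3 : c⁻¹ * (c * z * c⁻¹) * c⁻¹⁻¹ = z := by group
    rwa [h3] at h2

theorem card_filter_mem {G : Type*} [Group G] [Fintype G] (H : Subgroup G) [DecidablePred (· ∈ H)] :
    (Finset.univ.filter (· ∈ H)).card = Nat.card H := by
  rw [Nat.card_eq_fintype_card]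
  exact (Fintype.card_of_subtype _ (by simp)).symm

theorem count_le {G : Type*} [Group G] [Finite G] (p : ℕ) (hp : p.Prime) (x : G) (hx : orderOf x = p)
    (hC : Subgroup.centralizer ({x} : Set G) = Subgroup.zpowers x) :
    (zpowers x).relIndex (normalizer ((zpowers x : Subgroup G) : Set G)) *
        Nat.card {C : ConjClasses G // ∃ g ∈ C.carrier, orderOf g = p} ≤ p - 1 ∧
    (normalizer ((zpowers x : Subgroup G) : Set G) = zpowers x →
      Nat.card {C : ConjClasses G // ∃ g ∈ C.carrier, orderOf g = p} = p - 1) := by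
  classical
  haveI := Fintype.ofFinite G
  set P := zpowers x with hPdef
  set N := normalizer (P : Set G) with hNdef
  have hPN : P ≤ N := le_normalizer
  let s : Finset G := Finset.univ.filter (fun y => y ∈ P ∧ y ≠ 1)
  have hsmem : ∀ y, y ∈ s ↔ y ∈ P ∧ y ≠ 1 := by
    intro y; simp [s]
  have hs : s.card = p - 1 := by
    have h1 : s = (Finset.univ.filter (fun y => y ∈ P)).erase 1 := by
      ext y; simp [s, and_comm]
    rw [h1, Finset.card_erase_of_mem (by simp [P.one_mem]), card_filter_mem, Nat.card_zpowers, hx]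
  have ht : Nat.card {C : ConjClasses G // ∃ g ∈ C.carrier, orderOf g = p}
      = (s.image ConjClasses.mk).card := by
    rw [Nat.card_eq_fintype_card]
    apply Fintype.card_of_subtype
    intro C
    rw [Finset.mem_image]
    constructor
    · rintro ⟨y, hy, rfl⟩
      have hy' := (hsmem y).mp hy
      exact ⟨y, ConjClasses.mem_carrier_mk, ord_of_mem p hp x hx y hy'.1 hy'.2⟩
    · rintro ⟨g, hgC, hg⟩
      obtain ⟨c, hc⟩ := conj_into p hp x hx hC g hg
      refine ⟨c * g * c⁻¹, ?_, ?_⟩
      · rw [hsmem]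
        refine ⟨hc, ?_⟩
        intro h
        have hg1 : g = 1 := by
          have h3 : g = c⁻¹ * (c * g * c⁻¹) * c := by group
          rw [h3, h]; group
        exact x_ne_one p hp g hg hg1
      · rw [← ConjClasses.mem_carrier_iff_mk_eq.mp hgC]
        rw [ConjClasses.mk_eq_mk_iff_isConj, isConj_comm, isConj_iff]
        exact ⟨c, rfl⟩
  have hcardN : (Finset.univ.filter (· ∈ N)).card = P.relIndex N * p := by
    rw [card_filter_mem]
    have h1 := Subgroup.card_mul_index (P.subgroupOf N)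
    have h2 : Nat.card (P.subgroupOf N) = p := by
      rw [Nat.card_congr (Subgroup.subgroupOfEquivOfLe hPN).toEquiv, Nat.card_zpowers, hx]
    rw [h2] at h1
    rw [← h1, mul_comm]; rfl
  have hfib : ∀ C ∈ s.image ConjClasses.mk,
      P.relIndex N ≤ (s.filter (fun y => ConjClasses.mk y = C)).card := by
    intro C hCmem
    obtain ⟨y₀, hy₀, rfl⟩ := Finset.mem_image.mp hCmem
    have hy₀' := (hsmem y₀).mp hy₀
    have hmaps : ∀ n ∈ Finset.univ.filter (· ∈ N),
        n * y₀ * n⁻¹ ∈ s.filter (fun y => ConjClasses.mk y = ConjClasses.mk y₀) := by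
      intro n hn
      have hnN : n ∈ N := (Finset.mem_filter.mp hn).2
      rw [Finset.mem_filter, hsmem]
      refine ⟨⟨(mem_normalizer_iff.mp hnN y₀).mp hy₀'.1, ?_⟩, ?_⟩
      · intro h; apply hy₀'.2
        have h3 : y₀ = n⁻¹ * (n * y₀ * n⁻¹) * n := by group
        rw [h3, h]; group
      · rw [ConjClasses.mk_eq_mk_iff_isConj, isConj_comm, isConj_iff]; exact ⟨n, rfl⟩
    have hle := Finset.card_le_mul_card_image_of_maps_to hmaps p (by
      intro b hb
      rcases Finset.eq_empty_or_nonempty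
        (Finset.filter (fun a => a * y₀ * a⁻¹ = b) (Finset.univ.filter (· ∈ N))) with hemp | hne
      · rw [hemp]; simp
      · obtain ⟨n₀, hn₀⟩ := hne
        have hn₀' := (Finset.mem_filter.mp hn₀).2
        calc _ ≤ (Finset.univ.filter (· ∈ P)).card := by
              apply Finset.card_le_card_of_injOn (fun n => n₀⁻¹ * n)
              · intro n hn
                have hn' := (Finset.mem_filter.mp (Finset.mem_coe.mp hn)).2
                simp only [Finset.coe_filter, Finset.mem_univ, true_and, Set.mem_setOf_eq]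
                apply cent_of_mem p hp x hx hC y₀ hy₀'.1 hy₀'.2
                have h5 : n * y₀ * n⁻¹ = n₀ * y₀ * n₀⁻¹ := hn'.trans hn₀'.symm
                calc n₀⁻¹ * n * y₀ = n₀⁻¹ * (n * y₀ * n⁻¹) * n := by group
                  _ = y₀ * (n₀⁻¹ * n) := by rw [h5]; group
              · intro a _ b _ hab
                exact mul_left_cancel hab
          _ = p := by rw [card_filter_mem, Nat.card_zpowers, hx])
    rw [hcardN] at hle
    exact Nat.le_of_mul_le_mul_left (by rw [mul_comm]; exact hle) hp.pos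
  have hI := Finset.mul_card_image_le_card s (P.relIndex N) hfib
  rw [hs, ← ht] at hI
  refine ⟨hI, ?_⟩
  intro hNP
  rw [ht, ← hs]
  apply Finset.card_image_of_injOn
  intro y hy y' hy' hyy'
  have hy2 := (hsmem y).mp (Finset.mem_coe.mp hy)
  have hy2' := (hsmem y').mp (Finset.mem_coe.mp hy')
  rw [ConjClasses.mk_eq_mk_iff_isConj, isConj_iff] at hyy'
  obtain ⟨c, hc⟩ := hyy'
  have hcN : c ∈ N := norm_of_conj p hp x hx y y' hy2.1 hy2.2 hy2'.1 c hc
  rw [hNP] at hcN
  obtain ⟨i, rfl⟩ := mem_zpowers_iff.mp hcN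
  obtain ⟨j, rfl⟩ := mem_zpowers_iff.mp hy2.1
  rw [← hc, ← zpow_add, ← zpow_neg, ← zpow_add]
  congr 1; ring

theorem idx_le {G : Type*} [Group G] [Finite G] (p : ℕ) (hp : p.Prime) (x : G) (hx : orderOf x = p)
    (hC : Subgroup.centralizer ({x} : Set G) = Subgroup.zpowers x)
    (hne : normalizer ((zpowers x : Subgroup G) : Set G) ≠ zpowers x) :
    (commutator G).index ≤ (zpowers x).relIndex (normalizer ((zpowers x : Subgroup G) : Set G)) := by
  haveI : Fact p.Prime := ⟨hp⟩
  obtain ⟨S, hS⟩ := sylow_eq p hp x hx hC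
  have hPN : zpowers x ≤ normalizer ((zpowers x : Subgroup G) : Set G) := le_normalizer
  obtain ⟨n, hnN, hnP⟩ : ∃ n, n ∈ normalizer ((zpowers x : Subgroup G) : Set G) ∧ n ∉ zpowers x := by
    by_contra hcon
    push_neg at hcon
    exact hne (le_antisymm hcon hPN)
  have h1 : n * x * n⁻¹ ∈ zpowers x := (mem_normalizer_iff.mp hnN x).mp (mem_zpowers x)
  have h2 : n * x * n⁻¹ * x⁻¹ ∈ zpowers x :=
    (zpowers x).mul_mem h1 ((zpowers x).inv_mem (mem_zpowers x))
  have h3 : n * x * n⁻¹ * x⁻¹ ≠ 1 := by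
    intro h
    apply hnP
    rw [← hC, mem_centralizer_iff]
    intro z hz
    rw [Set.mem_singleton_iff.mp hz]
    have h4 : n * x * n⁻¹ = x := by rw [← mul_inv_eq_one]; exact h
    calc x * n = (n * x * n⁻¹) * n := by rw [h4]
      _ = n * x := by group
  have h4 : n * x * n⁻¹ * x⁻¹ ∈ commutator G := by
    have h5 := Subgroup.commutator_mem_commutator (Subgroup.mem_top n) (Subgroup.mem_top x)
    rw [commutatorElement_def] at h5
    rw [_root_.commutator_def]; exact h5
  have hPle : zpowers x ≤ commutator G := by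
    rw [← gen_of_mem p hp x hx _ h2 h3, zpowers_le]; exact h4
  have hfr : normalizer ((zpowers x : Subgroup G) : Set G) ⊔ commutator G = ⊤ := by
    have h6 := Sylow.normalizer_sup_eq_top' S (N := commutator G) (by rw [hS]; exact hPle)
    have h7 : normalizer ((S : Subgroup G) : Set G) ⊔ commutator G = ⊤ := h6
    rw [hS] at h7
    exact h7
  have e1 : (commutator G).index
      = (commutator G).relIndex (normalizer ((zpowers x : Subgroup G) : Set G)) := by
    rw [← relIndex_top_right, ← hfr, relIndex_sup_right]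
  rw [e1, ← inf_relIndex_right]
  apply relIndex_le_of_le_left (le_inf hPle hPN)
  show ((zpowers x).subgroupOf _).index ≠ 0
  exact Subgroup.index_ne_zero_of_finite

theorem idx_eq {G : Type*} [Group G] [Finite G] (p : ℕ) (hp : p.Prime) (x : G) (hx : orderOf x = p)
    (hC : Subgroup.centralizer ({x} : Set G) = Subgroup.zpowers x)
    (hN : normalizer ((zpowers x : Subgroup G) : Set G) = zpowers x) :
    (commutator G).index = p := by
  haveI : Fact p.Prime := ⟨hp⟩
  obtain ⟨S, hS⟩ := sylow_eq p hp x hx hC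
  have hcomm : ∀ a ∈ zpowers x, ∀ b ∈ zpowers x, a * b = b * a := by
    intro a ha b hb
    obtain ⟨i, rfl⟩ := mem_zpowers_iff.mp ha
    obtain ⟨j, rfl⟩ := mem_zpowers_iff.mp hb
    rw [← zpow_add, ← zpow_add, add_comm]
  have hNC : normalizer ((S : Subgroup G) : Set G) ≤ centralizer ((S : Subgroup G) : Set G) := by
    rw [hS, hN]
    intro a ha
    rw [mem_centralizer_iff]
    intro b hb
    exact hcomm b hb a ha
  have hK := MonoidHom.ker_transferSylow_isComplement' S hNC
  set K := (MonoidHom.transferSylow S hNC).ker with hKdef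
  have hKn : K.Normal := MonoidHom.normal_ker _
  have hidx : K.index = p := by
    rw [hK.symm.index_eq_card, hS, Nat.card_zpowers, hx]
  have hdisj : ∀ a, a ∈ K → a ∈ zpowers x → a = 1 := by
    intro a haK haP
    have h0 := hK.disjoint
    rw [Subgroup.disjoint_def] at h0
    exact h0 haK (hS ▸ haP)
  have h1 : commutator G ≤ K := by
    rw [_root_.commutator_def, Subgroup.commutator_le]
    intro a _ b _
    rw [hKdef, MonoidHom.mem_ker, map_commutatorElement]
    rw [commutatorElement_eq_one_iff_mul_comm]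
    apply Subtype.ext
    exact hcomm _ (hS ▸ (MonoidHom.transferSylow S hNC a).2) _
      (hS ▸ (MonoidHom.transferSylow S hNC b).2)
  have h2 : K ≤ commutator G := by
    have hψ : ∀ k : K, (k : G) * x * (k : G)⁻¹ * x⁻¹ ∈ K := by
      intro k
      have h3 : (k : G) * x * (k : G)⁻¹ * x⁻¹ = (k : G) * (x * (k : G)⁻¹ * x⁻¹) := by group
      rw [h3]
      exact K.mul_mem k.2 (hKn.conj_mem _ (K.inv_mem k.2) x)
    have hinj : Function.Injective (fun k : K => (⟨_, hψ k⟩ : K)) := by
      intro k k' hkk'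
      have h3 : (k : G) * x * (k : G)⁻¹ * x⁻¹ = (k' : G) * x * (k' : G)⁻¹ * x⁻¹ :=
        congrArg Subtype.val hkk'
      have h4 : (k' : G)⁻¹ * (k : G) ∈ zpowers x := by
        rw [← hC, mem_centralizer_iff]
        intro z hz
        rw [Set.mem_singleton_iff.mp hz]
        have h5 : (k : G) * x * (k : G)⁻¹ = (k' : G) * x * (k' : G)⁻¹ := mul_right_cancel h3
        calc x * ((k' : G)⁻¹ * (k : G))
            = (k' : G)⁻¹ * ((k' : G) * x * (k' : G)⁻¹) * (k : G) := by group
          _ = (k' : G)⁻¹ * (k : G) * x := by rw [← h5]; group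
      have h6 := hdisj _ (K.mul_mem (K.inv_mem k'.2) k.2) h4
      apply Subtype.ext
      rw [inv_mul_eq_one] at h6
      exact h6.symm
    have hsurj := Finite.surjective_of_injective hinj
    intro k hk
    obtain ⟨k₀, hk₀⟩ := hsurj ⟨k, hk⟩
    have h7 : (k₀ : G) * x * (k₀ : G)⁻¹ * x⁻¹ = k := congrArg Subtype.val hk₀
    rw [← h7, _root_.commutator_def]
    have h8 := Subgroup.commutator_mem_commutator (Subgroup.mem_top (k₀ : G)) (Subgroup.mem_top x)
    rwa [commutatorElement_def] at h8
  rw [le_antisymm h1 h2, hidx]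

theorem result {G : Type*} [Group G] [Finite G] (p : ℕ) (hp : p.Prime) (x : G) (hx : orderOf x = p) (hC : Subgroup.centralizer ({x} : Set G) = Subgroup.zpowers x) (t : ℕ) (ht : Nat.card {C : ConjClasses G // ∃ g ∈ C.carrier, orderOf g = p} = t) : (t ≠ p - 1 → (commutator G).index * t ≤ p - 1) ∧ (t = p - 1 → (commutator G).index = p) := by
  obtain ⟨hI, hII⟩ := count_le p hp x hx hC
  rw [ht] at hI hII
  constructor
  · intro htne
    have hne : Subgroup.normalizer ((Subgroup.zpowers x : Subgroup G) : Set G) ≠ Subgroup.zpowers x :=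
      fun h => htne (hII h)
    have h1 := idx_le p hp x hx hC hne
    exact le_trans (Nat.mul_le_mul_right t h1) hI
  · intro hte
    apply idx_eq p hp x hx hC
    rw [hte] at hI
    have hp1 : 0 < p - 1 := Nat.sub_pos_of_lt hp.one_lt
    have he0 : (Subgroup.zpowers x).relIndex
        (Subgroup.normalizer ((Subgroup.zpowers x : Subgroup G) : Set G)) ≠ 0 := by
      show ((Subgroup.zpowers x).subgroupOf _).index ≠ 0
      exact Subgroup.index_ne_zero_of_finite
    have he1 : (Subgroup.zpowers x).relIndex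
        (Subgroup.normalizer ((Subgroup.zpowers x : Subgroup G) : Set G)) ≤ 1 := by
      by_contra h; push_neg at h; nlinarith
    have he : (Subgroup.zpowers x).relIndex
        (Subgroup.normalizer ((Subgroup.zpowers x : Subgroup G) : Set G)) = 1 := by omega
    exact le_antisymm (Subgroup.relIndex_eq_one.mp he) Subgroup.le_normalizer

end Cfsg.Agent.S4495
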