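import Mathlib
import Cfsg.Statements.S4498
import Cfsg.Agent.Lib.Helper3.Char
import Cfsg.Agent.Lib.Helper3.CharArith
import Cfsg.Agent.Lib.Helper3.BlkLocal
import Cfsg.Agent.Lib.Helper3.BlkOsima
import Cfsg.Agent.Lib.Helper3.BlkPQ

set_option autoImplicit false
open Cfsg
open Cfsg.Agent.Lib.Helper3.Char Cfsg.Agent.Lib.Helper3.CharArith Cfsg.Agent.Lib.Helper3.BlkLocal Cfsg.Agent.Lib.Helper3.BlkOsima Cfsg.Agent.Lib.Helper3.BlkPQ

namespace Cfsg.Agent.S4498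

theorem result {G : Type*} [Group G] [Finite G] (p q : ℕ) [Fact p.Prime] [Fact q.Prime] (hpq : p ≠ q) (hp : p ∣ Nat.card G) (hq : q ∣ Nat.card G) (hno : ∀ g : G, orderOf g ≠ p * q) (Mp Mq : Ideal Cfsg.AlgInt) (hMp : Cfsg.IsPModular p Mp) (hMq : Cfsg.IsPModular q Mq) : ∃ χ : Cfsg.IrrCharacter G, (χ : G → ℂ) ≠ (fun _ => 1) ∧ χ ∈ Cfsg.principalBlock Mp G ∧ χ ∈ Cfsg.principalBlock Mq G := by
  classical
  have _fg : Fintype G := Fintype.ofFinite G
  have _fi : Fintype (Cfsg.IrrCharacter G) := Fintype.ofFinite _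
  have hMpp := hMp.2.1.isPrime
  have hMqp := hMq.2.1.isPrime
  by_contra hcon
  push Not at hcon
  obtain ⟨y, hy⟩ := exists_prime_orderOf_dvd_card' p hp
  obtain ⟨u, hu⟩ := exists_prime_orderOf_dvd_card' q hq
  have h1 := pq_vanish p q hpq Mp Mq hMp hMq hno (Cfsg.principalBlock Mp G)
    ⟨⟨fun _ => 1, isIrr_one G⟩, rfl⟩ (Cfsg.principalBlock Mq G)
    ⟨⟨fun _ => 1, isIrr_one G⟩, rfl⟩ y (by rw [hy]) u (by rw [hu])
  rw [Finset.sum_eq_single (⟨fun _ => 1, isIrr_one G⟩ : Cfsg.IrrCharacter G)] at h1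
  · have e1 : (⟨fun _ => 1, isIrr_one G⟩ : Cfsg.IrrCharacter G) ∈ Cfsg.principalBlock Mp G :=
      sb_refl hMpp _
    have e2 : (⟨fun _ => 1, isIrr_one G⟩ : Cfsg.IrrCharacter G) ∈ Cfsg.principalBlock Mq G :=
      sb_refl hMqp _
    rw [if_pos e1, if_pos e2] at h1
    norm_num at h1
  · intro χ _ hne
    by_cases h2 : χ ∈ Cfsg.principalBlock Mp G
    · by_cases h3 : χ ∈ Cfsg.principalBlock Mq G
      · exfalso
        exact hcon χ (fun h => hne (Subtype.ext h)) h2 h3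
      · rw [if_neg h3, mul_zero]
    · rw [if_neg h2, zero_mul]
  · intro h
    exact absurd (Finset.mem_univ _) h

end Cfsg.Agent.S4498
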