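import Mathlib
import Cfsg.Statements.S4499
import Cfsg.Agent.Lib.Helper3.BlkTilde
import Cfsg.Agent.Lib.Helper3.BlkTilde2
import Cfsg.Agent.Lib.Helper3.Char
import Cfsg.Agent.Lib.Helper3.CharCore
import Cfsg.Agent.Lib.Helper3.CharInt
import Cfsg.Agent.Lib.Helper3.CharNormal
import Cfsg.Agent.Lib.Helper3.BlkOrth4
import Cfsg.Agent.Lib.Helper3.BlkOsima
import Cfsg.Agent.Lib.Helper3.BlkLocal
import Cfsg.Agent.Lib.Helper3.BlkRank
import Cfsg.Agent.S0923

set_option autoImplicit false
open Cfsg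
open Cfsg.Agent.Lib.Helper3.BlkTilde Cfsg.Agent.Lib.Helper3.BlkTilde2 Cfsg.Agent.Lib.Helper3.Char Cfsg.Agent.Lib.Helper3.CharCore Cfsg.Agent.Lib.Helper3.CharInt Cfsg.Agent.Lib.Helper3.CharNormal Cfsg.Agent.Lib.Helper3.BlkOrth4 Cfsg.Agent.Lib.Helper3.BlkOsima Cfsg.Agent.Lib.Helper3.BlkLocal Cfsg.Agent.Lib.Helper3.BlkRank
open scoped ComplexConjugate

namespace Cfsg.Agent.S4499

theorem result {G : Type*} [Group G] [Finite G] (p : ℕ) [Fact p.Prime] (M : Ideal Cfsg.AlgInt) (hM : Cfsg.IsPModular p M) (hpa : p ∣ Nat.card G) (B : Set (Cfsg.IrrCharacter G)) (hB : Cfsg.IsPBlock M B) (χ : Cfsg.IrrCharacter G) (hχ : χ ∈ B) (hdiv : p ^ ((Nat.card G).factorization p - 1) ∣ Cfsg.charDegree (χ : G → ℂ)) (ψ : Cfsg.IrrCharacter G) (hψ : ψ ∈ B) : p ^ ((Nat.card G).factorization p - 1) ∣ Cfsg.charDegree (ψ : G → ℂ) := by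
  classical
  have _fg : Fintype G := Fintype.ofFinite G
  have _fi : Fintype (Cfsg.IrrCharacter G) := Fintype.ofFinite _
  have hp : p.Prime := Fact.out
  have hMp : M.IsPrime := hM.2.1.isPrime
  have hG0 : Nat.card G ≠ 0 := Nat.card_pos.ne'
  have ha1 : 1 ≤ (Nat.card G).factorization p :=
    (hp.dvd_iff_one_le_factorization hG0).mp hpa
  obtain ⟨d, hd0, hd1, hddvd⟩ := irr_degree_dvd_card χ.2
  obtain ⟨dψ, hdψ0, hdψ1, -⟩ := irr_degree_dvd_card ψ.2
  rw [charDegree_eq hd1] at hdiv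
  rw [charDegree_eq hdψ1]
  have hba : d.factorization p ≤ (Nat.card G).factorization p :=
    (Nat.factorization_le_iff_dvd hd0.ne' hG0).mpr hddvd p
  have hb1 : (Nat.card G).factorization p - 1 ≤ d.factorization p :=
    (hp.pow_dvd_iff_le_factorization hd0.ne').mp hdiv
  by_cases hcase : d.factorization p = (Nat.card G).factorization p
  · have h1 : ¬ p ∣ Nat.card G / Cfsg.charDegree (χ : G → ℂ) :=
      not_dvd_of_val hp χ (by rw [charDegree_eq hd1, hcase])
    have h2 := singleton_of_not_dvd hM χ h1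
    have h3 : B = {χ} := by
      rw [← h2]
      exact Cfsg.Agent.S0923.block_eq_of_mem hMp B _ hB ⟨χ, rfl⟩ χ hχ (sb_refl hMp _)
    rw [h3] at hψ
    have h4 : ψ = χ := hψ
    rw [h4] at hdψ1
    have h5 : dψ = d := by
      have h6 := hdψ1.symm.trans hd1
      exact_mod_cast h6
    rw [h5]
    exact hdiv
  · have hb : d.factorization p = (Nat.card G).factorization p - 1 := by omega
    by_contra hcon
    have hψval : dψ.factorization p + 1 ≤ (Nat.card G).factorization p - 1 := by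
      have h1 : ¬ ((Nat.card G).factorization p - 1 ≤ dψ.factorization p) := fun h =>
        hcon ((hp.pow_dvd_iff_le_factorization hdψ0.ne').mpr h)
      omega
    choose N hN using fun φ : Cfsg.IrrCharacter G => tilde_int p hp χ φ
    have hNdvd : ∀ φ : Cfsg.IrrCharacter G,
        ((p ^ ((Nat.card G).factorization p - 1) : ℕ) : ℤ) ∣ N φ := by
      intro φ
      have h1 := tilde_dvd p hp χ φ d hd1 (N φ) (hN φ)
      rwa [hb] at h1
    have hsb : Cfsg.SameBlock M (χ : G → ℂ) (ψ : G → ℂ) := by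
      obtain ⟨χ₁, rfl⟩ := hB
      exact sb_trans hMp (sb_symm hχ) hψ
    have h1 := tilde_diff_li hM χ χ ψ hsb (N χ) (N ψ) (hN χ) (hN ψ)
    rw [hd1, hdψ1] at h1
    have h2 : MemLocalIdeal M ((N ψ : ℂ) / (dψ : ℂ)) := by
      rw [li_rat_iff hM _ _ hdψ0.ne']
      exact (Int.natCast_dvd_natCast.mpr (pow_dvd_pow p hψval)).trans (hNdvd ψ)
    have h3 : MemLocalIdeal M ((N χ : ℂ) / (d : ℂ)) := by
      have h4 := li_add hMp h1 h2
      rwa [sub_add_cancel] at h4
    rw [li_rat_iff hM _ _ hd0.ne', hb, Nat.sub_add_cancel ha1] at h3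
    have hcf := tilde_classFun p ((p ^ (Nat.card G).factorization p : ℕ) : ℂ)
      (char_classFun (isCharacter_of_irr χ.2))
    have hexp : ∀ y : G, (if p ∣ orderOf y then (0 : ℂ) else
        ((p ^ (Nat.card G).factorization p : ℕ) : ℂ) * (χ : G → ℂ) y) =
        ∑ φ : Cfsg.IrrCharacter G, (N φ : ℂ) * (φ : G → ℂ) y := by
      intro y
      refine (congrFun (class_fun_expand _ hcf) y).trans ?_
      rw [Finset.sum_apply]
      refine Finset.sum_congr rfl (fun φ _ => ?_)
      rw [Pi.smul_apply, smul_eq_mul, tilde_inner, hN φ]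
    have hpars : ∑ φ : Cfsg.IrrCharacter G, (N φ) ^ 2 =
        ((p ^ (Nat.card G).factorization p : ℕ) : ℤ) * N χ := by
      have h5 := parseval _ (fun x : G => if p ∣ orderOf x then (0 : ℂ) else
        ((p ^ (Nat.card G).factorization p : ℕ) : ℂ) * (χ : G → ℂ) x) hcf
      have h6 : ∀ φ : Cfsg.IrrCharacter G, Cfsg.classInner (φ : G → ℂ) (fun x : G =>
          if p ∣ orderOf x then (0 : ℂ) else
            ((p ^ (Nat.card G).factorization p : ℕ) : ℂ) * (χ : G → ℂ) x) = (N φ : ℂ) := by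
        intro φ
        rw [classInner_conj_symm, tilde_inner, hN φ, map_intCast]
      have h7 : Cfsg.classInner (fun x : G => if p ∣ orderOf x then (0 : ℂ) else
          ((p ^ (Nat.card G).factorization p : ℕ) : ℂ) * (χ : G → ℂ) x) (fun x : G =>
          if p ∣ orderOf x then (0 : ℂ) else
            ((p ^ (Nat.card G).factorization p : ℕ) : ℂ) * (χ : G → ℂ) x) =
          ((p ^ (Nat.card G).factorization p : ℕ) : ℂ) * (N χ : ℂ) := by
        rw [tilde_inner, ← hN χ]
        congr 1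
        have e : ∀ x : G, (if p ∣ orderOf x then (0 : ℂ) else (χ : G → ℂ) x *
            (starRingEnd ℂ) (if p ∣ orderOf x then (0 : ℂ) else
              ((p ^ (Nat.card G).factorization p : ℕ) : ℂ) * (χ : G → ℂ) x)) =
            ((p ^ (Nat.card G).factorization p : ℕ) : ℂ) *
              (if p ∣ orderOf x then (0 : ℂ) else (χ : G → ℂ) x *
                (starRingEnd ℂ) ((χ : G → ℂ) x)) := by
          intro x
          by_cases hx : p ∣ orderOf x
          · rw [if_pos hx, if_pos hx, mul_zero]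
          · rw [if_neg hx, if_neg hx, if_neg hx, map_mul, Complex.conj_natCast]
            ring
        rw [Finset.sum_congr rfl (fun x _ => e x), ← Finset.mul_sum]
        ring
      have h5' : ((p ^ (Nat.card G).factorization p : ℕ) : ℂ) * (N χ : ℂ) =
          ∑ φ : Cfsg.IrrCharacter G, (N φ : ℂ) * (N φ : ℂ) := by
        rw [← h7, h5]
        refine Finset.sum_congr rfl (fun φ _ => ?_)
        rw [tilde_inner, hN φ, h6 φ]
      have h8 : ((((p ^ (Nat.card G).factorization p : ℕ) : ℤ) * N χ : ℤ) : ℂ) =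
          ((∑ φ : Cfsg.IrrCharacter G, (N φ) ^ 2 : ℤ) : ℂ) := by
        rw [Int.cast_mul, Int.cast_natCast, h5', Int.cast_sum]
        refine Finset.sum_congr rfl (fun φ _ => ?_)
        rw [Int.cast_pow, pow_two]
      exact_mod_cast h8.symm
    have hsq : (N χ) ^ 2 ≤ ((p ^ (Nat.card G).factorization p : ℕ) : ℤ) * N χ := by
      rw [← hpars]
      exact Finset.single_le_sum (fun φ _ => sq_nonneg (N φ)) (Finset.mem_univ χ)
    have hpapos : (0 : ℤ) < ((p ^ (Nat.card G).factorization p : ℕ) : ℤ) := by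
      exact_mod_cast pow_pos hp.pos _
    have hNχ0 : N χ ≠ 0 := by
      intro h0
      have hall0 : ∀ φ : Cfsg.IrrCharacter G, N φ = 0 := by
        intro φ
        have h5 : (N φ) ^ 2 ≤ ∑ φ : Cfsg.IrrCharacter G, (N φ) ^ 2 :=
          Finset.single_le_sum (fun i _ => sq_nonneg (N i)) (Finset.mem_univ φ)
        rw [hpars, h0, mul_zero] at h5
        exact pow_eq_zero_iff (two_ne_zero) |>.mp (le_antisymm h5 (sq_nonneg _))
      have h6 := hexp 1
      rw [if_neg (by rw [orderOf_one]; exact hp.not_dvd_one), hd1] at h6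
      have h7 : ∑ φ : Cfsg.IrrCharacter G, (N φ : ℂ) * (φ : G → ℂ) 1 = 0 :=
        Finset.sum_eq_zero (fun φ _ => by rw [hall0 φ]; simp)
      rw [h7] at h6
      have h8 : ((p ^ (Nat.card G).factorization p : ℕ) : ℂ) ≠ 0 := by
        exact_mod_cast (pow_pos hp.pos _).ne'
      have h9 : (d : ℂ) ≠ 0 := by exact_mod_cast hd0.ne'
      exact mul_ne_zero h8 h9 h6
    have hpos : 0 < N χ := by
      rcases lt_trichotomy (N χ) 0 with h | h | h
      · nlinarith [sq_nonneg (N χ)]
      · exact absurd h hNχ0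
      · exact h
    have hle : ((p ^ (Nat.card G).factorization p : ℕ) : ℤ) ≤ N χ := Int.le_of_dvd hpos h3
    have hNχ : N χ = ((p ^ (Nat.card G).factorization p : ℕ) : ℤ) := by nlinarith
    have hzero : ∀ φ : Cfsg.IrrCharacter G, φ ≠ χ → N φ = 0 := by
      intro φ hφ
      have h5 : (N χ) ^ 2 + (N φ) ^ 2 ≤ ∑ φ : Cfsg.IrrCharacter G, (N φ) ^ 2 := by
        have h6 := Finset.sum_le_sum_of_subset_of_nonneg (Finset.subset_univ {χ, φ})
          (f := fun i : Cfsg.IrrCharacter G => (N i) ^ 2) (fun i _ _ => sq_nonneg (N i))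
        rwa [Finset.sum_pair hφ.symm] at h6
      rw [hpars, hNχ] at h5
      have h6 : (N φ) ^ 2 ≤ 0 := by nlinarith
      exact pow_eq_zero_iff (two_ne_zero) |>.mp (le_antisymm h6 (sq_nonneg _))
    have hvan : ∀ y : G, p ∣ orderOf y → (χ : G → ℂ) y = 0 := by
      intro y hy
      have h6 := hexp y
      rw [if_pos hy, Finset.sum_eq_single χ] at h6
      · rw [hNχ] at h6
        have h8 : (((p ^ (Nat.card G).factorization p : ℕ) : ℤ) : ℂ) ≠ 0 := by
          exact_mod_cast (pow_pos hp.pos _).ne'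
        rcases mul_eq_zero.mp h6.symm with h9 | h9
        · exact absurd h9 h8
        · exact h9
      · intro φ _ hφ
        rw [hzero φ hφ]
        simp
      · intro h
        exact absurd (Finset.mem_univ _) h
    have _fp : Fact p.Prime := ⟨hp⟩
    have h7 := not_dvd_of_vanish χ hvan
    have h8 := val_eq_of_not_dvd hp χ h7
    rw [charDegree_eq hd1] at h8
    omega

end Cfsg.Agent.S4499
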