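import Mathlib
import Cfsg.Statements.S4510
import Cfsg.Agent.Lib.Helper3.Char
import Cfsg.Agent.Lib.Helper3.CharCore
import Cfsg.Agent.Lib.Helper3.BlkLocal
import Cfsg.Agent.Lib.Helper3.BlkOsima
import Cfsg.Agent.Lib.Helper3.BlkOrth
import Cfsg.Agent.Lib.Helper3.BlkOrth2
import Cfsg.Agent.Lib.Helper3.BlkOrth4
import Cfsg.Agent.Lib.Helper3.BlkDef
import Cfsg.Agent.Lib.Helper3.BlkMat
import Cfsg.Agent.Lib.Helper3.BlkHeight

set_option autoImplicit false
open Cfsg
open Cfsg.Agent.Lib.Helper3.Char Cfsg.Agent.Lib.Helper3.CharCore Cfsg.Agent.Lib.Helper3.BlkLocal Cfsg.Agent.Lib.Helper3.BlkOsima Cfsg.Agent.Lib.Helper3.BlkOrth Cfsg.Agent.Lib.Helper3.BlkOrth2 Cfsg.Agent.Lib.Helper3.BlkOrth4 Cfsg.Agent.Lib.Helper3.BlkDef Cfsg.Agent.Lib.Helper3.BlkMat Cfsg.Agent.Lib.Helper3.BlkHeight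

namespace Cfsg.Agent.S4510

theorem result {G : Type*} [Group G] [Finite G] (p : ℕ) [Fact p.Prime] (M : Ideal Cfsg.AlgInt) (hM : Cfsg.IsPModular p M) (d : ℕ) (χ ψ : Cfsg.IrrCharacter G) (hχ : Cfsg.blockDefect p (Cfsg.blockOf M (χ : G → ℂ)) = d) (hψ : Cfsg.blockDefect p (Cfsg.blockOf M (ψ : G → ℂ)) = d) : Cfsg.SameBlock M (χ : G → ℂ) (ψ : G → ℂ) ↔ ∀ x : G, ¬ p ∣ orderOf x → (Nat.card (Subgroup.centralizer ({x} : Set G))).factorization p = d → Cfsg.MemLocalIdeal M (Cfsg.centralChar (χ : G → ℂ) x - Cfsg.centralChar (ψ : G → ℂ) x) := by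
  classical
  have _fg : Fintype G := Fintype.ofFinite G
  have _fi : Fintype (Cfsg.IrrCharacter G) := Fintype.ofFinite _
  have _fc : Fintype (ConjClasses G) := Fintype.ofFinite _
  have hMp := hM.2.1.isPrime
  constructor
  · intro h x _ _
    exact h x
  · intro hall
    by_contra hns
    have hB : Cfsg.IsPBlock M (Cfsg.blockOf M (χ : G → ℂ)) := ⟨χ, rfl⟩
    obtain ⟨c, hc1, hc2⟩ := exists_height_zero p (Cfsg.blockOf M (χ : G → ℂ))
      ⟨χ, sb_refl hMp _⟩
    obtain ⟨c', hc1', hc2'⟩ := exists_height_zero p (Cfsg.blockOf M (ψ : G → ℂ))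
      ⟨ψ, sb_refl hMp _⟩
    have hc'B : c' ∉ Cfsg.blockOf M (χ : G → ℂ) := by
      intro hmem
      exact hns (sb_trans hMp hmem (sb_symm hc1'))
    have h1 := om_classes (Cfsg.blockCoeff (Cfsg.blockOf M (χ : G → ℂ)))
      (blockCoeff_classFun _) (c : G → ℂ) (char_classFun (isCharacter_of_irr c.2))
    rw [blockCoeff_om, if_pos hc1, div_self (irr_one_ne_zero c.2)] at h1
    have h2 := om_classes (Cfsg.blockCoeff (Cfsg.blockOf M (χ : G → ℂ)))
      (blockCoeff_classFun _) (c' : G → ℂ) (char_classFun (isCharacter_of_irr c'.2))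
    rw [blockCoeff_om, if_neg hc'B, zero_div] at h2
    have h3 : (1 : ℂ) = ∑ C : ConjClasses G,
        Cfsg.blockCoeff (Cfsg.blockOf M (χ : G → ℂ)) (Quotient.out C) *
        (Cfsg.centralChar (c : G → ℂ) (Quotient.out C) -
          Cfsg.centralChar (c' : G → ℂ) (Quotient.out C)) := by
      simp only [mul_sub, Finset.sum_sub_distrib]
      rw [← h1, ← h2, sub_zero]
    apply not_li_one hMp
    rw [h3]
    apply li_sum hMp
    intro C _
    by_cases hreg : p ∣ orderOf (Quotient.out C)
    · rw [blockCoeff_sing hM _ hB _ hreg, zero_mul]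
      exact li_zero hMp
    · have hidx : Nat.card (Subgroup.centralizer ({Quotient.out C} : Set G)) *
          (Subgroup.centralizer ({Quotient.out C} : Set G)).index = Nat.card G :=
        Subgroup.card_mul_index _
      have hfac : (Nat.card (Subgroup.centralizer ({Quotient.out C} : Set G))).factorization p +
          (Subgroup.centralizer ({Quotient.out C} : Set G)).index.factorization p =
          (Nat.card G).factorization p := by
        rw [← hidx, Nat.factorization_mul Nat.card_pos.ne' Subgroup.index_ne_zero_of_finite]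
        rfl
      rcases lt_trichotomy
        ((Nat.card (Subgroup.centralizer ({Quotient.out C} : Set G))).factorization p) d with
        hlt | heq | hgt
      · apply li_mul_left hMp (osima_fun hMp _ hB _)
        apply li_sub hMp
        · apply central_li_of_small hM
          have hz := height_zero_val p _ c hc1 hc2
          have hdef := hχ
          unfold Cfsg.blockDefect at hdef
          omega
        · apply central_li_of_small hM
          have hz := height_zero_val p _ c' hc1' hc2'
          have hdef := hψ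
          unfold Cfsg.blockDefect at hdef
          omega
      · apply li_mul_left hMp (osima_fun hMp _ hB _)
        have a1 := sb_symm hc1 (Quotient.out C)
        have a2 := hall (Quotient.out C) hreg heq
        have a3 := hc1' (Quotient.out C)
        have a4 := li_add hMp (li_add hMp a1 a2) a3
        have e : Cfsg.centralChar (c : G → ℂ) (Quotient.out C) -
            Cfsg.centralChar (χ : G → ℂ) (Quotient.out C) +
            (Cfsg.centralChar (χ : G → ℂ) (Quotient.out C) -
            Cfsg.centralChar (ψ : G → ℂ) (Quotient.out C)) +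
            (Cfsg.centralChar (ψ : G → ℂ) (Quotient.out C) -
            Cfsg.centralChar (c' : G → ℂ) (Quotient.out C)) =
            Cfsg.centralChar (c : G → ℂ) (Quotient.out C) -
            Cfsg.centralChar (c' : G → ℂ) (Quotient.out C) := by ring
        rw [e] at a4
        exact a4
      · apply li_mul_right hMp _ (lr_sub hMp (lr_of_isIntegral hMp (cc_integral _ c.2 _))
          (lr_of_isIntegral hMp (cc_integral _ c'.2 _)))
        obtain ⟨P₀⟩ : Nonempty (Sylow p (Subgroup.centralizer ({Quotient.out C} : Set G))) :=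
          inferInstance
        apply coeff_li_of_large hM _ hB _ hreg
          ((P₀ : Subgroup (Subgroup.centralizer ({Quotient.out C} : Set G))).map
            (Subgroup.centralizer ({Quotient.out C} : Set G)).subtype) (P₀.isPGroup'.map _)
        · intro x hx
          obtain ⟨t, _, rfl⟩ := hx
          have ht := t.2
          rw [Subgroup.mem_centralizer_iff] at ht
          exact (ht _ rfl).symm
        · intro φ hφ
          have hcard : Nat.card ((P₀ : Subgroup (Subgroup.centralizer ({Quotient.out C} : Set G))).map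
              (Subgroup.centralizer ({Quotient.out C} : Set G)).subtype) =
              p ^ (Nat.card (Subgroup.centralizer ({Quotient.out C} : Set G))).factorization p := by
            rw [Subgroup.card_map_of_injective (Subgroup.subtype_injective _)]
            exact P₀.card_eq_multiplicity
          obtain ⟨n, hn0, hn⟩ := irr_one_pos φ.2
          have hdeg := charDegree_eq hn
          rw [hcard, Nat.factorization_mul (by rw [hdeg]; exact hn0.ne')
            (pow_ne_zero _ (Fact.out : p.Prime).pos.ne'), Nat.factorization_pow]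
          simp only [Finsupp.coe_add, Pi.add_apply, Finsupp.coe_smul, Pi.smul_apply, smul_eq_mul]
          rw [Nat.Prime.factorization_self Fact.out, mul_one]
          have hinf : sInf ((fun χ : Cfsg.IrrCharacter G =>
              (Cfsg.charDegree (χ : G → ℂ)).factorization p) '' (Cfsg.blockOf M (χ : G → ℂ))) ≤
              (Cfsg.charDegree (φ : G → ℂ)).factorization p :=
            Nat.sInf_le ⟨φ, hφ, rfl⟩
          have hdef := hχ
          unfold Cfsg.blockDefect at hdef
          omega

end Cfsg.Agent.S4510
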