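import Cfsg.Statements.S4636

import Mathlib

set_option autoImplicit false
open scoped Pointwise
open Cfsg
open scoped Pointwise

namespace Cfsg.Agent.S4636

theorem aux_norm {G : Type*} [Group G] [Finite G] (Z : Subgroup G) (x : G)
    (h : ∀ z ∈ Z, x * z * x⁻¹ ∈ Z) : x ∈ Subgroup.normalizer (Z : Set G) := by
  rw [Subgroup.mem_normalizer_iff_conj_image_eq]
  apply Set.eq_of_subset_of_ncard_le
  · rintro _ ⟨z, hz, rfl⟩
    exact h z hz
  · rw [Set.ncard_image_of_injective _ (MulAut.conj x).injective]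
  · exact Set.toFinite _

theorem aux_key {G : Type*} [Group G] [Finite G] (p : ℕ) [Fact p.Prime] (P : Subgroup G)
    (hcyc : IsCyclic P) (Z : Subgroup G) (hZ : Z ≤ P) (hZcard : Nat.card Z = p)
    (y : G) (hy : y ∈ P) (hyp : y ^ p = 1) : y ∈ Z := by
  classical
  have hp : 0 < p := (Fact.out : p.Prime).pos
  let _ : Fintype P := Fintype.ofFinite P
  have h1 := IsCyclic.card_pow_eq_one_le (α := P) hp
  have hsub : (Finset.univ.filter (fun a : P => (a : G) ∈ Z)) ⊆
      (Finset.univ.filter (fun a : P => a ^ p = 1)) := by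
    intro a ha
    rw [Finset.mem_filter] at ha ⊢
    refine ⟨Finset.mem_univ _, ?_⟩
    have h2 : (⟨(a : G), ha.2⟩ : Z) ^ p = 1 := by rw [← hZcard]; exact pow_card_eq_one'
    apply Subtype.ext
    have h3 := congrArg Subtype.val h2
    simpa using h3
  have hcardT : (Finset.univ.filter (fun a : P => (a : G) ∈ Z)).card = p := by
    rw [← hZcard, ← Nat.card_congr (Subgroup.subgroupOfEquivOfLe hZ).toEquiv,
      ← Fintype.card_subtype, ← Nat.card_eq_fintype_card]
    rfl
  have heq := Finset.eq_of_subset_of_card_le hsub (by rw [hcardT]; exact h1)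
  have hyS : (⟨y, hy⟩ : P) ∈ Finset.univ.filter (fun a : P => a ^ p = 1) := by
    rw [Finset.mem_filter]
    exact ⟨Finset.mem_univ _, Subtype.ext (by simpa using hyp)⟩
  rw [← heq, Finset.mem_filter] at hyS
  exact hyS.2

theorem aux_Zle {G : Type*} [Group G] [Finite G] (p : ℕ) [Fact p.Prime] (P : Subgroup G)
    (hP : IsPGroup p P) (hcyc : IsCyclic P) (Z : Subgroup G) (hZ : Z ≤ P) (hZcard : Nat.card Z = p)
    (Q : Subgroup G) (hQ : Q ≤ P) (hQ1 : Q ≠ ⊥) : Z ≤ Q := by
  have hQp : IsPGroup p Q := hP.to_le hQ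
  have hdvd : p ∣ Nat.card Q := by
    rcases hQp.card_eq_or_dvd with h | h
    · exact absurd (Subgroup.card_eq_one.mp h) hQ1
    · exact h
  obtain ⟨y, hy⟩ := exists_prime_orderOf_dvd_card' p hdvd
  rw [← Subgroup.orderOf_coe] at hy
  have hle : Subgroup.zpowers (y : G) ≤ Z := by
    rw [Subgroup.zpowers_le]
    apply aux_key p P hcyc Z hZ hZcard (y : G) (hQ y.2)
    rw [← hy, pow_orderOf_eq_one]
  have heq : Subgroup.zpowers (y : G) = Z := by
    apply Subgroup.eq_of_le_of_card_ge hle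
    rw [Nat.card_zpowers, hy, hZcard]
  rw [← heq, Subgroup.zpowers_le]
  exact y.2

theorem aux_N {G : Type*} [Group G] [Finite G] (p : ℕ) [Fact p.Prime] (P : Subgroup G)
    (hcyc : IsCyclic P) (Z : Subgroup G) (hZ : Z ≤ P) (hZcard : Nat.card Z = p)
    (x : G) (h : ∀ z ∈ Z, x * z * x⁻¹ ∈ P) : x ∈ Subgroup.normalizer (Z : Set G) := by
  apply aux_norm
  intro z hz
  apply aux_key p P hcyc Z hZ hZcard _ (h z hz)
  have h2 : (⟨z, hz⟩ : Z) ^ p = 1 := by rw [← hZcard]; exact pow_card_eq_one'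
  have h3 : z ^ p = 1 := by
    have := congrArg Subtype.val h2
    simpa using this
  rw [conj_pow, h3, mul_one, mul_inv_cancel]

theorem result {G : Type*} [Group G] [Finite G] (p : ℕ) [Fact p.Prime] (P : Subgroup G) (hP : IsPGroup p P) (hP1 : P ≠ ⊥) (hcyc : IsCyclic P) (Z : Subgroup G) (hZ : Z ≤ P) (hZcard : Nat.card Z = p) : (∀ x : G, x ∉ Subgroup.normalizer (Z : Set G) → P ⊓ MulAut.conj x • P = ⊥) ∧ ∀ Q : Subgroup G, Q ≤ P → Q ≠ ⊥ → Subgroup.normalizer (Q : Set G) ≤ Subgroup.normalizer (Z : Set G) := by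
  constructor
  · intro x hx
    by_contra hne
    apply hx
    have hQ' : (MulAut.conj x⁻¹ • P) ⊓ P ≠ ⊥ := by
      intro hbot
      apply hne
      rw [eq_bot_iff]
      intro q hq
      rw [Subgroup.mem_bot]
      obtain ⟨hq1, hq2⟩ := hq
      have hq1 : q ∈ P := hq1
      have hq2 : q ∈ MulAut.conj x • P := hq2
      rw [Subgroup.mem_pointwise_smul_iff_inv_smul_mem] at hq2
      have e : (MulAut.conj x)⁻¹ • q = x⁻¹ * q * x := by simp [MulAut.smul_def]
      rw [e] at hq2
      have hmem : x⁻¹ * q * x ∈ (MulAut.conj x⁻¹ • P) ⊓ P := by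
        refine ⟨?_, hq2⟩
        change x⁻¹ * q * x ∈ MulAut.conj x⁻¹ • P
        rw [Subgroup.mem_pointwise_smul_iff_inv_smul_mem]
        have e2 : (MulAut.conj x⁻¹)⁻¹ • (x⁻¹ * q * x) = q := by
          simp [MulAut.smul_def]; group
        rw [e2]
        exact hq1
      rw [hbot, Subgroup.mem_bot] at hmem
      calc q = x * (x⁻¹ * q * x) * x⁻¹ := by group
        _ = 1 := by rw [hmem]; group
    have hZle := aux_Zle p P hP hcyc Z hZ hZcard _ inf_le_right hQ'
    apply aux_N p P hcyc Z hZ hZcard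
    intro z hz
    have h1 : z ∈ MulAut.conj x⁻¹ • P := (hZle hz).1
    rw [Subgroup.mem_pointwise_smul_iff_inv_smul_mem] at h1
    have e : (MulAut.conj x⁻¹)⁻¹ • z = x * z * x⁻¹ := by simp [MulAut.smul_def]
    rw [e] at h1
    exact h1
  · intro Q hQ hQ1 x hx
    have hZle := aux_Zle p P hP hcyc Z hZ hZcard Q hQ hQ1
    apply aux_N p P hcyc Z hZ hZcard
    intro z hz
    apply hQ
    exact (Subgroup.mem_normalizer_iff.mp hx z).mp (hZle hz)

end Cfsg.Agent.S4636
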