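import Mathlib
import Cfsg.Statements.S4652
import Cfsg.Agent.Lib.Helper3.Char
import Cfsg.Agent.Lib.Helper3.CharArith
import Cfsg.Agent.Lib.Helper3.BlkLocal
import Cfsg.Agent.Lib.Helper3.BlkOsima
import Cfsg.Agent.Lib.Helper3.BlkOrth4
import Cfsg.Agent.Lib.Helper3.BlkMinMax2
import Cfsg.Agent.S0906
import Cfsg.Agent.S0908

set_option autoImplicit false
open Cfsg
open Cfsg.Agent.Lib.Helper3.Char Cfsg.Agent.Lib.Helper3.CharArith Cfsg.Agent.Lib.Helper3.BlkLocal Cfsg.Agent.Lib.Helper3.BlkOsima Cfsg.Agent.Lib.Helper3.BlkOrth4 Cfsg.Agent.Lib.Helper3.BlkMinMax2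

namespace Cfsg.Agent.S4652

theorem result {G : Type*} [Group G] [Fintype G] (p : ℕ) [Fact p.Prime] (M : Ideal Cfsg.AlgInt) (hM : Cfsg.IsPModular p M) (D : Subgroup G) : Cfsg.IsDefectGroup p M (Cfsg.principalBlock M G) D ↔ ∃ S : Sylow p G, (S : Subgroup G) = D := by
  classical
  have hMp := hM.2.1.isPrime
  have hB : Cfsg.IsPBlock M (Cfsg.principalBlock M G) := ⟨⟨fun _ => 1, isIrr_one G⟩, rfl⟩
  have hdef : Cfsg.blockDefect p (Cfsg.principalBlock M G) = (Nat.card G).factorization p := by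
    unfold Cfsg.blockDefect
    have h0 : sInf ((fun χ : Cfsg.IrrCharacter G => (Cfsg.charDegree (χ : G → ℂ)).factorization p) ''
        (Cfsg.principalBlock M G)) = 0 := by
      apply Nat.eq_zero_of_le_zero
      apply Nat.sInf_le
      refine ⟨⟨fun _ => 1, isIrr_one G⟩, sb_refl hMp _, ?_⟩
      have h1 : Cfsg.charDegree (fun _ : G => (1 : ℂ)) = 1 := charDegree_eq (n := 1) (by simp)
      show (Cfsg.charDegree (fun _ : G => (1 : ℂ))).factorization p = 0
      rw [h1]
      simp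
    rw [h0, Nat.sub_zero]
  constructor
  · intro hD
    have hcard := Cfsg.Agent.S0908.result p M hM _ hB D hD
    rw [hdef] at hcard
    exact ⟨Sylow.ofCard D hcard, rfl⟩
  · rintro ⟨S, rfl⟩
    obtain ⟨g, hg⟩ := Cfsg.Agent.S0906.result p M hM _ hB
    obtain ⟨P⟩ : Nonempty (Sylow p (Subgroup.centralizer ({g} : Set G))) := inferInstance
    have hD₀ : Cfsg.IsDefectGroup p M (Cfsg.principalBlock M G)
        ((P : Subgroup (Subgroup.centralizer ({g} : Set G))).map
          (Subgroup.centralizer ({g} : Set G)).subtype) := ⟨g, hg, P, rfl⟩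
    have hcard := Cfsg.Agent.S0908.result p M hM _ hB _ hD₀
    rw [hdef] at hcard
    obtain ⟨c, hc⟩ := MulAction.exists_smul_eq G (Sylow.ofCard _ hcard) S
    have h2 := defectGroup_conj _ _ hD₀ c
    have e : (S : Subgroup G) = ((P : Subgroup (Subgroup.centralizer ({g} : Set G))).map
          (Subgroup.centralizer ({g} : Set G)).subtype).map (MulAut.conj c).toMonoidHom := by
      rw [← hc, Sylow.coe_subgroup_smul]
      rfl
    rw [e]
    exact h2

end Cfsg.Agent.S4652
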