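import Mathlib
import Cfsg.Statements.S4653
import Cfsg.Agent.Lib.Helper3.Char
import Cfsg.Agent.Lib.Helper3.BlkLocal
import Cfsg.Agent.Lib.Helper3.BlkOsima
import Cfsg.Agent.Lib.Helper3.BlkFirst3
import Cfsg.Agent.Lib.Helper3.BlkSupp

set_option autoImplicit false
open Cfsg
open Cfsg.Agent.Lib.Helper3.Char Cfsg.Agent.Lib.Helper3.BlkLocal Cfsg.Agent.Lib.Helper3.BlkOsima Cfsg.Agent.Lib.Helper3.BlkFirst3 Cfsg.Agent.Lib.Helper3.BlkSupp

namespace Cfsg.Agent.S4653

theorem result {G : Type*} [Group G] [Fintype G] (p : ℕ) [Fact p.Prime] (M : Ideal Cfsg.AlgInt) (hM : Cfsg.IsPModular p M) (P : Subgroup G) [P.Normal] (hP : IsPGroup p P) (B : Set (Cfsg.IrrCharacter G)) (hB : Cfsg.IsPBlock M B) (g : G) (hg : g ∉ Subgroup.centralizer (P : Set G)) : Cfsg.blockCoeff B g = 0 := by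
  classical
  have hMp := hM.2.1.isPrime
  have hNn : (Subgroup.centralizer (P : Set G)).Normal := inferInstance
  apply supp_of_closed (Subgroup.centralizer (P : Set G)) B _ g hg
  intro χ hχ ψ hψ
  obtain ⟨χ₀, rfl⟩ := hB
  refine sb_trans hMp hχ ?_
  intro z
  by_cases hz : z ∈ Subgroup.centralizer (P : Set G)
  · rw [hψ z hz, sub_self]
    exact li_zero hMp
  · have hz' : ∃ u ∈ P, u * z ≠ z * u := by
      by_contra hcon
      push Not at hcon
      exact hz (Subgroup.mem_centralizer_iff.mpr (fun u hu => hcon u hu))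
    exact li_sub hMp (cc_li_of_not_cent hM P hP _ ⟨χ₀, rfl⟩ χ hχ z hz')
      (cc_li_of_not_cent hM P hP _ ⟨ψ, rfl⟩ ψ (sb_refl hMp _) z hz')

end Cfsg.Agent.S4653
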