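import Mathlib
import Cfsg.Statements.S4664
import Cfsg.Agent.Lib.Helper3.Char
import Cfsg.Agent.Lib.Helper3.BlkOrth
import Cfsg.Agent.Lib.Helper3.BlkDef

set_option autoImplicit false
open Cfsg
open Cfsg.Agent.Lib.Helper3.Char Cfsg.Agent.Lib.Helper3.BlkOrth Cfsg.Agent.Lib.Helper3.BlkDef
open scoped ComplexConjugate

namespace Cfsg.Agent.S4664

theorem result {G : Type*} [Group G] [Fintype G] (p : ℕ) [Fact p.Prime] (M : Ideal Cfsg.AlgInt) (hM : Cfsg.IsPModular p M) (B : Set (Cfsg.IrrCharacter G)) (hB : Cfsg.IsPBlock M B) (g : G) : Cfsg.blockCoeff B g ∈ IntermediateField.adjoin ℚ ({Complex.exp (2 * Real.pi * Complex.I / ((Nat.card G / p ^ (Nat.card G).factorization p : ℕ) : ℂ))} : Set ℂ) := by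
  classical
  have _fi : Fintype (Cfsg.IrrCharacter G) := Fintype.ofFinite _
  set m : ℕ := Nat.card G / p ^ (Nat.card G).factorization p with hm
  set ζ : ℂ := Complex.exp (2 * Real.pi * Complex.I / (m : ℂ)) with hζ
  set K := IntermediateField.adjoin ℚ ({ζ} : Set ℂ) with hK
  by_cases hy : p ∣ orderOf g
  · rw [blockCoeff_sing hM B hB g hy]
    exact zero_mem _
  have hp := hM.1
  have hm0 : 0 < m := by
    apply Nat.div_pos
    · exact Nat.le_of_dvd Nat.card_pos (Nat.ordProj_dvd _ _)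
    · exact pow_pos hp.pos _
  have hgm : g ^ m = 1 := by
    rw [← orderOf_dvd_iff_pow_eq_one]
    have h1 : orderOf g ∣ Nat.card G := orderOf_dvd_natCard g
    have h2 : Nat.Coprime (orderOf g) (p ^ (Nat.card G).factorization p) :=
      Nat.Coprime.pow_right _ ((Nat.Prime.coprime_iff_not_dvd hp).mpr hy).symm
    have h3 : Nat.card G = p ^ (Nat.card G).factorization p * m := by
      rw [hm, Nat.mul_div_cancel' (Nat.ordProj_dvd _ _)]
    rw [h3] at h1
    exact h2.dvd_of_dvd_mul_left h1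
  have hζK : ζ ∈ K := IntermediateField.subset_adjoin ℚ _ (Set.mem_singleton ζ)
  have hchar : ∀ χ : Cfsg.IrrCharacter G, conj ((χ : G → ℂ) g) ∈ K := by
    intro χ
    rw [← char_inv (isCharacter_of_irr χ.2)]
    obtain ⟨n, ρ, -, hρ⟩ := χ.2
    rw [← hρ]
    have hf : (ρ g⁻¹) ^ m = 1 := by
      rw [← map_pow, inv_pow, hgm, inv_one, map_one]
    obtain ⟨c, -, hc⟩ := trace_pow_of_pow_eq_one (ρ g⁻¹) m hm0 hf
    have h1 := hc 1
    rw [pow_one] at h1
    change ρ.character g⁻¹ ∈ K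
    change ρ.character g⁻¹ = _ at h1
    rw [h1]
    refine sum_mem (fun j _ => mul_mem ?_ (pow_mem hζK _))
    exact natCast_mem K (c j)
  rw [blockCoeff_eq]
  refine mul_mem ?_ (sum_mem (fun χ _ => ?_))
  · exact inv_mem (natCast_mem K _)
  · split_ifs
    · refine mul_mem ?_ (hchar χ)
      obtain ⟨n, hn, -⟩ := char_one (isCharacter_of_irr χ.2)
      rw [hn]
      exact natCast_mem K n
    · exact zero_mem _

end Cfsg.Agent.S4664
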