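import Mathlib
import Cfsg.Statements.S4665
import Cfsg.Agent.Lib.Helper3.Char
import Cfsg.Agent.Lib.Helper3.BlkLocal
import Cfsg.Agent.Lib.Helper3.BlkOsima
import Cfsg.Agent.Lib.Helper3.BlkDef

set_option autoImplicit false
open Cfsg
open Cfsg.Agent.Lib.Helper3.Char Cfsg.Agent.Lib.Helper3.BlkLocal Cfsg.Agent.Lib.Helper3.BlkOsima Cfsg.Agent.Lib.Helper3.BlkDef

namespace Cfsg.Agent.S4665

theorem int_of_rat_integral (m : ℤ) (N : ℕ) (hN : N ≠ 0)
    (h : IsIntegral ℤ ((N : ℂ)⁻¹ * (m : ℂ))) : ∃ k : ℤ, (m : ℂ) = (N : ℂ) * k := by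
  have hN0 : (N : ℂ) ≠ 0 := Nat.cast_ne_zero.mpr hN
  have hNq : (N : ℚ) ≠ 0 := Nat.cast_ne_zero.mpr hN
  have h1 : (N : ℂ)⁻¹ * (m : ℂ) = algebraMap ℚ ℂ ((N : ℚ)⁻¹ * (m : ℚ)) := by
    rw [map_mul, map_inv₀, map_natCast, map_intCast]
  rw [h1] at h
  have h3 : IsIntegral ℤ ((N : ℚ)⁻¹ * (m : ℚ)) :=
    (isIntegral_algebraMap_iff (algebraMap ℚ ℂ).injective).mp h
  obtain ⟨k, hk⟩ := IsIntegrallyClosed.isIntegral_iff.mp h3
  refine ⟨k, ?_⟩
  have h4 : (m : ℚ) = (N : ℚ) * (k : ℚ) := by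
    have h5 : (k : ℚ) = (N : ℚ)⁻¹ * (m : ℚ) := by simpa using hk
    rw [h5]
    field_simp
  have h6 : m = (N : ℤ) * k := by exact_mod_cast h4
  rw [h6]
  push_cast
  ring

theorem result {G : Type*} [Group G] [Fintype G] (p : ℕ) [Fact p.Prime] (M : Ideal Cfsg.AlgInt) (hM : Cfsg.IsPModular p M) (B : Set (Cfsg.IrrCharacter G)) (hB : Cfsg.IsPBlock M B) (χ : G → ℂ) (hχ : (∃ n : Cfsg.IrrCharacter G → ℤ, ∀ g : G, χ g = ∑ᶠ ψ ∈ B, (n ψ : ℂ) * (ψ : G → ℂ) g)) (h0 : (∃ n : Cfsg.IrrCharacter G → ℤ, ∀ g : G, Cfsg.pRegularPart p χ g = ∑ᶠ ψ ∈ B, (n ψ : ℂ) * (ψ : G → ℂ) g)) : ∃ k : ℤ, χ 1 = (p ^ (Nat.card G).factorization p : ℂ) * k := by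
  classical
  have _fi : Fintype (Cfsg.IrrCharacter G) := Fintype.ofFinite _
  have hp : p.Prime := Fact.out
  have _hM := hM
  have _hB := hB
  have _hχ := hχ
  obtain ⟨n, hn⟩ := h0
  obtain ⟨P⟩ : Nonempty (Sylow p G) := inferInstance
  have _fP : Fintype (P : Subgroup G) := Fintype.ofFinite _
  have hcard : Nat.card (P : Subgroup G) = p ^ (Nat.card G).factorization p :=
    P.card_eq_multiplicity
  have hφ1 : Cfsg.pRegularPart p χ 1 = χ 1 := by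
    unfold Cfsg.pRegularPart
    rw [if_pos]
    unfold Cfsg.IsPRegular
    rw [orderOf_one]
    exact hp.one_lt.ne' ∘ Nat.dvd_one.mp
  have hφx : ∀ x : (P : Subgroup G), x ≠ 1 → Cfsg.pRegularPart p χ (x : G) = 0 := by
    intro x hx
    unfold Cfsg.pRegularPart
    rw [if_neg]
    unfold Cfsg.IsPRegular
    rw [not_not]
    obtain ⟨k, hk⟩ := P.isPGroup' x
    have h1 : orderOf x ∣ p ^ k := orderOf_dvd_of_pow_eq_one hk
    obtain ⟨j, _, hj⟩ := (Nat.dvd_prime_pow hp).mp h1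
    have h2 : orderOf (x : G) = p ^ j := by
      rw [← hj]
      exact (Subgroup.orderOf_coe x)
    rw [h2]
    have hj0 : j ≠ 0 := by
      rintro rfl
      rw [pow_zero, orderOf_eq_one_iff] at hj
      exact hx hj
    exact dvd_pow_self p hj0
  have hsum : ∑ x : (P : Subgroup G), Cfsg.pRegularPart p χ (x : G) = χ 1 := by
    rw [Finset.sum_eq_single (1 : (P : Subgroup G))]
    · exact hφ1
    · intro x _ hx
      exact hφx x hx
    · intro h
      exact absurd (Finset.mem_univ _) h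
  have hsum2 : ∑ x : (P : Subgroup G), Cfsg.pRegularPart p χ (x : G) =
      ∑ ψ : Cfsg.IrrCharacter G, if ψ ∈ B then
        (n ψ : ℂ) * ∑ x : (P : Subgroup G), (ψ : G → ℂ) (x : G) else 0 := by
    simp_rw [hn, finsum_mem_ite]
    rw [Finset.sum_comm]
    refine Finset.sum_congr rfl (fun ψ _ => ?_)
    split_ifs
    · rw [Finset.mul_sum]
    · simp
  have hint : IsIntegral ℤ ((Nat.card (P : Subgroup G) : ℂ)⁻¹ * χ 1) := by
    rw [← hsum, hsum2, Finset.mul_sum]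
    apply IsIntegral.sum
    intro ψ _
    split_ifs
    · have h1 := avg_char_integral (isCharacter_of_irr ψ.2) 1 (P : Subgroup G) (by simp)
      simp only [one_mul] at h1
      rw [mul_left_comm]
      exact (isIntegral_algebraMap (R := ℤ) (A := ℂ) (x := n ψ)).mul h1
    · rw [mul_zero]
      exact isIntegral_zero
  have hm : ∃ m : ℤ, χ 1 = (m : ℂ) := by
    rw [← hφ1, hn 1, finsum_mem_ite]
    choose d hd0 hd using fun ψ : Cfsg.IrrCharacter G => irr_one_pos ψ.2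
    refine ⟨∑ ψ : Cfsg.IrrCharacter G, if ψ ∈ B then n ψ * (d ψ : ℤ) else 0, ?_⟩
    push_cast
    refine Finset.sum_congr rfl (fun ψ _ => ?_)
    split_ifs
    · rw [hd ψ]
    · rfl
  obtain ⟨m, hm⟩ := hm
  rw [hm] at hint
  obtain ⟨k, hk⟩ := int_of_rat_integral m _ Nat.card_pos.ne' hint
  refine ⟨k, ?_⟩
  rw [hm, hk, hcard]
  push_cast
  rfl

end Cfsg.Agent.S4665
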