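import Mathlib
import Cfsg.Statements.S4666
import Cfsg.Agent.Lib.Helper3.BlkTilde
import Cfsg.Agent.Lib.Helper3.Char
import Cfsg.Agent.Lib.Helper3.CharCore
import Cfsg.Agent.Lib.Helper3.CharInt
import Cfsg.Agent.Lib.Helper3.BlkOrth4
import Cfsg.Agent.Lib.Helper3.BlkOsima
import Cfsg.Agent.Lib.Helper3.BlkRank

set_option autoImplicit false
open Cfsg
open Cfsg.Agent.Lib.Helper3.BlkTilde Cfsg.Agent.Lib.Helper3.Char Cfsg.Agent.Lib.Helper3.CharCore Cfsg.Agent.Lib.Helper3.CharInt Cfsg.Agent.Lib.Helper3.BlkOrth4 Cfsg.Agent.Lib.Helper3.BlkOsima Cfsg.Agent.Lib.Helper3.BlkRank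
open scoped ComplexConjugate

namespace Cfsg.Agent.S4666

theorem result {G : Type*} [Group G] [Fintype G] (p : ℕ) [Fact p.Prime] (M : Ideal Cfsg.AlgInt) (hM : Cfsg.IsPModular p M) (B : Set (Cfsg.IrrCharacter G)) (hB : Cfsg.IsPBlock M B) (χ : G → ℂ) (hχ : (∃ n : Cfsg.IrrCharacter G → ℤ, ∀ g : G, χ g = ∑ᶠ ψ ∈ B, (n ψ : ℂ) * (ψ : G → ℂ) g)) : (∃ n : Cfsg.IrrCharacter G → ℤ, ∀ g : G, (p ^ Cfsg.blockDefect p B : ℂ) * Cfsg.pRegularPart p χ g = ∑ᶠ ψ ∈ B, (n ψ : ℂ) * (ψ : G → ℂ) g) := by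
  classical
  have _fi : Fintype (Cfsg.IrrCharacter G) := Fintype.ofFinite _
  have hp : p.Prime := Fact.out
  have hMp : M.IsPrime := hM.2.1.isPrime
  have hpc : (p : ℂ) ≠ 0 := by exact_mod_cast hp.ne_zero
  have hG0 : Nat.card G ≠ 0 := Nat.card_pos.ne'
  obtain ⟨n, hn⟩ := hχ
  obtain ⟨s, hs⟩ : ∃ s : ℕ, s = sInf ((fun χ : Cfsg.IrrCharacter G =>
      (Cfsg.charDegree (χ : G → ℂ)).factorization p) '' B) := ⟨_, rfl⟩
  have hdef : Cfsg.blockDefect p B = (Nat.card G).factorization p - s := by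
    rw [hs]
    rfl
  choose N hN using fun ψ φ : Cfsg.IrrCharacter G => tilde_int p hp ψ φ
  have hsle : ∀ ψ ∈ B, s ≤ (Cfsg.charDegree (ψ : G → ℂ)).factorization p := by
    intro ψ hψ
    rw [hs]
    exact Nat.sInf_le (Set.mem_image_of_mem _ hψ)
  have hsa : ∀ ψ ∈ B, s ≤ (Nat.card G).factorization p := by
    intro ψ hψ
    obtain ⟨d, hd0, hd1, hddvd⟩ := irr_degree_dvd_card ψ.2
    have h1 := hsle ψ hψ
    rw [charDegree_eq hd1] at h1
    exact h1.trans ((Nat.factorization_le_iff_dvd hd0.ne' hG0).mpr hddvd p)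
  have hm : ∀ ψ φ : Cfsg.IrrCharacter G, ∃ m : ℤ, ψ ∈ B → N ψ φ = ((p ^ s : ℕ) : ℤ) * m := by
    intro ψ φ
    by_cases hψ : ψ ∈ B
    · obtain ⟨d, hd0, hd1, hddvd⟩ := irr_degree_dvd_card ψ.2
      have h1 := tilde_dvd p hp ψ φ d hd1 (N ψ φ) (hN ψ φ)
      have h2 := hsle ψ hψ
      rw [charDegree_eq hd1] at h2
      have h3 : ((p ^ s : ℕ) : ℤ) ∣ N ψ φ :=
        (Int.natCast_dvd_natCast.mpr (pow_dvd_pow p h2)).trans h1
      obtain ⟨m, hm⟩ := h3
      exact ⟨m, fun _ => hm⟩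
    · exact ⟨0, fun h => absurd h hψ⟩
  choose m hm using hm
  have hmz : ∀ ψ φ : Cfsg.IrrCharacter G, ψ ∈ B → φ ∉ B → m ψ φ = 0 := by
    intro ψ φ hψ hφ
    have h1 : ¬ Cfsg.SameBlock M (ψ : G → ℂ) (φ : G → ℂ) := by
      intro h
      apply hφ
      obtain ⟨χ₁, rfl⟩ := hB
      exact sb_trans hMp hψ h
    have h2 := tilde_zero hM ψ φ h1 ((p ^ (Nat.card G).factorization p : ℕ) : ℂ)
    rw [hN ψ φ] at h2
    have h3 : N ψ φ = 0 := by exact_mod_cast h2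
    rw [hm ψ φ hψ] at h3
    rcases mul_eq_zero.mp h3 with h4 | h4
    · exact absurd h4 (by exact_mod_cast (pow_pos hp.pos s).ne')
    · exact h4
  have hkey : ∀ ψ ∈ B, ∀ g : G, (p : ℂ) ^ ((Nat.card G).factorization p - s) *
      Cfsg.pRegularPart p (ψ : G → ℂ) g =
        ∑ φ : Cfsg.IrrCharacter G, (m ψ φ : ℂ) * (φ : G → ℂ) g := by
    intro ψ hψ g
    have hcf := tilde_classFun p ((p ^ (Nat.card G).factorization p : ℕ) : ℂ)
      (char_classFun (isCharacter_of_irr ψ.2))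
    have h1 := congrFun (class_fun_expand _ hcf) g
    rw [Finset.sum_apply] at h1
    have h2 : (p : ℂ) ^ s * ((p : ℂ) ^ ((Nat.card G).factorization p - s) *
        Cfsg.pRegularPart p (ψ : G → ℂ) g) =
        (p : ℂ) ^ s * ∑ φ : Cfsg.IrrCharacter G, (m ψ φ : ℂ) * (φ : G → ℂ) g := by
      rw [← mul_assoc, ← pow_add, Nat.add_sub_cancel' (hsa ψ hψ), Finset.mul_sum]
      have h3 : (p : ℂ) ^ (Nat.card G).factorization p * Cfsg.pRegularPart p (ψ : G → ℂ) g =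
          (if p ∣ orderOf g then (0 : ℂ) else
            ((p ^ (Nat.card G).factorization p : ℕ) : ℂ) * (ψ : G → ℂ) g) := by
        by_cases hg : p ∣ orderOf g
        · rw [prp_sing p _ g hg, if_pos hg, mul_zero]
        · rw [prp_reg p _ g hg, if_neg hg]
          push_cast
          rfl
      rw [h3]
      refine h1.trans (Finset.sum_congr rfl (fun φ _ => ?_))
      rw [Pi.smul_apply, smul_eq_mul, tilde_inner, hN ψ φ, hm ψ φ hψ]
      push_cast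
      ring
    exact mul_left_cancel₀ (pow_ne_zero s hpc) h2
  refine ⟨fun φ => ∑ ψ : Cfsg.IrrCharacter G, if ψ ∈ B then n ψ * m ψ φ else 0, ?_⟩
  intro g
  rw [hdef, finsum_mem_ite]
  have hχg : Cfsg.pRegularPart p χ g = ∑ ψ : Cfsg.IrrCharacter G,
      if ψ ∈ B then (n ψ : ℂ) * Cfsg.pRegularPart p (ψ : G → ℂ) g else 0 := by
    by_cases hg : p ∣ orderOf g
    · rw [prp_sing p _ g hg]
      symm
      apply Finset.sum_eq_zero
      intro ψ _
      rw [prp_sing p _ g hg, mul_zero, ite_self]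
    · rw [prp_reg p _ g hg, hn g, finsum_mem_ite]
      refine Finset.sum_congr rfl (fun ψ _ => ?_)
      rw [prp_reg p _ g hg]
  rw [hχg, Finset.mul_sum]
  have h5 : ∀ ψ : Cfsg.IrrCharacter G, (p : ℂ) ^ ((Nat.card G).factorization p - s) *
      (if ψ ∈ B then (n ψ : ℂ) * Cfsg.pRegularPart p (ψ : G → ℂ) g else 0) =
      ∑ φ : Cfsg.IrrCharacter G,
        (if ψ ∈ B then (n ψ : ℂ) * (m ψ φ : ℂ) else 0) * (φ : G → ℂ) g := by
    intro ψ
    by_cases hψ : ψ ∈ B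
    · simp only [if_pos hψ]
      rw [mul_left_comm, hkey ψ hψ g, Finset.mul_sum]
      refine Finset.sum_congr rfl (fun φ _ => ?_)
      ring
    · simp only [if_neg hψ, mul_zero, zero_mul, Finset.sum_const_zero]
  rw [Finset.sum_congr rfl (fun ψ _ => h5 ψ), Finset.sum_comm]
  refine Finset.sum_congr rfl (fun φ _ => ?_)
  by_cases hφ : φ ∈ B
  · rw [if_pos hφ, ← Finset.sum_mul]
    congr 1
    push_cast
    refine Finset.sum_congr rfl (fun ψ _ => ?_)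
    split_ifs <;> simp
  · rw [if_neg hφ]
    apply Finset.sum_eq_zero
    intro ψ _
    by_cases hψ : ψ ∈ B
    · rw [if_pos hψ, hmz ψ φ hψ hφ]
      simp
    · rw [if_neg hψ, zero_mul]

end Cfsg.Agent.S4666
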