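import Mathlib
import Cfsg.Statements.S4667
import Cfsg.Agent.Lib.Helper3.BlkTilde
import Cfsg.Agent.Lib.Helper3.Char
import Cfsg.Agent.Lib.Helper3.CharCore
import Cfsg.Agent.Lib.Helper3.CharInt
import Cfsg.Agent.Lib.Helper3.BlkOrth4
import Cfsg.Agent.Lib.Helper3.BlkOsima
import Cfsg.Agent.Lib.Helper3.BlkRank

set_option autoImplicit false
open Cfsg
open Cfsg.Agent.Lib.Helper3.BlkTilde Cfsg.Agent.Lib.Helper3.Char Cfsg.Agent.Lib.Helper3.CharCore Cfsg.Agent.Lib.Helper3.CharInt Cfsg.Agent.Lib.Helper3.BlkOrth4 Cfsg.Agent.Lib.Helper3.BlkOsima Cfsg.Agent.Lib.Helper3.BlkRank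
open scoped ComplexConjugate

namespace Cfsg.Agent.S4667

theorem result {G : Type*} [Group G] [Fintype G] (p : ℕ) [Fact p.Prime] (M : Ideal Cfsg.AlgInt) (hM : Cfsg.IsPModular p M) (B : Set (Cfsg.IrrCharacter G)) (hB : Cfsg.IsPBlock M B) : (Nat.card G : ℂ) * (Cfsg.blockRank p B : ℂ) = ∑ x : G, ∑ᶠ χ ∈ B, Cfsg.pRegularPart p (χ : G → ℂ) x * (χ : G → ℂ) x⁻¹ := by
  classical
  have _fi : Fintype (Cfsg.IrrCharacter G) := Fintype.ofFinite _
  have hp : p.Prime := Fact.out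
  have hMp : M.IsPrime := hM.2.1.isPrime
  have hGc : (Nat.card G : ℂ) ≠ 0 := by exact_mod_cast Nat.card_pos.ne'
  obtain ⟨ℓ, hℓ⟩ : ∃ ℓ : Cfsg.IrrCharacter G → ((G → ℂ) →ₗ[ℂ] ℂ), ∀ (χ : Cfsg.IrrCharacter G)
      (f : G → ℂ), ℓ χ f = (Nat.card G : ℂ)⁻¹ * ∑ x : G, f x * (χ : G → ℂ) x⁻¹ := by
    refine ⟨fun χ => ∑ x : G, ((Nat.card G : ℂ)⁻¹ * (χ : G → ℂ) x⁻¹) •
      (LinearMap.proj x : (G → ℂ) →ₗ[ℂ] ℂ), ?_⟩
    intro χ f
    simp only [LinearMap.sum_apply, LinearMap.smul_apply, LinearMap.proj_apply, smul_eq_mul]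
    rw [Finset.mul_sum]
    refine Finset.sum_congr rfl (fun x _ => ?_)
    ring
  obtain ⟨E, hE, htr2⟩ : ∃ E : (G → ℂ) →ₗ[ℂ] (G → ℂ), (∀ f : G → ℂ, E f =
      ∑ χ ∈ Finset.univ.filter (· ∈ B), ℓ χ f • Cfsg.pRegularPart p (χ : G → ℂ)) ∧
      LinearMap.trace ℂ (G → ℂ) E = ∑ χ ∈ Finset.univ.filter (· ∈ B),
        ℓ χ (Cfsg.pRegularPart p (χ : G → ℂ)) := by
    refine ⟨∑ χ ∈ Finset.univ.filter (· ∈ B),
      (ℓ χ).smulRight (Cfsg.pRegularPart p (χ : G → ℂ)), ?_, ?_⟩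
    · intro f
      simp only [LinearMap.sum_apply, LinearMap.smulRight_apply]
    · simp only [map_sum, LinearMap.trace_smulRight]
  obtain ⟨W, hW⟩ : ∃ W : Submodule ℂ (G → ℂ), W = Submodule.span ℂ
      ((fun χ : Cfsg.IrrCharacter G => Cfsg.pRegularPart p (χ : G → ℂ)) '' B) := ⟨_, rfl⟩
  have hQ : ∀ ψ χ : Cfsg.IrrCharacter G, ℓ χ (Cfsg.pRegularPart p (ψ : G → ℂ)) =
      (Nat.card G : ℂ)⁻¹ * ∑ x : G, (if p ∣ orderOf x then 0 else
        (ψ : G → ℂ) x * conj ((χ : G → ℂ) x)) := by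
    intro ψ χ
    rw [hℓ]
    congr 1
    refine Finset.sum_congr rfl (fun x _ => ?_)
    by_cases hx : p ∣ orderOf x
    · rw [prp_sing p _ x hx, if_pos hx, zero_mul]
    · rw [prp_reg p _ x hx, if_neg hx, char_inv (isCharacter_of_irr χ.2)]
  have hproj : LinearMap.IsProj W E := by
    constructor
    · intro f
      rw [hE, hW]
      apply Submodule.sum_mem
      intro χ hχ
      apply Submodule.smul_mem
      apply Submodule.subset_span
      exact ⟨χ, (Finset.mem_filter.mp hχ).2, rfl⟩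
    · intro f hf
      rw [hW] at hf
      have h1 : Set.EqOn E (LinearMap.id : (G → ℂ) →ₗ[ℂ] (G → ℂ))
          ((fun χ : Cfsg.IrrCharacter G => Cfsg.pRegularPart p (χ : G → ℂ)) '' B) := by
        rintro _ ⟨ψ, hψ, rfl⟩
        show E (Cfsg.pRegularPart p (ψ : G → ℂ)) = Cfsg.pRegularPart p (ψ : G → ℂ)
        rw [hE]
        funext y
        rw [Finset.sum_apply]
        by_cases hy : p ∣ orderOf y
        · rw [prp_sing p _ y hy]
          apply Finset.sum_eq_zero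
          intro χ _
          rw [Pi.smul_apply, prp_sing p _ y hy, smul_zero]
        · rw [prp_reg p _ y hy]
          have hcf := tilde_classFun p (1 : ℂ) (char_classFun (isCharacter_of_irr ψ.2))
          have h2 := congrFun (class_fun_expand _ hcf) y
          rw [Finset.sum_apply] at h2
          simp only [if_neg hy, one_mul] at h2
          rw [h2, Finset.sum_filter]
          refine Finset.sum_congr rfl (fun χ _ => ?_)
          have h5 := tilde_inner p 1 (ψ : G → ℂ) (χ : G → ℂ)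
          simp only [one_mul] at h5
          rw [h5]
          by_cases hχ : χ ∈ B
          · rw [if_pos hχ]
            simp only [Pi.smul_apply, smul_eq_mul]
            rw [prp_reg p _ y hy, hQ]
          · rw [if_neg hχ]
            have h3 : ¬ Cfsg.SameBlock M (ψ : G → ℂ) (χ : G → ℂ) := by
              intro h
              apply hχ
              obtain ⟨χ₁, rfl⟩ := hB
              exact sb_trans hMp hψ h
            have h4 := tilde_zero hM ψ χ h3 1
            rw [one_mul] at h4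
            rw [h4, zero_smul]
            rfl
      exact LinearMap.eqOn_span h1 hf
  have htr := hproj.trace
  have hrank : Cfsg.blockRank p B = Module.finrank ℂ W := by
    rw [hW]
    rfl
  rw [hrank, ← htr, htr2, Finset.mul_sum]
  have h6 : ∀ x : G, ∑ᶠ χ ∈ B, Cfsg.pRegularPart p (χ : G → ℂ) x * (χ : G → ℂ) x⁻¹ =
      ∑ χ ∈ Finset.univ.filter (· ∈ B),
        Cfsg.pRegularPart p (χ : G → ℂ) x * (χ : G → ℂ) x⁻¹ := by
    intro x
    rw [finsum_mem_ite, Finset.sum_filter]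
  rw [Finset.sum_congr rfl (fun x _ => h6 x), Finset.sum_comm]
  refine Finset.sum_congr rfl (fun χ _ => ?_)
  rw [hℓ, ← mul_assoc, mul_inv_cancel₀ hGc, one_mul]

end Cfsg.Agent.S4667
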