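import Mathlib
import Cfsg.Statements.S4669
import Cfsg.Agent.Lib.Helper3.Char
import Cfsg.Agent.Lib.Helper3.CharInt
import Cfsg.Agent.Lib.Helper3.CharProj
import Cfsg.Agent.Lib.Helper3.BlkLocal
import Cfsg.Agent.Lib.Helper3.BlkOsima
import Cfsg.Agent.Lib.Helper3.BlkOrth4
import Cfsg.Agent.Lib.Helper3.BlkGram
import Cfsg.Agent.S0908
import Cfsg.Agent.S0941
import Cfsg.Agent.S0925

set_option autoImplicit false
open Cfsg
open Cfsg.Agent.Lib.Helper3.Char Cfsg.Agent.Lib.Helper3.CharInt Cfsg.Agent.Lib.Helper3.CharProj Cfsg.Agent.Lib.Helper3.BlkLocal Cfsg.Agent.Lib.Helper3.BlkOsima Cfsg.Agent.Lib.Helper3.BlkOrth4 Cfsg.Agent.Lib.Helper3.BlkGram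
open scoped ComplexConjugate

namespace Cfsg.Agent.S4669

theorem prp_of_reg {G : Type*} [Group G] (p : ℕ) (χ : G → ℂ) (g : G) (h : ¬ p ∣ orderOf g) :
    Cfsg.pRegularPart p χ g = χ g := by
  unfold Cfsg.pRegularPart
  rw [if_pos]
  exact h

theorem prp_of_sing {G : Type*} [Group G] (p : ℕ) (χ : G → ℂ) (g : G) (h : p ∣ orderOf g) :
    Cfsg.pRegularPart p χ g = 0 := by
  unfold Cfsg.pRegularPart
  rw [if_neg]
  unfold Cfsg.IsPRegular
  rw [not_not]
  exact h

theorem result {G : Type*} [Group G] [Fintype G] (p : ℕ) [Fact p.Prime] (M : Ideal Cfsg.AlgInt) (hM : Cfsg.IsPModular p M) (B : Set (Cfsg.IrrCharacter G)) (hB : Cfsg.IsPBlock M B) (P : Subgroup G) (hD : Cfsg.IsDefectGroup p M B P) (hPZ : P ≤ Subgroup.center G) : Cfsg.blockRank p B = 1 := by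
  classical
  have _fi : Fintype (Cfsg.IrrCharacter G) := Fintype.ofFinite _
  have hp : p.Prime := Fact.out
  have hMp := hM.2.1.isPrime
  have hPn : P.Normal := ⟨fun n hn g => by
    have h1 := (Subgroup.mem_center_iff.mp (hPZ hn)) g
    rw [h1, mul_inv_cancel_right]
    exact hn⟩
  have hPp : IsPGroup p P := by
    obtain ⟨g, _, Q, rfl⟩ := hD
    exact Q.isPGroup'.map _
  have hCidx : ∃ k : ℕ, (Subgroup.centralizer (P : Set G)).index = p ^ k := by
    refine ⟨0, ?_⟩
    have h1 : Subgroup.centralizer (P : Set G) = ⊤ := by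
      rw [eq_top_iff]
      intro g _
      rw [Subgroup.mem_centralizer_iff]
      intro h hh
      exact ((Subgroup.mem_center_iff.mp (hPZ hh)) g).symm
    rw [h1, Subgroup.index_top, pow_zero]
  obtain ⟨hS1, hS2⟩ := Cfsg.Agent.S0941.result p M hM P hPp hCidx
  obtain ⟨χ₀, ξ₀, hξ₀B, hξ₀⟩ := hS2 B hB
  have _fq : Fintype (G ⧸ P) := Fintype.ofFinite _
  have hcardD := Cfsg.Agent.S0908.result p M hM B hB P hD
  obtain ⟨n, hn0, hn1, hndvd⟩ := irr_degree_dvd_card χ₀.2
  have hsing : Cfsg.blockOf M (χ₀ : G ⧸ P → ℂ) = {χ₀} := by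
    apply singleton_of_not_dvd hM
    rw [charDegree_eq hn1]
    have hξdeg : Cfsg.charDegree (ξ₀ : G → ℂ) = n := charDegree_eq (by
      rw [hξ₀]
      exact hn1)
    have hinf : sInf ((fun χ : Cfsg.IrrCharacter G =>
        (Cfsg.charDegree (χ : G → ℂ)).factorization p) '' B) ≤ n.factorization p := by
      rw [← hξdeg]
      exact Nat.sInf_le ⟨ξ₀, hξ₀B, rfl⟩
    have hGq : Nat.card G = Nat.card (G ⧸ P) * Nat.card P :=
      Subgroup.card_eq_card_quotient_mul_card_subgroup P
    have hfac : (Nat.card G).factorization p =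
        (Nat.card (G ⧸ P)).factorization p + Cfsg.blockDefect p B := by
      rw [hGq, Nat.factorization_mul Nat.card_pos.ne' Nat.card_pos.ne', hcardD,
        Nat.factorization_pow]
      simp [hp.factorization_self]
    have hbd : Cfsg.blockDefect p B = (Nat.card G).factorization p -
        sInf ((fun χ : Cfsg.IrrCharacter G =>
          (Cfsg.charDegree (χ : G → ℂ)).factorization p) '' B) := rfl
    have hle : (Nat.card (G ⧸ P)).factorization p ≤ n.factorization p := by omega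
    intro hdvd
    obtain ⟨m, hm⟩ := hndvd
    have hm0 : m ≠ 0 := by
      rintro rfl
      rw [mul_zero] at hm
      exact Nat.card_pos.ne' hm
    rw [hm, Nat.mul_div_cancel_left m hn0] at hdvd
    have h1 : (n * m).factorization p = n.factorization p + m.factorization p := by
      rw [Nat.factorization_mul hn0.ne' hm0]
      rfl
    have hm1 : 1 ≤ m.factorization p := (hp.dvd_iff_one_le_factorization hm0).mp hdvd
    rw [hm] at hle
    omega
  have hker0 : ∀ u ∈ P, (ξ₀ : G → ℂ) u = (ξ₀ : G → ℂ) 1 := by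
    intro u hu
    rw [hξ₀]
    show (χ₀ : G ⧸ P → ℂ) (QuotientGroup.mk u) = (χ₀ : G ⧸ P → ℂ) (QuotientGroup.mk 1)
    rw [(QuotientGroup.eq_one_iff u).mpr hu]
    rfl
  have hker_unique : ∀ χ ∈ B, (∀ u ∈ P, (χ : G → ℂ) u = (χ : G → ℂ) 1) → χ = ξ₀ := by
    intro χ hχB hker
    obtain ⟨χ', hχ', hχχ'⟩ := descend (QuotientGroup.mk' P) (QuotientGroup.mk'_surjective P)
      (χ : G → ℂ) χ.2 (by
        intro z hz
        apply hker
        exact (QuotientGroup.eq_one_iff z).mp hz)
    have e1 : (χ' ∘ QuotientGroup.mk : G → ℂ) = (χ : G → ℂ) := funext hχχ'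
    have hsb : Cfsg.SameBlock M ((χ₀ : G ⧸ P → ℂ) ∘ QuotientGroup.mk)
        (χ' ∘ QuotientGroup.mk) := by
      obtain ⟨θ, rfl⟩ := hB
      have h1 : Cfsg.SameBlock M (ξ₀ : G → ℂ) (χ : G → ℂ) := sb_trans hMp (sb_symm hξ₀B) hχB
      rw [e1, ← hξ₀]
      exact h1
    have h2 := (hS1 χ₀ ⟨χ', hχ'⟩).mpr hsb
    have h3 : (⟨χ', hχ'⟩ : Cfsg.IrrCharacter (G ⧸ P)) ∈ Cfsg.blockOf M (χ₀ : G ⧸ P → ℂ) := h2
    rw [hsing, Set.mem_singleton_iff] at h3
    apply Subtype.ext
    rw [hξ₀, ← h3, ← e1]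
  have hscal : ∀ χ : Cfsg.IrrCharacter G, ∃ a : G → ℂ, ∀ u ∈ P, ∀ h : G,
      (χ : G → ℂ) (h * u) = a u * (χ : G → ℂ) h := by
    intro χ
    obtain ⟨χ, hχ⟩ := χ
    obtain ⟨k, ρ, hirr, rfl⟩ := hχ
    have _i : ρ.IsIrreducible := hirr
    have hex : ∀ u : G, ∃ a : ℂ, u ∈ P → ρ u = a • LinearMap.id := by
      intro u
      by_cases hu : u ∈ P
      · obtain ⟨a, ha⟩ := central_scalar ρ u (hPZ hu)
        exact ⟨a, fun _ => ha⟩
      · exact ⟨0, fun h => absurd h hu⟩
    choose a ha using hex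
    refine ⟨a, fun u hu h => ?_⟩
    show ρ.character (h * u) = a u * ρ.character h
    unfold Representation.character
    rw [map_mul, ha u hu]
    have e : ρ h * (a u • LinearMap.id) = a u • ρ h := by
      ext v
      simp
    rw [e, map_smul, smul_eq_mul]
  choose a ha using hscal
  have hsumA : ∀ χ : Cfsg.IrrCharacter G, ∑ u : P, a χ u =
      if (∀ u ∈ P, (χ : G → ℂ) u = (χ : G → ℂ) 1) then (Nat.card P : ℂ) else 0 := by
    intro χ
    have hχ1 := irr_one_ne_zero χ.2
    have ha1 : ∀ u ∈ P, (χ : G → ℂ) u = a χ u * (χ : G → ℂ) 1 := by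
      intro u hu
      have h1 := ha χ u hu 1
      rwa [one_mul] at h1
    split_ifs with hk
    · have h1 : ∀ u : P, a χ u = 1 := by
        intro u
        have h1 := ha1 u u.2
        rw [hk u u.2] at h1
        have h2 : (a χ u - 1) * (χ : G → ℂ) 1 = 0 := by linear_combination -h1
        rcases mul_eq_zero.mp h2 with h | h
        · exact sub_eq_zero.mp h
        · exact absurd h hχ1
      rw [Finset.sum_congr rfl (fun u _ => h1 u)]
      simp [Nat.card_eq_fintype_card]
    · push Not at hk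
      obtain ⟨u₀, hu₀, hne⟩ := hk
      have ha0 : a χ u₀ ≠ 1 := by
        intro h1
        apply hne
        rw [ha1 u₀ hu₀, h1, one_mul]
      have hmul : ∀ u : P, a χ ((u : G) * u₀) = a χ u * a χ u₀ := by
        intro u
        have h1 := ha χ u₀ hu₀ (u : G)
        have h2 := ha1 ((u : G) * u₀) (P.mul_mem u.2 hu₀)
        have h3 := ha1 u u.2
        have h4 : (a χ ((u : G) * u₀) - a χ u * a χ u₀) * (χ : G → ℂ) 1 = 0 := by
          rw [sub_mul, ← h2, h1, h3]
          ring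
        rcases mul_eq_zero.mp h4 with h | h
        · exact sub_eq_zero.mp h
        · exact absurd h hχ1
      have hS : ∑ u : P, a χ u = a χ u₀ * ∑ u : P, a χ u := by
        conv_lhs => rw [← Equiv.sum_comp (Equiv.mulRight (⟨u₀, hu₀⟩ : P)) (fun u : P => a χ u)]
        rw [Finset.mul_sum]
        refine Finset.sum_congr rfl (fun u _ => ?_)
        show a χ ((u : G) * u₀) = _
        rw [hmul u, mul_comm]
      have h5 : (a χ u₀ - 1) * ∑ u : P, a χ u = 0 := by linear_combination -hS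
      rcases mul_eq_zero.mp h5 with h | h
      · exact absurd (sub_eq_zero.mp h) ha0
      · exact h
  have horth := (Cfsg.Agent.S0925.result (G := G) p M hM).2
  have hstar : ∀ y' y : G, ¬ p ∣ orderOf y' → ¬ p ∣ orderOf y →
      ∑ χ : Cfsg.IrrCharacter G,
        (if χ ∈ B then (χ : G → ℂ) y' * (χ : G → ℂ) y⁻¹ else 0) =
      (Nat.card P : ℂ) * ((ξ₀ : G → ℂ) y' * (ξ₀ : G → ℂ) y⁻¹) := by
    intro y' y hy' hy
    have h1 : ∀ u : P, ∑ χ : Cfsg.IrrCharacter G,
        (if χ ∈ B then (χ : G → ℂ) (y' * u) * (χ : G → ℂ) y⁻¹ else 0) =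
        if u = 1 then ∑ χ : Cfsg.IrrCharacter G,
          (if χ ∈ B then (χ : G → ℂ) y' * (χ : G → ℂ) y⁻¹ else 0) else 0 := by
      intro u
      split_ifs with hu
      · rw [hu]
        simp
      · have hu1 : (u : G) ≠ 1 := fun h => hu (Subtype.ext h)
        have hcomm : (u : G) * y' = y' * u :=
          ((Subgroup.mem_center_iff.mp (hPZ u.2)) y').symm
        have hord : ∃ k : ℕ, orderOf (u : G) = p ^ k := by
          obtain ⟨k, hk⟩ := hPp u
          have h1 : orderOf u ∣ p ^ k := orderOf_dvd_of_pow_eq_one hk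
          obtain ⟨j, _, hj⟩ := (Nat.dvd_prime_pow hp).mp h1
          exact ⟨j, by rw [← hj]; exact Subgroup.orderOf_coe u⟩
        have h2 := horth ((u : G) * y') y (u : G) 1 ⟨y', rfl, hcomm, hord, hy'⟩
          ⟨y, one_mul y, Commute.one_left y, ⟨0, by simp⟩, hy⟩ (by
            rw [isConj_one_left]
            exact hu1) B hB
        rw [finsum_mem_ite] at h2
        rw [← hcomm]
        exact h2
    have h2 : ∑ u : P, ∑ χ : Cfsg.IrrCharacter G,
        (if χ ∈ B then (χ : G → ℂ) (y' * u) * (χ : G → ℂ) y⁻¹ else 0) =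
        ∑ χ : Cfsg.IrrCharacter G,
          (if χ ∈ B then (χ : G → ℂ) y' * (χ : G → ℂ) y⁻¹ else 0) := by
      rw [Finset.sum_congr rfl (fun u _ => h1 u), Finset.sum_ite_eq']
      simp
    have h3 : ∑ u : P, ∑ χ : Cfsg.IrrCharacter G,
        (if χ ∈ B then (χ : G → ℂ) (y' * u) * (χ : G → ℂ) y⁻¹ else 0) =
        ∑ χ : Cfsg.IrrCharacter G, (if χ ∈ B then
          (∑ u : P, a χ u) * ((χ : G → ℂ) y' * (χ : G → ℂ) y⁻¹) else 0) := by
      rw [Finset.sum_comm]
      refine Finset.sum_congr rfl (fun χ _ => ?_)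
      split_ifs
      · rw [Finset.sum_mul]
        refine Finset.sum_congr rfl (fun u _ => ?_)
        rw [ha χ u u.2 y']
        ring
      · simp
    rw [← h2, h3, Finset.sum_eq_single ξ₀]
    · rw [if_pos hξ₀B, hsumA, if_pos hker0]
    · intro χ _ hne
      split_ifs with hχB
      · rw [hsumA, if_neg (fun hk => hne (hker_unique χ hχB hk)), zero_mul]
      · rfl
    · intro h
      exact absurd (Finset.mem_univ _) h
  have hgram : ∀ y' y : G, ∑ χ : Cfsg.IrrCharacter G,
      (if χ ∈ B then Cfsg.pRegularPart p (χ : G → ℂ) else 0) y' *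
        (starRingEnd ℂ) ((if χ ∈ B then Cfsg.pRegularPart p (χ : G → ℂ) else 0) y) =
      (Nat.card P : ℂ) * (Cfsg.pRegularPart p (ξ₀ : G → ℂ) y' *
        (starRingEnd ℂ) (Cfsg.pRegularPart p (ξ₀ : G → ℂ) y)) := by
    intro y' y
    by_cases hy' : p ∣ orderOf y'
    · rw [prp_of_sing p _ y' hy', zero_mul, mul_zero]
      apply Finset.sum_eq_zero
      intro χ _
      split_ifs
      · rw [prp_of_sing p _ y' hy', zero_mul]
      · simp
    · by_cases hy : p ∣ orderOf y
      · rw [prp_of_sing p _ y hy, map_zero, mul_zero, mul_zero]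
        apply Finset.sum_eq_zero
        intro χ _
        split_ifs
        · rw [prp_of_sing p _ y hy, map_zero, mul_zero]
        · simp
      · rw [prp_of_reg p _ y' hy', prp_of_reg p _ y hy, ← char_inv (isCharacter_of_irr ξ₀.2),
          ← hstar y' y hy' hy]
        refine Finset.sum_congr rfl (fun χ _ => ?_)
        split_ifs
        · rw [prp_of_reg p _ y' hy', prp_of_reg p _ y hy, ← char_inv (isCharacter_of_irr χ.2)]
        · simp
  have hw : Cfsg.pRegularPart p (ξ₀ : G → ℂ) ≠ 0 := by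
    intro h0
    have h1 := congrFun h0 1
    rw [prp_of_reg p _ 1 (by
      rw [orderOf_one]
      exact hp.one_lt.ne' ∘ Nat.dvd_one.mp)] at h1
    exact irr_one_ne_zero ξ₀.2 h1
  have hspan : Submodule.span ℂ ((fun χ : Cfsg.IrrCharacter G =>
      Cfsg.pRegularPart p (χ : G → ℂ)) '' B) =
      Submodule.span ℂ {Cfsg.pRegularPart p (ξ₀ : G → ℂ)} := by
    apply le_antisymm
    · rw [Submodule.span_le]
      rintro _ ⟨χ, hχ, rfl⟩
      obtain ⟨t, ht⟩ := gram_rank_one
        (fun χ : Cfsg.IrrCharacter G => if χ ∈ B then Cfsg.pRegularPart p (χ : G → ℂ) else 0)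
        (Cfsg.pRegularPart p (ξ₀ : G → ℂ)) (Nat.card P : ℂ) hgram χ
      simp only [if_pos hχ] at ht
      show Cfsg.pRegularPart p (χ : G → ℂ) ∈ _
      rw [ht]
      exact Submodule.smul_mem _ _ (Submodule.mem_span_singleton_self _)
    · rw [Submodule.span_le]
      intro x hx
      rw [Set.mem_singleton_iff] at hx
      rw [hx]
      exact Submodule.subset_span ⟨ξ₀, hξ₀B, rfl⟩
  unfold Cfsg.blockRank
  rw [hspan]
  exact finrank_span_singleton hw

end Cfsg.Agent.S4669
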