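import Mathlib
import Cfsg.Statements.S4713
import Cfsg.Agent.Lib.Helper3.Char
import Cfsg.Agent.Lib.Helper3.CharCore
import Cfsg.Agent.Lib.Helper3.ItoConv
import Cfsg.Agent.S0169

set_option autoImplicit false
open Cfsg
open Cfsg.Agent.Lib.Helper3.Char Cfsg.Agent.Lib.Helper3.CharCore Cfsg.Agent.Lib.Helper3.ItoConv

namespace Cfsg.Agent.S4713

theorem result {G : Type*} [Group G] [Finite G] (p : ℕ) [Fact p.Prime] (hsolv : Cfsg.IsPSolvable p G) (P : Sylow p G) : ((P : Subgroup G).Normal ∧ IsMulCommutative P) ↔ ∀ χ : Cfsg.IrrCharacter G, ¬ p ∣ Cfsg.charDegree (χ : G → ℂ) := by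
  have hp : p.Prime := Fact.out
  constructor
  · rintro ⟨hPn, hPc⟩ χ hdvd
    obtain ⟨n, ρ, hirr, hρ⟩ := χ.2
    have _i : ρ.IsIrreducible := hirr
    have _j : (P : Subgroup G).Normal := hPn
    have hab : ∀ a ∈ (P : Subgroup G), ∀ b ∈ (P : Subgroup G), a * b = b * a := by
      intro a ha b hb
      exact congrArg Subtype.val (hPc.is_comm.comm (⟨a, ha⟩ : P) ⟨b, hb⟩)
    have h1 := Cfsg.Agent.S0169.result ρ (P : Subgroup G) hab
    rw [Module.finrank_fin_fun] at h1
    have h2 : Cfsg.charDegree (χ : G → ℂ) = n := by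
      unfold Cfsg.charDegree
      rw [← hρ, Representation.char_one, Module.finrank_fin_fun, Complex.natCast_re,
        Nat.floor_natCast]
    rw [h2] at hdvd
    exact P.not_dvd_index (dvd_trans hdvd h1)
  · intro h
    have hPD : PD p G := by
      intro χ hχ b hb hpb
      apply h ⟨χ, hχ⟩
      have h2 : Cfsg.charDegree χ = b := by
        unfold Cfsg.charDegree
        rw [hb, Complex.natCast_re, Nat.floor_natCast]
      show p ∣ Cfsg.charDegree χ
      rw [h2]
      exact hpb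
    obtain ⟨n, H, h0, hlast, hmono, hnorm, hfac⟩ := hsolv
    obtain ⟨S, hSn, hSp, hSi⟩ := NS_of_chain p n G H h0 hlast hmono hnorm hfac hPD
    have hPS : (P : Subgroup G) ≤ S := by
      intro x hx
      obtain ⟨k, hk⟩ := P.isPGroup' ⟨x, hx⟩
      have _hSn : S.Normal := hSn
      exact mem_of_pelement p hp S hSi x k (congrArg Subtype.val hk)
    have hSP : S = (P : Subgroup G) := P.is_maximal' hSp hPS
    have hab := abelian_of_NS p S hSn hSp hPD
    rw [hSP] at hSn hab
    exact ⟨hSn, ⟨⟨fun a b => Subtype.ext (hab a a.2 b b.2)⟩⟩⟩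

end Cfsg.Agent.S4713
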