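import Mathlib
import Cfsg.Statements.S4730
import Cfsg.Agent.Lib.Helper3.Char
import Cfsg.Agent.Lib.Helper3.CharCore
import Cfsg.Agent.Lib.Helper3.CharArith
import Cfsg.Agent.Lib.Helper3.CharInd
import Cfsg.Agent.Lib.Helper3.CharEig
import Cfsg.Agent.Lib.Helper3.BlkLocal
import Cfsg.Agent.Lib.Helper3.BlkOsima
import Cfsg.Agent.Lib.Helper3.BlkOrth4
import Cfsg.Agent.S0142

set_option autoImplicit false
open Cfsg
open Cfsg.Agent.Lib.Helper3.Char Cfsg.Agent.Lib.Helper3.CharCore Cfsg.Agent.Lib.Helper3.CharArith Cfsg.Agent.Lib.Helper3.CharInd Cfsg.Agent.Lib.Helper3.CharEig Cfsg.Agent.Lib.Helper3.BlkLocal Cfsg.Agent.Lib.Helper3.BlkOsima Cfsg.Agent.Lib.Helper3.BlkOrth4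
open scoped ComplexConjugate

namespace Cfsg.Agent.S4730

theorem result {G : Type*} [Group G] [Finite G] (p : ℕ) [Fact p.Prime] (M : Ideal Cfsg.AlgInt) (hM : Cfsg.IsPModular p M) (hZ : Subgroup.center G = ⊥) (P : Sylow p G) (a b : ℕ) (ha : Nat.card P = p ^ a) (hb : Nat.card (Subgroup.center ↥(P : Subgroup G)) = p ^ b) (χ : Cfsg.IrrCharacter G) (hfaith : ∀ g : G, (χ : G → ℂ) g = (χ : G → ℂ) 1 → g = 1) (n : ℕ) (hdeg : Cfsg.charDegree (χ : G → ℂ) = p ^ n) : Cfsg.blockDefect p (Cfsg.blockOf M (χ : G → ℂ)) ≤ a - b ∧ (IsMulCommutative ↥(P : Subgroup G) → Cfsg.blockDefect p (Cfsg.blockOf M (χ : G → ℂ)) = 0) := by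
  classical
  have _fg : Fintype G := Fintype.ofFinite G
  have hp := (Fact.out : p.Prime)
  have hMp := hM.2.1.isPrime
  obtain ⟨Zs, hZs⟩ : ∃ Zs : Subgroup G,
      Zs = (Subgroup.center ↥(P : Subgroup G)).map (P : Subgroup G).subtype := ⟨_, rfl⟩
  have hZcard : Nat.card Zs = p ^ b := by
    rw [hZs, Subgroup.card_map_of_injective (Subgroup.subtype_injective _), hb]
  have hZmem : ∀ x : G, x ∈ Zs → x ∈ (P : Subgroup G) ∧
      ∀ y ∈ (P : Subgroup G), y * x = x * y := by
    intro x hx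
    rw [hZs, Subgroup.mem_map] at hx
    obtain ⟨z, hz, rfl⟩ := hx
    refine ⟨z.2, fun y hy => ?_⟩
    have h1 := Subgroup.mem_center_iff.mp hz ⟨y, hy⟩
    exact congrArg Subtype.val h1
  obtain ⟨m, ρ, hirr, hρ⟩ := χ.2
  have _ : ρ.IsIrreducible := hirr
  obtain ⟨d, hd0, hd⟩ := irr_one_pos χ.2
  have hdd : d = p ^ n := by
    rw [← hdeg]
    exact (charDegree_eq hd).symm
  have hfin : Module.finrank ℂ (Fin m → ℂ) = p ^ n := by
    have h1 : ρ.character 1 = (Module.finrank ℂ (Fin m → ℂ) : ℂ) := Representation.char_one ρ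
    rw [hρ, hd, hdd] at h1
    exact_mod_cast h1.symm
  have hidx : ∀ x ∈ Zs, ¬ p ∣ (Subgroup.centralizer ({x} : Set G)).index := by
    intro x hx hdvd
    have hle : (P : Subgroup G) ≤ Subgroup.centralizer ({x} : Set G) := by
      intro y hy
      rw [Subgroup.mem_centralizer_singleton_iff]
      exact (hZmem x hx).2 y hy
    have h1 := Subgroup.index_dvd_of_le hle
    exact P.not_dvd_index (hdvd.trans h1)
  have hA : ∀ x ∈ Zs, x ≠ 1 → (χ : G → ℂ) x = 0 := by
    intro x hx hx1
    have hcop : Nat.Coprime (Module.finrank ℂ (Fin m → ℂ))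
        (Subgroup.centralizer ({x} : Set G)).index := by
      rw [hfin]
      exact Nat.Coprime.pow_left n ((Nat.Prime.coprime_iff_not_dvd hp).mpr (hidx x hx))
    rcases Cfsg.Agent.S0142.result ρ x hcop with h | h
    · rw [← hρ]
      exact h
    · exfalso
      obtain ⟨ω, hω⟩ := scalar_of_norm_eq ρ x h
      apply hx1
      have hxc : x ∈ Subgroup.center G := by
        rw [Subgroup.mem_center_iff]
        intro g
        have h2 : ρ x * ρ g = ρ g * ρ x := by
          rw [hω]
          ext v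
          simp
        have h1 : ρ (x * g * x⁻¹ * g⁻¹) = 1 := by
          rw [map_mul, map_mul, map_mul, h2, mul_assoc (ρ g), ← map_mul ρ x, mul_inv_cancel,
            map_one, mul_one, ← map_mul, mul_inv_cancel, map_one]
        have h3 : (χ : G → ℂ) (x * g * x⁻¹ * g⁻¹) = (χ : G → ℂ) 1 := by
          rw [← hρ]
          show LinearMap.trace ℂ _ (ρ (x * g * x⁻¹ * g⁻¹)) = LinearMap.trace ℂ _ (ρ 1)
          rw [h1, map_one ρ]
        have h4 := hfaith _ h3
        have h5 : x * g = g * x := by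
          have h6 : x * g * x⁻¹ * g⁻¹ * (g * x) = g * x := by rw [h4, one_mul]
          rw [← h6]
          group
        exact h5.symm
      rw [hZ] at hxc
      exact Subgroup.mem_bot.mp hxc
  have key : ∀ ψ : Cfsg.IrrCharacter G, ψ ∈ Cfsg.blockOf M (χ : G → ℂ) →
      b ≤ (Cfsg.charDegree (ψ : G → ℂ)).factorization p := by
    intro ψ hψ
    have hsb : Cfsg.SameBlock M (χ : G → ℂ) (ψ : G → ℂ) := hψ
    obtain ⟨e, he0, he⟩ := irr_one_pos ψ.2
    rw [charDegree_eq he]
    have he0' : (e : ℂ) ≠ 0 := by exact_mod_cast he0.ne'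
    have hB : ∀ x ∈ Zs, x ≠ 1 → Cfsg.MemLocalIdeal M ((ψ : G → ℂ) x / (e : ℂ)) := by
      intro x hx hx1
      have h1 := hsb x
      unfold Cfsg.centralChar at h1
      rw [hA x hx hx1, mul_zero, zero_div, zero_sub, he] at h1
      have h2 := li_neg h1
      rw [neg_neg] at h2
      have h3 := li_mul_left hMp (lr_nat_inv hM (hidx x hx)) h2
      have hne : ((Subgroup.centralizer ({x} : Set G)).index : ℂ) ≠ 0 := by
        have := Subgroup.index_ne_zero_of_finite (H := Subgroup.centralizer ({x} : Set G))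
        exact_mod_cast this
      have e1 : ((Subgroup.centralizer ({x} : Set G)).index : ℂ)⁻¹ *
          (((Subgroup.centralizer ({x} : Set G)).index : ℂ) * (ψ : G → ℂ) x / (e : ℂ)) =
          (ψ : G → ℂ) x / (e : ℂ) := by
        field_simp
      rw [e1] at h3
      exact h3
    have _fZ : Fintype Zs := Fintype.ofFinite Zs
    have hres : Cfsg.IsCharacter Zs (fun z : Zs => (ψ : G → ℂ) z) :=
      comp_isCharacter Zs.subtype (isCharacter_of_irr ψ.2)
    obtain ⟨k, hk⟩ := inner_char_nat hres (isCharacter_of_irr (isIrr_one Zs))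
    unfold Cfsg.classInner at hk
    simp only [map_one, mul_one] at hk
    have hC : ∑ z : Zs, (ψ : G → ℂ) z = ((p ^ b * k : ℕ) : ℂ) := by
      have hc0 : (Nat.card Zs : ℂ) ≠ 0 := by exact_mod_cast Nat.card_pos.ne'
      rw [inv_mul_eq_iff_eq_mul₀ hc0] at hk
      rw [hk, hZcard]
      push_cast
      ring
    obtain ⟨μ, hμ⟩ : ∃ μ : ℂ, μ = ∑ z ∈ Finset.univ.filter (fun z : Zs => ¬ z = 1),
        (ψ : G → ℂ) z / (e : ℂ) := ⟨_, rfl⟩
    have hμli : Cfsg.MemLocalIdeal M μ := by
      rw [hμ]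
      apply li_sum hMp
      intro z hz
      rw [Finset.mem_filter] at hz
      exact hB z z.2 (fun h => hz.2 (Subtype.ext h))
    have hD : ∑ z : Zs, (ψ : G → ℂ) z = (e : ℂ) * (1 + μ) := by
      rw [← Finset.sum_filter_add_sum_filter_not Finset.univ (fun z : Zs => z = 1)]
      have h1 : Finset.univ.filter (fun z : Zs => z = 1) = {1} := by
        ext z
        simp
      rw [h1, Finset.sum_singleton, Subgroup.coe_one, he, hμ, mul_add, mul_one, Finset.mul_sum]
      congr 1
      refine Finset.sum_congr rfl (fun z _ => ?_)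
      field_simp
    obtain ⟨c, r, hr, hcr⟩ := Nat.exists_eq_pow_mul_and_not_dvd he0.ne' p hp.ne_one
    by_contra hlt
    rw [not_le] at hlt
    have hr0 : r ≠ 0 := by
      rintro rfl
      exact hr (dvd_zero p)
    have hfac : e.factorization p = c := by
      rw [hcr, Nat.factorization_mul (pow_ne_zero _ hp.ne_zero) hr0, Nat.factorization_pow]
      simp [hp.factorization_self, Nat.factorization_eq_zero_of_not_dvd hr]
    rw [hfac] at hlt
    have h1 : ((p ^ (b - c) * k : ℕ) : ℂ) = (r : ℂ) * (1 + μ) := by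
      have h2 : ((p ^ b * k : ℕ) : ℂ) = (e : ℂ) * (1 + μ) := by rw [← hC, hD]
      have h3 : p ^ b = p ^ c * p ^ (b - c) := by
        rw [← pow_add]
        congr 1
        omega
      rw [h3, hcr] at h2
      push_cast at h2 ⊢
      have hpc : ((p : ℂ) ^ c) ≠ 0 := pow_ne_zero _ (by exact_mod_cast hp.ne_zero)
      apply mul_left_cancel₀ hpc
      linear_combination h2
    have h4 : Cfsg.MemLocalIdeal M (((p ^ (b - c) * k : ℕ)) : ℂ) := by
      rw [li_nat_iff hM]
      exact Dvd.dvd.mul_right (dvd_pow_self p (by omega)) k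
    rw [h1] at h4
    have hr' : ¬ Cfsg.MemLocalIdeal M (r : ℂ) := by
      rw [li_nat_iff hM]
      exact hr
    have h1μ : ¬ Cfsg.MemLocalIdeal M (1 + μ) := by
      intro h
      have h5 := li_sub hMp h hμli
      rw [add_sub_cancel_right] at h5
      exact not_li_one hMp h5
    have hrlr : Cfsg.MemLocalRing M (r : ℂ) := by
      have h5 := lr_int hMp (r : Cfsg.AlgInt)
      simpa using h5
    have hμlr : Cfsg.MemLocalRing M (1 + μ) := lr_add hMp (lr_one hMp) (li_lr hμli)
    exact not_li_mul hMp hrlr hμlr hr' h1μ h4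
  have hfa : (Nat.card G).factorization p = a := by
    have h1 := Sylow.card_eq_multiplicity P
    rw [ha] at h1
    exact (Nat.pow_right_injective hp.two_le h1).symm
  have hmain : Cfsg.blockDefect p (Cfsg.blockOf M (χ : G → ℂ)) ≤ a - b := by
    unfold Cfsg.blockDefect
    rw [hfa]
    apply Nat.sub_le_sub_left
    have hne : ((fun ψ : Cfsg.IrrCharacter G =>
        (Cfsg.charDegree (ψ : G → ℂ)).factorization p) '' Cfsg.blockOf M (χ : G → ℂ)).Nonempty :=
      ⟨_, ⟨χ, sb_refl hMp _, rfl⟩⟩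
    obtain ⟨ψ, hψ, hψe⟩ := Nat.sInf_mem hne
    rw [← hψe]
    exact key ψ hψ
  refine ⟨hmain, fun hcomm => ?_⟩
  have hcen : Subgroup.center ↥(P : Subgroup G) = ⊤ := by
    rw [Subgroup.eq_top_iff']
    intro x
    rw [Subgroup.mem_center_iff]
    intro y
    exact hcomm.is_comm.comm y x
  rw [hcen, Subgroup.card_top] at hb
  have hab : a = b := by
    rw [ha] at hb
    exact Nat.pow_right_injective hp.two_le hb
  rw [hab, Nat.sub_self] at hmain
  exact Nat.le_zero.mp hmain

end Cfsg.Agent.S4730
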