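import Mathlib
import Cfsg.Statements.S4731
import Cfsg.Agent.Lib.Helper3.Char
import Cfsg.Agent.Lib.Helper3.BlkLocal
import Cfsg.Agent.Lib.Helper3.BlkOsima
import Cfsg.Agent.Lib.Helper3.BlkOrth4
import Cfsg.Agent.Lib.Helper3.BlkDef
import Cfsg.Agent.Lib.Helper3.BlkPQ

set_option autoImplicit false
open Cfsg
open Cfsg.Agent.Lib.Helper3.Char Cfsg.Agent.Lib.Helper3.BlkLocal Cfsg.Agent.Lib.Helper3.BlkOsima Cfsg.Agent.Lib.Helper3.BlkOrth4 Cfsg.Agent.Lib.Helper3.BlkDef Cfsg.Agent.Lib.Helper3.BlkPQ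

namespace Cfsg.Agent.S4731

theorem result {G : Type*} [Group G] [Finite G] (p q : ℕ) [Fact p.Prime] [Fact q.Prime] (hpq : p ≠ q) (Mp Mq : Ideal Cfsg.AlgInt) (hMp : Cfsg.IsPModular p Mp) (hMq : Cfsg.IsPModular q Mq) (hno : ∀ g : G, orderOf g ≠ p * q) (b : ℕ) (hb : (Nat.card G).factorization q = b) (Bp : Set (Cfsg.IrrCharacter G)) (hBp : Cfsg.IsPBlock Mp Bp) (Bq : Set (Cfsg.IrrCharacter G)) (hBq : Cfsg.IsPBlock Mq Bq) (y : G) (hy : p ∣ orderOf y) : ∃ ω : Cfsg.AlgInt, ∑ᶠ χ ∈ Bp ∩ Bq, (Cfsg.charDegree (χ : G → ℂ) : ℂ) * (χ : G → ℂ) y = (q : ℂ) ^ b * (ω : ℂ) := by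
  classical
  have _fg : Fintype G := Fintype.ofFinite G
  have _fi : Fintype (Cfsg.IrrCharacter G) := Fintype.ofFinite _
  have hqP : q.Prime := Fact.out
  obtain ⟨Q⟩ : Nonempty (Sylow q G) := inferInstance
  have _fQ : Fintype (Q : Subgroup G) := Fintype.ofFinite _
  have hcard : Nat.card (Q : Subgroup G) = q ^ b := by
    rw [← hb]
    exact Q.card_eq_multiplicity
  have hyinv : p ∣ orderOf y⁻¹ := by
    rw [orderOf_inv]
    exact hy
  have hv : ∀ u : G, q ∣ orderOf u → ∑ χ : Cfsg.IrrCharacter G,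
      (if χ ∈ Bp then (χ : G → ℂ) y else 0) * (if χ ∈ Bq then (χ : G → ℂ) u else 0) = 0 := by
    intro u hu
    have h1 := pq_vanish p q hpq Mp Mq hMp hMq hno Bp hBp Bq hBq y⁻¹ hyinv u hu
    simp only [inv_inv] at h1
    exact h1
  have hsumQ : ∑ u : (Q : Subgroup G), ∑ χ : Cfsg.IrrCharacter G,
      (if χ ∈ Bp then (χ : G → ℂ) y else 0) * (if χ ∈ Bq then (χ : G → ℂ) (u : G) else 0) =
      ∑ χ : Cfsg.IrrCharacter G,
      (if χ ∈ Bp then (χ : G → ℂ) y else 0) * (if χ ∈ Bq then (χ : G → ℂ) 1 else 0) := by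
    rw [Finset.sum_eq_single (1 : (Q : Subgroup G))]
    · rfl
    · intro u _ hu1
      apply hv
      obtain ⟨k, hk⟩ := Q.isPGroup' u
      have h1 : orderOf u ∣ q ^ k := orderOf_dvd_of_pow_eq_one hk
      obtain ⟨j, _, hj⟩ := (Nat.dvd_prime_pow hqP).mp h1
      have h2 : orderOf (u : G) = q ^ j := by
        rw [← hj]
        exact (Subgroup.orderOf_coe u)
      rw [h2]
      have hj0 : j ≠ 0 := by
        rintro rfl
        rw [pow_zero, orderOf_eq_one_iff] at hj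
        exact hu1 hj
      exact dvd_pow_self q hj0
    · intro h
      exact absurd (Finset.mem_univ _) h
  have hint : IsIntegral ℤ ((Nat.card (Q : Subgroup G) : ℂ)⁻¹ *
      ∑ u : (Q : Subgroup G), ∑ χ : Cfsg.IrrCharacter G,
      (if χ ∈ Bp then (χ : G → ℂ) y else 0) * (if χ ∈ Bq then (χ : G → ℂ) (u : G) else 0)) := by
    rw [Finset.sum_comm, Finset.mul_sum]
    apply IsIntegral.sum
    intro χ _
    by_cases h1 : χ ∈ Bp
    · by_cases h2 : χ ∈ Bq
      · simp only [if_pos h1, if_pos h2]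
        rw [← Finset.mul_sum, mul_left_comm]
        have h3 := avg_char_integral (isCharacter_of_irr χ.2) 1 (Q : Subgroup G) (by simp)
        simp only [one_mul] at h3
        exact (char_isIntegral (isCharacter_of_irr χ.2) y).mul h3
      · simp only [if_neg h2, mul_zero, Finset.sum_const_zero]
        exact isIntegral_zero
    · simp only [if_neg h1, zero_mul, Finset.sum_const_zero, mul_zero]
      exact isIntegral_zero
  rw [hsumQ] at hint
  refine ⟨⟨_, hint⟩, ?_⟩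
  rw [finsum_mem_ite]
  show _ = (q : ℂ) ^ b * ((Nat.card (Q : Subgroup G) : ℂ)⁻¹ * _)
  have hq0 : ((q : ℂ) ^ b) ≠ 0 := pow_ne_zero _ (Nat.cast_ne_zero.mpr hqP.ne_zero)
  rw [hcard]
  push_cast
  rw [← mul_assoc, mul_inv_cancel₀ hq0, one_mul]
  refine Finset.sum_congr rfl (fun χ _ => ?_)
  obtain ⟨n, hn0, hn⟩ := irr_one_pos χ.2
  rw [charDegree_eq hn, hn]
  by_cases h1 : χ ∈ Bp
  · by_cases h2 : χ ∈ Bq
    · rw [if_pos (Set.mem_inter h1 h2), if_pos h1, if_pos h2, mul_comm]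
    · rw [if_neg (fun h => h2 h.2), if_neg h2, mul_zero]
  · rw [if_neg (fun h => h1 h.1), if_neg h1, zero_mul]

end Cfsg.Agent.S4731
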