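import Mathlib
import Cfsg.Statements.S4733
import Cfsg.Agent.Lib.Helper3.Char
import Cfsg.Agent.Lib.Helper3.BlkLocal
import Cfsg.Agent.Lib.Helper3.BlkOsima
import Cfsg.Agent.Lib.Helper3.BlkOrth3
import Cfsg.Agent.Lib.Helper3.BlkOrth4
import Cfsg.Agent.Lib.Helper3.BlkHeight
import Cfsg.Agent.Lib.Helper3.BlkRank
import Cfsg.Agent.S0923

set_option autoImplicit false
open Cfsg
open Cfsg.Agent.Lib.Helper3.Char Cfsg.Agent.Lib.Helper3.BlkLocal Cfsg.Agent.Lib.Helper3.BlkOsima Cfsg.Agent.Lib.Helper3.BlkOrth3 Cfsg.Agent.Lib.Helper3.BlkOrth4 Cfsg.Agent.Lib.Helper3.BlkHeight Cfsg.Agent.Lib.Helper3.BlkRank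
open scoped ComplexConjugate

namespace Cfsg.Agent.S4733

theorem result {G : Type*} [Group G] [Finite G] (p : ℕ) [Fact p.Prime] (M : Ideal Cfsg.AlgInt) (hM : Cfsg.IsPModular p M) (B : Set (Cfsg.IrrCharacter G)) (hB : Cfsg.IsPBlock M B) : Cfsg.blockRank p B ≤ Nat.card B ∧ (Cfsg.blockDefect p B = 0 ↔ (Nat.card B = 1 ∧ Cfsg.blockRank p B = 1)) ∧ (Cfsg.blockDefect p B = 0 ↔ Nat.card B = Cfsg.blockRank p B) := by
  classical
  have _fg : Fintype G := Fintype.ofFinite G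
  have _fi : Fintype (Cfsg.IrrCharacter G) := Fintype.ofFinite _
  have hp : p.Prime := Fact.out
  have hMp := hM.2.1.isPrime
  obtain ⟨χ₀, hχ₀⟩ := id hB
  have hne : B.Nonempty := ⟨χ₀, by rw [hχ₀]; exact sb_refl hMp _⟩
  have hA : Cfsg.blockDefect p B = 0 → ∃ χ : Cfsg.IrrCharacter G, B = {χ} := by
    intro hd
    obtain ⟨χ, hχB, hχ0⟩ := exists_height_zero p B hne
    have hz := height_zero_val p B χ hχB hχ0
    have hnd : ¬ p ∣ Nat.card G / Cfsg.charDegree (χ : G → ℂ) := not_dvd_of_val hp χ (by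
      unfold Cfsg.blockDefect at hd
      omega)
    have h1 := singleton_of_not_dvd hM χ hnd
    have h2 : B = Cfsg.blockOf M (χ : G → ℂ) :=
      Cfsg.Agent.S0923.block_eq_of_mem hMp B _ hB ⟨χ, rfl⟩ χ hχB (sb_refl hMp _)
    exact ⟨χ, h2.trans h1⟩
  have hrank1 : ∀ χ : Cfsg.IrrCharacter G, B = {χ} → Cfsg.blockRank p B = 1 := by
    intro χ hBχ
    unfold Cfsg.blockRank
    rw [hBχ, Set.image_singleton]
    exact finrank_span_singleton (prp_ne_zero hp χ)
  have hcard1 : ∀ χ : Cfsg.IrrCharacter G, B = {χ} → Nat.card B = 1 := by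
    intro χ hBχ
    rw [hBχ]
    simp
  have hC : ∀ χ : Cfsg.IrrCharacter G, B = {χ} → Cfsg.blockDefect p B = 0 := by
    intro χ hBχ
    have hχB : χ ∈ B := by
      rw [hBχ]
      rfl
    have h1 : Cfsg.blockOf M (χ : G → ℂ) = {χ} := by
      rw [← hBχ]
      exact (Cfsg.Agent.S0923.block_eq_of_mem hMp B _ hB ⟨χ, rfl⟩ χ hχB (sb_refl hMp _)).symm
    have h2 := not_dvd_of_singleton hM χ h1
    have h3 := val_eq_of_not_dvd hp χ h2
    apply defect_zero_of_val B hne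
    intro ψ hψ
    rw [hBχ, Set.mem_singleton_iff] at hψ
    rw [hψ, h3]
  have hrange : Set.range (fun χ : B => Cfsg.pRegularPart p ((χ : Cfsg.IrrCharacter G) : G → ℂ)) =
      (fun χ : Cfsg.IrrCharacter G => Cfsg.pRegularPart p (χ : G → ℂ)) '' B := by
    ext f
    constructor
    · rintro ⟨χ, rfl⟩
      exact ⟨χ.1, χ.2, rfl⟩
    · rintro ⟨χ, hχ, rfl⟩
      exact ⟨⟨χ, hχ⟩, rfl⟩
  refine ⟨?_, ⟨fun hd => ?_, fun hc => ?_⟩, ⟨fun hd => ?_, fun hc => ?_⟩⟩
  · have h1 := finrank_range_le_card (R := ℂ)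
      (fun χ : B => Cfsg.pRegularPart p ((χ : Cfsg.IrrCharacter G) : G → ℂ))
    rw [hrange] at h1
    rw [Nat.card_eq_fintype_card]
    exact h1
  · obtain ⟨χ, hχ⟩ := hA hd
    exact ⟨hcard1 χ hχ, hrank1 χ hχ⟩
  · have h1 := hc.1
    rw [Nat.card_coe_set_eq, Set.ncard_eq_one] at h1
    obtain ⟨χ, hχ⟩ := h1
    exact hC χ hχ
  · obtain ⟨χ, hχ⟩ := hA hd
    rw [hcard1 χ hχ, hrank1 χ hχ]
  · have hli : LinearIndependent ℂ
        (fun χ : B => Cfsg.pRegularPart p ((χ : Cfsg.IrrCharacter G) : G → ℂ)) := by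
      rw [linearIndependent_iff_card_eq_finrank_span, hrange, ← Nat.card_eq_fintype_card]
      exact hc
    rw [Fintype.linearIndependent_iff] at hli
    have hvan : ∀ χ ∈ B, ∀ y : G, p ∣ orderOf y → (χ : G → ℂ) y = 0 := by
      intro χ hχ y hy
      have h1 := hli (fun ψ : B => (starRingEnd ℂ) (((ψ : Cfsg.IrrCharacter G) : G → ℂ) y)) (by
        funext x
        rw [Finset.sum_apply, Pi.zero_apply]
        by_cases hx : p ∣ orderOf x
        · apply Finset.sum_eq_zero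
          intro ψ _
          rw [Pi.smul_apply, prp_sing p _ x hx, smul_zero]
        · have h2 := weak_orth hM B hB x y hx hy
          have e : ∑ c : B, ((c : Cfsg.IrrCharacter G) : G → ℂ) x *
              (starRingEnd ℂ) (((c : Cfsg.IrrCharacter G) : G → ℂ) y) =
              ∑ χ : Cfsg.IrrCharacter G,
                (if χ ∈ B then (χ : G → ℂ) x * (starRingEnd ℂ) ((χ : G → ℂ) y) else 0) := by
            rw [Finset.sum_set_coe B (f := fun χ : Cfsg.IrrCharacter G =>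
              (χ : G → ℂ) x * (starRingEnd ℂ) ((χ : G → ℂ) y)), ← Finset.sum_filter]
            refine Finset.sum_congr (Finset.ext (fun _ => by simp)) (fun _ _ => rfl)
          rw [← h2, ← e]
          refine Finset.sum_congr rfl (fun ψ _ => ?_)
          rw [Pi.smul_apply, prp_reg p _ x hx, smul_eq_mul, mul_comm]) ⟨χ, hχ⟩
      have h3 := congrArg (starRingEnd ℂ) h1
      simp only [Complex.conj_conj, map_zero] at h3
      exact h3
    apply defect_zero_of_val B hne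
    intro χ hχ
    exact (val_eq_of_not_dvd hp χ (not_dvd_of_vanish χ (hvan χ hχ))).ge

end Cfsg.Agent.S4733
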