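import Mathlib
import Cfsg.Statements.S4964
import Cfsg.Agent.Lib.Helper3.Char
import Cfsg.Agent.Lib.Helper3.CharCore
import Cfsg.Agent.Lib.Helper3.CharProj
import Cfsg.Agent.Lib.Helper3.BlkLocal
import Cfsg.Agent.Lib.Helper3.BlkOsima
import Cfsg.Agent.Lib.Helper3.BlkOrth
import Cfsg.Agent.Lib.Helper3.BlkOrth2
import Cfsg.Agent.Lib.Helper3.BlkCore
import Cfsg.Agent.Lib.Helper3.BlkInfl
import Cfsg.Agent.Lib.Helper3.BlkFirst3

set_option autoImplicit false
open Cfsg
open Cfsg.Agent.Lib.Helper3.Char Cfsg.Agent.Lib.Helper3.CharCore Cfsg.Agent.Lib.Helper3.CharProj Cfsg.Agent.Lib.Helper3.BlkLocal Cfsg.Agent.Lib.Helper3.BlkOsima Cfsg.Agent.Lib.Helper3.BlkOrth Cfsg.Agent.Lib.Helper3.BlkOrth2 Cfsg.Agent.Lib.Helper3.BlkCore Cfsg.Agent.Lib.Helper3.BlkInfl Cfsg.Agent.Lib.Helper3.BlkFirst3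
open scoped commutatorElement

namespace Cfsg.Agent.S4964

universe u

theorem coprime_cent {G : Type u} [Group G] [Finite G] {p : ℕ} [hp : Fact p.Prime]
    (D : Subgroup G) [hDn : D.Normal] (hD : IsPGroup p D) (x : G) (hx : ¬ p ∣ orderOf x)
    (h : ∀ d ∈ D, d⁻¹ * (x * d * x⁻¹) ∈ ⁅D, D⁆) : ∀ d ∈ D, x * d * x⁻¹ = d := by
  have hcomm_iter : ∀ (k : ℕ) (d : G), d ∈ D →
      d⁻¹ * (x ^ k * d * (x ^ k)⁻¹) ∈ ⁅D, D⁆ := by
    intro k
    induction k with
    | zero =>
      intro d hd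
      have h0 : d⁻¹ * (x ^ 0 * d * (x ^ 0)⁻¹) = 1 := by group
      rw [h0]
      exact Subgroup.one_mem _
    | succ k ih =>
      intro d hd
      have he : x ^ k * d * (x ^ k)⁻¹ ∈ D := hDn.conj_mem d hd (x ^ k)
      have h1 := ih d hd
      have h2 := h _ he
      have h3 : d⁻¹ * (x ^ (k + 1) * d * (x ^ (k + 1))⁻¹) =
          (d⁻¹ * (x ^ k * d * (x ^ k)⁻¹)) * ((x ^ k * d * (x ^ k)⁻¹)⁻¹ *
            (x * (x ^ k * d * (x ^ k)⁻¹) * x⁻¹)) := by
        rw [pow_succ']
        group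
      rw [h3]
      exact Subgroup.mul_mem _ h1 h2
  have key : ∀ (n : ℕ) (d : G), d ∈ D →
      d⁻¹ * (x * d * x⁻¹) ∈ D.lowerCentralSeries (n + 1) := by
    intro n
    induction n with
    | zero =>
      intro d hd
      rw [Subgroup.lowerCentralSeries_succ, Subgroup.lowerCentralSeries_zero]
      exact h d hd
    | succ n ih =>
      intro d hd
      have hLD : D.lowerCentralSeries (n + 1) ≤ D := by
        have h1 := Subgroup.lowerCentralSeries_antitone (S := D) (Nat.zero_le (n + 1))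
        rw [Subgroup.lowerCentralSeries_zero] at h1
        exact h1
      obtain ⟨N, hN⟩ : ∃ N : Subgroup G, N = D.lowerCentralSeries (n + 1 + 1) := ⟨_, rfl⟩
      have hNn : N.Normal := by
        rw [hN]
        infer_instance
      have hcen : ∀ g ∈ D.lowerCentralSeries (n + 1), ∀ e ∈ D,
          (QuotientGroup.mk g : G ⧸ N) * QuotientGroup.mk e =
            QuotientGroup.mk e * QuotientGroup.mk g := by
        intro g hg e he
        have h1 : ⁅g, e⁆ ∈ N := by
          rw [hN, Subgroup.lowerCentralSeries_succ]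
          exact Subgroup.commutator_mem_commutator hg he
        have h2 : (QuotientGroup.mk ⁅g, e⁆ : G ⧸ N) = 1 := (QuotientGroup.eq_one_iff _).mpr h1
        rw [commutatorElement_def, QuotientGroup.mk_mul, QuotientGroup.mk_mul,
          QuotientGroup.mk_mul, QuotientGroup.mk_inv, QuotientGroup.mk_inv] at h2
        have h3 := mul_inv_eq_one.mp h2
        exact mul_inv_eq_iff_eq_mul.mp h3
      let u : G → G ⧸ N := fun d => QuotientGroup.mk (d⁻¹ * (x * d * x⁻¹))
      have hu1 : u 1 = 1 := by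
        show (QuotientGroup.mk ((1 : G)⁻¹ * (x * 1 * x⁻¹)) : G ⧸ N) = 1
        have h0 : (1 : G)⁻¹ * (x * 1 * x⁻¹) = 1 := by group
        rw [h0]
        rfl
      have humul : ∀ a ∈ D, ∀ b ∈ D, u (a * b) = u a * u b := by
        intro a ha b hb
        have e1 : (a * b)⁻¹ * (x * (a * b) * x⁻¹) =
            b⁻¹ * (a⁻¹ * (x * a * x⁻¹)) * b * (b⁻¹ * (x * b * x⁻¹)) := by group
        have hAB := hcen _ (ih a ha) b hb
        show (QuotientGroup.mk ((a * b)⁻¹ * (x * (a * b) * x⁻¹)) : G ⧸ N) =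
          QuotientGroup.mk (a⁻¹ * (x * a * x⁻¹)) * QuotientGroup.mk (b⁻¹ * (x * b * x⁻¹))
        rw [e1, QuotientGroup.mk_mul, QuotientGroup.mk_mul, QuotientGroup.mk_mul,
          QuotientGroup.mk_inv, mul_assoc (QuotientGroup.mk b : G ⧸ N)⁻¹, hAB, ← mul_assoc,
          inv_mul_cancel, one_mul]
      have hucomm : ∀ a ∈ D, ∀ b ∈ D, u a * u b = u b * u a := by
        intro a ha b hb
        exact hcen _ (ih a ha) _ (hLD (ih b hb))
      have hD' : ∀ c ∈ ⁅D, D⁆, c ∈ D ∧ u c = 1 := by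
        intro c hc
        rw [Subgroup.commutator_def] at hc
        induction hc using Subgroup.closure_induction with
        | mem c hc =>
          obtain ⟨a, ha, b, hb, rfl⟩ := hc
          have hai := D.inv_mem ha
          have hbi := D.inv_mem hb
          refine ⟨?_, ?_⟩
          · rw [commutatorElement_def]
            exact D.mul_mem (D.mul_mem (D.mul_mem ha hb) hai) hbi
          · rw [commutatorElement_def, humul _ (D.mul_mem (D.mul_mem ha hb) hai) _ hbi,
              humul _ (D.mul_mem ha hb) _ hai, humul a ha b hb, mul_assoc (u a) (u b),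
              hucomm b hb _ hai, ← mul_assoc, ← humul a ha _ hai, mul_inv_cancel, hu1, one_mul,
              ← humul b hb _ hbi, mul_inv_cancel, hu1]
        | one => exact ⟨D.one_mem, hu1⟩
        | mul c1 c2 _ _ h1 h2 =>
          exact ⟨D.mul_mem h1.1 h2.1, by rw [humul _ h1.1 _ h2.1, h1.2, h2.2, one_mul]⟩
        | inv c _ h1 =>
          refine ⟨D.inv_mem h1.1, ?_⟩
          have h2 := humul c h1.1 _ (D.inv_mem h1.1)
          rw [mul_inv_cancel, hu1, h1.2, one_mul] at h2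
          exact h2.symm
      have hiter : ∀ (k : ℕ), (QuotientGroup.mk (x ^ k * d * (x ^ k)⁻¹) : G ⧸ N) =
          QuotientGroup.mk d * (u d) ^ k := by
        intro k
        induction k with
        | zero =>
          have h0 : x ^ 0 * d * (x ^ 0)⁻¹ = d := by group
          rw [h0, pow_zero, mul_one]
        | succ k ihk =>
          have he : x ^ k * d * (x ^ k)⁻¹ ∈ D := hDn.conj_mem d hd (x ^ k)
          have h1 : x ^ (k + 1) * d * (x ^ (k + 1))⁻¹ =
              (x ^ k * d * (x ^ k)⁻¹) * ((x ^ k * d * (x ^ k)⁻¹)⁻¹ *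
                (x * (x ^ k * d * (x ^ k)⁻¹) * x⁻¹)) := by
            rw [pow_succ']
            group
          have h2 : u (x ^ k * d * (x ^ k)⁻¹) = u d := by
            have h3 : x ^ k * d * (x ^ k)⁻¹ = d * (d⁻¹ * (x ^ k * d * (x ^ k)⁻¹)) := by group
            have h4 := hD' _ (hcomm_iter k d hd)
            rw [h3, humul d hd _ h4.1, h4.2, mul_one]
          rw [h1, QuotientGroup.mk_mul, ihk]
          show QuotientGroup.mk d * u d ^ k * u (x ^ k * d * (x ^ k)⁻¹) = _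
          rw [h2, pow_succ, mul_assoc]
      have h5 := hiter (orderOf x)
      rw [pow_orderOf_eq_one] at h5
      have h6 : (1 : G) * d * (1 : G)⁻¹ = d := by group
      rw [h6] at h5
      have h7 : (u d) ^ orderOf x = 1 := by
        exact mul_left_cancel (h5.symm.trans (mul_one _).symm)
      obtain ⟨j, hj⟩ := hD ⟨d⁻¹ * (x * d * x⁻¹), hLD (ih d hd)⟩
      have hj' : (d⁻¹ * (x * d * x⁻¹)) ^ (p ^ j) = 1 := congrArg Subtype.val hj
      have h9 : (u d) ^ (p ^ j) = 1 := by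
        show (QuotientGroup.mk (d⁻¹ * (x * d * x⁻¹)) : G ⧸ N) ^ (p ^ j) = 1
        rw [← QuotientGroup.mk_pow, hj']
        rfl
      have hcop : Nat.Coprime (orderOf x) (p ^ j) :=
        (Nat.Coprime.pow_left j ((Nat.Prime.coprime_iff_not_dvd hp.out).mpr hx)).symm
      have h10 : orderOf (u d) ∣ Nat.gcd (orderOf x) (p ^ j) :=
        Nat.dvd_gcd (orderOf_dvd_of_pow_eq_one h7) (orderOf_dvd_of_pow_eq_one h9)
      rw [hcop] at h10
      have h11 : u d = 1 := orderOf_eq_one_iff.mp (Nat.dvd_one.mp h10)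
      rw [← hN]
      exact (QuotientGroup.eq_one_iff _).mp h11
  have hnil : Group.IsNilpotent D := hD.isNilpotent
  obtain ⟨n, hn⟩ := (Subgroup.isNilpotent_iff_lowerCentralSeries D).mp hnil
  intro d hd
  have h1 := key n d hd
  have h2 := Subgroup.lowerCentralSeries_antitone (S := D) (Nat.le_succ n) h1
  rw [hn, Subgroup.mem_bot] at h2
  have h3 : x * d * x⁻¹ = d * (d⁻¹ * (x * d * x⁻¹)) := by group
  rw [h3, h2, mul_one]

theorem result {G : Type*} [Group G] [Finite G] (p : ℕ) [Fact p.Prime] (M : Ideal Cfsg.AlgInt) (hM : Cfsg.IsPModular p M) (D : Subgroup G) [D.Normal] (hD : IsPGroup p D) : (∀ χ ψ : Cfsg.IrrCharacter (G ⧸ ⁅D, D⁆), Cfsg.SameBlock M (χ : G ⧸ ⁅D, D⁆ → ℂ) (ψ : G ⧸ ⁅D, D⁆ → ℂ) ↔ Cfsg.SameBlock M ((χ : G ⧸ ⁅D, D⁆ → ℂ) ∘ QuotientGroup.mk) ((ψ : G ⧸ ⁅D, D⁆ → ℂ) ∘ QuotientGroup.mk)) ∧ ∀ B : Set (Cfsg.IrrCharacter G), Cfsg.IsPBlock M B → ∃ χ : Cfsg.IrrCharacter (G ⧸ ⁅D, D⁆), ∃ θ ∈ B, (θ : G → ℂ) = (χ : G ⧸ ⁅D, D⁆ → ℂ) ∘ QuotientGroup.mk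 := by
  classical
  have _fg : Fintype G := Fintype.ofFinite G
  have _fq : Fintype (G ⧸ ⁅D, D⁆) := Fintype.ofFinite _
  have hp := hM.1
  have hMp := hM.2.1.isPrime
  have hPD : (⁅D, D⁆ : Subgroup G) ≤ D := Subgroup.commutator_le_left D D
  have hP : IsPGroup p (⁅D, D⁆ : Subgroup G) := hD.to_le hPD
  have hPn : (⁅D, D⁆ : Subgroup G).Normal := inferInstance
  have hcc : ∀ (χ : Cfsg.IrrCharacter (G ⧸ ⁅D, D⁆)) (g : G),
      Cfsg.centralChar ((χ : G ⧸ ⁅D, D⁆ → ℂ) ∘ QuotientGroup.mk) g =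
        (((Subgroup.centralizer ({g} : Set G)).index /
          (Subgroup.centralizer ({(QuotientGroup.mk g : G ⧸ ⁅D, D⁆)} : Set (G ⧸ ⁅D, D⁆))).index : ℕ) : ℂ) *
          Cfsg.centralChar (χ : G ⧸ ⁅D, D⁆ → ℂ) (QuotientGroup.mk g) := by
    intro χ g
    have hdvd := index_cent_quot_dvd ⁅D, D⁆ g
    have h1 : ((Subgroup.centralizer ({g} : Set G)).index : ℂ) =
        (((Subgroup.centralizer ({g} : Set G)).index /
          (Subgroup.centralizer ({(QuotientGroup.mk g : G ⧸ ⁅D, D⁆)} : Set (G ⧸ ⁅D, D⁆))).index : ℕ) : ℂ) *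
        ((Subgroup.centralizer ({(QuotientGroup.mk g : G ⧸ ⁅D, D⁆)} : Set (G ⧸ ⁅D, D⁆))).index : ℂ) := by
      rw [← Nat.cast_mul, Nat.div_mul_cancel hdvd]
    unfold Cfsg.centralChar
    rw [h1]
    simp only [Function.comp_apply]
    have h2 : (QuotientGroup.mk (1 : G) : G ⧸ ⁅D, D⁆) = 1 := rfl
    rw [h2]
    ring
  constructor
  · intro χ ψ
    constructor
    · intro h g
      rw [hcc χ g, hcc ψ g, ← mul_sub]
      exact li_mul_left hMp (lr_of_isIntegral hMp (isIntegral_natCast _)) (h _)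
    · intro h
      apply sameBlock_of_preg hM
      intro y hy
      obtain ⟨x, rfl, hx⟩ := preg_lift hp ⁅D, D⁆ y hy
      by_cases hxP : ∀ u ∈ (⁅D, D⁆ : Subgroup G), u * x = x * u
      · have hidx := index_cent_quot_eq hp ⁅D, D⁆ hP x hx hxP
        have e : ∀ φ : Cfsg.IrrCharacter (G ⧸ ⁅D, D⁆),
            Cfsg.centralChar ((φ : G ⧸ ⁅D, D⁆ → ℂ) ∘ QuotientGroup.mk) x =
              Cfsg.centralChar (φ : G ⧸ ⁅D, D⁆ → ℂ) (QuotientGroup.mk x) := by
          intro φ
          unfold Cfsg.centralChar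
          rw [hidx]
          rfl
        rw [← e χ, ← e ψ]
        exact h x
      · have hne : ∃ ū ∈ D.map (QuotientGroup.mk' ⁅D, D⁆),
            ū * (QuotientGroup.mk x : G ⧸ ⁅D, D⁆) ≠ QuotientGroup.mk x * ū := by
          by_contra hall
          apply hxP
          have hall' : ∀ d ∈ D, (QuotientGroup.mk d : G ⧸ ⁅D, D⁆) * QuotientGroup.mk x =
              QuotientGroup.mk x * QuotientGroup.mk d := by
            intro d hd
            by_contra hne
            exact hall ⟨QuotientGroup.mk d, Subgroup.mem_map_of_mem _ hd, hne⟩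
          have hh : ∀ d ∈ D, d⁻¹ * (x * d * x⁻¹) ∈ (⁅D, D⁆ : Subgroup G) := by
            intro d hd
            have h1 := hall' d hd
            rw [← QuotientGroup.mk_mul, ← QuotientGroup.mk_mul] at h1
            have h2 := QuotientGroup.eq.mp h1
            have h3 := hPn.conj_mem _ h2 x
            have h4 : x * ((d * x)⁻¹ * (x * d)) * x⁻¹ = d⁻¹ * (x * d * x⁻¹) := by group
            rw [h4] at h3
            exact h3
          have hcentD := coprime_cent D hD x hx hh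
          intro u hu
          have h5 := hcentD u (hPD hu)
          calc u * x = (x * u * x⁻¹) * x := by rw [h5]
            _ = x * u := by group
        have _hQn : (D.map (QuotientGroup.mk' ⁅D, D⁆)).Normal :=
          Subgroup.Normal.map inferInstance _ (QuotientGroup.mk'_surjective _)
        have hQp : IsPGroup p (D.map (QuotientGroup.mk' ⁅D, D⁆)) := hD.map _
        have h1 := cc_li_of_not_cent hM (D.map (QuotientGroup.mk' ⁅D, D⁆)) hQp
          (Cfsg.blockOf M (χ : G ⧸ ⁅D, D⁆ → ℂ)) ⟨χ, rfl⟩ χ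
          (fun g => by rw [sub_self]; exact li_zero hMp) (QuotientGroup.mk x) hne
        have h2 := cc_li_of_not_cent hM (D.map (QuotientGroup.mk' ⁅D, D⁆)) hQp
          (Cfsg.blockOf M (ψ : G ⧸ ⁅D, D⁆ → ℂ)) ⟨ψ, rfl⟩ ψ
          (fun g => by rw [sub_self]; exact li_zero hMp) (QuotientGroup.mk x) hne
        exact li_sub hMp h1 h2
  · intro B hB
    obtain ⟨θ, hθ, hker⟩ := exists_ker hM ⁅D, D⁆ hP B hB
    obtain ⟨χ, hχ, hχθ⟩ := descend (QuotientGroup.mk' ⁅D, D⁆) (QuotientGroup.mk'_surjective ⁅D, D⁆)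
      (θ : G → ℂ) θ.2 (by
        intro z hz
        apply hker
        exact (QuotientGroup.eq_one_iff z).mp hz)
    refine ⟨⟨χ, hχ⟩, θ, hθ, ?_⟩
    funext x
    exact (hχθ x).symm

end Cfsg.Agent.S4964
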