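import Mathlib
import Cfsg.Statements.S4965

set_option autoImplicit false
open Cfsg

namespace Cfsg.Agent.S4965

universe u

theorem comm_lift {X : Type u} [Group X] (V : Subgroup X) [V.Normal] (φ : X ⧸ V →* MulAut ↥V)
    (hφ : ∀ (x : X) (v : ↥V), ((φ (QuotientGroup.mk x) v : ↥V) : X) = x * v * x⁻¹)
    (a b a₁ b₁ : X) (ha : (a₁ : X ⧸ V) = (a : X ⧸ V)) (hb : (b₁ : X ⧸ V) = (b : X ⧸ V))
    (hab : a * b = b * a) (hab₁ : a₁ * b₁ = b₁ * a₁) (hu : a * a₁⁻¹ ∈ V) (hw : b * b₁⁻¹ ∈ V) :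
    (⟨⟨a * a₁⁻¹, hu⟩, (a : X ⧸ V)⟩ : SemidirectProduct ↥V (X ⧸ V) φ) *
        ⟨⟨b * b₁⁻¹, hw⟩, (b : X ⧸ V)⟩ =
      ⟨⟨b * b₁⁻¹, hw⟩, (b : X ⧸ V)⟩ * ⟨⟨a * a₁⁻¹, hu⟩, (a : X ⧸ V)⟩ := by
  apply SemidirectProduct.ext
  · rw [SemidirectProduct.mul_left, SemidirectProduct.mul_left]
    apply Subtype.ext
    show (a * a₁⁻¹) * ((φ (a : X ⧸ V) ⟨b * b₁⁻¹, hw⟩ : ↥V) : X) =
      (b * b₁⁻¹) * ((φ (b : X ⧸ V) ⟨a * a₁⁻¹, hu⟩ : ↥V) : X)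
    rw [← ha, ← hb, hφ a₁, hφ b₁]
    show a * a₁⁻¹ * (a₁ * (b * b₁⁻¹) * a₁⁻¹) = b * b₁⁻¹ * (b₁ * (a * a₁⁻¹) * b₁⁻¹)
    calc a * a₁⁻¹ * (a₁ * (b * b₁⁻¹) * a₁⁻¹) = (a * b) * (a₁ * b₁)⁻¹ := by group
      _ = (b * a) * (b₁ * a₁)⁻¹ := by rw [hab, hab₁]
      _ = b * b₁⁻¹ * (b₁ * (a * a₁⁻¹) * b₁⁻¹) := by group
  · rw [SemidirectProduct.mul_right, SemidirectProduct.mul_right]
    show (a : X ⧸ V) * (b : X ⧸ V) = (b : X ⧸ V) * (a : X ⧸ V)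
    rw [← QuotientGroup.mk_mul, ← QuotientGroup.mk_mul, hab]

theorem result {X : Type*} [Group X] [Finite X] (V : Subgroup X) [V.Normal] (hab : ∀ a ∈ V, ∀ b ∈ V, a * b = b * a) (φ : X ⧸ V →* MulAut ↥V) (hφ : ∀ (x : X) (v : ↥V), ((φ (QuotientGroup.mk x) v : ↥V) : X) = x * v * x⁻¹) : Nat.card (ConjClasses X) ≤ Nat.card (ConjClasses (SemidirectProduct ↥V (X ⧸ V) φ)) := by
  classical
  have _fS : Finite (SemidirectProduct ↥V (X ⧸ V) φ) :=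
    Finite.of_equiv _ SemidirectProduct.equivProd.symm
  have hchoice : ∀ s t : X ⧸ V, ∃ p : X × X,
      (∃ a b : X, (a : X ⧸ V) = s ∧ (b : X ⧸ V) = t ∧ a * b = b * a) →
      ((p.1 : X ⧸ V) = s ∧ (p.2 : X ⧸ V) = t ∧ p.1 * p.2 = p.2 * p.1) := by
    intro s t
    by_cases h : ∃ a b : X, (a : X ⧸ V) = s ∧ (b : X ⧸ V) = t ∧ a * b = b * a
    · obtain ⟨a, b, h1, h2, h3⟩ := h
      exact ⟨(a, b), fun _ => ⟨h1, h2, h3⟩⟩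
    · exact ⟨(1, 1), fun h' => absurd h' h⟩
  choose L hL using hchoice
  have hspec : ∀ p : {p : X × X // Commute p.1 p.2},
      (((L (p.1.1 : X ⧸ V) (p.1.2 : X ⧸ V)).1 : X ⧸ V) = (p.1.1 : X ⧸ V)) ∧
      (((L (p.1.1 : X ⧸ V) (p.1.2 : X ⧸ V)).2 : X ⧸ V) = (p.1.2 : X ⧸ V)) ∧
      (L (p.1.1 : X ⧸ V) (p.1.2 : X ⧸ V)).1 * (L (p.1.1 : X ⧸ V) (p.1.2 : X ⧸ V)).2 =
        (L (p.1.1 : X ⧸ V) (p.1.2 : X ⧸ V)).2 * (L (p.1.1 : X ⧸ V) (p.1.2 : X ⧸ V)).1 :=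
    fun p => hL _ _ ⟨p.1.1, p.1.2, rfl, rfl, p.2.eq⟩
  have hmem : ∀ (a a₁ : X), (a₁ : X ⧸ V) = (a : X ⧸ V) → a * a₁⁻¹ ∈ V := by
    intro a a₁ h
    rw [← QuotientGroup.eq_one_iff, QuotientGroup.mk_mul, QuotientGroup.mk_inv, h,
      mul_inv_cancel]
  let Φ : {p : X × X // Commute p.1 p.2} →
      {q : SemidirectProduct ↥V (X ⧸ V) φ × SemidirectProduct ↥V (X ⧸ V) φ //
        Commute q.1 q.2} :=
    fun p => ⟨(⟨⟨p.1.1 * (L (p.1.1 : X ⧸ V) (p.1.2 : X ⧸ V)).1⁻¹, hmem _ _ (hspec p).1⟩,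
        (p.1.1 : X ⧸ V)⟩,
      ⟨⟨p.1.2 * (L (p.1.1 : X ⧸ V) (p.1.2 : X ⧸ V)).2⁻¹, hmem _ _ (hspec p).2.1⟩,
        (p.1.2 : X ⧸ V)⟩),
      comm_lift V φ hφ _ _ _ _ (hspec p).1 (hspec p).2.1 p.2.eq (hspec p).2.2 _ _⟩
  have hinj : Function.Injective Φ := by
    intro p p' h
    have h1 : (p.1.1 : X ⧸ V) = (p'.1.1 : X ⧸ V) :=
      congrArg (fun q : {q : SemidirectProduct ↥V (X ⧸ V) φ × SemidirectProduct ↥V (X ⧸ V) φ //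
        Commute q.1 q.2} => q.1.1.right) h
    have h2 : (p.1.2 : X ⧸ V) = (p'.1.2 : X ⧸ V) :=
      congrArg (fun q : {q : SemidirectProduct ↥V (X ⧸ V) φ × SemidirectProduct ↥V (X ⧸ V) φ //
        Commute q.1 q.2} => q.1.2.right) h
    have h3 : p.1.1 * (L (p.1.1 : X ⧸ V) (p.1.2 : X ⧸ V)).1⁻¹ =
        p'.1.1 * (L (p'.1.1 : X ⧸ V) (p'.1.2 : X ⧸ V)).1⁻¹ :=
      congrArg (fun q : {q : SemidirectProduct ↥V (X ⧸ V) φ × SemidirectProduct ↥V (X ⧸ V) φ //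
        Commute q.1 q.2} => (q.1.1.left : X)) h
    have h4 : p.1.2 * (L (p.1.1 : X ⧸ V) (p.1.2 : X ⧸ V)).2⁻¹ =
        p'.1.2 * (L (p'.1.1 : X ⧸ V) (p'.1.2 : X ⧸ V)).2⁻¹ :=
      congrArg (fun q : {q : SemidirectProduct ↥V (X ⧸ V) φ × SemidirectProduct ↥V (X ⧸ V) φ //
        Commute q.1 q.2} => (q.1.2.left : X)) h
    rw [← h1, ← h2] at h3 h4
    apply Subtype.ext
    exact Prod.ext (mul_right_cancel h3) (mul_right_cancel h4)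
  have hcard := Nat.card_le_card_of_injective Φ hinj
  rw [card_comm_eq_card_conjClasses_mul_card, card_comm_eq_card_conjClasses_mul_card] at hcard
  have hS : Nat.card (SemidirectProduct ↥V (X ⧸ V) φ) = Nat.card X := by
    rw [Nat.card_congr SemidirectProduct.equivProd, Nat.card_prod, ← Subgroup.card_mul_index V]
    rfl
  rw [hS] at hcard
  exact Nat.le_of_mul_le_mul_right hcard Nat.card_pos

end Cfsg.Agent.S4965
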