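import Cfsg.Statements.S5058
import Cfsg.Agent.S0820
import Cfsg.Agent.Lib.Helper1.SLn

set_option autoImplicit false
open Matrix
open Cfsg


namespace Cfsg.Agent.S5058

section alg
variable {F : Type*} [Field F] {R : Type*} [Ring R] [Algebra F R]

theorem N_sq (A B : R) (τ : F) (hAA : A * A = 0) (hBB : B * B = 0)
    (hABA : A * B * A = τ • A) (hBAB : B * A * B = τ • B) :
    (A + B + A * B) * (A + B + A * B) = A * B + B * A + τ • (A + B + A * B) := by
  have rAA : ∀ X : R, A * (A * X) = 0 := fun X => by rw [← mul_assoc, hAA, zero_mul]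
  have rBB : ∀ X : R, B * (B * X) = 0 := fun X => by rw [← mul_assoc, hBB, zero_mul]
  have rABA : A * (B * A) = τ • A := by rw [← mul_assoc, hABA]
  have rBAB : B * (A * B) = τ • B := by rw [← mul_assoc, hBAB]
  have rABA' : ∀ X : R, A * (B * (A * X)) = τ • (A * X) := fun X => by
    rw [← mul_assoc, ← mul_assoc, hABA, smul_mul_assoc]
  simp only [add_mul, mul_add, mul_assoc, hAA, hBB, rAA, rBB, rABA, rBAB, rABA', mul_zero,
    add_zero, zero_add, smul_add, mul_smul_comm]
  abel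

theorem N_cube (A B : R) (τ : F) (hAA : A * A = 0) (hBB : B * B = 0)
    (hABA : A * B * A = τ • A) (hBAB : B * A * B = τ • B) :
    (A + B + A * B) * (A + B + A * B) * (A + B + A * B)
      = τ • ((A + B + A * B) * (A + B + A * B)) + τ • (A + B + A * B) := by
  have rAA : ∀ X : R, A * (A * X) = 0 := fun X => by rw [← mul_assoc, hAA, zero_mul]
  have rBB : ∀ X : R, B * (B * X) = 0 := fun X => by rw [← mul_assoc, hBB, zero_mul]
  have rABA : A * (B * A) = τ • A := by rw [← mul_assoc, hABA]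
  have rBAB : B * (A * B) = τ • B := by rw [← mul_assoc, hBAB]
  have rABA' : ∀ X : R, A * (B * (A * X)) = τ • (A * X) := fun X => by
    rw [← mul_assoc, ← mul_assoc, hABA, smul_mul_assoc]
  have rBAB' : ∀ X : R, B * (A * (B * X)) = τ • (B * X) := fun X => by
    rw [← mul_assoc, ← mul_assoc, hBAB, smul_mul_assoc]
  have h1 : (A * B + B * A) * (A + B + A * B) = τ • (A + B + A * B) := by
    simp only [add_mul, mul_add, mul_assoc, hAA, hBB, rAA, rBB, rABA, rBAB, rABA', rBAB', mul_zero,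
      add_zero, zero_add, smul_add, mul_smul_comm]
  rw [N_sq A B τ hAA hBB hABA hBAB]
  rw [add_mul, h1, smul_mul_assoc, N_sq A B τ hAA hBB hABA hBAB]
  abel

theorem pow_form (N : R) (τ : F) (hN3 : N * N * N = τ • (N * N) + τ • N) (k : ℕ) :
    ∃ x y : F, (1 + N) ^ k = 1 + x • N + y • (N * N) := by
  induction k with
  | zero => exact ⟨0, 0, by simp⟩
  | succ k ih =>
    obtain ⟨x, y, h⟩ := ih
    refine ⟨1 + x + y * τ, x + y + y * τ, ?_⟩
    rw [pow_succ, h]
    simp only [add_mul, mul_add, mul_one, one_mul, smul_mul_assoc, hN3]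
    module

theorem sq_form (N : R) (τ : F) (h2 : (2 : F) = 0) (hN3 : N * N * N = τ • (N * N) + τ • N)
    (x y : F) :
    (1 + x • N + y • (N * N)) * (1 + x • N + y • (N * N))
      = 1 + (y * y * (τ * τ)) • N + (x * x + y * y * (τ * τ + τ)) • (N * N) := by
  have hN3' : N * (N * N) = τ • (N * N) + τ • N := by rw [← mul_assoc, hN3]
  have hN4 : N * N * (N * N) = (τ * τ + τ) • (N * N) + (τ * τ) • N := by
    rw [← mul_assoc, hN3, add_mul, smul_mul_assoc, smul_mul_assoc, hN3]
    module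
  have key : (1 + x • N + y • (N * N)) * (1 + x • N + y • (N * N))
      = 1 + (y * y * (τ * τ)) • N + (x * x + y * y * (τ * τ + τ)) • (N * N)
        + (2 : F) • (x • N + y • (N * N) + (x * y) • (τ • (N * N) + τ • N)) := by
    simp only [add_mul, mul_add, mul_one, one_mul, smul_mul_assoc, mul_smul_comm, hN3, hN3', hN4]
    module
  rw [key, h2, zero_smul, add_zero]

end alg

section mat
variable {F : Type*} [Field F] {k : ℕ}

theorem vmv (u φ x : Fin k → F) : vecMulVec u φ *ᵥ x = (φ ⬝ᵥ x) • u := by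
  rw [Matrix.vecMulVec_mulVec]
  ext i
  simp [mul_comm]

theorem vmul (u φ v ψ : Fin k → F) :
    vecMulVec u φ * vecMulVec v ψ = (φ ⬝ᵥ v) • vecMulVec u ψ := by
  rw [Matrix.vecMulVec_mul_vecMulVec, Matrix.vecMulVec_smul]

theorem vmv_ne (u φ : Fin k → F) (hu : u ≠ 0) (hφ : φ ≠ 0) : vecMulVec u φ ≠ 0 := by
  obtain ⟨i, hi⟩ : ∃ i, u i ≠ 0 := by
    by_contra h
    push_neg at h
    exact hu (funext h)
  obtain ⟨j, hj⟩ : ∃ j, φ j ≠ 0 := by
    by_contra h
    push_neg at h
    exact hφ (funext h)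
  intro h
  have := congrFun (congrFun h i) j
  rw [Matrix.vecMulVec_apply, Matrix.zero_apply] at this
  exact mul_ne_zero hi hj this

theorem vec_transv (u φ : Fin k → F) (hu : u ≠ 0) (hφ : φ ≠ 0) (h : φ ⬝ᵥ u = 0) :
    Cfsg.IsTransvection (1 + vecMulVec u φ) := by
  refine ⟨?_, ?_⟩
  · rw [add_sub_cancel_left]
    exact le_antisymm (Matrix.rank_vecMulVec_le _ _)
      (Cfsg.Agent.S0820.rank_pos_of_ne _ (vmv_ne u φ hu hφ))
  · rw [add_sub_cancel_left, vmul, h, zero_smul]

/-- linear independence of `N`, `N²` -/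
theorem lin_indep (u φ v ψ : Fin k → F) (hφu : φ ⬝ᵥ u = 0) (hψv : ψ ⬝ᵥ v = 0)
    (hα : φ ⬝ᵥ v ≠ 0) (hβ : ψ ⬝ᵥ u ≠ 0) (a b : F)
    (h : a • (vecMulVec u φ + vecMulVec v ψ + vecMulVec u φ * vecMulVec v ψ)
      + b • ((vecMulVec u φ + vecMulVec v ψ + vecMulVec u φ * vecMulVec v ψ) *
          (vecMulVec u φ + vecMulVec v ψ + vecMulVec u φ * vecMulVec v ψ)) = 0) :
    a = 0 ∧ b = 0 := by
  obtain ⟨α, hαd⟩ : ∃ α, α = φ ⬝ᵥ v := ⟨_, rfl⟩
  obtain ⟨β, hβd⟩ : ∃ β, β = ψ ⬝ᵥ u := ⟨_, rfl⟩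
  rw [← hαd] at hα
  rw [← hβd] at hβ
  obtain ⟨N, hN⟩ : ∃ N, N = vecMulVec u φ + vecMulVec v ψ + vecMulVec u φ * vecMulVec v ψ :=
    ⟨_, rfl⟩
  rw [← hN] at h
  have hNu : N *ᵥ u = β • v + (α * β) • u := by
    rw [hN, Matrix.add_mulVec, Matrix.add_mulVec, ← Matrix.mulVec_mulVec, vmv, vmv, hφu, ← hβd,
      Matrix.mulVec_smul, vmv, ← hαd]
    module
  have hNv : N *ᵥ v = α • u := by
    rw [hN, Matrix.add_mulVec, Matrix.add_mulVec, ← Matrix.mulVec_mulVec, vmv, vmv, hψv, ← hαd,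
      zero_smul, Matrix.mulVec_zero]
    module
  have hN2u : (N * N) *ᵥ u = (α * β + α * β * (α * β)) • u + (α * β * β) • v := by
    rw [← Matrix.mulVec_mulVec, hNu, Matrix.mulVec_add, Matrix.mulVec_smul, Matrix.mulVec_smul,
      hNv, hNu]
    module
  have h0 := congrArg (fun M : Matrix (Fin k) (Fin k) F => M *ᵥ u) h
  simp only [Matrix.add_mulVec, Matrix.smul_mulVec, Matrix.zero_mulVec, hNu, hN2u] at h0
  have e1 := congrArg (fun w => φ ⬝ᵥ w) h0
  have e2 := congrArg (fun w => ψ ⬝ᵥ w) h0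
  simp only [dotProduct_add, dotProduct_smul, hφu, hψv, ← hαd, ← hβd, smul_eq_mul, mul_zero,
    add_zero, zero_add, dotProduct_zero] at e1 e2
  -- e1 : a * (β * α) + b * (α*β*β*α) = 0 ; e2 : a * (α*β*β) + b*((αβ + αβαβ)*β) = 0
  have hab : a + b * (α * β) = 0 := by
    have : (a + b * (α * β)) * (β * α) = 0 := by linear_combination e1
    rcases mul_eq_zero.mp this with h | h
    · exact h
    · exact absurd h (mul_ne_zero hβ hα)
  have hb : b = 0 := by
    have : b * (α * β * β) = 0 := by linear_combination e2 - (α * β * β) * hab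
    rcases mul_eq_zero.mp this with h | h
    · exact h
    · exact absurd h (mul_ne_zero (mul_ne_zero hα hβ) hβ)
  refine ⟨?_, hb⟩
  rw [hb, zero_mul, add_zero] at hab
  exact hab

end mat

section grp

/-- the class of transvections -/
def D (F : Type*) [Field F] (n : ℕ) : Set (Matrix.SpecialLinearGroup (Fin (n + 3)) F) :=
  {t | ∃ c : F, c ≠ 0 ∧ ∃ g : Matrix.SpecialLinearGroup (Fin (n + 3)) F,
    ((g⁻¹ * t * g : Matrix.SpecialLinearGroup (Fin (n + 3)) F) :
      Matrix (Fin (n + 3)) (Fin (n + 3)) F) = Matrix.transvection 0 1 c}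

variable {F : Type*} [Field F] {n : ℕ}

theorem elem_eq (i j : Fin (n + 3)) (c : F) :
    Matrix.transvection i j c = 1 + vecMulVec (Pi.single i c) (Pi.single j 1) := by
  ext a b
  simp only [Matrix.transvection, Matrix.add_apply, Matrix.vecMulVec_apply, Matrix.single_apply,
    Pi.single_apply]
  by_cases hi : a = i
  · by_cases hj : b = j
    · subst hi; subst hj; simp
    · subst hi; simp [hj, Ne.symm hj]
  · simp [hi, Ne.symm hi]

theorem elem_transv (i j : Fin (n + 3)) (hij : i ≠ j) (c : F) (hc : c ≠ 0) :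
    Cfsg.IsTransvection (Matrix.transvection i j c) := by
  rw [elem_eq]
  apply vec_transv
  · intro h0
    have := congrFun h0 i
    simp at this
    exact hc this
  · intro h0
    have := congrFun h0 j
    simp at this
  · rw [dotProduct_single, Pi.single_apply, if_neg hij, zero_mul]

theorem mem_D_of_transv (t : Matrix.SpecialLinearGroup (Fin (n + 3)) F)
    (hT : Cfsg.IsTransvection (t : Matrix (Fin (n + 3)) (Fin (n + 3)) F)) : t ∈ D F n := by
  have h01 : (0 : Fin (n + 3)) ≠ 1 := Fin.zero_ne_one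
  have hE : Cfsg.IsTransvection ((Matrix.SpecialLinearGroup.transvection h01 (1 : F) :
      Matrix.SpecialLinearGroup (Fin (n + 3)) F) : Matrix (Fin (n + 3)) (Fin (n + 3)) F) :=
    elem_transv 0 1 h01 1 one_ne_zero
  obtain ⟨c, hc⟩ := isConj_iff.mp (Cfsg.Agent.S0820.sl_conj_transv n t _ hT hE)
  refine ⟨1, one_ne_zero, c⁻¹, ?_⟩
  rw [inv_inv, hc]
  rfl

theorem mem_D_of_form (t : Matrix.SpecialLinearGroup (Fin (n + 3)) F)
    (u φ : Fin (n + 3) → F) (hu : u ≠ 0) (hφ : φ ≠ 0) (h : φ ⬝ᵥ u = 0)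
    (ht : (t : Matrix (Fin (n + 3)) (Fin (n + 3)) F) = 1 + vecMulVec u φ) : t ∈ D F n := by
  apply mem_D_of_transv
  rw [ht]
  exact vec_transv u φ hu hφ h

theorem form_of_mem_D (t : Matrix.SpecialLinearGroup (Fin (n + 3)) F) (ht : t ∈ D F n) :
    ∃ u φ : Fin (n + 3) → F, u ≠ 0 ∧ φ ≠ 0 ∧ φ ⬝ᵥ u = 0 ∧
      (t : Matrix (Fin (n + 3)) (Fin (n + 3)) F) = 1 + vecMulVec u φ := by
  obtain ⟨c, hc, g, hg⟩ := ht
  obtain ⟨G, hG⟩ : ∃ G : Matrix (Fin (n + 3)) (Fin (n + 3)) F,
      G = (g : Matrix (Fin (n + 3)) (Fin (n + 3)) F) := ⟨_, rfl⟩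
  obtain ⟨Gi, hGi⟩ : ∃ Gi : Matrix (Fin (n + 3)) (Fin (n + 3)) F,
      Gi = ((g⁻¹ : Matrix.SpecialLinearGroup (Fin (n + 3)) F) :
        Matrix (Fin (n + 3)) (Fin (n + 3)) F) := ⟨_, rfl⟩
  have h1 : G * Gi = 1 := by
    rw [hG, hGi, ← Matrix.SpecialLinearGroup.coe_mul, mul_inv_cancel,
      Matrix.SpecialLinearGroup.coe_one]
  have h2 : Gi * G = 1 := by
    rw [hG, hGi, ← Matrix.SpecialLinearGroup.coe_mul, inv_mul_cancel,
      Matrix.SpecialLinearGroup.coe_one]
  rw [Matrix.SpecialLinearGroup.coe_mul, Matrix.SpecialLinearGroup.coe_mul, ← hG, ← hGi] at hg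
  have ht' : (t : Matrix (Fin (n + 3)) (Fin (n + 3)) F) = G * (Gi * t * G) * Gi := by
    calc (t : Matrix (Fin (n + 3)) (Fin (n + 3)) F) = (G * Gi) * t * (G * Gi) := by
          rw [h1, one_mul, mul_one]
      _ = _ := by simp only [mul_assoc]
  refine ⟨G *ᵥ Pi.single 0 c, Pi.single 1 1 ᵥ* Gi, ?_, ?_, ?_, ?_⟩
  · intro h0
    have h3 := congrArg (fun w => Gi *ᵥ w) h0
    simp only [Matrix.mulVec_mulVec, h2, Matrix.one_mulVec, Matrix.mulVec_zero] at h3
    have h4 := congrFun h3 0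
    simp at h4
    exact hc h4
  · intro h0
    have h3 := congrArg (fun w => w ᵥ* G) h0
    simp only [Matrix.vecMul_vecMul, h2, Matrix.vecMul_one, Matrix.zero_vecMul] at h3
    have h4 := congrFun h3 1
    simp at h4
  · rw [← Matrix.dotProduct_mulVec, Matrix.mulVec_mulVec, h2, Matrix.one_mulVec, dotProduct_single,
      Pi.single_apply, if_neg Fin.zero_ne_one, zero_mul]
  · rw [ht', hg, elem_eq, mul_add, add_mul, mul_one, h1, Matrix.mul_vecMulVec,
      Matrix.vecMulVec_mul]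

theorem sq_one [CharP F 2] (t : Matrix.SpecialLinearGroup (Fin (n + 3)) F) (ht : t ∈ D F n) :
    t * t = 1 ∧ t ≠ 1 := by
  obtain ⟨u, φ, hu, hφ, h, hm⟩ := form_of_mem_D t ht
  constructor
  · apply Subtype.ext
    rw [Matrix.SpecialLinearGroup.coe_mul, hm, Matrix.SpecialLinearGroup.coe_one]
    have hAA : vecMulVec u φ * vecMulVec u φ = 0 := by rw [vmul, h, zero_smul]
    have h2 : vecMulVec u φ + vecMulVec u φ = 0 := by
      rw [← two_smul F, CharTwo.two_eq_zero, zero_smul]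
    calc (1 + vecMulVec u φ) * (1 + vecMulVec u φ)
        = 1 + (vecMulVec u φ + vecMulVec u φ) + vecMulVec u φ * vecMulVec u φ := by noncomm_ring
      _ = 1 := by rw [hAA, h2, add_zero, add_zero]
  · intro h1
    have h3 : (t : Matrix (Fin (n + 3)) (Fin (n + 3)) F) = 1 := by rw [h1]; rfl
    rw [hm] at h3
    exact vmv_ne u φ hu hφ (add_eq_left.mp h3)

theorem order_four [CharP F 2] (x : Matrix.SpecialLinearGroup (Fin (n + 3)) F)
    (w χ : Fin (n + 3) → F) (hw : w ≠ 0) (hχ : χ ≠ 0) (h : χ ⬝ᵥ w = 0)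
    (hx : (x : Matrix (Fin (n + 3)) (Fin (n + 3)) F) * (x : Matrix (Fin (n + 3)) (Fin (n + 3)) F)
      = 1 + vecMulVec w χ) : orderOf x = 4 ∧ x ^ 2 ∈ D F n := by
  have hD : x ^ 2 ∈ D F n := by
    apply mem_D_of_form _ w χ hw hχ h
    rw [pow_two, Matrix.SpecialLinearGroup.coe_mul, hx]
  refine ⟨?_, hD⟩
  obtain ⟨h1, h2⟩ := sq_one (x ^ 2) hD
  haveI : Fact (Nat.Prime 2) := ⟨Nat.prime_two⟩
  have := orderOf_eq_prime_pow (x := x) (p := 2) (n := 1) (by rw [pow_one]; exact h2)
    (by rw [show 2 ^ (1 + 1) = 2 + 2 by norm_num, pow_add]; exact h1)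
  rw [this]; norm_num

theorem pair_full [Fintype F] [CharP F 2]
    (a b : Matrix.SpecialLinearGroup (Fin (n + 3)) F) (ha : a ∈ D F n) (hb : b ∈ D F n) :
    a * b = b * a ∨ (Odd (orderOf (a * b)) ∧ (Fintype.card F = 2 → (a * b) ^ 3 = 1)) ∨
      (orderOf (a * b) = 4 ∧ (a * b) ^ 2 ∈ D F n) := by
  classical
  obtain ⟨u, φ, hu, hφ, hφu, hma⟩ := form_of_mem_D a ha
  obtain ⟨v, ψ, hv, hψ, hψv, hmb⟩ := form_of_mem_D b hb
  have h2 : (2 : F) = 0 := CharTwo.two_eq_zero
  obtain ⟨A, hA⟩ : ∃ A, A = vecMulVec u φ := ⟨_, rfl⟩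
  obtain ⟨B, hB⟩ : ∃ B, B = vecMulVec v ψ := ⟨_, rfl⟩
  obtain ⟨α, hα⟩ : ∃ α, α = φ ⬝ᵥ v := ⟨_, rfl⟩
  obtain ⟨β, hβ⟩ : ∃ β, β = ψ ⬝ᵥ u := ⟨_, rfl⟩
  have hAA : A * A = 0 := by rw [hA, vmul, hφu, zero_smul]
  have hBB : B * B = 0 := by rw [hB, vmul, hψv, zero_smul]
  have hAB : A * B = α • vecMulVec u ψ := by rw [hA, hB, vmul, hα]
  have hBA : B * A = β • vecMulVec v φ := by rw [hA, hB, vmul, hβ]
  have hABA : A * B * A = (α * β) • A := by
    rw [hAB, hA, Matrix.smul_mul, vmul, ← hβ, smul_smul]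
  have hBAB : B * A * B = (α * β) • B := by
    rw [hBA, hB, Matrix.smul_mul, vmul, ← hα, smul_smul, mul_comm]
  obtain ⟨N, hN⟩ : ∃ N, N = A + B + A * B := ⟨_, rfl⟩
  have hNN : N * N = A * B + B * A + (α * β) • N := by
    rw [hN]; exact N_sq A B _ hAA hBB hABA hBAB
  have hN3 : N * N * N = (α * β) • (N * N) + (α * β) • N := by
    rw [hN]; exact N_cube A B _ hAA hBB hABA hBAB
  have hM : ((a * b : Matrix.SpecialLinearGroup (Fin (n + 3)) F) :
      Matrix (Fin (n + 3)) (Fin (n + 3)) F) = 1 + N := by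
    rw [Matrix.SpecialLinearGroup.coe_mul, hma, hmb, ← hA, ← hB, hN]; noncomm_ring
  have hchar : ∀ X : Matrix (Fin (n + 3)) (Fin (n + 3)) F, X + X = 0 := fun X => by
    rw [← two_smul F, h2, zero_smul]
  have hMM : ((a * b : Matrix.SpecialLinearGroup (Fin (n + 3)) F) :
      Matrix (Fin (n + 3)) (Fin (n + 3)) F) * ((a * b : Matrix.SpecialLinearGroup (Fin (n + 3)) F) :
      Matrix (Fin (n + 3)) (Fin (n + 3)) F) = 1 + N * N := by
    rw [hM]
    calc (1 + N) * (1 + N) = 1 + (N + N) + N * N := by noncomm_ring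
      _ = _ := by rw [hchar, add_zero]
  by_cases hα0 : α = 0
  · by_cases hβ0 : β = 0
    · left
      apply Subtype.ext
      rw [Matrix.SpecialLinearGroup.coe_mul, Matrix.SpecialLinearGroup.coe_mul, hma, hmb, ← hA, ← hB]
      have e1 : A * B = 0 := by rw [hAB, hα0, zero_smul]
      have e2 : B * A = 0 := by rw [hBA, hβ0, zero_smul]
      calc (1 + A) * (1 + B) = 1 + A + B + A * B := by noncomm_ring
        _ = 1 + B + A + B * A := by rw [e1, e2]; abel
        _ = _ := by noncomm_ring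
    · right; right
      have hNN' : N * N = vecMulVec (β • v) φ := by
        rw [hNN, hAB, hα0, zero_smul, zero_mul, zero_smul, hBA, Matrix.smul_vecMulVec]
        abel
      refine order_four (a * b) (β • v) φ (smul_ne_zero hβ0 hv) hφ ?_ (by rw [hMM, hNN'])
      rw [dotProduct_smul, ← hα, hα0, smul_zero]
  · by_cases hβ0 : β = 0
    · right; right
      have hNN' : N * N = vecMulVec (α • u) ψ := by
        rw [hNN, hBA, hβ0, zero_smul, mul_zero, zero_smul, hAB, Matrix.smul_vecMulVec]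
        abel
      refine order_four (a * b) (α • u) ψ (smul_ne_zero hα0 hu) hψ ?_ (by rw [hMM, hNN'])
      rw [dotProduct_smul, ← hβ, hβ0, smul_zero]
    · right; left
      haveI : Finite (Matrix.SpecialLinearGroup (Fin (n + 3)) F) := Subtype.finite
      have hfin : 0 < orderOf (a * b) := orderOf_pos _
      refine ⟨?_, ?_⟩
      · rw [← Nat.not_even_iff_odd]
        rintro ⟨k, hk⟩
        have h1 : ((a * b) ^ k) * ((a * b) ^ k) = 1 := by
          rw [← pow_add, ← hk]; exact pow_orderOf_eq_one _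
        obtain ⟨x, y, hxy⟩ := pow_form N (α * β) hN3 k
        have hPk : (((a * b) ^ k : Matrix.SpecialLinearGroup (Fin (n + 3)) F) :
            Matrix (Fin (n + 3)) (Fin (n + 3)) F) = 1 + x • N + y • (N * N) := by
          rw [Matrix.SpecialLinearGroup.coe_pow, hM, hxy]
        have h1' := congrArg (fun s : Matrix.SpecialLinearGroup (Fin (n + 3)) F =>
          (s : Matrix (Fin (n + 3)) (Fin (n + 3)) F)) h1
        simp only [Matrix.SpecialLinearGroup.coe_mul, Matrix.SpecialLinearGroup.coe_one] at h1'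
        rw [hPk, sq_form N (α * β) h2 hN3 x y, add_assoc] at h1'
        have h0 := add_eq_left.mp h1'
        rw [hN, hA, hB] at h0
        obtain ⟨e1, e2⟩ := lin_indep u φ v ψ hφu hψv (hα ▸ hα0) (hβ ▸ hβ0) _ _ h0
        have hτ : α * β * (α * β) ≠ 0 := mul_ne_zero (mul_ne_zero hα0 hβ0) (mul_ne_zero hα0 hβ0)
        have hy : y = 0 := by
          rcases mul_eq_zero.mp e1 with h | h
          · rcases mul_eq_zero.mp h with h | h <;> exact h
          · exact absurd h hτ
        have hx : x = 0 := by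
          rw [hy] at e2
          simp only [zero_mul, add_zero] at e2
          rcases mul_eq_zero.mp e2 with h | h <;> exact h
        have hPk1 : (a * b) ^ k = 1 := by
          apply Subtype.ext
          rw [hPk, hx, hy, zero_smul, zero_smul, add_zero, add_zero,
            Matrix.SpecialLinearGroup.coe_one]
        have hdvd := orderOf_dvd_of_pow_eq_one hPk1
        have hle := Nat.le_of_dvd (by omega) hdvd
        omega
      · intro hF2
        have hone : ∀ z : F, z ≠ 0 → z = 1 := by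
          intro z hz
          by_contra hz1
          have h3 : ({0, 1, z} : Finset F).card = 3 := by
            rw [Finset.card_eq_three]
            exact ⟨0, 1, z, zero_ne_one, hz.symm, fun h => hz1 h.symm, rfl⟩
          have := Finset.card_le_univ ({0, 1, z} : Finset F)
          rw [h3, hF2] at this
          omega
        have hαβ : α * β = 1 := by rw [hone α hα0, hone β hβ0, one_mul]
        rw [hαβ, one_smul, one_smul] at hN3
        apply Subtype.ext
        rw [Matrix.SpecialLinearGroup.coe_pow, hM, Matrix.SpecialLinearGroup.coe_one]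
        have h3 : (1 + N) ^ 3 = 1 + (2 : F) • ((2 : F) • N + (2 : F) • (N * N)) := by
          rw [pow_succ, pow_two]
          simp only [add_mul, mul_add, mul_one, one_mul, hN3]
          module
        rw [h3, h2, zero_smul, add_zero]

theorem rootSet [Fintype F] [CharP F 2] (n : ℕ) : Cfsg.IsRootInvolutionSet (D F n) where
  orderOf_eq := fun d hd => by
    obtain ⟨h1, h2⟩ := sq_one d hd
    haveI : Fact (Nat.Prime 2) := ⟨Nat.prime_two⟩
    exact orderOf_eq_prime (by rw [pow_two]; exact h1) h2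
  generates := by
    rw [eq_top_iff]
    intro A _
    refine Cfsg.Agent.Lib.Helper1.SLn.transvection_induction
      (fun A => A ∈ Subgroup.closure (D F n)) ?_ ?_ A
    · intro i j hij c
      by_cases hc : c = 0
      · have : Matrix.SpecialLinearGroup.transvection hij c = 1 := by
          apply Subtype.ext
          subst hc
          show Matrix.transvection i j (0 : F) = 1
          simp [Matrix.transvection]
        rw [this]; exact Subgroup.one_mem _
      · apply Subgroup.subset_closure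
        apply mem_D_of_transv
        exact elem_transv i j hij c hc
    · intro A B hA hB; exact Subgroup.mul_mem _ hA hB
  conj_mem := fun d hd g => by
    obtain ⟨c, hc, g0, hg0⟩ := hd
    refine ⟨c, hc, g * g0, ?_⟩
    have e : (g * g0)⁻¹ * (g * d * g⁻¹) * (g * g0) = g0⁻¹ * d * g0 := by group
    rw [e]; exact hg0
  pair := fun a ha b hb => by
    rcases pair_full a b ha hb with h | h | h
    · exact Or.inl h
    · exact Or.inr (Or.inl h.1)
    · exact Or.inr (Or.inr h)

end grp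

theorem main (F : Type*) [Field F] [Fintype F] [CharP F 2] (n : ℕ) :
    Cfsg.IsRootInvolutionClass {t : Matrix.SpecialLinearGroup (Fin (n + 3)) F | ∃ c : F, c ≠ 0 ∧
        ∃ g : Matrix.SpecialLinearGroup (Fin (n + 3)) F, ((g⁻¹ * t * g : Matrix.SpecialLinearGroup (Fin (n + 3)) F) :
          Matrix (Fin (n + 3)) (Fin (n + 3)) F) = Matrix.transvection 0 1 c} ∧
    (Fintype.card F = 2 → Cfsg.IsThreeFourPlusTranspositionSet {t : Matrix.SpecialLinearGroup (Fin (n + 3)) F | ∃ c : F, c ≠ 0 ∧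
        ∃ g : Matrix.SpecialLinearGroup (Fin (n + 3)) F, ((g⁻¹ * t * g : Matrix.SpecialLinearGroup (Fin (n + 3)) F) :
          Matrix (Fin (n + 3)) (Fin (n + 3)) F) = Matrix.transvection 0 1 c}) := by
  show Cfsg.IsRootInvolutionClass (D F n) ∧
    (Fintype.card F = 2 → Cfsg.IsThreeFourPlusTranspositionSet (D F n))
  refine ⟨⟨rootSet n, ?_, ?_⟩, fun hF2 => ⟨rootSet n, ?_⟩⟩
  · exact ⟨Matrix.SpecialLinearGroup.transvection Fin.zero_ne_one 1,
      mem_D_of_transv _ (elem_transv 0 1 Fin.zero_ne_one 1 one_ne_zero)⟩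
  · intro a ha b hb
    obtain ⟨u, φ, hu, hφ, hφu, hma⟩ := form_of_mem_D a ha
    obtain ⟨v, ψ, hv, hψ, hψv, hmb⟩ := form_of_mem_D b hb
    obtain ⟨c, hc⟩ := isConj_iff.mp (Cfsg.Agent.S0820.sl_conj_transv n a b
      (hma ▸ vec_transv u φ hu hφ hφu) (hmb ▸ vec_transv v ψ hv hψ hψv))
    exact ⟨c, hc.symm⟩
  · intro a ha b hb hodd
    rcases pair_full a b ha hb with h | h | h
    · have h1 : (a * b) ^ 2 = 1 := by
        rw [pow_two]
        calc a * b * (a * b) = a * (b * a) * b := by group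
          _ = a * (a * b) * b := by rw [h]
          _ = (a * a) * (b * b) := by group
          _ = 1 := by rw [(sq_one a ha).1, (sq_one b hb).1, one_mul]
      have hd := orderOf_dvd_of_pow_eq_one h1
      rcases (Nat.dvd_prime Nat.prime_two).1 hd with h | h
      · exact Or.inl h
      · rw [h] at hodd; exact absurd hodd (by decide)
    · have hd := orderOf_dvd_of_pow_eq_one (h.2 hF2)
      rcases (Nat.dvd_prime Nat.prime_three).1 hd with h | h
      · exact Or.inl h
      · exact Or.inr h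
    · rw [h.1] at hodd; exact absurd hodd (by decide)

theorem result (F : Type*) [Field F] [Fintype F] [CharP F 2] (n : ℕ) :
    Cfsg.IsRootInvolutionClass {t : Matrix.SpecialLinearGroup (Fin (n + 3)) F | ∃ c : F, c ≠ 0 ∧
        ∃ g : Matrix.SpecialLinearGroup (Fin (n + 3)) F, ((g⁻¹ * t * g : Matrix.SpecialLinearGroup (Fin (n + 3)) F) :
          Matrix (Fin (n + 3)) (Fin (n + 3)) F) = Matrix.transvection 0 1 c} ∧
    (Fintype.card F = 2 → Cfsg.IsThreeFourPlusTranspositionSet {t : Matrix.SpecialLinearGroup (Fin (n + 3)) F | ∃ c : F, c ≠ 0 ∧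
        ∃ g : Matrix.SpecialLinearGroup (Fin (n + 3)) F, ((g⁻¹ * t * g : Matrix.SpecialLinearGroup (Fin (n + 3)) F) :
          Matrix (Fin (n + 3)) (Fin (n + 3)) F) = Matrix.transvection 0 1 c}) := by
  exact main F n

end Cfsg.Agent.S5058
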