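-- Statement S5059: the quadratic elements of minimal commutator rank with a fixed fixed-space and
-- commutator space, together with the identity, form an abelian subgroup.
import Cfsg.Statements.S5059
import Mathlib

set_option autoImplicit false
universe u
open Cfsg

namespace Cfsg.Agent.S5059

section
variable {k : Type u} [Field k] {M : Type u} [AddCommGroup M] [Module k M]

/-- The unit `1 + a` for a square-zero endomorphism `a`. -/
def unitOf (a : M →ₗ[k] M) (h : a * a = 0) : LinearMap.GeneralLinearGroup k M where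
  val := 1 + a
  inv := 1 - a
  val_inv := by rw [mul_sub, mul_one, add_mul, one_mul, h, add_zero]; abel
  inv_val := by rw [mul_add, mul_one, sub_mul, one_mul, h, sub_zero]; abel

theorem commutatorRank_eq (τ : LinearMap.GeneralLinearGroup k M) (a : M →ₗ[k] M)
    (h : (τ : M →ₗ[k] M) - 1 = a) :
    Cfsg.commutatorRank τ = Module.finrank k (LinearMap.range a) := by
  subst h; rfl

theorem sq_zero_of_mem {G : Subgroup (LinearMap.GeneralLinearGroup k M)}
    {σ τ₁ τ₂ : LinearMap.GeneralLinearGroup k M}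
    (h1 : τ₁ ∈ Cfsg.sameActionClass G σ) (h2 : τ₂ ∈ Cfsg.sameActionClass G σ) :
    ((τ₁ : M →ₗ[k] M) - 1) * ((τ₂ : M →ₗ[k] M) - 1) = 0 := by
  have hq := h1.1.1.2.1.1
  apply LinearMap.ext
  intro x
  have hx : ((τ₂ : M →ₗ[k] M) - 1) x ∈ LinearMap.range ((τ₁ : M →ₗ[k] M) - 1) := by
    rw [h1.2.2, ← h2.2.2]
    exact LinearMap.mem_range_self _ x
  obtain ⟨y, hy⟩ := hx
  rw [Module.End.mul_apply, ← hy, ← Module.End.mul_apply, hq]
  rfl

theorem mul_mem_class [FiniteDimensional k M] {G : Subgroup (LinearMap.GeneralLinearGroup k M)}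
    {σ τ₁ τ₂ : LinearMap.GeneralLinearGroup k M}
    (h1 : τ₁ ∈ Cfsg.sameActionClass G σ) (h2 : τ₂ ∈ Cfsg.sameActionClass G σ)
    (hne : τ₁ * τ₂ ≠ 1) : τ₁ * τ₂ ∈ Cfsg.sameActionClass G σ := by
  have h11 := sq_zero_of_mem h1 h1
  have h12 := sq_zero_of_mem h1 h2
  have h21 := sq_zero_of_mem h2 h1
  have h22 := sq_zero_of_mem h2 h2
  have hr1 := h1.2.2
  have hr2 := h2.2.2
  have hk1 := h1.2.1
  have hk2 := h2.2.1
  have hG1 := h1.1.1.1
  have hG2 := h2.1.1.1
  have hs1 := h1.1.1.2.2
  have hs2 := h2.1.1.2.2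
  have hmin1 := h1.1.2
  obtain ⟨a₁, ha₁⟩ : ∃ a, a = (τ₁ : M →ₗ[k] M) - 1 := ⟨_, rfl⟩
  obtain ⟨a₂, ha₂⟩ : ∃ a, a = (τ₂ : M →ₗ[k] M) - 1 := ⟨_, rfl⟩
  rw [← ha₁] at h11 h12 h21 hr1 hk1
  rw [← ha₂] at h12 h21 h22 hr2 hk2
  have hv1 : (τ₁ : M →ₗ[k] M) = 1 + a₁ := by rw [ha₁]; abel
  have hv2 : (τ₂ : M →ₗ[k] M) = 1 + a₂ := by rw [ha₂]; abel
  have hb : ((τ₁ * τ₂ : LinearMap.GeneralLinearGroup k M) : M →ₗ[k] M) - 1 = a₁ + a₂ := by
    rw [Units.val_mul, hv1, hv2, add_mul, mul_add, mul_add, h12, one_mul, one_mul, mul_one,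
      add_zero]
    abel
  have hbb : (a₁ + a₂) * (a₁ + a₂) = 0 := by
    rw [add_mul, mul_add, mul_add, h11, h12, h21, h22]; simp
  have hbne : a₁ + a₂ ≠ 0 := by
    intro h0
    apply hne
    apply Units.ext
    rw [Units.val_one]
    have := hb
    rw [h0] at this
    exact sub_eq_zero.mp this
  have hrange_le : LinearMap.range (a₁ + a₂) ≤ LinearMap.range a₁ := by
    rintro _ ⟨x, rfl⟩
    rw [LinearMap.add_apply]
    refine Submodule.add_mem _ (LinearMap.mem_range_self _ x) ?_
    rw [hr1, ← hr2]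
    exact LinearMap.mem_range_self _ x
  have hQ : τ₁ * τ₂ ∈ Cfsg.quadraticElements G := by
    refine ⟨G.mul_mem hG1 hG2, ⟨?_, ?_⟩, ?_⟩
    · rw [hb]; exact hbb
    · rw [hb]; exact hbne
    · rintro ρ ⟨c, hc⟩
      rw [hb] at hc
      have e1 : (c • a₁) * (c • a₁) = 0 := by rw [smul_mul_smul_comm, h11, smul_zero]
      have e2 : (c • a₂) * (c • a₂) = 0 := by rw [smul_mul_smul_comm, h22, smul_zero]
      have m1 : unitOf (c • a₁) e1 ∈ G := hs1 ⟨c, by rw [← ha₁]; rfl⟩
      have m2 : unitOf (c • a₂) e2 ∈ G := hs2 ⟨c, by rw [← ha₂]; rfl⟩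
      have : ρ = unitOf (c • a₁) e1 * unitOf (c • a₂) e2 := by
        apply Units.ext
        rw [hc, Units.val_mul]
        show 1 + c • (a₁ + a₂) = (1 + c • a₁) * (1 + c • a₂)
        rw [add_mul, mul_add, mul_add, smul_mul_smul_comm, h12, one_mul, one_mul, mul_one,
          smul_zero, add_zero, smul_add]
        abel
      rw [this]
      exact G.mul_mem m1 m2
  have hcr : Cfsg.commutatorRank (τ₁ * τ₂) ≤ Cfsg.commutatorRank τ₁ := by
    rw [commutatorRank_eq _ _ hb, commutatorRank_eq _ _ ha₁.symm]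
    exact Submodule.finrank_mono hrange_le
  have hcr' : Cfsg.commutatorRank τ₁ ≤ Cfsg.commutatorRank (τ₁ * τ₂) := hmin1 _ hQ
  have hrange : LinearMap.range (a₁ + a₂) = LinearMap.range a₁ := by
    apply Submodule.eq_of_le_of_finrank_le hrange_le
    have := hcr'
    rw [commutatorRank_eq _ _ hb, commutatorRank_eq _ _ ha₁.symm] at this
    exact this
  have hker_le : LinearMap.ker a₁ ≤ LinearMap.ker (a₁ + a₂) := by
    intro x hx
    have hx2 : x ∈ LinearMap.ker a₂ := by rw [hk2, ← hk1]; exact hx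
    rw [LinearMap.mem_ker] at hx hx2 ⊢
    rw [LinearMap.add_apply, hx, hx2, add_zero]
  have hker : LinearMap.ker a₁ = LinearMap.ker (a₁ + a₂) := by
    apply Submodule.eq_of_le_of_finrank_le hker_le
    have e1 := LinearMap.finrank_range_add_finrank_ker a₁
    have e2 := LinearMap.finrank_range_add_finrank_ker (a₁ + a₂)
    rw [hrange] at e2
    omega
  refine ⟨⟨hQ, fun τ hτ => le_trans hcr (hmin1 τ hτ)⟩, ?_, ?_⟩
  · rw [hb, ← hker, hk1]
  · rw [hb, hrange, hr1]

theorem inv_mem_class {G : Subgroup (LinearMap.GeneralLinearGroup k M)}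
    {σ τ : LinearMap.GeneralLinearGroup k M}
    (h : τ ∈ Cfsg.sameActionClass G σ) : τ⁻¹ ∈ Cfsg.sameActionClass G σ := by
  have h11 := sq_zero_of_mem h h
  have hne := h.1.1.2.1.2
  have hs := h.1.1.2.2
  have hk := h.2.1
  have hr := h.2.2
  have hmin := h.1.2
  obtain ⟨a, ha⟩ : ∃ a, a = (τ : M →ₗ[k] M) - 1 := ⟨_, rfl⟩
  have hτ : (τ : M →ₗ[k] M) = 1 + a := by rw [ha]; abel
  rw [← ha] at h11 hne hk hr
  have hinv : ((τ⁻¹ : LinearMap.GeneralLinearGroup k M) : M →ₗ[k] M) = 1 - a := by
    apply Units.inv_eq_of_mul_eq_one_right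
    rw [hτ, mul_sub, mul_one, add_mul, one_mul, h11, add_zero]
    abel
  have hv : ((τ⁻¹ : LinearMap.GeneralLinearGroup k M) : M →ₗ[k] M) - 1 = -a := by
    rw [hinv]; abel
  have hcr : Cfsg.commutatorRank τ⁻¹ = Cfsg.commutatorRank τ := by
    rw [commutatorRank_eq _ _ hv, commutatorRank_eq _ _ ha.symm, LinearMap.range_neg]
  refine ⟨⟨⟨G.inv_mem h.1.1.1, ⟨?_, ?_⟩, ?_⟩, fun ρ hρ => hcr ▸ hmin ρ hρ⟩, ?_, ?_⟩
  · rw [hv, neg_mul_neg]; exact h11
  · rw [hv, neg_ne_zero]; exact hne
  · rintro ρ ⟨c, hc⟩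
    apply hs
    refine ⟨-c, ?_⟩
    rw [hc, hv, ← ha, smul_neg, neg_smul]
  · rw [hv, LinearMap.ker_neg]; exact hk
  · rw [hv, LinearMap.range_neg]; exact hr

end

/-- Let k be a field of characteristic not 2 with k not of order 3, M a finite-dimensional k-vector space and G ≤ GL(M) such that (G, M) is a quadratic pair (M irreducible for G, and G generated by its quadratically acting elements σ whose scalar family 1 + c(σ − 1), c ∈ k, lies in G). Write 𝒬_d for the quadratic elements of G of minimal commutator rank, E(σ) for the subgroup generated by the members of 𝒬_d with the same fixed space and commutator space as σ, and Σ for the set of these subgroups. Then for σ ∈ 𝒬_d the subgroup E(σ) consists exactly of those members together with the identity, it is abelian, and if k has prime characteristic p every element of E(σ) has order dividing p. -/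
theorem result {k : Type u} [Field k] (hk2 : ringChar k ≠ 2) (hk3 : Nat.card k ≠ 3)
    {M : Type u} [AddCommGroup M] [Module k M] [FiniteDimensional k M]
    {G : Subgroup (LinearMap.GeneralLinearGroup k M)} (hG : Cfsg.IsQuadraticPair G)
    {σ : LinearMap.GeneralLinearGroup k M} (hσ : σ ∈ Cfsg.minimalQuadraticElements G) :
    (Cfsg.sameActionSubgroup G σ : Set (LinearMap.GeneralLinearGroup k M)) = Cfsg.sameActionClass G σ ∪ {1} ∧
    IsMulCommutative ↥(Cfsg.sameActionSubgroup G σ) ∧
    (∀ p : ℕ, p.Prime → ringChar k = p → ∀ x ∈ Cfsg.sameActionSubgroup G σ, x ^ p = 1) := by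
  have hset : (Cfsg.sameActionSubgroup G σ : Set (LinearMap.GeneralLinearGroup k M)) =
      Cfsg.sameActionClass G σ ∪ {1} := by
    apply Set.Subset.antisymm
    · intro x hx
      have hx' : x ∈ Subgroup.closure (Cfsg.sameActionClass G σ) := hx
      clear hx
      induction hx' using Subgroup.closure_induction with
      | mem y hy => exact Or.inl hy
      | one => exact Or.inr rfl
      | mul y z _ _ ihy ihz =>
        rcases ihy with hy | hy
        · rcases ihz with hz | hz
          · by_cases h1 : y * z = 1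
            · exact Or.inr h1
            · exact Or.inl (mul_mem_class hy hz h1)
          · rw [Set.mem_singleton_iff.mp hz, mul_one]; exact Or.inl hy
        · rw [Set.mem_singleton_iff.mp hy, one_mul]; exact ihz
      | inv y _ ihy =>
        rcases ihy with hy | hy
        · exact Or.inl (inv_mem_class hy)
        · rw [Set.mem_singleton_iff.mp hy, inv_one]; exact Or.inr rfl
    · rintro x (hx | hx)
      · exact Subgroup.subset_closure hx
      · rw [Set.mem_singleton_iff.mp hx]; exact Subgroup.one_mem _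
  refine ⟨hset, ⟨⟨fun x y => ?_⟩⟩, ?_⟩
  · have hx : (x : LinearMap.GeneralLinearGroup k M) ∈ Cfsg.sameActionClass G σ ∪ {1} := by
      rw [← hset]; exact x.2
    have hy : (y : LinearMap.GeneralLinearGroup k M) ∈ Cfsg.sameActionClass G σ ∪ {1} := by
      rw [← hset]; exact y.2
    apply Subtype.ext
    show (x : LinearMap.GeneralLinearGroup k M) * y = y * x
    rcases hx with hx | hx
    · rcases hy with hy | hy
      · apply Units.ext
        rw [Units.val_mul, Units.val_mul]
        have e12 := sq_zero_of_mem hx hy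
        have e21 := sq_zero_of_mem hy hx
        have key : ∀ a b : M →ₗ[k] M, a * b = 0 → b * a = 0 →
            (1 + a) * (1 + b) = (1 + b) * (1 + a) := by
          intro a b h1 h2
          rw [add_mul, mul_add, mul_add, add_mul, mul_add, mul_add, h1, h2, one_mul, one_mul,
            mul_one, mul_one]
          abel
        have h3 := key _ _ e12 e21
        have ex : (1 : M →ₗ[k] M) + (((x : LinearMap.GeneralLinearGroup k M) : M →ₗ[k] M) - 1)
            = ((x : LinearMap.GeneralLinearGroup k M) : M →ₗ[k] M) := by abel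
        have ey : (1 : M →ₗ[k] M) + (((y : LinearMap.GeneralLinearGroup k M) : M →ₗ[k] M) - 1)
            = ((y : LinearMap.GeneralLinearGroup k M) : M →ₗ[k] M) := by abel
        rw [ex, ey] at h3
        exact h3
      · rw [Set.mem_singleton_iff.mp hy, mul_one, one_mul]
    · rw [Set.mem_singleton_iff.mp hx, mul_one, one_mul]
  · intro p hp hchar x hx
    have hx' : x ∈ Cfsg.sameActionClass G σ ∪ {1} := by rw [← hset]; exact hx
    rcases hx' with hx' | hx'
    · apply Units.ext
      rw [Units.val_pow_eq_pow_val, Units.val_one]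
      have e := sq_zero_of_mem hx' hx'
      have key : ∀ (a : M →ₗ[k] M), a * a = 0 → ∀ n : ℕ, (1 + a) ^ n = 1 + n • a := by
        intro a ha n
        induction n with
        | zero => simp
        | succ n ih =>
          rw [pow_succ, ih, add_mul, mul_add, mul_add]
          simp only [one_mul, mul_one, smul_mul_assoc, ha, smul_zero, add_zero, succ_nsmul]
          abel
      have h2 := key _ e p
      have h3 : (p : ℕ) • ((x : M →ₗ[k] M) - 1) = 0 := by
        rw [← Nat.cast_smul_eq_nsmul k, (ringChar.spec k p).2 (by rw [hchar]), zero_smul]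
      rw [h3, add_zero] at h2
      have e' : (1 : M →ₗ[k] M) + ((x : M →ₗ[k] M) - 1) = x := by abel
      rw [e'] at h2
      exact h2
    · rw [Set.mem_singleton_iff.mp hx', one_pow]

end Cfsg.Agent.S5059
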