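import Cfsg.Statements.S5102
import Cfsg.Agent.Lib.Helper8.Fusion

set_option autoImplicit false
open Cfsg

namespace Cfsg.Agent.S5102

/-- A normal p-subgroup of a finite group G is normal in the fusion system of G on a Sylow p-subgroup. -/
theorem result {G : Type*} [Group G] [Finite G] (p : ℕ) [Fact p.Prime] (S : Sylow p G) (R : Subgroup G) [R.Normal] (hR : IsPGroup p R) : (Cfsg.groupFusionSystem (S : Subgroup G)).IsNormal R := by
  have hRS : R ≤ (S : Subgroup G) := hR.le_sylow_of_normal S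
  refine ⟨hRS, ?_⟩
  rintro P φ ⟨hP, hφS, g, hg⟩
  have hgN : g ∈ Subgroup.normalizer (R : Set G) := by
    rw [Subgroup.normalizer_eq_top]
    exact Subgroup.mem_top g
  have hR' : (R.subgroupOf (P ⊔ R)).map (conjHom (P ⊔ R) g) = R :=
    Cfsg.Agent.Lib.Helper8.Fusion.map_conjHom_eq le_sup_right hgN
  refine ⟨conjHom (P ⊔ R) g, ⟨sup_le hP hRS, ?_, g, fun x => rfl⟩, fun x => (hg x).symm, hR'⟩
  apply Cfsg.Agent.Lib.Helper8.Fusion.forall_mem_of_sup
  · intro a
    have h1 : conjHom (P ⊔ R) g (Subgroup.inclusion le_sup_left a) = φ a := (hg a).symm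
    rw [h1]
    exact hφS a
  · intro b
    have h2 : conjHom (P ⊔ R) g (Subgroup.inclusion le_sup_right b) ∈
        (R.subgroupOf (P ⊔ R)).map (conjHom (P ⊔ R) g) := ⟨_, b.2, rfl⟩
    rw [hR'] at h2
    exact hRS h2

end Cfsg.Agent.S5102
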