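import Cfsg.Statements.S5344

set_option autoImplicit false
open Cfsg

namespace Cfsg.Agent.S5344

def cdN (σ : Equiv.Perm (Fin 4)) : ℕ := (σ 0).val * 16 + (σ 1).val * 4 + (σ 2).val

def wd {G : Type*} [Group G] (a b c : G) : ℕ → G
  | 6 => 1
  | 7 => c
  | 9 => b
  | 11 => b * (c)
  | 13 => c * (b)
  | 14 => b * (c * (b))
  | 18 => a
  | 19 => a * (c)
  | 24 => a * (b)
  | 27 => a * (b * (c))
  | 28 => a * (c * (b))
  | 30 => a * (b * (c * (b)))
  | 33 => b * (a)
  | 35 => b * (a * (c))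
  | 36 => a * (b * (a))
  | 39 => a * (b * (a * (c)))
  | 44 => b * (a * (c * (b)))
  | 45 => a * (b * (a * (c * (b))))
  | 49 => c * (b * (a))
  | 50 => b * (c * (b * (a)))
  | 52 => a * (c * (b * (a)))
  | 54 => a * (b * (c * (b * (a))))
  | 56 => b * (a * (c * (b * (a))))
  | 57 => a * (b * (a * (c * (b * (a)))))
  | _ => 1

def stA : ℕ → ℕ
  | 6 => 18
  | 7 => 19
  | 9 => 33
  | 11 => 35
  | 13 => 49
  | 14 => 50
  | 18 => 6
  | 19 => 7
  | 24 => 36
  | 27 => 39
  | 28 => 52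
  | 30 => 54
  | 33 => 9
  | 35 => 11
  | 36 => 24
  | 39 => 27
  | 44 => 56
  | 45 => 57
  | 49 => 13
  | 50 => 14
  | 52 => 28
  | 54 => 30
  | 56 => 44
  | 57 => 45
  | _ => 0

def stB : ℕ → ℕ
  | 6 => 9
  | 7 => 13
  | 9 => 6
  | 11 => 14
  | 13 => 7
  | 14 => 11
  | 18 => 24
  | 19 => 28
  | 24 => 18
  | 27 => 30
  | 28 => 19
  | 30 => 27
  | 33 => 36
  | 35 => 44
  | 36 => 33
  | 39 => 45
  | 44 => 35
  | 45 => 39
  | 49 => 52
  | 50 => 56
  | 52 => 49
  | 54 => 57
  | 56 => 50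
  | 57 => 54
  | _ => 0

def stC : ℕ → ℕ
  | 6 => 7
  | 7 => 6
  | 9 => 11
  | 11 => 9
  | 13 => 14
  | 14 => 13
  | 18 => 19
  | 19 => 18
  | 24 => 27
  | 27 => 24
  | 28 => 30
  | 30 => 28
  | 33 => 35
  | 35 => 33
  | 36 => 39
  | 39 => 36
  | 44 => 45
  | 45 => 44
  | 49 => 50
  | 50 => 49
  | 52 => 54
  | 54 => 52
  | 56 => 57
  | 57 => 56
  | _ => 0

def valid : List ℕ := [6, 7, 9, 11, 13, 14, 18, 19, 24, 27, 28, 30, 33, 35, 36, 39, 44, 45, 49, 50, 52, 54, 56, 57]

theorem cd_valid : ∀ σ : Equiv.Perm (Fin 4), cdN σ ∈ valid := by decide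

theorem cd_A : ∀ σ : Equiv.Perm (Fin 4), cdN (σ * Equiv.swap 0 1) = stA (cdN σ) := by decide

theorem cd_B : ∀ σ : Equiv.Perm (Fin 4), cdN (σ * Equiv.swap 1 2) = stB (cdN σ) := by decide

theorem cd_C : ∀ σ : Equiv.Perm (Fin 4), cdN (σ * Equiv.swap 2 3) = stC (cdN σ) := by decide

theorem cd_one : cdN 1 = 6 := by decide

theorem cd_gen : cdN (Equiv.swap 0 1) = 18 ∧ cdN (Equiv.swap 1 2) = 9 ∧
    cdN (Equiv.swap 2 3) = 7 := by decide

set_option maxRecDepth 100000 in
theorem s4_normal : ∀ σ : Equiv.Perm (Fin 4), σ ≠ 1 → ∃ x y : Equiv.Perm (Fin 4),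
    x * σ * x⁻¹ * (y * σ * y⁻¹) = Equiv.swap 0 1 * Equiv.swap 2 3 := by decide +kernel

theorem braid {G : Type*} [Group G] (x y : G) (hx : x * x = 1) (hy : y * y = 1)
    (hnc : ¬ Commute x y) (h : (x * y) ^ 2 = 1 ∨ (x * y) ^ 3 = 1) :
    y * (x * y) = x * (y * x) := by
  have hx' : x⁻¹ = x := inv_eq_of_mul_eq_one_left hx
  have hy' : y⁻¹ = y := inv_eq_of_mul_eq_one_left hy
  rcases h with h | h
  · exfalso
    apply hnc
    rw [pow_two] at h
    have h8 := eq_inv_of_mul_eq_one_left h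
    rw [mul_inv_rev, hx', hy'] at h8
    exact h8
  · have h3 : (x * y) * (x * y) * (x * y) = 1 := by
      rw [← h, pow_succ, pow_two]
    have h7 : (x * y) * (x * y) = y * x := by
      have h8 := eq_inv_of_mul_eq_one_left h3
      rw [h8, mul_inv_rev, hx', hy']
    calc y * (x * y) = x * (x * (y * (x * y))) := by rw [← mul_assoc x x, hx, one_mul]
      _ = x * ((x * y) * (x * y)) := by rw [mul_assoc x y (x * y)]
      _ = x * (y * x) := by rw [h7]

section words

variable {G : Type*} [Group G] (a b c : G) (haa : a * a = 1) (hbb : b * b = 1) (hcc : c * c = 1)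
  (hca : c * a = a * c) (hbab : b * (a * b) = a * (b * a)) (hcbc : c * (b * c) = b * (c * b))

include haa hbb hcc hca hbab hcbc

theorem wd_steps : ∀ n ∈ valid, wd a b c (stA n) = wd a b c n * a ∧
    wd a b c (stB n) = wd a b c n * b ∧ wd a b c (stC n) = wd a b c n * c := by
  have haa' : ∀ t, a * (a * t) = t := fun t => by rw [← mul_assoc, haa, one_mul]
  have hbb' : ∀ t, b * (b * t) = t := fun t => by rw [← mul_assoc, hbb, one_mul]
  have hcc' : ∀ t, c * (c * t) = t := fun t => by rw [← mul_assoc, hcc, one_mul]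
  have hca' : ∀ t, c * (a * t) = a * (c * t) := fun t => by
    rw [← mul_assoc, hca, mul_assoc]
  have hbab' : ∀ t, b * (a * (b * t)) = a * (b * (a * t)) := fun t => by
    rw [← mul_assoc a b t, ← mul_assoc b (a * b) t, hbab, mul_assoc, mul_assoc]
  have hcbc' : ∀ t, c * (b * (c * t)) = b * (c * (b * t)) := fun t => by
    rw [← mul_assoc b c t, ← mul_assoc c (b * c) t, hcbc, mul_assoc, mul_assoc]
  have hcbac : c * (b * (a * c)) = b * (c * (b * a)) := by
    rw [← hca, hcbc']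
  have hcbac' : ∀ t, c * (b * (a * (c * t))) = b * (c * (b * (a * t))) := fun t => by
    rw [← hca', hcbc']
  intro n hn
  fin_cases hn <;>
    simp [wd, stA, stB, stC, mul_assoc, haa, haa', hbb, hbb', hcc, hcc', hca, hca', hbab, hbab',
      hcbc, hcbc', hcbac, hcbac']

end words


/-- In a set of 3-transpositions, let a, b, c be members with a and c different and commuting, while neither a nor c commutes with b (a 3-string). Then there is an injective homomorphism from the symmetric group of degree 4 into the ambient group sending the transpositions (0 1), (1 2), (2 3) to a, b, c; so a, b, c generate a copy of the symmetric group of degree 4 in which they are transpositions. -/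
theorem result {G : Type*} [Group G] {D : Set G} (hD : Cfsg.IsThreeTranspositionSet D) {a b c : G} (ha : a ∈ D) (hb : b ∈ D) (hc : c ∈ D) (hac : a ≠ c) (hac' : Commute a c) (hab : ¬ Commute a b) (hbc : ¬ Commute b c) : ∃ φ : Equiv.Perm (Fin 4) →* G, Function.Injective φ ∧ φ (Equiv.swap 0 1) = a ∧ φ (Equiv.swap 1 2) = b ∧ φ (Equiv.swap 2 3) = c := by
  obtain ⟨hord, h3⟩ := hD
  have sq : ∀ d ∈ D, d * d = 1 := fun d hd => by
    rw [← pow_two, ← hord d hd]
    exact pow_orderOf_eq_one d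
  have haa := sq a ha
  have hbb := sq b hb
  have hcc := sq c hc
  have hca : c * a = a * c := hac'.eq.symm
  have hbab : b * (a * b) = a * (b * a) := braid a b haa hbb hab (h3 a ha b hb)
  have hcbc : c * (b * c) = b * (c * b) := braid b c hbb hcc hbc (h3 b hb c hc)
  have steps := wd_steps a b c haa hbb hcc hca hbab hcbc
  have hA : ∀ σ : Equiv.Perm (Fin 4), wd a b c (cdN (σ * Equiv.swap 0 1)) = wd a b c (cdN σ) * a :=
    fun σ => by
      rw [cd_A]
      exact (steps _ (cd_valid σ)).1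
  have hB : ∀ σ : Equiv.Perm (Fin 4), wd a b c (cdN (σ * Equiv.swap 1 2)) = wd a b c (cdN σ) * b :=
    fun σ => by
      rw [cd_B]
      exact (steps _ (cd_valid σ)).2.1
  have hC : ∀ σ : Equiv.Perm (Fin 4), wd a b c (cdN (σ * Equiv.swap 2 3)) = wd a b c (cdN σ) * c :=
    fun σ => by
      rw [cd_C]
      exact (steps _ (cd_valid σ)).2.2
  have h1 : wd a b c (cdN 1) = 1 := by
    rw [cd_one]
    rfl
  have hga : wd a b c (cdN (Equiv.swap 0 1)) = a := by
    rw [cd_gen.1]
    rfl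
  have hgb : wd a b c (cdN (Equiv.swap 1 2)) = b := by
    rw [cd_gen.2.1]
    rfl
  have hgc : wd a b c (cdN (Equiv.swap 2 3)) = c := by
    rw [cd_gen.2.2]
    rfl
  have hmul : ∀ τ σ : Equiv.Perm (Fin 4),
      wd a b c (cdN (σ * τ)) = wd a b c (cdN σ) * wd a b c (cdN τ) := by
    intro τ
    refine Submonoid.induction_of_closure_eq_top_right (Equiv.Perm.mclosure_swap_castSucc_succ 3)
      τ ?_ ?_
    · intro σ
      rw [mul_one, h1, mul_one]
    · rintro τ' _ ⟨i, rfl⟩ ih σ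
      fin_cases i
      · change wd a b c (cdN (σ * (τ' * Equiv.swap 0 1))) =
          wd a b c (cdN σ) * wd a b c (cdN (τ' * Equiv.swap 0 1))
        rw [← mul_assoc, hA, ih, hA, mul_assoc]
      · change wd a b c (cdN (σ * (τ' * Equiv.swap 1 2))) =
          wd a b c (cdN σ) * wd a b c (cdN (τ' * Equiv.swap 1 2))
        rw [← mul_assoc, hB, ih, hB, mul_assoc]
      · change wd a b c (cdN (σ * (τ' * Equiv.swap 2 3))) =
          wd a b c (cdN σ) * wd a b c (cdN (τ' * Equiv.swap 2 3))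
        rw [← mul_assoc, hC, ih, hC, mul_assoc]
  let φ : Equiv.Perm (Fin 4) →* G := MonoidHom.mk' (fun σ => wd a b c (cdN σ))
    (fun σ τ => hmul τ σ)
  refine ⟨φ, ?_, hga, hgb, hgc⟩
  rw [injective_iff_map_eq_one]
  intro σ hσ
  by_contra hne
  obtain ⟨x, y, hxy⟩ := s4_normal σ hne
  have h5 : φ (x * σ * x⁻¹ * (y * σ * y⁻¹)) = 1 := by
    rw [map_mul, map_mul, map_mul, map_mul, map_mul, hσ, mul_one, mul_one, ← map_mul, ← map_mul,
      mul_inv_cancel, mul_inv_cancel, map_one, mul_one]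
  rw [hxy, map_mul] at h5
  have h6 : a * c = 1 := by
    have e1 : φ (Equiv.swap 0 1) = a := hga
    have e2 : φ (Equiv.swap 2 3) = c := hgc
    rw [e1, e2] at h5
    exact h5
  apply hac
  have h7 := eq_inv_of_mul_eq_one_left h6
  rw [h7]
  exact inv_eq_of_mul_eq_one_left hcc

end Cfsg.Agent.S5344
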