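import Cfsg.Statements.S5345

set_option autoImplicit false
open Cfsg

namespace Cfsg.Agent.S5345

open scoped Pointwise

theorem result {G : Type*} [Group G] [Finite G] {D : Set G} (hD : Cfsg.IsThreeTranspositionGroup D) (T : Sylow 2 G) : IsMulCommutative (Subgroup.closure {d : G | d ∈ D ∧ d ∈ T}) ∧ {d : G | d ∈ D ∧ d ∈ T}.ncard = Cfsg.commutingWidth D := by
  obtain ⟨⟨hord, hprod⟩, hconj, -⟩ := hD
  have hp2 : Fact (Nat.Prime 2) := ⟨Nat.prime_two⟩
  have hsq : ∀ d ∈ D, d * d = 1 := by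
    intro d hd
    have := pow_orderOf_eq_one d
    rw [hord d hd, pow_two] at this; exact this
  have hcomm : ∀ x ∈ {d : G | d ∈ D ∧ d ∈ T}, ∀ y ∈ {d : G | d ∈ D ∧ d ∈ T}, x * y = y * x := by
    rintro x ⟨hxD, hxT⟩ y ⟨hyD, hyT⟩
    have hxyT : x * y ∈ (T : Subgroup G) := (T : Subgroup G).mul_mem hxT hyT
    have h2 : (x * y) ^ 2 = 1 := by
      rcases hprod x hxD y hyD with h | h
      · exact h
      · obtain ⟨k, hk⟩ := T.isPGroup' ⟨x * y, hxyT⟩
        have hk' : (x * y) ^ 2 ^ k = 1 := by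
          have := congrArg Subtype.val hk
          simpa using this
        have h3 : orderOf (x * y) ∣ 3 := orderOf_dvd_of_pow_eq_one h
        have h4 : orderOf (x * y) ∣ 2 ^ k := orderOf_dvd_of_pow_eq_one hk'
        have h5 : orderOf (x * y) ∣ Nat.gcd 3 (2 ^ k) := Nat.dvd_gcd h3 h4
        have h6 : Nat.gcd 3 (2 ^ k) = 1 := Nat.Coprime.pow_right k (by decide)
        rw [h6, Nat.dvd_one, orderOf_eq_one_iff] at h5
        rw [h5, one_pow]
    have h3 : x * y * (x * y) = 1 := by rw [← pow_two]; exact h2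
    have h4 : x * y = (x * y)⁻¹ := eq_inv_of_mul_eq_one_left h3
    rw [mul_inv_rev, inv_eq_of_mul_eq_one_left (hsq x hxD), inv_eq_of_mul_eq_one_left (hsq y hyD)] at h4
    exact h4
  refine ⟨Subgroup.isMulCommutative_closure hcomm, ?_⟩
  have hbdd : BddAbove {n : ℕ | ∃ E : Set G, E ⊆ D ∧ E.Finite ∧ (∀ a ∈ E, ∀ b ∈ E, Commute a b) ∧ E.ncard = n} := by
    refine ⟨Nat.card G, ?_⟩
    rintro n ⟨E, -, -, -, rfl⟩
    exact Set.ncard_le_card E
  apply le_antisymm
  · apply le_csSup hbdd
    exact ⟨_, fun d hd => hd.1, Set.toFinite _, fun a ha b hb => hcomm a ha b hb, rfl⟩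
  · apply csSup_le
    · exact ⟨0, ∅, Set.empty_subset _, Set.finite_empty, by simp, Set.ncard_empty G⟩
    rintro n ⟨E, hED, hEfin, hEcomm, rfl⟩
    have hE2 : IsPGroup 2 (Subgroup.closure E) := by
      have hc := Subgroup.isMulCommutative_closure (k := E) (fun x hx y hy => hEcomm x hx y hy)
      rintro ⟨x, hx⟩
      refine ⟨1, ?_⟩
      apply Subtype.ext
      show x ^ 2 ^ 1 = 1
      rw [pow_one]
      induction hx using Subgroup.closure_induction with
      | mem x hx => rw [pow_two]; exact hsq x (hED hx)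
      | one => simp
      | mul x y hx hy ihx ihy =>
        have hxy : x * y = y * x :=
          congrArg Subtype.val (hc.is_comm.comm (⟨x, hx⟩ : Subgroup.closure E) ⟨y, hy⟩)
        have hxy' : Commute x y := hxy
        rw [hxy'.mul_pow, ihx, ihy, one_mul]
      | inv x hx ih => rw [inv_pow, ih, inv_one]
    obtain ⟨Q, hQ⟩ := hE2.exists_le_sylow
    obtain ⟨g, hg⟩ := MulAction.exists_smul_eq G Q T
    apply Set.ncard_le_ncard_of_injOn (fun e => g * e * g⁻¹)
    · intro e he
      refine ⟨hconj g e (hED he), ?_⟩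
      rw [← hg]
      have h1 : e ∈ (Q : Subgroup G) := hQ (Subgroup.subset_closure he)
      have h2 : MulAut.conj g • e ∈ MulAut.conj g • (Q : Subgroup G) :=
        Subgroup.smul_mem_pointwise_smul e (MulAut.conj g) Q h1
      exact h2
    · intro a _ b _ h
      simpa using h

end Cfsg.Agent.S5345
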