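import Cfsg.Statements.S5348

set_option autoImplicit false
open Cfsg

namespace Cfsg.Agent.S5348

theorem exists_ne_of_ne_singleton {α : Type*} (S : Set α) (d : α) (hd : d ∈ S) (h : S ≠ {d}) :
    ∃ x ∈ S, x ≠ d := by
  by_contra hcon
  apply h
  rw [Set.eq_singleton_iff_unique_mem]
  refine ⟨hd, fun x hx => ?_⟩
  by_contra hne
  exact hcon ⟨x, hx, hne⟩

theorem result {G : Type*} [Group G] [Finite G] {D : Set G} (hD : Cfsg.IsThreeTranspositionGroup D) {d : G} (hd : d ∈ D) : {v : G | v ∈ D ∧ ∀ e ∈ D, Commute v e ↔ Commute d e} = {d} ∨ {w : G | w ∈ D ∧ {y : G | y ∈ D ∧ y ≠ d ∧ Commute d y} = {y : G | y ∈ D ∧ y ≠ w ∧ Commute w y}} = {d} := by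
  by_contra hcon
  rw [not_or] at hcon
  obtain ⟨h1, h2⟩ := hcon
  have hd1 : d ∈ {v : G | v ∈ D ∧ ∀ e ∈ D, Commute v e ↔ Commute d e} :=
    ⟨hd, fun e _ => Iff.rfl⟩
  have hd2 : d ∈ {w : G | w ∈ D ∧ {y : G | y ∈ D ∧ y ≠ d ∧ Commute d y}
      = {y : G | y ∈ D ∧ y ≠ w ∧ Commute w y}} := ⟨hd, rfl⟩
  obtain ⟨v, ⟨hvD, hv⟩, hvd⟩ := exists_ne_of_ne_singleton _ d hd1 h1
  obtain ⟨w, ⟨hwD, hw⟩, hwd⟩ := exists_ne_of_ne_singleton _ d hd2 h2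
  have hdv : Commute d v := (hv v hvD).mp (Commute.refl v)
  have hvmem : v ∈ {y : G | y ∈ D ∧ y ≠ d ∧ Commute d y} := ⟨hvD, hvd, hdv⟩
  rw [hw] at hvmem
  obtain ⟨-, hvw, hwv⟩ := hvmem
  have hdw : Commute d w := (hv w hwD).mp hwv.symm
  have hwmem : w ∈ {y : G | y ∈ D ∧ y ≠ d ∧ Commute d y} := ⟨hwD, hwd, hdw⟩
  rw [hw] at hwmem
  exact hwmem.2.1 rfl

end Cfsg.Agent.S5348
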