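import Cfsg.Statements.S5358

set_option autoImplicit false
open Cfsg

namespace Cfsg.Agent.S5358

open Matrix

theorem polarVec_dot (n : ℕ) (Q : QuadraticForm (ZMod 3) (Fin n → ZMod 3))
    (u x : Fin n → ZMod 3) :
    Cfsg.polarVec (⇑Q) u ⬝ᵥ x = QuadraticMap.polar (⇑Q) u x := by
  have h := LinearMap.pi_apply_eq_sum_univ (QuadraticMap.polarBilin Q u) x
  rw [QuadraticMap.polarBilin_apply_apply] at h
  rw [h]
  simp only [dotProduct, Cfsg.polarVec, QuadraticMap.polarBilin_apply_apply, smul_eq_mul]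
  apply Finset.sum_congr rfl
  intro i _
  rw [mul_comm]
  congr 2
  ext j
  simp [Pi.single_apply, eq_comm]

theorem refl_apply (n : ℕ) (Q : QuadraticForm (ZMod 3) (Fin n → ZMod 3))
    (u x : Fin n → ZMod 3) :
    Cfsg.reflectionMatrix (⇑Q) u *ᵥ x
      = x - ((Q u)⁻¹ * QuadraticMap.polar (⇑Q) u x) • u := by
  unfold Cfsg.reflectionMatrix
  rw [Matrix.sub_mulVec, Matrix.one_mulVec, Matrix.smul_mulVec, Matrix.vecMulVec_mulVec,
    polarVec_dot, op_smul_eq_smul, smul_smul]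

theorem vec_rearr {V : Type*} [AddCommGroup V] [Module (ZMod 3) V] (x u v : V)
    (a b d e : ZMod 3) (h : x - a • v - b • u = x - d • u - e • v) :
    (d - b) • u = (a - e) • v := by
  linear_combination (norm := module) h

theorem result (n : ℕ) (Q : QuadraticForm (ZMod 3) (Fin n → ZMod 3)) (hQ : (QuadraticMap.polarBilin Q).Nondegenerate) (u v : Fin n → ZMod 3) (hu : Q u ≠ 0) (huv : Q u = Q v) (h1 : v ≠ u) (h2 : v ≠ -u) : Commute (Cfsg.reflectionMatrix (⇑Q) u) (Cfsg.reflectionMatrix (⇑Q) v) ↔ QuadraticMap.polar (⇑Q) u v = 0 := by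
  have hcomm_iff : Commute (Cfsg.reflectionMatrix (⇑Q) u) (Cfsg.reflectionMatrix (⇑Q) v) ↔
      ∀ x, Cfsg.reflectionMatrix (⇑Q) u *ᵥ (Cfsg.reflectionMatrix (⇑Q) v *ᵥ x)
        = Cfsg.reflectionMatrix (⇑Q) v *ᵥ (Cfsg.reflectionMatrix (⇑Q) u *ᵥ x) := by
    constructor
    · intro h x
      rw [Matrix.mulVec_mulVec, Matrix.mulVec_mulVec, h.eq]
    · intro h
      apply Matrix.mulVec_injective
      funext x
      rw [← Matrix.mulVec_mulVec, ← Matrix.mulVec_mulVec, h x]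
  have hvu : QuadraticMap.polar (⇑Q) v u = QuadraticMap.polar (⇑Q) u v :=
    QuadraticMap.polar_comm _ _ _
  have hform : ∀ x, Cfsg.reflectionMatrix (⇑Q) u *ᵥ (Cfsg.reflectionMatrix (⇑Q) v *ᵥ x)
      = x - ((Q u)⁻¹ * QuadraticMap.polar (⇑Q) v x) • v
        - ((Q u)⁻¹ * (QuadraticMap.polar (⇑Q) u x
          - ((Q u)⁻¹ * QuadraticMap.polar (⇑Q) v x) * QuadraticMap.polar (⇑Q) u v)) • u := by
    intro x
    rw [refl_apply, refl_apply, ← huv, QuadraticMap.polar_sub_right, QuadraticMap.polar_smul_right,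
      smul_eq_mul]
  have hform' : ∀ x, Cfsg.reflectionMatrix (⇑Q) v *ᵥ (Cfsg.reflectionMatrix (⇑Q) u *ᵥ x)
      = x - ((Q u)⁻¹ * QuadraticMap.polar (⇑Q) u x) • u
        - ((Q u)⁻¹ * (QuadraticMap.polar (⇑Q) v x
          - ((Q u)⁻¹ * QuadraticMap.polar (⇑Q) u x) * QuadraticMap.polar (⇑Q) u v)) • v := by
    intro x
    rw [refl_apply, refl_apply, ← huv, QuadraticMap.polar_sub_right, QuadraticMap.polar_smul_right,
      smul_eq_mul, hvu]
  rw [hcomm_iff]
  constructor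
  · intro h
    by_contra hB
    have hv0 : v ≠ 0 := by
      intro h0
      rw [h0, QuadraticMap.map_zero] at huv
      exact hu huv
    have hex : ∃ y, QuadraticMap.polar (⇑Q) v y ≠ 0 := by
      by_contra hno
      apply hv0
      apply hQ.1 v
      intro y
      rw [QuadraticMap.polarBilin_apply_apply]
      by_contra hy
      exact hno ⟨y, hy⟩
    obtain ⟨y, hy⟩ := hex
    have hxy := h y
    rw [hform, hform'] at hxy
    have h3 := vec_rearr y u v _ _ _ _ hxy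
    have hc : (Q u)⁻¹ ≠ 0 := inv_ne_zero hu
    have h4 : QuadraticMap.polar (⇑Q) v y • u = QuadraticMap.polar (⇑Q) u y • v := by
      have h5 : ((Q u)⁻¹ * QuadraticMap.polar (⇑Q) u y
          - (Q u)⁻¹ * (QuadraticMap.polar (⇑Q) u y
            - (Q u)⁻¹ * QuadraticMap.polar (⇑Q) v y * QuadraticMap.polar (⇑Q) u v))
          = ((Q u)⁻¹ * (Q u)⁻¹ * QuadraticMap.polar (⇑Q) u v) * QuadraticMap.polar (⇑Q) v y := by
        ring
      have h6 : ((Q u)⁻¹ * QuadraticMap.polar (⇑Q) v y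
          - (Q u)⁻¹ * (QuadraticMap.polar (⇑Q) v y
            - (Q u)⁻¹ * QuadraticMap.polar (⇑Q) u y * QuadraticMap.polar (⇑Q) u v))
          = ((Q u)⁻¹ * (Q u)⁻¹ * QuadraticMap.polar (⇑Q) u v) * QuadraticMap.polar (⇑Q) u y := by
        ring
      have h7 : (Q u)⁻¹ * (Q u)⁻¹ * QuadraticMap.polar (⇑Q) u v ≠ 0 :=
        mul_ne_zero (mul_ne_zero hc hc) hB
      have h3' : ((Q u)⁻¹ * (Q u)⁻¹ * QuadraticMap.polar (⇑Q) u v)
            • (QuadraticMap.polar (⇑Q) v y • u)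
          = ((Q u)⁻¹ * (Q u)⁻¹ * QuadraticMap.polar (⇑Q) u v)
            • (QuadraticMap.polar (⇑Q) u y • v) := by
        rw [smul_smul, smul_smul, ← h5, ← h6]; exact h3
      exact smul_right_injective _ h7 h3'
    have h8 : u = ((QuadraticMap.polar (⇑Q) v y)⁻¹ * QuadraticMap.polar (⇑Q) u y) • v := by
      rw [mul_smul, ← h4, smul_smul, inv_mul_cancel₀ hy, one_smul]
    have h9 : Q u = ((QuadraticMap.polar (⇑Q) v y)⁻¹ * QuadraticMap.polar (⇑Q) u y)
        * ((QuadraticMap.polar (⇑Q) v y)⁻¹ * QuadraticMap.polar (⇑Q) u y) * Q u := by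
      conv_lhs => rw [h8]
      rw [QuadraticMap.map_smul, smul_eq_mul, ← huv]
    have h10 : ((QuadraticMap.polar (⇑Q) v y)⁻¹ * QuadraticMap.polar (⇑Q) u y)
        * ((QuadraticMap.polar (⇑Q) v y)⁻¹ * QuadraticMap.polar (⇑Q) u y) = 1 := by
      have h11 : (((QuadraticMap.polar (⇑Q) v y)⁻¹ * QuadraticMap.polar (⇑Q) u y)
        * ((QuadraticMap.polar (⇑Q) v y)⁻¹ * QuadraticMap.polar (⇑Q) u y)) * Q u = 1 * Q u := by
        rw [one_mul]; exact h9.symm
      exact mul_right_cancel₀ hu h11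
    rcases mul_self_eq_one_iff.mp h10 with h12 | h12
    · rw [h12, one_smul] at h8
      exact h1 h8.symm
    · rw [h12, neg_smul, one_smul] at h8
      apply h2
      rw [h8, neg_neg]
  · intro hB x
    rw [hform, hform', hB]
    simp only [mul_zero, sub_zero]
    abel

end Cfsg.Agent.S5358
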