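import Cfsg.Statements.S5359
import Cfsg.Agent.S0798

set_option autoImplicit false
open scoped MatrixGroups
open Cfsg


namespace Cfsg.Agent.S5359

open Matrix
open Cfsg.Agent.S0750 (pl pl_add_left pl_add_right pl_sub_left pl_sub_right pl_smul_left
  pl_smul_right pl_comm pl_self Q_add Q_smul Q_sub pl_zero_right)
open Cfsg.Agent.S0786 (mat mat_mul mat_one mat_iso mat_ext RQ exists_unit refl_mulVec refl_iso
  gen_refl)
open Cfsg.Agent.S0792 (refl_det)
open Cfsg.Agent.S2635 (SR refl_smul)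
open Cfsg.Agent.S2609 (sq_mul sq_refl refl_mul_self isSquare_mul_iff)
open Cfsg.Agent.S0788 (exists_both det_pm)
open Cfsg.Agent.S0797 (Par par_one par_inv parSub mem_parSub par_sq par_det par_iff)
open Cfsg.Agent.S0798 (Sc pair_mem cover conj_mem)

section
variable {F : Type*} [Field F] [Fintype F] {ι : Type} [Fintype ι] [DecidableEq ι]

theorem index_two (h2 : (2 : F) ≠ 0) (Q : QuadraticForm F (ι → F))
    (hQ : (QuadraticMap.polarBilin Q).Nondegenerate) (hdim : 2 ≤ Fintype.card ι)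
    (hcase : Fintype.card F ≠ 3 ∨ 5 ≤ Fintype.card ι ∨ Fintype.card ι ≤ 2) (c : F)
    (hc : c ≠ 0) : (Subgroup.closure (Sc Q c)).index = 2 := by
  have hF2 : Fintype.card F ≠ 2 := by
    intro h
    apply h2
    have h3 := Nat.cast_card_eq_zero F
    rw [h] at h3
    exact_mod_cast h3
  have hFn : Fintype.card F ≠ 2 ∨ Fintype.card ι ≠ 4 := Or.inl hF2
  have hR := gen_refl hFn Q hQ
  obtain ⟨u, v, hu, hv, hsu, hsv⟩ := exists_both h2 Q hQ hdim
  obtain ⟨x0, hx0, hcl⟩ : ∃ x0, Q x0 ≠ 0 ∧ ¬ (IsSquare (Q x0) ↔ IsSquare c) := by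
    by_cases hsc : IsSquare c
    · exact ⟨v, hv, fun h => hsv (h.2 hsc)⟩
    · exact ⟨u, hu, fun h => hsc (h.1 hsu)⟩
  obtain ⟨a, ha⟩ := exists_unit Q hQ (Cfsg.reflectionMatrix (⇑Q) x0) (refl_iso Q x0 hx0)
  have hne : (-1 : F) ≠ 1 := by
    intro h
    apply h2
    linear_combination -h
  have p1 := par_det h2 Q hQ hR
  have p2 := par_sq Q hQ hR
  have p3 := par_iff _ _ p2 p1
  obtain ⟨P, hP, hPr⟩ : ∃ P : ↥(Cfsg.isometryGroup F ⇑Q) → Prop, Par P ∧
      ∀ (r : ↥(Cfsg.isometryGroup F ⇑Q)) (w : ι → F), Q w ≠ 0 →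
        mat Q r = Cfsg.reflectionMatrix (⇑Q) w → (P r ↔ (IsSquare (Q w) ↔ IsSquare c)) := by
    by_cases hsc : IsSquare c
    · refine ⟨_, p2, fun r w hw hr => ?_⟩
      have h1 := sq_refl Q hQ r w hw hr
      exact ⟨fun h => iff_of_true (h1.1 h) hsc, fun h => h1.2 (h.2 hsc)⟩
    · refine ⟨_, p3, fun r w hw hr => ?_⟩
      have h1 := sq_refl Q hQ r w hw hr
      have h3 : ¬ (mat Q r).det = 1 := by
        rw [hr, refl_det Q w hw]
        exact hne
      constructor
      · intro h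
        exact iff_of_false (fun hs => h3 (h.1 (h1.2 hs))) hsc
      · intro h
        exact iff_of_false (fun hs => hsc (h.1 (h1.1 hs))) h3
  have hPa : ¬ P a := fun h => hcl ((hPr a x0 hx0 ha).1 h)
  have hle : ∀ h ∈ Subgroup.closure (Sc Q c), P h := by
    intro h hh
    have hsub : Subgroup.closure (Sc Q c) ≤ parSub P hP := by
      rw [Subgroup.closure_le]
      rintro r ⟨w, t, ht, hw, hr⟩
      have hw0 : Q w ≠ 0 := by
        rw [hw]
        exact mul_ne_zero hc (pow_ne_zero 2 ht)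
      refine (hPr r w hw0 hr).2 ?_
      rw [hw, isSquare_mul_iff c (t ^ 2) hc (pow_ne_zero 2 ht)]
      have hts : IsSquare (t ^ 2) := ⟨t, pow_two t⟩
      exact ⟨fun h => h.2 hts, fun h => iff_of_true h hts⟩
    exact hsub hh
  show (Subgroup.closure (Sc Q c)).index = 2
  rw [Subgroup.index_eq_two_iff]
  refine ⟨a, fun b => ?_⟩
  have hcov := cover (Subgroup.closure (Sc Q c)) (fun g h hh => conj_mem Q hQ c hc g h hh) a
    (Cfsg.Agent.S2635.S_sq Q a ⟨x0, hx0, ha⟩) (SR Q) hR (fun r hr => by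
      obtain ⟨w, hw, hr⟩ := hr
      by_cases hwc : (IsSquare (Q w) ↔ IsSquare c)
      · left
        obtain ⟨m, hm⟩ := (isSquare_mul_iff (Q w) c hw hc).2 hwc
        have hm0 : m ≠ 0 := by
          rintro rfl
          rw [mul_zero] at hm
          exact (mul_ne_zero hw hc) hm
        refine Subgroup.subset_closure ⟨w, m / c, div_ne_zero hm0 hc, ?_, hr⟩
        field_simp
        linear_combination hm
      · right
        obtain ⟨m, hm⟩ := (isSquare_mul_iff (Q w) (Q x0) hw hx0).2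
          ⟨fun h => by_contra (fun h' => hwc ⟨fun _ => by_contra (fun h'' => hcl ⟨fun h3 => absurd h3 h', fun h3 => absurd h3 h''⟩), fun _ => h⟩),
           fun h => by_contra (fun h' => hcl ⟨fun _ => by_contra (fun h'' => hwc ⟨fun h3 => absurd h3 h', fun h3 => absurd h3 h''⟩), fun _ => h⟩)⟩
        have hm0 : m ≠ 0 := by
          rintro rfl
          rw [mul_zero] at hm
          exact (mul_ne_zero hw hx0) hm
        exact pair_mem h2 Q hQ hcase c hc w x0 m hm0 (by rw [hm]; ring) r a hr ha) b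
  rcases hcov with hb | hb
  · right
    exact ⟨hb, fun hba => hPa (((hP b a).1 (hle _ hba)).1 (hle _ hb))⟩
  · left
    exact ⟨hb, fun hb' => hPa (((hP b a).1 (hle _ hb)).1 (hle _ hb'))⟩

end

theorem main (n : ℕ) (hn : 5 ≤ n) (hodd : Odd n) (Q : QuadraticForm (ZMod 3) (Fin n → ZMod 3)) (hQ : (QuadraticMap.polarBilin Q).Nondegenerate) (c : ZMod 3) (hc : c ≠ 0) : (Cfsg.reflectionSubgroup (⇑Q) c).index = 2 := by
  have h2 : (2 : ZMod 3) ≠ 0 := by decide
  have key : ∀ t : ZMod 3, t ≠ 0 → t ^ 2 = 1 := by decide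
  have hset : Cfsg.reflectionsOfNorm (⇑Q) c = Sc Q c := by
    ext g
    constructor
    · rintro ⟨v, hv, hg⟩
      exact ⟨v, 1, one_ne_zero, by rw [hv]; ring, hg⟩
    · rintro ⟨v, t, ht, hv, hg⟩
      exact ⟨v, by rw [hv, key t ht, mul_one], hg⟩
  show (Subgroup.closure (Cfsg.reflectionsOfNorm (⇑Q) c)).index = 2
  rw [hset]
  exact index_two h2 Q hQ (by rw [Fintype.card_fin]; omega)
    (Or.inr (Or.inl (by rw [Fintype.card_fin]; exact hn))) c hc

theorem result (n : ℕ) (hn : 5 ≤ n) (hodd : Odd n) (Q : QuadraticForm (ZMod 3) (Fin n → ZMod 3)) (hQ : (QuadraticMap.polarBilin Q).Nondegenerate) (c : ZMod 3) (hc : c ≠ 0) : (Cfsg.reflectionSubgroup (⇑Q) c).index = 2 := by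
  exact main n hn hodd Q hQ c hc

end Cfsg.Agent.S5359
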