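import Cfsg.Statements.S5363

set_option autoImplicit false
open Cfsg

namespace Cfsg.Agent.S5363

theorem sq_one {G : Type*} [Group G] (a : G) (ha : orderOf a = 2) : a * a = 1 := by
  have := pow_orderOf_eq_one a
  rw [ha, pow_two] at this; exact this

theorem dihedral_even {G : Type*} [Group G] (a b : G) (haa : a * a = 1) (hbb : b * b = 1)
    (m : ℕ) (hm0 : 0 < m) (hm : orderOf (a * b) = 2 * m) :
    ∃ c : G, (IsConj a c ∨ IsConj b c) ∧ c ≠ a ∧ a * c = c * a ∧ (a * c) * b = b * (a * c) := by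
  have hai : a⁻¹ = a := inv_eq_of_mul_eq_one_left haa
  have hbi : b⁻¹ = b := inv_eq_of_mul_eq_one_left hbb
  have hwa : ∀ n : ℕ, a * (a * b) ^ n * a⁻¹ = ((a * b) ^ n)⁻¹ := by
    intro n
    rw [← conj_pow, ← inv_pow]
    congr 1
    rw [mul_inv_rev, hai, hbi, ← mul_assoc, haa, one_mul]
  have hwb : ∀ n : ℕ, b * (a * b) ^ n * b⁻¹ = ((a * b) ^ n)⁻¹ := by
    intro n
    rw [← conj_pow, ← inv_pow]
    congr 1
    rw [mul_inv_rev, hai, hbi, mul_assoc, mul_assoc, hbb, mul_one]
  have hap : ∀ n : ℕ, a * (a * b) ^ n = ((a * b) ^ n)⁻¹ * a := by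
    intro n
    rw [← hwa n, hai, mul_assoc, mul_assoc, haa, mul_one]
  have hbp : ∀ n : ℕ, b * (a * b) ^ n = ((a * b) ^ n)⁻¹ * b := by
    intro n
    rw [← hwb n, hbi, mul_assoc, mul_assoc, hbb, mul_one]
  have ht1 : (a * b) ^ m ≠ 1 := pow_ne_one_of_lt_orderOf hm0.ne' (by omega)
  have htt : (a * b) ^ m * (a * b) ^ m = 1 := by
    rw [← pow_add, ← two_mul, ← hm]; exact pow_orderOf_eq_one _
  have hti : ((a * b) ^ m)⁻¹ = (a * b) ^ m := inv_eq_of_mul_eq_one_left htt
  have hat : a * (a * b) ^ m = (a * b) ^ m * a := by rw [hap m, hti]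
  have hbt : b * (a * b) ^ m = (a * b) ^ m * b := by rw [hbp m, hti]
  refine ⟨a * (a * b) ^ m, ?_, ?_, ?_, ?_⟩
  · rcases Nat.even_or_odd' m with ⟨j, hj | hj⟩
    · left
      rw [isConj_iff]
      refine ⟨((a * b) ^ j)⁻¹, ?_⟩
      have h1 : (a * b) ^ m = (a * b) ^ j * (a * b) ^ j := by rw [hj, two_mul, pow_add]
      have e1 : ((a * b) ^ j)⁻¹ * a * (a * b) ^ j
          = ((a * b) ^ j)⁻¹ * (((a * b) ^ j)⁻¹ * a) := by rw [mul_assoc, hap j]
      have e2 : a * ((a * b) ^ j * (a * b) ^ j)
          = ((a * b) ^ j)⁻¹ * (((a * b) ^ j)⁻¹ * a) := by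
        rw [← mul_assoc, hap j, mul_assoc, hap j]
      rw [inv_inv, h1, e1, e2]
    · right
      rw [isConj_iff]
      refine ⟨((a * b) ^ j)⁻¹, ?_⟩
      have h1 : (a * b) ^ m = (a * b) ^ j * (a * b) ^ j * (a * b) := by
        rw [hj, pow_succ, two_mul, pow_add]
      rw [inv_inv, h1]
      calc ((a * b) ^ j)⁻¹ * b * (a * b) ^ j
          = ((a * b) ^ j)⁻¹ * (b * (a * b) ^ j) := by rw [mul_assoc]
        _ = ((a * b) ^ j)⁻¹ * (((a * b) ^ j)⁻¹ * b) := by rw [hbp j]
        _ = ((a * b) ^ j)⁻¹ * (((a * b) ^ j)⁻¹ * (a * (a * b))) := by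
            rw [← mul_assoc a a b, haa, one_mul]
        _ = ((a * b) ^ j)⁻¹ * ((((a * b) ^ j)⁻¹ * a) * (a * b)) := by rw [mul_assoc]
        _ = ((a * b) ^ j)⁻¹ * ((a * (a * b) ^ j) * (a * b)) := by rw [hap j]
        _ = (((a * b) ^ j)⁻¹ * a) * ((a * b) ^ j * (a * b)) := by simp only [mul_assoc]
        _ = (a * (a * b) ^ j) * ((a * b) ^ j * (a * b)) := by rw [hap j]
        _ = a * ((a * b) ^ j * (a * b) ^ j * (a * b)) := by simp only [mul_assoc]
  · intro h
    apply ht1
    have h2 : a * (a * b) ^ m = a * 1 := by rw [mul_one]; exact h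
    exact mul_left_cancel h2
  · rw [← mul_assoc, haa, one_mul, mul_assoc, ← hat, ← mul_assoc, haa, one_mul]
  · rw [← mul_assoc, haa, one_mul, hbt]

theorem comm_sq {G : Type*} [Group G] (a b : G) (hab : Commute a b) (haa : a * a = 1)
    (hbb : b * b = 1) : (a * b) * (a * b) = 1 := by
  calc a * b * (a * b) = a * (b * a) * b := by group
    _ = a * (a * b) * b := by rw [← hab.eq]
    _ = (a * a) * (b * b) := by group
    _ = 1 := by rw [haa, hbb, one_mul]

theorem comm_of_sq {G : Type*} [Group G] (x y : G) (hx : x * x = 1) (hy : y * y = 1)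
    (h : (x * y) ^ 2 = 1) : Commute x y := by
  have h3 : x * y * (x * y) = 1 := by rw [← pow_two]; exact h
  have h4 : x * y = (x * y)⁻¹ := eq_inv_of_mul_eq_one_left h3
  rw [mul_inv_rev, inv_eq_of_mul_eq_one_left hx, inv_eq_of_mul_eq_one_left hy] at h4
  exact h4

theorem result {G : Type*} [Group G] [Finite G] {D : Set G} (hinv : ∀ d ∈ D, orderOf d = 2) (hconj : ∀ g : G, ∀ d ∈ D, g * d * g⁻¹ ∈ D) : (∀ a ∈ D, ∀ b ∈ D, Odd (orderOf (a * b)) ∨ orderOf (a * b) = 2) ↔ ∀ a ∈ D, ∀ b ∈ D, b ≠ a → Commute a b → {y : G | y ∈ D ∧ Commute (a * b) y} = {y : G | y ∈ D ∧ Commute a y} ∩ {y : G | y ∈ D ∧ Commute b y} := by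
  constructor
  · intro hodd a ha b hb hba hab
    have haa := sq_one a (hinv a ha)
    have hbb := sq_one b (hinv b hb)
    ext y
    constructor
    · rintro ⟨hyD, hy⟩
      have hyy := sq_one y (hinv y hyD)
      have hay : Commute a y := by
        rcases hodd y hyD a ha with h | h
        · have htt : (a * b) * (a * b) = 1 := comm_sq a b hab haa hbb
          have ht1 : a * b ≠ 1 := by
            intro h1
            apply hba
            have : b = a⁻¹ := (inv_eq_of_mul_eq_one_right h1).symm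
            rw [this, inv_eq_of_mul_eq_one_left haa]
          have hpf : Fact (Nat.Prime 2) := ⟨Nat.prime_two⟩
          have hot : orderOf (a * b) = 2 := orderOf_eq_prime (by rw [pow_two]; exact htt) ht1
          have hc : Commute (y * a) (a * b) := by
            apply Commute.mul_left hy.symm
            show a * (a * b) = a * b * a
            rw [mul_assoc, ← hab.eq]
          have hco : (orderOf (y * a)).Coprime (orderOf (a * b)) := by
            rw [hot]; exact Nat.Coprime.symm (Nat.coprime_two_left.mpr h)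
          have ho := hc.orderOf_mul_eq_mul_orderOf_of_coprime hco
          have hyb : y * a * (a * b) = y * b := by
            rw [mul_assoc, ← mul_assoc a a b, haa, one_mul]
          rw [hyb, hot] at ho
          rcases hodd y hyD b hb with h' | h'
          · exfalso
            rw [ho] at h'
            exact (Nat.not_even_iff_odd.mpr h') (even_two.mul_left _)
          · rw [ho] at h'
            have h1 : orderOf (y * a) = 1 := by omega
            rw [orderOf_eq_one_iff] at h1
            have : y = a⁻¹ := eq_inv_of_mul_eq_one_left h1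
            rw [this, inv_eq_of_mul_eq_one_left haa]
        · exact (comm_of_sq y a hyy haa (by rw [← h]; exact pow_orderOf_eq_one _)).symm
      refine ⟨⟨hyD, hay⟩, hyD, ?_⟩
      have hb' : b = a * (a * b) := by rw [← mul_assoc, haa, one_mul]
      rw [hb']
      exact Commute.mul_left hay hy
    · rintro ⟨⟨hyD, hya⟩, -, hyb⟩
      exact ⟨hyD, Commute.mul_left hya hyb⟩
  · intro h a ha b hb
    have haa := sq_one a (hinv a ha)
    have hbb := sq_one b (hinv b hb)
    rcases Nat.even_or_odd' (orderOf (a * b)) with ⟨m, hm | hm⟩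
    · right
      have hpos : 0 < orderOf (a * b) := orderOf_pos (a * b)
      have hm0 : 0 < m := by omega
      obtain ⟨c, hc, hca, hcomm, hcb⟩ := dihedral_even a b haa hbb m hm0 hm
      have hcD : c ∈ D := by
        rcases hc with h1 | h1
        · rw [isConj_iff] at h1
          obtain ⟨g, rfl⟩ := h1
          exact hconj g a ha
        · rw [isConj_iff] at h1
          obtain ⟨g, rfl⟩ := h1
          exact hconj g b hb
      have hset := h a ha c hcD hca hcomm
      have hbmem : b ∈ {y : G | y ∈ D ∧ Commute (a * c) y} := ⟨hb, hcb⟩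
      rw [hset] at hbmem
      have hab : Commute a b := hbmem.1.2
      have h2 : (a * b) ^ 2 = 1 := by
        rw [pow_two]; exact comm_sq a b hab haa hbb
      have h3 : orderOf (a * b) ∣ 2 := orderOf_dvd_of_pow_eq_one h2
      have h4 := Nat.le_of_dvd (by norm_num) h3
      omega
    · left
      exact ⟨m, hm⟩

end Cfsg.Agent.S5363
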