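import Cfsg.Statements.S5364

set_option autoImplicit false
open Cfsg

namespace Cfsg.Agent.S5364

theorem sq_one {G : Type*} [Group G] (a : G) (ha : orderOf a = 2) : a * a = 1 := by
  have := pow_orderOf_eq_one a
  rw [ha, pow_two] at this; exact this

theorem result {G : Type*} [Group G] [Finite G] {D : Set G} (hinv : ∀ d ∈ D, orderOf d = 2) (hconj : ∀ g : G, ∀ d ∈ D, g * d * g⁻¹ ∈ D) (t : G) (ht : orderOf t = 2) (htZ : t ∈ Subgroup.center G) (hDt : ∀ d ∈ D, d * t ∉ D) [(Subgroup.zpowers t).Normal] (himg : Cfsg.IsThreeTranspositionSet ((QuotientGroup.mk : G → G ⧸ Subgroup.zpowers t) '' D)) : Cfsg.IsThreeTranspositionSet D := by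
  refine ⟨hinv, ?_⟩
  intro d hd e he
  have hdd := sq_one d (hinv d hd)
  have hee := sq_one e (hinv e he)
  have hdi : d⁻¹ = d := inv_eq_of_mul_eq_one_left hdd
  have hei : e⁻¹ = e := inv_eq_of_mul_eq_one_left hee
  have htc : ∀ g : G, g * t = t * g := fun g => Subgroup.mem_center_iff.mp htZ g
  have hz : ∀ x ∈ Subgroup.zpowers t, x = 1 ∨ x = t := by
    rintro x ⟨k, rfl⟩
    show t ^ k = 1 ∨ t ^ k = t
    rw [← zpow_mod_orderOf, ht]
    rcases Int.emod_two_eq_zero_or_one k with h | h
    · left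
      have h' : k % ((2 : ℕ) : ℤ) = 0 := h
      rw [h', zpow_zero]
    · right
      have h' : k % ((2 : ℕ) : ℤ) = 1 := h
      rw [h', zpow_one]
  have hq := himg.2 (QuotientGroup.mk d) ⟨d, hd, rfl⟩ (QuotientGroup.mk e) ⟨e, he, rfl⟩
  rcases hq with h | h
  · have h1 : (d * e) ^ 2 ∈ Subgroup.zpowers t := by
      rw [← QuotientGroup.eq_one_iff, QuotientGroup.mk_pow, QuotientGroup.mk_mul]; exact h
    rcases hz _ h1 with h2 | h2
    · left; exact h2
    · exfalso
      apply hDt e he
      have h3 : e * t = d * e * d⁻¹ := by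
        calc e * t = t * e := htc e
          _ = (d * e) * (d * e) * e := by rw [← h2, pow_two]
          _ = d * e * d * (e * e) := by group
          _ = d * e * d⁻¹ := by rw [hee, mul_one, hdi]
      rw [h3]; exact hconj d e he
  · have h1 : (d * e) ^ 3 ∈ Subgroup.zpowers t := by
      rw [← QuotientGroup.eq_one_iff, QuotientGroup.mk_pow, QuotientGroup.mk_mul]; exact h
    rcases hz _ h1 with h2 | h2
    · right; exact h2
    · exfalso
      apply hDt (e * d * e⁻¹) (hconj e d hd)
      have h3 : e * d * e⁻¹ * t = d * e * d⁻¹ := by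
        calc e * d * e⁻¹ * t = t * (e * d * e⁻¹) := htc _
          _ = (d * e) * (d * e) * (d * e) * (e * d * e⁻¹) := by
              rw [← h2, pow_succ, pow_two]
          _ = d * e * d * e * d * (e * e) * d * e⁻¹ := by simp only [mul_assoc]
          _ = d * e * d * e * (d * d) * e⁻¹ := by rw [hee, mul_one]; simp only [mul_assoc]
          _ = d * e * d * (e * e⁻¹) := by rw [hdd, mul_one]; simp only [mul_assoc]
          _ = d * e * d⁻¹ := by rw [mul_inv_cancel, mul_one, hdi]
      rw [h3]; exact hconj d e he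

end Cfsg.Agent.S5364
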