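import Cfsg.Statements.S5420

set_option autoImplicit false
open Cfsg

namespace Cfsg.Agent.S5420

theorem comm_of_comm_one {G : Type*} [Group G] (z k : G) (h : z * k * z⁻¹ * k⁻¹ = 1) :
    z * k = k * z := by
  calc z * k = (z * k * z⁻¹ * k⁻¹) * k * z := by group
    _ = k * z := by rw [h, one_mul]

theorem result {G : Type*} [Group G] [Finite G] (Q : Subgroup G) (hL1 : Cfsg.IsExtraspecial 2 ↥Q) (hL2 : Subgroup.centralizer (Q : Set G) = ((Subgroup.center ↥Q).map Q.subtype)) (hL3 : Subgroup.centralizer (((Subgroup.center ↥Q).map Q.subtype) : Set G) ≤ Subgroup.normalizer (Q : Set G)) (hZ : ((Subgroup.center ↥Q).map Q.subtype) ≤ Cfsg.pCore 2 G) : Cfsg.IsLargeExtraspecial Q := by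
  refine ⟨hL1, hL2, hL3, ?_⟩
  intro K hKodd hQK
  have hOnormal : (Cfsg.pCore 2 G).Normal := Subgroup.sSup_normal _ (fun H hH => hH.1)
  have hOp : IsPGroup 2 (Cfsg.pCore 2 G) := by
    have : Fact (Nat.Prime 2) := ⟨Nat.prime_two⟩
    obtain ⟨P⟩ := (inferInstance : Nonempty (Sylow 2 G))
    have hle : Cfsg.pCore 2 G ≤ P := sSup_le (fun N hN => by
      have := hN.1
      exact hN.2.le_sylow_of_normal P)
    exact P.isPGroup'.to_le hle
  have hK2 : ∀ k ∈ K, (∃ n : ℕ, orderOf k = 2 ^ n) → k = 1 := by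
    rintro k hk ⟨n, hn⟩
    have hdvd : orderOf k ∣ Nat.card K := by
      have := orderOf_dvd_natCard (⟨k, hk⟩ : K)
      rwa [Subgroup.orderOf_mk] at this
    rw [hn] at hdvd
    have hn0 : n = 0 := by
      by_contra h
      have h2 : 2 ∣ Nat.card K := dvd_trans (dvd_pow_self 2 h) hdvd
      exact (Nat.not_even_iff_odd.mpr hKodd) (even_iff_two_dvd.mpr h2)
    rw [hn0, pow_zero, orderOf_eq_one_iff] at hn
    exact hn
  have hpg : ∀ (H : Subgroup G), IsPGroup 2 H → ∀ g ∈ H, ∃ n : ℕ, orderOf g = 2 ^ n := by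
    intro H hH g hg
    obtain ⟨n, hn⟩ := hH ⟨g, hg⟩
    have h1 : g ^ 2 ^ n = 1 := by
      have := congrArg Subtype.val hn
      simpa using this
    obtain ⟨m, -, hm⟩ := (Nat.dvd_prime_pow Nat.prime_two).mp (orderOf_dvd_of_pow_eq_one h1)
    exact ⟨m, hm⟩
  have hKZ : K ≤ Subgroup.centralizer (((Subgroup.center ↥Q).map Q.subtype : Subgroup G) : Set G) := by
    intro k hk
    rw [Subgroup.mem_centralizer_iff]
    intro z hz
    have hzQ : z ∈ Q := Subgroup.map_subtype_le _ hz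
    have hzN : z ∈ Subgroup.normalizer (K : Set G) := hQK hzQ
    have hzO : z ∈ Cfsg.pCore 2 G := hZ hz
    have hc : z * k * z⁻¹ * k⁻¹ = 1 := by
      apply hK2
      · exact K.mul_mem ((Subgroup.mem_normalizer_iff.mp hzN k).mp hk) (K.inv_mem hk)
      · apply hpg _ hOp
        have : z * k * z⁻¹ * k⁻¹ = z * (k * z⁻¹ * k⁻¹) := by group
        rw [this]
        exact (Cfsg.pCore 2 G).mul_mem hzO (hOnormal.conj_mem _ ((Cfsg.pCore 2 G).inv_mem hzO) k)
    exact comm_of_comm_one z k hc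
  have hKN : K ≤ Subgroup.normalizer (Q : Set G) := hKZ.trans hL3
  have hQ2 : IsPGroup 2 Q := hL1.1.1
  have hKQ : K ≤ Subgroup.centralizer (Q : Set G) := by
    intro k hk
    rw [Subgroup.mem_centralizer_iff]
    intro q hq
    have hqN : q ∈ Subgroup.normalizer (K : Set G) := hQK hq
    have hkN : k ∈ Subgroup.normalizer (Q : Set G) := hKN hk
    have hc : q * k * q⁻¹ * k⁻¹ = 1 := by
      apply hK2
      · exact K.mul_mem ((Subgroup.mem_normalizer_iff.mp hqN k).mp hk) (K.inv_mem hk)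
      · apply hpg _ hQ2
        have : q * k * q⁻¹ * k⁻¹ = q * (k * q⁻¹ * k⁻¹) := by group
        rw [this]
        exact Q.mul_mem hq ((Subgroup.mem_normalizer_iff.mp hkN q⁻¹).mp (Q.inv_mem hq))
    exact comm_of_comm_one q k hc
  rw [hL2] at hKQ
  rw [eq_bot_iff]
  intro k hk
  have hkQ : k ∈ Q := Subgroup.map_subtype_le _ (hKQ hk)
  rw [Subgroup.mem_bot]
  exact hK2 k hk (hpg _ hQ2 k hkQ)

end Cfsg.Agent.S5420
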