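import Cfsg.Statements.S5433

set_option autoImplicit false
open Cfsg

namespace Cfsg.Agent.S5433

theorem result {G : Type*} [Group G] [Finite G] (Q : Subgroup G) (hQ : Cfsg.IsLargeExtraspecial Q) (L : Subgroup G) [L.Normal] (hQL : Q ≤ L) : L ⊔ Subgroup.normalizer (Q : Set G) = ⊤ := by
  obtain ⟨hL1, hL2, hL3, -⟩ := hQ
  have hp2 : Fact (Nat.Prime 2) := ⟨Nat.prime_two⟩
  have hQ2 : IsPGroup 2 Q := hL1.1.1
  have hQ2' : IsPGroup 2 (Q.subgroupOf L) := hQ2.of_equiv (Subgroup.subgroupOfEquivOfLe hQL).symm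
  obtain ⟨P, hP⟩ := hQ2'.exists_le_sylow
  obtain ⟨T, hT⟩ : ∃ T : Subgroup G, T = (P : Subgroup L).map L.subtype := ⟨_, rfl⟩
  have hQT : Q ≤ T := by
    intro q hq
    rw [hT]
    exact ⟨⟨q, hQL hq⟩, hP (Subgroup.mem_subgroupOf.mpr hq), rfl⟩
  have hT2 : IsPGroup 2 T := by rw [hT]; exact P.isPGroup'.map L.subtype
  have hfrat := Sylow.normalizer_sup_eq_top P
  rw [← hT] at hfrat
  obtain ⟨Z, hZ⟩ : ∃ Z : Subgroup G, Z = (Subgroup.center Q).map Q.subtype := ⟨_, rfl⟩
  rw [← hZ] at hL2 hL3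
  have hZcard : Nat.card Z = 2 := by rw [hZ, Subgroup.card_subtype]; exact hL1.2
  have hZQ : Z ≤ Q := by rw [hZ]; exact Subgroup.map_subtype_le _
  have hTnt : Nontrivial T := by
    have hZnt : Nontrivial Z := Finite.one_lt_card_iff_nontrivial.mp (by rw [hZcard]; norm_num)
    obtain ⟨a, b, hab⟩ := hZnt
    exact ⟨⟨a.1, hQT (hZQ a.2)⟩, ⟨b.1, hQT (hZQ b.2)⟩,
      fun h => hab (Subtype.ext (congrArg (fun t : T => (t : G)) h))⟩
  have hcnt : Nontrivial (Subgroup.center T) := hT2.center_nontrivial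
  obtain ⟨c, hc⟩ := exists_ne (1 : Subgroup.center T)
  have hcT : ((c : T) : G) ∈ T := (c : T).2
  have hc1 : ((c : T) : G) ≠ 1 := by
    intro h; apply hc; exact Subtype.ext (Subtype.ext h)
  have hccomm : ∀ t ∈ T, t * ((c : T) : G) = ((c : T) : G) * t := by
    intro t ht
    have := Subgroup.mem_center_iff.mp c.2 ⟨t, ht⟩
    exact congrArg Subtype.val this
  have hcZ : ((c : T) : G) ∈ Z := by
    rw [← hL2, Subgroup.mem_centralizer_iff]
    intro q hq
    exact hccomm q (hQT hq)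
  obtain ⟨y, -, hy⟩ := (Nat.card_eq_two_iff' (1 : Z)).mp hZcard
  have hZelt : ∀ z ∈ Z, z ≠ 1 → z = ((c : T) : G) := by
    intro z hz hz1
    have e1 : (⟨z, hz⟩ : Z) = y := hy _ (by intro h; exact hz1 (congrArg Subtype.val h))
    have e2 : (⟨_, hcZ⟩ : Z) = y := hy _ (by intro h; exact hc1 (congrArg Subtype.val h))
    exact congrArg Subtype.val (e1.trans e2.symm)
  have hNT : Subgroup.normalizer (T : Set G) ≤ Subgroup.normalizer (Q : Set G) := by
    intro g hg
    apply hL3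
    rw [Subgroup.mem_centralizer_iff]
    have hgc : g * ((c : T) : G) * g⁻¹ = ((c : T) : G) := by
      have h2 : g * ((c : T) : G) * g⁻¹ ∈ Z := by
        rw [← hL2, Subgroup.mem_centralizer_iff]
        intro q hq
        have h3 : g⁻¹ * q * g ∈ T := by
          have := (Subgroup.mem_normalizer_iff.mp (Subgroup.inv_mem _ hg) q).mp (hQT hq)
          simpa using this
        have h4 := hccomm _ h3
        calc q * (g * ((c : T) : G) * g⁻¹) = g * ((g⁻¹ * q * g) * ((c : T) : G)) * g⁻¹ := by group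
          _ = g * (((c : T) : G) * (g⁻¹ * q * g)) * g⁻¹ := by rw [h4]
          _ = g * ((c : T) : G) * g⁻¹ * q := by group
      apply hZelt _ h2
      intro h
      apply hc1
      calc ((c : T) : G) = g⁻¹ * (g * ((c : T) : G) * g⁻¹) * g := by group
        _ = 1 := by rw [h]; group
    intro z hz
    by_cases hz1 : z = 1
    · subst hz1; simp
    · rw [hZelt z hz hz1]
      calc ((c : T) : G) * g = (g * ((c : T) : G) * g⁻¹) * g := by rw [hgc]
        _ = g * ((c : T) : G) := by group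
  rw [eq_top_iff, ← hfrat]
  exact sup_le (hNT.trans le_sup_right) le_sup_left

end Cfsg.Agent.S5433
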