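import Mathlib
import Cfsg.Statements.S5434
import Cfsg.Agent.S0012
import Cfsg.Agent.S0026
import Cfsg.Agent.S0027
import Cfsg.Agent.S0055
import Cfsg.Agent.Lib.Helper1.Crit

set_option autoImplicit false
open Pointwise
open Cfsg
open scoped commutatorElement

namespace Cfsg.Agent.S5434

variable {G : Type*} [Group G]

theorem extraspecial_sub [Finite G] (Q R : Subgroup G) (z : G) (hz1 : z ≠ 1) (hzz : z * z = 1)
    (hzc : ∀ q ∈ Q, q * z = z * q)
    (hc : ∀ x ∈ Q, ∀ y ∈ Q, ⁅x, y⁆ = 1 ∨ ⁅x, y⁆ = z)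
    (hd : ∀ x ∈ Q, x * x = 1 ∨ x * x = z)
    (hQ2 : IsPGroup 2 ↥Q) (hRQ : R ≤ Q) (hzR : z ∈ R)
    (hcenR : ∀ x ∈ R, (∀ y ∈ R, x * y = y * x) → x = 1 ∨ x = z)
    (hnonab : ∃ x ∈ R, ∃ y ∈ R, x * y ≠ y * x) : Cfsg.IsExtraspecial 2 ↥R := by
  haveI : Fact (Nat.Prime 2) := ⟨Nat.prime_two⟩
  have hR2 : IsPGroup 2 ↥R := hQ2.to_le hRQ
  have hcenter : ∀ w : ↥R, w ∈ Subgroup.center ↥R ↔ w = 1 ∨ w = ⟨z, hzR⟩ := by
    intro w
    constructor
    · intro hw
      rcases hcenR w.1 w.2 (fun y hy => by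
        have := Subgroup.mem_center_iff.1 hw ⟨y, hy⟩
        exact (congrArg Subtype.val this).symm) with h | h
      · left; exact Subtype.ext h
      · right; exact Subtype.ext h
    · rintro (rfl | rfl)
      · exact Subgroup.one_mem _
      · rw [Subgroup.mem_center_iff]
        intro g
        apply Subtype.ext
        exact hzc g.1 (hRQ g.2)
  have hcomm : ∀ x y : ↥R, ⁅x, y⁆ ∈ Subgroup.center ↥R := by
    intro x y
    rw [hcenter]
    rcases hc x.1 (hRQ x.2) y.1 (hRQ y.2) with h | h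
    · left; exact Subtype.ext h
    · right; exact Subtype.ext h
  have hcomeq : commutator ↥R = Subgroup.center ↥R := by
    apply le_antisymm
    · rw [commutator_def, Subgroup.commutator_le]
      intro x _ y _
      exact hcomm x y
    · intro w hw
      rcases (hcenter w).1 hw with rfl | rfl
      · exact Subgroup.one_mem _
      · obtain ⟨x, hx, y, hy, hxy⟩ := hnonab
        have h1 : ⁅x, y⁆ = z := by
          rcases hc x (hRQ hx) y (hRQ hy) with h | h
          · exact absurd (commutatorElement_eq_one_iff_mul_comm.1 h) hxy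
          · exact h
        have h2 : (⟨z, hzR⟩ : ↥R) = ⁅(⟨x, hx⟩ : ↥R), ⟨y, hy⟩⁆ := Subtype.ext h1.symm
        rw [h2, commutator_def]
        exact Subgroup.commutator_mem_commutator (Subgroup.mem_top _) (Subgroup.mem_top _)
  have hfrat : frattini ↥R = Subgroup.center ↥R := by
    apply le_antisymm
    · apply Cfsg.Agent.Lib.Helper1.Crit.frattini_le_of_elementary _ 2 Nat.prime_two
      · intro x y
        exact hcomm x y
      · intro x
        rw [hcenter]
        rcases hd x.1 (hRQ x.2) with h | h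
        · left; apply Subtype.ext; rw [pow_two]; exact h
        · right; apply Subtype.ext; rw [pow_two]; exact h
    · rw [← hcomeq]
      exact (Cfsg.Agent.S0012.result 2 hR2).1
  refine ⟨⟨hR2, hfrat, hcomeq⟩, ?_⟩
  rw [Nat.card_eq_two_iff' (1 : Subgroup.center ↥R)]
  refine ⟨⟨⟨z, hzR⟩, (hcenter _).2 (Or.inr rfl)⟩, ?_, ?_⟩
  · intro h
    exact hz1 (congrArg (fun t : Subgroup.center ↥R => t.1.1) h)
  · intro w hw
    rcases (hcenter w.1).1 w.2 with h | h
    · exact absurd (Subtype.ext h) hw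
    · exact Subtype.ext h

theorem comm_conj (x q a : G) (h2 : x * a = a * x) (h3 : ⁅x, q⁆ * a = a * ⁅x, q⁆)
    (h4 : ⁅x, q⁆ * ⁅q, a⁆ = ⁅q, a⁆ * ⁅x, q⁆) : x * ⁅q, a⁆ = ⁅q, a⁆ * x := by
  have h1 : x * q * x⁻¹ = ⁅x, q⁆ * q := by simp only [commutatorElement_def]; group
  have e1 : x * ⁅q, a⁆ * x⁻¹ = (x * q * x⁻¹) * (x * a * x⁻¹) * (x * q * x⁻¹)⁻¹ * (x * a * x⁻¹)⁻¹ := by
    simp only [commutatorElement_def]; group
  have e2 : x * a * x⁻¹ = a := by rw [h2]; group
  rw [e2, h1] at e1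
  generalize ⁅x, q⁆ = κ at h3 h4 e1
  have e3 : κ * q * a * (κ * q)⁻¹ * a⁻¹ = κ * ⁅q, a⁆ * (a * κ⁻¹ * a⁻¹) := by
    simp only [commutatorElement_def]; group
  have e4 : a * κ⁻¹ * a⁻¹ = κ⁻¹ := by
    calc a * κ⁻¹ * a⁻¹ = κ⁻¹ * (κ * a) * κ⁻¹ * a⁻¹ := by group
      _ = κ⁻¹ * (a * κ) * κ⁻¹ * a⁻¹ := by rw [h3]
      _ = κ⁻¹ := by group
  rw [e3, e4, h4] at e1
  calc x * ⁅q, a⁆ = (x * ⁅q, a⁆ * x⁻¹) * x := by group
    _ = (⁅q, a⁆ * κ * κ⁻¹) * x := by rw [e1]
    _ = ⁅q, a⁆ * x := by group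

/-- Let Q be a large extraspecial 2-subgroup of the finite group G (extraspecial; centralizer equal to its centre; normal in the centralizer of its centre; normalizing no non-trivial subgroup of odd order), and A a non-trivial subgroup of odd order of the normalizer of Q. Then Q is the central product of the centralizer of A in Q and the commutator subgroup [Q, A] (they generate Q and commute elementwise), [Q, A] is extraspecial, and the centralizer of A in Q is either the centre of Q or extraspecial. -/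
theorem result {G : Type*} [Group G] [Finite G] (Q : Subgroup G) (hQ : Cfsg.IsLargeExtraspecial Q) (A : Subgroup G) (hA : A ≤ Subgroup.normalizer (Q : Set G)) (hAodd : Odd (Nat.card ↥A)) (hA1 : A ≠ ⊥) : (Q ⊓ Subgroup.centralizer (A : Set G)) ⊔ ⁅Q, A⁆ = Q ∧ (∀ x ∈ Q ⊓ Subgroup.centralizer (A : Set G), ∀ y ∈ ⁅Q, A⁆, x * y = y * x) ∧ Cfsg.IsExtraspecial 2 ↥⁅Q, A⁆ ∧ (Q ⊓ Subgroup.centralizer (A : Set G) = ((Subgroup.center ↥Q).map Q.subtype) ∨ Cfsg.IsExtraspecial 2 ↥(Q ⊓ Subgroup.centralizer (A : Set G))) := by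
  classical
  haveI : Fact (Nat.Prime 2) := ⟨Nat.prime_two⟩
  obtain ⟨hex, hL2, hL3, hodd⟩ := hQ
  have hQ2 : IsPGroup 2 ↥Q := hex.1.1
  obtain ⟨zc, hzc1, hzcu⟩ := (Nat.card_eq_two_iff' (1 : Subgroup.center ↥Q)).1 hex.2
  set z : G := zc.1.1 with hzdef
  have hzQ : z ∈ Q := zc.1.2
  have hz1 : z ≠ 1 := by
    intro h
    apply hzc1
    apply Subtype.ext
    apply Subtype.ext
    exact h
  have hzcen : ∀ g ∈ Q, g * z = z * g := by
    intro g hg
    have := Subgroup.mem_center_iff.1 zc.2 ⟨g, hg⟩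
    exact congrArg Subtype.val this
  have hcenQ' : ∀ w : ↥Q, w ∈ Subgroup.center ↥Q → w.1 = 1 ∨ w.1 = z := by
    intro w hw
    by_cases hw1 : w = 1
    · left; rw [hw1]; rfl
    · right
      have := hzcu ⟨w, hw⟩ (by intro h; exact hw1 (congrArg Subtype.val h))
      exact congrArg (fun t : Subgroup.center ↥Q => t.1.1) this
  have hzz : z * z = 1 := by
    have h1 := pow_card_eq_one' (G := Subgroup.center ↥Q) (x := zc)
    rw [hex.2] at h1
    have h2 := congrArg (fun t : Subgroup.center ↥Q => t.1.1) h1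
    rw [← pow_two]
    exact h2
  have hc : ∀ x ∈ Q, ∀ y ∈ Q, ⁅x, y⁆ = 1 ∨ ⁅x, y⁆ = z := by
    intro x hx y hy
    have h1 : ⁅(⟨x, hx⟩ : ↥Q), ⟨y, hy⟩⁆ ∈ commutator ↥Q := by
      rw [commutator_def]
      exact Subgroup.commutator_mem_commutator (Subgroup.mem_top _) (Subgroup.mem_top _)
    rw [hex.1.2.2] at h1
    exact hcenQ' _ h1
  have hd : ∀ x ∈ Q, x * x = 1 ∨ x * x = z := by
    intro x hx
    have h1 := (Cfsg.Agent.S0012.result 2 hex.1.1).2 (⟨x, hx⟩ : ↥Q)
    rw [hex.1.2.1] at h1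
    have h2 := hcenQ' _ h1
    rw [← pow_two]
    exact h2
  have hb : ∀ x ∈ Q, (∀ y ∈ Q, x * y = y * x) → x = 1 ∨ x = z := by
    intro x hx hcomm
    have h1 : (⟨x, hx⟩ : ↥Q) ∈ Subgroup.center ↥Q := by
      rw [Subgroup.mem_center_iff]
      intro g
      apply Subtype.ext
      exact (hcomm g.1 g.2).symm
    exact hcenQ' _ h1
  have hcop : (Nat.card A).Coprime (Nat.card Q) := by
    obtain ⟨k, hk⟩ := hQ2.exists_card_eq
    rw [hk]
    exact Nat.Coprime.pow_right k (Nat.coprime_two_right.2 hAodd)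
  haveI : Group.IsNilpotent ↥Q := hQ2.isNilpotent
  have hsol : Group.IsSolvable ↥A ∨ Group.IsSolvable ↥Q := Or.inr inferInstance
  have h26 := Cfsg.Agent.S0026.result A Q hA hcop hsol
  have h27 := Cfsg.Agent.S0027.result A Q hA hcop hsol
  have hQ₁Q : ⁅Q, A⁆ ≤ Q := by
    have h1 : ⁅Q, A⁆ ≤ ⁅Q, A⁆ ⊔ (Q ⊓ Subgroup.centralizer (A : Set G)) := le_sup_left
    rw [h26] at h1
    exact h1
  have hG1 : (Q ⊓ Subgroup.centralizer (A : Set G)) ⊔ ⁅Q, A⁆ = Q := by
    rw [sup_comm]; exact h26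
  have hAz : ∀ a ∈ A, a * z = z * a := by
    intro a ha
    have hn := Subgroup.mem_normalizer_iff.1 (hA ha)
    have h1 : a * z * a⁻¹ ∈ Q := (hn z).1 hzQ
    have h2 : ∀ y ∈ Q, (a * z * a⁻¹) * y = y * (a * z * a⁻¹) := by
      intro y hy
      have hy' : a⁻¹ * y * a ∈ Q := by
        apply (hn (a⁻¹ * y * a)).2
        have e : a * (a⁻¹ * y * a) * a⁻¹ = y := by group
        rw [e]; exact hy
      have h3 := hzcen _ hy'
      calc (a * z * a⁻¹) * y = a * (z * (a⁻¹ * y * a)) * a⁻¹ := by group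
        _ = a * ((a⁻¹ * y * a) * z) * a⁻¹ := by rw [h3]
        _ = y * (a * z * a⁻¹) := by group
    rcases hb _ h1 h2 with h | h
    · exfalso
      apply hz1
      have e : z = a⁻¹ * (a * z * a⁻¹) * a := by group
      rw [e, h]; group
    · calc a * z = (a * z * a⁻¹) * a := by group
        _ = z * a := by rw [h]
  have hzQ₂ : z ∈ Q ⊓ Subgroup.centralizer (A : Set G) := by
    refine Subgroup.mem_inf.2 ⟨hzQ, ?_⟩
    rw [Subgroup.mem_centralizer_iff]
    intro a ha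
    exact hAz a ha
  have hgen : ∀ q ∈ Q, ∀ a ∈ A, ⁅q, a⁆ ∈ ⁅Q, A⁆ :=
    fun q hq a ha => Subgroup.commutator_mem_commutator hq ha
  have hG2 : ∀ x ∈ Q ⊓ Subgroup.centralizer (A : Set G), ∀ y ∈ ⁅Q, A⁆, x * y = y * x := by
    intro x hx
    obtain ⟨hxQ, hxA⟩ := Subgroup.mem_inf.1 hx
    rw [Subgroup.mem_centralizer_iff] at hxA
    have hle : ⁅Q, A⁆ ≤ Subgroup.centralizer ({x} : Set G) := by
      rw [Subgroup.commutator_le]
      intro q hq a ha
      rw [Subgroup.mem_centralizer_iff]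
      intro w hw
      rw [Set.mem_singleton_iff] at hw
      rw [hw]
      have hcQ : ⁅q, a⁆ ∈ Q := hQ₁Q (hgen q hq a ha)
      apply comm_conj x q a (hxA a ha).symm
      · rcases hc x hxQ q hq with h | h
        · rw [h]; simp
        · rw [h]; exact (hAz a ha).symm
      · rcases hc x hxQ q hq with h | h
        · rw [h]; simp
        · rw [h]; exact (hzcen _ hcQ).symm
    intro y hy
    exact Subgroup.mem_centralizer_iff.1 (hle hy) x rfl
  have hQ₁ne : ∃ q ∈ Q, ∃ a ∈ A, ⁅q, a⁆ ≠ 1 := by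
    by_contra hcon
    push_neg at hcon
    have hAC : A ≤ Subgroup.centralizer (Q : Set G) := by
      intro a ha
      rw [Subgroup.mem_centralizer_iff]
      intro q hq
      exact commutatorElement_eq_one_iff_mul_comm.1 (hcon q hq a ha)
    rw [hL2] at hAC
    have hAQ : A ≤ Q := by
      intro a ha
      obtain ⟨y, _, rfl⟩ := hAC ha
      exact y.2
    have hdvd := Subgroup.card_dvd_of_le hAQ
    obtain ⟨k, hk⟩ := hQ2.exists_card_eq
    rw [hk] at hdvd
    obtain ⟨j, _, hj⟩ := (Nat.dvd_prime_pow Nat.prime_two).1 hdvd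
    have hj0 : j = 0 := by
      by_contra hj0
      have hev : Even (Nat.card A) := by rw [hj]; exact (Nat.even_pow.2 ⟨even_two, hj0⟩)
      exact (Nat.not_even_iff_odd.2 hAodd) hev
    rw [hj0, pow_zero] at hj
    exact hA1 (Subgroup.card_eq_one.1 hj)
  have hzQ₁ : z ∈ ⁅Q, A⁆ := by
    obtain ⟨q, hq, a, ha, hne⟩ := hQ₁ne
    have hcQ : ⁅q, a⁆ ∈ Q := hQ₁Q (hgen q hq a ha)
    by_cases hcz : ∀ y ∈ Q, ⁅q, a⁆ * y = y * ⁅q, a⁆
    · rcases hb _ hcQ hcz with h | h
      · exact absurd h hne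
      · rw [← h]; exact hgen q hq a ha
    · push_neg at hcz
      obtain ⟨q', hq', hne'⟩ := hcz
      have h1 : ⁅q', ⁅q, a⁆⁆ = z := by
        rcases hc q' hq' _ hcQ with h | h
        · exact absurd (commutatorElement_eq_one_iff_mul_comm.1 h).symm hne'
        · exact h
      have h2 : ⁅q', ⁅q, a⁆⁆ = ⁅q' * q, a⁆ * (⁅q', a⁆)⁻¹ * (⁅q, a⁆)⁻¹ := by
        simp only [commutatorElement_def]; group
      rw [← h1, h2]
      exact Subgroup.mul_mem _ (Subgroup.mul_mem _ (hgen _ (Q.mul_mem hq' hq) a ha)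
        (Subgroup.inv_mem _ (hgen q' hq' a ha))) (Subgroup.inv_mem _ (hgen q hq a ha))
  have hcentral : ∀ x : G, (∀ y ∈ Q ⊓ Subgroup.centralizer (A : Set G), x * y = y * x) →
      (∀ y ∈ ⁅Q, A⁆, x * y = y * x) → ∀ y ∈ Q, x * y = y * x := by
    intro x h1 h2 y hy
    have hle : (Q ⊓ Subgroup.centralizer (A : Set G)) ⊔ ⁅Q, A⁆ ≤
        Subgroup.centralizer ({x} : Set G) := by
      apply sup_le
      · intro w hw
        rw [Subgroup.mem_centralizer_iff]
        intro v hv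
        rw [Set.mem_singleton_iff] at hv
        rw [hv]; exact h1 w hw
      · intro w hw
        rw [Subgroup.mem_centralizer_iff]
        intro v hv
        rw [Set.mem_singleton_iff] at hv
        rw [hv]; exact h2 w hw
    rw [hG1] at hle
    exact Subgroup.mem_centralizer_iff.1 (hle hy) x rfl
  have hconjmem : ∀ a ∈ A, ∀ y ∈ ⁅Q, A⁆, a * y * a⁻¹ ∈ ⁅Q, A⁆ := by
    intro a ha y hy
    rw [Subgroup.commutator_def] at hy
    induction hy using Subgroup.closure_induction with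
    | mem x hx =>
      obtain ⟨q, hq, b, hb', rfl⟩ := hx
      have e : a * ⁅q, b⁆ * a⁻¹ = ⁅a * q * a⁻¹, a * b * a⁻¹⁆ := by
        simp only [commutatorElement_def]; group
      rw [e]
      exact Subgroup.commutator_mem_commutator ((Subgroup.mem_normalizer_iff.1 (hA ha) q).1 hq)
        (A.mul_mem (A.mul_mem ha hb') (A.inv_mem ha))
    | one => simp
    | mul x y _ _ ihx ihy =>
      have e : a * (x * y) * a⁻¹ = (a * x * a⁻¹) * (a * y * a⁻¹) := by group
      rw [e]; exact Subgroup.mul_mem _ ihx ihy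
    | inv x _ ih =>
      have e : a * x⁻¹ * a⁻¹ = (a * x * a⁻¹)⁻¹ := by group
      rw [e]; exact Subgroup.inv_mem _ ih
  have hAn : A ≤ Subgroup.normalizer ((⁅Q, A⁆ : Subgroup G) : Set G) := by
    intro a ha
    rw [Subgroup.mem_normalizer_iff]
    intro h
    constructor
    · exact hconjmem a ha h
    · intro hh
      have h1 := hconjmem a⁻¹ (A.inv_mem ha) _ hh
      have e : a⁻¹ * (a * h * a⁻¹) * a⁻¹⁻¹ = h := by group
      rw [e] at h1
      exact h1
  have hG3 : Cfsg.IsExtraspecial 2 ↥⁅Q, A⁆ := by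
    apply extraspecial_sub Q ⁅Q, A⁆ z hz1 hzz hzcen hc hd hQ2 hQ₁Q hzQ₁
    · intro x hx hxc
      apply hb x (hQ₁Q hx)
      exact hcentral x (fun y hy => (hG2 y hy x hx).symm) hxc
    · by_contra hcon
      push_neg at hcon
      haveI : IsMulCommutative ↥⁅Q, A⁆ := ⟨⟨fun a b => Subtype.ext (hcon a.1 a.2 b.1 b.2)⟩⟩
      have hcop' : (Nat.card A).Coprime (Nat.card ↥⁅Q, A⁆) :=
        Nat.Coprime.coprime_dvd_right (Subgroup.card_dvd_of_le hQ₁Q) hcop
      have h55 := (Cfsg.Agent.S0055.result A ⁅Q, A⁆ hAn hcop').1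
      rw [h27] at h55
      have hz' : z ∈ (⁅Q, A⁆ ⊓ Subgroup.centralizer (A : Set G)) ⊓ ⁅Q, A⁆ :=
        Subgroup.mem_inf.2 ⟨Subgroup.mem_inf.2 ⟨hzQ₁, (Subgroup.mem_inf.1 hzQ₂).2⟩, hzQ₁⟩
      rw [h55] at hz'
      exact hz1 (Subgroup.mem_bot.1 hz')
  have hG4 : Q ⊓ Subgroup.centralizer (A : Set G) = ((Subgroup.center ↥Q).map Q.subtype) ∨
      Cfsg.IsExtraspecial 2 ↥(Q ⊓ Subgroup.centralizer (A : Set G)) := by
    by_cases hab : ∀ x ∈ Q ⊓ Subgroup.centralizer (A : Set G),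
        ∀ y ∈ Q ⊓ Subgroup.centralizer (A : Set G), x * y = y * x
    · left
      apply le_antisymm
      · intro x hx
        have hxQ := (Subgroup.mem_inf.1 hx).1
        have hcen : ∀ y ∈ Q, x * y = y * x := hcentral x (hab x hx) (hG2 x hx)
        refine ⟨⟨x, hxQ⟩, ?_, rfl⟩
        rw [SetLike.mem_coe, Subgroup.mem_center_iff]
        intro g
        apply Subtype.ext
        exact (hcen g.1 g.2).symm
      · rintro _ ⟨w, hw, rfl⟩
        rcases hcenQ' w hw with h | h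
        · rw [show (Q.subtype w : G) = 1 from h]; exact Subgroup.one_mem _
        · rw [show (Q.subtype w : G) = z from h]; exact hzQ₂
    · right
      push_neg at hab
      apply extraspecial_sub Q _ z hz1 hzz hzcen hc hd hQ2 inf_le_left hzQ₂
      · intro x hx hxc
        apply hb x (Subgroup.mem_inf.1 hx).1
        exact hcentral x hxc (hG2 x hx)
      · exact hab
  exact ⟨hG1, hG2, hG3, hG4⟩

end Cfsg.Agent.S5434
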