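import Cfsg.Statements.S5437

set_option autoImplicit false
open Cfsg

namespace Cfsg.Agent.S5437

theorem fix_iff {G : Type*} [Group G] (H : Subgroup G) (x k : G) :
    x • (QuotientGroup.mk k : G ⧸ H) = QuotientGroup.mk k ↔ k⁻¹ * x * k ∈ H := by
  rw [MulAction.Quotient.smul_mk, QuotientGroup.eq, smul_eq_mul]
  have h : (x * k)⁻¹ * k = (k⁻¹ * x * k)⁻¹ := by group
  rw [h, inv_mem_iff]

theorem mem_conj_iff {G : Type*} [Group G] (H : Subgroup G) (g x : G) :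
    x ∈ H.map (MulAut.conj g).toMonoidHom ↔ g⁻¹ * x * g ∈ H := by
  constructor
  · rintro ⟨y, hy, rfl⟩
    simp only [MulEquiv.coe_toMonoidHom, MulAut.conj_apply]
    have h : g⁻¹ * (g * y * g⁻¹) * g = y := by group
    rw [h]; exact hy
  · intro h
    refine ⟨g⁻¹ * x * g, h, ?_⟩
    simp only [MulEquiv.coe_toMonoidHom, MulAut.conj_apply]
    group

theorem result {G : Type*} [Group G] [Finite G] (I : Set G) (hI : ∀ x ∈ I, orderOf x = 2) (hIc : ∀ g : G, ∀ x ∈ I, g * x * g⁻¹ ∈ I) (H : Subgroup G) : ((∀ x ∈ I, x ∈ H → (∀ g : G, g * x * g⁻¹ ∈ H → ∃ h ∈ H, h * x * h⁻¹ = g * x * g⁻¹) ∧ Subgroup.centralizer ({x} : Set G) ≤ H) ↔ (∀ g : G, g ∉ H → ∀ x ∈ I, ¬ (x ∈ H ∧ x ∈ (H : Subgroup G).map (MulAut.conj g).toMonoidHom))) ∧ ((∀ g : G, g ∉ H → ∀ x ∈ I, ¬ (x ∈ H ∧ x ∈ (H : Subgroup G).map (MulAut.conj g).toMonoidHom)) ↔ ∀ x ∈ I, x ∈ H → ∃! c : G ⧸ H, x • c = c) := by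
  refine ⟨⟨?_, ?_⟩, ⟨?_, ?_⟩⟩
  · rintro h1 g hg x hxI ⟨hxH, hxg⟩
    rw [mem_conj_iff] at hxg
    have hyI : g⁻¹ * x * g ∈ I := by
      have := hIc g⁻¹ x hxI
      rwa [inv_inv] at this
    obtain ⟨hfus, hcen⟩ := h1 _ hyI hxg
    have hgy : g * (g⁻¹ * x * g) * g⁻¹ = x := by group
    obtain ⟨h, hh, hhy⟩ := hfus g (by rw [hgy]; exact hxH)
    have hc : h⁻¹ * g ∈ Subgroup.centralizer ({g⁻¹ * x * g} : Set G) := by
      rw [Subgroup.mem_centralizer_iff]
      intro m hm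
      rw [Set.mem_singleton_iff] at hm
      rw [hm]
      calc g⁻¹ * x * g * (h⁻¹ * g) = h⁻¹ * (h * (g⁻¹ * x * g) * h⁻¹) * g := by group
        _ = h⁻¹ * (g * (g⁻¹ * x * g) * g⁻¹) * g := by rw [hhy]
        _ = h⁻¹ * g * (g⁻¹ * x * g) := by group
    apply hg
    have h2 := H.mul_mem hh (hcen hc)
    rwa [mul_inv_cancel_left] at h2
  · intro h2 x hxI hxH
    constructor
    · intro g hgx
      have hg : g ∈ H := by
        by_contra hg
        have hg' : g⁻¹ ∉ H := fun h => hg (by simpa using H.inv_mem h)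
        apply h2 g⁻¹ hg' x hxI
        refine ⟨hxH, (mem_conj_iff H g⁻¹ x).mpr ?_⟩
        rwa [inv_inv]
      exact ⟨g, hg, rfl⟩
    · intro c hc
      by_contra hcH
      apply h2 c hcH x hxI
      refine ⟨hxH, (mem_conj_iff H c x).mpr ?_⟩
      have h3 : x * c = c * x := Subgroup.mem_centralizer_iff.mp hc x rfl
      rw [mul_assoc, h3, inv_mul_cancel_left]
      exact hxH
  · intro h2 x hxI hxH
    refine ⟨QuotientGroup.mk 1, (fix_iff H x 1).mpr (by simpa using hxH), ?_⟩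
    intro c hc
    induction c using QuotientGroup.induction_on with
    | H k =>
      have h3 := (fix_iff H x k).mp hc
      have hk : k ∈ H := by
        by_contra hk
        exact h2 k hk x hxI ⟨hxH, (mem_conj_iff H k x).mpr h3⟩
      rw [QuotientGroup.eq]
      simpa using H.inv_mem hk
  · rintro h3 g hg x hxI ⟨hxH, hxg⟩
    obtain ⟨c, hc, huniq⟩ := h3 x hxI hxH
    have e1 := huniq (QuotientGroup.mk 1) ((fix_iff H x 1).mpr (by simpa using hxH))
    have e2 := huniq (QuotientGroup.mk g) ((fix_iff H x g).mpr ((mem_conj_iff H g x).mp hxg))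
    have e3 : (QuotientGroup.mk g : G ⧸ H) = QuotientGroup.mk 1 := e2.trans e1.symm
    rw [QuotientGroup.eq] at e3
    apply hg
    simpa using H.inv_mem e3

end Cfsg.Agent.S5437
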