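import Cfsg.Statements.S5438

set_option autoImplicit false
open Cfsg

namespace Cfsg.Agent.S5438

open scoped Pointwise

theorem order_conj {G : Type*} [Group G] (g x : G) : orderOf (g * x * g⁻¹) = orderOf x :=
  (MulAut.conj g).orderOf_eq x

theorem sylow_mem {X : Type*} [Group X] [Finite X] (Q Q' : Sylow 2 X) (c : X) (hc : c • Q = Q')
    (u : X) (hu : u ∈ (Q' : Subgroup X)) : c⁻¹ * u * c ∈ (Q : Subgroup X) := by
  rw [← hc] at hu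
  have h2 : u ∈ MulAut.conj c • (Q : Subgroup X) := hu
  rw [Subgroup.mem_pointwise_smul_iff_inv_smul_mem] at h2
  have h3 : (MulAut.conj c)⁻¹ • u = c⁻¹ * u * c := by
    rw [MulAut.smul_def, MulAut.conj_inv_apply]
  rw [h3] at h2
  exact h2

theorem sylow_pair {X : Type*} [Group X] [Finite X] (u v : X)
    (hu : ∃ k : ℕ, orderOf u = 2 ^ k) (hv : ∃ k : ℕ, orderOf v = 2 ^ k) :
    ∃ (c : X) (T : Subgroup X), IsPGroup 2 T ∧ v ∈ T ∧ c⁻¹ * u * c ∈ T := by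
  have hp2 : Fact (Nat.Prime 2) := ⟨Nat.prime_two⟩
  have hpg : ∀ w : X, (∃ k : ℕ, orderOf w = 2 ^ k) → IsPGroup 2 (Subgroup.zpowers w) := by
    rintro w ⟨k, hk⟩
    apply IsPGroup.of_card (n := k)
    rw [Nat.card_zpowers, hk]
  obtain ⟨Q, hQ⟩ := (hpg v hv).exists_le_sylow
  obtain ⟨Q', hQ'⟩ := (hpg u hu).exists_le_sylow
  obtain ⟨c, hc⟩ := MulAction.exists_smul_eq X Q Q'
  exact ⟨c, Q, Q.isPGroup', hQ (Subgroup.mem_zpowers v),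
    sylow_mem Q Q' c hc u (hQ' (Subgroup.mem_zpowers u))⟩

theorem keyD {G : Type*} [Group G] [Finite G] (z : G) (P : Sylow 2 G)
    (hzc : ∀ x ∈ P, x * z = z * x) (H : Subgroup G) (hCH : ∀ c : G, c * z = z * c → c ∈ H)
    (hfix : ∀ g : G, g⁻¹ * z * g ∈ H → g ∈ H) (Q : Sylow 2 G) (b : G) (hb : b ∈ H)
    (hbQ : b * z * b⁻¹ ∈ (Q : Subgroup G)) :
    ∃ d ∈ H, ∀ t ∈ (Q : Subgroup G), d⁻¹ * t * d ∈ (P : Subgroup G) := by
  have hp2 : Fact (Nat.Prime 2) := ⟨Nat.prime_two⟩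
  obtain ⟨d, hd⟩ := MulAction.exists_smul_eq G P Q
  have hQmem : ∀ t ∈ (Q : Subgroup G), d⁻¹ * t * d ∈ (P : Subgroup G) :=
    fun t ht => sylow_mem P Q d hd t ht
  refine ⟨d, ?_, hQmem⟩
  have h2 := hzc _ (hQmem _ hbQ)
  have h3 : (b⁻¹ * d * z * d⁻¹ * b) * z = z * (b⁻¹ * d * z * d⁻¹ * b) := by
    calc (b⁻¹ * d * z * d⁻¹ * b) * z
        = (b⁻¹ * d) * (z * (d⁻¹ * (b * z * b⁻¹) * d)) * (b⁻¹ * d)⁻¹ := by group
      _ = (b⁻¹ * d) * ((d⁻¹ * (b * z * b⁻¹) * d) * z) * (b⁻¹ * d)⁻¹ := by rw [h2]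
      _ = z * (b⁻¹ * d * z * d⁻¹ * b) := by group
  have h4 : b⁻¹ * d * z * d⁻¹ * b ∈ H := hCH _ h3
  have h5 : d⁻¹ * b ∈ H := by
    apply hfix
    have h6 : (d⁻¹ * b)⁻¹ * z * (d⁻¹ * b) = b⁻¹ * d * z * d⁻¹ * b := by group
    rw [h6]; exact h4
  have h7 := H.mul_mem hb (H.inv_mem h5)
  have h8 : b * (d⁻¹ * b)⁻¹ = d := by group
  rwa [h8] at h7

theorem result {G : Type*} [Group G] [Finite G] (z : G) (hz : Cfsg.IsTwoCentralInvolution z) (H : Subgroup G) (hzH : z ∈ H) (hfix : ∀ g : G, g⁻¹ * z * g ∈ H → g ∈ H) : Odd H.index ∧ ∀ x ∈ H, (∃ k : ℕ, orderOf x = 2 ^ k) → ∀ g : G, g * x * g⁻¹ ∈ H → ∃ h ∈ H, h * x * h⁻¹ = g * x * g⁻¹ := by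
  obtain ⟨hz2, P, hzP, hzc⟩ := hz
  have hp2 : Fact (Nat.Prime 2) := ⟨Nat.prime_two⟩
  have hCH : ∀ c : G, c * z = z * c → c ∈ H := by
    intro c hc
    apply hfix
    have h1 : c⁻¹ * z * c = z := by rw [mul_assoc, ← hc, inv_mul_cancel_left]
    rw [h1]; exact hzH
  have hPH : (P : Subgroup G) ≤ H := fun x hx => hCH x (hzc x hx)
  have hz2' : ∃ k : ℕ, orderOf z = 2 ^ k := ⟨1, by rw [hz2, pow_one]⟩
  constructor
  · have h1 : H.index ∣ (P : Subgroup G).index := Subgroup.index_dvd_of_le hPH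
    have h2 : ¬ 2 ∣ (P : Subgroup G).index := P.not_dvd_index
    rw [← Nat.not_even_iff_odd, even_iff_two_dvd]
    exact fun h => h2 (dvd_trans h h1)
  · intro x hxH hx2 g hgx
    have hstep : ∀ y ∈ H, (∃ k : ℕ, orderOf y = 2 ^ k) →
        ∃ a ∈ H, y * (a * z * a⁻¹) = (a * z * a⁻¹) * y := by
      intro y hyH hy2
      obtain ⟨c, T, hT, hzT, hcT⟩ := sylow_pair (⟨y, hyH⟩ : H) ⟨z, hzH⟩
        (by rw [Subgroup.orderOf_mk]; exact hy2) (by rw [Subgroup.orderOf_mk]; exact hz2')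
      have hT' : IsPGroup 2 (T.map H.subtype) := hT.map _
      obtain ⟨Q, hQ⟩ := hT'.exists_le_sylow
      have hzQ : (1 : G) * z * (1 : G)⁻¹ ∈ (Q : Subgroup G) := by
        rw [one_mul, inv_one, mul_one]
        exact hQ ⟨⟨z, hzH⟩, hzT, rfl⟩
      obtain ⟨d, hdH, hdQ⟩ := keyD z P hzc H hCH hfix Q 1 H.one_mem hzQ
      have h1 : (c : G)⁻¹ * y * (c : G) ∈ (Q : Subgroup G) := hQ ⟨_, hcT, rfl⟩
      have h2 := hzc _ (hdQ _ h1)
      refine ⟨(c : G) * d, H.mul_mem c.2 hdH, ?_⟩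
      calc y * ((c : G) * d * z * ((c : G) * d)⁻¹)
          = ((c : G) * d) * ((d⁻¹ * ((c : G)⁻¹ * y * (c : G)) * d) * z) * ((c : G) * d)⁻¹ := by
            group
        _ = ((c : G) * d) * (z * (d⁻¹ * ((c : G)⁻¹ * y * (c : G)) * d)) * ((c : G) * d)⁻¹ := by
            rw [h2]
        _ = ((c : G) * d * z * ((c : G) * d)⁻¹) * y := by group
    obtain ⟨a, haH, hax⟩ := hstep x hxH hx2
    have hy2 : ∃ k : ℕ, orderOf (g * x * g⁻¹) = 2 ^ k := by rw [order_conj]; exact hx2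
    obtain ⟨b, hbH, hby⟩ := hstep (g * x * g⁻¹) hgx hy2
    have hz'C : b * z * b⁻¹ ∈ Subgroup.centralizer ({g * x * g⁻¹} : Set G) := by
      rw [Subgroup.mem_centralizer_iff]
      intro m hm
      rw [Set.mem_singleton_iff] at hm
      rw [hm]; exact hby
    have hwC : g * (a * z * a⁻¹) * g⁻¹ ∈ Subgroup.centralizer ({g * x * g⁻¹} : Set G) := by
      rw [Subgroup.mem_centralizer_iff]
      intro m hm
      rw [Set.mem_singleton_iff] at hm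
      rw [hm]
      calc g * x * g⁻¹ * (g * (a * z * a⁻¹) * g⁻¹) = g * (x * (a * z * a⁻¹)) * g⁻¹ := by group
        _ = g * ((a * z * a⁻¹) * x) * g⁻¹ := by rw [hax]
        _ = g * (a * z * a⁻¹) * g⁻¹ * (g * x * g⁻¹) := by group
    obtain ⟨c, T, hT, hz'T, hwT⟩ := sylow_pair
      (⟨g * (a * z * a⁻¹) * g⁻¹, hwC⟩ : Subgroup.centralizer ({g * x * g⁻¹} : Set G))
      ⟨b * z * b⁻¹, hz'C⟩
      (by rw [Subgroup.orderOf_mk, order_conj, order_conj]; exact hz2')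
      (by rw [Subgroup.orderOf_mk, order_conj]; exact hz2')
    have hT' : IsPGroup 2 (T.map (Subgroup.centralizer ({g * x * g⁻¹} : Set G)).subtype) :=
      hT.map _
    obtain ⟨Q, hQ⟩ := hT'.exists_le_sylow
    obtain ⟨d, hdH, hdQ⟩ := keyD z P hzc H hCH hfix Q b hbH (hQ ⟨_, hz'T, rfl⟩)
    have h1 : (c : G)⁻¹ * (g * (a * z * a⁻¹) * g⁻¹) * (c : G) ∈ (Q : Subgroup G) :=
      hQ ⟨_, hwT, rfl⟩
    have h2 : d⁻¹ * ((c : G)⁻¹ * (g * (a * z * a⁻¹) * g⁻¹) * (c : G)) * d ∈ H := hPH (hdQ _ h1)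
    have h3 : a⁻¹ * g⁻¹ * (c : G) * d ∈ H := by
      apply hfix
      have h4 : (a⁻¹ * g⁻¹ * (c : G) * d)⁻¹ * z * (a⁻¹ * g⁻¹ * (c : G) * d)
          = d⁻¹ * ((c : G)⁻¹ * (g * (a * z * a⁻¹) * g⁻¹) * (c : G)) * d := by group
      rw [h4]; exact h2
    have h5 : (c : G)⁻¹ * g ∈ H := by
      have h6 := H.mul_mem (H.mul_mem haH h3) (H.inv_mem hdH)
      have h7 : a * (a⁻¹ * g⁻¹ * (c : G) * d) * d⁻¹ = ((c : G)⁻¹ * g)⁻¹ := by group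
      rw [h7] at h6
      exact inv_mem_iff.mp h6
    refine ⟨(c : G)⁻¹ * g, h5, ?_⟩
    have hc : g * x * g⁻¹ * (c : G) = (c : G) * (g * x * g⁻¹) :=
      Subgroup.mem_centralizer_iff.mp c.2 _ rfl
    calc (c : G)⁻¹ * g * x * ((c : G)⁻¹ * g)⁻¹ = (c : G)⁻¹ * (g * x * g⁻¹ * (c : G)) := by group
      _ = (c : G)⁻¹ * ((c : G) * (g * x * g⁻¹)) := by rw [hc]
      _ = g * x * g⁻¹ := by group

end Cfsg.Agent.S5438
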