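import Cfsg.Statements.S5439

set_option autoImplicit false
open Cfsg

namespace Cfsg.Agent.S5439

theorem fix_iff {G : Type*} [Group G] (H : Subgroup G) (x k : G) :
    x • (QuotientGroup.mk k : G ⧸ H) = QuotientGroup.mk k ↔ k⁻¹ * x * k ∈ H := by
  rw [MulAction.Quotient.smul_mk, QuotientGroup.eq, smul_eq_mul]
  have h : (x * k)⁻¹ * k = (k⁻¹ * x * k)⁻¹ := by group
  rw [h, inv_mem_iff]

theorem sq_of_conj {G : Type*} [Group G] (a x : G) (ha : orderOf a = 2) (hx : IsConj a x) :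
    x * x = 1 := by
  rw [isConj_iff] at hx
  obtain ⟨c, rfl⟩ := hx
  have h : a * a = 1 := by
    have := pow_orderOf_eq_one a
    rw [ha, pow_two] at this; exact this
  calc c * a * c⁻¹ * (c * a * c⁻¹) = c * (a * a) * c⁻¹ := by group
    _ = 1 := by rw [h]; group

theorem dihedral {G : Type*} [Group G] [Finite G] (a b : G) (haa : a * a = 1) (hbb : b * b = 1)
    (hnc : ¬ IsConj a b) :
    ∃ c : G, (IsConj a c ∨ IsConj b c) ∧ c ≠ a ∧ a * c = c * a ∧ (a * c) * b = b * (a * c) := by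
  have hai : a⁻¹ = a := inv_eq_of_mul_eq_one_left haa
  have hbi : b⁻¹ = b := inv_eq_of_mul_eq_one_left hbb
  have hwa : ∀ n : ℕ, a * (a * b) ^ n * a⁻¹ = ((a * b) ^ n)⁻¹ := by
    intro n
    rw [← conj_pow, ← inv_pow]
    congr 1
    rw [mul_inv_rev, hai, hbi, ← mul_assoc, haa, one_mul]
  have hwb : ∀ n : ℕ, b * (a * b) ^ n * b⁻¹ = ((a * b) ^ n)⁻¹ := by
    intro n
    rw [← conj_pow, ← inv_pow]
    congr 1
    rw [mul_inv_rev, hai, hbi, mul_assoc, mul_assoc, hbb, mul_one]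
  have hap : ∀ n : ℕ, a * (a * b) ^ n = ((a * b) ^ n)⁻¹ * a := by
    intro n
    rw [← hwa n, hai, mul_assoc, mul_assoc, haa, mul_one]
  have hbp : ∀ n : ℕ, b * (a * b) ^ n = ((a * b) ^ n)⁻¹ * b := by
    intro n
    rw [← hwb n, hbi, mul_assoc, mul_assoc, hbb, mul_one]
  have hkpos : 0 < orderOf (a * b) := orderOf_pos (a * b)
  rcases Nat.even_or_odd' (orderOf (a * b)) with ⟨m, hm | hm⟩
  · have hm0 : 0 < m := by omega
    have ht1 : (a * b) ^ m ≠ 1 := pow_ne_one_of_lt_orderOf hm0.ne' (by omega)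
    have htt : (a * b) ^ m * (a * b) ^ m = 1 := by
      rw [← pow_add, ← two_mul, ← hm]; exact pow_orderOf_eq_one _
    have hti : ((a * b) ^ m)⁻¹ = (a * b) ^ m := inv_eq_of_mul_eq_one_left htt
    have hat : a * (a * b) ^ m = (a * b) ^ m * a := by rw [hap m, hti]
    have hbt : b * (a * b) ^ m = (a * b) ^ m * b := by rw [hbp m, hti]
    refine ⟨a * (a * b) ^ m, ?_, ?_, ?_, ?_⟩
    · rcases Nat.even_or_odd' m with ⟨j, hj | hj⟩
      · left
        rw [isConj_iff]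
        refine ⟨((a * b) ^ j)⁻¹, ?_⟩
        have h1 : (a * b) ^ m = (a * b) ^ j * (a * b) ^ j := by rw [hj, two_mul, pow_add]
        have e1 : ((a * b) ^ j)⁻¹ * a * (a * b) ^ j
            = ((a * b) ^ j)⁻¹ * (((a * b) ^ j)⁻¹ * a) := by rw [mul_assoc, hap j]
        have e2 : a * ((a * b) ^ j * (a * b) ^ j)
            = ((a * b) ^ j)⁻¹ * (((a * b) ^ j)⁻¹ * a) := by
          rw [← mul_assoc, hap j, mul_assoc, hap j]
        rw [inv_inv, h1, e1, e2]
      · right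
        rw [isConj_iff]
        refine ⟨((a * b) ^ j)⁻¹, ?_⟩
        have h1 : (a * b) ^ m = (a * b) ^ j * (a * b) ^ j * (a * b) := by
          rw [hj, pow_succ, two_mul, pow_add]
        rw [inv_inv, h1]
        calc ((a * b) ^ j)⁻¹ * b * (a * b) ^ j
            = ((a * b) ^ j)⁻¹ * (b * (a * b) ^ j) := by rw [mul_assoc]
          _ = ((a * b) ^ j)⁻¹ * (((a * b) ^ j)⁻¹ * b) := by rw [hbp j]
          _ = ((a * b) ^ j)⁻¹ * (((a * b) ^ j)⁻¹ * (a * (a * b))) := by
              rw [← mul_assoc a a b, haa, one_mul]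
          _ = ((a * b) ^ j)⁻¹ * ((((a * b) ^ j)⁻¹ * a) * (a * b)) := by rw [mul_assoc]
          _ = ((a * b) ^ j)⁻¹ * ((a * (a * b) ^ j) * (a * b)) := by rw [hap j]
          _ = (((a * b) ^ j)⁻¹ * a) * ((a * b) ^ j * (a * b)) := by simp only [mul_assoc]
          _ = (a * (a * b) ^ j) * ((a * b) ^ j * (a * b)) := by rw [hap j]
          _ = a * ((a * b) ^ j * (a * b) ^ j * (a * b)) := by simp only [mul_assoc]
    · intro h
      apply ht1
      have h2 : a * (a * b) ^ m = a * 1 := by rw [mul_one]; exact h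
      exact mul_left_cancel h2
    · rw [← mul_assoc, haa, one_mul, mul_assoc, ← hat, ← mul_assoc, haa, one_mul]
    · rw [← mul_assoc, haa, one_mul, hbt]
  · exfalso
    apply hnc
    rw [isConj_iff]
    refine ⟨(a * b) ^ m, ?_⟩
    have h1 : (a * b) ^ m * (a * b) ^ m * (a * b) = 1 := by
      rw [← pow_add, ← two_mul, ← pow_succ, ← hm]; exact pow_orderOf_eq_one _
    have h2 : a * ((a * b) ^ m)⁻¹ = (a * b) ^ m * a := by
      have h3 := hap m
      have h4 : (a * b) ^ m * (a * (a * b) ^ m) * ((a * b) ^ m)⁻¹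
          = (a * b) ^ m * (((a * b) ^ m)⁻¹ * a) * ((a * b) ^ m)⁻¹ := by rw [h3]
      have h5 : (a * b) ^ m * (a * (a * b) ^ m) * ((a * b) ^ m)⁻¹ = (a * b) ^ m * a := by group
      have h6 : (a * b) ^ m * (((a * b) ^ m)⁻¹ * a) * ((a * b) ^ m)⁻¹
          = a * ((a * b) ^ m)⁻¹ := by group
      rw [← h6, ← h4, h5]
    calc (a * b) ^ m * a * ((a * b) ^ m)⁻¹
        = (a * b) ^ m * (a * ((a * b) ^ m)⁻¹) := by rw [mul_assoc]
      _ = (a * b) ^ m * ((a * b) ^ m * a) := by rw [h2]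
      _ = ((a * b) ^ m * (a * b) ^ m * (a * b)) * (b⁻¹ * a⁻¹ * a) := by group
      _ = b := by rw [h1, one_mul, inv_mul_cancel_right, hbi]

theorem result {G : Type*} [Group G] [Finite G] (I J : Set G) (a₀ b₀ : G) (ha₀ : orderOf a₀ = 2) (hb₀ : orderOf b₀ = 2) (hI : I = {x | IsConj a₀ x}) (hJ : J = {x | IsConj b₀ x}) (hIJ : I ≠ J) (H : Subgroup G) (hfix : ∀ x ∈ I ∪ J, ∃! c : G ⧸ H, x • c = c) (hcent : ∀ a ∈ I, a ∈ H → ∀ b ∈ I ∪ J, b ∈ H → a ≠ b → a * b = b * a → Subgroup.centralizer ({a * b} : Set G) ≤ H) : H = ⊤ := by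
  have hImem : ∀ x, x ∈ I ↔ IsConj a₀ x := fun x => by rw [hI]; rfl
  have hJmem : ∀ x, x ∈ J ↔ IsConj b₀ x := fun x => by rw [hJ]; rfl
  have hIconj : ∀ (g x : G), x ∈ I → g * x * g⁻¹ ∈ I := by
    intro g x hx
    rw [hImem] at hx ⊢
    exact hx.trans (isConj_iff.mpr ⟨g, rfl⟩)
  have hJconj : ∀ (g x : G), x ∈ J → g * x * g⁻¹ ∈ J := by
    intro g x hx
    rw [hJmem] at hx ⊢
    exact hx.trans (isConj_iff.mpr ⟨g, rfl⟩)
  have hncab : ¬ IsConj a₀ b₀ := by
    intro h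
    apply hIJ
    ext x
    rw [hImem, hJmem]
    exact ⟨fun h1 => h.symm.trans h1, fun h1 => h.trans h1⟩
  have hnc : ∀ a ∈ I, ∀ b ∈ J, ¬ IsConj a b := by
    intro a ha b hb h
    rw [hImem] at ha
    rw [hJmem] at hb
    exact hncab (ha.trans (h.trans hb.symm))
  have hclaim : ∀ a ∈ I, ∀ b ∈ J, ∀ α : G ⧸ H, a • α = α → b • α = α := by
    intro a ha b hb α hα
    induction α using QuotientGroup.induction_on with
    | H g =>
      have haa : a * a = 1 := sq_of_conj a₀ a ha₀ ((hImem a).mp ha)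
      have hbb : b * b = 1 := sq_of_conj b₀ b hb₀ ((hJmem b).mp hb)
      obtain ⟨c, hc, hca, hcomm, hcb⟩ := dihedral a b haa hbb (hnc a ha b hb)
      have hcIJ : c ∈ I ∪ J := by
        rcases hc with h | h
        · left; rw [hImem] at ha ⊢; exact ha.trans h
        · right; rw [hJmem] at hb ⊢; exact hb.trans h
      obtain ⟨β, hβ, huniq⟩ := hfix a (Or.inl ha)
      have hcα : c • (QuotientGroup.mk g : G ⧸ H) = QuotientGroup.mk g := by
        have h1 : a • (c • (QuotientGroup.mk g : G ⧸ H)) = c • (QuotientGroup.mk g : G ⧸ H) := by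
          rw [smul_smul, hcomm, mul_smul, hα]
        exact (huniq _ h1).trans (huniq _ hα).symm
      rw [fix_iff] at hα hcα ⊢
      have ha'I : g⁻¹ * a * g ∈ I := by
        have := hIconj g⁻¹ a ha
        rwa [inv_inv] at this
      have hc'IJ : g⁻¹ * c * g ∈ I ∪ J := by
        rcases hcIJ with h | h
        · left
          have := hIconj g⁻¹ c h
          rwa [inv_inv] at this
        · right
          have := hJconj g⁻¹ c h
          rwa [inv_inv] at this
      have hne : g⁻¹ * a * g ≠ g⁻¹ * c * g := by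
        intro h
        apply hca
        have h1 : g * (g⁻¹ * c * g) * g⁻¹ = g * (g⁻¹ * a * g) * g⁻¹ := by rw [h]
        calc c = g * (g⁻¹ * c * g) * g⁻¹ := by group
          _ = g * (g⁻¹ * a * g) * g⁻¹ := h1
          _ = a := by group
      have hcomm' : g⁻¹ * a * g * (g⁻¹ * c * g) = g⁻¹ * c * g * (g⁻¹ * a * g) := by
        calc g⁻¹ * a * g * (g⁻¹ * c * g) = g⁻¹ * (a * c) * g := by group
          _ = g⁻¹ * (c * a) * g := by rw [hcomm]
          _ = g⁻¹ * c * g * (g⁻¹ * a * g) := by group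
      have hle := hcent _ ha'I hα _ hc'IJ hcα hne hcomm'
      apply hle
      rw [Subgroup.mem_centralizer_iff]
      intro m hm
      rw [Set.mem_singleton_iff] at hm
      rw [hm]
      calc g⁻¹ * a * g * (g⁻¹ * c * g) * (g⁻¹ * b * g) = g⁻¹ * ((a * c) * b) * g := by group
        _ = g⁻¹ * (b * (a * c)) * g := by rw [hcb]
        _ = g⁻¹ * b * g * (g⁻¹ * a * g * (g⁻¹ * c * g)) := by group
  have ha₀I : a₀ ∈ I := (hImem a₀).mpr (IsConj.refl a₀)
  have hb₀J : b₀ ∈ J := (hJmem b₀).mpr (IsConj.refl b₀)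
  obtain ⟨α, hα, -⟩ := hfix a₀ (Or.inl ha₀I)
  obtain ⟨β, hβ, huniqb⟩ := hfix b₀ (Or.inr hb₀J)
  have hbα : b₀ • α = α := hclaim a₀ ha₀I b₀ hb₀J α hα
  have hall : ∀ g : G, g • α = α := by
    intro g
    have h1 : (g * a₀ * g⁻¹) • (g • α) = g • α := by
      rw [smul_smul, inv_mul_cancel_right, mul_smul, hα]
    have h2 := hclaim _ (hIconj g a₀ ha₀I) b₀ hb₀J _ h1
    exact (huniqb _ h2).trans (huniqb _ hbα).symm
  induction α using QuotientGroup.induction_on with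
  | H k =>
    rw [eq_top_iff]
    intro g _
    have h1 := (fix_iff H (k * g * k⁻¹) k).mp (hall _)
    have h2 : k⁻¹ * (k * g * k⁻¹) * k = g := by group
    rwa [h2] at h1

end Cfsg.Agent.S5439
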