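import Mathlib
import Cfsg.Statements.S5459
import Cfsg.Agent.Lib.Helper2.Quasi

set_option autoImplicit false
open Pointwise
open Cfsg
open scoped commutatorElement

namespace Cfsg.Agent.S5459

section
variable {G : Type*} [Group G]

theorem mem_conj_iff {K : Type*} [Group K] (a b : K) :
    b ∈ conjugatesOf a ↔ ∃ c, c * a * c⁻¹ = b := by
  show IsConj a b ↔ _
  exact isConj_iff

/-- reachability between two elements of `D` in the commuting graph -/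
def R (D : Set G) (x y : G) : Prop :=
  ∃ (hx : x ∈ D) (hy : y ∈ D), (Cfsg.commutingGraph D).Reachable ⟨x, hx⟩ ⟨y, hy⟩

theorem adj_iff (D : Set G) (a b : D) :
    (Cfsg.commutingGraph D).Adj a b ↔ a ≠ b ∧ (Commute (a : G) (b : G) ∨ Commute (b : G) (a : G)) := by
  unfold Cfsg.commutingGraph
  exact SimpleGraph.fromRel_adj _ _ _

theorem R_refl (D : Set G) {x : G} (hx : x ∈ D) : R D x x :=
  ⟨hx, hx, SimpleGraph.Reachable.refl _⟩

theorem R_symm {D : Set G} {x y : G} (h : R D x y) : R D y x := by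
  obtain ⟨hx, hy, hr⟩ := h
  exact ⟨hy, hx, hr.symm⟩

theorem R_trans {D : Set G} {x y z : G} (h1 : R D x y) (h2 : R D y z) : R D x z := by
  obtain ⟨hx, hy, hr⟩ := h1
  obtain ⟨hy', hz, hr'⟩ := h2
  exact ⟨hx, hz, hr.trans hr'⟩

theorem R_adj {D : Set G} {x y : G} (hx : x ∈ D) (hy : y ∈ D) (hne : x ≠ y)
    (hc : x * y = y * x) : R D x y := by
  refine ⟨hx, hy, SimpleGraph.Adj.reachable ?_⟩
  rw [adj_iff]
  exact ⟨fun h => hne (congrArg Subtype.val h), Or.inl hc⟩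

theorem conj_mem (d h : G) : ∀ w ∈ conjugatesOf d, h * w * h⁻¹ ∈ conjugatesOf d := by
  intro w hw
  rw [mem_conj_iff] at hw ⊢
  obtain ⟨c, rfl⟩ := hw
  exact ⟨h * c, by group⟩

theorem R_conj (d : G) (h : G) {x y : G} (hr : R (conjugatesOf d) x y) :
    R (conjugatesOf d) (h * x * h⁻¹) (h * y * h⁻¹) := by
  obtain ⟨hx, hy, hr⟩ := hr
  let f : Cfsg.commutingGraph (conjugatesOf d) →g Cfsg.commutingGraph (conjugatesOf d) :=
    { toFun := fun w => ⟨h * w.1 * h⁻¹, conj_mem d h w.1 w.2⟩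
      map_rel' := by
        intro a b hab
        rw [adj_iff] at hab ⊢
        obtain ⟨hne, hc⟩ := hab
        have key : ∀ u v : G, Commute u v → Commute (h * u * h⁻¹) (h * v * h⁻¹) := by
          intro u v huv
          show h * u * h⁻¹ * (h * v * h⁻¹) = h * v * h⁻¹ * (h * u * h⁻¹)
          calc h * u * h⁻¹ * (h * v * h⁻¹) = h * (u * v) * h⁻¹ := by group
            _ = h * (v * u) * h⁻¹ := by rw [huv.eq]
            _ = h * v * h⁻¹ * (h * u * h⁻¹) := by group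
        refine ⟨?_, ?_⟩
        · intro heq
          apply hne
          have h2 : h * a.1 * h⁻¹ = h * b.1 * h⁻¹ := congrArg Subtype.val heq
          exact Subtype.ext (mul_left_cancel (mul_right_cancel h2))
        · rcases hc with hc | hc
          · exact Or.inl (key _ _ hc)
          · exact Or.inr (key _ _ hc) }
  exact ⟨_, _, hr.map f⟩

/-- the subgroup of elements whose conjugate of `d` is reachable from `d` -/
def reachSub (d : G) : Subgroup G where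
  carrier := {g | R (conjugatesOf d) d (g * d * g⁻¹)}
  one_mem' := by
    show R _ d (1 * d * 1⁻¹)
    rw [one_mul, inv_one, mul_one]
    exact R_refl _ mem_conjugatesOf_self
  mul_mem' := by
    intro x y hx hy
    show R _ d (x * y * d * (x * y)⁻¹)
    have h1 := R_conj d x hy
    have h2 := R_trans hx h1
    have e : x * y * d * (x * y)⁻¹ = x * (y * d * y⁻¹) * x⁻¹ := by group
    rw [e]; exact h2
  inv_mem' := by
    intro x hx
    show R _ d (x⁻¹ * d * x⁻¹⁻¹)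
    have h1 := R_conj d x⁻¹ hx
    have e : x⁻¹ * (x * d * x⁻¹) * x⁻¹⁻¹ = d := by group
    rw [e] at h1
    exact R_symm h1

theorem mem_reachSub (d g : G) : g ∈ reachSub d ↔ R (conjugatesOf d) d (g * d * g⁻¹) := Iff.rfl

theorem lift_reach (Z : Subgroup G) [Z.Normal] (d : G)
    (hedge : ∀ a ∈ conjugatesOf d, ∀ w ∈ conjugatesOf (QuotientGroup.mk d : G ⧸ Z),
      (QuotientGroup.mk a : G ⧸ Z) ≠ w → Commute (QuotientGroup.mk a : G ⧸ Z) w →
        ∃ b ∈ conjugatesOf d, (QuotientGroup.mk b : G ⧸ Z) = w ∧ R (conjugatesOf d) a b)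
    (u v : ↥(conjugatesOf (QuotientGroup.mk d : G ⧸ Z)))
    (p : (Cfsg.commutingGraph (conjugatesOf (QuotientGroup.mk d : G ⧸ Z))).Walk u v) :
    ∀ a ∈ conjugatesOf d, (QuotientGroup.mk a : G ⧸ Z) = u.1 →
      ∃ b ∈ conjugatesOf d, (QuotientGroup.mk b : G ⧸ Z) = v.1 ∧ R (conjugatesOf d) a b := by
  induction p with
  | nil =>
    intro a ha hau
    exact ⟨a, ha, hau, R_refl _ ha⟩
  | @cons u w v hadj p ih =>
    intro a ha hau
    rw [adj_iff] at hadj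
    obtain ⟨hne, hc⟩ := hadj
    have hc' : Commute (QuotientGroup.mk a : G ⧸ Z) w.1 := by
      rw [hau]
      rcases hc with hc | hc
      · exact hc
      · exact hc.symm
    have hne' : (QuotientGroup.mk a : G ⧸ Z) ≠ w.1 := by
      rw [hau]
      intro h
      exact hne (Subtype.ext h)
    obtain ⟨b', hb'D, hb'mk, hb'R⟩ := hedge a ha w.1 w.2 hne' hc'
    obtain ⟨b, hbD, hbmk, hbR⟩ := ih b' hb'D hb'mk
    exact ⟨b, hbD, hbmk, R_trans hb'R hbR⟩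

theorem comm_central (c₁ c₂ g₁ g₂ : G) (a1 : c₁ * g₁ = g₁ * c₁) (a2 : c₂ * g₂ = g₂ * c₂)
    (a3 : c₁ * g₂ = g₂ * c₁) (a4 : c₁ * c₂ = c₂ * c₁) (a5 : c₂ * g₁⁻¹ = g₁⁻¹ * c₂) :
    ⁅c₁ * g₁, c₂ * g₂⁆ = ⁅g₁, g₂⁆ := by
  calc ⁅c₁ * g₁, c₂ * g₂⁆ = ⁅g₁ * c₁, g₂ * c₂⁆ := by rw [a1, a2]
    _ = g₁ * (c₁ * g₂) * c₂ * c₁⁻¹ * g₁⁻¹ * c₂⁻¹ * g₂⁻¹ := by
      rw [commutatorElement_def]; group
    _ = g₁ * (g₂ * c₁) * c₂ * c₁⁻¹ * g₁⁻¹ * c₂⁻¹ * g₂⁻¹ := by rw [a3]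
    _ = g₁ * g₂ * (c₁ * c₂) * c₁⁻¹ * g₁⁻¹ * c₂⁻¹ * g₂⁻¹ := by group
    _ = g₁ * g₂ * (c₂ * c₁) * c₁⁻¹ * g₁⁻¹ * c₂⁻¹ * g₂⁻¹ := by rw [a4]
    _ = g₁ * g₂ * (c₂ * g₁⁻¹) * c₂⁻¹ * g₂⁻¹ := by group
    _ = g₁ * g₂ * (g₁⁻¹ * c₂) * c₂⁻¹ * g₂⁻¹ := by rw [a5]
    _ = ⁅g₁, g₂⁆ := by rw [commutatorElement_def]; group

theorem main [Finite G] (L : Subgroup G) (hperf : ⁅L, L⁆ = L) (d : G) (hd : orderOf d = 2)
    (hgen : L ⊔ Subgroup.zpowers d = ⊤) (Z : Subgroup G) [hn : Z.Normal] (hZL : Z ≤ L)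
    (hZc : ∀ c ∈ Z, ∀ l ∈ L, c * l = l * c) (hodd : Odd (Nat.card Z))
    (hinv : ∀ c ∈ Z, d * c * d⁻¹ = c⁻¹)
    (hconn : (Cfsg.commutingGraph (conjugatesOf (QuotientGroup.mk d : G ⧸ Z))).Connected) :
    (Cfsg.commutingGraph (conjugatesOf d)).Connected := by
  classical
  have hd2 : d * d = 1 := by rw [← pow_two, ← hd]; exact pow_orderOf_eq_one d
  have hD : ∀ x ∈ conjugatesOf d, ∃ g, g * d * g⁻¹ = x := by
    intro x hx
    rw [mem_conj_iff] at hx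
    exact hx
  have hDmem : ∀ g : G, g * d * g⁻¹ ∈ conjugatesOf d := by
    intro g
    rw [mem_conj_iff]
    exact ⟨g, rfl⟩
  have hxinv : ∀ x ∈ conjugatesOf d, ∀ c ∈ Z, x * c * x⁻¹ = c⁻¹ := by
    intro x hx c hc
    obtain ⟨g, rfl⟩ := hD x hx
    have h1 : g⁻¹ * c * g ∈ Z := by
      have h0 := hn.conj_mem c hc g⁻¹
      rwa [inv_inv] at h0
    have h2 := hinv _ h1
    calc g * d * g⁻¹ * c * (g * d * g⁻¹)⁻¹ = g * (d * (g⁻¹ * c * g) * d⁻¹) * g⁻¹ := by group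
      _ = g * (g⁻¹ * c * g)⁻¹ * g⁻¹ := by rw [h2]
      _ = c⁻¹ := by group
  have hsqrt : ∀ x ∈ Z, ∃ y ∈ Z, y * y = x := by
    intro x hx
    obtain ⟨k, hk⟩ := hodd
    refine ⟨x ^ (k + 1), Z.pow_mem hx _, ?_⟩
    have h1 : x ^ (2 * k + 1) = 1 := by
      have h0 := pow_card_eq_one' (G := ↥Z) (x := ⟨x, hx⟩)
      rw [hk] at h0
      have h00 := congrArg Subtype.val h0
      rwa [Subgroup.coe_pow] at h00
    calc x ^ (k + 1) * x ^ (k + 1) = x ^ (2 * k + 1) * x := by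
          rw [← pow_add, ← pow_succ]; congr 1; ring
      _ = x := by rw [h1, one_mul]
  have hedge : ∀ a ∈ conjugatesOf d, ∀ w ∈ conjugatesOf (QuotientGroup.mk d : G ⧸ Z),
      (QuotientGroup.mk a : G ⧸ Z) ≠ w → Commute (QuotientGroup.mk a : G ⧸ Z) w →
        ∃ b ∈ conjugatesOf d, (QuotientGroup.mk b : G ⧸ Z) = w ∧ R (conjugatesOf d) a b := by
    intro a ha w hw hne hcomm
    rw [mem_conj_iff] at hw
    obtain ⟨gq, rfl⟩ := hw
    obtain ⟨g, rfl⟩ := QuotientGroup.mk_surjective gq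
    have hb0 : g * d * g⁻¹ ∈ conjugatesOf d := hDmem g
    have hmk0 : (QuotientGroup.mk (g * d * g⁻¹) : G ⧸ Z) =
        QuotientGroup.mk g * QuotientGroup.mk d * (QuotientGroup.mk g)⁻¹ := by
      rw [QuotientGroup.mk_mul, QuotientGroup.mk_mul, QuotientGroup.mk_inv]
    rw [← hmk0] at hne hcomm ⊢
    have hcZ : a * (g * d * g⁻¹) * a⁻¹ * (g * d * g⁻¹)⁻¹ ∈ Z := by
      have h1 : (QuotientGroup.mk (a * (g * d * g⁻¹) * a⁻¹ * (g * d * g⁻¹)⁻¹) : G ⧸ Z) = 1 := by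
        rw [QuotientGroup.mk_mul, QuotientGroup.mk_mul, QuotientGroup.mk_mul,
          QuotientGroup.mk_inv, QuotientGroup.mk_inv, hcomm.eq]
        group
      exact (QuotientGroup.eq_one_iff _).1 h1
    obtain ⟨s, hsZ, hs⟩ := hsqrt _ hcZ
    obtain ⟨f, hfZ, hf⟩ := hsqrt s hsZ
    have hf4 : f * f * (f * f) = a * (g * d * g⁻¹) * a⁻¹ * (g * d * g⁻¹)⁻¹ := by rw [hf, hs]
    have hbD : f * (g * d * g⁻¹) * f⁻¹ ∈ conjugatesOf d := by
      have e : f * (g * d * g⁻¹) * f⁻¹ = (f * g) * d * (f * g)⁻¹ := by group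
      rw [e]; exact hDmem _
    have hmkb : (QuotientGroup.mk (f * (g * d * g⁻¹) * f⁻¹) : G ⧸ Z) =
        QuotientGroup.mk (g * d * g⁻¹) := by
      have hf1 : (QuotientGroup.mk f : G ⧸ Z) = 1 := (QuotientGroup.eq_one_iff _).2 hfZ
      rw [QuotientGroup.mk_mul, QuotientGroup.mk_mul, QuotientGroup.mk_inv, hf1]
      group
    refine ⟨f * (g * d * g⁻¹) * f⁻¹, hbD, hmkb, ?_⟩
    apply R_adj ha hbD
    · intro h
      apply hne
      rw [← hmkb, ← h]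
    · have ea : a * f * a⁻¹ = f⁻¹ := hxinv a ha f hfZ
      have eb : (g * d * g⁻¹) * f * (g * d * g⁻¹)⁻¹ = f⁻¹ := hxinv _ hb0 f hfZ
      have e1 : a * f = f⁻¹ * a := by rw [← ea]; group
      have e2 : a * f⁻¹ = f * a := by
        have h0 : a * f⁻¹ * a⁻¹ = f := by
          have h00 : a * f⁻¹ * a⁻¹ = (a * f * a⁻¹)⁻¹ := by group
          rw [h00, ea, inv_inv]
        calc a * f⁻¹ = (a * f⁻¹ * a⁻¹) * a := by group
          _ = f * a := by rw [h0]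
      have e3' : (g * d * g⁻¹) * f = f⁻¹ * (g * d * g⁻¹) := by
        calc (g * d * g⁻¹) * f = ((g * d * g⁻¹) * f * (g * d * g⁻¹)⁻¹) * (g * d * g⁻¹) := by group
          _ = f⁻¹ * (g * d * g⁻¹) := by rw [eb]
      have e3 : (g * d * g⁻¹) * f⁻¹ = f * (g * d * g⁻¹) := by
        have h0 : (g * d * g⁻¹) * f⁻¹ * (g * d * g⁻¹)⁻¹ = f := by
          have h00 : (g * d * g⁻¹) * f⁻¹ * (g * d * g⁻¹)⁻¹ =
              ((g * d * g⁻¹) * f * (g * d * g⁻¹)⁻¹)⁻¹ := by group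
          rw [h00, eb, inv_inv]
        calc (g * d * g⁻¹) * f⁻¹ = ((g * d * g⁻¹) * f⁻¹ * (g * d * g⁻¹)⁻¹) * (g * d * g⁻¹) := by
              group
          _ = f * (g * d * g⁻¹) := by rw [h0]
      have e5 : a * (g * d * g⁻¹) = f * f * (f * f) * (g * d * g⁻¹) * a := by
        rw [hf4]; group
      calc a * (f * (g * d * g⁻¹) * f⁻¹) = (a * f) * (g * d * g⁻¹) * f⁻¹ := by group
        _ = f⁻¹ * a * (g * d * g⁻¹) * f⁻¹ := by rw [e1]
        _ = f⁻¹ * (a * (g * d * g⁻¹)) * f⁻¹ := by group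
        _ = f⁻¹ * (f * f * (f * f) * (g * d * g⁻¹) * a) * f⁻¹ := by rw [e5]
        _ = f * f * f * (g * d * g⁻¹) * (a * f⁻¹) := by group
        _ = f * f * f * (g * d * g⁻¹) * (f * a) := by rw [e2]
        _ = f * f * f * ((g * d * g⁻¹) * f) * a := by group
        _ = f * f * f * (f⁻¹ * (g * d * g⁻¹)) * a := by rw [e3']
        _ = f * (f * (g * d * g⁻¹)) * a := by group
        _ = f * ((g * d * g⁻¹) * f⁻¹) * a := by rw [e3]
        _ = f * (g * d * g⁻¹) * f⁻¹ * a := by group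
  have hdH : d ∈ reachSub d := by
    rw [mem_reachSub]
    have e : d * d * d⁻¹ = d := by group
    rw [e]; exact R_refl _ mem_conjugatesOf_self
  have hZH : ∀ g : G, ∃ c ∈ Z, c * g ∈ reachSub d := by
    intro g
    have hu : (QuotientGroup.mk d : G ⧸ Z) ∈ conjugatesOf (QuotientGroup.mk d : G ⧸ Z) :=
      mem_conjugatesOf_self
    have hv : (QuotientGroup.mk (g * d * g⁻¹) : G ⧸ Z) ∈
        conjugatesOf (QuotientGroup.mk d : G ⧸ Z) := by
      rw [mem_conj_iff]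
      exact ⟨QuotientGroup.mk g, by
        rw [QuotientGroup.mk_mul, QuotientGroup.mk_mul, QuotientGroup.mk_inv]⟩
    obtain ⟨p⟩ := hconn.preconnected ⟨_, hu⟩ ⟨_, hv⟩
    obtain ⟨b, hbD, hbmk, hbR⟩ := lift_reach Z d hedge _ _ p d mem_conjugatesOf_self rfl
    have hbmk' : (QuotientGroup.mk b : G ⧸ Z) = QuotientGroup.mk (g * d * g⁻¹) := hbmk
    have hc0 : (g * d * g⁻¹)⁻¹ * b ∈ Z := QuotientGroup.eq.1 hbmk'.symm
    obtain ⟨c, hcZ, hc⟩ := hsqrt _ (Z.inv_mem hc0)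
    refine ⟨c, hcZ, ?_⟩
    rw [mem_reachSub]
    have hx := hxinv (g * d * g⁻¹) (hDmem g) c hcZ
    have h3 : c * (g * d * g⁻¹) = (g * d * g⁻¹) * c⁻¹ := by
      have h0 : (g * d * g⁻¹) * c⁻¹ * (g * d * g⁻¹)⁻¹ = c := by
        have h00 : (g * d * g⁻¹) * c⁻¹ * (g * d * g⁻¹)⁻¹ =
            ((g * d * g⁻¹) * c * (g * d * g⁻¹)⁻¹)⁻¹ := by group
        rw [h00, hx, inv_inv]
      calc c * (g * d * g⁻¹) = ((g * d * g⁻¹) * c⁻¹ * (g * d * g⁻¹)⁻¹) * (g * d * g⁻¹) := by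
            rw [h0]
        _ = (g * d * g⁻¹) * c⁻¹ := by group
    have hb : b = (g * d * g⁻¹) * (c * c)⁻¹ := by rw [hc]; group
    have e : c * g * d * (c * g)⁻¹ = b := by
      rw [hb]
      calc c * g * d * (c * g)⁻¹ = (c * (g * d * g⁻¹)) * c⁻¹ := by group
        _ = (g * d * g⁻¹) * c⁻¹ * c⁻¹ := by rw [h3]
        _ = (g * d * g⁻¹) * (c * c)⁻¹ := by group
    rw [e]; exact hbR
  have hLH : L ≤ reachSub d := by
    have h0 : ⁅L, L⁆ ≤ reachSub d := by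
      rw [Subgroup.commutator_le]
      intro g₁ hg₁ g₂ hg₂
      obtain ⟨c₁, hc₁, h₁⟩ := hZH g₁
      obtain ⟨c₂, hc₂, h₂⟩ := hZH g₂
      have e : ⁅c₁ * g₁, c₂ * g₂⁆ = ⁅g₁, g₂⁆ :=
        comm_central c₁ c₂ g₁ g₂ (hZc c₁ hc₁ g₁ hg₁) (hZc c₂ hc₂ g₂ hg₂) (hZc c₁ hc₁ g₂ hg₂)
          (hZc c₁ hc₁ c₂ (hZL hc₂)) (hZc c₂ hc₂ g₁⁻¹ (L.inv_mem hg₁))
      rw [← e, commutatorElement_def]
      exact (reachSub d).mul_mem ((reachSub d).mul_mem ((reachSub d).mul_mem h₁ h₂)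
        ((reachSub d).inv_mem h₁)) ((reachSub d).inv_mem h₂)
    rwa [hperf] at h0
  have hHtop : reachSub d = ⊤ := by
    rw [eq_top_iff, ← hgen]
    exact sup_le hLH ((Subgroup.zpowers_le).2 hdH)
  have hall : ∀ x ∈ conjugatesOf d, R (conjugatesOf d) d x := by
    intro x hx
    obtain ⟨g, rfl⟩ := hD x hx
    have h0 : g ∈ reachSub d := by rw [hHtop]; exact Subgroup.mem_top g
    exact h0
  rw [SimpleGraph.connected_iff]
  refine ⟨?_, ⟨⟨d, mem_conjugatesOf_self⟩⟩⟩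
  rintro ⟨x, hx⟩ ⟨y, hy⟩
  obtain ⟨_, _, hr⟩ := R_trans (R_symm (hall x hx)) (hall y hy)
  exact hr

end

/-- Let G be a finite group with a quasisimple normal subgroup L and an involution d such that G is generated by L and d, the centre of L has odd order, and d inverts every element of the centre of L. If the commuting graph on the conjugacy class of the image of d in G modulo the centre of L is connected, then the commuting graph on the conjugacy class of d is connected. -/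
theorem result {G : Type*} [Group G] [Finite G] (L : Subgroup G) [L.Normal] (hL : Cfsg.IsQuasisimple ↥L) (d : G) (hd : orderOf d = 2) (hgen : L ⊔ Subgroup.zpowers d = ⊤) (hodd : Odd (Nat.card ↥(Subgroup.center ↥L))) (hinv : ∀ c ∈ (Subgroup.center ↥L).map L.subtype, d * c * d⁻¹ = c⁻¹) [hn : ((Subgroup.center ↥L).map L.subtype).Normal] (hconn : (Cfsg.commutingGraph (conjugatesOf (QuotientGroup.mk d : G ⧸ (Subgroup.center ↥L).map L.subtype))).Connected) : (Cfsg.commutingGraph (conjugatesOf d)).Connected := by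
  refine main L (Cfsg.Agent.Lib.Helper2.Quasi.perfect_subgroup L hL) d hd hgen _ ?_ ?_ ?_ hinv hconn
  · rintro _ ⟨c, _, rfl⟩
    exact c.2
  · rintro _ ⟨c, hc, rfl⟩ l hl
    have h0 := Subgroup.mem_center_iff.1 hc ⟨l, hl⟩
    exact (congrArg Subtype.val h0).symm
  · rw [Subgroup.card_map_of_injective L.subtype_injective]
    exact hodd

end Cfsg.Agent.S5459
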