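import Cfsg.Statements.S5541

set_option autoImplicit false
open Cfsg

namespace Cfsg.Agent.S5541

section gen

variable {H : Type*} [Group H] {U : Type*} [AddCommGroup U] [Module ℝ U] [FiniteDimensional ℝ U]

theorem rho_inv_apply (ρ : Representation ℝ H U) (g : H) (w : U) : ρ g (ρ g⁻¹ w) = w := by
  rw [← Module.End.mul_apply, ← map_mul, mul_inv_cancel, map_one]
  rfl

theorem nondeg (ρ : Representation ℝ H U)
    (hirr : ∀ W : Submodule ℝ U, (∀ g : H, W.map (ρ g) ≤ W) → W = ⊥ ∨ W = ⊤)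
    (B : LinearMap.BilinForm ℝ U) (hB0 : B ≠ 0)
    (hBi : ∀ (g : H) (u v : U), B (ρ g u) (ρ g v) = B u v) :
    ∀ x : U, (∀ w, B x w = 0) → x = 0 := by
  intro x hx
  have hinv : ∀ g : H, (LinearMap.ker B).map (ρ g) ≤ LinearMap.ker B := by
    rintro g _ ⟨u, hu, rfl⟩
    have hu' : B u = 0 := hu
    rw [LinearMap.mem_ker]
    ext w
    rw [LinearMap.zero_apply]
    have h1 := hBi g u (ρ g⁻¹ w)
    rw [rho_inv_apply, hu', LinearMap.zero_apply] at h1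
    exact h1
  rcases hirr _ hinv with h | h
  · have : x ∈ LinearMap.ker B := by
      rw [LinearMap.mem_ker]
      ext w
      rw [LinearMap.zero_apply]
      exact hx w
    rw [h] at this
    exact (Submodule.mem_bot ℝ).mp this
  · exfalso
    apply hB0
    ext u w
    have : u ∈ LinearMap.ker B := by rw [h]; exact Submodule.mem_top
    rw [LinearMap.mem_ker] at this
    simp [this]

theorem exists_dual (B : LinearMap.BilinForm ℝ U)
    (hnd : ∀ x : U, (∀ w, B x w = 0) → x = 0) :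
    ∃ e : (U →ₗ[ℝ] ℝ) →ₗ[ℝ] U, ∀ (φ : U →ₗ[ℝ] ℝ) (w : U), B (e φ) w = φ w := by
  have hinj : Function.Injective (B : U →ₗ[ℝ] (U →ₗ[ℝ] ℝ)) := by
    rw [injective_iff_map_eq_zero]
    intro x hx
    apply hnd
    intro w
    rw [hx, LinearMap.zero_apply]
  have hsurj : Function.Surjective (B : U →ₗ[ℝ] (U →ₗ[ℝ] ℝ)) :=
    (LinearMap.injective_iff_surjective_of_finrank_eq_finrank
      (Subspace.dual_finrank_eq (K := ℝ) (V := U)).symm).mp hinj
  refine ⟨(LinearEquiv.ofBijective (B : U →ₗ[ℝ] (U →ₗ[ℝ] ℝ)) ⟨hinj, hsurj⟩).symm.toLinearMap,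
    fun φ w => ?_⟩
  have h1 := (LinearEquiv.ofBijective (B : U →ₗ[ℝ] (U →ₗ[ℝ] ℝ)) ⟨hinj, hsurj⟩).apply_symm_apply φ
  have h2 : B ((LinearEquiv.ofBijective (B : U →ₗ[ℝ] (U →ₗ[ℝ] ℝ)) ⟨hinj, hsurj⟩).symm φ) = φ := h1
  exact LinearMap.congr_fun h2 w

theorem tri_of_mul (ρ : Representation ℝ H U) (B : LinearMap.BilinForm ℝ U)
    (hBi : ∀ (g : H) (u v : U), B (ρ g u) (ρ g v) = B u v)
    (m : U →ₗ[ℝ] U →ₗ[ℝ] U) (hm : ∀ (g : H) (u v : U), m (ρ g u) (ρ g v) = ρ g (m u v)) :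
    ∀ (g : H) (u v w : U), (m.compr₂ B) (ρ g u) (ρ g v) (ρ g w) = (m.compr₂ B) u v w := by
  intro g u v w
  rw [LinearMap.compr₂_apply, LinearMap.compr₂_apply, hm, hBi]

theorem mul_of_tri (ρ : Representation ℝ H U) (B : LinearMap.BilinForm ℝ U)
    (hnd : ∀ x : U, (∀ w, B x w = 0) → x = 0)
    (hBi : ∀ (g : H) (u v : U), B (ρ g u) (ρ g v) = B u v)
    (t : U →ₗ[ℝ] U →ₗ[ℝ] U →ₗ[ℝ] ℝ)
    (ht : ∀ (g : H) (u v w : U), t (ρ g u) (ρ g v) (ρ g w) = t u v w)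
    (m : U →ₗ[ℝ] U →ₗ[ℝ] U) (hmt : ∀ u v w, B (m u v) w = t u v w) :
    ∀ (g : H) (u v : U), m (ρ g u) (ρ g v) = ρ g (m u v) := by
  intro g u v
  rw [← sub_eq_zero]
  apply hnd
  intro w
  rw [map_sub, LinearMap.sub_apply, hmt, sub_eq_zero]
  have h1 := ht g u v (ρ g⁻¹ w)
  rw [rho_inv_apply] at h1
  rw [h1, ← hmt]
  have h2 := hBi g (m u v) (ρ g⁻¹ w)
  rw [rho_inv_apply] at h2
  exact h2.symm

def flip23 (t : U →ₗ[ℝ] U →ₗ[ℝ] U →ₗ[ℝ] ℝ) : U →ₗ[ℝ] U →ₗ[ℝ] U →ₗ[ℝ] ℝ where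
  toFun u := (t u).flip
  map_add' u u' := by
    ext v w
    simp
  map_smul' c u := by
    ext v w
    simp

theorem flip23_apply (t : U →ₗ[ℝ] U →ₗ[ℝ] U →ₗ[ℝ] ℝ) (u v w : U) :
    flip23 t u v w = t u w v := rfl

end gen

theorem result {H : Type*} [Group H] {U : Type*} [AddCommGroup U] [Module ℝ U] [FiniteDimensional ℝ U] (ρ : Representation ℝ H U) (hirr : ∀ W : Submodule ℝ U, (∀ g : H, W.map (ρ g) ≤ W) → W = ⊥ ∨ W = ⊤) (B : LinearMap.BilinForm ℝ U) (hB0 : B ≠ 0) (hBs : ∀ u v, B u v = B v u) (hBi : ∀ (g : H) (u v : U), B (ρ g u) (ρ g v) = B u v) : (∃ m : U →ₗ[ℝ] U →ₗ[ℝ] U, m ≠ 0 ∧ (∀ u v, m u v = m v u) ∧ (∀ (g : H) (u v : U), m (ρ g u) (ρ g v) = ρ g (m u v)) ∧ ∀ m' : U →ₗ[ℝ] U →ₗ[ℝ] U, (∀ (g : H) (u v : U), m' (ρ g u) (ρ g v) = ρ g (m' u v)) → ∃ c : ℝ, m' = c • m) ↔ (∃ t : U →ₗ[ℝ] U →ₗ[ℝ] U →ₗ[ℝ] ℝ, t ≠ 0 ∧ (∀ u v w, t u v w = t v u w ∧ t u v w = t u w v) ∧ (∀ (g : H) (u v w : U), t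 (ρ g u) (ρ g v) (ρ g w) = t u v w) ∧ ∀ t' : U →ₗ[ℝ] U →ₗ[ℝ] U →ₗ[ℝ] ℝ, (∀ (g : H) (u v w : U), t' (ρ g u) (ρ g v) (ρ g w) = t' u v w) → ∃ c : ℝ, t' = c • t) := by
  have hnd := nondeg ρ hirr B hB0 hBi
  obtain ⟨e, he⟩ := exists_dual B hnd
  constructor
  · rintro ⟨m, hm0, hmc, hmi, hmu⟩
    have hti := tri_of_mul ρ B hBi m hmi
    have huniq : ∀ t' : U →ₗ[ℝ] U →ₗ[ℝ] U →ₗ[ℝ] ℝ,
        (∀ (g : H) (u v w : U), t' (ρ g u) (ρ g v) (ρ g w) = t' u v w) →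
        ∃ c : ℝ, t' = c • m.compr₂ B := by
      intro t' ht'
      have hm' : ∀ u v w, B ((t'.compr₂ e) u v) w = t' u v w := by
        intro u v w
        rw [LinearMap.compr₂_apply, he]
      obtain ⟨c, hc⟩ := hmu (t'.compr₂ e) (mul_of_tri ρ B hnd hBi t' ht' _ hm')
      refine ⟨c, ?_⟩
      ext u v w
      rw [← hm', hc]
      simp
    have ht0 : m.compr₂ B ≠ 0 := by
      intro h0
      apply hm0
      ext u v
      apply hnd
      intro w
      have := congrArg (fun t : U →ₗ[ℝ] U →ₗ[ℝ] U →ₗ[ℝ] ℝ => t u v w) h0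
      simpa using this
    have hsym1 : ∀ u v w, (m.compr₂ B) u v w = (m.compr₂ B) v u w := by
      intro u v w
      rw [LinearMap.compr₂_apply, LinearMap.compr₂_apply, hmc]
    obtain ⟨t, htdef⟩ : ∃ t : U →ₗ[ℝ] U →ₗ[ℝ] U →ₗ[ℝ] ℝ, t = m.compr₂ B := ⟨_, rfl⟩
    rw [← htdef] at hti huniq ht0 hsym1
    have hflip : ∀ (g : H) (u v w : U),
        flip23 t (ρ g u) (ρ g v) (ρ g w) = flip23 t u v w := by
      intro g u v w
      rw [flip23_apply, flip23_apply, hti]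
    obtain ⟨c, hc⟩ := huniq (flip23 t) hflip
    have hc' : ∀ u v w, t u w v = c * t u v w := by
      intro u v w
      have := congrArg (fun s : U →ₗ[ℝ] U →ₗ[ℝ] U →ₗ[ℝ] ℝ => s u v w) hc
      simpa [flip23_apply] using this
    have hex : ∃ u v w, t u v w ≠ 0 := by
      by_contra hne
      push Not at hne
      apply ht0
      ext u v w
      simpa using hne u v w
    obtain ⟨u₀, v₀, w₀, h₀⟩ := hex
    have hcc : c * c = 1 := by
      have h1 := hc' u₀ v₀ w₀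
      have h2 := hc' u₀ w₀ v₀
      rw [h1] at h2
      have : (c * c - 1) * t u₀ v₀ w₀ = 0 := by linarith
      rcases mul_eq_zero.mp this with h | h
      · linarith
      · exact absurd h h₀
    have hc1 : c = 1 := by
      have : (c - 1) * (c + 1) = 0 := by linarith
      rcases mul_eq_zero.mp this with h | h
      · linarith
      · exfalso
        have hcm : c = -1 := by linarith
        have e1 := hc' u₀ v₀ w₀
        have e2 := hsym1 u₀ w₀ v₀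
        have e3 := hc' w₀ u₀ v₀
        have e4 := hsym1 w₀ v₀ u₀
        have e5 := hc' v₀ w₀ u₀
        have e6 := hsym1 v₀ u₀ w₀
        rw [hcm] at e1 e3 e5
        apply h₀
        linarith
    refine ⟨t, ht0, fun u v w => ⟨hsym1 u v w, ?_⟩, hti, huniq⟩
    have := hc' u w v
    rw [hc1, one_mul] at this
    exact this
  · rintro ⟨t, ht0, hts, hti, htu⟩
    have hm' : ∀ u v w, B ((t.compr₂ e) u v) w = t u v w := by
      intro u v w
      rw [LinearMap.compr₂_apply, he]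
    refine ⟨t.compr₂ e, ?_, ?_, mul_of_tri ρ B hnd hBi t hti _ hm', ?_⟩
    · intro h0
      apply ht0
      ext u v w
      rw [← hm', h0]
      simp
    · intro u v
      rw [← sub_eq_zero]
      apply hnd
      intro w
      rw [map_sub, LinearMap.sub_apply, hm', hm', (hts u v w).1, sub_self]
    · intro m' hm'i
      obtain ⟨c, hc⟩ := htu (m'.compr₂ B) (tri_of_mul ρ B hBi m' hm'i)
      refine ⟨c, ?_⟩
      ext u v
      rw [← sub_eq_zero]
      apply hnd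
      intro w
      have h1 := congrArg (fun s : U →ₗ[ℝ] U →ₗ[ℝ] U →ₗ[ℝ] ℝ => s u v w) hc
      simp only [LinearMap.compr₂_apply, LinearMap.smul_apply] at h1
      rw [map_sub, LinearMap.sub_apply, h1, LinearMap.smul_apply, LinearMap.smul_apply, map_smul,
        LinearMap.smul_apply, hm', sub_self]

end Cfsg.Agent.S5541
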