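import Cfsg.Statements.S5543

set_option autoImplicit false
open Cfsg

namespace Cfsg.Agent.S5543

section gen

variable {V : Type*} [AddCommGroup V] [Module ℝ V]

theorem law_quarter :
    Cfsg.Axial.monsterLaw (1 / 4 : ℝ) (1 / 32) (1 / 4) (1 / 4) = {1, 0} := by
  unfold Cfsg.Axial.monsterLaw
  have h1 : ¬ ((1 / 4 : ℝ) = 1 / 32 ∧ (1 / 4 : ℝ) = 1 / 32) := by norm_num
  have h2 : ¬ ((1 / 4 : ℝ) = 1 / 32 ∨ (1 / 4 : ℝ) = 1 / 32) := by norm_num
  rw [if_neg h1, if_neg h2, if_pos ⟨rfl, rfl⟩]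

theorem mem_eigen (mul : V →ₗ[ℝ] V →ₗ[ℝ] V) (a v : V) (c : ℝ) :
    v ∈ Cfsg.Axial.eigen mul a c ↔ mul a v = c • v := Module.End.mem_eigenspace_iff

theorem orth (mul : V →ₗ[ℝ] V →ₗ[ℝ] V) (B : LinearMap.BilinForm ℝ V)
    (hV : Cfsg.Axial.IsMajoranaAmbient mul B) (a v : V)
    (hv : v ∈ Cfsg.Axial.eigen mul a (1 / 4)) :
    ∀ w ∈ Cfsg.Axial.eigenSum mul a {1, 0}, B v w = 0 := by
  obtain ⟨hcomm, hsym, hpos, hassoc, -⟩ := hV
  have hle : Cfsg.Axial.eigenSum mul a {1, 0} ≤ LinearMap.ker (B v) := by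
    unfold Cfsg.Axial.eigenSum
    refine iSup₂_le fun c hc w hw => ?_
    rw [mem_eigen] at hw hv
    rw [LinearMap.mem_ker]
    have e1 : B (mul a v) w = B v (mul a w) := by
      rw [hcomm a v]
      exact (hassoc v a w).symm
    rw [hv, hw, map_smul, LinearMap.smul_apply, map_smul, smul_eq_mul, smul_eq_mul] at e1
    have hc' : c = 1 ∨ c = 0 := by simpa using hc
    rcases hc' with rfl | rfl
    · linarith
    · linarith
  intro w hw
  exact LinearMap.mem_ker.mp (hle hw)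

end gen

theorem result {V : Type*} [AddCommGroup V] [Module ℝ V] [FiniteDimensional ℝ V] (mul : V →ₗ[ℝ] V →ₗ[ℝ] V) (B : LinearMap.BilinForm ℝ V) (hV : Cfsg.Axial.IsMajoranaAmbient mul B) (X : Subgroup (V ≃ₗ[ℝ] V)) (hX : ∀ x ∈ X, x * x = 1) (ax : (V ≃ₗ[ℝ] V) → V) (hax : ∀ x ∈ X, x ≠ 1 → Cfsg.Axial.IsMajoranaPair mul B x (ax x)) (h1 : ∀ x ∈ X, x ≠ 1 → B (ax x) (ax x) = 1) (h2A : ∀ x ∈ X, ∀ y ∈ X, x ≠ 1 → y ≠ 1 → x ≠ y → mul (ax x) (ax y) = (1 / 8 : ℝ) • (ax x + ax y - ax (x * y))) : Nat.card ↥X ≤ 4 := by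
  classical
  by_contra hcard
  have hcomm : ∀ g ∈ X, ∀ h ∈ X, g * h = h * g := by
    intro g hg h hh
    have e1 := hX (g * h) (X.mul_mem hg hh)
    have e2 := hX g hg
    have e3 := hX h hh
    calc g * h = g * (g * h * (g * h)) * h := by rw [e1, mul_one]
      _ = (g * g) * (h * g) * (h * h) := by simp only [mul_assoc]
      _ = h * g := by rw [e2, e3, one_mul, mul_one]
  have hbound : ∀ S : Finset (V ≃ₗ[ℝ] V), (∀ g ∈ X, g ∈ S) → Nat.card X ≤ S.card := by
    intro S hS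
    have e : Nat.card X = (X : Set (V ≃ₗ[ℝ] V)).ncard :=
      Nat.card_coe_set_eq (X : Set (V ≃ₗ[ℝ] V))
    rw [e, ← Set.ncard_coe_finset]
    exact Set.ncard_le_ncard (fun g hg => hS g hg) (Finset.finite_toSet S)
  obtain ⟨x, hx, hx1⟩ : ∃ x ∈ X, x ≠ 1 := by
    by_contra hne
    push Not at hne
    have := hbound {1} (fun g hg => by rw [Finset.mem_singleton]; exact hne g hg)
    rw [Finset.card_singleton] at this
    omega
  obtain ⟨y, hy, hy1, hyx⟩ : ∃ y ∈ X, y ≠ 1 ∧ y ≠ x := by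
    by_contra hne
    push Not at hne
    have := hbound {1, x} (fun g hg => by
      rw [Finset.mem_insert, Finset.mem_singleton]
      by_cases h : g = 1
      · exact Or.inl h
      · exact Or.inr (hne g hg h))
    have h2 := Finset.card_le_two (a := (1 : V ≃ₗ[ℝ] V)) (b := x)
    omega
  obtain ⟨z, hz, hz1, hzx, hzy, hzxy⟩ : ∃ z ∈ X, z ≠ 1 ∧ z ≠ x ∧ z ≠ y ∧ z ≠ x * y := by
    by_contra hne
    push Not at hne
    have := hbound {1, x, y, x * y} (fun g hg => by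
      simp only [Finset.mem_insert, Finset.mem_singleton]
      by_cases h : g = 1
      · exact Or.inl h
      · by_cases h' : g = x
        · exact Or.inr (Or.inl h')
        · by_cases h'' : g = y
          · exact Or.inr (Or.inr (Or.inl h''))
          · exact Or.inr (Or.inr (Or.inr (hne g hg h h' h''))))
    have h2 := Finset.card_le_four (a := (1 : V ≃ₗ[ℝ] V)) (b := x) (c := y) (d := x * y)
    omega
  have hxx := hX x hx
  have hyy := hX y hy
  have hzz := hX z hz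
  have hxy := hcomm x hx y hy
  have hxz := hcomm x hx z hz
  have hyz := hcomm y hy z hz
  have mxy : x * y ∈ X := X.mul_mem hx hy
  have mxz : x * z ∈ X := X.mul_mem hx hz
  have myz : y * z ∈ X := X.mul_mem hy hz
  have mxyz : x * y * z ∈ X := X.mul_mem mxy hz
  have canc : ∀ g h : V ≃ₗ[ℝ] V, g * g = 1 → (g * h = 1 ↔ h = g) := by
    intro g h hg
    constructor
    · intro e
      calc h = g * g * h := by rw [hg, one_mul]
        _ = g * (g * h) := by rw [mul_assoc]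
        _ = g := by rw [e, mul_one]
    · rintro rfl
      exact hg
  have nxy : x * y ≠ 1 := fun e => hyx ((canc x y hxx).mp e)
  have nxz : x * z ≠ 1 := fun e => hzx ((canc x z hxx).mp e)
  have nyz : y * z ≠ 1 := fun e => hzy ((canc y z hyy).mp e)
  have nxyz : x * y * z ≠ 1 := fun e => hzxy ((canc (x * y) z (hX _ mxy)).mp e)
  have e_x_xy : x * (x * y) = y := by rw [← mul_assoc, hxx, one_mul]
  have e_x_xz : x * (x * z) = z := by rw [← mul_assoc, hxx, one_mul]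
  have e_y_xz : y * (x * z) = x * y * z := by rw [← mul_assoc, ← hxy]
  have e_xy_xz : x * y * (x * z) = y * z := by
    calc x * y * (x * z) = y * x * (x * z) := by rw [hxy]
      _ = y * (x * x) * z := by simp only [mul_assoc]
      _ = y * z := by rw [hxx, mul_one]
  have e_x_yz : x * (y * z) = x * y * z := by rw [mul_assoc]
  have e_x_xyz : x * (x * y * z) = y * z := by
    calc x * (x * y * z) = (x * x) * y * z := by simp only [mul_assoc]
      _ = y * z := by rw [hxx, one_mul]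
  have e_yz_xyz : y * z * (x * y * z) = x := by
    calc y * z * (x * y * z) = y * z * (x * (y * z)) := by rw [mul_assoc x y z]
      _ = y * z * ((y * z) * x) := by rw [hcomm x hx (y * z) myz]
      _ = (y * z * (y * z)) * x := (mul_assoc (y * z) (y * z) x).symm
      _ = x := by rw [hX _ myz, one_mul]
  have d_x_xy : x ≠ x * y := fun e => hy1 (by
    have := congrArg (fun g => x * g) e
    simp only [e_x_xy, hxx] at this
    exact this.symm)
  have d_x_xz : x ≠ x * z := fun e => hz1 (by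
    have := congrArg (fun g => x * g) e
    simp only [e_x_xz, hxx] at this
    exact this.symm)
  have d_y_xz : y ≠ x * z := fun e => hzxy (by
    have := congrArg (fun g => x * g) e
    rw [e_x_xz] at this
    exact this.symm)
  have d_xy_z : x * y ≠ z := fun e => hzxy e.symm
  have d_xy_xz : x * y ≠ x * z := fun e => hzy (by
    have := congrArg (fun g => x * g) e
    rw [e_x_xy, e_x_xz] at this
    exact this.symm)
  have d_x_yz : x ≠ y * z := fun e => hzxy (by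
    have := congrArg (fun g => y * g) e
    rw [← mul_assoc, hyy, one_mul, ← hxy] at this
    exact this.symm)
  have d_x_xyz : x ≠ x * y * z := fun e => nyz (by
    have := congrArg (fun g => x * g) e
    rw [e_x_xyz, hxx] at this
    exact this.symm)
  have d_yz_xyz : y * z ≠ x * y * z := fun e => hx1 (by
    have := congrArg (fun g => g * (y * z)) e
    rw [hX _ myz, mul_assoc x y z, mul_assoc, hX _ myz, mul_one] at this
    exact this.symm)
  have p1 := h2A x hx y hy hx1 hy1 (Ne.symm hyx)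
  have p2 := h2A x hx (x * y) mxy hx1 nxy d_x_xy
  have p3 := h2A x hx z hz hx1 hz1 (Ne.symm hzx)
  have p4 := h2A x hx (x * z) mxz hx1 nxz d_x_xz
  have p5 := h2A y hy z hz hy1 hz1 (Ne.symm hzy)
  have p6 := h2A y hy (x * z) mxz hy1 nxz d_y_xz
  have p7 := h2A (x * y) mxy z hz nxy hz1 d_xy_z
  have p8 := h2A (x * y) mxy (x * z) mxz nxy nxz d_xy_xz
  have p9 := h2A x hx (y * z) myz hx1 nyz d_x_yz
  have p10 := h2A x hx (x * y * z) mxyz hx1 nxyz d_x_xyz
  have p11 := h2A (y * z) myz (x * y * z) mxyz nyz nxyz d_yz_xyz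
  rw [e_x_xy] at p2
  rw [e_x_xz] at p4
  rw [e_y_xz] at p6
  rw [e_xy_xz] at p8
  rw [e_x_yz] at p9
  rw [e_x_xyz] at p10
  rw [e_yz_xyz] at p11
  obtain ⟨a1, ha1⟩ : ∃ a, a = ax x := ⟨_, rfl⟩
  obtain ⟨a2, ha2⟩ : ∃ a, a = ax y := ⟨_, rfl⟩
  obtain ⟨a3, ha3⟩ : ∃ a, a = ax (x * y) := ⟨_, rfl⟩
  obtain ⟨a4, ha4⟩ : ∃ a, a = ax z := ⟨_, rfl⟩
  obtain ⟨a5, ha5⟩ : ∃ a, a = ax (x * z) := ⟨_, rfl⟩
  obtain ⟨a6, ha6⟩ : ∃ a, a = ax (y * z) := ⟨_, rfl⟩
  obtain ⟨a7, ha7⟩ : ∃ a, a = ax (x * y * z) := ⟨_, rfl⟩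
  simp only [← ha1, ← ha2, ← ha3, ← ha4, ← ha5, ← ha6, ← ha7] at p1 p2 p3 p4 p5 p6 p7 p8 p9 p10 p11
  obtain ⟨-, -, ⟨⟨-, hidem, -, hfus⟩, -⟩, -⟩ := hax x hx hx1
  rw [← ha1] at hidem hfus
  have hv1 : a2 - a3 ∈ Cfsg.Axial.eigen mul a1 (1 / 4) := by
    rw [mem_eigen, map_sub, p1, p2]
    module
  have hv2 : a4 - a5 ∈ Cfsg.Axial.eigen mul a1 (1 / 4) := by
    rw [mem_eigen, map_sub, p3, p4]
    module
  have hv3 : a6 - a7 ∈ Cfsg.Axial.eigen mul a1 (1 / 4) := by
    rw [mem_eigen, map_sub, p9, p10]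
    module
  have hS : (1 / 4 : ℝ) ∈ Cfsg.Axial.majoranaSpectrum := by
    unfold Cfsg.Axial.majoranaSpectrum
    simp
  have hprod := hfus (1 / 4) hS (1 / 4) hS _ hv1 _ hv2
  rw [law_quarter] at hprod
  have hcalc : mul (a2 - a3) (a4 - a5) = (-(1 / 4) : ℝ) • (a6 - a7) := by
    have e : mul (a2 - a3) (a4 - a5) = mul a2 a4 - mul a2 a5 - (mul a3 a4 - mul a3 a5) := by
      simp only [map_sub, LinearMap.sub_apply]
      abel
    rw [e, p5, p6, p7, p8]
    module
  rw [hcalc] at hprod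
  have h0 := orth mul B hV a1 (a6 - a7) hv3 _ hprod
  rw [map_smul, smul_eq_mul] at h0
  have h00 : B (a6 - a7) (a6 - a7) = 0 := by linarith
  have hzero : a6 - a7 = 0 := by
    by_contra hne
    have := hV.2.2.1 _ hne
    linarith
  have h67 : a6 = a7 := sub_eq_zero.mp hzero
  obtain ⟨-, -, ⟨⟨-, hidem6, -, -⟩, -⟩, -⟩ := hax (y * z) myz nyz
  rw [← ha6] at hidem6
  rw [← h67, hidem6] at p11
  have h16 : a1 = (-6 : ℝ) • a6 := by
    have e : a1 = (2 : ℝ) • a6 - (8 : ℝ) • ((1 / 8 : ℝ) • (a6 + a6 - a1)) := by module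
    rw [← p11] at e
    rw [e]
    module
  have n1 := h1 x hx hx1
  have n6 := h1 (y * z) myz nyz
  rw [← ha1] at n1
  rw [← ha6] at n6
  rw [h16] at n1
  simp only [map_smul, LinearMap.smul_apply, smul_eq_mul] at n1
  rw [n6] at n1
  norm_num at n1

end Cfsg.Agent.S5543
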