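import Cfsg.Statements.S5545

set_option autoImplicit false
open Cfsg

namespace Cfsg.Agent.S5545

section gen

variable {V : Type*} [AddCommGroup V] [Module ℝ V]

open Cfsg.Axial

theorem mem_eigen (mul : V →ₗ[ℝ] V →ₗ[ℝ] V) (a v : V) (c : ℝ) :
    v ∈ eigen mul a c ↔ mul a v = c • v := Module.End.mem_eigenspace_iff

theorem eig_orth (mul : V →ₗ[ℝ] V →ₗ[ℝ] V) (B : LinearMap.BilinForm ℝ V)
    (hV : IsMajoranaAmbient mul B) (a u w : V) (c d : ℝ) (hcd : c ≠ d)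
    (hu : u ∈ eigen mul a c) (hw : w ∈ eigen mul a d) : B u w = 0 := by
  obtain ⟨hcomm, hsym, hpos, hassoc, -⟩ := hV
  rw [mem_eigen] at hu hw
  have e1 : B (mul a u) w = B u (mul a w) := by
    rw [hcomm a u]
    exact (hassoc u a w).symm
  rw [hu, hw, map_smul, LinearMap.smul_apply, map_smul, smul_eq_mul, smul_eq_mul] at e1
  have h : (c - d) * B u w = 0 := by linarith
  rcases mul_eq_zero.mp h with h | h
  · exact absurd (sub_eq_zero.mp h) hcd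
  · exact h

theorem law_0_0 : monsterLaw (1 / 4 : ℝ) (1 / 32) 0 0 = {0} := by
  unfold monsterLaw
  have h1 : ¬ ((0 : ℝ) = 1 / 32 ∧ (0 : ℝ) = 1 / 32) := by norm_num
  have h2 : ¬ ((0 : ℝ) = 1 / 32 ∨ (0 : ℝ) = 1 / 32) := by norm_num
  have h3 : ¬ ((0 : ℝ) = 1 / 4 ∧ (0 : ℝ) = 1 / 4) := by norm_num
  have h4 : ¬ ((0 : ℝ) = 1 / 4 ∨ (0 : ℝ) = 1 / 4) := by norm_num
  rw [if_neg h1, if_neg h2, if_neg h3, if_neg h4, if_pos rfl]

theorem law_0_q : monsterLaw (1 / 4 : ℝ) (1 / 32) 0 (1 / 4) = {1 / 4} := by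
  unfold monsterLaw
  have h1 : ¬ ((0 : ℝ) = 1 / 32 ∧ (1 / 4 : ℝ) = 1 / 32) := by norm_num
  have h2 : ¬ ((0 : ℝ) = 1 / 32 ∨ (1 / 4 : ℝ) = 1 / 32) := by norm_num
  have h3 : ¬ ((0 : ℝ) = 1 / 4 ∧ (1 / 4 : ℝ) = 1 / 4) := by norm_num
  rw [if_neg h1, if_neg h2, if_neg h3, if_pos (Or.inr rfl)]

theorem law_q_q : monsterLaw (1 / 4 : ℝ) (1 / 32) (1 / 4) (1 / 4) = {1, 0} := by
  unfold monsterLaw
  have h1 : ¬ ((1 / 4 : ℝ) = 1 / 32 ∧ (1 / 4 : ℝ) = 1 / 32) := by norm_num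
  have h2 : ¬ ((1 / 4 : ℝ) = 1 / 32 ∨ (1 / 4 : ℝ) = 1 / 32) := by norm_num
  rw [if_neg h1, if_neg h2, if_pos ⟨rfl, rfl⟩]

theorem eigenSum_singleton (mul : V →ₗ[ℝ] V →ₗ[ℝ] V) (a : V) (c : ℝ) :
    eigenSum mul a {c} = eigen mul a c := by
  unfold eigenSum
  rw [iSup_singleton]

theorem eigen_le_sum (mul : V →ₗ[ℝ] V →ₗ[ℝ] V) (a : V) (c : ℝ) (T : Set ℝ) (hc : c ∈ T) :
    eigen mul a c ≤ eigenSum mul a T := by
  unfold eigenSum
  exact le_biSup (eigen mul a) hc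

theorem transport (mul : V →ₗ[ℝ] V →ₗ[ℝ] V) (B : LinearMap.BilinForm ℝ V) (μ σ : V ≃ₗ[ℝ] V)
    (a : V) (h : IsMajoranaPair mul B μ a)
    (hσm : ∀ u v, σ (mul u v) = mul (σ u) (σ v)) (hc : ∀ v, μ (σ v) = σ (μ v)) :
    IsMajoranaPair mul B μ (σ a) := by
  obtain ⟨hm, hB, ⟨⟨ha0, hidem, htop, hfus⟩, hprim⟩, hmiy1, hmiy2⟩ := h
  have hσs : ∀ u v, σ.symm (mul u v) = mul (σ.symm u) (σ.symm v) := by
    intro u v
    apply σ.injective
    rw [hσm, σ.apply_symm_apply, σ.apply_symm_apply, σ.apply_symm_apply]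
  have heig : ∀ c, eigen mul (σ a) c = (eigen mul a c).map (σ : V →ₗ[ℝ] V) := by
    intro c
    ext v
    rw [Submodule.mem_map, mem_eigen]
    constructor
    · intro hv
      refine ⟨σ.symm v, ?_, σ.apply_symm_apply v⟩
      rw [mem_eigen]
      have h1 := congrArg σ.symm hv
      rw [hσs, σ.symm_apply_apply, map_smul] at h1
      exact h1
    · rintro ⟨w, hw, rfl⟩
      rw [mem_eigen] at hw
      rw [LinearEquiv.coe_coe, ← hσm, hw, map_smul]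
  have hsum : ∀ T : Set ℝ,
      eigenSum mul (σ a) T = (eigenSum mul a T).map (σ : V →ₗ[ℝ] V) := by
    intro T
    unfold eigenSum
    rw [Submodule.map_iSup]
    refine iSup_congr fun c => ?_
    rw [Submodule.map_iSup]
    exact iSup_congr fun _ => heig c
  refine ⟨hm, hB, ⟨⟨?_, ?_, ?_, ?_⟩, ?_⟩, ?_, ?_⟩
  · exact fun h0 => ha0 (σ.map_eq_zero_iff.mp h0)
  · rw [← hσm, hidem]
  · rw [hsum, htop, Submodule.map_top, LinearMap.range_eq_top]
    exact σ.surjective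
  · intro c hc' d hd u hu v hv
    rw [heig] at hu hv
    obtain ⟨u', hu', rfl⟩ := hu
    obtain ⟨v', hv', rfl⟩ := hv
    rw [hsum]
    exact ⟨mul u' v', hfus c hc' d hd u' hu' v' hv', hσm u' v'⟩
  · rw [heig, hprim, Submodule.map_span, Set.image_singleton]
    rfl
  · intro v hv
    rw [hsum] at hv
    obtain ⟨w, hw, rfl⟩ := hv
    have h1 : μ w = w := hmiy1 w hw
    change μ (σ w) = σ w
    rw [hc, h1]
  · intro v hv
    rw [heig] at hv
    obtain ⟨w, hw, rfl⟩ := hv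
    have h1 : μ w = -w := hmiy2 w hw
    change μ (σ w) = -(σ w)
    rw [hc, h1, map_neg]

theorem decomp (mul : V →ₗ[ℝ] V →ₗ[ℝ] V) (B : LinearMap.BilinForm ℝ V)
    (hV : IsMajoranaAmbient mul B) (μ : V ≃ₗ[ℝ] V) (a b : V)
    (hb : IsMajoranaPair mul B μ b) (hfix : μ a = a) (hnb : B b b = 1) :
    (a + (3 * B a b) • b - (4 : ℝ) • mul a b) ∈ eigen mul b 0 ∧
      ((4 : ℝ) • mul a b - (4 * B a b) • b) ∈ eigen mul b (1 / 4) := by
  obtain ⟨hm, hB, ⟨⟨hb0, hidem, htop, hfus⟩, hprim⟩, hmiy1, hmiy2⟩ := hb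
  have hcomm := hV.1
  have ha : a ∈ eigenSum mul b majoranaSpectrum := by
    rw [htop]
    exact Submodule.mem_top
  unfold eigenSum majoranaSpectrum at ha
  rw [iSup_insert, iSup_insert, iSup_insert, iSup_singleton] at ha
  obtain ⟨v1, hv1, r1, hr1, e1⟩ := Submodule.mem_sup.mp ha
  obtain ⟨v0, hv0, r2, hr2, e2⟩ := Submodule.mem_sup.mp hr1
  obtain ⟨v4, hv4, v32, hv32, e3⟩ := Submodule.mem_sup.mp hr2
  have hμ1 : μ v1 = v1 := hmiy1 v1 (eigen_le_sum mul b 1 _ (by simp) hv1)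
  have hμ0 : μ v0 = v0 := hmiy1 v0 (eigen_le_sum mul b 0 _ (by simp) hv0)
  have hμ4 : μ v4 = v4 := hmiy1 v4 (eigen_le_sum mul b (1 / 4) _ (by simp) hv4)
  have hμ32 : μ v32 = -v32 := hmiy2 v32 hv32
  have hv32z : v32 = 0 := by
    have h1 : μ a = v1 + (v0 + (v4 + -v32)) := by
      rw [← e1, ← e2, ← e3, map_add, map_add, map_add, hμ1, hμ0, hμ4, hμ32]
    rw [hfix, ← e1, ← e2, ← e3] at h1
    have h2 : v32 = -v32 := by
      have h3 := add_left_cancel (add_left_cancel (add_left_cancel h1))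
      exact h3
    have h4 : (2 : ℝ) • v32 = 0 := by
      have h5 : (2 : ℝ) • v32 = v32 + v32 := two_smul ℝ v32
      rw [h5]
      nth_rewrite 2 [h2]
      exact add_neg_cancel v32
    rcases smul_eq_zero.mp h4 with h | h
    · norm_num at h
    · exact h
  rw [hprim] at hv1
  obtain ⟨t, ht⟩ := Submodule.mem_span_singleton.mp hv1
  have hdec : a = t • b + v0 + v4 := by
    rw [← e1, ← e2, ← e3, hv32z, ← ht, add_zero, add_assoc]
  have hb1 : b ∈ eigen mul b 1 := by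
    rw [mem_eigen, hidem, one_smul]
  have o0 : B v0 b = 0 := eig_orth mul B hV b v0 b 0 1 (by norm_num) hv0 hb1
  have o4 : B v4 b = 0 := eig_orth mul B hV b v4 b (1 / 4) 1 (by norm_num) hv4 hb1
  have hBab : B a b = t := by
    rw [hdec, map_add, map_add, LinearMap.add_apply, LinearMap.add_apply, map_smul,
      LinearMap.smul_apply, hnb, o0, o4, smul_eq_mul, mul_one, add_zero, add_zero]
  rw [mem_eigen] at hv0 hv4
  have hab : mul a b = t • b + (1 / 4 : ℝ) • v4 := by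
    rw [hcomm a b, hdec, map_add, map_add, map_smul, hidem, hv0, hv4, zero_smul, add_zero]
  have k0 : a + (3 * B a b) • b - (4 : ℝ) • mul a b = v0 := by
    rw [hBab, hab, hdec]
    module
  have k4 : (4 : ℝ) • mul a b - (4 * B a b) • b = v4 := by
    rw [hBab, hab]
    module
  rw [k0, k4, mem_eigen, mem_eigen]
  exact ⟨hv0, hv4⟩

theorem fusion_eq (mul : V →ₗ[ℝ] V →ₗ[ℝ] V) (B : LinearMap.BilinForm ℝ V)
    (hV : IsMajoranaAmbient mul B) (μ : V ≃ₗ[ℝ] V) (a b : V)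
    (hb : IsMajoranaPair mul B μ b) (haa : mul a a = a) (α0 α4 : V) (t : ℝ)
    (h0 : α0 ∈ eigen mul b 0) (h4 : α4 ∈ eigen mul b (1 / 4)) (hdec : a = t • b + α0 + α4) :
    (2 : ℝ) • mul α0 α4 = (1 - t / 2) • α4 := by
  obtain ⟨hm, hB, ⟨⟨hb0, hidem, htop, hfus⟩, hprim⟩, hmiy1, hmiy2⟩ := hb
  have hcomm := hV.1
  have hS0 : (0 : ℝ) ∈ majoranaSpectrum := by
    unfold majoranaSpectrum
    simp
  have hSq : (1 / 4 : ℝ) ∈ majoranaSpectrum := by
    unfold majoranaSpectrum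
    simp
  have f00 := hfus 0 hS0 0 hS0 α0 h0 α0 h0
  have f04 := hfus 0 hS0 (1 / 4) hSq α0 h0 α4 h4
  have f44 := hfus (1 / 4) hSq (1 / 4) hSq α4 h4 α4 h4
  rw [law_0_0, eigenSum_singleton] at f00
  rw [law_0_q, eigenSum_singleton] at f04
  rw [law_q_q] at f44
  have hb1 : b ∈ eigen mul b 1 := by
    rw [mem_eigen, hidem, one_smul]
  have e0 := (mem_eigen mul b α0 0).mp h0
  have e4 := (mem_eigen mul b α4 (1 / 4)).mp h4
  have e0' : mul α0 b = (0 : ℝ) • α0 := by rw [hcomm α0 b, e0]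
  have e4' : mul α4 b = (1 / 4 : ℝ) • α4 := by rw [hcomm α4 b, e4]
  have e40 : mul α4 α0 = mul α0 α4 := hcomm α4 α0
  obtain ⟨P, hP⟩ : ∃ P : V, P = α4 - (t / 2) • α4 - (2 : ℝ) • mul α0 α4 := ⟨_, rfl⟩
  have hexp : mul a a = (t * t) • b + mul α0 α0 + mul α4 α4 + (t / 2) • α4 +
      (2 : ℝ) • mul α0 α4 := by
    rw [hdec]
    simp only [map_add, map_smul, LinearMap.add_apply, LinearMap.smul_apply, hidem, e0, e4, e0',
      e4', e40]
    module
  have hP' : P = (t * t - t) • b + (mul α0 α0 - α0) + mul α4 α4 := by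
    have h1 : (t * t) • b + mul α0 α0 + mul α4 α4 + (t / 2) • α4 + (2 : ℝ) • mul α0 α4 =
        t • b + α0 + α4 := by
      rw [← hexp, haa]
      exact hdec
    rw [hP]
    have h2 : α4 - (t / 2) • α4 - (2 : ℝ) • mul α0 α4 =
        (t * t - t) • b + (mul α0 α0 - α0) + mul α4 α4 -
          (((t * t) • b + mul α0 α0 + mul α4 α4 + (t / 2) • α4 + (2 : ℝ) • mul α0 α4) -
            (t • b + α0 + α4)) := by
      module
    rw [h2, h1, sub_self, sub_zero]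
  have hPq : P ∈ eigen mul b (1 / 4) := by
    rw [hP]
    exact Submodule.sub_mem _ (Submodule.sub_mem _ h4 (Submodule.smul_mem _ _ h4))
      (Submodule.smul_mem _ _ f04)
  have hP10 : P ∈ eigenSum mul b {1, 0} := by
    rw [hP']
    refine Submodule.add_mem _ (Submodule.add_mem _ ?_ ?_) f44
    · exact Submodule.smul_mem _ _ (eigen_le_sum mul b 1 _ (by simp) hb1)
    · exact eigen_le_sum mul b 0 _ (by simp) (Submodule.sub_mem _ f00 h0)
  have hle : eigenSum mul b {1, 0} ≤ LinearMap.ker (B P) := by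
    unfold eigenSum
    refine iSup₂_le fun c hc w hw => ?_
    rw [LinearMap.mem_ker]
    have hc' : c = 1 ∨ c = 0 := by simpa using hc
    rcases hc' with rfl | rfl
    · exact eig_orth mul B hV b P w (1 / 4) 1 (by norm_num) hPq hw
    · exact eig_orth mul B hV b P w (1 / 4) 0 (by norm_num) hPq hw
  have hPP : B P P = 0 := LinearMap.mem_ker.mp (hle hP10)
  have hPz : P = 0 := by
    by_contra hne
    have := hV.2.2.1 P hne
    linarith
  rw [hPz] at hP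
  have h3 : (2 : ℝ) • mul α0 α4 = (1 - t / 2) • α4 -
      (α4 - (t / 2) • α4 - (2 : ℝ) • mul α0 α4) := by
    module
  rw [h3, ← hP, sub_zero]

end gen

theorem result {V : Type*} [AddCommGroup V] [Module ℝ V] [FiniteDimensional ℝ V] (mul : V →ₗ[ℝ] V →ₗ[ℝ] V) (B : LinearMap.BilinForm ℝ V) (hV : Cfsg.Axial.IsMajoranaAmbient mul B) (μ₀ μ₁ : V ≃ₗ[ℝ] V) (a₀ a₁ : V) (h₀ : Cfsg.Axial.IsMajoranaPair mul B μ₀ a₀) (h₁ : Cfsg.Axial.IsMajoranaPair mul B μ₁ a₁) (hu₀ : ∀ a : V, Cfsg.Axial.IsMajoranaPair mul B μ₀ a → a = a₀) (hu₁ : ∀ a : V, Cfsg.Axial.IsMajoranaPair mul B μ₁ a → a = a₁) (hn₀ : B a₀ a₀ = 1) (hn₁ : B a₁ a₁ = 1) (hc : μ₀ * μ₁ = μ₁ * μ₀) (hne : a₀ ≠ a₁) : (B a₀ a₁ = 0 ∧ mul a₀ a₁ = 0) ∨ (B a₀ a₁ = 1 / 8 ∧ mul (a₀ + a₁ - (8 : ℝ) • mul a₀ a₁) (a₀ + a₁ - (8 : ℝ) • mul a₀ a₁) = a₀ + a₁ - (8 : ℝ) • mul a₀ a₁ ∧ mul a₀ (a₀ + a₁ - (8 : ℝ) • mul a₀ a₁) = (1 / 8 : ℝ) • (a₀ + (a₀ + a₁ - (8 : ℝ) •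 mul a₀ a₁) - a₁) ∧ mul a₁ (a₀ + a₁ - (8 : ℝ) • mul a₀ a₁) = (1 / 8 : ℝ) • (a₁ + (a₀ + a₁ - (8 : ℝ) • mul a₀ a₁) - a₀)) := by
  have hcomm := hV.1
  have hsym := hV.2.1
  have hassoc := hV.2.2.2.1
  have hc1 : ∀ v, μ₀ (μ₁ v) = μ₁ (μ₀ v) := fun v => by
    have h := congrArg (fun f : V ≃ₗ[ℝ] V => f v) hc
    exact h
  have hfix0 : μ₁ a₀ = a₀ := hu₀ _ (transport mul B μ₀ μ₁ a₀ h₀ h₁.1 hc1)
  have hfix1 : μ₀ a₁ = a₁ :=
    hu₁ _ (transport mul B μ₁ μ₀ a₁ h₁ h₀.1 (fun v => (hc1 v).symm))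
  have hidem0 : mul a₀ a₀ = a₀ := h₀.2.2.1.1.2.1
  have hidem1 : mul a₁ a₁ = a₁ := h₁.2.2.1.1.2.1
  obtain ⟨x, hx⟩ : ∃ x, x = mul a₀ a₁ := ⟨_, rfl⟩
  obtain ⟨l, hl⟩ : ∃ l, l = B a₀ a₁ := ⟨_, rfl⟩
  rw [← hx, ← hl]
  have h01 : mul a₀ a₁ = x := hx.symm
  have h10 : mul a₁ a₀ = x := by
    rw [hcomm a₁ a₀]
    exact h01
  have hl' : B a₁ a₀ = l := by
    rw [hsym a₁ a₀]
    exact hl.symm
  obtain ⟨d10, d14⟩ := decomp mul B hV μ₁ a₀ a₁ h₁ hfix0 hn₁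
  obtain ⟨d00, d04⟩ := decomp mul B hV μ₀ a₁ a₀ h₀ hfix1 hn₀
  rw [← hl, h01] at d10 d14
  rw [hl', h10] at d00 d04
  have R1 : mul a₁ x = (1 / 4 : ℝ) • (x + (3 * l) • a₁) := by
    have h := (mem_eigen mul a₁ _ 0).mp d10
    simp only [map_add, map_sub, map_smul, h10, hidem1, zero_smul] at h
    linear_combination (norm := module) (-(1 / 4) : ℝ) • h
  have R2 : mul a₀ x = (1 / 4 : ℝ) • (x + (3 * l) • a₀) := by
    have h := (mem_eigen mul a₀ _ 0).mp d00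
    simp only [map_add, map_sub, map_smul, h01, hidem0, zero_smul] at h
    linear_combination (norm := module) (-(1 / 4) : ℝ) • h
  have hx0 : mul x a₀ = mul a₀ x := hcomm x a₀
  have hx1 : mul x a₁ = mul a₁ x := hcomm x a₁
  have F1 := fusion_eq mul B hV μ₁ a₀ a₁ h₁ hidem0 _ _ l d10 d14 (by module)
  have F2 := fusion_eq mul B hV μ₀ a₁ a₀ h₀ hidem1 _ _ l d00 d04 (by module)
  simp only [map_add, map_sub, map_smul, LinearMap.add_apply, LinearMap.sub_apply,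
    LinearMap.smul_apply, h01, h10, hidem1, hidem0, hx0, hx1, R1, R2] at F1 F2
  have E1 : (16 : ℝ) • mul x x = (4 * l - 1) • x + (3 * l) • a₀ + (8 * l * l + 2 * l) • a₁ := by
    linear_combination (norm := module) (-(1 / 2) : ℝ) • F1
  have E2 : (16 : ℝ) • mul x x = (4 * l - 1) • x + (3 * l) • a₁ + (8 * l * l + 2 * l) • a₀ := by
    linear_combination (norm := module) (-(1 / 2) : ℝ) • F2
  have hkey : (l * (1 - 8 * l)) • (a₀ - a₁) = 0 := by
    have h : (4 * l - 1) • x + (3 * l) • a₀ + (8 * l * l + 2 * l) • a₁ =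
        (4 * l - 1) • x + (3 * l) • a₁ + (8 * l * l + 2 * l) • a₀ := by
      rw [← E1, ← E2]
    linear_combination (norm := module) h
  have hl01 : l = 0 ∨ l = 1 / 8 := by
    rcases smul_eq_zero.mp hkey with h | h
    · rcases mul_eq_zero.mp h with h | h
      · exact Or.inl h
      · right
        linarith
    · exact absurd (sub_eq_zero.mp h) hne
  rcases hl01 with h | h
  · left
    refine ⟨h, ?_⟩
    have hBxx : B x x = 0 := by
      have e1 : B x x = B a₀ (mul a₁ x) := by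
        rw [hassoc a₀ a₁ x, h01]
      have e2 : B a₀ x = l := by
        rw [← h01, hassoc a₀ a₀ a₁, hidem0]
        exact hl.symm
      rw [e1, R1, h]
      simp only [map_smul, map_add, smul_eq_mul, e2, h]
      norm_num
    by_contra hne'
    have := hV.2.2.1 x hne'
    linarith
  · right
    refine ⟨h, ?_, ?_, ?_⟩
    · simp only [map_add, map_sub, map_smul, LinearMap.add_apply, LinearMap.sub_apply,
        LinearMap.smul_apply, h01, h10, hidem1, hidem0, hx0, hx1, R1, R2]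
      rw [h] at E1 ⊢
      linear_combination (norm := module) (4 : ℝ) • E1
    · simp only [map_add, map_sub, map_smul, h01, hidem0, R2]
      rw [h]
      module
    · simp only [map_add, map_sub, map_smul, h10, hidem1, R1]
      rw [h]
      module

end Cfsg.Agent.S5545
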