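import Mathlib
import Cfsg.Agent.Lib.Helper1.Co2Rep
import Cfsg.Statements.S5546

set_option autoImplicit false
open Cfsg

namespace Cfsg.Agent.S5546

/-- The second Conway group (the stabilizer in the Leech lattice automorphism group of the short vector fixed in the definitions) is isomorphic to a subgroup of the general linear group of degree 23 over the field with 13 elements: there is an injective homomorphism into it. -/
theorem result : ∃ f : ↥Cfsg.Spor.Co2 →* GL (Fin 23) (ZMod 13), Function.Injective f := by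
  have hmem : ∀ g : ↥Cfsg.Spor.Co2, (∀ v w : leechLattice, g.1 (v + w) = g.1 v + g.1 w) ∧
      (∀ v : leechLattice, sqNorm ((g.1 v).1) = sqNorm v.1) ∧ g.1 Spor.leechU = Spor.leechU := by
    intro g
    have h := Subgroup.mem_inf.mp g.2
    have h1 : (∀ v w : leechLattice, g.1 (v + w) = g.1 v + g.1 w) ∧
        ∀ v : leechLattice, sqNorm ((g.1 v).1) = sqNorm v.1 := h.1
    exact ⟨h1.1, h1.2, MulAction.mem_stabilizer_iff.mp h.2⟩
  let φ : ↥Cfsg.Spor.Co2 →* Matrix (ZMod 23) (ZMod 23) (ZMod 13) :=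
    { toFun := fun g => Cfsg.Agent.Lib.Helper1.C2R.B g.1
      map_one' := Cfsg.Agent.Lib.Helper1.C2R.B_one
      map_mul' := fun g h => Cfsg.Agent.Lib.Helper1.C2R.B_mul g.1 h.1 (hmem g).1 (hmem h).1
        (hmem h).2.1 (hmem h).2.2 }
  let ψ : ↥Cfsg.Spor.Co2 →* GL (Fin 23) (ZMod 13) := φ.toHomUnits
  refine ⟨ψ, ?_⟩
  rw [injective_iff_map_eq_one]
  intro g hg
  have h1 : Cfsg.Agent.Lib.Helper1.C2R.B g.1 = 1 := by
    have h2 := congrArg (fun u : GL (Fin 23) (ZMod 13) => (u : Matrix (Fin 23) (Fin 23) (ZMod 13))) hg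
    exact h2
  apply Subtype.ext
  exact Cfsg.Agent.Lib.Helper1.C2R.inj g.1 (hmem g).1 (hmem g).2.1 (hmem g).2.2 h1

end Cfsg.Agent.S5546
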