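import Cfsg.Statements.S5551
import Cfsg.Agent.Lib.Helper9.Leech2

set_option autoImplicit false
open Cfsg

namespace Cfsg.Agent.S5551

open Cfsg.Agent.Lib.Helper9.Leech

theorem result (v w : Cfsg.GolayPt → ℤ) (hv : v ∈ Cfsg.leechLattice) (hw : w ∈ Cfsg.leechLattice) (hv0 : v ≠ 0) (hw0 : w ≠ 0) (hvn : Cfsg.sqNorm v ≤ 64) (hwn : Cfsg.sqNorm w ≤ 64) (hc : ∃ z ∈ Cfsg.leechLattice, v - w = 2 • z) : Cfsg.sqNorm v = Cfsg.sqNorm w ∧ (Cfsg.sqNorm v < 64 → w = v ∨ w = -v) := by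
  by_cases h1 : v = w
  · rw [h1]
    exact ⟨rfl, fun _ => Or.inl rfl⟩
  by_cases h2 : v = -w
  · rw [h2]
    refine ⟨?_, fun _ => Or.inr (neg_neg w).symm⟩
    unfold sqNorm
    apply Finset.sum_congr rfl
    intro p _
    rw [Pi.neg_apply, neg_sq]
  have h := cong_core v w hw hvn hwn hc h1 h2
  refine ⟨by rw [h.1, h.2.1], fun h3 => ?_⟩
  rw [h.1] at h3
  exact absurd h3 (lt_irrefl _)

end Cfsg.Agent.S5551
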