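import Cfsg.Statements.S5553
import Cfsg.Agent.Lib.Helper9.LeechIdx

set_option autoImplicit false
open Cfsg

namespace Cfsg.Agent.S5553

open scoped Pointwise
open Cfsg.Agent.S5393 Cfsg.Agent.S5548 Cfsg.Agent.Lib.Helper9.Leech

def tau4 : (GolayPt → ℤ) →+ (GolayPt → ZMod 4) where
  toFun x := fun p => ((x p : ℤ) : ZMod 4)
  map_zero' := by
    funext p
    simp
  map_add' := by
    intro x y
    funext p
    simp

theorem tau4_apply (x : GolayPt → ℤ) (p : GolayPt) : tau4 x p = ((x p : ℤ) : ZMod 4) := rfl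

theorem tau4_surj : Function.Surjective tau4 := by
  intro y
  refine ⟨fun p => ((y p).val : ℤ), ?_⟩
  funext p
  rw [tau4_apply]
  simp

def two4 : GolayPt → ZMod 4 := fun _ => 2

def Dsub : AddSubgroup (GolayPt → ZMod 4) where
  carrier := {y | y = 0 ∨ y = two4}
  add_mem' := by
    rintro a b (rfl | rfl) (rfl | rfl)
    · left
      rw [add_zero]
    · right
      rw [zero_add]
    · right
      rw [add_zero]
    · left
      funext p
      change (2 : ZMod 4) + 2 = 0
      decide
  zero_mem' := Or.inl rfl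
  neg_mem' := by
    rintro a (rfl | rfl)
    · left
      rw [neg_zero]
    · right
      funext p
      change -(2 : ZMod 4) = 2
      decide

theorem card_Dsub : Nat.card Dsub = 2 := by
  have hset : ((Dsub : AddSubgroup (GolayPt → ZMod 4)) : Set (GolayPt → ZMod 4)) = {0, two4} := rfl
  change Nat.card ((Dsub : AddSubgroup (GolayPt → ZMod 4)) : Set (GolayPt → ZMod 4)) = 2
  rw [Nat.card_coe_set_eq, hset, Set.ncard_pair]
  intro h
  have h2 := congrFun h none
  revert h2
  unfold two4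
  decide

def Asub' : AddSubgroup (GolayPt → ℤ) := Dsub.comap tau4

theorem index_Asub' : Asub'.index = 2 ^ 47 := by
  unfold Asub'
  rw [AddSubgroup.index_comap_of_surjective _ tau4_surj]
  have h := AddSubgroup.index_mul_card Dsub
  rw [card_Dsub, Nat.card_fun, Nat.card_zmod] at h
  have h1 : Nat.card GolayPt = 24 := by
    rw [Nat.card_eq_fintype_card]
    rfl
  rw [h1] at h
  have h2 : (4 : ℕ) ^ 24 = 2 ^ 47 * 2 := by norm_num
  rw [h2] at h
  exact Nat.eq_of_mul_eq_mul_right (by norm_num) h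

theorem mem_Asub' (x : GolayPt → ℤ) :
    x ∈ Asub' ↔ (∀ p, x p % 4 = 0) ∨ (∀ p, x p % 4 = 2) := by
  change (tau4 x = 0 ∨ tau4 x = two4) ↔ _
  have h0 : ∀ p, tau4 x p = 0 ↔ x p % 4 = 0 := by
    intro p
    rw [tau4_apply, ZMod.intCast_zmod_eq_zero_iff_dvd]
    constructor
    · intro h
      have h2 : (4 : ℤ) ∣ x p := h
      omega
    · intro h
      have h2 : (4 : ℤ) ∣ x p := by omega
      exact h2
  have h2 : ∀ p, tau4 x p = 2 ↔ x p % 4 = 2 := by
    intro p
    have e : ((2 : ℤ) : ZMod 4) = 2 := rfl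
    rw [tau4_apply, ← e, ZMod.intCast_eq_intCast_iff]
    change x p % 4 = 2 % 4 ↔ _
    omega
  constructor
  · rintro (h | h)
    · left
      intro p
      exact (h0 p).1 (congrFun h p)
    · right
      intro p
      exact (h2 p).1 (congrFun h p)
  · rintro (h | h)
    · left
      funext p
      exact (h0 p).2 (h p)
    · right
      funext p
      exact (h2 p).2 (h p)

def sigma8 : (GolayPt → ℤ) →+ ZMod 8 where
  toFun x := ((∑ p, x p : ℤ) : ZMod 8)
  map_zero' := by simp
  map_add' := by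
    intro x y
    simp only [Pi.add_apply, Finset.sum_add_distrib]
    push_cast
    ring

theorem sigma8_apply (x : GolayPt → ℤ) : sigma8 x = ((∑ p, x p : ℤ) : ZMod 8) := rfl

theorem sigma8_zero_iff (x : GolayPt → ℤ) : sigma8 x = 0 ↔ (∑ p, x p) % 8 = 0 := by
  rw [sigma8_apply, ZMod.intCast_zmod_eq_zero_iff_dvd]
  constructor
  · intro h
    have h2 : (8 : ℤ) ∣ ∑ p, x p := h
    omega
  · intro h
    have h2 : (8 : ℤ) ∣ ∑ p, x p := by omega
    exact h2

theorem four_dvd_sum (x : GolayPt → ℤ) (hx : x ∈ Asub') : (∑ p, x p) % 4 = 0 := by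
  rcases (mem_Asub' x).1 hx with h | h
  · have h1 : (4 : ℤ) ∣ ∑ p, x p := Finset.dvd_sum (fun p _ => by
      have h2 := h p
      omega)
    omega
  · have h1 : (4 : ℤ) ∣ ∑ p, (x p - 2) := Finset.dvd_sum (fun p _ => by
      have h2 := h p
      omega)
    rw [Finset.sum_sub_distrib, Finset.sum_const, card_pt] at h1
    simp only [nsmul_eq_mul, Nat.cast_ofNat] at h1
    omega

theorem sigma8_Asub' (x : GolayPt → ℤ) (hx : x ∈ Asub') : sigma8 x = 0 ∨ sigma8 x = 4 := by
  have h := four_dvd_sum x hx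
  rcases Int.emod_two_eq_zero_or_one ((∑ p, x p) / 4) with h6 | h6
  · left
    rw [sigma8_zero_iff]
    omega
  · right
    rw [sigma8_apply]
    have h7 : ((4 : ℤ) : ZMod 8) = 4 := rfl
    rw [← h7, ZMod.intCast_eq_intCast_iff]
    change (∑ p, x p) % 8 = 4 % 8
    omega

theorem sigma8_four : ∃ x ∈ Asub', sigma8 x = 4 := by
  refine ⟨Pi.single none 4, ?_, ?_⟩
  · rw [mem_Asub']
    left
    intro p
    by_cases hp : p = none
    · rw [hp, Pi.single_eq_same]
      rfl
    · rw [Pi.single_eq_of_ne hp]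
      rfl
  · rw [sigma8_apply, Finset.sum_pi_single']
    simp

def Asub : AddSubgroup (GolayPt → ℤ) := Asub' ⊓ sigma8.ker

theorem index_Asub : Asub.index = 2 ^ 48 := by
  unfold Asub
  rw [two_step Asub' sigma8 sigma8_Asub' sigma8_four, index_Asub']
  norm_num

theorem mem_Asub (x : GolayPt → ℤ) :
    x ∈ Asub ↔ ((∀ p, x p % 4 = 0) ∨ (∀ p, x p % 4 = 2)) ∧ (∑ p, x p) % 8 = 0 := by
  unfold Asub
  rw [AddSubgroup.mem_inf, AddMonoidHom.mem_ker, sigma8_zero_iff, mem_Asub']

theorem Asub_le : Asub ≤ leechLattice := by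
  intro x hx
  rw [mem_Asub] at hx
  obtain ⟨h, hs⟩ := hx
  rw [mem_leechLattice_iff]
  rcases h with h | h
  · refine ⟨0, fun p => x p / 2, ?_, ?_, ?_⟩
    · have e : red (fun p => x p / 2) = 0 := by
        funext p
        apply (red_zero_iff _ p).2
        have h2 := h p
        change x p / 2 % 2 = 0
        omega
      rw [e]
      exact Submodule.zero_mem _
    · intro p
      have h2 := h p
      change x p = 0 + 2 * (x p / 2)
      omega
    · rw [hs]
      rfl
  · refine ⟨2, fun p => (x p - 2) / 2, ?_, ?_, ?_⟩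
    · have e : red (fun p => (x p - 2) / 2) = 0 := by
        funext p
        apply (red_zero_iff _ p).2
        have h2 := h p
        change (x p - 2) / 2 % 2 = 0
        omega
      rw [e]
      exact Submodule.zero_mem _
    · intro p
      have h2 := h p
      change x p = 2 + 2 * ((x p - 2) / 2)
      omega
    · rw [hs]
      rfl

theorem two_smul_mem (v : GolayPt → ℤ) (hv : v ∈ leechLattice) : (2 : ℤ) • v ∈ Asub := by
  rw [mem_leechLattice_iff] at hv
  obtain ⟨m, c, hc, hxc, hsum⟩ := hv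
  rw [mem_Asub]
  have hv2 : ∀ p, ((2 : ℤ) • v) p = 2 * v p := fun p => rfl
  constructor
  · rcases Int.emod_two_eq_zero_or_one m with hm | hm
    · left
      intro p
      rw [hv2, hxc p]
      omega
    · right
      intro p
      rw [hv2, hxc p]
      omega
  · rw [Finset.sum_congr rfl (fun p _ => hv2 p), ← Finset.mul_sum]
    omega

theorem norm_Asub (v : GolayPt → ℤ) (hv : v ∈ Asub) : (32 : ℤ) ∣ sqNorm v := by
  rw [mem_Asub] at hv
  obtain ⟨h, hs⟩ := hv
  rcases h with h | h
  · obtain ⟨t, ht⟩ : ∃ t : GolayPt → ℤ, t = fun p => v p / 4 := ⟨_, rfl⟩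
    have hvt : ∀ p, v p = 4 * t p := by
      intro p
      have h2 := h p
      rw [ht]
      change v p = 4 * (v p / 4)
      omega
    have hn : sqNorm v = 16 * ∑ p, t p ^ 2 := by
      unfold sqNorm
      rw [Finset.mul_sum]
      apply Finset.sum_congr rfl
      intro p _
      rw [hvt p]
      ring
    have hsum : ∑ p, v p = 4 * ∑ p, t p := by
      rw [Finset.mul_sum]
      exact Finset.sum_congr rfl (fun p _ => hvt p)
    have hpar : (2 : ℤ) ∣ ∑ p, (t p ^ 2 - t p) :=
      Finset.dvd_sum (fun p _ => sq_sub_self_dvd (t p))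
    rw [Finset.sum_sub_distrib] at hpar
    rw [hn]
    rw [hsum] at hs
    omega
  · obtain ⟨t, ht⟩ : ∃ t : GolayPt → ℤ, t = fun p => (v p - 2) / 4 := ⟨_, rfl⟩
    have hvt : ∀ p, v p = 2 + 4 * t p := by
      intro p
      have h2 := h p
      rw [ht]
      change v p = 2 + 4 * ((v p - 2) / 4)
      omega
    have hn : sqNorm v = 96 + 16 * ∑ p, t p + 16 * ∑ p, t p ^ 2 := by
      unfold sqNorm
      have h1 : ∀ p, v p ^ 2 = 4 + (16 * t p + 16 * t p ^ 2) := by
        intro p
        rw [hvt p]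
        ring
      rw [Finset.sum_congr rfl (fun p _ => h1 p), Finset.sum_add_distrib, Finset.sum_add_distrib,
        Finset.sum_const, card_pt, ← Finset.mul_sum, ← Finset.mul_sum]
      simp only [nsmul_eq_mul, Nat.cast_ofNat]
      ring
    have hsum : ∑ p, v p = 48 + 4 * ∑ p, t p := by
      rw [Finset.sum_congr rfl (fun p _ => hvt p), Finset.sum_add_distrib, Finset.sum_const,
        card_pt, ← Finset.mul_sum]
      simp only [nsmul_eq_mul, Nat.cast_ofNat]
      ring
    have hpar : (2 : ℤ) ∣ ∑ p, (t p ^ 2 - t p) :=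
      Finset.dvd_sum (fun p _ => sq_sub_self_dvd (t p))
    rw [Finset.sum_sub_distrib] at hpar
    rw [hn]
    rw [hsum] at hs
    omega

theorem result : ∃ A : AddSubgroup (Cfsg.GolayPt → ℤ), A ≤ Cfsg.leechLattice ∧ (∀ v ∈ Cfsg.leechLattice, (2 : ℤ) • v ∈ A) ∧ (A.addSubgroupOf Cfsg.leechLattice).index = 2 ^ 12 ∧ ∀ v ∈ A, (32 : ℤ) ∣ Cfsg.sqNorm v := by
  refine ⟨Asub, Asub_le, two_smul_mem, ?_, norm_Asub⟩
  have h := AddSubgroup.relIndex_mul_index Asub_le
  rw [index_leech, index_Asub] at h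
  have h2 : (2 : ℕ) ^ 48 = 2 ^ 12 * 2 ^ 36 := by norm_num
  rw [h2] at h
  exact Nat.eq_of_mul_eq_mul_right (by norm_num) h

end Cfsg.Agent.S5553
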