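import Cfsg.Statements.S5594
import Cfsg.Agent.Lib.Helper9.Leech

set_option autoImplicit false
open Cfsg

namespace Cfsg.Agent.S5594

open scoped Pointwise
open Cfsg.Agent.S5393 Cfsg.Agent.S5548 Cfsg.Agent.Lib.Helper9.Leech

def gmap (x : GolayPt → ℤ) : GolayPt → ℤ :=
  fun p => if qw 0 p = 1 then - x (projInv p) else x (projInv p)

theorem gmap_apply (x : GolayPt → ℤ) (p : GolayPt) :
    gmap x p = if qw 0 p = 1 then - x (projInv p) else x (projInv p) := rfl

theorem gmap_isL (x : GolayPt → ℤ) (hx : IsL x) : IsL (gmap x) := by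
  have h := isL_sign (qrWord 0) (qr_mem 0) _ (isL_perm projInv projInv_mem x hx)
  rw [qrWord_eq_qw] at h
  exact h

theorem gmap_mem (x : GolayPt → ℤ) (hx : x ∈ leechLattice) : gmap x ∈ leechLattice :=
  (mem_leechLattice_iff _).2 (gmap_isL x ((mem_leechLattice_iff x).1 hx))

theorem qw_proj : ∀ p : GolayPt, (qw 0 p = 1) ↔ ¬ (qw 0 (projInvFun p) = 1) := by decide

theorem proj_proj (p : GolayPt) : projInv (projInv p) = p := projInv.left_inv p

theorem gmap_gmap (x : GolayPt → ℤ) : gmap (gmap x) = -x := by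
  funext p
  rw [gmap_apply, gmap_apply, proj_proj, Pi.neg_apply]
  have h := qw_proj p
  by_cases h1 : qw 0 p = 1
  · have h2 : ¬ (qw 0 (projInv p) = 1) := h.1 h1
    rw [if_pos h1, if_neg h2]
  · have h2 : qw 0 (projInv p) = 1 := by
      by_contra h3
      exact h1 (h.2 h3)
    rw [if_neg h1, if_pos h2]

theorem gmap_add (x y : GolayPt → ℤ) : gmap (x + y) = gmap x + gmap y := by
  funext p
  rw [Pi.add_apply, gmap_apply, gmap_apply, gmap_apply]
  by_cases h1 : qw 0 p = 1
  · rw [if_pos h1, if_pos h1, if_pos h1, Pi.add_apply, neg_add]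
  · rw [if_neg h1, if_neg h1, if_neg h1, Pi.add_apply]

theorem gmap_neg (x : GolayPt → ℤ) : gmap (-x) = - gmap x := by
  funext p
  rw [Pi.neg_apply, gmap_apply, gmap_apply]
  by_cases h1 : qw 0 p = 1
  · rw [if_pos h1, if_pos h1, Pi.neg_apply]
  · rw [if_neg h1, if_neg h1, Pi.neg_apply]

theorem gmap_norm (x : GolayPt → ℤ) : sqNorm (gmap x) = sqNorm x := by
  unfold sqNorm
  have h : ∀ p, gmap x p ^ 2 = x (projInv p) ^ 2 := by
    intro p
    rw [gmap_apply]
    by_cases h1 : qw 0 p = 1
    · rw [if_pos h1, neg_sq]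
    · rw [if_neg h1]
  rw [Finset.sum_congr rfl (fun p _ => h p)]
  exact Equiv.sum_comp projInv (fun p => x p ^ 2)

def gPerm : Equiv.Perm leechLattice where
  toFun v := ⟨gmap v, gmap_mem v v.2⟩
  invFun v := ⟨-gmap v, neg_mem (gmap_mem v v.2)⟩
  left_inv v := Subtype.ext (by
    change -gmap (gmap v) = v
    rw [gmap_gmap, neg_neg])
  right_inv v := Subtype.ext (by
    change gmap (-gmap v) = v
    rw [gmap_neg, gmap_gmap, neg_neg])

theorem gPerm_mem : gPerm ∈ Co0 := by
  refine ⟨fun v w => Subtype.ext ?_, fun v => ?_⟩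
  · change gmap ((v : GolayPt → ℤ) + w) = gmap v + gmap w
    exact gmap_add _ _
  · exact gmap_norm v

theorem neg_mem_Co0 : Equiv.neg leechLattice ∈ Co0 := by
  refine ⟨fun v w => ?_, fun v => ?_⟩
  · change -(v + w) = -v + -w
    exact neg_add v w
  · change sqNorm (-(v : GolayPt → ℤ)) = sqNorm (v : GolayPt → ℤ)
    unfold sqNorm
    apply Finset.sum_congr rfl
    intro p _
    rw [Pi.neg_apply, neg_sq]

def v0 : GolayPt → ℤ := fun p => if p = none then 8 else 0

theorem v0_mem : v0 ∈ leechLattice := by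
  rw [mem_leechLattice_iff]
  refine ⟨0, fun p => if p = none then 4 else 0, ?_, ?_, ?_⟩
  · have e : red (fun p => if p = none then 4 else 0) = 0 := by
      funext p
      unfold red
      beta_reduce
      by_cases h : p = none
      · rw [if_pos h]
        rfl
      · rw [if_neg h]
        rfl
    rw [e]
    exact Submodule.zero_mem _
  · intro p
    unfold v0
    beta_reduce
    by_cases h : p = none
    · rw [if_pos h, if_pos h]
      rfl
    · rw [if_neg h, if_neg h]
      rfl
  · unfold v0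
    decide

theorem co0_map_zero (h : Co0) : (h : Equiv.Perm leechLattice) 0 = 0 := by
  have h1 := h.2.1 0 0
  rw [add_zero] at h1
  have h2 : ((h : Equiv.Perm leechLattice) 0) + 0 =
      (h : Equiv.Perm leechLattice) 0 + (h : Equiv.Perm leechLattice) 0 := by
    rw [add_zero]
    exact h1
  exact (add_left_cancel h2).symm

theorem co0_map_neg (h : Co0) (v : leechLattice) :
    (h : Equiv.Perm leechLattice) (-v) = -((h : Equiv.Perm leechLattice) v) := by
  have h1 := h.2.1 (-v) v
  rw [neg_add_cancel, co0_map_zero] at h1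
  exact eq_neg_of_add_eq_zero_left h1.symm

theorem result :
    ∃ n : ↥Cfsg.Co0, (∀ v : ↥Cfsg.leechLattice, ((n • v : ↥Cfsg.leechLattice) : Cfsg.GolayPt → ℤ) = -(v : Cfsg.GolayPt → ℤ)) ∧
    ∀ K : Subgroup ↥Cfsg.Co0, ¬ (Subgroup.zpowers n).IsComplement' K := by
  obtain ⟨n, hn⟩ : ∃ n : Co0, n = ⟨Equiv.neg leechLattice, neg_mem_Co0⟩ := ⟨_, rfl⟩
  obtain ⟨g, hg⟩ : ∃ g : Co0, g = ⟨gPerm, gPerm_mem⟩ := ⟨_, rfl⟩
  have hnv : ∀ v : leechLattice, (n : Equiv.Perm leechLattice) v = -v := by
    intro v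
    rw [hn]
    rfl
  have hgg : g * g = n := by
    apply Subtype.ext
    apply Equiv.ext
    intro v
    rw [hn, hg]
    apply Subtype.ext
    change gmap (gmap v) = -v
    exact gmap_gmap v
  have hcent : ∀ h : Co0, h * n = n * h := by
    intro h
    apply Subtype.ext
    apply Equiv.ext
    intro v
    change (h : Equiv.Perm leechLattice) ((n : Equiv.Perm leechLattice) v) =
      (n : Equiv.Perm leechLattice) ((h : Equiv.Perm leechLattice) v)
    rw [hnv, hnv, co0_map_neg]
  have hnn : n * n = 1 := by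
    apply Subtype.ext
    apply Equiv.ext
    intro v
    change (n : Equiv.Perm leechLattice) ((n : Equiv.Perm leechLattice) v) = v
    rw [hnv, hnv, neg_neg]
  have hn1 : n ≠ 1 := by
    intro h
    have h1 := hnv ⟨v0, v0_mem⟩
    rw [h] at h1
    have h2 := congrArg (fun w : leechLattice => (w : GolayPt → ℤ) none) h1
    revert h2
    unfold v0
    decide
  refine ⟨n, fun v => ?_, fun K hK => ?_⟩
  · have h := hnv v
    exact congrArg Subtype.val h
  · obtain ⟨⟨⟨h, hh⟩, ⟨k, hk⟩⟩, hhk⟩ := hK.2 g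
    have hhk' : h * k = g := hhk
    obtain ⟨j, hj⟩ := Subgroup.mem_zpowers_iff.1 hh
    have hcomm : Commute n k := (hcent k).symm
    have hcomm2 : Commute h k := by
      rw [← hj]
      exact hcomm.zpow_left j
    have hh2 : h * h = 1 := by
      rw [← hj, ← zpow_add, ← two_mul, zpow_mul, zpow_two, hnn, one_zpow]
    have hkk : k * k = n := by
      rw [← hgg, ← hhk']
      calc k * k = (h * h) * (k * k) := by rw [hh2, one_mul]
        _ = h * (h * k) * k := by group
        _ = h * (k * h) * k := by rw [hcomm2.eq]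
        _ = h * k * (h * k) := by group
    have hnK : n ∈ K := by
      rw [← hkk]
      exact K.mul_mem hk hk
    have hdisj := Subgroup.IsComplement'.disjoint hK
    exact hn1 (Subgroup.disjoint_def.1 hdisj (Subgroup.mem_zpowers n) hnK)

end Cfsg.Agent.S5594
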