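import Cfsg.Statements.S5623

set_option autoImplicit false
open Cfsg

namespace Cfsg.Agent.S5623

def supp (w : Fin 24 → ZMod 2) : Finset (Fin 24) := Finset.univ.filter fun a => w a ≠ 0

theorem norm_eq (w : Fin 24 → ZMod 2) : hammingNorm w = (supp w).card := rfl

theorem mem_supp (w : Fin 24 → ZMod 2) (i : Fin 24) : i ∈ supp w ↔ w i ≠ 0 := by
  simp [supp]

theorem zmod2_sub : ∀ a b : ZMod 2, (a - b ≠ 0) ↔ ((a ≠ 0 ∨ b ≠ 0) ∧ ¬(a ≠ 0 ∧ b ≠ 0)) := by
  decide

theorem zmod2_one : ∀ a : ZMod 2, a ≠ 0 → a = 1 := by decide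

theorem zmod2_mul : ∀ a b : ZMod 2, a * b = if a ≠ 0 ∧ b ≠ 0 then 1 else 0 := by decide

theorem supp_sub (u v : Fin 24 → ZMod 2) :
    supp (u - v) = (supp u ∪ supp v) \ (supp u ∩ supp v) := by
  ext i
  simp only [mem_supp, Finset.mem_sdiff, Finset.mem_union, Finset.mem_inter, Pi.sub_apply]
  exact zmod2_sub (u i) (v i)

theorem card_supp_sub (u v : Fin 24 → ZMod 2) :
    (supp (u - v)).card + 2 * (supp u ∩ supp v).card = (supp u).card + (supp v).card := by
  rw [supp_sub, Finset.card_sdiff_of_subset Finset.inter_subset_union]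
  have h1 := Finset.card_union_add_card_inter (supp u) (supp v)
  have h2 : (supp u ∩ supp v).card ≤ (supp u ∪ supp v).card :=
    Finset.card_le_card Finset.inter_subset_union
  omega

theorem supp_eq_empty (u : Fin 24 → ZMod 2) : supp u = ∅ ↔ u = 0 := by
  constructor
  · intro h
    funext i
    by_contra hi
    have : i ∈ supp u := (mem_supp u i).mpr hi
    rw [h] at this
    exact absurd this (Finset.notMem_empty i)
  · rintro rfl
    ext i
    simp [mem_supp]

def ind (S : Finset (Fin 24)) : Fin 24 → ZMod 2 := fun i => if i ∈ S then 1 else 0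

theorem supp_ind (S : Finset (Fin 24)) : supp (ind S) = S := by
  ext i
  simp [mem_supp, ind]

theorem ind_supp (u : Fin 24 → ZMod 2) : ind (supp u) = u := by
  funext i
  simp only [ind, mem_supp]
  by_cases h : u i = 0
  · simp [h]
  · rw [if_pos h]
    exact (zmod2_one (u i) h).symm

def suppEquiv : (Fin 24 → ZMod 2) ≃ Finset (Fin 24) := ⟨supp, ind, ind_supp, supp_ind⟩

theorem card_weight (k : ℕ) :
    (Finset.univ.filter (fun u : Fin 24 → ZMod 2 => (supp u).card = k)).card = Nat.choose 24 k := by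
  have h := Finset.card_powersetCard k (Finset.univ : Finset (Fin 24))
  rw [Finset.card_univ, Fintype.card_fin] at h
  rw [← h]
  apply Finset.card_equiv suppEquiv
  intro u
  simp [Finset.mem_powersetCard, suppEquiv]

theorem card_weight_le3 :
    (Finset.univ.filter (fun u : Fin 24 → ZMod 2 => (supp u).card ≤ 3)).card = 2325 := by
  have h := Finset.card_eq_sum_card_fiberwise (f := fun u : Fin 24 → ZMod 2 => (supp u).card)
    (s := Finset.univ.filter (fun u : Fin 24 → ZMod 2 => (supp u).card ≤ 3))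
    (t := Finset.range 4) (by
      intro u hu
      simp only [Finset.coe_filter, Finset.mem_univ, true_and, Set.mem_ofPred_eq] at hu
      simp only [Finset.coe_range, Set.mem_Iio]
      omega)
  rw [h]
  have e : ∀ b ∈ Finset.range 4,
      ((Finset.univ.filter (fun u : Fin 24 → ZMod 2 => (supp u).card ≤ 3)).filter
        (fun u => (supp u).card = b)).card = Nat.choose 24 b := by
    intro b hb
    rw [Finset.mem_range] at hb
    have e2 : (Finset.univ.filter (fun u : Fin 24 → ZMod 2 => (supp u).card ≤ 3)).filter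
        (fun u => (supp u).card = b) =
        Finset.univ.filter (fun u : Fin 24 → ZMod 2 => (supp u).card = b) := by
      ext u
      simp only [Finset.mem_filter, Finset.mem_univ, true_and]
      omega
    rw [e2, card_weight b]
  rw [Finset.sum_congr rfl e]
  decide

section code

variable (C : Submodule (ZMod 2) (Fin 24 → ZMod 2))

open Classical in
noncomputable def T3 (v : Fin 24 → ZMod 2) : Finset (Fin 24 → ZMod 2) :=
  Finset.univ.filter (fun u => u - v ∈ C ∧ (supp u).card ≤ 3)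

open Classical in
noncomputable def T4 (v : Fin 24 → ZMod 2) : Finset (Fin 24 → ZMod 2) :=
  Finset.univ.filter (fun u => u - v ∈ C ∧ (supp u).card = 4)

theorem mem_T3 (v u : Fin 24 → ZMod 2) : u ∈ T3 C v ↔ u - v ∈ C ∧ (supp u).card ≤ 3 := by
  simp [T3]

theorem mem_T4 (v u : Fin 24 → ZMod 2) : u ∈ T4 C v ↔ u - v ∈ C ∧ (supp u).card = 4 := by
  simp [T4]

theorem sub_mem_of {v u u' : Fin 24 → ZMod 2} (h : u - v ∈ C) (h' : u' - v ∈ C) : u - u' ∈ C := by
  have e : u - u' = (u - v) - (u' - v) := by abel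
  rw [e]
  exact C.sub_mem h h'

theorem count_C (hdim : Module.finrank (ZMod 2) C = 12) (S : Finset (Fin 24 → ZMod 2))
    (hS : ∀ c, c ∈ S ↔ c ∈ C) : S.card = 4096 := by
  have h1 : Nat.card C = 4096 := by
    rw [Module.natCard_eq_pow_finrank (K := ZMod 2), hdim, Nat.card_zmod]
    norm_num
  have h2 : (S : Set (Fin 24 → ZMod 2)) = (C : Set (Fin 24 → ZMod 2)) := by
    ext c
    simp [hS]
  rw [← Set.ncard_coe_finset, h2, ← Nat.card_coe_set_eq]
  exact h1

open Classical in
theorem double_count (hdim : Module.finrank (ZMod 2) C = 12)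
    (P : (Fin 24 → ZMod 2) → Prop) (T : (Fin 24 → ZMod 2) → Finset (Fin 24 → ZMod 2))
    (hT : ∀ v u, u ∈ T v ↔ u - v ∈ C ∧ P u) (S : Finset (Fin 24 → ZMod 2))
    (hS : ∀ u, u ∈ S ↔ P u) :
    ∑ v : Fin 24 → ZMod 2, (T v).card = S.card * 4096 := by
  have h := Finset.sum_card_bipartiteAbove_eq_sum_card_bipartiteBelow
    (s := (Finset.univ : Finset (Fin 24 → ZMod 2))) (t := S)
    (r := fun (v u : Fin 24 → ZMod 2) => u - v ∈ C)
  have hL : ∀ v ∈ (Finset.univ : Finset (Fin 24 → ZMod 2)),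
      (Finset.bipartiteAbove (fun (v u : Fin 24 → ZMod 2) => u - v ∈ C) S v).card =
        (T v).card := by
    intro v _
    have e : Finset.bipartiteAbove (fun (v u : Fin 24 → ZMod 2) => u - v ∈ C) S v = T v := by
      ext u
      rw [Finset.mem_bipartiteAbove, hT, hS, and_comm]
    rw [e]
  have hR : ∀ u ∈ S,
      (Finset.bipartiteBelow (fun (v u : Fin 24 → ZMod 2) => u - v ∈ C) Finset.univ u).card =
        4096 := by
    intro u _
    have e := count_C C hdim (Finset.univ.filter (fun c : Fin 24 → ZMod 2 => c ∈ C))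
      (fun c => by simp)
    rw [← e]
    apply Finset.card_equiv (Equiv.subLeft u)
    intro v
    simp
  rw [Finset.sum_congr rfl hL, Finset.sum_congr rfl hR, Finset.sum_const, smul_eq_mul] at h
  exact h

variable (hmin : ∀ w ∈ C, w ≠ 0 → 8 ≤ (supp w).card)

include hmin

theorem eq_of_close {u u' : Fin 24 → ZMod 2} (h : u - u' ∈ C)
    (hlt : (supp u).card + (supp u').card < 8) : u = u' := by
  by_contra hne
  have h1 := hmin _ h (sub_ne_zero.mpr hne)
  have h2 := card_supp_sub u u'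
  omega

theorem T3_card_le (v : Fin 24 → ZMod 2) : (T3 C v).card ≤ 1 := by
  rw [Finset.card_le_one]
  intro u hu u' hu'
  rw [mem_T3] at hu hu'
  exact eq_of_close C hmin (sub_mem_of C hu.1 hu'.1) (by omega)

theorem T4_empty_of_T3 (v u : Fin 24 → ZMod 2) (hu : u ∈ T3 C v) : T4 C v = ∅ := by
  rw [Finset.eq_empty_iff_forall_notMem]
  intro u' hu'
  rw [mem_T3] at hu
  rw [mem_T4] at hu'
  have e : u = u' := eq_of_close C hmin (sub_mem_of C hu.1 hu'.1) (by omega)
  subst e
  omega

theorem T4_disjoint (v : Fin 24 → ZMod 2) {u u' : Fin 24 → ZMod 2} (hu : u ∈ T4 C v)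
    (hu' : u' ∈ T4 C v) (hne : u ≠ u') : Disjoint (supp u) (supp u') := by
  rw [mem_T4] at hu hu'
  have h2 := hmin _ (sub_mem_of C hu.1 hu'.1) (sub_ne_zero.mpr hne)
  have h3 := card_supp_sub u u'
  rw [Finset.disjoint_iff_inter_eq_empty, ← Finset.card_eq_zero]
  omega

theorem T4_biUnion_card (v : Fin 24 → ZMod 2) :
    ((T4 C v).biUnion supp).card = (T4 C v).card * 4 := by
  have h1 : ((T4 C v).biUnion supp).card = ∑ u ∈ T4 C v, (supp u).card :=
    Finset.card_biUnion (fun u hu u' hu' hne => T4_disjoint C hmin v hu hu' hne)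
  rw [h1, Finset.sum_congr rfl (fun u hu => ((mem_T4 C v u).mp hu).2), Finset.sum_const,
    smul_eq_mul]

theorem T4_card_le (v : Fin 24 → ZMod 2) : (T4 C v).card ≤ 6 := by
  have h1 := T4_biUnion_card C hmin v
  have h3 : ((T4 C v).biUnion supp).card ≤ 24 := by
    have := Finset.card_le_univ ((T4 C v).biUnion supp)
    rwa [Fintype.card_fin] at this
  omega

theorem key (hdim : Module.finrank (ZMod 2) C = 12) (v : Fin 24 → ZMod 2) :
    (T4 C v).card + 6 * (T3 C v).card = 6 := by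
  have hle : ∀ v ∈ (Finset.univ : Finset (Fin 24 → ZMod 2)),
      (T4 C v).card + 6 * (T3 C v).card ≤ 6 := by
    intro v _
    have h1 := T3_card_le C hmin v
    have h2 := T4_card_le C hmin v
    by_cases h : (T3 C v).card = 0
    · omega
    · obtain ⟨u, hu⟩ := Finset.card_pos.mp (Nat.pos_of_ne_zero h)
      rw [T4_empty_of_T3 C hmin v u hu, Finset.card_empty]
      omega
  have hsum : ∑ v : Fin 24 → ZMod 2, ((T4 C v).card + 6 * (T3 C v).card) =
      ∑ _v : Fin 24 → ZMod 2, 6 := by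
    rw [Finset.sum_add_distrib, ← Finset.mul_sum]
    have s4 := double_count C hdim (fun u => (supp u).card = 4) (T4 C) (mem_T4 C)
      (Finset.univ.filter (fun u : Fin 24 → ZMod 2 => (supp u).card = 4)) (fun u => by simp)
    have s3 := double_count C hdim (fun u => (supp u).card ≤ 3) (T3 C) (mem_T3 C)
      (Finset.univ.filter (fun u : Fin 24 → ZMod 2 => (supp u).card ≤ 3)) (fun u => by simp)
    rw [card_weight 4] at s4
    rw [card_weight_le3] at s3
    have hV : Fintype.card (Fin 24 → ZMod 2) = 2 ^ 24 := by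
      rw [Fintype.card_fun, ZMod.card, Fintype.card_fin]
    rw [s4, s3, Finset.sum_const, Finset.card_univ, hV]
    decide
  exact (Finset.sum_eq_sum_iff_of_le hle).mp hsum v (Finset.mem_univ v)

theorem exists_octad (hdim : Module.finrank (ZMod 2) C = 12) (X : Finset (Fin 24))
    (hX : X.card = 4) (p : Fin 24) (hp : p ∉ X) :
    ∃ c ∈ C, (supp c).card = 8 ∧ X ⊆ supp c ∧ p ∈ supp c := by
  obtain ⟨v, hv⟩ : ∃ v, v = ind X := ⟨_, rfl⟩
  have hsv : supp v = X := by rw [hv, supp_ind]
  have hv4 : v ∈ T4 C v := by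
    rw [mem_T4, sub_self, hsv]
    exact ⟨C.zero_mem, hX⟩
  have h3 : T3 C v = ∅ := by
    rw [Finset.eq_empty_iff_forall_notMem]
    intro u hu
    have h4 := T4_empty_of_T3 C hmin v u hu
    rw [h4] at hv4
    exact absurd hv4 (Finset.notMem_empty _)
  have hk := key C hmin hdim v
  rw [h3, Finset.card_empty] at hk
  have h6 : (T4 C v).card = 6 := by omega
  have hU : (T4 C v).biUnion supp = Finset.univ := by
    apply Finset.eq_univ_of_card
    rw [T4_biUnion_card C hmin v, h6, Fintype.card_fin]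
  have hp' : p ∈ (T4 C v).biUnion supp := by
    rw [hU]
    exact Finset.mem_univ p
  obtain ⟨u, hu, hpu⟩ := Finset.mem_biUnion.mp hp'
  have hne : u ≠ v := by
    rintro rfl
    rw [hsv] at hpu
    exact hp hpu
  have hd := T4_disjoint C hmin v hu hv4 hne
  have hu' := (mem_T4 C v u).mp hu
  refine ⟨u - v, hu'.1, ?_, ?_, ?_⟩
  · have h := card_supp_sub u v
    rw [Finset.disjoint_iff_inter_eq_empty.mp hd, Finset.card_empty, hsv, hX, hu'.2] at h
    omega
  · rw [supp_sub, Finset.disjoint_iff_inter_eq_empty.mp hd, Finset.sdiff_empty, hsv]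
    exact Finset.subset_union_right
  · rw [supp_sub, Finset.disjoint_iff_inter_eq_empty.mp hd, Finset.sdiff_empty]
    exact Finset.mem_union_left _ hpu

omit hmin in
theorem dot_eq (u v : Fin 24 → ZMod 2) :
    ∑ i, u i * v i = ((supp u ∩ supp v).card : ZMod 2) := by
  have h : ∀ i, u i * v i = if i ∈ supp u ∩ supp v then 1 else 0 := by
    intro i
    rw [zmod2_mul]
    simp only [Finset.mem_inter, mem_supp]
  rw [Finset.sum_congr rfl (fun i _ => h i), Finset.sum_boole, Finset.filter_univ_mem]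

omit hmin in
theorem even_inter (horth : ∀ v ∈ C, ∀ w ∈ C, ∑ i, v i * w i = 0) {u v : Fin 24 → ZMod 2}
    (hu : u ∈ C) (hv : v ∈ C) : Even (supp u ∩ supp v).card := by
  have h := horth u hu v hv
  rw [dot_eq] at h
  exact ZMod.natCast_eq_zero_iff_even.mp h

theorem exists_reduce (hdim : Module.finrank (ZMod 2) C = 12)
    (horth : ∀ v ∈ C, ∀ w ∈ C, ∑ i, v i * w i = 0) {w : Fin 24 → ZMod 2} (hw : w ∈ C)
    (hw0 : w ≠ 0) :
    ∃ c ∈ C, (supp c).card = 8 ∧ ∃ k, 3 ≤ k ∧
      (supp (w - c)).card + 4 * k = (supp w).card + 8 := by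
  have h8 := hmin w hw hw0
  obtain ⟨X, hXs, hX4⟩ := Finset.exists_subset_card_eq (s := supp w) (n := 4) (by omega)
  obtain ⟨p, hpw, hpX⟩ := Finset.exists_mem_notMem_of_card_lt_card
    (s := X) (t := supp w) (by omega)
  obtain ⟨c, hc, hc8, hXc, hpc⟩ := exists_octad C hmin hdim X hX4 p hpX
  have hsub : insert p X ⊆ supp w ∩ supp c := by
    intro y hy
    rw [Finset.mem_inter]
    rcases Finset.mem_insert.mp hy with rfl | hy
    · exact ⟨hpw, hpc⟩
    · exact ⟨hXs hy, hXc hy⟩
  have h5 : 5 ≤ (supp w ∩ supp c).card := by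
    have := Finset.card_le_card hsub
    rw [Finset.card_insert_of_notMem hpX, hX4] at this
    exact this
  obtain ⟨k, hk⟩ := even_inter C horth hw hc
  have h := card_supp_sub w c
  refine ⟨c, hc, hc8, k, by omega, by omega⟩

end code

theorem result (C : Submodule (ZMod 2) (Fin 24 → ZMod 2)) (hdim : Module.finrank (ZMod 2) C = 12) (horth : ∀ v ∈ C, ∀ w ∈ C, ∑ i, v i * w i = 0) (hmin : ∀ w ∈ C, w ≠ 0 → 8 ≤ hammingNorm w) (w : Fin 24 → ZMod 2) : (∃ u : Fin 24 → ZMod 2, {u : Fin 24 → ZMod 2 | u - w ∈ C ∧ hammingNorm u ≤ 4} = {u} ∧ hammingNorm u ≤ 3) ∨ ({u : Fin 24 → ZMod 2 | u - w ∈ C ∧ hammingNorm u ≤ 4}.ncard = 6 ∧ ∀ u ∈ {u : Fin 24 → ZMod 2 | u - w ∈ C ∧ hammingNorm u ≤ 4}, hammingNorm u = 4 ∧ ∀ u' ∈ {u : Fin 24 → ZMod 2 | u - w ∈ C ∧ hammingNorm u ≤ 4}, u ≠ u' → Disjoint (Finset.univ.filter fun i => u i ≠ 0) (Finset.univ.filter fun i => u' i ≠ 0)) := by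
  have hmin' : ∀ w ∈ C, w ≠ 0 → 8 ≤ (supp w).card := hmin
  have hset : {u : Fin 24 → ZMod 2 | u - w ∈ C ∧ hammingNorm u ≤ 4} =
      ((T3 C w ∪ T4 C w : Finset (Fin 24 → ZMod 2)) : Set (Fin 24 → ZMod 2)) := by
    ext u
    simp only [Set.mem_ofPred_eq, Finset.coe_union, Set.mem_union, Finset.mem_coe, mem_T3, mem_T4,
      norm_eq]
    constructor
    · rintro ⟨h1, h2⟩
      by_cases h : (supp u).card ≤ 3
      · exact Or.inl ⟨h1, h⟩
      · exact Or.inr ⟨h1, by omega⟩
    · rintro (⟨h1, h2⟩ | ⟨h1, h2⟩)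
      · exact ⟨h1, by omega⟩
      · exact ⟨h1, by omega⟩
  have hkey := key C hmin' hdim w
  have h3 := T3_card_le C hmin' w
  by_cases h : (T3 C w).card = 0
  · right
    have h4 : (T4 C w).card = 6 := by omega
    have h3e : T3 C w = ∅ := Finset.card_eq_zero.mp h
    rw [hset, h3e, Finset.empty_union]
    refine ⟨by rw [Set.ncard_coe_finset]; exact h4, ?_⟩
    intro u hu
    rw [Finset.mem_coe] at hu
    refine ⟨((mem_T4 C w u).mp hu).2, fun u' hu' hne => ?_⟩
    rw [Finset.mem_coe] at hu'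
    exact T4_disjoint C hmin' w hu hu' hne
  · left
    have h31 : (T3 C w).card = 1 := by omega
    obtain ⟨u, hu⟩ := Finset.card_eq_one.mp h31
    have hu3 : u ∈ T3 C w := by
      rw [hu]
      exact Finset.mem_singleton_self u
    have h4e : T4 C w = ∅ := T4_empty_of_T3 C hmin' w u hu3
    refine ⟨u, ?_, ?_⟩
    · rw [hset, h4e, Finset.union_empty, hu, Finset.coe_singleton]
    · exact ((mem_T3 C w u).mp hu3).2

end Cfsg.Agent.S5623
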