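import Cfsg.Statements.S5621
import Cfsg.Agent.S5623

set_option autoImplicit false
open Cfsg

namespace Cfsg.Agent.S5621

theorem result (C : Submodule (ZMod 2) (Fin 24 → ZMod 2)) (hdim : Module.finrank (ZMod 2) C = 12) (horth : ∀ v ∈ C, ∀ w ∈ C, ∑ i, v i * w i = 0) (hmin : ∀ w ∈ C, w ≠ 0 → 8 ≤ hammingNorm w) : ∀ w ∈ C, 4 ∣ hammingNorm w := by
  have hmin' : ∀ w ∈ C, w ≠ 0 → 8 ≤ (S5623.supp w).card := hmin
  have main : ∀ n : ℕ, ∀ w ∈ C, (S5623.supp w).card = n → 4 ∣ n := by
    intro n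
    induction n using Nat.strong_induction_on with
    | _ n ih =>
      intro w hw hn
      by_cases hw0 : w = 0
      · subst hw0
        have h0 : S5623.supp 0 = ∅ := (S5623.supp_eq_empty 0).mpr rfl
        rw [h0, Finset.card_empty] at hn
        rw [← hn]
        exact dvd_zero 4
      · obtain ⟨c, hc, hc8, k, hk, hkeq⟩ := S5623.exists_reduce C hmin' hdim horth hw hw0
        have h1 := ih (S5623.supp (w - c)).card (by omega) (w - c) (C.sub_mem hw hc) rfl
        omega
  intro w hw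
  exact main _ w hw rfl

end Cfsg.Agent.S5621
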