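import Cfsg.Statements.S5622
import Cfsg.Agent.S5623

set_option autoImplicit false
open Cfsg

namespace Cfsg.Agent.S5622

theorem supp_eq (w : Fin 24 → ZMod 2) : Cfsg.support₂ w = S5623.supp w := by
  ext i
  simp [Cfsg.support₂, S5623.mem_supp]

theorem result (C : Submodule (ZMod 2) (Fin 24 → ZMod 2)) (hdim : Module.finrank (ZMod 2) C = 12) (horth : ∀ v ∈ C, ∀ w ∈ C, ∑ i, v i * w i = 0) (hmin : ∀ w ∈ C, w ≠ 0 → 8 ≤ hammingNorm w) : (∃ w ∈ C, hammingNorm w = 8) ∧ Cfsg.IsSteinerSystem 5 8 (Cfsg.wordsOfWeight (C : Set (Fin 24 → ZMod 2)) 8) := by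
  have hmin' : ∀ w ∈ C, w ≠ 0 → 8 ≤ (S5623.supp w).card := hmin
  have hmem : ∀ b : Finset (Fin 24), b ∈ Cfsg.wordsOfWeight (C : Set (Fin 24 → ZMod 2)) 8 ↔
      ∃ c ∈ C, S5623.supp c = b ∧ b.card = 8 := by
    intro b
    constructor
    · rintro ⟨⟨c, hc, rfl⟩, h8⟩
      exact ⟨c, hc, (supp_eq c).symm, h8⟩
    · rintro ⟨c, hc, rfl, h8⟩
      exact ⟨⟨c, hc, supp_eq c⟩, h8⟩
  have hex : ∀ s : Finset (Fin 24), s.card = 5 → ∃ c ∈ C, (S5623.supp c).card = 8 ∧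
      s ⊆ S5623.supp c := by
    intro s hs
    obtain ⟨p, hp⟩ : s.Nonempty := by
      rw [← Finset.card_pos]
      omega
    obtain ⟨c, hc, hc8, hXc, hpc⟩ := S5623.exists_octad C hmin' hdim (s.erase p)
      (by rw [Finset.card_erase_of_mem hp, hs]) p (Finset.notMem_erase p s)
    refine ⟨c, hc, hc8, fun y hy => ?_⟩
    by_cases hyp : y = p
    · rw [hyp]
      exact hpc
    · exact hXc (Finset.mem_erase.mpr ⟨hyp, hy⟩)
  refine ⟨?_, fun b hb => hb.2, fun s hs => ?_⟩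
  · obtain ⟨s, hs⟩ := Finset.exists_subset_card_eq (s := (Finset.univ : Finset (Fin 24))) (n := 5)
      (by rw [Finset.card_univ, Fintype.card_fin]; omega)
    obtain ⟨c, hc, hc8, -⟩ := hex s hs.2
    exact ⟨c, hc, hc8⟩
  · obtain ⟨c, hc, hc8, hsc⟩ := hex s hs
    refine ⟨S5623.supp c, ⟨(hmem _).mpr ⟨c, hc, rfl, hc8⟩, hsc⟩, ?_⟩
    rintro b' ⟨hb', hsb'⟩
    obtain ⟨c', hc', rfl, hc'8⟩ := (hmem b').mp hb'
    by_contra hne
    have hcc : c' ≠ c := fun h => hne (by rw [h])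
    have h8 := hmin' _ (C.sub_mem hc' hc) (sub_ne_zero.mpr hcc)
    have h := S5623.card_supp_sub c' c
    have h5 : 5 ≤ (S5623.supp c' ∩ S5623.supp c).card := by
      rw [← hs]
      exact Finset.card_le_card (Finset.subset_inter hsb' hsc)
    omega

end Cfsg.Agent.S5622
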