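import Cfsg.Statements.S5624
import Cfsg.Agent.S5623

set_option autoImplicit false
open Cfsg

namespace Cfsg.Agent.S5624

theorem result (C : Submodule (ZMod 2) (Fin 24 → ZMod 2)) (hdim : Module.finrank (ZMod 2) C = 12) (horth : ∀ v ∈ C, ∀ w ∈ C, ∑ i, v i * w i = 0) (hmin : ∀ w ∈ C, w ≠ 0 → 8 ≤ hammingNorm w) : Submodule.span (ZMod 2) {w : Fin 24 → ZMod 2 | w ∈ C ∧ hammingNorm w = 8} = C := by
  have hmin' : ∀ w ∈ C, w ≠ 0 → 8 ≤ (S5623.supp w).card := hmin
  apply le_antisymm
  · rw [Submodule.span_le]
    intro w hw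
    exact hw.1
  · have main : ∀ n : ℕ, ∀ w ∈ C, (S5623.supp w).card = n →
        w ∈ Submodule.span (ZMod 2) {w : Fin 24 → ZMod 2 | w ∈ C ∧ hammingNorm w = 8} := by
      intro n
      induction n using Nat.strong_induction_on with
      | _ n ih =>
        intro w hw hn
        by_cases hw0 : w = 0
        · subst hw0
          exact Submodule.zero_mem _
        · obtain ⟨c, hc, hc8, k, hk, hkeq⟩ := S5623.exists_reduce C hmin' hdim horth hw hw0
          have h1 := ih (S5623.supp (w - c)).card (by omega) (w - c) (C.sub_mem hw hc) rfl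
          have h2 : c ∈ Submodule.span (ZMod 2)
              {w : Fin 24 → ZMod 2 | w ∈ C ∧ hammingNorm w = 8} :=
            Submodule.subset_span ⟨hc, hc8⟩
          have h3 := Submodule.add_mem _ h1 h2
          rw [sub_add_cancel] at h3
          exact h3
    intro w hw
    exact main _ w hw rfl

end Cfsg.Agent.S5624
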