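import Cfsg.Statements.S5625

set_option autoImplicit false
open Cfsg

namespace Cfsg.Agent.S5625

theorem step {α : Type*} [Fintype α] [DecidableEq α] (hα : Fintype.card α = 24)
    (BF : Finset (Finset α)) (hk : ∀ b ∈ BF, b.card = 8) (i lam : ℕ)
    (hnext : ∀ S' : Finset α, S'.card = i + 1 → (BF.filter (fun b => S' ⊆ b)).card = lam)
    (S : Finset α) (hS : S.card = i) :
    (BF.filter (fun b => S ⊆ b)).card * (8 - i) = (24 - i) * lam := by
  have h := Finset.sum_card_bipartiteAbove_eq_sum_card_bipartiteBelow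
    (s := BF.filter (fun b => S ⊆ b)) (t := Sᶜ) (r := fun (b : Finset α) (x : α) => x ∈ b)
  have hL : ∀ b ∈ BF.filter (fun b => S ⊆ b),
      (Finset.bipartiteAbove (fun (b : Finset α) (x : α) => x ∈ b) Sᶜ b).card = 8 - i := by
    intro b hb
    rw [Finset.mem_filter] at hb
    have e : Finset.bipartiteAbove (fun (b : Finset α) (x : α) => x ∈ b) Sᶜ b = b \ S := by
      ext x
      simp [Finset.mem_sdiff, and_comm]
    rw [e, Finset.card_sdiff_of_subset hb.2, hk b hb.1, hS]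
  have hR : ∀ x ∈ Sᶜ,
      (Finset.bipartiteBelow (fun (b : Finset α) (x : α) => x ∈ b)
        (BF.filter (fun b => S ⊆ b)) x).card = lam := by
    intro x hx
    rw [Finset.mem_compl] at hx
    have e : Finset.bipartiteBelow (fun (b : Finset α) (x : α) => x ∈ b)
        (BF.filter (fun b => S ⊆ b)) x = BF.filter (fun b => insert x S ⊆ b) := by
      ext b
      simp only [Finset.mem_bipartiteBelow, Finset.mem_filter, Finset.insert_subset_iff]
      tauto
    rw [e]
    exact hnext _ (by rw [Finset.card_insert_of_notMem hx, hS])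
  rw [Finset.sum_congr rfl hL, Finset.sum_congr rfl hR, Finset.sum_const, Finset.sum_const,
    Finset.card_compl, hα, hS, smul_eq_mul, smul_eq_mul] at h
  exact h

theorem inter_card {α : Type*} [DecidableEq α] (b : Finset α) (y1 y2 y3 : α)
    (h12 : y1 ≠ y2) (h13 : y1 ≠ y3) (h23 : y2 ≠ y3) :
    (b ∩ {y1, y2, y3}).card =
      (if y1 ∈ b then 1 else 0) + (if y2 ∈ b then 1 else 0) + (if y3 ∈ b then 1 else 0) := by
  rw [Finset.inter_comm, ← Finset.filter_mem_eq_inter, Finset.card_filter,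
    Finset.sum_insert (by simp [h12, h13]), Finset.sum_insert (by simp [h23]),
    Finset.sum_singleton, add_assoc]

theorem result (α : Type*) [Fintype α] [DecidableEq α] (hα : Fintype.card α = 24) (B : Set (Finset α)) (hB : Cfsg.IsSteinerSystem 5 8 B) (Y : Finset α) (hY : Y.card = 3) : {b : Finset α | b ∈ B ∧ (b ∩ Y).card = 3}.ncard = 21 ∧ {b : Finset α | b ∈ B ∧ (b ∩ Y).card = 2}.ncard = 168 ∧ {b : Finset α | b ∈ B ∧ (b ∩ Y).card = 1}.ncard = 360 ∧ {b : Finset α | b ∈ B ∧ (b ∩ Y).card = 0}.ncard = 210 := by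
  classical
  obtain ⟨hk, huniq⟩ := hB
  obtain ⟨BF, hBF⟩ : ∃ BF : Finset (Finset α), ∀ b, b ∈ BF ↔ b ∈ B :=
    ⟨Finset.univ.filter (· ∈ B), fun b => by simp⟩
  have hk' : ∀ b ∈ BF, b.card = 8 := fun b hb => hk b ((hBF b).mp hb)
  have l5 : ∀ S : Finset α, S.card = 5 → (BF.filter (fun b => S ⊆ b)).card = 1 := by
    intro S hS
    obtain ⟨b0, hb0, hb0u⟩ := huniq S hS
    rw [Finset.card_eq_one]
    refine ⟨b0, ?_⟩
    ext b
    rw [Finset.mem_filter, Finset.mem_singleton, hBF]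
    exact ⟨fun h => hb0u b h, fun h => h ▸ hb0⟩
  have l4 : ∀ S : Finset α, S.card = 4 → (BF.filter (fun b => S ⊆ b)).card = 5 := by
    intro S hS
    have := step hα BF hk' 4 1 l5 S hS
    omega
  have l3 : ∀ S : Finset α, S.card = 3 → (BF.filter (fun b => S ⊆ b)).card = 21 := by
    intro S hS
    have := step hα BF hk' 3 5 l4 S hS
    omega
  have l2 : ∀ S : Finset α, S.card = 2 → (BF.filter (fun b => S ⊆ b)).card = 77 := by
    intro S hS
    have := step hα BF hk' 2 21 l3 S hS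
    omega
  have l1 : ∀ S : Finset α, S.card = 1 → (BF.filter (fun b => S ⊆ b)).card = 253 := by
    intro S hS
    have := step hα BF hk' 1 77 l2 S hS
    omega
  have l0 : ∀ S : Finset α, S.card = 0 → (BF.filter (fun b => S ⊆ b)).card = 759 := by
    intro S hS
    have := step hα BF hk' 0 253 l1 S hS
    omega
  obtain ⟨y1, y2, y3, h12, h13, h23, rfl⟩ := Finset.card_eq_three.mp hY
  have N123 : (∑ b ∈ BF, if y1 ∈ b ∧ y2 ∈ b ∧ y3 ∈ b then (1 : ℤ) else 0) = 21 := by
    have h := l3 {y1, y2, y3} hY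
    rw [← Finset.natCast_card_filter]
    have e : BF.filter (fun b => y1 ∈ b ∧ y2 ∈ b ∧ y3 ∈ b) =
        BF.filter (fun b => ({y1, y2, y3} : Finset α) ⊆ b) := by
      ext b
      simp [Finset.insert_subset_iff]
    rw [e, h]
    norm_num
  have pair : ∀ a c : α, a ≠ c →
      (∑ b ∈ BF, if a ∈ b ∧ c ∈ b then (1 : ℤ) else 0) = 77 := by
    intro a c hac
    have h := l2 {a, c} (Finset.card_pair hac)
    rw [← Finset.natCast_card_filter]
    have e : BF.filter (fun b => a ∈ b ∧ c ∈ b) =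
        BF.filter (fun b => ({a, c} : Finset α) ⊆ b) := by
      ext b
      simp [Finset.insert_subset_iff]
    rw [e, h]
    norm_num
  have single : ∀ a : α, (∑ b ∈ BF, if a ∈ b then (1 : ℤ) else 0) = 253 := by
    intro a
    have h := l1 {a} (Finset.card_singleton a)
    rw [← Finset.natCast_card_filter]
    have e : BF.filter (fun b => a ∈ b) = BF.filter (fun b => ({a} : Finset α) ⊆ b) := by
      ext b
      simp
    rw [e, h]
    norm_num
  have total : (∑ b ∈ BF, (1 : ℤ)) = 759 := by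
    have h := l0 ∅ Finset.card_empty
    have e : BF.filter (fun b => (∅ : Finset α) ⊆ b) = BF := by
      ext b
      simp
    rw [e] at h
    rw [Finset.sum_const, h]
    norm_num
  have hset : ∀ j : ℕ, {b : Finset α | b ∈ B ∧ (b ∩ {y1, y2, y3}).card = j}.ncard =
      (BF.filter (fun b => (b ∩ {y1, y2, y3}).card = j)).card := by
    intro j
    rw [← Set.ncard_coe_finset]
    congr 1
    ext b
    simp [hBF]
  have hc := fun b : Finset α => inter_card b y1 y2 y3 h12 h13 h23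
  have e3 : ∀ b : Finset α, (if (b ∩ {y1, y2, y3}).card = 3 then (1 : ℤ) else 0) =
      (if y1 ∈ b ∧ y2 ∈ b ∧ y3 ∈ b then (1 : ℤ) else 0) := by
    intro b
    rw [hc b]
    by_cases h1 : y1 ∈ b <;> by_cases h2 : y2 ∈ b <;> by_cases h3 : y3 ∈ b <;> simp [h1, h2, h3]
  have e2 : ∀ b : Finset α, (if (b ∩ {y1, y2, y3}).card = 2 then (1 : ℤ) else 0) =
      (if y1 ∈ b ∧ y2 ∈ b then (1 : ℤ) else 0) + (if y1 ∈ b ∧ y3 ∈ b then (1 : ℤ) else 0) +
        (if y2 ∈ b ∧ y3 ∈ b then (1 : ℤ) else 0) -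
        3 * (if y1 ∈ b ∧ y2 ∈ b ∧ y3 ∈ b then (1 : ℤ) else 0) := by
    intro b
    rw [hc b]
    by_cases h1 : y1 ∈ b <;> by_cases h2 : y2 ∈ b <;> by_cases h3 : y3 ∈ b <;> simp [h1, h2, h3]
  have e1 : ∀ b : Finset α, (if (b ∩ {y1, y2, y3}).card = 1 then (1 : ℤ) else 0) =
      (if y1 ∈ b then (1 : ℤ) else 0) + (if y2 ∈ b then (1 : ℤ) else 0) +
        (if y3 ∈ b then (1 : ℤ) else 0) -
        2 * ((if y1 ∈ b ∧ y2 ∈ b then (1 : ℤ) else 0) + (if y1 ∈ b ∧ y3 ∈ b then (1 : ℤ) else 0) +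
        (if y2 ∈ b ∧ y3 ∈ b then (1 : ℤ) else 0)) +
        3 * (if y1 ∈ b ∧ y2 ∈ b ∧ y3 ∈ b then (1 : ℤ) else 0) := by
    intro b
    rw [hc b]
    by_cases h1 : y1 ∈ b <;> by_cases h2 : y2 ∈ b <;> by_cases h3 : y3 ∈ b <;> simp [h1, h2, h3]
  have e0 : ∀ b : Finset α, (if (b ∩ {y1, y2, y3}).card = 0 then (1 : ℤ) else 0) =
      1 - ((if y1 ∈ b then (1 : ℤ) else 0) + (if y2 ∈ b then (1 : ℤ) else 0) +
        (if y3 ∈ b then (1 : ℤ) else 0)) +
        ((if y1 ∈ b ∧ y2 ∈ b then (1 : ℤ) else 0) + (if y1 ∈ b ∧ y3 ∈ b then (1 : ℤ) else 0) +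
        (if y2 ∈ b ∧ y3 ∈ b then (1 : ℤ) else 0)) -
        (if y1 ∈ b ∧ y2 ∈ b ∧ y3 ∈ b then (1 : ℤ) else 0) := by
    intro b
    rw [hc b]
    by_cases h1 : y1 ∈ b <;> by_cases h2 : y2 ∈ b <;> by_cases h3 : y3 ∈ b <;> simp [h1, h2, h3]
  rw [hset, hset, hset, hset]
  have r3 : ((BF.filter (fun b => (b ∩ {y1, y2, y3}).card = 3)).card : ℤ) = 21 := by
    rw [Finset.natCast_card_filter, Finset.sum_congr rfl (fun b _ => e3 b), N123]
  have r2 : ((BF.filter (fun b => (b ∩ {y1, y2, y3}).card = 2)).card : ℤ) = 168 := by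
    rw [Finset.natCast_card_filter, Finset.sum_congr rfl (fun b _ => e2 b),
      Finset.sum_sub_distrib, Finset.sum_add_distrib, Finset.sum_add_distrib, ← Finset.mul_sum,
      N123, pair y1 y2 h12, pair y1 y3 h13, pair y2 y3 h23]
    norm_num
  have r1 : ((BF.filter (fun b => (b ∩ {y1, y2, y3}).card = 1)).card : ℤ) = 360 := by
    rw [Finset.natCast_card_filter, Finset.sum_congr rfl (fun b _ => e1 b),
      Finset.sum_add_distrib, Finset.sum_sub_distrib, Finset.sum_add_distrib,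
      Finset.sum_add_distrib, ← Finset.mul_sum, ← Finset.mul_sum, Finset.sum_add_distrib,
      Finset.sum_add_distrib,
      N123, pair y1 y2 h12, pair y1 y3 h13, pair y2 y3 h23, single y1, single y2, single y3]
    norm_num
  have r0 : ((BF.filter (fun b => (b ∩ {y1, y2, y3}).card = 0)).card : ℤ) = 210 := by
    rw [Finset.natCast_card_filter, Finset.sum_congr rfl (fun b _ => e0 b),
      Finset.sum_sub_distrib, Finset.sum_add_distrib, Finset.sum_sub_distrib,
      Finset.sum_add_distrib, Finset.sum_add_distrib, Finset.sum_add_distrib,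
      Finset.sum_add_distrib,
      N123, pair y1 y2 h12, pair y1 y3 h13, pair y2 y3 h23, single y1, single y2, single y3,
      total]
    norm_num
  refine ⟨?_, ?_, ?_, ?_⟩
  · exact_mod_cast r3
  · exact_mod_cast r2
  · exact_mod_cast r1
  · exact_mod_cast r0

end Cfsg.Agent.S5625
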