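import Cfsg.Statements.S5631
import Cfsg.Agent.S0772
import Cfsg.Agent.Lib.Helper1.SLn

set_option autoImplicit false
open Cfsg


namespace Cfsg.Agent.S5631

open Matrix

variable {F : Type*} [Field F] {n : ℕ}

theorem det_tv (z φ : Fin n → F) : (1 + vecMulVec z φ).det = 1 + φ ⬝ᵥ z := by
  have : vecMulVec z φ = replicateCol Unit z * replicateRow Unit φ := by
    ext i j
    simp [Matrix.vecMulVec_apply, Matrix.mul_apply]
  rw [this, Matrix.det_one_add_replicateCol_mul_replicateRow]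

theorem exists_ann (W : Submodule F (Fin n → F)) (x : Fin n → F) (hx : x ∉ W) :
    ∃ φ : Fin n → F, (∀ w ∈ W, φ ⬝ᵥ w = 0) ∧ φ ⬝ᵥ x = 1 := by
  obtain ⟨f, hfx, hf⟩ := Submodule.exists_le_ker_of_notMem hx
  have hdot : ∀ v : Fin n → F, (fun j => f (Pi.single j 1)) ⬝ᵥ v = f v := by
    intro v
    rw [LinearMap.pi_apply_eq_sum_univ f v]
    unfold dotProduct
    apply Finset.sum_congr rfl
    intro i _
    have e : (fun j => if i = j then (1 : F) else 0) = Pi.single i 1 := by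
      ext j
      simp [Pi.single_apply, eq_comm]
    rw [e, smul_eq_mul, mul_comm]
  refine ⟨(f x)⁻¹ • (fun j => f (Pi.single j 1)), ?_, ?_⟩
  · intro w hw
    rw [smul_dotProduct, hdot, LinearMap.mem_ker.mp (hf hw), smul_zero]
  · rw [smul_dotProduct, hdot, smul_eq_mul, inv_mul_cancel₀ hfx]

theorem mem_stab (W : Submodule F (Fin n → F)) (g : GL (Fin n) F) :
    g ∈ Cfsg.Geo.subspaceStabilizer W ↔
      ∀ v, v ∈ W ↔ (g : Matrix (Fin n) (Fin n) F) *ᵥ v ∈ W := Iff.rfl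

theorem mem_sl (g : GL (Fin n) F) :
    g ∈ Cfsg.Geo.specialLinear (Fin n) F ↔ (g : Matrix (Fin n) (Fin n) F).det = 1 := by
  unfold Cfsg.Geo.specialLinear
  rw [MonoidHom.mem_ker]
  constructor
  · intro h
    have := congrArg Units.val h
    simpa using this
  · intro h
    apply Units.ext
    simpa using h

theorem tv_stab_of_W (W : Submodule F (Fin n → F)) (a φ : Fin n → F) (ha : a ∈ W)
    (g : GL (Fin n) F) (hg : (g : Matrix (Fin n) (Fin n) F) = 1 + vecMulVec a φ) :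
    g ∈ Cfsg.Geo.subspaceStabilizer W := by
  rw [mem_stab]
  intro v
  rw [hg, Cfsg.Agent.S0772.tv_mulVec]
  constructor
  · intro hv; exact W.add_mem hv (W.smul_mem _ ha)
  · intro hv
    have : v = (v + (φ ⬝ᵥ v) • a) - (φ ⬝ᵥ v) • a := by abel
    rw [this]; exact W.sub_mem hv (W.smul_mem _ ha)

theorem tv_stab_of_ann (W : Submodule F (Fin n → F)) (z φ : Fin n → F)
    (hφ : ∀ v ∈ W, φ ⬝ᵥ v = 0) (hz : 1 + φ ⬝ᵥ z ≠ 0) (g : GL (Fin n) F)
    (hg : (g : Matrix (Fin n) (Fin n) F) = 1 + vecMulVec z φ) :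
    g ∈ Cfsg.Geo.subspaceStabilizer W := by
  rw [mem_stab]
  intro v
  rw [hg, Cfsg.Agent.S0772.tv_mulVec]
  constructor
  · intro hv; rw [hφ v hv, zero_smul, add_zero]; exact hv
  · intro hv
    have h1 := hφ _ hv
    rw [dotProduct_add, dotProduct_smul, smul_eq_mul] at h1
    have h2 : (φ ⬝ᵥ v) * (1 + φ ⬝ᵥ z) = 0 := by linear_combination h1
    have h3 : φ ⬝ᵥ v = 0 := by
      rcases mul_eq_zero.mp h2 with h | h
      · exact h
      · exact absurd h hz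
    rw [h3, zero_smul, add_zero] at hv
    exact hv

theorem key (hn : 2 ≤ n) (W : Submodule F (Fin n → F)) (w₀ : Fin n → F) (hw₀W : w₀ ∈ W)
    (hw₀ : w₀ ≠ 0) (M : Subgroup (GL (Fin n) F))
    (hle : Cfsg.Geo.subspaceStabilizer W ⊓ Cfsg.Geo.specialLinear (Fin n) F ≤ M)
    (hex : ∃ h ∈ M, h ∉ Cfsg.Geo.subspaceStabilizer W) :
    Cfsg.Geo.specialLinear (Fin n) F ≤ M := by
  classical
  obtain ⟨h, hhM, hhP⟩ := hex
  obtain ⟨S, hS⟩ : ∃ S : Set (Fin n → F), S = {a | ∀ φ : Fin n → F, φ ⬝ᵥ a = 0 →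
      ∀ g : GL (Fin n) F, (g : Matrix (Fin n) (Fin n) F) = 1 + vecMulVec a φ → g ∈ M} :=
    ⟨_, rfl⟩
  have hSW : ∀ a ∈ W, a ∈ S := by
    intro a ha
    rw [hS]
    intro φ hφ g hg
    exact hle ⟨tv_stab_of_W W a φ ha g hg, (mem_sl g).2 (by rw [hg, det_tv, hφ, add_zero])⟩
  have hSH : ∀ g ∈ M, ∀ a ∈ S, (g : Matrix (Fin n) (Fin n) F) *ᵥ a ∈ S := by
    intro g hg a ha
    rw [hS] at ha ⊢
    intro ψ hψ t ht
    have key : ((g⁻¹ * t * g : GL (Fin n) F) : Matrix (Fin n) (Fin n) F)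
        = 1 + vecMulVec a (ψ ᵥ* (g : Matrix (Fin n) (Fin n) F)) := by
      rw [Units.val_mul, Units.val_mul, ht, mul_add, add_mul, mul_one, ← Units.val_mul,
        inv_mul_cancel, Units.val_one, Matrix.mul_vecMulVec, Matrix.vecMulVec_mul,
        Matrix.mulVec_mulVec, ← Units.val_mul, inv_mul_cancel, Units.val_one, Matrix.one_mulVec]
    have h1 := ha (ψ ᵥ* (g : Matrix (Fin n) (Fin n) F))
      (by rw [← Matrix.dotProduct_mulVec]; exact hψ) _ key
    have : t = g * (g⁻¹ * t * g) * g⁻¹ := by group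
    rw [this]; exact M.mul_mem (M.mul_mem hg h1) (M.inv_mem hg)
  obtain ⟨x, hxS, hxW⟩ : ∃ x, x ∈ S ∧ x ∉ W := by
    have : ∃ v, ¬ (v ∈ W ↔ (h : Matrix (Fin n) (Fin n) F) *ᵥ v ∈ W) := by
      by_contra hcon
      push_neg at hcon
      exact hhP ((mem_stab W h).2 hcon)
    obtain ⟨v, hv⟩ := this
    by_cases hvW : v ∈ W
    · exact ⟨_, hSH h hhM v (hSW v hvW), fun hc => hv ⟨fun _ => hc, fun _ => hvW⟩⟩
    · have hhv : (h : Matrix (Fin n) (Fin n) F) *ᵥ v ∈ W := by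
        by_contra hc
        exact hv ⟨fun h1 => absurd h1 hvW, fun h1 => absurd h1 hc⟩
      refine ⟨v, ?_, hvW⟩
      have := hSH h⁻¹ (M.inv_mem hhM) _ (hSW _ hhv)
      rw [Matrix.mulVec_mulVec, ← Units.val_mul, inv_mul_cancel, Units.val_one,
        Matrix.one_mulVec] at this
      exact this
  obtain ⟨i, hi⟩ : ∃ i, w₀ i ≠ 0 := by
    by_contra hc
    push_neg at hc
    exact hw₀ (funext hc)
  obtain ⟨χ, hχ⟩ : ∃ χ : Fin n → F, χ = (w₀ i)⁻¹ • Pi.single i 1 := ⟨_, rfl⟩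
  have hχv : ∀ v, χ ⬝ᵥ v = (w₀ i)⁻¹ * v i := by
    intro v
    rw [hχ, smul_dotProduct, single_dotProduct, one_mul, smul_eq_mul]
  have hχw : χ ⬝ᵥ w₀ = 1 := by rw [hχv, inv_mul_cancel₀ hi]
  have step : ∀ (x y θ : Fin n → F), (∀ w ∈ W, θ ⬝ᵥ w = 0) → θ ⬝ᵥ x = 1 → θ ⬝ᵥ y ≠ 0 →
      x ∈ S → y ∈ S := by
    intro x y θ hθW hθx hθy hxS
    obtain ⟨δ, hδ⟩ : ∃ δ, δ = θ ⬝ᵥ y := ⟨_, rfl⟩
    rw [← hδ] at hθy
    obtain ⟨y', hy'⟩ : ∃ y' : Fin n → F, y' = y + ((δ - 1) * (χ ⬝ᵥ y)) • w₀ := ⟨_, rfl⟩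
    have hθy' : θ ⬝ᵥ y' = δ := by
      rw [hy', dotProduct_add, dotProduct_smul, hθW w₀ hw₀W, smul_zero, add_zero, hδ]
    have hpz : 1 + θ ⬝ᵥ (y' - x) ≠ 0 := by
      rw [dotProduct_sub, hθy', hθx]
      intro h
      apply hθy
      linear_combination h
    obtain ⟨p, hp⟩ := Cfsg.Agent.S0772.exists_gl_tv (y' - x) θ hpz
    have hpP : p ∈ Cfsg.Geo.subspaceStabilizer W := tv_stab_of_ann W (y' - x) θ hθW hpz p hp
    have hpx : (p : Matrix (Fin n) (Fin n) F) *ᵥ x = y' := by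
      rw [hp, Cfsg.Agent.S0772.tv_mulVec, hθx, one_smul]; abel
    have hpdet : (p : Matrix (Fin n) (Fin n) F).det = δ := by
      rw [hp, det_tv, dotProduct_sub, hθy', hθx]; ring
    have hdz : 1 + ((δ⁻¹ - 1) • χ) ⬝ᵥ w₀ ≠ 0 := by
      rw [smul_dotProduct, hχw, smul_eq_mul, mul_one]
      have : 1 + (δ⁻¹ - 1) = δ⁻¹ := by ring
      rw [this]; exact inv_ne_zero hθy
    obtain ⟨d, hd⟩ := Cfsg.Agent.S0772.exists_gl_tv w₀ ((δ⁻¹ - 1) • χ) hdz
    have hdP : d ∈ Cfsg.Geo.subspaceStabilizer W := tv_stab_of_W W w₀ _ hw₀W d hd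
    have hddet : (d : Matrix (Fin n) (Fin n) F).det = δ⁻¹ := by
      rw [hd, det_tv, smul_dotProduct, hχw, smul_eq_mul, mul_one]; ring
    have hdy : (d : Matrix (Fin n) (Fin n) F) *ᵥ y' = y := by
      rw [hd, Cfsg.Agent.S0772.tv_mulVec, smul_dotProduct, hy', dotProduct_add, dotProduct_smul,
        hχw, smul_eq_mul, smul_eq_mul, mul_one]
      have : (δ - 1) * (χ ⬝ᵥ y) + (δ⁻¹ - 1) * (χ ⬝ᵥ y + (δ - 1) * (χ ⬝ᵥ y)) = 0 := by
        field_simp; ring
      rw [add_assoc, ← add_smul, this, zero_smul, add_zero]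
    have hgM : d * p ∈ M := hle ⟨(Cfsg.Geo.subspaceStabilizer W).mul_mem hdP hpP, (mem_sl _).2 (by
      rw [Units.val_mul, Matrix.det_mul, hddet, hpdet, inv_mul_cancel₀ hθy])⟩
    have := hSH (d * p) hgM x hxS
    rw [Units.val_mul, ← Matrix.mulVec_mulVec, hpx, hdy] at this
    exact this
  have hSall : ∀ y, y ∈ S := by
    intro y
    by_cases hyW : y ∈ W
    · exact hSW y hyW
    · obtain ⟨φ, hφW, hφx⟩ := exists_ann W x hxW
      obtain ⟨ψ, hψW, hψy⟩ := exists_ann W y hyW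
      by_cases h1 : φ ⬝ᵥ y = 0
      · by_cases h2 : ψ ⬝ᵥ x = 0
        · refine step x y (φ + ψ) ?_ ?_ ?_ hxS
          · intro w hw; rw [add_dotProduct, hφW w hw, hψW w hw, add_zero]
          · rw [add_dotProduct, hφx, h2, add_zero]
          · rw [add_dotProduct, h1, hψy, zero_add]; exact one_ne_zero
        · refine step x y ((ψ ⬝ᵥ x)⁻¹ • ψ) ?_ ?_ ?_ hxS
          · intro w hw; rw [smul_dotProduct, hψW w hw, smul_zero]
          · rw [smul_dotProduct, smul_eq_mul, inv_mul_cancel₀ h2]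
          · rw [smul_dotProduct, hψy, smul_eq_mul, mul_one]; exact inv_ne_zero h2
      · exact step x y φ hφW hφx h1 hxS
  have hT : ∀ (i j : Fin n) (hij : i ≠ j) (c : F),
      Matrix.SpecialLinearGroup.toGL (Matrix.SpecialLinearGroup.transvection hij c) ∈ M := by
    intro i j hij c
    have := hSall (Pi.single i c)
    rw [hS] at this
    refine this (Pi.single j 1) ?_ _ ?_
    · rw [dotProduct_single, Pi.single_apply, if_neg hij, zero_mul]
    · show Matrix.transvection i j c = _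
      exact Cfsg.Agent.S0772.elem_eq i j c
  have hSL : ∀ A : Matrix.SpecialLinearGroup (Fin n) F,
      Matrix.SpecialLinearGroup.toGL A ∈ M := by
    haveI : Nontrivial (Fin n) := Fin.nontrivial_iff_two_le.2 hn
    intro A
    refine Cfsg.Agent.Lib.Helper1.SLn.transvection_induction
      (fun A => Matrix.SpecialLinearGroup.toGL A ∈ M) hT ?_ A
    intro A B hA hB
    show Matrix.SpecialLinearGroup.toGL (A * B) ∈ M
    rw [map_mul]; exact M.mul_mem hA hB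
  intro g hg
  rw [mem_sl] at hg
  have hs := hSL ⟨(g : Matrix (Fin n) (Fin n) F), hg⟩
  have : g = Matrix.SpecialLinearGroup.toGL ⟨(g : Matrix (Fin n) (Fin n) F), hg⟩ :=
    Units.ext rfl
  rw [this]; exact hs

theorem main {F : Type*} [Field F] [Fintype F] (n : ℕ) (hn : 13 ≤ n) (W : Submodule F (Fin n → F)) (hW0 : W ≠ ⊥) (hW1 : W ≠ ⊤) : Cfsg.Geo.IsMaximalIn (Cfsg.Geo.specialLinear (Fin n) F) (Cfsg.Geo.subspaceStabilizer W ⊓ Cfsg.Geo.specialLinear (Fin n) F) := by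
  classical
  obtain ⟨w₀, hw₀W, hw₀⟩ : ∃ w ∈ W, w ≠ 0 := (Submodule.ne_bot_iff W).1 hW0
  obtain ⟨x₀, hx₀⟩ : ∃ x, x ∉ W := by
    by_contra hcon
    push_neg at hcon
    exact hW1 (eq_top_iff.2 fun v _ => hcon v)
  constructor
  · refine lt_of_le_of_ne inf_le_right ?_
    intro heq
    obtain ⟨φ, hφx, hφw⟩ : ∃ φ : Fin n → F, φ ⬝ᵥ x₀ = 0 ∧ φ ⬝ᵥ w₀ = 1 := by
      have : w₀ ∉ Submodule.span F {x₀} := by
        intro h
        obtain ⟨c, hc⟩ := Submodule.mem_span_singleton.1 h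
        by_cases hc0 : c = 0
        · rw [hc0, zero_smul] at hc; exact hw₀ hc.symm
        · apply hx₀
          have : x₀ = c⁻¹ • w₀ := by rw [← hc, smul_smul, inv_mul_cancel₀ hc0, one_smul]
          rw [this]; exact W.smul_mem _ hw₀W
      obtain ⟨φ, h1, h2⟩ := exists_ann _ w₀ this
      exact ⟨φ, h1 x₀ (Submodule.mem_span_singleton_self x₀), h2⟩
    obtain ⟨t, ht⟩ := Cfsg.Agent.S0772.exists_gl_tv x₀ φ
      (by rw [hφx, add_zero]; exact one_ne_zero)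
    have htSL : t ∈ Cfsg.Geo.specialLinear (Fin n) F := by
      rw [mem_sl, ht, det_tv, hφx, add_zero]
    have htP : t ∈ Cfsg.Geo.subspaceStabilizer W := by
      rw [← heq] at htSL; exact htSL.1
    rw [mem_stab] at htP
    have h3 := (htP w₀).1 hw₀W
    rw [ht, Cfsg.Agent.S0772.tv_mulVec, hφw, one_smul] at h3
    apply hx₀
    have h4 := W.sub_mem h3 hw₀W
    rw [add_sub_cancel_left] at h4
    exact h4
  · intro M hle hMK
    by_cases hM : M ≤ Cfsg.Geo.subspaceStabilizer W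
    · left; exact le_antisymm (le_inf hM hMK) hle
    · right
      apply le_antisymm hMK
      apply key (by omega) W w₀ hw₀W hw₀ M hle
      by_contra hcon
      push_neg at hcon
      exact hM (fun h hh => hcon h hh)

theorem result {F : Type*} [Field F] [Fintype F] (n : ℕ) (hn : 13 ≤ n) (W : Submodule F (Fin n → F)) (hW0 : W ≠ ⊥) (hW1 : W ≠ ⊤) : Cfsg.Geo.IsMaximalIn (Cfsg.Geo.specialLinear (Fin n) F) (Cfsg.Geo.subspaceStabilizer W ⊓ Cfsg.Geo.specialLinear (Fin n) F) := by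
  exact main n hn W hW0 hW1

end Cfsg.Agent.S5631
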