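import Cfsg.Statements.S5632

set_option autoImplicit false
open Cfsg

namespace Cfsg.Agent.S5632

open Matrix

theorem mem_stab {F : Type*} [Field F] (n : ℕ) (W : Submodule F (Fin n → F))
    (g : Matrix.GeneralLinearGroup (Fin n) F) :
    g ∈ Cfsg.Geo.subspaceStabilizer W ↔
      ∀ x, x ∈ W ↔ (g : Matrix (Fin n) (Fin n) F) *ᵥ x ∈ W := Iff.rfl

theorem exists_transvection {F : Type*} [Field F] (n : ℕ) (P : Submodule F (Fin n → F))
    (u v : Fin n → F) (hv : v ∈ P) (hu : u ∉ P) :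
    ∃ g : Matrix.GeneralLinearGroup (Fin n) F, g ∈ Cfsg.Geo.specialLinear (Fin n) F ∧
      ∃ φ : (Fin n → F) →ₗ[F] F, φ u ≠ 0 ∧ (∀ x ∈ P, φ x = 0) ∧
        ∀ x, (g : Matrix (Fin n) (Fin n) F) *ᵥ x = x + φ x • v := by
  obtain ⟨φ, hφu, hPφ⟩ := Submodule.exists_le_ker_of_notMem hu
  have hP0 : ∀ x ∈ P, φ x = 0 := fun x hx => LinearMap.mem_ker.mp (hPφ hx)
  obtain ⟨φ', hφ'⟩ : ∃ φ' : Fin n → F, φ' = fun i => φ (fun j => if i = j then 1 else 0) :=
    ⟨_, rfl⟩
  have hdot : ∀ x, φ' ⬝ᵥ x = φ x := by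
    intro x
    rw [LinearMap.pi_apply_eq_sum_univ φ x, hφ']
    simp only [dotProduct, smul_eq_mul]
    apply Finset.sum_congr rfl
    intro i _
    rw [mul_comm]
  have hdet : (1 + Matrix.vecMulVec v φ').det = 1 := by
    rw [Matrix.vecMulVec_eq (Fin 1), Matrix.det_one_add_replicateCol_mul_replicateRow, hdot,
      hP0 v hv, add_zero]
  refine ⟨Matrix.GeneralLinearGroup.mk'' (1 + Matrix.vecMulVec v φ')
    (by rw [hdet]; exact isUnit_one), ?_, φ, hφu, hP0, ?_⟩
  · show Matrix.GeneralLinearGroup.det _ = 1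
    apply Units.ext
    show (1 + Matrix.vecMulVec v φ').det = 1
    exact hdet
  · intro x
    show (1 + Matrix.vecMulVec v φ') *ᵥ x = x + φ x • v
    rw [Matrix.add_mulVec, Matrix.one_mulVec, Matrix.vecMulVec_mulVec, hdot,
      op_smul_eq_smul]

theorem transv_stab {F : Type*} [Field F] (n : ℕ) (W : Submodule F (Fin n → F))
    (g : Matrix.GeneralLinearGroup (Fin n) F) (φ : (Fin n → F) →ₗ[F] F) (v : Fin n → F)
    (hW : ∀ x ∈ W, φ x = 0) (hv : φ v = 0)
    (hg : ∀ x, (g : Matrix (Fin n) (Fin n) F) *ᵥ x = x + φ x • v) :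
    g ∈ Cfsg.Geo.subspaceStabilizer W := by
  rw [mem_stab]
  intro x
  rw [hg x]
  constructor
  · intro hx
    rw [hW x hx, zero_smul, add_zero]; exact hx
  · intro hx
    have h1 := hW _ hx
    rw [map_add, map_smul, hv, smul_zero, add_zero] at h1
    rw [h1, zero_smul, add_zero] at hx
    exact hx

theorem transv_not_stab {F : Type*} [Field F] (n : ℕ) (W : Submodule F (Fin n → F))
    (g : Matrix.GeneralLinearGroup (Fin n) F) (φ : (Fin n → F) →ₗ[F] F) (u v : Fin n → F)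
    (hu : u ∈ W) (hφu : φ u ≠ 0) (hv : v ∉ W)
    (hg : ∀ x, (g : Matrix (Fin n) (Fin n) F) *ᵥ x = x + φ x • v) :
    g ∉ Cfsg.Geo.subspaceStabilizer W := by
  rw [mem_stab]
  intro h
  have h1 := (h u).mp hu
  rw [hg u] at h1
  have h2 : φ u • v ∈ W := by
    have := W.sub_mem h1 hu
    rwa [add_sub_cancel_left] at this
  apply hv
  have h3 := W.smul_mem (φ u)⁻¹ h2
  rwa [smul_smul, inv_mul_cancel₀ hφu, one_smul] at h3

theorem result {F : Type*} [Field F] [Fintype F] (n : ℕ) (W U : Submodule F (Fin n → F)) (hW0 : W ≠ ⊥) (hWU : W < U) (hdim : Module.finrank F W + Module.finrank F U = n) : ∃ K : Subgroup (Matrix.GeneralLinearGroup (Fin n) F), Cfsg.Geo.subspaceStabilizer W ⊓ Cfsg.Geo.subspaceStabilizer U ⊓ Cfsg.Geo.specialLinear (Fin n) F < K ∧ K < Cfsg.Geo.specialLinear (Fin n) F := by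
  have hUtop : U ≠ ⊤ := by
    intro h
    have h1 : Module.finrank F U = n := by
      rw [h, finrank_top, Module.finrank_fin_fun]
    have h2 : Module.finrank F W ≠ 0 := fun h0 => hW0 (Submodule.finrank_eq_zero.mp h0)
    omega
  obtain ⟨v, -, hvU⟩ := SetLike.exists_of_lt (lt_top_iff_ne_top.mpr hUtop)
  obtain ⟨u, huU, huW⟩ := SetLike.exists_of_lt hWU
  obtain ⟨w, hwW, hw0⟩ := Submodule.exists_mem_ne_zero_of_ne_bot hW0
  have hvW : v ∉ W := fun h => hvU (hWU.le h)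
  have hu' : u ∉ W ⊔ Submodule.span F {v} := by
    intro h
    obtain ⟨y, hy, z, hz, hyz⟩ := Submodule.mem_sup.mp h
    obtain ⟨c, rfl⟩ := Submodule.mem_span_singleton.mp hz
    by_cases hc : c = 0
    · rw [hc, zero_smul, add_zero] at hyz
      exact huW (hyz ▸ hy)
    · apply hvU
      have h1 : c • v ∈ U := by
        have h2 : c • v = u - y := by rw [← hyz, add_sub_cancel_left]
        rw [h2]; exact U.sub_mem huU (hWU.le hy)
      have h3 := U.smul_mem c⁻¹ h1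
      rwa [smul_smul, inv_mul_cancel₀ hc, one_smul] at h3
  have hv' : v ∈ W ⊔ Submodule.span F {v} :=
    (le_sup_right : Submodule.span F {v} ≤ _) (Submodule.mem_span_singleton_self v)
  obtain ⟨g, hgSL, φ, hφu, hφP, hg⟩ := exists_transvection n _ u v hv' hu'
  have hφW : ∀ x ∈ W, φ x = 0 := fun x hx => hφP x ((le_sup_left : W ≤ _) hx)
  have hφv : φ v = 0 := hφP v hv'
  have hgW := transv_stab n W g φ v hφW hφv hg
  have hgU := transv_not_stab n U g φ u v huU hφu hvU hg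
  have hw' : w ∉ Submodule.span F {v} := by
    intro h
    obtain ⟨c, rfl⟩ := Submodule.mem_span_singleton.mp h
    have hc : c ≠ 0 := fun hc => hw0 (by rw [hc, zero_smul])
    apply hvW
    have h3 := W.smul_mem c⁻¹ hwW
    rwa [smul_smul, inv_mul_cancel₀ hc, one_smul] at h3
  obtain ⟨g₂, hg₂SL, φ₂, hφ₂w, -, hg₂⟩ :=
    exists_transvection n _ w v (Submodule.mem_span_singleton_self v) hw'
  have hg₂W := transv_not_stab n W g₂ φ₂ w v hwW hφ₂w hvW hg₂
  refine ⟨Cfsg.Geo.subspaceStabilizer W ⊓ Cfsg.Geo.specialLinear (Fin n) F, ?_, ?_⟩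
  · refine lt_of_le_of_ne (fun x hx => ⟨hx.1.1, hx.2⟩) ?_
    intro h
    have h1 : g ∈ Cfsg.Geo.subspaceStabilizer W ⊓ Cfsg.Geo.subspaceStabilizer U ⊓
        Cfsg.Geo.specialLinear (Fin n) F := by
      rw [h]; exact ⟨hgW, hgSL⟩
    exact hgU h1.1.2
  · refine lt_of_le_of_ne inf_le_right ?_
    intro h
    have h1 : g₂ ∈ Cfsg.Geo.subspaceStabilizer W ⊓ Cfsg.Geo.specialLinear (Fin n) F := by
      rw [h]; exact hg₂SL
    exact hg₂W h1.1

end Cfsg.Agent.S5632
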