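import Cfsg.Statements.S5633
import Cfsg.Agent.S5632

set_option autoImplicit false
open Cfsg

namespace Cfsg.Agent.S5633

theorem result {F : Type*} [Field F] [Fintype F] (n : ℕ) (W U : Submodule F (Fin n → F)) (hW0 : W ≠ ⊥) (hWU : W ⊓ U = ⊥) (hWU' : W ⊔ U = ⊤) (hdim : Module.finrank F W < Module.finrank F U) : ∃ K : Subgroup (Matrix.GeneralLinearGroup (Fin n) F), Cfsg.Geo.subspaceStabilizer W ⊓ Cfsg.Geo.subspaceStabilizer U ⊓ Cfsg.Geo.specialLinear (Fin n) F < K ∧ K < Cfsg.Geo.specialLinear (Fin n) F := by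
  have hU0 : U ≠ ⊥ := by
    intro h
    rw [h, finrank_bot] at hdim
    omega
  obtain ⟨w, hwW, hw0⟩ := Submodule.exists_mem_ne_zero_of_ne_bot hW0
  obtain ⟨v, hvU, hv0⟩ := Submodule.exists_mem_ne_zero_of_ne_bot hU0
  have hwU : w ∉ U := by
    intro h
    have h1 : w ∈ W ⊓ U := ⟨hwW, h⟩
    rw [hWU, Submodule.mem_bot] at h1
    exact hw0 h1
  have hvW : v ∉ W := by
    intro h
    have h1 : v ∈ W ⊓ U := ⟨h, hvU⟩
    rw [hWU, Submodule.mem_bot] at h1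
    exact hv0 h1
  obtain ⟨g, hgSL, φ, hφw, hφU, hg⟩ := Cfsg.Agent.S5632.exists_transvection n U w v hvU hwU
  have hgU := Cfsg.Agent.S5632.transv_stab n U g φ v hφU (hφU v hvU) hg
  have hgW := Cfsg.Agent.S5632.transv_not_stab n W g φ w v hwW hφw hvW hg
  obtain ⟨g₂, hg₂SL, φ₂, hφ₂v, -, hg₂⟩ := Cfsg.Agent.S5632.exists_transvection n W v w hwW hvW
  have hg₂U := Cfsg.Agent.S5632.transv_not_stab n U g₂ φ₂ v w hvU hφ₂v hwU hg₂
  refine ⟨Cfsg.Geo.subspaceStabilizer U ⊓ Cfsg.Geo.specialLinear (Fin n) F, ?_, ?_⟩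
  · refine lt_of_le_of_ne (fun x hx => ⟨hx.1.2, hx.2⟩) ?_
    intro h
    have h1 : g ∈ Cfsg.Geo.subspaceStabilizer W ⊓ Cfsg.Geo.subspaceStabilizer U ⊓
        Cfsg.Geo.specialLinear (Fin n) F := by
      rw [h]; exact ⟨hgU, hgSL⟩
    exact hgW h1.1.1
  · refine lt_of_le_of_ne inf_le_right ?_
    intro h
    have h1 : g₂ ∈ Cfsg.Geo.subspaceStabilizer U ⊓ Cfsg.Geo.specialLinear (Fin n) F := by
      rw [h]; exact hg₂SL
    exact hg₂U h1.1

end Cfsg.Agent.S5633
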