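import Cfsg.Statements.S5944

set_option autoImplicit false
open Cfsg

namespace Cfsg.Agent.S5944

theorem result (n : ℕ) (hn : n ≠ 4) (H : Subgroup (Equiv.Perm (Fin n))) (hH : H ≠ ⊤) (hA : H ≠ alternatingGroup (Fin n)) : n ≤ H.index := by
  have h0 : H.index ≠ 0 := Subgroup.index_ne_zero_of_finite
  have h1 : H.index ≠ 1 := fun h => hH (Subgroup.index_eq_one.mp h)
  have h2 : H.index ≠ 2 := fun h => hA (Equiv.Perm.eq_alternatingGroup_of_index_eq_two h)
  by_contra hlt
  push Not at hlt
  have h5 : 5 ≤ n := by omega
  have hnorm : H.normalCore.Normal := Subgroup.normalCore_normal H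
  by_cases hK : H.normalCore = ⊥
  · have hinj : Function.Injective (MulAction.toPermHom (Equiv.Perm (Fin n)) (Equiv.Perm (Fin n) ⧸ H)) := by
      rw [← MonoidHom.ker_eq_bot_iff, ← Subgroup.normalCore_eq_ker, hK]
    have hc := Nat.card_le_card_of_injective _ hinj
    rw [Nat.card_perm, Nat.card_perm, Nat.card_eq_fintype_card, Fintype.card_fin] at hc
    have : Nat.card (Equiv.Perm (Fin n) ⧸ H) = H.index := rfl
    rw [this] at hc
    have := Nat.factorial_lt (n := H.index) (m := n) (by omega)
    have := this.mpr hlt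
    omega
  · have hnt : Nontrivial H.normalCore := (Subgroup.nontrivial_iff_ne_bot _).mpr hK
    have hle : alternatingGroup (Fin n) ≤ H :=
      (Equiv.Perm.alternatingGroup_le_of_normal (by simpa using h5) hnt).trans (Subgroup.normalCore_le H)
    have : Nontrivial (Fin n) := Fin.nontrivial_iff_two_le.mpr (by omega)
    have hd := Subgroup.index_dvd_of_le hle
    rw [alternatingGroup.index_eq_two] at hd
    have := Nat.le_of_dvd (by norm_num) hd
    omega

end Cfsg.Agent.S5944
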