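import Cfsg.Statements.S5952

set_option autoImplicit false
open Cfsg

namespace Cfsg.Agent.S5952

section gen

variable {F V : Type*} [Field F] [AddCommGroup V] [Module F V] [FiniteDimensional F V]

theorem exists_sub_finrank (C : Submodule F V) (m : ℕ) (hm : m ≤ Module.finrank F C) :
    ∃ W : Submodule F V, W ≤ C ∧ Module.finrank F W = m := by
  obtain ⟨g, hg⟩ := exists_linearIndependent_of_le_finrank hm
  have hg' : LinearIndependent F (fun i => (g i : V)) :=
    hg.map' C.subtype (Submodule.ker_subtype C)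
  refine ⟨Submodule.span F (Set.range (fun i => (g i : V))), ?_, ?_⟩
  · rw [Submodule.span_le]
    rintro _ ⟨i, rfl⟩
    exact (g i).2
  · rw [finrank_span_eq_card hg', Fintype.card_fin]

theorem inv_inf {f : V →ₗ[F] V} {A B : Submodule F V} (hA : A.map f ≤ A) (hB : B.map f ≤ B) :
    (A ⊓ B).map f ≤ A ⊓ B :=
  le_inf ((Submodule.map_mono inf_le_left).trans hA) ((Submodule.map_mono inf_le_right).trans hB)

theorem inv_sup {f : V →ₗ[F] V} {A B : Submodule F V} (hA : A.map f ≤ A) (hB : B.map f ≤ B) :
    (A ⊔ B).map f ≤ A ⊔ B := by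
  rw [Submodule.map_sup]
  exact sup_le_sup hA hB

theorem inv_biSup {f : V →ₗ[F] V} {s : ℕ} (U : Fin s → Submodule F V)
    (hUinv : ∀ j, (U j).map f ≤ U j) (J : Finset (Fin s)) :
    (⨆ j ∈ J, U j : Submodule F V).map f ≤ ⨆ j ∈ J, U j := by
  rw [Submodule.map_iSup]
  refine iSup_le fun j => ?_
  rw [Submodule.map_iSup]
  refine iSup_le fun hj => ?_
  exact (hUinv j).trans (le_iSup₂_of_le j hj le_rfl)

theorem finrank_biSup {s a : ℕ} (U : Fin s → Submodule F V)
    (hUdim : ∀ j, Module.finrank F (U j) = a) (hind : iSupIndep U) (J : Finset (Fin s)) :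
    Module.finrank F (⨆ j ∈ J, U j : Submodule F V) = J.card * a := by
  induction J using Finset.induction_on with
  | empty => simp
  | insert o J ho ih =>
    rw [Finset.iSup_insert, Finset.card_insert_of_notMem ho]
    have hdisj : Disjoint (U o) (⨆ j ∈ J, U j) :=
      hind.disjoint_biSup (y := (J : Set (Fin s))) (by simpa using ho)
    have h := Submodule.finrank_sup_add_finrank_inf_eq (U o) (⨆ j ∈ J, U j)
    rw [hdisj.eq_bot, finrank_bot, add_zero, hUdim, ih] at h
    rw [h]
    ring

theorem dvd_finrank (f : V →ₗ[F] V) {s a : ℕ} (U : Fin s → Submodule F V)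
    (hUinv : ∀ j, (U j).map f ≤ U j) (hUdim : ∀ j, Module.finrank F (U j) = a)
    (hUirr : ∀ j, ∀ W : Submodule F V, W ≤ U j → W.map f ≤ W → W = ⊥ ∨ W = U j)
    (hind : iSupIndep U) :
    ∀ (J : Finset (Fin s)) (W : Submodule F V), W.map f ≤ W → W ≤ ⨆ j ∈ J, U j →
      a ∣ Module.finrank F W := by
  intro J
  induction J using Finset.induction_on with
  | empty =>
    intro W _ hW
    have hbot : W = ⊥ := by
      rw [eq_bot_iff]
      refine hW.trans ?_
      simp
    rw [hbot, finrank_bot]
    exact dvd_zero a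
  | insert o J ho ih =>
    intro W hWinv hW
    rw [Finset.iSup_insert] at hW
    have hSinv := inv_biSup U hUinv J
    have hdisj : Disjoint (U o) (⨆ j ∈ J, U j) :=
      hind.disjoint_biSup (y := (J : Set (Fin s))) (by simpa using ho)
    obtain ⟨S, hS⟩ : ∃ S : Submodule F V, S = ⨆ j ∈ J, U j := ⟨_, rfl⟩
    rw [← hS] at hW hSinv hdisj
    have h1 : a ∣ Module.finrank F (W ⊓ S : Submodule F V) :=
      ih (W ⊓ S) (inv_inf hWinv hSinv) (by rw [← hS]; exact inf_le_right)
    obtain ⟨Y, hY⟩ : ∃ Y : Submodule F V, Y = (W ⊔ S) ⊓ U o := ⟨_, rfl⟩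
    have hYinv : Y.map f ≤ Y := by
      rw [hY]
      exact inv_inf (inv_sup hWinv hSinv) (hUinv o)
    have hYdim : Module.finrank F Y = 0 ∨ Module.finrank F Y = a := by
      rcases hUirr o Y (by rw [hY]; exact inf_le_right) hYinv with h | h
      · left
        rw [h, finrank_bot]
      · right
        rw [h, hUdim]
    have e1 := Submodule.finrank_sup_add_finrank_inf_eq W S
    have e2 : S ⊔ Y = W ⊔ S := by
      calc S ⊔ Y = S ⊔ U o ⊓ (W ⊔ S) := by rw [hY, inf_comm]
        _ = (S ⊔ U o) ⊓ (W ⊔ S) := (sup_inf_assoc_of_le (U o) le_sup_right).symm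
        _ = W ⊔ S := inf_eq_right.mpr (sup_le (hW.trans (by rw [sup_comm])) le_sup_left)
    have e3 : Disjoint S Y := hdisj.symm.mono_right (by rw [hY]; exact inf_le_right)
    have e4 := Submodule.finrank_sup_add_finrank_inf_eq S Y
    rw [e3.eq_bot, finrank_bot, add_zero, e2] at e4
    have e5 : Module.finrank F W =
        Module.finrank F (W ⊓ S : Submodule F V) + Module.finrank F Y := by omega
    rw [e5]
    rcases hYdim with h | h
    · rw [h, add_zero]
      exact h1
    · rw [h]
      exact Dvd.dvd.add h1 (dvd_refl a)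

end gen

theorem result {F V : Type*} [Field F] [AddCommGroup V] [Module F V]
    [FiniteDimensional F V] (f : V →ₗ[F] V) (hf : Function.Bijective f) (hss : Module.End.IsSemisimple f)
    {s a : ℕ} (ha : 1 ≤ a) (U : Fin s → Submodule F V)
    (hUinv : ∀ j, (U j).map f ≤ U j) (hUdim : ∀ j, Module.finrank F ↥(U j) = a)
    (hUirr : ∀ j, ∀ W : Submodule F V, W ≤ U j → W.map f ≤ W → W = ⊥ ∨ W = U j)
    (hdec : DirectSum.IsInternal (fun o : Option (Fin s) => o.elim (Module.End.eigenspace f 1) U))
    (m : ℕ) (hm : 0 < m) (hmV : m < Module.finrank F V) :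
    (∃ W : Submodule F V, Module.finrank F ↥W = m ∧ W.map f ≤ W) ↔
    (m ≤ Module.finrank F ↥(Module.End.eigenspace f 1) ∨
      (a ≤ m ∧ m % a ≤ Module.finrank F ↥(Module.End.eigenspace f 1))) := by
  obtain ⟨C, hC⟩ : ∃ C : Submodule F V, C = Module.End.eigenspace f 1 := ⟨_, rfl⟩
  rw [← hC] at hdec ⊢
  have hCfix : ∀ x ∈ C, f x = x := by
    intro x hx
    rw [hC, Module.End.mem_eigenspace_iff, one_smul] at hx
    exact hx
  have hindM := hdec.submodule_iSupIndep
  have hindU : iSupIndep U := hindM.comp (Option.some_injective _)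
  have htop := hdec.submodule_iSup_eq_top
  rw [iSup_option] at htop
  have htop' : C ⊔ ⨆ j, U j = ⊤ := htop
  have hdisjC : Disjoint C (⨆ j, U j) := by
    refine (hindM none).mono_right ?_
    exact iSup_le fun j => le_iSup₂_of_le (some j) (Option.some_ne_none j) le_rfl
  have huniv : (⨆ j, U j) = ⨆ j ∈ (Finset.univ : Finset (Fin s)), U j := by
    simp
  have hdimV : Module.finrank F V = Module.finrank F C + s * a := by
    have h := Submodule.finrank_sup_add_finrank_inf_eq C (⨆ j, U j)
    rw [hdisjC.eq_bot, finrank_bot, add_zero, htop', finrank_top, huniv,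
      finrank_biSup U hUdim hindU, Finset.card_univ, Fintype.card_fin] at h
    exact h
  constructor
  · rintro ⟨W, hWm, hWinv⟩
    obtain ⟨N, hN⟩ : ∃ N : V →ₗ[F] V, N = f - 1 := ⟨_, rfl⟩
    have hNapp : ∀ x, N x = f x - x := by
      intro x
      rw [hN]
      rfl
    have hker : LinearMap.ker N = C := by
      ext x
      rw [LinearMap.mem_ker, hNapp, hC, Module.End.mem_eigenspace_iff, one_smul, sub_eq_zero]
    have h1 := LinearMap.finrank_range_add_finrank_ker (N.domRestrict W)
    rw [LinearMap.range_domRestrict, LinearMap.ker_domRestrict] at h1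
    have h2 : Module.finrank F ((LinearMap.ker N).comap W.subtype) =
        Module.finrank F (W ⊓ C : Submodule F V) := by
      rw [← hker, ← Submodule.map_comap_subtype]
      exact (Submodule.finrank_map_subtype_eq _ _).symm
    rw [h2, hWm] at h1
    have hNWinv : (W.map N).map f ≤ W.map N := by
      rintro _ ⟨_, ⟨w, hw, rfl⟩, rfl⟩
      refine ⟨f w, hWinv ⟨w, hw, rfl⟩, ?_⟩
      rw [hNapp, hNapp, map_sub]
    have hNW : W.map N ≤ ⨆ j ∈ (Finset.univ : Finset (Fin s)), U j := by
      rw [← huniv]
      refine (Submodule.map_mono (le_top : W ≤ ⊤)).trans ?_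
      rw [← htop', Submodule.map_sup]
      refine sup_le ?_ ?_
      · rintro _ ⟨x, hx, rfl⟩
        rw [hNapp, hCfix x hx, sub_self]
        exact Submodule.zero_mem _
      · rw [Submodule.map_iSup]
        refine iSup_le fun j => ?_
        refine le_trans ?_ (le_iSup U j)
        rintro _ ⟨x, hx, rfl⟩
        rw [hNapp]
        exact Submodule.sub_mem _ (hUinv j ⟨x, hx, rfl⟩) hx
    have hdvd := dvd_finrank f U hUinv hUdim hUirr hindU Finset.univ (W.map N) hNWinv hNW
    have hc : Module.finrank F (W ⊓ C : Submodule F V) ≤ Module.finrank F C :=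
      Submodule.finrank_mono inf_le_right
    obtain ⟨d, hd⟩ : ∃ d, d = Module.finrank F (W.map N) := ⟨_, rfl⟩
    obtain ⟨c, hcdef⟩ : ∃ c, c = Module.finrank F (W ⊓ C : Submodule F V) := ⟨_, rfl⟩
    rw [← hd] at h1 hdvd
    rw [← hcdef] at h1 hc
    by_cases hd0 : d = 0
    · left
      omega
    · right
      have had : a ≤ d := Nat.le_of_dvd (Nat.pos_of_ne_zero hd0) hdvd
      refine ⟨by omega, ?_⟩
      obtain ⟨k, hk⟩ := hdvd
      have hmod : m % a = c % a := by
        rw [← h1, hk, Nat.mul_add_mod]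
      rw [hmod]
      exact (Nat.mod_le c a).trans hc
  · intro h
    by_cases hmC : m ≤ Module.finrank F C
    · obtain ⟨W, hWC, hWm⟩ := exists_sub_finrank C m hmC
      refine ⟨W, hWm, ?_⟩
      rintro _ ⟨w, hw, rfl⟩
      rw [hCfix w (hWC hw)]
      exact hw
    · have h' : a ≤ m ∧ m % a ≤ Module.finrank F C := by
        rcases h with h | h
        · exact absurd h hmC
        · exact h
      obtain ⟨ham, hmod⟩ := h'
      obtain ⟨k, hk⟩ : ∃ k, k = min s (m / a) := ⟨_, rfl⟩
      have hks : k ≤ s := by rw [hk]; exact min_le_left _ _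
      have hkm : k ≤ m / a := by rw [hk]; exact min_le_right _ _
      have hdm := Nat.div_add_mod m a
      have hka : k * a ≤ m := by
        calc k * a ≤ (m / a) * a := Nat.mul_le_mul_right a hkm
          _ ≤ m := Nat.div_mul_le_self m a
      have hcC : m - k * a ≤ Module.finrank F C := by
        by_cases hcase : m / a ≤ s
        · have : k = m / a := by rw [hk]; exact min_eq_right hcase
          rw [this]
          have : m - m / a * a = m % a := by
            rw [mul_comm]
            omega
          rw [this]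
          exact hmod
        · have : k = s := by rw [hk]; exact min_eq_left (by omega)
          rw [this]
          omega
      obtain ⟨C', hC'C, hC'dim⟩ := exists_sub_finrank C (m - k * a) hcC
      obtain ⟨J, -, hJcard⟩ := Finset.exists_subset_card_eq
        (s := (Finset.univ : Finset (Fin s))) (n := k) (by rw [Finset.card_univ, Fintype.card_fin]; exact hks)
      refine ⟨C' ⊔ ⨆ j ∈ J, U j, ?_, ?_⟩
      · have hdisj : Disjoint C' (⨆ j ∈ J, U j) := by
          refine hdisjC.mono hC'C ?_
          exact iSup₂_le fun j _ => le_iSup U j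
        have h3 := Submodule.finrank_sup_add_finrank_inf_eq C' (⨆ j ∈ J, U j)
        rw [hdisj.eq_bot, finrank_bot, add_zero, hC'dim, finrank_biSup U hUdim hindU, hJcard] at h3
        rw [h3]
        omega
      · refine inv_sup ?_ (inv_biSup U hUinv J)
        rintro _ ⟨w, hw, rfl⟩
        rw [hCfix w (hC'C hw)]
        exact hw

end Cfsg.Agent.S5952
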